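import Cfsg.Statements.S4508
import Cfsg.Agent.Small.E2
import Cfsg.Agent.CharDeep.Det

set_option autoImplicit false
open Cfsg

namespace Cfsg.Agent.S4508

open Cfsg.Agent.Small Cfsg.Agent.Char Cfsg.Agent.Block Subgroup

theorem prod_eq {ι : Type*} [Fintype ι] (ζ : ι → ℂ) {e t : ℕ} (he : Even e) (h0 : 0 < e)
    (h1 : ∀ i, ζ i ^ e = 1) (h2 : ∀ k, 0 < k → k < e → ∑ i, ζ i ^ k = 0)
    (ht : Fintype.card ι = e * t) : ∏ i, ζ i = (-1) ^ t := by
  classical
  have hω := Complex.isPrimitiveRoot_exp e h0.ne'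
  have h3 := congrArg (Polynomial.eval 0) (Polynomial.X_pow_sub_one_eq_prod h0 hω)
  simp only [Polynomial.eval_sub, Polynomial.eval_pow, Polynomial.eval_X, Polynomial.eval_one,
    Polynomial.eval_prod, Polynomial.eval_C, zero_pow h0.ne', zero_sub] at h3
  rw [Finset.prod_neg, hω.card_nthRootsFinset, he.neg_one_pow, one_mul] at h3
  rw [h3, ← Finset.prod_pow, ← Finset.prod_fiberwise_of_maps_to (s := Finset.univ) (g := ζ)
    fun i _ => (Polynomial.mem_nthRootsFinset h0 1).2 (h1 i)]
  refine Finset.prod_congr rfl fun w hw => ?_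
  have hw := (Polynomial.mem_nthRootsFinset h0 1).1 hw
  have w0 : w ≠ 0 := fun e => by simp [e, h0.ne'] at hw
  rw [Finset.prod_congr rfl fun i hi => (Finset.mem_filter.1 hi).2, Finset.prod_const]
  congr 1
  have h4 : ∑ i, ∑ k ∈ Finset.range e, (ζ i / w) ^ k = (e * t : ℕ) := by
    rw [Finset.sum_comm, Finset.sum_eq_single 0 (fun k hk k0 => ?_) (by simp [h0.ne'])]
    · simp [ht]
    · simp only [div_pow, ← Finset.sum_div]
      rw [h2 k (Nat.pos_of_ne_zero k0) (Finset.mem_range.1 hk), zero_div]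
  have h5 : ∀ i, ∑ k ∈ Finset.range e, (ζ i / w) ^ k = if ζ i = w then (e : ℂ) else 0 := fun i => by
    split_ifs with h
    · simp [h, w0]
    · rw [geom_sum_eq (by rwa [Ne, div_eq_one_iff_eq w0]), div_pow, h1, hw]; simp
  simp only [h5, ← Finset.sum_filter, Finset.sum_const, nsmul_eq_mul] at h4
  exact Nat.eq_of_mul_eq_mul_left h0 (by rw [mul_comm]; exact_mod_cast h4)

/-- Let the finite group G contain an element x of prime order p with C_G(x) = ⟨x⟩, and let t be the number of conjugacy classes of elements of order p. If G has an irreducible character of degree p − 1, then t is even or the commutator subgroup has even index. -/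
theorem result {G : Type*} [Group G] [Finite G] (p : ℕ) (hp : p.Prime) (x : G) (hx : orderOf x = p) (hC : Subgroup.centralizer ({x} : Set G) = Subgroup.zpowers x) (t : ℕ) (ht : Nat.card {C : ConjClasses G // ∃ g ∈ C.carrier, orderOf g = p} = t) (χ : Cfsg.IrrCharacter G) (hχ : Cfsg.charDegree (χ : G → ℂ) + 1 = p) : Even t ∨ Even (commutator G).index := by
  classical
  have := Fact.mk hp
  have h := defOne_bot hx hC
  rw [h.card_classes'] at ht
  have h1 := index_mul_card_EE E[h]
  rw [ht] at h1
  have h2 := hp.two_le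
  by_cases hE : E[h] = ⊥
  · have := (h.index_commutator_of_bot hE).1
    rw [hE, card_bot, mul_one] at h1
    rw [this, h1]
    exact hp.eq_two_or_odd'.symm.imp (fun h => h.tsub_odd odd_one) fun h => by rw [h]; decide
  have hp2 : p ≠ 2 := by
    rintro rfl
    exact hE (card_eq_one.1 (Nat.eq_one_of_mul_eq_one_left h1))
  refine (Nat.even_or_odd t).imp_right fun ho => ?_
  have he : Even (Nat.card E[h]) := ((Nat.even_mul.1
    (h1 ▸ (hp.odd_of_ne_two hp2).tsub_odd odd_one)).resolve_left (Nat.not_even_iff_odd.2 ho))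
  have hfix : fixd p x χ.1 = 0 := by
    obtain ⟨X, φ, δ, ε, s⟩ := h.exists_pshape
    have hb : χ ∈ blk p x (irrOne (⊥ : Subgroup G)) := by
      convert h.mem_blk_of_not_dvd (χ := χ) (Nat.not_dvd_of_pos_of_lt (by omega) (by omega))
    have k : ∀ a b, a < p → a = p * b → b = 0 := fun a b h1 h2 => by
      by_contra h0
      have := Nat.le_mul_of_pos_right p (Nat.pos_of_ne_zero h0)
      omega
    have e0 : 0 < Nat.card E[h] := Nat.card_pos
    have e1 := PShape.card_E_lt (h := h)
    rcases (s.mem_blk χ).1 hb with hX | ⟨a, rfl⟩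
    · rcases s.δ_sign χ hX with e | e
      · have h3 := s.X_pos hX e
        obtain ⟨m, hm⟩ : ∃ m, fixd p x χ.1 = m + 1 := ⟨fixd p x χ.1 - 1, by
          rcases h0 : fixd p x χ.1 with _ | _
          · rw [h0] at h3; omega
          · rfl⟩
        rw [hm, mul_add] at h3
        have := k (p - 2) m (by omega) (by omega)
        rw [this] at h3; omega
      · exact k 0 _ (by omega) (by have := s.X_neg hX e; omega)
    · rcases s.ε_sign with e | e
      · exact k (p - 1 - Nat.card E[h]) _ (by omega) (by have := s.φ_pos a e; omega)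
      · have h3 := s.φ_neg a e
        obtain ⟨m, hm⟩ : ∃ m, fixd p x (φ a).1 = m + 1 := ⟨fixd p x (φ a).1 - 1, by
          rcases h0 : fixd p x (φ a).1 with _ | _
          · rw [h0] at h3; omega
          · rfl⟩
        rw [hm, mul_add] at h3
        have := k (Nat.card E[h] - 1) m (by omega) (by omega)
        rw [this] at h3
        exact absurd (card_eq_one.1 (by omega)) hE
  obtain ⟨⟨_, n, rfl⟩, hn⟩ := IsCyclic.exists_ofOrder_eq_natCard (α := E[h])
  replace hn : orderOf (expo h.ord n) = Nat.card E[h] := (orderOf_coe _).trans hn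
  have n1 : expo h.ord n ≠ 1 := fun e => hE (card_eq_one.1 (by rw [← hn, e, orderOf_one]))
  have ne : (n : G) ^ Nat.card E[h] = 1 := by
    obtain ⟨j, hj⟩ := (mem_zpowers_iff_xp hx).1 (h.mem_zpowers_of_comm
      ((expo_eq_one_iff hx (n ^ Nat.card E[h])).1 (by rw [map_pow, ← hn, pow_orderOf_eq_one])))
    have h3 := conj_xp_expo hx n j
    rw [SubgroupClass.coe_pow] at hj
    rw [← hj, mul_assoc, ← (Commute.self_pow (n : G) _).inv_left.eq, mul_inv_cancel_left, hj] at h3
    rw [hj, xp_eq_one_iff hx]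
    by_contra h0
    exact n1 (Units.ext (mul_right_cancel₀ h0 ((xp_injective hx h3).symm.trans (one_mul j).symm)))
  have hv : ∀ k, 0 < k → k < Nat.card E[h] → χ.1 ((n : G) ^ k) = 0 := fun k k0 k1 =>
    apply_eq_zero_of_fixd hx χ.2.isCharacter hfix (n := n ^ k) (by
      rw [map_pow]; exact pow_ne_one_of_lt_orderOf k0.ne' (hn ▸ k1))
  have hd : CharDeep.detHom χ.2.isCharacter n = -1 := by
    obtain ⟨d, ρ, -, e⟩ := id χ.2
    obtain ⟨ζ, z1, z2, z3⟩ := exists_eigenvalues_rep ρ (n : G)
    refine Units.ext ?_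
    rw [CharDeep.coe_detHom, ← e, CharDeep.detChar_character, z3,
      prod_eq ζ (t := t) he Nat.card_pos (fun i => ?_) (fun k k0 k1 => ?_) ?_, ho.neg_one_pow]
    · rfl
    · rw [Fintype.card_fin, ← charDegree_character ρ, e, mul_comm, h1]; omega
    · obtain ⟨c, hc⟩ := orderOf_dvd_of_pow_eq_one ne
      rw [hc, pow_mul, z1, one_pow]
    · have := z2 k
      simp only [zpow_natCast] at this
      rw [← this, e, hv k k0 k1]
  have h3 : commutator G ≤ (CharDeep.detHom χ.2.isCharacter).ker := Abelianization.commutator_subset_ker _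
  refine even_iff_two_dvd.2 (Dvd.dvd.trans ?_ (index_dvd_of_le h3))
  rw [index_ker]
  have := orderOf_dvd_natCard (⟨_, n, hd⟩ : (CharDeep.detHom χ.2.isCharacter).range)
  rwa [← orderOf_coe, ← orderOf_units, Units.val_neg, Units.val_one, orderOf_neg_one,
    if_neg (by simp)] at this

end Cfsg.Agent.S4508
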