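import Cfsg.Statements.S0824
import Cfsg.Agent.Classical.Heart

set_option autoImplicit false
open Cfsg

namespace Cfsg.Agent.S0824

open Cfsg.Agent.Classical Cfsg.Agent.Geom Cfsg.Agent.Geom.Formed Module

/-- O⁻_4(2) ≅ S_5: the isometry group of the form x y + z_1² + z_1 z_2 + z_2² over the field with 2 elements is isomorphic to the symmetric group on 5 letters. -/
theorem result {F : Type*} [Field F] [Fintype F] (hF : Fintype.card F = 2) : Nonempty (↥(Cfsg.isometryGroup F (Cfsg.quadFormMinus 1 F 1 1)) ≃* Equiv.Perm (Fin 5)) := by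
  have := charP_two_of_card hF
  obtain ⟨φ, hφ⟩ := exists_perm_heartQ (F := F) (n := 5) (m := 2) (by simp) (by simp) (by decide)
  have hn := nondeg_of_polar_symp (polar_heartQ (F := F) (m := 2))
  have h8 : Nat.card (Equiv.Perm (Fin 5)) = 120 := by simp [Fintype.card_perm, Nat.factorial]
  have h0 : ∀ a : F, a = 0 ∨ a = 1 := fun a => by
    have := FiniteField.pow_card a
    rw [hF, pow_two] at this
    exact IsIdempotentElem.iff_eq_zero_or_one.1 this
  rw [← coe_quadMinus]
  rcases wittIndex_even hn (m := 1) (by simp) with hk | hk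
  · have h1 : Nat.card (OG (heartQ F 2)) = 72 :=
      (card_isom_plus 1 hn hk (by simp)).trans (by simp [hF])
    have h2 := Subgroup.card_dvd_of_injective φ hφ
    rw [h1, h8] at h2
    omega
  · obtain ⟨e, he⟩ := exists_isIso_minus hn (m := 1) (by simp) hk (a := 1) (b := 1) fun a b h => by
      rcases h0 a with rfl | rfl <;> rcases h0 b with rfl | rfl <;> simp_all [CharTwo.add_self_eq_zero]
    have h1 : Nat.card (OG (heartQ F 2)) = 120 :=
      (card_isom_minus 1 hn hk (by simp)).trans (by simp [hF])
    have : Finite (OG (heartQ F 2)) := Nat.finite_of_card_ne_zero (by omega)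
    exact (equiv_of_injective φ hφ (by omega)).map fun e' =>
      (isometryEquiv _).trans (he.isomCongr.symm.trans e')

end Cfsg.Agent.S0824
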