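import Cfsg.Statements.S0444
import Cfsg.Agent.Fischer.Small
-- import your own Cfsg.Agent.* helpers here

set_option autoImplicit false
open Cfsg

namespace Cfsg.Agent.S0444

/-- Two members of a set of 3-transpositions which do not commute generate a subgroup isomorphic to the symmetric group on three letters. -/
theorem result {G : Type*} [Group G] {E : Set G} (hE : Cfsg.IsThreeTranspositionSet E) {d e : G} (hd : d ∈ E) (he : e ∈ E) (h : ¬ Commute d e) : Nonempty (Subgroup.closure ({d, e} : Set G) ≃* Equiv.Perm (Fin 3)) := by
  open Fischer in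
  obtain ⟨φ, h1, h2⟩ := hom_S3 (TT.sq hE hd) (TT.sq hE he) (TT.br hE hd he h)
  have hi := hom_S3_injective (φ := φ) (by rw [h1, h2]; rintro rfl; exact h (Commute.refl _))
  have := range_hom_S3 φ
  rw [h1, h2] at this
  exact ⟨(MulEquiv.subgroupCongr this.symm).trans (MonoidHom.ofInjective hi).symm⟩

end Cfsg.Agent.S0444
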