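import Cfsg.Statements.S0302
import Cfsg.Agent.Classical.LowIso

set_option autoImplicit false
open Cfsg

namespace Cfsg.Agent.S0302

open Cfsg.Agent.Classical Cfsg.Agent.Geom Cfsg.Agent.Geom.Formed Module

/-- PΩ^+_6(q) is isomorphic to PSL_4(q). -/
theorem result {F : Type*} [Field F] [Fintype F] : Nonempty (Cfsg.POmega F (Cfsg.quadFormPlus 3 F) ≃* Matrix.ProjectiveSpecialLinearGroup (Fin 4) F) := by
  obtain ⟨f, hf⟩ := exists_hom_O6p (F := F)
  have hn := quadPlus_nondeg F 3
  have hp := commutator_SL_eq_top (ι := Fin 4) (F := F) (by simp)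
  have : Group.IsPerfect (Matrix.SpecialLinearGroup (Fin 4) F) := ⟨hp⟩
  obtain ⟨e⟩ := low_iso hn (notExc_of_finrank (by simp)) (by simp) f sl_neg_one_eq
    sl_neg_one_mem hf (hom_units_int_of_perfect hp) (by
      have h1 := card_SL_mul (F := F) 4 (by simp)
      have hq := Finite.one_lt_card (α := F)
      refine Nat.eq_of_mul_eq_mul_left (Nat.sub_pos_of_lt hq) ?_
      rw [card_isom_plus 2 hn (quadPlus_wittIndex F 3) (by simp), mul_left_comm _ 2, h1]
      have h2 : ∀ a b, a ≤ b → Nat.card F ^ a ≤ Nat.card F ^ b := fun a b => Nat.pow_le_pow_right (by omega)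
      simp only [Finset.prod_range_succ, Finset.prod_range_zero, Fin.prod_univ_four]
      change _ = 2 * ((Nat.card F ^ 4 - Nat.card F ^ 0) * (Nat.card F ^ 4 - Nat.card F ^ 1) *
        (Nat.card F ^ 4 - Nat.card F ^ 2) * (Nat.card F ^ 4 - Nat.card F ^ 3))
      zify [h2 0 4 (by simp), h2 1 4 (by simp), h2 2 4 (by simp), h2 3 4 (by simp), hq.le,
        Nat.one_le_pow _ _ (zero_lt_one.trans hq)]
      ring) (Group.IsPerfect.center_quotient_center_eq_bot _)
  rw [← coe_quadPlus]
  exact ⟨(pOmegaEquiv _).trans e⟩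

end Cfsg.Agent.S0302
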