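import Cfsg.Statements.S0816
import Cfsg.Agent.AutCl.OutCl

set_option autoImplicit false
open Cfsg

namespace Cfsg.Agent.S0816

/-- |Aut(PΩ_(2m+1)(q))| = 2 f · |PΩ_(2m+1)(q)| for q = p^f odd and m ≥ 3 (for the form quadFormOdd). -/
theorem result {F : Type*} [Field F] [Fintype F] (p f : ℕ) [Fact p.Prime] (hf : 1 ≤ f) (hF : Fintype.card F = p ^ f) (hodd : Odd p) (m : ℕ) (hm : 3 ≤ m) : Nat.card (MulAut (Cfsg.POmega F (Cfsg.quadFormOdd m F))) = 2 * f * Nat.card (Cfsg.POmega F (Cfsg.quadFormOdd m F)) := by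
  open Cfsg.Agent.AutCl Cfsg.Agent.Geom in
  have h2 : (2 : F) ≠ 0 := two_ne_zero_of_odd_card (hF ▸ hodd.pow)
  rw [← coe_quadOdd]
  have hQ := quadOdd_nondeg F m h2
  have h7 : 7 ≤ Fintype.card (Unit ⊕ (Fin m ⊕ Fin m)) := by simp; omega
  have C := clO hQ h7
  rw [C.card_aut (clO_surj hQ h7 ?_), ← C.card_range_outHom, card_out_odd hQ h7
    ⟨m, by simp; omega⟩ (std_odd m).fld_surj, card_ringAut hF]
  rcases hm.eq_or_lt with rfl | h
  · exact Or.inr (quadOdd_wittIndex F 3 h2)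
  · exact Or.inl (by simp; omega)

end Cfsg.Agent.S0816
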