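import Cfsg.Statements.S0817
import Cfsg.Agent.ChAut.OutD4

set_option autoImplicit false
open Cfsg

namespace Cfsg.Agent.S0817

/-- |Aut(PΩ⁺_2m(q))| for q = p^f, m ≥ 4: |PΩ⁺_2m(q)| times f, times 3 when m = 4, times 2 if p = 2, and times 8 or 4 if p is odd according as m(q−1)/2 is even or odd. -/
theorem result {F : Type*} [Field F] [Fintype F] (p f : ℕ) [Fact p.Prime] (hf : 1 ≤ f) (hF : Fintype.card F = p ^ f) (m : ℕ) (hm : 4 ≤ m) : Nat.card (MulAut (Cfsg.POmega F (Cfsg.quadFormPlus m F))) = (if m = 4 then 3 else 1) * (if p = 2 then 2 else (if Even (m * (p ^ f - 1) / 2) then 8 else 4)) * f * Nat.card (Cfsg.POmega F (Cfsg.quadFormPlus m F)) := by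
  open Cfsg.Agent.AutCl Cfsg.Agent.ChAut Cfsg.Agent.Chev Cfsg.Lie Cfsg.Agent.Geom in
  have := charP_of_card_eq hF
  rcases hm.eq_or_lt with rfl | h
  · obtain ⟨e⟩ := equivD4 F
    rw [← Nat.card_congr (MulAut.congr e).toEquiv, ← Nat.card_congr e.toEquiv, card_aut_eq (center_group _ F),
      card_out_eq coxBD4, (grD4 F).2.1, card_zkerD4, card_ringAut hF, if_pos rfl, Nat.card_eq_fintype_card (α := F), hF]
    congr 2
    split_ifs with h1 h2
    · subst h1
      rw [Nat.coprime_two_left.2 (Nat.Even.sub_odd Nat.one_le_two_pow ((Nat.even_pow' (by omega)).2 even_two) odd_one)]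
      rfl
    · rw [Nat.gcd_eq_left (Nat.Odd.sub_odd ((Fact.out : p.Prime).odd_of_ne_two h1).pow odd_one).two_dvd]
      rfl
    · exact absurd ⟨p ^ f - 1, by omega⟩ h2
  rw [← coe_quadPlus, if_neg h.ne', one_mul]
  have hQ := quadPlus_nondeg F m
  have h7 : 7 ≤ Fintype.card (Fin m ⊕ Fin m) := by simp; omega
  have C := clO hQ h7
  rw [C.card_aut (clO_surj hQ h7 (Or.inl (by simp; omega))), ← C.card_range_outHom,
    card_out_even hQ h7 ⟨m, by simp⟩ (std_plus m).fld_surj, card_ringAut hF]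
  congr 2
  by_cases hp : p = 2
  · rw [if_pos hp, if_pos ((two_eq_zero_iff F p).2 hp)]
  · have h2 := (two_eq_zero_iff F p).not.2 hp
    have ho : Odd (p ^ f) := ((Fact.out : p.Prime).odd_of_ne_two hp).pow
    rw [if_neg hp, if_neg h2, negOne_mem_plus_iff hQ h2 (m := m) (by simp; omega) (quadPlus_wittIndex F m), hF]
    simp only [even_half_iff ho]
    split_ifs <;> rfl

end Cfsg.Agent.S0817
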