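import Cfsg.Statements.S0818
import Cfsg.Agent.AutCl.OutO

set_option autoImplicit false
open Cfsg

namespace Cfsg.Agent.S0818

/-- |Aut(PΩ⁻_2m(q))| for q = p^f, m ≥ 4 (form quadFormMinus (m−1) with anisotropic binary part): |PΩ⁻_2m(q)| times f, times 2 if p = 2, and times 4 or 8 if p is odd according as m(q−1)/2 is even or odd. -/
theorem result {F : Type*} [Field F] [Fintype F] (p f : ℕ) [Fact p.Prime] (hf : 1 ≤ f) (hF : Fintype.card F = p ^ f) (m : ℕ) (hm : 4 ≤ m) (a b : F) (hab : ∀ z₁ z₂ : F, z₁ ^ 2 + a * z₁ * z₂ + b * z₂ ^ 2 = 0 → z₁ = 0 ∧ z₂ = 0) : Nat.card (MulAut (Cfsg.POmega F (Cfsg.quadFormMinus (m - 1) F a b))) = (if p = 2 then 2 else (if Even (m * (p ^ f - 1) / 2) then 4 else 8)) * f * Nat.card (Cfsg.POmega F (Cfsg.quadFormMinus (m - 1) F a b)) := by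
  open Cfsg.Agent.AutCl Cfsg.Agent.Geom in
  have := charP_of_card_eq hF
  obtain ⟨k, rfl⟩ : ∃ k, m = k + 1 := ⟨m - 1, by omega⟩
  rw [Nat.add_sub_cancel, ← coe_quadMinus]
  obtain ⟨hQ, h7, hs⟩ := minus_surj (k := k) (by omega) hab
  obtain ⟨c, hc, -⟩ := exists_frob_minus hF k hab
  have C := clO hQ h7
  rw [C.card_aut hs, ← C.card_range_outHom, card_out_even hQ h7 ⟨k + 1, by simp; omega⟩
    (surj_of_frob _ p hc), card_ringAut hF]
  congr 2
  by_cases hp : p = 2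
  · rw [if_pos hp, if_pos ((two_eq_zero_iff F p).2 hp)]
  · have h2 := (two_eq_zero_iff F p).not.2 hp
    have ho : Odd (p ^ f) := ((Fact.out : p.Prime).odd_of_ne_two hp).pow
    rw [if_neg hp, if_neg h2, negOne_mem_minus_iff hQ h2 (m := k) (by simp; omega)
      (quadMinus_wittIndex F k hab), hF]
    simp only [even_half_iff ho]
    have := Nat.odd_iff.1 (ho.pow (n := k + 1))
    split_ifs <;> omega

end Cfsg.Agent.S0818
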