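import Cfsg.Statements.S5652
import Cfsg.Agent.Root.Max2

set_option autoImplicit false
open Cfsg

namespace Cfsg.Agent.S5652
open Cfsg.Agent.Root

open Cfsg.Agent.Geom Cfsg.Agent.AutCl Module Mx

theorem tv_gen {F : Type*} [Field F] {m : ℕ} {X : Subgroup ((Fin m ⊕ Fin m → F) ≃ₗ[F] (Fin m ⊕ Fin m → F))}
    (h : ∀ v c, HasE (sympFormed m F) X v 0 c) : (sympFormed m F).isom ≤ X := by
  intro g hg
  have := Classical.eq_top_of_spT_mem (X.comap
    ((sympFormed m F).isom.subtype.comp (spEquiv m F).toMonoidHom)) fun v c =>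
      (h v c).mem ⟨⟨rfl, sympB_isAlt m F v⟩, by simp, by simp [sympFormed, Formed.ofAlt],
        by simp [sympFormed, Formed.ofAlt], fun x => by
          refine (spEquiv_apply m F _ x).trans ((Classical.spT_smul v c x).trans ?_)
          simp [Classical.sympForm_swap x v]⟩
  simpa using this.ge (Subgroup.mem_top ((spEquiv m F).symm ⟨g, hg⟩))

theorem isE_tv {F : Type*} [Field F] {m : ℕ} {v : Fin m ⊕ Fin m → F} {c : F}
    {g : (Fin m ⊕ Fin m → F) ≃ₗ[F] (Fin m ⊕ Fin m → F)}
    (h : ∀ x, g x = x - (c * sympForm m F v x) • v) : IsE (sympFormed m F) v 0 c g :=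
  ⟨⟨rfl, sympB_isAlt m F v⟩, by simp, by simp [sympFormed, Formed.ofAlt],
    by simp [sympFormed, Formed.ofAlt], fun x => by rw [h]; simp [sub_eq_add_neg]⟩

theorem main {F : Type*} [Field F] [Finite F] (m : ℕ) (hm : 7 ≤ m) (hc : ringChar F = 2)
    (Q : QuadraticForm F (Fin m ⊕ Fin m → F)) (hQ : (Formed.ofQuad Q).Nondeg)
    (hpol : ∀ u v, QuadraticMap.polar Q u v = Cfsg.sympForm m F u v) :
    Geo.IsMaximalIn (sympFormed m F).isom (Formed.ofQuad Q).isom := by
  have h2 : (2 : F) = 0 := by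
    have := (ringChar.spec F 2).2 (by rw [hc]); exact_mod_cast this
  have hd : finrank F (⊤ : Submodule F (Fin m ⊕ Fin m → F)) = m + m := by simp
  have hle : (Formed.ofQuad Q).isom ≤ (sympFormed m F).isom := fun g hg =>
    (mem_sympFormed_isom m F).2 fun u v => by rw [← hpol, ← hpol]; exact hg.1 u v
  have hv : ∀ w : Fin m ⊕ Fin m → F, w ≠ 0 → ∀ b : F, ∃ v, Q v = 1 ∧ QuadraticMap.polar Q w v = b := by
    intro w hw b
    obtain ⟨y, hy⟩ := hQ.exists_eq_one hw
    obtain ⟨x, -, hx, h1⟩ := room hQ (nondeg_top hQ) ![w] (by omega) (x₀ := b • y) trivial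
    have h1 : QuadraticMap.polar Q w x = b := by
      have := h1 0; simp only [Matrix.cons_val_zero, map_smul, hy] at this; simpa using this
    obtain ⟨e, -, heR, he, h3⟩ := exists_sing_pf (Formed.ofQuad Q) ![w, x] (U := ⊤)
      (R := Submodule.span F (Set.range ![w, x])) (by have := finrank_span_fam (F := F) ![w, x]; omega)
    obtain ⟨f, hf, hf1, -, hf2⟩ := hQ.exists_hyperbolic_partner heR
      ((Formed.mem_perp_span _).2 (by rintro _ ⟨i, rfl⟩; exact h3 i)) he.1 he.2
    rw [Formed.mem_perp_span] at hf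
    have a1 : QuadraticMap.polar Q w e = 0 := h3 0
    have a2 : QuadraticMap.polar Q x e = 0 := h3 1
    have a3 : QuadraticMap.polar Q w f = 0 := hf _ ⟨0, rfl⟩
    have a4 : QuadraticMap.polar Q x f = 0 := hf _ ⟨1, rfl⟩
    have a5 : QuadraticMap.polar Q e f = 1 := hf2
    have a6 : Q x = 0 := hx.1
    have a7 : Q e = 0 := he.1
    have a8 : Q f = 0 := hf1
    exact ⟨x + (e + f), by simp [quad_add, a2, a4, a5, a6, a7, a8], by simp [a1, a3, h1]⟩
  obtain ⟨e, -, f, -, hef⟩ := exists_pair hQ (nondeg_top hQ) (by omega)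
  refine max_crit hle ?_ fun X h1 h3 g hg hg' => ?_
  · obtain ⟨g, hg⟩ := exists_isE (sympFormed_nondeg m F) (p := e) (a := 0) (d := 1)
      ⟨rfl, sympB_isAlt m F e⟩ (by simp) (by simp [sympFormed, Formed.ofAlt])
      (by simp [sympFormed, Formed.ofAlt])
    refine ⟨g, hg.mem_isom, fun h => ?_⟩
    have := h.2 f
    rw [hg.app, sympFormed_B, sympFormed_B, ← hpol, ← hpol, hef.polar_eq] at this
    simp [quad_sub, ← sub_eq_add_neg, hef.Q_left, hef.polar_eq', hef.Q_right] at this
  have hW : ∀ v, Q v = 1 → HasE (sympFormed m F) X v 0 1 := fun v h =>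
    ⟨_, h1 (refl Q v).2, isE_tv fun x => by rw [refl_apply, h, hpol]; simp⟩
  by_cases hA : ∀ w, w ≠ 0 → HasE (sympFormed m F) X w 0 1 → Q w = 1
  · have key : ∀ g ∈ X, ∀ v, Q v ≠ 0 → Q (g v) = Q v := by
      intro g hg v hv
      obtain ⟨c, hc'⟩ := FiniteField.isSquare_of_char_two hc (Q v)
      have hc0 : c ≠ 0 := by rintro rfl; simp [hc'] at hv
      have h4 : Q (c⁻¹ • v) = 1 := by rw [quad_smul, hc']; field_simp
      have h5 := hA _ (by simpa [hc0] using fun h : v = 0 => hv (by simp [h]))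
        (((hW _ h4).conj hg (h3 hg)).congr (map_zero _) rfl)
      rw [map_smul, quad_smul] at h5
      rw [hc']; field_simp at h5; linear_combination h5
    refine absurd (Formed.mem_isom_ofQuad.2 fun v => ?_) hg'
    by_cases h : Q (g v) = 0
    · by_contra h'
      exact h' (key g hg v fun h'' => h' (h.trans h''.symm))
    · simpa using (key _ (X.inv_mem hg) _ h).symm
  push Not at hA
  obtain ⟨w, hw, hT, ha⟩ := hA
  have tr : ∀ u v, u ≠ 0 → v ≠ 0 → Q v = Q u → HasE (sympFormed m F) X u 0 1 →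
      HasE (sympFormed m F) X v 0 1 := fun u v hu hv h h' => by
    obtain ⟨s, hs, rfl⟩ := hQ.witt_vec hu hv (by simp [polar_self', h2]) h
    exact (h'.conj (h1 hs) (hle hs)).congr (map_zero _) rfl
  have all : ∀ v, v ≠ 0 → HasE (sympFormed m F) X v 0 1 := fun v hv0 => by
    obtain ⟨b, hb⟩ := FiniteField.isSquare_of_char_two hc ((Q v - 1) / (Q w - 1))
    obtain ⟨u, hu, hb'⟩ := hv w hw b
    obtain ⟨s, hs, hs'⟩ := hT
    refine tr (s u) v (by simpa using fun h : u = 0 => by simp [h] at hu) hv0 ?_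
      (((hW u hu).conj hs (h3 hs)).congr (map_zero _) rfl)
    rw [hs'.app, sympFormed_B, sympFormed_B, ← hpol, ← hpol, hb']
    rw [div_eq_iff (sub_ne_zero.2 ha)] at hb
    simp [quad_add, quad_sub, ← sub_eq_add_neg, quad_smul, hu, QuadraticMap.polar_comm _ u w, hb']
    linear_combination hb
  refine tv_gen fun v c => ?_
  obtain ⟨d, rfl⟩ := FiniteField.isSquare_of_char_two hc c
  by_cases h : d • v = 0
  · exact ⟨1, X.one_mem, isE_tv fun x => by
      rw [mul_right_comm, mul_smul, h]; simp⟩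
  · exact ((all _ h).of_smul (by rintro rfl; simp at h)).congr (by simp) (by simp)

/-- For a finite field F of characteristic two and m ≥ 7, let Q be a non-degenerate quadratic form on F^(2m) whose polar form is the standard alternating form. Then the elements of Sp_2m(F) that are similarities of Q (they are exactly the isometries of Q) form a maximal subgroup of Sp_2m(F). -/
theorem result {F : Type*} [Field F] [Fintype F] (m : ℕ) (hm : 7 ≤ m) (heven : ¬ Odd (Fintype.card F)) (Q : (Fin m ⊕ Fin m → F) → F) (hQ : Cfsg.Geo.IsNondegenerateQuadraticForm Q) (hpol : ∀ u v, QuadraticMap.polar Q u v = Cfsg.sympForm m F u v) : Cfsg.Geo.IsMaximalIn (Cfsg.spGL m F) (Cfsg.Geo.quadSimilarityGroup Q ⊓ Cfsg.spGL m F) := by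
  obtain ⟨Q, rfl, h1⟩ := Mx.exists_quad hQ
  have hc : ringChar F = 2 := FiniteField.even_card_iff_char_two.2 (by
    rw [Nat.odd_iff] at heven; omega)
  refine Mx.isMaximalIn_of_equiv (Geom.glEquiv _ F) (fun g => by rw [mem_sympFormed_isom]; rfl)
    (fun g => ?_) (main m hm hc Q h1 hpol)
  refine ⟨fun ⟨⟨c, hc⟩, h⟩ => Formed.mem_isom_ofQuad.2 fun v => ?_, fun h => ⟨⟨1, fun v => by
    simpa using h.2 v⟩, fun u v => by rw [← hpol, ← hpol]; exact h.1 u v⟩⟩
  obtain ⟨e, -, f, -, hef⟩ := exists_pair h1 (nondeg_top h1) (by simp; omega)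
  have : sympForm m F (g.1.mulVec e) (g.1.mulVec f) = _ := h e f
  rw [← hpol, ← hpol, hef.polar_eq, QuadraticMap.polar, ← Matrix.mulVec_add, hc, hc, hc,
    hef.Q_left, hef.Q_right, quad_add, hef.Q_left, hef.Q_right, hef.polar_eq] at this
  rw [glEquiv_apply, hc]
  linear_combination Q v * this

end Cfsg.Agent.S5652
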