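import Cfsg.Statements.S0202
import Cfsg.Agent.Invol.Transfer
import Cfsg.Agent.Invol.ThreePoint

set_option autoImplicit false
open Cfsg

namespace Cfsg.Agent.S0202

open Cfsg.Agent.Invol in
theorem all_conj {G : Type*} [Group G] [Finite G] (P : Sylow 2 G) (hP : IsKleinFour (P : Subgroup G))
    {a b : G} (ha : a ∈ (P : Subgroup G)) (hb : b ∈ (P : Subgroup G)) (ha1 : a ≠ 1) (hb1 : b ≠ 1)
    (hab : a ≠ b) (hc : IsConj a b) : IsConj a (a * b) := by
  have : Fact (Nat.Prime 2) := ⟨Nat.prime_two⟩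
  have : IsMulCommutative P := IsKleinFour.isMulCommutative (G := (P : Subgroup G))
  obtain ⟨g, hg⟩ := isConj_iff.1 hc
  obtain ⟨n, hn, hn2⟩ := P.conj_eq_normalizer_conj_of_mem a g⁻¹ ha (by rw [inv_inv, hg]; exact hb)
  rw [inv_inv, hg] at hn2
  have hn' : n⁻¹ ∈ Subgroup.normalizer ((P : Subgroup G) : Set G) := inv_mem hn
  have h1 := (threePt_four hP ha hb ha1 hb1 hab).cycle_of_odd (fun h => P.not_dvd_index
    ((h.trans (Subgroup.relIndex_dvd_of_le_left _ (P : Subgroup G).le_centralizer)).trans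
      (Subgroup.relIndex_dvd_index_of_le Subgroup.le_normalizer))) hn'
      (by rw [conjPerm_apply, inv_inv, hn2])
  exact hc.trans (isConj_iff.2 ⟨_, h1⟩)

open Cfsg.Agent.Invol in
theorem dichotomy {G : Type*} [Group G] [Finite G] (P : Sylow 2 G) (hP : IsKleinFour (P : Subgroup G)) :
    (Nat.card {C : ConjClasses G // ∃ t : G, orderOf t = 2 ∧ ConjClasses.mk t = C} = 1 ∧
      ∃ a ∈ (P : Subgroup G), ∃ b ∈ (P : Subgroup G), a ≠ b ∧ IsConj a b) ∨
    (Nat.card {C : ConjClasses G // ∃ t : G, orderOf t = 2 ∧ ConjClasses.mk t = C} = 3 ∧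
      ∀ a ∈ (P : Subgroup G), ∀ b ∈ (P : Subgroup G), IsConj a b → a = b) := by
  obtain ⟨a, b, ha2, hb2, hc, ha1, hb1, hab, hV⟩ := exists_of_isKleinFour hP
  have ha : a ∈ (P : Subgroup G) := (hV a).2 (by simp)
  have hb : b ∈ (P : Subgroup G) := (hV b).2 (by simp)
  have hao := orderOf_two_iff.2 ⟨ha2, ha1⟩
  have hbo := orderOf_two_iff.2 ⟨hb2, hb1⟩
  have hco := orderOf_mul_of_commute ha2 hb2 hc hab
  have hall : ∀ t : G, orderOf t = 2 → IsConj a t ∨ IsConj b t ∨ IsConj (a * b) t := by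
    intro t ht
    obtain ⟨g, hg⟩ := exists_conj_invol_mem_sylow (mul_self_of ht) P
    have hc : IsConj (g * t * g⁻¹) t := (isConj_iff.2 ⟨g, rfl⟩ : IsConj t _).symm
    rcases (hV _).1 hg with h | h | h | h
    · exact absurd (by simpa using h) (ne_one_of ht)
    all_goals rw [h] at hc; tauto
  have e1 : a * (a * b) = b := mul_self_cancel ha2 b
  have e2 : b * (a * b) = a := by rw [hc.eq, mul_self_cancel hb2]
  by_cases h : IsConj a b ∨ IsConj a (a * b) ∨ IsConj b (a * b)
  · have h2 : IsConj a b ∧ IsConj a (a * b) := by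
      rcases h with h | h | h
      · exact ⟨h, all_conj P hP ha hb ha1 hb1 hab h⟩
      · exact ⟨e1 ▸ all_conj P hP ha (mul_mem ha hb) ha1 (ne_one_of hco) (by simpa using hb1) h, h⟩
      · have := all_conj P hP hb (mul_mem ha hb) hb1 (ne_one_of hco) (by simpa using ha1) h
        rw [e2] at this
        exact ⟨this.symm, this.symm.trans h⟩
    refine Or.inl ⟨card_classes_eq_one hao fun t ht => ?_, a, ha, b, hb, hab, h2.1⟩
    rcases hall t ht with h | h | h
    exacts [h, h2.1.trans h, h2.2.trans h]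
  · push Not at h
    obtain ⟨h1, h2, h3⟩ := h
    refine Or.inr ⟨card_classes_eq_three hao hbo hco h1 h2 h3 hall, fun x hx y hy hxy => ?_⟩
    have h1' : ¬ IsConj b a := fun h => h1 h.symm
    have h2' : ¬ IsConj (a * b) a := fun h => h2 h.symm
    have h3' : ¬ IsConj (a * b) b := fun h => h3 h.symm
    rcases (hV x).1 hx with rfl | rfl | rfl | rfl <;> rcases (hV y).1 hy with rfl | rfl | rfl | rfl <;>
      first | rfl | contradiction | exact (isConj_one_right.1 hxy).symm | exact isConj_one_left.1 hxy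

/-- If a Sylow 2-subgroup of a finite group is a Klein four-group, the group has one or three conjugacy classes of involutions. -/
theorem result {G : Type*} [Group G] [Finite G] (P : Sylow 2 G) (hP : IsKleinFour (P : Subgroup G)) : Nat.card {C : ConjClasses G // ∃ t : G, orderOf t = 2 ∧ ConjClasses.mk t = C} = 1 ∨ Nat.card {C : ConjClasses G // ∃ t : G, orderOf t = 2 ∧ ConjClasses.mk t = C} = 3 := by
  rcases dichotomy P hP with h | h
  exacts [Or.inl h.1, Or.inr h.1]

end Cfsg.Agent.S0202
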