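import Cfsg.Statements.S0203
import Cfsg.Agent.S0202

set_option autoImplicit false
open Cfsg

namespace Cfsg.Agent.S0203

/-- If a Sylow 2-subgroup P of a finite group G is a Klein four-group, then G has three classes of involutions if and only if P has a normal complement in G. -/
theorem result {G : Type*} [Group G] [Finite G] (P : Sylow 2 G) (hP : IsKleinFour (P : Subgroup G)) : Nat.card {C : ConjClasses G // ∃ t : G, orderOf t = 2 ∧ ConjClasses.mk t = C} = 3 ↔ ∃ N : Subgroup G, N.Normal ∧ Subgroup.IsComplement' N (P : Subgroup G) := by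
  have : Fact (Nat.Prime 2) := ⟨Nat.prime_two⟩
  rw [← Transfer.hasNormalPComplement_iff_sylow, Transfer.hasNormalPComplement_iff_controlsFusion P]
  rcases S0202.dichotomy P hP with ⟨h, a, ha, b, hb, hab, hc⟩ | ⟨h, h2⟩
  · rw [h]
    refine iff_of_false (by norm_num) fun h3 => ?_
    obtain ⟨g, rfl⟩ := isConj_iff.1 hc
    obtain ⟨z, hz, h4⟩ := h3 a ha g hb
    rw [(Invol.commute_of_mem_four hP hz ha).eq, mul_inv_cancel_right] at h4
    exact hab h4
  · refine iff_of_true h fun x hx g hg => ⟨1, one_mem _, ?_⟩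
    simpa using h2 x hx _ hg (isConj_iff.2 ⟨g, rfl⟩)

end Cfsg.Agent.S0203
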