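import Cfsg.Statements.S0717
import Cfsg.Agent.Perm.Orbital

set_option autoImplicit false
open Cfsg

namespace Cfsg.Agent.S0717

open Perm MulAction Char Finset Matrix

theorem mtw_inv {G : Type*} [Group G] {Ω : Type*} [Fintype Ω] [MulAction G Ω] (M : Matrix Ω Ω ℂ)
    (g : G) : mtw G M g⁻¹ = mtw G Mᵀ g := by
  rw [mtw, ← Equiv.sum_comp (toPerm g)]
  simp [mtw]

/-- All suborbits of a transitive group are self-paired (every pair of points is interchanged by some group element) if and only if the permutation character is multiplicity-free and each of its irreducible constituents is real-valued. -/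
theorem result {G : Type*} [Group G] [Fintype G] {Ω : Type*} [Fintype Ω] [MulAction G Ω] [MulAction.IsPretransitive G Ω] : (∀ a b : Ω, ∃ g : G, g • a = b ∧ g • b = a) ↔ ∀ χ : G → ℂ, Cfsg.IsIrrCharacter G χ → Cfsg.classInner (fun g : G => (Nat.card (MulAction.fixedBy Ω g) : ℂ)) χ ≠ 0 → Cfsg.classInner (fun g : G => (Nat.card (MulAction.fixedBy Ω g) : ℂ)) χ = 1 ∧ ∀ g : G, (starRingEnd ℂ) (χ g) = χ g := by
  classical
  have hπ : IsCharacter G (pch G Ω) := isCharacter_card_fixedBy Ω
  constructor
  · intro h χ hχ h0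
    have hs : ∀ M : Matrix Ω Ω ℂ, MInv G M → Mᵀ = M := fun M hM => Matrix.ext fun x y => by
      obtain ⟨g, h1, h2⟩ := h x y
      rw [transpose_apply, ← hM g x y, h1, h2]
    have h1 := (mf_iff_comm (ρ := permRep ℂ G Ω)).2 (fun S T hS hT => by
      obtain ⟨S, rfl⟩ := toLin'.surjective S
      obtain ⟨T, rfl⟩ := toLin'.surjective T
      rw [← mInv_iff] at hS hT
      change _ ∘ₗ _ = _ ∘ₗ _
      rw [← toLin'_mul, ← toLin'_mul, ← hs _ (hS.mul hT), transpose_mul, hs S hS, hs T hT]) χ hχ
    rw [character_permRep] at h1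
    obtain ⟨E, h2, -, h3, -⟩ := exists_mproj hχ (h1.resolve_left h0)
    exact ⟨h1.resolve_left h0, fun g => by rw [← hχ.apply_inv, ← h3, mtw_inv, hs E h2]⟩
  · intro h a b
    have hB := (mInv_orb (G := G) a b).sub (mInv_orb a b).transpose
    set B := orb G a b - (orb G a b)ᵀ with hB'
    have h1 : mtw G (B * B) = 0 := (hB.mul hB).isClassFunction.eq_zero_of_forall_classInner fun χ hχ => by
      by_cases h0 : classInner (pch G Ω) χ = 0
      · exact (hB.mul hB).inner_eq_zero hχ.isCharacter h0
      rw [hB.inner_sq hχ.isCharacter (h χ hχ h0).1, sq_eq_zero_iff, ← CharZero.eq_neg_self_iff,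
        ← classInner_neg_left, ← classInner_comp_equiv _ _ (Equiv.inv G)]
      congr 1 <;> funext g
      · rw [Equiv.inv_apply, mtw_inv]
        simp [hB', mtw]
      · rw [Equiv.inv_apply, hχ.apply_inv, (h χ hχ h0).2]
    have h2 : ∑ x, ∑ y, (if orb G a b x y = orb G a b y x then 0 else 1 : ℕ) = 0 := by
      rw [← Nat.cast_eq_zero (R := ℂ), ← neg_eq_zero, ← show mtw G (B * B) 1 = 0 from congrFun h1 1]
      simp only [mtw, one_smul, mul_apply, Nat.cast_sum, ← sum_neg_distrib, hB', Matrix.sub_apply,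
        transpose_apply, orb_apply]
      refine sum_congr rfl fun x _ => sum_congr rfl fun y _ => ?_
      split_ifs <;> simp_all
    have h3 := sum_eq_zero_iff.1 (sum_eq_zero_iff.1 h2 a (mem_univ _)) b (mem_univ _)
    simp only [orb_apply, mem_orbit_self, ↓reduceIte, ite_eq_left_iff, one_ne_zero, imp_false,
      not_not] at h3
    obtain ⟨g, e⟩ : (b, a) ∈ orbit G (a, b) := by
      by_contra hc
      simp [hc] at h3
    exact ⟨g, congrArg Prod.fst e, congrArg Prod.snd e⟩

end Cfsg.Agent.S0717
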