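import Cfsg.Statements.S0719
import Cfsg.Agent.S0717
import Cfsg.Agent.Char.Galois

set_option autoImplicit false
open Cfsg

namespace Cfsg.Agent.S0719

open Perm MulAction Char Finset Matrix

theorem card_orbit_eq_one {G Ω : Type*} [Group G] [MulAction G Ω] [IsPreprimitive G Ω] {a b : Ω}
    (hab : b ≠ a) (h : Nat.card (orbit (stabilizer G a) b) = 1) (c : Ω) :
    Nat.card (orbit (stabilizer G a) c) = 1 := by
  have : Nontrivial Ω := ⟨b, a, hab⟩
  have hco := IsPreprimitive.isCoatom_stabilizer_of_isPreprimitive G a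
  have h1 : stabilizer G a = stabilizer G b := ((hco.le_iff.1 fun g hg => congrArg Subtype.val
    ((Nat.card_eq_one_iff_unique.1 h).1.elim (⟨_, mem_orbit b (⟨g, hg⟩ : stabilizer G a)⟩ :
      orbit (stabilizer G a) b) ⟨b, mem_orbit_self b⟩)).resolve_left
        (IsPreprimitive.isCoatom_stabilizer_of_isPreprimitive G b).1).symm
  obtain ⟨g, rfl⟩ := exists_smul_eq G a b
  have h2 : Subgroup.normalizer (stabilizer G a : Set G) = ⊤ := hco.2 _ (lt_of_le_of_ne
    Subgroup.le_normalizer fun e => hab (show g ∈ stabilizer G a from e ▸ fun u => by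
      conv_rhs => rw [h1]
      simp [mul_smul]))
  obtain ⟨u, rfl⟩ := exists_smul_eq G a c
  have h3 : ∀ v : stabilizer G a, v • u • a = u • a := fun v => by
    have := (Subgroup.normalizer_eq_top_iff.1 h2).conj_mem' _ v.2 u
    rwa [mem_stabilizer_iff, mul_smul, mul_smul, inv_smul_eq_iff] at this
  exact Nat.card_eq_one_iff_unique.2 ⟨⟨fun ⟨_, v, e⟩ ⟨_, w, e'⟩ => Subtype.ext
    ((e.symm.trans (h3 v)).trans (e'.symm.trans (h3 w)).symm)⟩, ⟨⟨_, mem_orbit_self _⟩⟩⟩

theorem exists_two_orbits {G Ω : Type*} [Group G] [MulAction G Ω] [Finite Ω] {a : Ω}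
    (h : Nat.card (orbitRel.Quotient (stabilizer G a) Ω) = 3) : ∃ b c : Ω, b ≠ a ∧ c ≠ a ∧
    Nat.card (orbit (stabilizer G a) b) ≤ Nat.card (orbit (stabilizer G a) c) ∧
    1 + (Nat.card (orbit (stabilizer G a) b) + Nat.card (orbit (stabilizer G a) c)) = Nat.card Ω ∧
    ∀ d, d ≠ a → orbit (stabilizer G a) d = orbit (stabilizer G a) b ∨
      orbit (stabilizer G a) d = orbit (stabilizer G a) c := by
  classical
  have := Fintype.ofFinite (orbitRel.Quotient (stabilizer G a) Ω)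
  let q₀ : orbitRel.Quotient (stabilizer G a) Ω := Quotient.mk'' a
  have h6 := Nat.card_congr (selfEquivSigmaOrbits' (stabilizer G a) Ω)
  rw [Nat.card_sigma, ← add_sum_erase _ _ (mem_univ q₀), show Nat.card q₀.orbit = 1 from
    Nat.card_eq_one_iff_unique.2 ⟨⟨fun ⟨_, g, e⟩ ⟨_, g', e'⟩ => Subtype.ext
      ((e.symm.trans g.2).trans (e'.symm.trans g'.2).symm)⟩, ⟨⟨a, mem_orbit_self a⟩⟩⟩] at h6
  obtain ⟨q, r, h1, h2⟩ := card_eq_two.1 (show (univ.erase q₀).card = 2 by
    rw [card_erase_of_mem (mem_univ _), card_univ, ← Nat.card_eq_fintype_card, h])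
  rw [h2, sum_pair h1] at h6
  have h3 : ∀ d, d ≠ a ↔ Quotient.mk'' d = q ∨ Quotient.mk'' d = r := fun d => by
    rw [← mem_singleton (a := r), ← mem_insert, ← h2, mem_erase, and_iff_left (mem_univ _), not_iff_not]
    exact ⟨congrArg _, fun e => by obtain ⟨g, e⟩ := Quotient.exact' e; exact e.symm.trans g.2⟩
  obtain ⟨b, rfl⟩ := Quotient.mk''_surjective q
  obtain ⟨c, rfl⟩ := Quotient.mk''_surjective r
  have h4 : ∀ d, d ≠ a → orbit (stabilizer G a) d = orbit (stabilizer G a) b ∨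
      orbit (stabilizer G a) d = orbit (stabilizer G a) c := fun d hd =>
    ((h3 d).1 hd).imp (congrArg orbitRel.Quotient.orbit) (congrArg orbitRel.Quotient.orbit)
  rcases le_total (Nat.card (orbit (stabilizer G a) b)) (Nat.card (orbit (stabilizer G a) c)) with e | e
  · exact ⟨b, c, (h3 b).2 (.inl rfl), (h3 c).2 (.inr rfl), e, h6.symm, h4⟩
  · exact ⟨c, b, (h3 c).2 (.inr rfl), (h3 b).2 (.inl rfl), e, by rw [add_comm (Nat.card _)]; exact h6.symm,
      fun d hd => (h4 d hd).symm⟩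

theorem arith {m k : ℕ} {r s : ℤ} (h1 : 1 < k) (h2 : k < m) (h3 : k + r * (m - 1) + s * m = 0)
    (h4 : k ^ 2 + r ^ 2 * (m - 1) + s ^ 2 * m = 2 * m * k) :
    ∃ a, 0 < a ∧ m = 2 * a ^ 2 + 2 * a + 1 ∧ k = a * (2 * a + 1) := by
  obtain ⟨j, rfl⟩ : ∃ j, s = -j - r := ⟨-r - s, by ring⟩
  obtain rfl : r = k - j * m := by linarith
  obtain ⟨d, rfl⟩ := Nat.exists_eq_add_of_lt h2
  push_cast at h4
  have h5 : 2 * (k - j * (k + d)) ^ 2 + j ^ 2 * (k + d) = 2 * k :=
    mul_left_cancel₀ (show (k + d + 1 : ℤ) ≠ 0 by positivity) (by linear_combination h4)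
  have h6 : (1 : ℤ) < k := by exact_mod_cast h1
  have h7 : (0 : ℤ) ≤ d := by positivity
  have h8 : j ^ 2 < 4 := by nlinarith [sq_nonneg (k - j * (k + d)), sq_nonneg j]
  obtain rfl | rfl | rfl : j = -1 ∨ j = 0 ∨ j = 1 := by
    have := abs_lt_of_sq_lt_sq' (show j ^ 2 < 2 ^ 2 by simpa using h8) (by norm_num)
    omega
  · nlinarith
  · nlinarith
  · have h9 : k = d * (2 * d + 1) := by zify; linear_combination -h5
    exact ⟨d, Nat.pos_of_ne_zero (by rintro rfl; omega), by rw [h9]; ring, h9⟩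

/-- Groups of Wielandt type: if a primitive group of degree `2m` has rank 3 and permutation character `1 + χ₁ + χ₂` with irreducible `χ₁, χ₂` of degrees `m - 1` and `m`, then `m = 2a² + 2a + 1` for some positive integer `a` and the two non-trivial subdegrees are `a(2a+1)` and `(a+1)(2a+1)`. -/
theorem result {G : Type*} [Group G] [Fintype G] {Ω : Type*} [Fintype Ω] [MulAction G Ω] (hprim : MulAction.IsPreprimitive G Ω) {m : ℕ} (hm : Fintype.card Ω = 2 * m) (a₀ : Ω) (hrank : Nat.card (MulAction.orbitRel.Quotient (MulAction.stabilizer G a₀) Ω) = 3) (χ₁ χ₂ : G → ℂ) (h₁ : Cfsg.IsIrrCharacter G χ₁) (h₂ : Cfsg.IsIrrCharacter G χ₂) (hπ : (fun g : G => (Nat.card (MulAction.fixedBy Ω g) : ℂ)) = fun g => 1 + χ₁ g + χ₂ g) (hd₁ : χ₁ 1 = (m : ℂ) - 1) (hd₂ : χ₂ 1 = m) : ∃ a : ℕ, 0 < a ∧ m = 2 * a ^ 2 + 2 * a + 1 ∧ ∀ b : Ω, b ≠ a₀ → Nat.card (MulAction.orbit (MulAction.stabilizer G a₀) b) = a * (2 * a + 1) ∨ Nat.card (MulAction.orbit (MulAction.stabilizer G a₀)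 b) = (a + 1) * (2 * a + 1) := by
  classical
  have : Nonempty Ω := ⟨a₀⟩
  change pch G Ω = (fun _ => 1) + χ₁ + χ₂ at hπ
  have h12 : χ₁ ≠ χ₂ := fun e => by simp [← hd₂, ← e, sub_eq_add_neg] at hd₁
  have h0 := isIrrCharacter_one (G := G)
  have hi : ∀ χ, IsIrrCharacter G χ → classInner (pch G Ω) χ = (if (fun _ => 1) = χ then 1 else 0) +
      (if χ₁ = χ then 1 else 0) + if χ₂ = χ then 1 else 0 := fun χ hχ => by
    rw [hπ, classInner_add_left, classInner_add_left, h0.classInner_eq_ite hχ, h₁.classInner_eq_ite hχ,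
      h₂.classInner_eq_ite hχ]
  have h1 := hi _ h0
  rw [inner_pch_one, if_pos rfl] at h1
  have h01 : χ₁ ≠ fun _ => 1 := fun e => by simp [e, add_assoc, Ne.symm (e ▸ h12)] at h1
  have h02 : χ₂ ≠ fun _ => 1 := fun e => by simp [e, h01] at h1
  have hc : ∀ χ, IsIrrCharacter G χ → classInner (pch G Ω) χ ≠ 0 → χ = (fun _ => 1) ∨ χ = χ₁ ∨ χ = χ₂ :=
    fun χ hχ h => by
      by_contra! hc
      simp [hi χ hχ, hc.1.symm, hc.2.1.symm, hc.2.2.symm] at h
  have hi1 : classInner (pch G Ω) χ₁ = 1 := by simp [hi _ h₁, h01.symm, h12.symm]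
  have hi2 : classInner (pch G Ω) χ₂ = 1 := by simp [hi _ h₂, h02.symm, h12]
  have hσ : ∀ (σ : ℂ →+* ℂ) χ, IsIrrCharacter G χ → classInner (pch G Ω) χ ≠ 0 →
      (fun g => σ (χ g)) = χ := by
    have key : ∀ (σ : ℂ →+* ℂ) χ, IsIrrCharacter G χ → classInner (pch G Ω) χ ≠ 0 → χ ≠ (fun _ => 1) →
        (fun g => σ (χ g)) = χ₁ ∨ (fun g => σ (χ g)) = χ₂ := fun σ χ hχ h h' => by
      refine (hc _ (hχ.map_ringHom σ) ?_).resolve_left fun e => h' (funext fun g => σ.injective ?_)
      · have := classInner_map_ringHom (pch G Ω) hχ.isGeneralizedCharacter σ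
        simp only [map_natCast] at this
        rwa [show classInner (pch G Ω) _ = _ from this, map_ne_zero]
      · rw [congrFun e g, map_one]
    intro σ χ hχ h
    rcases hc χ hχ h with rfl | rfl | rfl
    · simp
    · refine (key σ _ hχ h h01).resolve_right fun e => ?_
      simpa [hd₁, hd₂, sub_eq_add_neg] using congrFun e 1
    · refine (key σ _ hχ h h02).resolve_left fun e => ?_
      simpa [hd₁, hd₂, sub_eq_add_neg] using congrFun e 1
  have hsw := S0717.result.2 fun χ hχ h => ⟨by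
    rcases hc χ hχ h with rfl | rfl | rfl
    exacts [inner_pch_one, hi1, hi2], congrFun (hσ (starRingEnd ℂ) χ hχ h)⟩
  have hex : ∀ M : Matrix Ω Ω ℂ, MInv G M → mtw G M 1 = classInner (mtw G M) (fun _ => 1) +
      classInner (mtw G M) χ₁ * (m - 1) + classInner (mtw G M) χ₂ * m := fun M hM => by
    have := hM.isClassFunction.eq_of_forall_classInner (((h0.isClassFunction.smul
      (classInner (mtw G M) fun _ => 1)).add (h₁.isClassFunction.smul (classInner (mtw G M) χ₁))).add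
      (h₂.isClassFunction.smul (classInner (mtw G M) χ₂))) fun χ hχ => by
        simp only [classInner_add_left, classInner_smul_left, h0.classInner_eq_ite hχ,
          h₁.classInner_eq_ite hχ, h₂.classInner_eq_ite hχ]
        by_cases h : classInner (pch G Ω) χ = 0
        · rw [hM.inner_eq_zero hχ.isCharacter h, if_neg, if_neg, if_neg]
          · simp
          · rintro rfl; exact one_ne_zero (hi2.symm.trans h)
          · rintro rfl; exact one_ne_zero (hi1.symm.trans h)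
          · rintro rfl; exact one_ne_zero (inner_pch_one.symm.trans h)
        · rcases hc χ hχ h with rfl | rfl | rfl <;> simp [h01, h02, h12, h01.symm, h02.symm, h12.symm]
    simpa [hd₁, hd₂] using congrFun this 1
  obtain ⟨b, c, hb, hc', h3, h4, h5⟩ := exists_two_orbits hrank
  rw [Nat.card_eq_fintype_card (α := Ω), hm] at h4
  have hA := mInv_orb (G := G) a₀ b
  have hint : ∀ χ, IsIrrCharacter G χ → classInner (pch G Ω) χ ≠ 0 →
      ∃ r : ℤ, classInner (mtw G (orb G a₀ b)) χ = r := fun χ hχ h =>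
    exists_int_of_fixed (isIntegral_orb a₀ b hχ.isCharacter) fun σ => by
      have := classInner_map_ringHom (mtw G (orb G a₀ b)) hχ.isGeneralizedCharacter σ.toRingHom
      rw [hσ _ χ hχ h] at this
      refine Eq.trans this.symm (congrArg (classInner · χ) (funext fun g => ?_))
      simp [mtw, orb_apply]
  obtain ⟨r, hr⟩ := hint _ h₁ (by simp [hi1])
  obtain ⟨s, hs⟩ := hint _ h₂ (by simp [hi2])
  have h6 := hex _ hA
  have h7 := hex _ (hA.mul hA)
  rw [hA.inner_sq h0.isCharacter inner_pch_one, hA.inner_sq h₁.isCharacter hi1,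
    hA.inner_sq h₂.isCharacter hi2] at h7
  rw [hr, hs, inner_one_of_sum (sum_orb a₀ b)] at h6 h7
  have h8 : ∀ x y, orb G a₀ b x y * orb G a₀ b y x = orb G a₀ b x y := fun x y => by
    obtain ⟨g, h1, h2⟩ := hsw x y
    rw [show orb G a₀ b y x = orb G a₀ b x y by rw [← hA g x y, h1, h2], orb_apply]
    split_ifs <;> simp
  simp only [mtw, one_smul, orb_diag hb, sum_const_zero, mul_apply, h8, sum_orb, sum_const, card_univ,
    hm, nsmul_eq_mul] at h6 h7
  have : Nonempty (orbit (stabilizer G a₀) b) := ⟨⟨b, mem_orbit_self b⟩⟩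
  have h9 := Nat.card_pos (α := orbit (stabilizer G a₀) b)
  obtain ⟨a, h10, h11, h12⟩ := arith (m := m) (k := Nat.card (orbit (stabilizer G a₀) b)) (r := r) (s := s)
    (lt_of_le_of_ne h9 fun e => by have := card_orbit_eq_one hb e.symm c; omega) (by omega)
    (by exact_mod_cast h6.symm) (by exact_mod_cast h7.symm)
  refine ⟨a, h10, h11, fun d hd => (h5 d hd).imp (fun e => by rw [e, h12]) fun e => ?_⟩
  rw [e]
  nlinarith

end Cfsg.Agent.S0719
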