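import Cfsg.Statements.S0001
import Cfsg.Agent.Solv.SchurZassenhaus

set_option autoImplicit false
open Pointwise
open Cfsg

namespace Cfsg.Agent.S0001

/-- Conjugacy half of the Schur–Zassenhaus Theorem, under a solvability assumption on the normal Hall subgroup or on its quotient. -/
theorem result {G : Type*} [Group G] [Finite G] (N : Subgroup G) [N.Normal]
    (hN : (Nat.card N).Coprime N.index) (hsolv : Group.IsSolvable N ∨ Group.IsSolvable (G ⧸ N))
    (H K : Subgroup G) (hH : Subgroup.IsComplement' N H) (hK : Subgroup.IsComplement' N K) :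
    ∃ g : G, MulAut.conj g • H = K := by
  have h1 : (Nat.card N).Coprime (Nat.card H) := by rwa [← hH.symm.index_eq_card]
  have h2 : (Nat.card N).Coprime (Nat.card K) := by rwa [← hK.symm.index_eq_card]
  obtain ⟨n, -, hn⟩ := Solv.conj_of_sup_eq_top N H K hH.sup_eq_top hK.sup_eq_top h1 h2
    (hsolv.imp id fun h => @Solv.isSolvable_of_mulEquiv _ _ _ _ hH.symm.QuotientMulEquiv h)
  exact ⟨n, hn⟩

end Cfsg.Agent.S0001
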