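import Cfsg.Statements.S0005
import Cfsg.Agent.Solv.Hall

set_option autoImplicit false
open Cfsg

namespace Cfsg.Agent.S0005

/-- Hall's Theorem, containment: in a finite solvable group of order m * n with m and n coprime, every subgroup of order coprime to n is contained in a subgroup of order m. -/
theorem result {G : Type*} [Group G] [Finite G] [Group.IsSolvable G] (m n : ℕ)
    (hG : Nat.card G = m * n) (hmn : m.Coprime n) (K : Subgroup G) (hK : (Nat.card K).Coprime n) :
    ∃ H : Subgroup G, Nat.card H = m ∧ K ≤ H := by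
  have h0 : Nat.card G ≠ 0 := Nat.card_pos.ne'
  obtain ⟨H, hH, hle⟩ := (Solv.HallOK.of_isSolvable {p | p ∣ m} G).exists_hall_ge (K := K)
    fun p _ hp => hp.trans (hK.dvd_of_dvd_mul_right (hG ▸ K.card_subgroup_dvd_card))
  exact ⟨H, (Solv.isPiHall_iff_card_eq hG hmn).mp hH, hle⟩

end Cfsg.Agent.S0005
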