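import Cfsg.Statements.S0007
import Cfsg.Agent.SolvStr.Product

set_option autoImplicit false
open Cfsg

namespace Cfsg.Agent.S0007

/-- Subgroups of coprime index: the intersection has index equal to the product of the indices, and every element is a product of an element of the first subgroup and an element of the second. -/
theorem result {G : Type*} [Group G] [Finite G] (H K : Subgroup G)
    (h : H.index.Coprime K.index) :
    (H ⊓ K).index = H.index * K.index ∧ ∀ g : G, ∃ x ∈ H, ∃ y ∈ K, g = x * y := by
  exact ⟨SolvStr.index_inf_of_coprime h,
    SolvStr.isProd_top_iff.1 (SolvStr.isProd_top_of_coprime_index h)⟩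

end Cfsg.Agent.S0007
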