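import Cfsg.Statements.S0031
import Cfsg.Agent.Solv.Basic

set_option autoImplicit false
open Cfsg

namespace Cfsg.Agent.S0031

open Pointwise in
theorem aux {G : Type*} [Group G] [Finite G] (φ : G →* G) (hs : Function.Surjective φ)
    (hφ : MonoidHom.FixedPointFree φ) (p : ℕ) [Fact p.Prime] :
    ∃ P : Sylow p G, (P : Subgroup G).map φ = P := by
  obtain ⟨P⟩ : Nonempty (Sylow p G) := inferInstance
  obtain ⟨g, hg⟩ := MulAction.exists_smul_eq G P (P.mapSurjective hs)
  obtain ⟨z, hz⟩ : ∃ z, φ z * g = z := by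
    -- the map `z ↦ (φ z)⁻¹ * z` is surjective
    have hinj : Function.Injective fun z : G => (φ z)⁻¹ * z := by
      intro a b hab
      have hab : (φ a)⁻¹ * a = (φ b)⁻¹ * b := hab
      have : φ (b * a⁻¹) = b * a⁻¹ := by
        rw [map_mul, map_inv]
        calc φ b * (φ a)⁻¹ = φ b * ((φ a)⁻¹ * a) * a⁻¹ := by group
          _ = b * a⁻¹ := by rw [hab]; group
      exact (mul_inv_eq_one.1 (hφ _ this)).symm
    obtain ⟨z, hz⟩ := Finite.surjective_of_injective hinj g
    exact ⟨z, by rw [← hz]; simp⟩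
  refine ⟨z • P, ?_⟩
  have h2 : (P : Subgroup G).map φ = MulAut.conj g • (P : Subgroup G) := by
    rw [← Sylow.coe_subgroup_smul, hg, Sylow.coe_mapSurjective]
  rw [Sylow.coe_subgroup_smul, Solv.map_conj_smul, h2, Solv.conj_smul_conj_smul, hz]

/-- A fixed-point-free automorphism of a finite group maps some Sylow p-subgroup to itself. -/
theorem result {G : Type*} [Group G] [Finite G] (φ : G ≃* G)
    (hφ : MonoidHom.FixedPointFree (φ : G →* G)) (p : ℕ) [Fact p.Prime] :
    ∃ P : Sylow p G, (P : Subgroup G).map (φ : G →* G) = P := by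
  exact aux (φ : G →* G) φ.surjective hφ p

end Cfsg.Agent.S0031
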