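import Cfsg.Statements.S0032
import Cfsg.Agent.Solv.Basic

set_option autoImplicit false
open Cfsg

namespace Cfsg.Agent.S0032

/-- If an automorphism of a finite group fixes only the identity and maps a normal subgroup N into itself, then the only cosets of N it fixes are those in N: a fixed coset xN forces x ∈ N. -/
theorem result {G : Type*} [Group G] [Finite G] (φ : G ≃* G)
    (hφ : MonoidHom.FixedPointFree (φ : G →* G)) (N : Subgroup G) [N.Normal] (hN : ∀ n ∈ N, φ n ∈ N)
    (x : G) (hx : (φ x)⁻¹ * x ∈ N) : x ∈ N := by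
  let ψ : N →* N := ((φ : G →* G).comp N.subtype).codRestrict N fun n => hN n n.2
  have hψ : MonoidHom.FixedPointFree ψ := fun n hn =>
    Subtype.ext (hφ n (congrArg Subtype.val hn))
  obtain ⟨y, hy⟩ := hψ.commutatorMap_surjective ⟨(φ x)⁻¹ * x, hx⟩⁻¹
  have hy' : (y : G) / φ y = ((φ x)⁻¹ * x)⁻¹ := congrArg Subtype.val hy
  have h1 : x * y = 1 := by
    apply hφ
    change φ (x * y) = x * y
    rw [div_eq_iff_eq_mul] at hy'
    rw [map_mul]
    conv_rhs => rw [hy']
    group
  rw [eq_inv_of_mul_eq_one_left h1]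
  exact N.inv_mem y.2

end Cfsg.Agent.S0032
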