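import Cfsg.Statements.S0036
import Cfsg.Agent.Frob.Basic
import Mathlib.Tactic.Group

set_option autoImplicit false
open Cfsg

namespace Cfsg.Agent.S0036
open scoped commutatorElement

open Frob

/-- When a Frobenius complement contains an involution, an elementary argument shows the Frobenius kernel is closed under multiplication (hence a subgroup). -/
theorem result {G : Type*} [Group G] [Finite G] (H : Subgroup G) (hH : Cfsg.IsFrobeniusComplement H)
    (t : G) (ht : t ∈ H) (ht1 : t ≠ 1) (ht2 : t * t = 1) :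
    ∀ x ∈ Cfsg.frobeniusKernel H, ∀ y ∈ Cfsg.frobeniusKernel H, x * y ∈ Cfsg.frobeniusKernel H := by
  classical
  have hti : t⁻¹ = t := inv_eq_of_mul_eq_one_right ht2
  have h1 : ∀ g, g ∉ H → t * (g * t * g⁻¹) ≠ 1 := by
    intro g hg h
    apply hg
    refine mem_of_conj_mem' hH ht ht1 ?_
    rw [eq_inv_of_mul_eq_one_right h]; exact H.inv_mem ht
  have h2 : ∀ g, g ∉ H → t * (g * t * g⁻¹) ∈ frobeniusKernel H := by
    intro g hg
    refine mem_frobeniusKernel.mpr (Or.inr fun a ha => hg ?_)
    have e1 : a⁻¹ * (t * a) ∈ H := by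
      refine inv_mul_mem_of_conj_mem hH (h1 g hg) ha ?_
      have := H.inv_mem ha
      convert this using 1
      simp only [mul_inv_rev, inv_inv, hti, mul_assoc]
      rw [← mul_assoc t t, ht2, one_mul]
    have e2 : a⁻¹ * (g * t * g⁻¹ * a) ∈ H := by
      have := H.mul_mem (H.inv_mem e1) ha
      convert this using 1
      group
    have e3 : a ∈ H := mem_of_conj_mem hH ht ht1 (by simpa [mul_assoc] using e1)
    have e4 : g⁻¹ * a ∈ H := mem_of_conj_mem hH ht ht1 (by convert e2 using 1; group)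
    have := H.mul_mem e3 (H.inv_mem e4)
    simpa using this
  let f : G ⧸ H → frobeniusKernel H := fun q =>
    if hq : q.out ∈ H then ⟨1, Or.inl rfl⟩ else ⟨t * (q.out * t * q.out⁻¹), h2 _ hq⟩
  have hC : ∀ a b : G, a * t * a⁻¹ = b * t * b⁻¹ → a⁻¹ * b ∈ H := by
    intro a b h
    refine mem_of_conj_mem' hH ht ht1 ?_
    have : a⁻¹ * b * t * (a⁻¹ * b)⁻¹ = a⁻¹ * (b * t * b⁻¹) * a := by group
    rw [this, ← h]; simpa [mul_assoc] using ht
  have hf : Function.Injective f := by
    intro q q' h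
    have h3 : q.out⁻¹ * q'.out ∈ H := by
      by_cases hq : q.out ∈ H <;> by_cases hq' : q'.out ∈ H <;>
        simp only [f, hq, hq', dif_pos, dif_neg, not_false_eq_true, Subtype.mk.injEq] at h
      · exact H.mul_mem (H.inv_mem hq) hq'
      · exact absurd (congrArg Subtype.val h).symm (h1 _ hq')
      · exact absurd (congrArg Subtype.val h) (h1 _ hq)
      · exact hC _ _ (mul_left_cancel h)
    rw [← QuotientGroup.eq] at h3
    simpa using h3
  have hsurj : Function.Surjective f :=
    ((Nat.bijective_iff_injective_and_card f).mpr ⟨hf, (card_frobeniusKernel hH).symm⟩).2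
  have ha : ∀ g, g ∉ H → g * t * g⁻¹ = (g : G ⧸ H).out * t * (g : G ⧸ H).out⁻¹ := by
    intro g hg
    obtain ⟨q, hq⟩ := hsurj ⟨_, h2 g hg⟩
    by_cases hq' : q.out ∈ H
    · simp only [f, hq', dif_pos] at hq
      exact absurd (congrArg Subtype.val hq).symm (h1 g hg)
    · simp only [f, hq', dif_neg, not_false_eq_true, Subtype.mk.injEq] at hq
      have h3 := mul_left_cancel hq
      have h4 := hC _ _ h3
      rw [← QuotientGroup.eq] at h4
      rw [← h4, ← h3]; simp
  have hc : ∀ h ∈ H, h * t * h⁻¹ = t := by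
    intro h hh
    obtain ⟨g, hg⟩ : ∃ g, g ∉ H := by
      by_contra hcon
      push Not at hcon
      exact hH.2.1 (Subgroup.eq_top_iff' H |>.mpr hcon)
    have e1 := ha g hg
    have e2 := ha (g * h) (fun h' => hg (by simpa using H.mul_mem h' (H.inv_mem hh)))
    have e3 : ((g * h : G) : G ⧸ H) = g := by rw [QuotientGroup.eq]; simpa using hh
    rw [e3, ← e1] at e2
    calc h * t * h⁻¹ = g⁻¹ * (g * h * t * (g * h)⁻¹) * g := by group
      _ = t := by rw [e2]; group
  have hd : ∀ g, t * (g * t * g⁻¹) ∈ frobeniusKernel H := by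
    intro g
    by_cases hg : g ∈ H
    · rw [hc g hg, ht2]; exact Or.inl rfl
    · exact h2 g hg
  have he : ∀ x ∈ frobeniusKernel H, ∃ g, x = t * (g * t * g⁻¹) := by
    intro x hx
    obtain ⟨q, hq⟩ := hsurj ⟨x, hx⟩
    by_cases hq' : q.out ∈ H
    · simp only [f, hq', dif_pos] at hq
      have hx1 : (1 : G) = x := congrArg Subtype.val hq
      exact ⟨1, by simp [← hx1, ht2]⟩
    · simp only [f, hq', dif_neg, not_false_eq_true, Subtype.mk.injEq] at hq
      exact ⟨_, hq.symm⟩
  intro x hx y hy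
  obtain ⟨a, ha⟩ := he _ (inv_mem_frobeniusKernel hx)
  obtain ⟨b, rfl⟩ := he y hy
  have hx' : x = a * t * a⁻¹ * t := by
    rw [← inv_inv x, ha]; simp [hti, mul_assoc]
  have := conj_mem_frobeniusKernel (hd (a⁻¹ * b)) a
  convert this using 1
  rw [hx']
  calc a * t * a⁻¹ * t * (t * (b * t * b⁻¹)) = a * t * a⁻¹ * (t * t) * (b * t * b⁻¹) := by group
    _ = _ := by rw [ht2]; group

end Cfsg.Agent.S0036
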