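import Cfsg.Statements.S0038
import Cfsg.Agent.Frob.Compl
import Cfsg.Agent.S0035
import Cfsg.Agent.S0037
import Cfsg.Agent.S0039
import Mathlib.Tactic.Group

set_option autoImplicit false
open Pointwise
open Cfsg

namespace Cfsg.Agent.S0038
open scoped commutatorElement

theorem eq_of_le {G : Type*} [Group G] [Finite G] {H H₀ : Subgroup G}
    (hH : Cfsg.IsFrobeniusComplement H) (hH₀ : Cfsg.IsFrobeniusComplement H₀) (hle : H₀ ≤ H) : H₀ = H := by
  obtain ⟨N, -, hN, hc⟩ := S0035.result H hH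
  have hN1 : N ≠ ⊥ := by
    rintro rfl
    exact hH.2.1 (by simpa using hc.sup_eq_top)
  obtain ⟨z, hz, h1, h⟩ := Frob.exists_center_of_semiregular hN1 hH.1 Subgroup.le_normalizer_of_normal
    ((S0039.result N H hc hN1 hH.1).1 hH)
  obtain ⟨⟨x, hx⟩, hx1⟩ := (Subgroup.ne_bot_iff_exists_ne_one).1 hH₀.1
  have hz0 : z ∈ H₀ := Frob.mem_of_commute hH₀ hx (fun e => hx1 (Subtype.ext e)) (h x (hle hx)).symm
  exact le_antisymm hle fun g hg => Frob.mem_of_commute hH₀ hz0 h1 (h g hg)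

/-- All Frobenius complements of a finite group are conjugate to one another. -/
theorem result {G : Type*} [Group G] [Finite G] (H H₀ : Subgroup G)
    (hH : Cfsg.IsFrobeniusComplement H) (hH₀ : Cfsg.IsFrobeniusComplement H₀) :
    ∃ g : G, MulAut.conj g • H₀ = H := by
  rcases le_total (Nat.card H₀) (Nat.card H) with h | h
  · obtain ⟨g, hg⟩ := S0037.result H H₀ hH hH₀ h
    exact ⟨g, eq_of_le hH (Frob.IsFrobeniusComplement.conj hH₀ g) hg⟩
  · obtain ⟨g, hg⟩ := S0037.result H₀ H hH₀ hH h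
    refine ⟨g⁻¹, ?_⟩
    rw [← eq_of_le hH₀ (Frob.IsFrobeniusComplement.conj hH g) hg, ← mul_smul, ← map_mul, inv_mul_cancel, map_one, one_smul]

end Cfsg.Agent.S0038
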