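import Cfsg.Statements.S0040
import Cfsg.Agent.Gen2.QuatAct
import Mathlib.Tactic.Group

set_option autoImplicit false
open Cfsg

namespace Cfsg.Agent.S0040
open scoped commutatorElement

/-- Sylow subgroups of Frobenius complements: if H complements a nontrivial normal subgroup K and every nonidentity element of H has trivial centraliser in K, then each Sylow subgroup of H is cyclic or isomorphic to a generalized quaternion group. -/
theorem result {G : Type*} [Group G] [Finite G] (K H : Subgroup G) [K.Normal]
    (hc : Subgroup.IsComplement' K H) (hK : K ≠ ⊥) (hfpf : ∀ h ∈ H, h ≠ 1 → K ⊓ Subgroup.centralizer {h} = ⊥)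
    (p : ℕ) [Fact p.Prime] (P : Sylow p H) :
    IsCyclic P ∨ ∃ n : ℕ, Nonempty (P ≃* QuaternionGroup (2 ^ n)) := by
  by_cases hH : H = ⊥
  · subst hH
    exact Or.inl isCyclic_of_subsingleton
  have : Nontrivial H := (Subgroup.nontrivial_iff_ne_bot H).2 hH
  have : Nontrivial K := (Subgroup.nontrivial_iff_ne_bot K).2 hK
  have h : Gen2.IsFC H := by
    refine Gen2.isFC_of_action (V := K) ((MulAut.conjNormal (H := K)).comp H.subtype) fun h h1 x hx => ?_
    have := hfpf h h.2 (fun e => h1 (Subtype.ext e))
    have hx' : (x : G) ∈ K ⊓ Subgroup.centralizer {(h : G)} := by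
      refine ⟨x.2, Subgroup.mem_centralizer_singleton_iff.2 ?_⟩
      have := congrArg Subtype.val hx
      simp only [MonoidHom.comp_apply, Subgroup.coe_subtype, MulAut.conjNormal_apply] at this
      exact (mul_inv_eq_iff_eq_mul.1 this).symm
    rw [this, Subgroup.mem_bot] at hx'
    exact Subtype.ext hx'
  rcases h.isCyclic_or_quaternion P.isPGroup' with h | ⟨-, n, -, h⟩
  · exact Or.inl h
  · exact Or.inr ⟨n, h⟩

end Cfsg.Agent.S0040
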