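import Cfsg.Statements.S0042
import Cfsg.Agent.Gen.ThompsonNil

set_option autoImplicit false
open Cfsg

namespace Cfsg.Agent.S0042


/-- In a finite Frobenius group, the Frobenius kernel is (the carrier of) a normal subgroup which is nilpotent. -/
theorem result {G : Type*} [Group G] [Finite G] (H : Subgroup G) (hH : Cfsg.IsFrobeniusComplement H) :
    ∃ N : Subgroup G, (N : Set G) = Cfsg.frobeniusKernel H ∧ N.Normal ∧ Group.IsNilpotent N := by
  obtain ⟨N, h1, h2, -, -, h⟩ := Gen.exists_Frob_of_isFrobeniusComplement hH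
  exact ⟨N, h1, h2, h⟩

end Cfsg.Agent.S0042
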