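import Cfsg.Statements.S0045
import Cfsg.Agent.Solv.Fitting
import Cfsg.Agent.Solv.SchurZassenhaus
import Cfsg.Agent.Solv.MinNormal
import Mathlib.Tactic.Group

set_option autoImplicit false
open Pointwise
open Cfsg

namespace Cfsg.Agent.S0045
open scoped commutatorElement

open Subgroup Solv
universe u

def IsCarter {G : Type*} [Group G] (C : Subgroup G) : Prop :=
  Group.IsNilpotent C ∧ normalizer (C : Set G) = C

section
variable {G : Type*} [Group G] [Finite G] {p : ℕ} [Fact p.Prime]

theorem index_pCore {N : Subgroup G} [N.Normal] (hN : IsPGroup p N)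
    [Group.IsNilpotent (G ⧸ N)] : (pCore p G).index.Coprime p := by
  obtain ⟨P⟩ : Nonempty (Sylow p (G ⧸ N)) := inferInstance
  rw [← comap_pCore (QuotientGroup.mk'_surjective N) (by rwa [QuotientGroup.ker_mk']),
    index_comap_of_surjective _ (QuotientGroup.mk'_surjective N), pCore_eq_of_normal P]
  exact ((Nat.Prime.coprime_iff_not_dvd Fact.out).mpr P.not_dvd_index).symm

theorem eq_of_compl {Q T : Subgroup G} (hQ : pCore p G ⊔ Q = ⊤) (hQT : Q ≤ T)
    (hT : (Nat.card T).Coprime p) : T = Q := by
  have h1 := sup_inf_of_le_right (N := pCore p G) (H := Q) (U := T) le_normalizer_of_normal hQT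
  rw [hQ, top_inf_eq, (disjoint_of_coprime_natCard
    (coprime_card_of_isPGroup (isPGroup_pCore p G) hT)).eq_bot, bot_sup_eq] at h1
  exact h1

theorem nilpotent_normalizer {N : Subgroup G} [N.Normal] (hN : IsPGroup p N)
    [Group.IsNilpotent (G ⧸ N)] {Q : Subgroup G} (hQ : pCore p G ⊔ Q = ⊤)
    (hQ' : (Nat.card Q).Coprime p) : Group.IsNilpotent (normalizer (Q : Set G)) := by
  have h1 := sup_inf_of_le_right (N := pCore p G) (H := Q) (U := normalizer (Q : Set G))
    le_normalizer_of_normal le_normalizer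
  rw [hQ, top_inf_eq] at h1
  rw [h1]
  have : Group.IsNilpotent (pCore p G ⊓ normalizer (Q : Set G) : Subgroup G) :=
    (isPGroup_pCore p G).to_inf_left.isNilpotent
  have : Group.IsNilpotent Q := by
    have hinj : Function.Injective ((QuotientGroup.mk' N).comp Q.subtype) := by
      rw [injective_iff_map_eq_one]
      intro x hx
      have h2 : (x : G) ∈ N := (QuotientGroup.eq_one_iff _).mp hx
      exact Subtype.ext (disjoint_def.mp (disjoint_of_coprime_natCard
        (coprime_card_of_isPGroup hN hQ')) h2 x.2)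
    exact Group.nilpotent_of_mulEquiv (MonoidHom.ofInjective hinj).symm
  exact isNilpotent_sup inf_le_right
    (le_normalizer_inf le_normalizer_of_normal (le_normalizer.trans le_normalizer))

theorem exists_carter {N : Subgroup G} [N.Normal] (hN : IsPGroup p N)
    [Group.IsNilpotent (G ⧸ N)] : ∃ C : Subgroup G, IsCarter C ∧ C ⊔ N = ⊤ := by
  have hi := index_pCore hN
  obtain ⟨Q, hQ⟩ := exists_right_complement'_of_coprime (N := pCore p G)
    (coprime_card_of_isPGroup (isPGroup_pCore p G) hi)
  have hQ' : (Nat.card Q).Coprime p := hQ.symm.index_eq_card ▸ hi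
  have hnil := nilpotent_normalizer hN hQ.sup_eq_top hQ'
  refine ⟨normalizer (Q : Set G), ⟨hnil, le_antisymm ?_ le_normalizer⟩, ?_⟩
  · have h1 : (pPrimeCore p (normalizer (Q : Set G))).map (normalizer (Q : Set G)).subtype = Q :=
      eq_of_compl hQ.sup_eq_top (le_map_pPrimeCore le_normalizer le_rfl hQ')
        (coprime_card_map_pPrimeCore _)
    have := normalizer_le_normalizer_map_of_characteristic (normalizer (Q : Set G))
      (pPrimeCore p _)
    rwa [h1] at this
  · have h1 : Q.map (QuotientGroup.mk' N) = pPrimeCore p (G ⧸ N) := by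
      refine (eq_of_compl ?_ (le_pPrimeCore_of_isNilpotent
        (hQ'.coprime_dvd_left (card_map_dvd _ _))) (coprime_card_pPrimeCore p _)).symm
      rw [← map_pCore (QuotientGroup.mk'_surjective N) (by rwa [QuotientGroup.ker_mk']),
        ← Subgroup.map_sup, hQ.sup_eq_top, map_top_of_surjective _ (QuotientGroup.mk'_surjective N)]
    have h2 : (N ⊔ Q).Normal := by
      rw [sup_comm, ← comap_map_mk', h1]; infer_instance
    have := hN.isNilpotent
    rw [eq_top_iff]
    intro g _
    obtain ⟨n, hn, hn'⟩ := exists_conj_smul_eq (N := N) (A := Q) (B := MulAut.conj g • Q)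
      le_normalizer_of_normal
      (by rw [← Normal.conj_smul_eq_self g (N ⊔ Q), smul_sup, Normal.conj_smul_eq_self g N])
      (coprime_card_of_isPGroup hN hQ')
      (by rw [card_conj_smul]; exact coprime_card_of_isPGroup hN hQ') (Or.inl inferInstance)
    have h3 : n⁻¹ * g ∈ normalizer (Q : Set G) := by
      rw [← conj_smul_eq_self_iff, ← conj_smul_conj_smul, ← hn', conj_inv_smul_conj_smul]
    have := (normalizer (Q : Set G) ⊔ N).mul_mem (mem_sup_right hn) (mem_sup_left h3)
    simpa using this

theorem carter_eq {N : Subgroup G} [N.Normal] (hN : IsPGroup p N)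
    [Group.IsNilpotent (G ⧸ N)] {C : Subgroup G} (hC : IsCarter C) (hCN : C ⊔ N = ⊤) :
    ∃ Q : Subgroup G, pCore p G ⊔ Q = ⊤ ∧ (Nat.card Q).Coprime p ∧ normalizer (Q : Set G) = C := by
  have hi := index_pCore hN
  have := hC.1
  have h1 : pCore p G ⊔ (pPrimeCore p C).map C.subtype = ⊤ := by
    rw [eq_top_iff, ← hCN]
    refine sup_le ?_ ((le_pCore hN).trans le_sup_left)
    have h2 : C = (pCore p C).map C.subtype ⊔ (pPrimeCore p C).map C.subtype := by
      rw [← Subgroup.map_sup, pCore_sup_pPrimeCore_eq_top, ← MonoidHom.range_eq_map, range_subtype]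
    refine h2.le.trans (sup_le_sup_right ?_ _)
    exact le_of_coprime_index (coprime_card_of_isPGroup ((isPGroup_pCore p C).map _) hi)
  refine ⟨_, h1, coprime_card_map_pPrimeCore C, ?_⟩
  have h3 := nilpotent_normalizer hN h1 (coprime_card_map_pPrimeCore C)
  have h4 : C ≤ normalizer (((pPrimeCore p C).map C.subtype : Subgroup G) : Set G) :=
    le_normalizer_map_subtype C _
  by_contra hne
  have h5 := Group.normalizerCondition_of_isNilpotent (C.subgroupOf _)
    (lt_top_iff_ne_top.mpr fun h => hne (le_antisymm (subgroupOf_eq_top.mp h) h4))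
  rw [← subgroupOf_normalizer_eq h4, hC.2] at h5
  exact lt_irrefl _ h5

omit [Finite G] in
theorem IsCarter.conj {C : Subgroup G} (hC : IsCarter C) (g : G) : IsCarter (MulAut.conj g • C) :=
  have := hC.1
  ⟨isNilpotent_map _ C, by rw [normalizer_conj_smul, hC.2]⟩

omit [Finite G] in
theorem IsCarter.subgroupOf {C K : Subgroup G} (hC : IsCarter C) (h : C ≤ K) :
    IsCarter (C.subgroupOf K) :=
  have := hC.1
  ⟨isNilpotent_subgroupOf C K, by rw [← subgroupOf_normalizer_eq h, hC.2]⟩

end

theorem aux (n : ℕ) : ∀ (G : Type u) [Group G] [Finite G] [Group.IsSolvable G], Nat.card G = n →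
    (∃ C : Subgroup G, IsCarter C) ∧
      ∀ C D : Subgroup G, IsCarter C → IsCarter D → ∃ g : G, MulAut.conj g • C = D := by
  induction n using Nat.strong_induction_on with
  | _ n ih =>
  intro G _ _ _ hn
  rcases subsingleton_or_nontrivial G with hs | hs
  · exact ⟨⟨⊤, inferInstance, Subsingleton.elim _ _⟩, fun C D _ _ => ⟨1, Subsingleton.elim _ _⟩⟩
  obtain ⟨p, N, hp, hN, hN1, -, -, hNp, -⟩ := exists_normal_elementary G
  have : Fact p.Prime := ⟨hp⟩
  have ihq := ih _ (hn ▸ card_quotient_lt hN1) (G ⧸ N) rfl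
  have ihs : ∀ K : Subgroup G, K ≠ ⊤ → ∀ C D : Subgroup G, IsCarter C → IsCarter D → C ≤ K →
      D ≤ K → ∃ g ∈ K, MulAut.conj g • C = D := by
    intro K hK C D hC hD hCK hDK
    obtain ⟨g, hg⟩ := (ih _ (hn ▸ card_lt_of_ne_top hK) K rfl).2 _ _ (hC.subgroupOf hCK)
      (hD.subgroupOf hDK)
    refine ⟨g, g.2, ?_⟩
    have := congrArg (Subgroup.map K.subtype) hg
    rwa [map_subtype_conj_smul, map_subgroupOf_eq_of_le hCK, map_subgroupOf_eq_of_le hDK] at this
  constructor
  · obtain ⟨Cb, hCb⟩ := ihq.1
    set K := Cb.comap (QuotientGroup.mk' N) with hK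
    have hNK : N ≤ K := fun x hx => by
      rw [hK, mem_comap, QuotientGroup.mk'_apply, (QuotientGroup.eq_one_iff x).mpr hx]
      exact Cb.one_mem
    have : Group.IsNilpotent (K ⧸ N.subgroupOf K) := by
      have := hCb.1
      let f : K →* Cb := ((QuotientGroup.mk' N).comp K.subtype).codRestrict Cb (fun x => x.2)
      have hf : f.ker = N.subgroupOf K := by
        ext x
        rw [MonoidHom.mem_ker, mem_subgroupOf, ← QuotientGroup.eq_one_iff, Subtype.ext_iff]
        rfl
      exact Group.nilpotent_of_mulEquiv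
        ((QuotientGroup.quotientMulEquivOfEq hf.symm).trans (QuotientGroup.quotientKerEquivRange f)).symm
    obtain ⟨C, hC, hCN⟩ := exists_carter (p := p) (N := N.subgroupOf K) hNp.comap_subtype
    have := hC.1
    refine ⟨C.map K.subtype, isNilpotent_map _ _, le_antisymm (fun g hg => ?_) le_normalizer⟩
    have h1 : C.map K.subtype ⊔ N = K := by
      rw [← map_subgroupOf_eq_of_le hNK, ← Subgroup.map_sup, hCN, ← MonoidHom.range_eq_map,
        range_subtype]
    have h2 : g ∈ K := by
      have : g ∈ normalizer (K : Set G) := by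
        rw [← h1]
        exact normalizer_inf_normalizer_le_normalizer_sup _ _ ⟨hg, le_normalizer_of_normal (mem_top g)⟩
      rwa [hK, ← comap_normalizer_eq_of_surjective _ (QuotientGroup.mk'_surjective N), hCb.2] at this
    have h3 : (⟨g, h2⟩ : K) ∈ normalizer (C : Set K) := by
      have h4 : (C.map K.subtype).subgroupOf K = C := comap_map_eq_self_of_injective K.subtype_injective C
      rw [← h4, ← subgroupOf_normalizer_eq (map_subtype_le C)]
      exact hg
    rw [hC.2] at h3
    exact ⟨_, h3, rfl⟩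
  · have hq : ∀ C : Subgroup G, IsCarter C → IsCarter (C.map (QuotientGroup.mk' N)) := by
      intro C hC
      have := hC.1
      refine ⟨isNilpotent_map _ _, comap_injective (QuotientGroup.mk'_surjective N) ?_⟩
      rw [comap_normalizer_eq_of_surjective _ (QuotientGroup.mk'_surjective N), comap_map_mk']
      refine le_antisymm (fun g hg => ?_) le_normalizer
      by_cases hK : C ⊔ N = ⊤
      · rw [hK]; exact mem_top g
      obtain ⟨k, hk, hk'⟩ := ihs _ hK C _ hC (hC.conj g) le_sup_left (by
        rw [← conj_smul_eq_self_iff.mpr hg]; exact conj_smul_mono g le_sup_left)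
      have h3 : k⁻¹ * g ∈ normalizer (C : Set G) := by
        rw [← conj_smul_eq_self_iff, ← conj_smul_conj_smul, ← hk', conj_inv_smul_conj_smul]
      rw [hC.2] at h3
      have := (C ⊔ N).mul_mem hk (mem_sup_left h3)
      simpa using this
    intro C D hC hD
    obtain ⟨g, hg⟩ := ihq.2 _ _ (hq C hC) (hq D hD)
    obtain ⟨g, rfl⟩ := QuotientGroup.mk'_surjective N g
    rw [← map_conj_smul] at hg
    have h1 : MulAut.conj g • C ⊔ N = D ⊔ N := by
      rw [← comap_map_mk', hg, comap_map_mk']
    suffices ∃ k : G, MulAut.conj k • MulAut.conj g • C = D by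
      obtain ⟨k, hk⟩ := this
      exact ⟨k * g, by rw [← conj_smul_conj_smul, hk]⟩
    by_cases hK : D ⊔ N = ⊤
    · have : Group.IsNilpotent (G ⧸ N) := by
        have h2 := (hq D hD).1
        have h3 : D.map (QuotientGroup.mk' N) = ⊤ :=
          comap_injective (QuotientGroup.mk'_surjective N) (by rw [comap_map_mk', hK, comap_top])
        rwa [h3, Group.isNilpotent_top] at h2
      obtain ⟨Q, hQ1, hQ2, hQ3⟩ := carter_eq hNp (hC.conj g) (h1.trans hK)
      obtain ⟨R, hR1, hR2, hR3⟩ := carter_eq hNp hD hK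
      have := (isPGroup_pCore p G).isNilpotent
      obtain ⟨k, -, hk⟩ := conj_of_sup_eq_top (pCore p G) Q R hQ1 hR1
        (coprime_card_of_isPGroup (isPGroup_pCore p G) hQ2)
        (coprime_card_of_isPGroup (isPGroup_pCore p G) hR2) (Or.inl inferInstance)
      exact ⟨k, by rw [← hQ3, ← normalizer_conj_smul, hk, hR3]⟩
    · obtain ⟨k, -, hk⟩ := ihs _ hK _ D (hC.conj g) hD (h1 ▸ le_sup_left) le_sup_left
      exact ⟨k, hk⟩

/-- Carter subgroups: a finite solvable group contains a nilpotent subgroup equal to its own normaliser, and all such subgroups are conjugate. -/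
theorem result {G : Type*} [Group G] [Finite G] [Group.IsSolvable G] :
    (∃ C : Subgroup G, Group.IsNilpotent C ∧ Subgroup.normalizer (C : Set G) = C) ∧
    ∀ C D : Subgroup G, Group.IsNilpotent C → Subgroup.normalizer (C : Set G) = C →
      Group.IsNilpotent D → Subgroup.normalizer (D : Set G) = D → ∃ g : G, MulAut.conj g • C = D := by
  obtain ⟨h1, h2⟩ := aux _ G rfl
  exact ⟨h1, fun C D a b c d => h2 C D ⟨a, b⟩ ⟨c, d⟩⟩

end Cfsg.Agent.S0045
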