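import Cfsg.Statements.S0047
import Mathlib.Tactic.Group

set_option autoImplicit false
open Cfsg

namespace Cfsg.Agent.S0047
open scoped commutatorElement

theorem key {G : Type*} [Group G] (A B : Subgroup G)
    [IsMulCommutative A] [IsMulCommutative B] (hAB : ∀ g : G, ∃ a ∈ A, ∃ b ∈ B, g = a * b)
    (a : G) (ha : a ∈ A) (b : G) (hb : b ∈ B) (a1 : G) (ha1 : a1 ∈ A) (b1 : G) (hb1 : b1 ∈ B) :
    (b1 * a1) * ⁅a, b⁆ * (b1 * a1)⁻¹ = (a1 * b1) * ⁅a, b⁆ * (a1 * b1)⁻¹ := by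
  have cA : ∀ x ∈ A, ∀ y ∈ A, x * y = y * x := fun x hx y hy => setLike_mul_comm hx hy
  have cB : ∀ x ∈ B, ∀ y ∈ B, x * y = y * x := fun x hx y hy => setLike_mul_comm hx hy
  -- a1 b a1⁻¹ = b2 a2,  b1 a b1⁻¹ = a3 b3
  obtain ⟨a2', ha2', b2', hb2', h2⟩ := hAB (a1 * b * a1⁻¹)⁻¹
  obtain ⟨a3, ha3, b3, hb3, h3⟩ := hAB (b1 * a * b1⁻¹)
  set a2 := a2'⁻¹ with ha2def
  set b2 := b2'⁻¹ with hb2def
  have ha2 : a2 ∈ A := A.inv_mem ha2'
  have hb2 : b2 ∈ B := B.inv_mem hb2'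
  have h2' : a1 * b * a1⁻¹ = b2 * a2 := by
    rw [← inv_inv (a1 * b * a1⁻¹), h2, mul_inv_rev]
  have e1 : ∀ x ∈ A, ∀ y ∈ A, ∀ z : G, ⁅x, z * y⁆ = ⁅x, z⁆ := by
    intro x hx y hy z
    simp only [commutatorElement_def, mul_inv_rev]
    have := cA y hy x⁻¹ (A.inv_mem hx)
    calc x * (z * y) * x⁻¹ * (y⁻¹ * z⁻¹) = x * z * (y * x⁻¹) * y⁻¹ * z⁻¹ := by group
      _ = x * z * (x⁻¹ * y) * y⁻¹ * z⁻¹ := by rw [this]
      _ = _ := by group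
  have e2 : ∀ x ∈ B, ∀ y ∈ B, ∀ z : G, ⁅z * y, x⁆ = ⁅z, x⁆ := by
    intro x hx y hy z
    simp only [commutatorElement_def, mul_inv_rev]
    have := cB y hy x hx
    calc z * y * x * (y⁻¹ * z⁻¹) * x⁻¹ = z * (y * x) * y⁻¹ * z⁻¹ * x⁻¹ := by group
      _ = z * (x * y) * y⁻¹ * z⁻¹ * x⁻¹ := by rw [this]
      _ = _ := by group
  have c1 : a1 * a * a1⁻¹ = a := by rw [cA a1 ha1 a ha]; group
  have c2 : b1 * b * b1⁻¹ = b := by rw [cB b1 hb1 b hb]; group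
  have c3 : b1 * b2 * b1⁻¹ = b2 := by rw [cB b1 hb1 b2 hb2]; group
  have c4 : a1 * a3 * a1⁻¹ = a3 := by rw [cA a1 ha1 a3 ha3]; group
  calc (b1 * a1) * ⁅a, b⁆ * (b1 * a1)⁻¹ = b1 * (a1 * ⁅a, b⁆ * a1⁻¹) * b1⁻¹ := by group
    _ = b1 * ⁅a, b2⁆ * b1⁻¹ := by rw [conjugate_commutatorElement, c1, h2', e1 a ha a2 ha2]
    _ = ⁅a3, b2⁆ := by rw [conjugate_commutatorElement, c3, h3, e2 b2 hb2 b3 hb3]
    _ = a1 * ⁅a3, b⁆ * a1⁻¹ := by rw [conjugate_commutatorElement, c4, h2', e1 a3 ha3 a2 ha2]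
    _ = a1 * (b1 * ⁅a, b⁆ * b1⁻¹) * a1⁻¹ := by
      rw [conjugate_commutatorElement a b b1, c2, h3, e2 b hb b3 hb3]
    _ = _ := by group

/-- A finite group which is the product AB of two abelian subgroups A and B is solvable. -/
theorem result {G : Type*} [Group G] [Finite G] (A B : Subgroup G)
    [IsMulCommutative A] [IsMulCommutative B] (hAB : ∀ g : G, ∃ a ∈ A, ∃ b ∈ B, g = a * b) :
    Group.IsSolvable G := by
  have cA : ∀ x ∈ A, ∀ y ∈ A, x * y = y * x := fun x hx y hy => setLike_mul_comm hx hy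
  have cB : ∀ x ∈ B, ∀ y ∈ B, x * y = y * x := fun x hx y hy => setLike_mul_comm hx hy
  have hcomm : ⁅⁅A, B⁆, ⁅A, B⁆⁆ = ⊥ := by
    rw [Subgroup.commutator_eq_bot_iff_le_centralizer, Subgroup.commutator_def,
      Subgroup.centralizer_closure, Subgroup.closure_le]
    rintro _ ⟨a, ha, b, hb, rfl⟩ _ ⟨a1, ha1, b1, hb1, rfl⟩
    have := key A B hAB a ha b hb a1⁻¹ (A.inv_mem ha1) b1⁻¹ (B.inv_mem hb1)
    set c := ⁅a, b⁆
    simp only [commutatorElement_def]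
    calc a1 * b1 * a1⁻¹ * b1⁻¹ * c
        = a1 * b1 * ((a1⁻¹ * b1⁻¹) * c * (a1⁻¹ * b1⁻¹)⁻¹) * (a1⁻¹ * b1⁻¹) := by group
      _ = a1 * b1 * ((b1⁻¹ * a1⁻¹) * c * (b1⁻¹ * a1⁻¹)⁻¹) * (a1⁻¹ * b1⁻¹) := by rw [this]
      _ = _ := by group
  have htop : A ⊔ B = ⊤ := by
    rw [eq_top_iff]
    intro g _
    obtain ⟨a, ha, b, hb, rfl⟩ := hAB g
    exact Subgroup.mul_mem_sup ha hb
  have hN : (⁅A, B⁆ : Subgroup G).Normal := by
    rw [← Subgroup.normalizer_eq_top_iff, eq_top_iff, ← htop, sup_le_iff]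
    exact ⟨Subgroup.normalizer_commutator_ge_left A B, Subgroup.normalizer_commutator_ge_right A B⟩
  have hle : commutator G ≤ ⁅A, B⁆ := by
    rw [← Subgroup.Normal.quotient_commutative_iff_commutator_le]
    refine ⟨⟨fun x y => ?_⟩⟩
    obtain ⟨x, rfl⟩ := QuotientGroup.mk_surjective x
    obtain ⟨y, rfl⟩ := QuotientGroup.mk_surjective y
    obtain ⟨a, ha, b, hb, rfl⟩ := hAB x
    obtain ⟨a', ha', b', hb', rfl⟩ := hAB y
    have hab : ∀ a ∈ A, ∀ b ∈ B, Commute (a : G ⧸ ⁅A, B⁆) (b : G ⧸ ⁅A, B⁆) := by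
      intro a ha b hb
      rw [← commutatorElement_eq_one_iff_commute]
      have := (QuotientGroup.eq_one_iff _).mpr (Subgroup.commutator_mem_commutator ha hb)
      simpa [commutatorElement_def] using this
    have haa : Commute (a : G ⧸ ⁅A, B⁆) (a' : G ⧸ ⁅A, B⁆) := by
      have := congrArg (fun x : G => (x : G ⧸ ⁅A, B⁆)) (cA a ha a' ha')
      simpa [Commute, SemiconjBy] using this
    have hbb : Commute (b : G ⧸ ⁅A, B⁆) (b' : G ⧸ ⁅A, B⁆) := by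
      have := congrArg (fun x : G => (x : G ⧸ ⁅A, B⁆)) (cB b hb b' hb')
      simpa [Commute, SemiconjBy] using this
    simp only [QuotientGroup.mk_mul]
    exact ((haa.mul_right (hab a ha b' hb')).mul_left ((hab a' ha' b hb).symm.mul_right hbb)).eq
  refine ⟨2, ?_⟩
  rw [eq_bot_iff, ← hcomm]
  exact Subgroup.commutator_mono hle hle

end Cfsg.Agent.S0047
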