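import Cfsg.Statements.S0049
import Mathlib.GroupTheory.SchurZassenhaus
import Mathlib.Tactic.Group

set_option autoImplicit false
open Cfsg

namespace Cfsg.Agent.S0049
open scoped commutatorElement

/-- A prime divisor of the order of a finite group also divides the index of the Frattini subgroup. -/
theorem result {G : Type*} [Group G] [Finite G] (p : ℕ) (hp : p.Prime) (hdvd : p ∣ Nat.card G) :
    p ∣ (frattini G).index := by
  by_contra hnd
  have : Fact p.Prime := ⟨hp⟩
  obtain ⟨P⟩ : Nonempty (Sylow p G) := inferInstance
  have hle : (P : Subgroup G) ≤ frattini G := by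
    have h1 : IsPGroup p ((P : Subgroup G).map (QuotientGroup.mk' (frattini G))) := P.2.map _
    obtain ⟨k, hk⟩ := IsPGroup.iff_card.mp h1
    have h2 := Subgroup.card_subgroup_dvd_card ((P : Subgroup G).map (QuotientGroup.mk' (frattini G)))
    rw [hk, ← Subgroup.index_eq_card] at h2
    have hk0 : k = 0 := by
      by_contra hk0
      exact hnd ((dvd_pow_self p hk0).trans h2)
    rw [hk0, pow_zero, Subgroup.card_eq_one, Subgroup.map_eq_bot_iff, QuotientGroup.ker_mk'] at hk
    exact hk
  have h3 := frattini_nongenerating (Sylow.normalizer_sup_eq_top' P hle)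
  have hPn : (P : Subgroup G).Normal := Subgroup.normalizer_eq_top_iff.mp h3
  obtain ⟨H, hH⟩ := Subgroup.exists_right_complement'_of_coprime P.card_coprime_index
  have h4 : H ⊔ frattini G = ⊤ := by
    rw [eq_top_iff, ← hH.sup_eq_top, sup_comm]
    exact sup_le_sup_left hle H
  have h5 := frattini_nongenerating h4
  have h6 := hH.disjoint
  rw [h5, disjoint_top] at h6
  exact P.ne_bot_of_dvd_card hdvd h6

end Cfsg.Agent.S0049
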