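import Cfsg.Statements.S0053
import Mathlib.Tactic.Group

set_option autoImplicit false
open Cfsg

namespace Cfsg.Agent.S0053
open scoped commutatorElement

/-- An abelian minimal normal subgroup N of a finite group is complemented exactly when N is not inside the Frattini subgroup. -/
theorem result {G : Type*} [Group G] [Finite G]
    (N : Subgroup G) [N.Normal] [IsMulCommutative N] (hN : N ≠ ⊥)
    (hmin : ∀ M : Subgroup G, M.Normal → M ≤ N → M = ⊥ ∨ M = N) :
    (∃ H : Subgroup G, Subgroup.IsComplement' N H) ↔ ¬ N ≤ frattini G := by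
  constructor
  · rintro ⟨H, hH⟩ hle
    have h1 : H ⊔ frattini G = ⊤ := by
      rw [eq_top_iff, ← hH.sup_eq_top, sup_comm]
      exact sup_le_sup_left hle H
    have h2 := frattini_nongenerating h1
    apply hN
    have := hH.disjoint
    rw [h2] at this
    simpa using this
  · intro h
    have : ∃ M : Subgroup G, IsCoatom M ∧ ¬ N ≤ M := by
      by_contra hcon
      push Not at hcon
      apply h
      simp only [frattini, Order.radical, le_iInf_iff]
      intro M hM
      exact hcon M hM
    obtain ⟨M, hM, hNM⟩ := this
    have htop : N ⊔ M = ⊤ := hM.2 _ (right_lt_sup.mpr hNM)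
    have hnorm : (N ⊓ M).Normal := by
      rw [← Subgroup.normalizer_eq_top_iff, eq_top_iff, ← htop, sup_le_iff]
      constructor
      · refine le_trans ?_ (Subgroup.centralizer_le_normalizer _)
        exact N.le_centralizer.trans (Subgroup.centralizer_le (fun x hx => hx.1))
      · rw [Subgroup.le_normalizer_iff]
        intro m hm x hx
        exact ⟨‹N.Normal›.conj_mem x hx.1 m, M.mul_mem (M.mul_mem hm hx.2) (M.inv_mem hm)⟩
    refine ⟨M, Subgroup.isComplement'_of_disjoint_and_mul_eq_univ ?_ ?_⟩
    · rcases hmin _ hnorm inf_le_left with h1 | h1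
      · exact disjoint_iff.mpr h1
      · exact absurd (inf_eq_left.mp h1) hNM
    · rw [← Subgroup.normal_mul, htop, Subgroup.coe_top]

end Cfsg.Agent.S0053
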