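import Cfsg.Statements.S0054
import Mathlib.GroupTheory.PGroup
import Mathlib.Tactic.Group

set_option autoImplicit false
open Cfsg

namespace Cfsg.Agent.S0054
open scoped commutatorElement

/-- A regular normal subgroup of a finite 2-transitive group is elementary abelian: it is commutative and all its elements have order dividing one prime. -/
theorem result {G : Type*} [Group G] [Finite G]
    {X : Type*} [Nonempty X] [MulAction G X] (h2 : MulAction.IsMultiplyPretransitive G X 2)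
    (N : Subgroup G) [N.Normal] (htrans : MulAction.IsPretransitive N X) (hreg : ∀ x : X, MulAction.stabilizer N x = ⊥) :
    IsMulCommutative N ∧ ∃ p : ℕ, p.Prime ∧ ∀ n ∈ N, n ^ p = 1 := by
  obtain ⟨x⟩ := ‹Nonempty X›
  have hfix : ∀ n ∈ N, n • x = x → n = 1 := by
    intro n hn h
    have : (⟨n, hn⟩ : N) ∈ MulAction.stabilizer N x := h
    rw [hreg, Subgroup.mem_bot] at this
    exact congrArg Subtype.val this
  have hconj : ∀ n ∈ N, ∀ m ∈ N, n ≠ 1 → m ≠ 1 → ∃ g : G, g * n * g⁻¹ = m := by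
    intro n hn m hm hn1 hm1
    have h3 : ∀ a b c d : X, a ≠ b → c ≠ d → ∃ g : G, g • a = c ∧ g • b = d :=
      fun _ _ _ _ => MulAction.is_two_pretransitive_iff.mp h2
    obtain ⟨g, hg1, hg2⟩ := h3
      x (n • x) x (m • x) (fun h => hn1 (hfix n hn h.symm))
      (fun h => hm1 (hfix m hm h.symm))
    refine ⟨g, ?_⟩
    have h1 : m⁻¹ * (g * n * g⁻¹) = 1 := by
      refine hfix _ (N.mul_mem (N.inv_mem hm) (‹N.Normal›.conj_mem n hn g)) ?_
      rw [mul_smul, mul_smul, mul_smul, inv_smul_eq_iff.mpr hg1.symm, hg2, inv_smul_smul]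
    exact (inv_mul_eq_one.mp h1).symm
  by_cases hN : N = ⊥
  · subst hN
    refine ⟨inferInstance, 2, Nat.prime_two, fun n hn => ?_⟩
    rw [Subgroup.mem_bot.mp hn, one_pow]
  obtain ⟨p, hp, hpd⟩ := Nat.exists_prime_and_dvd (mt Subgroup.card_eq_one.mp hN)
  have : Fact p.Prime := ⟨hp⟩
  obtain ⟨y, hy⟩ := exists_prime_orderOf_dvd_card' p hpd
  have hy1 : (y : G) ≠ 1 := by
    intro h
    rw [OneMemClass.coe_eq_one.mp h, orderOf_one] at hy
    exact hp.one_lt.ne hy
  have hyp : (y : G) ^ p = 1 := by rw [← hy, ← Subgroup.coe_pow, pow_orderOf_eq_one]; rfl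
  have hexp : ∀ n ∈ N, n ^ p = 1 := by
    intro n hn
    by_cases hn1 : n = 1
    · rw [hn1, one_pow]
    obtain ⟨g, rfl⟩ := hconj y y.2 n hn hy1 hn1
    rw [conj_pow, hyp]; simp
  refine ⟨?_, p, hp, hexp⟩
  have hP : IsPGroup p N := fun n => ⟨1, Subtype.ext (by simpa using hexp n n.2)⟩
  have : Nontrivial N := (Subgroup.nontrivial_iff_ne_bot N).mpr hN
  have := hP.center_nontrivial
  obtain ⟨z, hz⟩ := exists_ne (1 : Subgroup.center N)
  have hz1 : ((z : N) : G) ≠ 1 := fun h => hz (Subtype.ext (Subtype.ext h))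
  refine ⟨⟨fun a b => Subtype.ext ?_⟩⟩
  by_cases ha : (a : G) = 1
  · simp [ha]
  obtain ⟨g, hg⟩ := hconj _ (z : N).2 a a.2 hz1 ha
  have h1 := congrArg Subtype.val (Subgroup.mem_center_iff.mp z.2
    ⟨g⁻¹ * b * g, by simpa using ‹N.Normal›.conj_mem _ b.2 g⁻¹⟩)
  simp only [Subgroup.coe_mul] at h1 ⊢
  rw [← hg]
  calc g * (z : N) * g⁻¹ * b = g * ((z : N) * (g⁻¹ * b * g)) * g⁻¹ := by group
    _ = g * ((g⁻¹ * b * g) * (z : N)) * g⁻¹ := by rw [h1]
    _ = _ := by group

end Cfsg.Agent.S0054
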