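import Cfsg.Statements.S0057
import Cfsg.Agent.BG.Base6
import Cfsg.Agent.SolvStr.Product

set_option autoImplicit false
open Cfsg

namespace Cfsg.Agent.S0057

open scoped commutatorElement in
open Cfsg.Agent.BG Subgroup in
theorem aux {G : Type*} [Group G] [Finite G] {A K : Subgroup G} (hAK : A ≤ N[K])
    (hc : (#K).Coprime #A) (hs : Group.IsSolvable A ∨ Group.IsSolvable K)
    {p : ℕ} (hp : p.Prime) (hidx : (K ⊓ C[A]).relIndex K = p) : #⁅K, A⁆ = p := by
  have := Fact.mk hp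
  obtain ⟨P, hP, hAP⟩ := coprime_Sylow_exists p hAK hc hs
  have h1 : SolvStr.IsProd P (K ⊓ C[A]) K := SolvStr.isProd_of_coprime_relIndex hP.le inf_le_left
    (by rw [hidx]; exact ((Nat.Prime.coprime_iff_not_dvd hp).2 hP.not_dvd).symm)
  have hNP : ⁅K, A⁆ ≤ P := by
    rw [commutator_le]
    intro k hk a ha
    obtain ⟨x, hx, c, hc, rfl⟩ := h1.exists_mul k hk
    have e : ⁅x * c, a⁆ = x * (a * x⁻¹ * a⁻¹) := by
      rw [commutatorElement_def, mul_assoc x c a, ← hc.2 a ha]; group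
    rw [e]
    exact mul_mem hx (conj_mem_of_norm (hAP ha) (inv_mem hx))
  have hNK : ⁅K, A⁆ ≤ K := commg_subl hAK
  have hAN : A ≤ N[⁅K, A⁆] := commg_normr K A
  have hcN : (#⁅K, A⁆).Coprime #A := coprimeSg hNK hc
  have h2 : SolvStr.IsProd ⁅K, A⁆ (K ⊓ C[A]) K := by
    have := SolvStr.isProd_sup_of_le_normalizer (N := ⁅K, A⁆) (H := K ⊓ C[A])
      (inf_le_left.trans (commg_norml K A))
    rwa [coprime_cent_prod' hAK hc hs] at this
  have h3 : (⁅K, A⁆ ⊓ C[A]).relIndex ⁅K, A⁆ = p := by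
    rw [← hidx, ← h2.relIndex_eq, ← inf_relIndex_right (K ⊓ C[A]), inf_right_comm,
      inf_eq_right.2 hNK]
  have hD : ⁅K, A⁆ ⊓ C[A] ⊴ ⁅K, A⁆ := p_index_normal (hP.pg.sub hNP) inf_le_left h3.dvd
  have h4 : ⁅K, A⁆ ≤ C[⁅K, A⁆ ⊓ C[A]] := by
    conv_lhs => rw [← coprime_commGid hAK hc]
    exact (commgS _ (cents_symm inf_le_right)).trans (commg_subr (norms_cent hD.norm))
  have h5 : IsMulCommutative ↥⁅K, A⁆ := cyclic_factor_abelian (le_inf inf_le_left (cents_symm h4))
    (isCyclic_of_prime_card (p := p) (by rw [card_quotient hD.norm, h3]))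
  have h6 := coprime_abel_cent_TI hAN hcN h5
  rw [coprime_commGid hAK hc] at h6
  rw [h6, relIndex_bot_left] at h3
  exact h3

/-- Under coprime action, if the centraliser of A in K has prime index p in K then the commutator subgroup [K, A] has order exactly p. -/
theorem result {G : Type*} [Group G] [Finite G] (A K : Subgroup G) (hAK : A ≤ Subgroup.normalizer (K : Set G))
    (hcop : (Nat.card A).Coprime (Nat.card K)) (hsolv : Group.IsSolvable A ∨ Group.IsSolvable K)
    (p : ℕ) (hp : p.Prime) (hidx : (K ⊓ Subgroup.centralizer (A : Set G)).relIndex K = p) :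
    Nat.card (⁅K, A⁆ : Subgroup G) = p := by
  exact aux hAK hcop.symm hsolv hp hidx

end Cfsg.Agent.S0057
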