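import Cfsg.Statements.S0059
import Cfsg.Agent.Solv.Coprime

set_option autoImplicit false
open Cfsg

namespace Cfsg.Agent.S0059

/-- Let a finite group act on a set on which a normal subgroup K of coprime order and index is transitive, with K or the quotient solvable. Then any complement H of K has a fixed point, and any two H-fixed points are interchanged by an element of K centralising H. -/
theorem result {G : Type*} [Group G] [Finite G] {X : Type*} [Nonempty X] [MulAction G X]
    (K H : Subgroup G) [K.Normal] (hc : Subgroup.IsComplement' K H) (hcop : (Nat.card K).Coprime K.index)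
    (hsolv : Group.IsSolvable K ∨ Group.IsSolvable (G ⧸ K)) (htrans : MulAction.IsPretransitive K X) :
    (∃ x : X, ∀ h ∈ H, h • x = x) ∧
    ∀ x y : X, (∀ h ∈ H, h • x = x) → (∀ h ∈ H, h • y = y) → ∃ k ∈ K ⊓ Subgroup.centralizer (H : Set G), k • x = y := by
  have hcard : Nat.card H = K.index := hc.symm.index_eq_card.symm
  have hc' : (Nat.card H).Coprime (Nat.card K) := by rw [hcard]; exact hcop.symm
  have hs : Group.IsSolvable H ∨ Group.IsSolvable K := by
    rcases hsolv with h | h
    · exact Or.inr h
    · exact Or.inl (Solv.isSolvable_of_mulEquiv hc.symm.QuotientMulEquiv)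
  have hn : H ≤ Subgroup.normalizer (K : Set G) := Subgroup.le_normalizer_of_normal
  constructor
  · obtain ⟨x⟩ : Nonempty X := inferInstance
    obtain ⟨k, hk, hle⟩ := Solv.exists_conj_smul_le_of_forall_exists
      (S := MulAction.stabilizer G x) hn hc' hs (fun a _ => by
        obtain ⟨k, hk⟩ := htrans.exists_smul_eq (a • x) x
        exact ⟨k, k.2, by rw [MulAction.mem_stabilizer_iff, mul_smul]; exact hk⟩)
    refine ⟨k⁻¹ • x, fun h hh => ?_⟩
    have := Solv.conj_smul_le_iff.1 hle h hh
    rw [MulAction.mem_stabilizer_iff, mul_smul, mul_smul] at this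
    rw [eq_inv_smul_iff, this]
  · intro x y hx hy
    obtain ⟨k, hk⟩ := htrans.exists_smul_eq x y
    have hk : (k : G) • x = y := hk
    have hN : H ≤ Subgroup.normalizer ((K ⊓ MulAction.stabilizer G x : Subgroup G) : Set G) :=
      Solv.le_normalizer_inf hn (le_trans (fun h hh => hx h hh : H ≤ MulAction.stabilizer G x)
        Subgroup.le_normalizer)
    obtain ⟨c, hc1, hc2⟩ := Solv.exists_centralizer_mem_coset hc' hs
      (N := K ⊓ MulAction.stabilizer G x) inf_le_left hN k.2 (fun a ha => by
        refine Subgroup.mem_inf.2 ⟨?_, ?_⟩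
        · have := K.mul_mem (K.inv_mem k.2) (Solv.conj_mem_of_le_normalizer hn ha k.2)
          simpa only [mul_assoc] using this
        · rw [MulAction.mem_stabilizer_iff, mul_smul, mul_smul, mul_smul, hx _ (H.inv_mem ha), hk,
            hy a ha, ← hk, inv_smul_smul])
    refine ⟨c, hc1, ?_⟩
    have := (Subgroup.mem_inf.1 hc2).2
    rw [MulAction.mem_stabilizer_iff, mul_smul, inv_smul_eq_iff] at this
    rw [this, hk]

end Cfsg.Agent.S0059
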