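import Cfsg.Statements.S0063
import Mathlib.GroupTheory.SpecificGroups.Cyclic

set_option autoImplicit false
open Cfsg

namespace Cfsg.Agent.S0063

theorem aux (p : ℕ) [Fact p.Prime] (m : ℕ) : ∀ (G : Type*) [Group G] [Finite G],
    Nat.card G = p ^ m → Group.nilpotencyClass G ≤ max 1 (m - 1) := by
  induction m using Nat.strong_induction_on with
  | _ m ih =>
  intro G _ _ hG
  have hp : IsPGroup p G := IsPGroup.of_card hG
  have : Group.IsNilpotent G := hp.isNilpotent
  rcases subsingleton_or_nontrivial G with hs | hs
  · rw [Group.nilpotencyClass_zero_iff_subsingleton.mpr hs]; exact Nat.zero_le _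
  obtain ⟨k, hk⟩ := IsPGroup.iff_card.mp (hp.to_quotient (Subgroup.center G))
  have hlt : k < m := by
    have h1 : Nat.card (G ⧸ Subgroup.center G) < Nat.card G := by
      rw [← (Subgroup.center G).card_mul_index, ← Subgroup.index_eq_card]
      have h2 : 1 < Nat.card (Subgroup.center G) :=
        Finite.one_lt_card_iff_nontrivial.mpr hp.center_nontrivial
      have h3 : 0 < (Subgroup.center G).index := Nat.pos_of_ne_zero Subgroup.FiniteIndex.index_ne_zero
      nlinarith
    rw [hk, hG] at h1
    exact (Nat.pow_lt_pow_iff_right (Fact.out : p.Prime).one_lt).mp h1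
  by_cases hk1 : k ≤ 1
  · have : IsCyclic (G ⧸ Subgroup.center G) := by
      interval_cases k
      · have : Subsingleton (G ⧸ Subgroup.center G) :=
          (Nat.card_eq_one_iff_unique.mp (by simpa using hk)).1
        infer_instance
      · exact isCyclic_of_prime_card (p := p) (by simpa using hk)
    have hc : IsMulCommutative G := isMulCommutative_of_isCyclic_quotient_center_self G
    exact (Group.IsNilpotent.nilpotencyClass_le_one_iff.mpr hc).trans (le_max_left _ _)
  · by_cases hm : m ≤ 2
    · omega
    · have := ih k hlt _ hk
      rw [Group.nilpotencyClass_eq_quotient_center_plus_one]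
      omega

/-- A finite group of prime-power order p ^ m with m > 1 is nilpotent of class at most m - 1. -/
theorem result {G : Type*} [Group G] [Finite G] (p m : ℕ) [Fact p.Prime]
    (hG : Nat.card G = p ^ m) (hm : 1 < m) : Group.nilpotencyClass G ≤ m - 1 := by
  have := aux p m G hG
  omega

end Cfsg.Agent.S0063
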