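import Cfsg.Statements.S0064

set_option autoImplicit false
open Cfsg

namespace Cfsg.Agent.S0064

/-- A finite group is nilpotent exactly when each of its subgroups is subnormal. -/
theorem result {G : Type*} [Group G] [Finite G] :
    Group.IsNilpotent G ↔ ∀ H : Subgroup G, H.IsSubnormal := by
  constructor
  · intro hG H
    induction H using WellFoundedGT.induction with
    | ind H ih =>
      by_cases hH : H = ⊤
      · rw [hH]; exact Subgroup.IsSubnormal.top
      · have hlt := Group.normalizerCondition_of_isNilpotent (G := G) H (lt_top_iff_ne_top.mpr hH)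
        exact Subgroup.IsSubnormal.step _ _ hlt.le (ih _ hlt) Subgroup.normal_in_normalizer
  · intro h
    refine (Group.isNilpotent_of_finite_tfae.out 0 2).mpr ?_
    intro M hM
    obtain ⟨K, hK, hMK, hlt⟩ := (h M).exists_normal_and_le_and_lt_top_of_ne hM.1
    have : K = M := by
      by_contra hne
      exact hlt.ne (hM.2 K (lt_of_le_of_ne hMK (Ne.symm hne)))
    rw [← this]; exact hK

end Cfsg.Agent.S0064
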