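import Cfsg.Statements.S0067
import Cfsg.Agent.Frob.Zipper
import Mathlib.Tactic.Group

set_option autoImplicit false
open Pointwise
open Cfsg

namespace Cfsg.Agent.S0067
open scoped commutatorElement

/-- If the join of a subgroup A with each of its conjugates is nilpotent, then A is subnormal in the finite group and contained in the Fitting subgroup. -/
theorem result {G : Type*} [Group G] [Finite G] (A : Subgroup G)
    (h : ∀ g : G, Group.IsNilpotent (A ⊔ MulAut.conj g • A : Subgroup G)) : A.IsSubnormal ∧ A ≤ Cfsg.fittingSubgroup G := by
  have h1 := Frob.isSubnormal_of_forall_nilpotent h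
  have := h 1
  have : Group.IsNilpotent A := Solv.isNilpotent_of_le (le_sup_left : A ≤ A ⊔ MulAut.conj (1 : G) • A)
  exact ⟨h1, Solv.le_fitting_of_isSubnormal h1⟩

end Cfsg.Agent.S0067
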