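import Cfsg.Statements.S0068
import Mathlib.GroupTheory.FixedPointFree
import Mathlib.Tactic.Group

set_option autoImplicit false
open Cfsg

namespace Cfsg.Agent.S0068
open scoped commutatorElement

/-- Frobenius complements of even order: if H complements a nontrivial normal subgroup K, each nonidentity element of H has trivial centraliser in K, and H has even order, then H contains a unique involution s, K is abelian, and s inverts every element of K. -/
theorem result {G : Type*} [Group G] [Finite G] (K H : Subgroup G) [K.Normal]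
    (hc : Subgroup.IsComplement' K H) (hK : K ≠ ⊥) (hfpf : ∀ h ∈ H, h ≠ 1 → K ⊓ Subgroup.centralizer {h} = ⊥)
    (heven : 2 ∣ Nat.card H) :
    (∃ s ∈ H, orderOf s = 2 ∧ (∀ t ∈ H, orderOf t = 2 → t = s) ∧ ∀ k ∈ K, s * k * s⁻¹ = k⁻¹) ∧ IsMulCommutative K := by
  have hfp : ∀ s ∈ H, orderOf s = 2 → MonoidHom.FixedPointFree (MulAut.conjNormal s : MulAut K) ∧
      Function.Involutive (MulAut.conjNormal s : MulAut K) := by
    intro s hs hs2
    have hs1 : s ≠ 1 := by rintro rfl; simp at hs2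
    constructor
    · intro k hk
      have h1 : s * k * s⁻¹ = k := congrArg Subtype.val hk
      have h2 : (k : G) ∈ K ⊓ Subgroup.centralizer {s} :=
        ⟨k.2, Subgroup.mem_centralizer_singleton_iff.mpr (mul_inv_eq_iff_eq_mul.mp h1).symm⟩
      rw [hfpf s hs hs1, Subgroup.mem_bot] at h2
      exact Subtype.ext h2
    · intro k
      rw [← MulAut.mul_apply, ← map_mul, ← sq, ← hs2, pow_orderOf_eq_one, map_one, MulAut.one_apply]
  have hinv : ∀ s ∈ H, orderOf s = 2 → ∀ k ∈ K, s * k * s⁻¹ = k⁻¹ := by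
    intro s hs hs2 k hk
    obtain ⟨h1, h2⟩ := hfp s hs hs2
    have := congrFun (h1.coe_eq_inv_of_involutive h2) ⟨k, hk⟩
    exact congrArg Subtype.val this
  obtain ⟨s, hs⟩ := exists_prime_orderOf_dvd_card' 2 heven
  have hs2 : orderOf (s : G) = 2 := by rw [Subgroup.orderOf_coe, hs]
  refine ⟨⟨s, s.2, hs2, fun t ht ht2 => ?_, hinv s s.2 hs2⟩, ?_⟩
  · by_contra hne
    have h1 : (s : G)⁻¹ * t ≠ 1 := fun h => hne (inv_mul_eq_one.mp h).symm
    apply hK
    rw [← hfpf _ (H.mul_mem (H.inv_mem s.2) ht) h1, eq_comm, inf_eq_left]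
    intro k hk
    rw [Subgroup.mem_centralizer_singleton_iff]
    have e1 := hinv s s.2 hs2 k hk
    have e2 := hinv t ht ht2 k hk
    calc k * ((s : G)⁻¹ * t) = (s : G)⁻¹ * (s * k * (s : G)⁻¹) * t := by group
      _ = (s : G)⁻¹ * (t * k * t⁻¹) * t := by rw [e1, e2]
      _ = _ := by group
  · obtain ⟨h1, h2⟩ := hfp s s.2 hs2
    exact ⟨⟨fun a b => (h1.commute_all_of_involutive h2 a b).eq⟩⟩

end Cfsg.Agent.S0068
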