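import Cfsg.Statements.S0069
import Cfsg.Agent.Frob.Compl
import Mathlib.Tactic.Group

set_option autoImplicit false
open Cfsg

namespace Cfsg.Agent.S0069
open scoped commutatorElement

/-- A Frobenius complement has nontrivial centre: if H ≠ 1 complements a nontrivial normal subgroup K and every nonidentity element of H has trivial centraliser in K, then the centre of H is nontrivial. -/
theorem result {G : Type*} [Group G] [Finite G] (K H : Subgroup G) [K.Normal]
    (hc : Subgroup.IsComplement' K H) (hK : K ≠ ⊥) (hH : H ≠ ⊥) (hfpf : ∀ h ∈ H, h ≠ 1 → K ⊓ Subgroup.centralizer {h} = ⊥) :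
    Subgroup.center H ≠ ⊥ := by
  obtain ⟨z, hz, h1, h⟩ := Frob.exists_center_of_semiregular hK hH Subgroup.le_normalizer_of_normal hfpf
  intro e
  have : (⟨z, hz⟩ : H) ∈ Subgroup.center H := Subgroup.mem_center_iff.2 fun g => Subtype.ext (h g g.2)
  rw [e, Subgroup.mem_bot] at this
  exact h1 (congrArg Subtype.val this)

end Cfsg.Agent.S0069
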