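import Cfsg.Statements.S0499
import Cfsg.Agent.Small.Data
import Cfsg.Agent.S0071
import Cfsg.Agent.Transfer.Abelian

set_option autoImplicit false
open Cfsg

namespace Cfsg.Agent.S0499

open Cfsg.Agent.Small Subgroup

/-- A non-abelian finite simple group of even order has order divisible by 12, 16 or 56. -/
theorem result {G : Type*} [Group G] [Finite G] [IsSimpleGroup G]
    (hG : ¬ IsMulCommutative G) (h2 : Even (Nat.card G)) :
    12 ∣ Nat.card G ∨ 16 ∣ Nat.card G ∨ 56 ∣ Nat.card G := by
  have hG := not_isCyclic_of_not_comm hG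
  have := Fact.mk Nat.prime_two
  by_cases h16 : 16 ∣ Nat.card G
  · exact .inr (.inl h16)
  obtain ⟨P⟩ : Nonempty (Sylow 2 G) := inferInstance
  have h1 : ¬ ∃ N : Subgroup G, N.Normal ∧ N.IsComplement' (P : Subgroup G) := by
    rintro ⟨N, hN, h⟩
    rcases hN.eq_bot_or_eq_top with rfl | rfl
    · have := P.2.isNilpotent
      rw [isComplement'_bot_left.1 h] at this
      exact not_solvable hG (Group.isSolvable_of_surjective (f := (⊤ : Subgroup G).subtype)
        fun g => ⟨⟨g, trivial⟩, rfl⟩)
    · exact P.not_dvd_index (by rw [isComplement'_top_left.1 h, index_bot]; exact h2.two_dvd)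
  rw [S0071.result P] at h1
  push Not at h1
  obtain ⟨Q, hQ, g, hg, ho, hc⟩ := h1
  let C := (centralizer (Q : Set G)).subgroupOf (normalizer (Q : Set G))
  obtain ⟨r, hr, hd⟩ := Nat.exists_prime_and_dvd (n := orderOf (QuotientGroup.mk' C ⟨g, hg⟩))
    fun e => hc ((QuotientGroup.eq_one_iff (N := C) _).1 (orderOf_eq_one_iff.1 e))
  have r2 : r ≠ 2 := by
    rintro rfl
    have := hd.trans (orderOf_map_dvd _ _)
    rw [← Subgroup.orderOf_coe] at this
    exact (Nat.coprime_two_right.1 ho).not_two_dvd_nat this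
  have h3 : r ∣ C.index := hd.trans (orderOf_dvd_natCard _)
  have := Fact.mk hr
  obtain ⟨R⟩ : Nonempty (Sylow r (normalizer (Q : Set G))) := inferInstance
  have h4 := Transfer.card_modEq_card_inf_centralizer (R.2.map (Subgroup.subtype _)) (Q := Q)
    (map_subtype_le _)
  have h5 := card_dvd_of_le (inf_le_left (a := Q) (b := centralizer
    ((R : Subgroup (normalizer (Q : Set G))).map (Subgroup.subtype _) : Set G)))
  have h6 : Nat.card Q ≠ Nat.card (Q ⊓ centralizer ((R : Subgroup (normalizer (Q : Set G))).map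
      (Subgroup.subtype _) : Set G) : Subgroup G) := fun e => R.not_dvd_index (h3.trans (index_dvd_of_le fun x hx y hy =>
    (((eq_of_le_of_card_ge inf_le_left e.le).ge hy).2 _ (mem_map_of_mem _ hx)).symm))
  have h7 : r ∣ Nat.card G := (h3.trans C.index_dvd_card).trans (card_subgroup_dvd_card _)
  have h8 := card_subgroup_dvd_card Q
  obtain ⟨k, hk⟩ := (P.2.to_le hQ).exists_card_eq
  have h9 : k ≤ 3 := by
    by_contra h
    exact h16 ((pow_dvd_pow 2 (by omega : 4 ≤ k)).trans (hk ▸ h8))
  have h10 := four_dvd_card hG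
  rw [hk] at h4 h5 h6 h8
  obtain ⟨j, hj, e⟩ := (Nat.dvd_prime_pow Nat.prime_two).1 h5
  rw [e] at h4 h6
  have h11 := (Nat.modEq_iff_dvd' (Nat.pow_le_pow_right (by omega) hj)).1 h4.symm
  have h12 := hr.two_le
  have h13 : r ≠ 4 := by rintro rfl; norm_num at hr
  have h14 : r ≠ 6 := by rintro rfl; norm_num at hr
  have h15 : r = 3 ∨ (r = 7 ∧ k = 3) := by
    interval_cases k <;> interval_cases j <;> simp at h6 h11 <;>
      first | omega | (have := Nat.le_of_dvd (by omega) h11; interval_cases r <;> omega)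
  rcases h15 with rfl | ⟨rfl, rfl⟩ <;> omega

end Cfsg.Agent.S0499
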