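import Cfsg.Statements.S0073
import Cfsg.Agent.S0499

set_option autoImplicit false
open Cfsg

namespace Cfsg.Agent.S0073

/-- For a finite non-abelian simple group, either the cube of the least prime divisor of the order divides the order, or 12 does. -/
theorem result {G : Type*} [Group G] [Finite G] [IsSimpleGroup G] (hG : ∃ x y : G, x * y ≠ y * x) : (Nat.card G).minFac ^ 3 ∣ Nat.card G ∨ 12 ∣ Nat.card G := by
  have hc := Small.not_isCyclic_of_ne hG
  have h2 := Small.even_card hc
  rw [(Nat.minFac_eq_two_iff _).2 h2]
  obtain ⟨x, y, h⟩ := hG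
  have := S0499.result (G := G) (fun e => h (e.is_comm.comm x y)) (even_iff_two_dvd.2 h2)
  omega

end Cfsg.Agent.S0073
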