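import Cfsg.Statements.S0074
import Cfsg.Agent.Transfer.Frobenius

set_option autoImplicit false
open Cfsg

namespace Cfsg.Agent.S0074

/-- For an abelian Sylow p-subgroup P, the intersection of P with the derived subgroup of G equals its intersection with the derived subgroup of the normalizer of P. -/
theorem result {G : Type*} [Group G] [Finite G] {p : ℕ} [Fact p.Prime] (P : Sylow p G) (hP : IsMulCommutative P) : commutator G ⊓ (P : Subgroup G) = ⁅Subgroup.normalizer (P : Set G), Subgroup.normalizer (P : Set G)⁆ ⊓ (P : Subgroup G) := by
  apply le_antisymm
  · refine le_inf (Transfer.sylow_inf_commutator_le P fun x hx g hg => ?_) inf_le_right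
    obtain ⟨n, hn, hn'⟩ := Transfer.exists_normalizer_conj_eq_of_centralizer P
      (A := {x}) (g := g) (by simpa using (P : Subgroup G).le_centralizer hx)
      (by simpa using (P : Subgroup G).le_centralizer hg)
    rw [← hn' x rfl]
    exact Transfer.inv_mul_conj_mem_commutator (Subgroup.le_normalizer hx) hn
  · exact inf_le_inf_right _ (Subgroup.commutator_mono le_top le_top)

end Cfsg.Agent.S0074
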