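import Cfsg.Statements.S0075
import Cfsg.Agent.Transfer.Hall

set_option autoImplicit false
open Cfsg

namespace Cfsg.Agent.S0075

/-- For an abelian Sylow p-subgroup T, its intersection with the subgroup generated by the elements of order prime to p is the commutator of T with its normalizer. -/
theorem result {G : Type*} [Group G] [Finite G] {p : ℕ} [Fact p.Prime] (T : Sylow p G) (hT : IsMulCommutative T) : (T : Subgroup G) ⊓ Cfsg.pResidual p G = ⁅(T : Subgroup G), Subgroup.normalizer (T : Set G)⁆ := by
  apply le_antisymm
  · refine Transfer.sylow_inf_pResidual_le T fun x hx g _ hg => ?_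
    obtain ⟨n, hn, hn'⟩ := Transfer.exists_normalizer_conj_eq_of_centralizer T
      (A := {x}) (g := g) (by simpa using (T : Subgroup G).le_centralizer hx.1)
      (by simpa using (T : Subgroup G).le_centralizer hg)
    rw [← hn' x rfl]
    exact Transfer.inv_mul_conj_mem_commutator hx.1 hn
  · refine le_inf (Subgroup.le_normalizer_iff_commutator_le_left.1 le_rfl) ?_
    exact (Subgroup.commutator_mono le_top le_top).trans
      (Subgroup.Normal.commutator_le_of_self_sup_commutative_eq_top
        (Transfer.pResidual_sup_sylow T) hT)

end Cfsg.Agent.S0075
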