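import Cfsg.Statements.S0076
import Cfsg.Agent.Transfer.Alperin

set_option autoImplicit false
open Cfsg

namespace Cfsg.Agent.S0076

open Pointwise

/-- Two P-invariant subsets of a Sylow p-subgroup P that are conjugate in G are conjugate under the normalizer of P. -/
theorem result {G : Type*} [Group G] [Finite G] {p : ℕ} [Fact p.Prime] (P : Sylow p G) (X Y : Set G) (hXP : X ⊆ P) (hYP : Y ⊆ P) (hX : ∀ x ∈ P, (fun y => x * y * x⁻¹) '' X = X) (hY : ∀ x ∈ P, (fun y => x * y * x⁻¹) '' Y = Y) (g : G) (hg : (fun y => g * y * g⁻¹) '' X = Y) : ∃ n ∈ Subgroup.normalizer (P : Set G), (fun y => n * y * n⁻¹) '' X = Y := by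
  have key : ∀ Z : Set G, (∀ x ∈ P, (fun y => x * y * x⁻¹) '' Z = Z) →
      (P : Subgroup G) ≤ Subgroup.normalizer Z := fun Z hZ x hx =>
    Subgroup.mem_normalizer_iff_conj_image_eq.2 (hZ x hx)
  have h1 : MulAut.conj g • (P : Subgroup G) ≤ Subgroup.normalizer Y := by
    rw [Transfer.conj_smul_le_iff]
    intro x hx
    rw [Subgroup.mem_normalizer_iff_conj_image_eq, ← hg, Set.image_image]
    conv_rhs => rw [← hX x hx, Set.image_image]
    congr 1
    ext y
    simp [mul_assoc]
  obtain ⟨h, hh, hh'⟩ := Transfer.exists_mul_normalizer_of_le P (key Y hY) h1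
  refine ⟨h * g, hh', ?_⟩
  rw [← Subgroup.mem_normalizer_iff_conj_image_eq.1 hh, ← hg, Set.image_image]
  congr 1
  ext y
  simp [mul_assoc]

end Cfsg.Agent.S0076
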