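import Cfsg.Statements.S0077
import Cfsg.Agent.Transfer.Frobenius

set_option autoImplicit false
open Cfsg

namespace Cfsg.Agent.S0077

open Pointwise

/-- If a subgroup Z of the centre of a Sylow p-subgroup P is weakly closed in P, then P meets the derived subgroup of G exactly where it meets the derived subgroup of the normalizer of Z. -/
theorem result {G : Type*} [Group G] [Finite G] {p : ℕ} [Fact p.Prime] (P : Sylow p G) (Z : Subgroup G) (hZ : Z ≤ Subgroup.centralizer (P : Set G)) (hW : Cfsg.IsWeaklyClosed Z P) : commutator G ⊓ (P : Subgroup G) = ⁅Subgroup.normalizer (Z : Set G), Subgroup.normalizer (Z : Set G)⁆ ⊓ (P : Subgroup G) := by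
  apply le_antisymm
  · refine le_inf (Transfer.sylow_inf_commutator_le P fun x hx g hg => ?_) inf_le_right
    have hPZ : (P : Subgroup G) ≤ Subgroup.centralizer (Z : Set G) :=
      fun y hy z hz => (hZ hz y hy).symm
    obtain ⟨n, hn, hn'⟩ := Transfer.exists_normalizer_conj_eq_of_weaklyClosed P hW.1 hW.2
      (A := {x}) (g := g) (by simpa using hPZ hx) (by simpa using hPZ hg)
    rw [← hn' x rfl]
    exact Transfer.inv_mul_conj_mem_commutator
      (Subgroup.centralizer_le_normalizer _ (hPZ hx)) hn
  · exact inf_le_inf_right _ (Subgroup.commutator_mono le_top le_top)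

end Cfsg.Agent.S0077
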