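import Cfsg.Statements.S0078
import Cfsg.Agent.Transfer.Hall

set_option autoImplicit false
open Cfsg

namespace Cfsg.Agent.S0078

open Pointwise

/-- In a p-normal group, a Sylow p-subgroup P meets O^p(G) exactly where it meets O^p(V), for any subgroup V containing the normalizer of the centre of P. -/
theorem result {G : Type*} [Group G] [Finite G] {p : ℕ} [Fact p.Prime] (P : Sylow p G) (hn : ∀ Q : Sylow p G, (P : Subgroup G) ⊓ Subgroup.centralizer (P : Set G) ≤ (Q : Subgroup G) → (Q : Subgroup G) ⊓ Subgroup.centralizer (Q : Set G) = (P : Subgroup G) ⊓ Subgroup.centralizer (P : Set G)) (V : Subgroup G) (hV : Subgroup.normalizer (((P : Subgroup G) ⊓ Subgroup.centralizer (P : Set G) : Subgroup G) : Set G) ≤ V) : (P : Subgroup G) ⊓ Cfsg.pResidual p G = (P : Subgroup G) ⊓ (Cfsg.pResidual p V).map V.subtype := by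
  set Z := (P : Subgroup G) ⊓ Subgroup.centralizer (P : Set G) with hZ
  have hPZ : (P : Subgroup G) ≤ Subgroup.centralizer (Z : Set G) :=
    fun y hy z hz => (hz.2 y hy).symm
  have hW : ∀ g : G, MulAut.conj g • Z ≤ P → MulAut.conj g • Z = Z := by
    intro g hg
    have h1 : Z ≤ ((g⁻¹ • P : Sylow p G) : Subgroup G) := by
      rw [← Transfer.conj_inv_smul_conj_smul g Z]
      exact Transfer.conj_smul_mono g⁻¹ hg
    have h2 := hn _ h1
    have h3 : MulAut.conj g⁻¹ • Z = Z := by
      refine Eq.trans ?_ h2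
      rw [hZ, Subgroup.smul_inf]
      congr 1
      exact Transfer.conj_smul_centralizer g⁻¹ (P : Subgroup G)
    conv_lhs => rw [← h3]
    exact Transfer.conj_smul_conj_inv_smul g Z
  refine Transfer.sylow_inf_pResidual_eq_of_controlsFusion P
    (hPZ.trans ((Subgroup.centralizer_le_normalizer _).trans hV)) fun x hx g _ hg => ?_
  obtain ⟨n, hn, hn'⟩ := Transfer.exists_normalizer_conj_eq_of_weaklyClosed P (W := Z) inf_le_left hW
    (A := {x}) (g := g) (by simpa using hPZ hx.1) (by simpa using hPZ hg)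
  exact ⟨n, hV hn, hn' x rfl⟩

end Cfsg.Agent.S0078
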