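import Cfsg.Statements.S0083
import Cfsg.Agent.Transfer.Abelian

set_option autoImplicit false
open Cfsg

namespace Cfsg.Agent.S0083

/-- For an abelian Sylow p-subgroup P, a normal p-complement exists exactly when the normalizer of P is an internal direct product of P with some subgroup. -/
theorem result {G : Type*} [Group G] [Finite G] {p : ℕ} [Fact p.Prime] (P : Sylow p G) (hP : IsMulCommutative P) : Cfsg.HasNormalPComplement p G ↔ ∃ Q : Subgroup G, Q ≤ Subgroup.centralizer (P : Set G) ∧ Q ⊓ (P : Subgroup G) = ⊥ ∧ Q ⊔ (P : Subgroup G) = Subgroup.normalizer (P : Set G) := by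
  constructor
  · intro h
    have hle : Subgroup.normalizer ((P : Subgroup G) : Set G) ≤
        Subgroup.centralizer ((P : Subgroup G) : Set G) := by
      intro g hg x hx
      obtain ⟨z, hz, hz'⟩ := Transfer.exists_sylow_conj_eq_of_hasNormalPComplement h P g
      have h1 := hz' x hx ((Subgroup.mem_normalizer_iff.1 hg x).1 hx)
      rw [← (P : Subgroup G).le_centralizer hz x hx, mul_inv_cancel_right] at h1
      exact (mul_inv_eq_iff_eq_mul.1 h1).symm
    obtain ⟨B, h1, h2, h3, h4⟩ := Solv.exists_complement_in (P : Subgroup G).le_normalizer le_rfl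
      (Transfer.sylow_coprime_relIndex P (P : Subgroup G).le_normalizer)
    exact ⟨B, h1.trans hle, by rwa [inf_comm], by rwa [sup_comm]⟩
  · rintro ⟨Q, h1, -, h3⟩
    refine Transfer.hasNormalPComplement_of_normalizer_le_centralizer P ?_
    exact h3.ge.trans (sup_le h1 (P : Subgroup G).le_centralizer)

end Cfsg.Agent.S0083
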