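import Cfsg.Statements.S0087
import Cfsg.Agent.Transfer.Hall

set_option autoImplicit false
open Cfsg

namespace Cfsg.Agent.S0087

open Pointwise

/-- A Hall subgroup that is central in its normalizer has a normal complement. -/
theorem result {G : Type*} [Group G] [Finite G] (H : Subgroup G) (hHall : Nat.Coprime (Nat.card H) H.index) (h : Subgroup.normalizer (H : Set G) ≤ Subgroup.centralizer (H : Set G)) : ∃ N : Subgroup G, N.Normal ∧ N.IsComplement' H := by
  have hc : IsMulCommutative H :=
    Subgroup.le_centralizer_iff_isMulCommutative.1 (Subgroup.le_normalizer.trans h)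
  have hnil : Group.IsNilpotent H := by
    open scoped IsMulCommutative in infer_instance
  refine Transfer.exists_normal_complement_of_forall_prime hHall fun p hp hd => ?_
  have := Fact.mk hp
  obtain ⟨T, hT⟩ := Transfer.exists_isSylowIn (p := p) H
  obtain ⟨P, rfl⟩ := (Transfer.isSylowIn_top_of_hall hHall hd hT).exists_sylow_of_top
  refine Transfer.hasNormalPComplement_of_normalizer_le_centralizer P fun n hn => ?_
  have h1 : H ≤ Subgroup.centralizer ((P : Subgroup G) : Set G) :=
    H.le_centralizer.trans (Subgroup.centralizer_le hT.le)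
  have h2 : MulAut.conj n • H ≤ Subgroup.centralizer ((P : Subgroup G) : Set G) := by
    have := Transfer.conj_smul_mono n h1
    rwa [Transfer.conj_smul_centralizer, Transfer.mem_normalizer_iff_conj_smul.1 hn] at this
  have : Group.IsNilpotent (MulAut.conj n • H : Subgroup G) := Solv.isNilpotent_map _ H
  obtain ⟨c, hc, hc'⟩ := Transfer.exists_conj_eq_of_isNilpotent_hall_in h1 h2
    (hHall.coprime_dvd_right (Subgroup.relIndex_dvd_index_of_le h1)) (Transfer.card_conj_smul n H)
  rw [Transfer.conj_smul_conj_smul, ← Transfer.mem_normalizer_iff_conj_smul] at hc'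
  have h3 := mul_mem (inv_mem hc) (Subgroup.centralizer_le hT.le (h hc'))
  rwa [inv_mul_cancel_left] at h3

end Cfsg.Agent.S0087
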