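import Cfsg.Statements.S0090
import Cfsg.Agent.Transfer.Abelian

set_option autoImplicit false
open Cfsg

namespace Cfsg.Agent.S0090

/-- An abelian normal Hall subgroup A splits as the internal direct product of G' ∩ A and Z(G) ∩ A, and [A, G] = G' ∩ A. -/
theorem result {G : Type*} [Group G] [Finite G] (A : Subgroup G) [A.Normal] (hc : IsMulCommutative A) (hHall : Nat.Coprime (Nat.card A) A.index) : ⁅A, (⊤ : Subgroup G)⁆ = commutator G ⊓ A ∧ (commutator G ⊓ A) ⊓ (Subgroup.center G ⊓ A) = ⊥ ∧ (commutator G ⊓ A) ⊔ (Subgroup.center G ⊓ A) = A := by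
  have hc' : Nat.Coprime (Nat.card A) (A.relIndex ⊤) := by rwa [Subgroup.relIndex_top_right]
  have hn : (⊤ : Subgroup G) ≤ Subgroup.normalizer (A : Set G) := by
    rw [Subgroup.normalizer_eq_top]
  have h1 := Transfer.abelian_hall_inf hc le_top hc'
  have h2 := Transfer.abelian_hall_commutator_sup hc le_top hn hc'
  rw [Subgroup.coe_top, Subgroup.centralizer_univ] at h1 h2
  have h3 : ⁅A, (⊤ : Subgroup G)⁆ ≤ commutator G ⊓ A :=
    le_inf (Subgroup.commutator_mono le_top le_rfl) (Subgroup.commutator_le_left _ _)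
  have h4 : (commutator G ⊓ A) ⊓ (Subgroup.center G ⊓ A) = ⊥ := by
    rw [eq_bot_iff, ← h1]
    exact fun x hx => ⟨⟨hx.1.2, hx.1.1⟩, hx.2.1⟩
  refine ⟨le_antisymm h3 fun x hx => ?_, h4, le_antisymm (sup_le inf_le_right inf_le_right)
    (h2.ge.trans (sup_le_sup h3 (inf_comm _ _).le))⟩
  have hx' : x ∈ ⁅A, (⊤ : Subgroup G)⁆ ⊔ A ⊓ Subgroup.center G := h2.ge hx.2
  rw [← SetLike.mem_coe, Subgroup.normal_mul] at hx'
  obtain ⟨a, ha, b, hb, rfl⟩ := hx'
  have h5 : b ∈ (commutator G ⊓ A) ⊓ (Subgroup.center G ⊓ A) :=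
    ⟨by simpa using Subgroup.mul_mem _ (Subgroup.inv_mem _ (h3 ha)) hx, hb.2, hb.1⟩
  rw [h4, Subgroup.mem_bot] at h5
  simpa [h5] using ha

end Cfsg.Agent.S0090
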