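import Cfsg.Statements.S0091
import Cfsg.Agent.Transfer.Frobenius

set_option autoImplicit false
open Cfsg

namespace Cfsg.Agent.S0091

/-- If a nontrivial Sylow p-subgroup controls its own fusion then it is not contained in the derived subgroup. -/
theorem result {G : Type*} [Group G] [Finite G] {p : ℕ} [Fact p.Prime] (P : Sylow p G) (hp : p ∣ Nat.card G) (h : ∀ x ∈ P, ∀ y ∈ P, (∃ g : G, g * x * g⁻¹ = y) → ∃ z ∈ P, z * x * z⁻¹ = y) : ¬ (P : Subgroup G) ≤ commutator G := by
  intro hle
  have := P.2.isNilpotent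
  apply P.ne_bot_of_dvd_card hp
  refine Transfer.eq_bot_of_le_commutator_of_isNilpotent (P := (P : Subgroup G)) le_rfl ?_
  refine le_trans (le_inf hle le_rfl) (Transfer.sylow_inf_commutator_le P fun x hx g hg => ?_)
  obtain ⟨z, hz, hz'⟩ := h x hx _ hg ⟨g, rfl⟩
  rw [← hz']
  exact Transfer.inv_mul_conj_mem_commutator hx hz

end Cfsg.Agent.S0091
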