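import Cfsg.Statements.S0092
import Cfsg.Agent.Transfer.Abelian

set_option autoImplicit false
open Cfsg

namespace Cfsg.Agent.S0092

open Subgroup Transfer Pointwise

/-- If the Sylow p-subgroups of O^p(G) are abelian then G splits over O^p(G). -/
theorem result {G : Type*} [Group G] [Finite G] {p : ℕ} [Fact p.Prime] (h : ∀ Q : Sylow p (Cfsg.pResidual p G), IsMulCommutative Q) : ∃ K : Subgroup G, K.IsComplement' (Cfsg.pResidual p G) := by
  obtain ⟨P⟩ : Nonempty (Sylow p G) := inferInstance
  set N := pResidual p G with hN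
  have hQ := isSylowIn_sylow_inf_normal P N
  set Q := (P : Subgroup G) ⊓ N
  have hT := h hQ.toSylow
  have hQc : IsMulCommutative Q := by
    rw [← hQ.map_toSylow]
    infer_instance
  set W := N ⊓ normalizer (Q : Set G) with hW
  have hQW : Q ≤ W := le_inf inf_le_right Q.le_normalizer
  have hQW' := hQ.of_le hQW inf_le_left
  have hc : (Nat.card Q).Coprime (Q.relIndex W) := by
    obtain ⟨n, hn⟩ := hQ.isPGroup.exists_card_eq
    exact hn ▸ ((Nat.Prime.coprime_iff_not_dvd Fact.out).2 hQW'.not_dvd).pow_left n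
  have h1 : Q ≤ ⁅Q, W⁆ := by
    have h2 := congrArg (map N.subtype) (sylow_inf_pResidual_of_comm hQ.toSylow hT)
    rw [pResidual_pResidual, inf_top_eq, map_commutator, hQ.map_toSylow] at h2
    refine h2.le.trans (commutator_mono le_rfl (le_inf (map_subtype_le _) ?_))
    exact (le_normalizer_map _).trans (by rw [hQ.map_toSylow])
  have h3 := abelian_hall_commutator_inf hQc hQW inf_le_right hc
  obtain ⟨L, hL1, hL2, hL3, hL4⟩ := Solv.exists_complement_in hQW inf_le_right hc
  obtain ⟨S, hS⟩ := exists_isSylowIn (p := p) (normalizer (Q : Set G) ⊓ normalizer (L : Set G))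
  refine ⟨S, isComplement'_of_disjoint_and_mul_eq_univ (disjoint_iff.2 (eq_bot_iff.2 ?_)) ?_⟩
  · have h4 : S ⊓ N ≤ W := le_inf inf_le_right (inf_le_left.trans (hS.le.trans inf_le_left))
    have h5 : S ⊓ N ≤ Q := le_sup_right.trans (hQW'.eq_of_le (hQ.isPGroup.to_sup_of_normal_left'
      (hS.isPGroup.to_le inf_le_left) (h4.trans inf_le_right)) (sup_le hQW h4) le_sup_left).le
    intro x hx
    refine h3.le (mem_inf.2 ⟨h1 (h5 hx), ?_⟩)
    rw [← hL2, ← zpowers_le, le_centralizer_iff]
    refine sup_le (le_centralizer_iff.1 (zpowers_le.2 (Q.le_centralizer (h5 hx))))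
      (le_centralizer_iff.1 (zpowers_le.2 ?_))
    exact Solv.mem_centralizer_of_mem_normalizer (hL1.trans inf_le_right) (by rwa [inf_comm])
      (h5 hx) (hS.le hx.1).2
  · rw [← mul_normal, ← coe_top]
    congr 1
    rw [eq_top_iff]
    intro g _
    obtain ⟨x, hx, n, hn, rfl⟩ := hQ.frattini (g := g) (by rw [normalizer_eq_top]; trivial)
    refine mul_mem (mem_sup_right hx) ?_
    have hnW : n ∈ normalizer (W : Set G) :=
      Solv.le_normalizer_inf (by rw [normalizer_eq_top N]; exact le_top)
        (normalizer (Q : Set G)).le_normalizer hn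
    obtain ⟨y, hy, hy'⟩ := Solv.exists_conj_smul_eq (N := Q) (A := MulAut.conj n • L) (B := L)
      (by rw [← mem_normalizer_iff_conj_smul.1 hn, ← conj_smul_normalizer]
          exact conj_smul_mono n (hL1.trans inf_le_right))
      (by rw [hL2, ← mem_normalizer_iff_conj_smul.1 hnW, ← hL2, Subgroup.smul_sup,
        mem_normalizer_iff_conj_smul.1 hn]) (by rwa [card_conj_smul, hL4]) (by rwa [hL4])
      (Or.inl (by have := hQ.isPGroup.isNilpotent; infer_instance))
    rw [conj_smul_conj_smul, ← mem_normalizer_iff_conj_smul] at hy'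
    obtain ⟨t, ht, c, hc', e⟩ := hS.exists_mul_of_coprime_mem (C := N)
      (fun g _ hg => mem_pResidual_of_coprime hg) ⟨mul_mem (Q.le_normalizer hy) hn, hy'⟩
    rw [show n = y⁻¹ * (t * c) by rw [← e, inv_mul_cancel_left]]
    exact mul_mem (inv_mem (mem_sup_right hy.2)) (mul_mem (mem_sup_left ht) (mem_sup_right hc'.1))

end Cfsg.Agent.S0092
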