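import Cfsg.Statements.S0094
import Cfsg.Agent.PGrp.Basic
import Cfsg.Agent.Solv.Frattini
import Mathlib.Tactic.Group

set_option autoImplicit false
open Cfsg

namespace Cfsg.Agent.S0094
open scoped commutatorElement

/-- In a special p-group every central element has order dividing p. -/
theorem result {P : Type*} [Group P] [Finite P] {p : ℕ} [Fact p.Prime] (h : Cfsg.IsSpecial p P) (z : P) (hz : z ∈ Subgroup.center P) : z ^ p = 1 := by
  have hc : ∀ x y : P, ⁅x, y⁆ ∈ Subgroup.center P := fun x y =>
    h.2.2 ▸ Subgroup.commutator_mem_commutator (Subgroup.mem_top x) (Subgroup.mem_top y)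
  have hz' := hz
  rw [← h.2.2, commutator_eq_closure] at hz'
  clear hz
  induction hz' using Subgroup.closure_induction with
  | mem x hx =>
    obtain ⟨a, b, rfl⟩ := hx
    rw [← PGrp.commutator_pow_left (PGrp.commute_of_mem_center (hc a b) a)]
    exact (PGrp.commute_of_mem_center (h.2.1 ▸ Solv.pow_mem_frattini h.1 a) b).commutator_eq
  | one => exact one_pow _
  | mul x y hx hy ihx ihy =>
    rw [← commutator_eq_closure, h.2.2] at hx
    rw [(PGrp.commute_of_mem_center hx y).mul_pow, ihx, ihy, one_mul]
  | inv x hx ih => rw [inv_pow, ih, inv_one]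

end Cfsg.Agent.S0094
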