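import Cfsg.Statements.S0097
import Cfsg.Agent.PGrp.ES
import Mathlib.Tactic.Group

set_option autoImplicit false
open Cfsg

namespace Cfsg.Agent.S0097
open scoped commutatorElement
open PGrp

/-- For odd p and E extraspecial, the subgroup generated by the elements of order dividing p has exponent dividing p and index at most p. -/
theorem result {E : Type*} [Group E] [Finite E] {p : ℕ} [Fact p.Prime] (hp : p ≠ 2) (h : Cfsg.IsExtraspecial p E) : (Subgroup.closure {x : E | x ^ p = 1}).index ≤ p ∧ ∀ g ∈ Subgroup.closure {x : E | x ^ p = 1}, g ^ p = 1 := by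
  obtain ⟨z, hz, -⟩ := exists_isES h
  have e : Subgroup.closure {x : E | x ^ p = 1} = hz.pre (LinearMap.ker (hz.L hp)) := by
    rw [← Subgroup.closure_eq (hz.pre _)]
    exact congrArg _ (Set.ext fun x => hz.pw_eq_zero.symm)
  rw [e]
  refine ⟨?_, fun g hg => hz.pw_eq_zero.1 hg⟩
  have h1 := (hz.pre (LinearMap.ker (hz.L hp))).card_mul_index
  have h2 := (hz.L hp).finrank_range_add_finrank_ker
  have h3 := (LinearMap.range (hz.L hp)).finrank_le
  rw [Module.finrank_self] at h3
  rw [hz.card_pre_eq, hz.card_eq, ← h2, add_assoc, pow_add p (Module.finrank _ (LinearMap.range _)), mul_comm,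
    Nat.mul_left_inj (pow_ne_zero _ (Fact.out : p.Prime).ne_zero)] at h1
  rw [h1]
  exact (Nat.pow_le_pow_right (Fact.out : p.Prime).pos h3).trans_eq (pow_one p)

end Cfsg.Agent.S0097
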