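import Cfsg.Statements.S0099
import Cfsg.Agent.PGrp.ES
import Mathlib.Tactic.Group

set_option autoImplicit false
open Cfsg

namespace Cfsg.Agent.S0099
open scoped commutatorElement
open PGrp

/-- Among three extraspecial 2-groups of equal order, some two are isomorphic. -/
theorem result {E₁ : Type*} {E₂ : Type*} {E₃ : Type*} [Group E₁] [Group E₂] [Group E₃] [Finite E₁] [Finite E₂] [Finite E₃] (h₁ : Cfsg.IsExtraspecial 2 E₁) (h₂ : Cfsg.IsExtraspecial 2 E₂) (h₃ : Cfsg.IsExtraspecial 2 E₃) (h12 : Nat.card E₁ = Nat.card E₂) (h23 : Nat.card E₂ = Nat.card E₃) : Nonempty (E₁ ≃* E₂) ∨ Nonempty (E₂ ≃* E₃) ∨ Nonempty (E₁ ≃* E₃) := by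
  obtain ⟨z₁, hz₁, hZ₁⟩ := exists_isES h₁
  obtain ⟨z₂, hz₂, hZ₂⟩ := exists_isES h₂
  obtain ⟨z₃, hz₃, hZ₃⟩ := exists_isES h₃
  obtain ⟨n, hn⟩ := ES_card h₁
  have a : ∀ {k}, _ → _ → Nonempty (E₁ ≃* E₂) := fun {k} u v =>
    ⟨(hz₁.exists_mulEquiv_of_wittIndex hz₂ hZ₁ hZ₂ h12 (k := k) u v).choose⟩
  have b : ∀ {k}, _ → _ → Nonempty (E₂ ≃* E₃) := fun {k} u v =>
    ⟨(hz₂.exists_mulEquiv_of_wittIndex hz₃ hZ₂ hZ₃ h23 (k := k) u v).choose⟩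
  have c : ∀ {k}, _ → _ → Nonempty (E₁ ≃* E₃) := fun {k} u v =>
    ⟨(hz₁.exists_mulEquiv_of_wittIndex hz₃ hZ₁ hZ₃ (h12.trans h23) (k := k) u v).choose⟩
  rcases hz₁.wittIndex_cases hZ₁ hn with u | u <;> rcases hz₂.wittIndex_cases hZ₂ (h12 ▸ hn) with v | v <;>
    rcases hz₃.wittIndex_cases hZ₃ (h23 ▸ h12 ▸ hn) with w | w <;>
    first | exact .inl (a u v) | exact .inr (.inl (b v w)) | exact .inr (.inr (c u w))

end Cfsg.Agent.S0099
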