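import Cfsg.Statements.S0102
import Cfsg.Agent.Transfer.Hall
import Mathlib.GroupTheory.SpecificGroups.Cyclic

set_option autoImplicit false
open Cfsg

namespace Cfsg.Agent.S0102

open Subgroup

/-- A finite perfect group with cyclic Sylow p-subgroups has no perfect central extension whose kernel has order divisible by p. -/
theorem result {G : Type*} {H : Type*} [Group G] [Group H] [Finite G] [Finite H] (hG : commutator G = ⊤) {p : ℕ} [Fact p.Prime] (hcyc : ∀ P : Sylow p G, IsCyclic P) (σ : H →* G) (hσ : Function.Surjective σ) (hz : σ.ker ≤ Subgroup.center H) (hH : commutator H = ⊤) : ¬ p ∣ Nat.card σ.ker := by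
  intro hd
  obtain ⟨z, hz1⟩ := exists_prime_orderOf_dvd_card' p hd
  obtain ⟨P⟩ : Nonempty (Sylow p H) := inferInstance
  have hzc : (z : H) ∈ center H := hz z.2
  have hzP : (z : H) ∈ (P : Subgroup H) := by
    have h1 : IsPGroup p (zpowers (z : H)) :=
      IsPGroup.of_card (n := 1) (by rw [Nat.card_zpowers, orderOf_coe, hz1, pow_one])
    obtain ⟨x, hx⟩ := Transfer.exists_conj_le_sylow P h1
    have h2 := Transfer.conj_smul_le_iff.1 hx _ (mem_zpowers _)
    rwa [mem_center_iff.1 hzc x, mul_inv_cancel_right] at h2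
  have h3 := Transfer.mem_commutator_sylow_of_mem_center P hzc (hH ▸ mem_top _) hzP
  have := hcyc (P.mapSurjective hσ)
  have h4 : IsMulCommutative (P : Subgroup H) :=
    MonoidHom.isMulCommutative_of_isCyclic_of_ker_le_center
      (G' := (P.mapSurjective hσ : Subgroup G)) (σ.subgroupMap P) fun x hx =>
        mem_center_iff.2 fun g => Subtype.ext (mem_center_iff.1 (hz (congrArg Subtype.val hx)) g)
  rw [commutator_self_eq_bot_iff.2 h4, mem_bot] at h3
  rw [← orderOf_coe, h3, orderOf_one] at hz1
  exact (Fact.out : p.Prime).one_lt.ne hz1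

end Cfsg.Agent.S0102
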