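import Cfsg.Statements.S0104
import Cfsg.Agent.Transfer.Alperin

set_option autoImplicit false
open Cfsg

namespace Cfsg.Agent.S0104

open Pointwise

/-- A subgroup Z of a Sylow p-subgroup P that is normalized by N_G(P) is weakly closed in P exactly when it is normal in every Sylow p-subgroup containing it. -/
theorem result {G : Type*} [Group G] [Finite G] {p : ℕ} [Fact p.Prime] (P : Sylow p G) (Z : Subgroup G) (hZP : Z ≤ (P : Subgroup G)) (hZN : Subgroup.normalizer (P : Set G) ≤ Subgroup.normalizer (Z : Set G)) : Cfsg.IsWeaklyClosed Z P ↔ ∀ R : Sylow p G, Z ≤ (R : Subgroup G) → (R : Subgroup G) ≤ Subgroup.normalizer (Z : Set G) := by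
  constructor
  · intro hW R hR x hx
    obtain ⟨g, hg⟩ := MulAction.exists_smul_eq G R P
    have h0 : MulAut.conj g • (R : Subgroup G) = P := congrArg (fun S : Sylow p G => (S : Subgroup G)) hg
    have h1 : MulAut.conj g • Z = Z := hW.2 g (h0 ▸ Transfer.conj_smul_mono g hR)
    have h2 : MulAut.conj (g * x) • Z = Z := hW.2 (g * x) (by
      rw [← Transfer.conj_smul_eq_map, ← Transfer.conj_smul_conj_smul, ← h0]
      refine Transfer.conj_smul_mono g ((Transfer.conj_smul_mono x hR).trans ?_)
      exact (Subgroup.conj_smul_eq_self_of_mem hx).le)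
    have := mul_mem (inv_mem (Transfer.mem_normalizer_iff_conj_smul.2 h1))
      (Transfer.mem_normalizer_iff_conj_smul.2 h2)
    rwa [inv_mul_cancel_left] at this
  · intro h
    refine ⟨hZP, fun g hg => ?_⟩
    have h1 : Z ≤ ((g⁻¹ • P : Sylow p G) : Subgroup G) := by
      rw [← Transfer.conj_inv_smul_conj_smul g Z]
      exact Transfer.conj_smul_mono g⁻¹ hg
    obtain ⟨n, hn, hn'⟩ := Transfer.exists_mul_normalizer_of_le P (h P hZP) (h _ h1)
    have := mul_mem (inv_mem (hZN hn')) hn
    rw [mul_inv_rev, inv_inv, inv_mul_cancel_right] at this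
    exact Transfer.mem_normalizer_iff_conj_smul.1 this

end Cfsg.Agent.S0104
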