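import Cfsg.Statements.S0105
import Cfsg.Agent.Transfer.Abelian

set_option autoImplicit false
open Cfsg

namespace Cfsg.Agent.S0105

open Subgroup

/-- With an abelian Sylow p-subgroup P, some quotient of G is isomorphic to the part of P central in N_G(P). -/
theorem result {G : Type*} [Group G] [Finite G] {p : ℕ} [Fact p.Prime] (P : Sylow p G) (hP : IsMulCommutative P) : ∃ (N : Subgroup G) (hN : N.Normal), Nonempty (G ⧸ N ≃* ((P : Subgroup G) ⊓ Subgroup.centralizer (Subgroup.normalizer (P : Set G) : Set G) : Subgroup G)) := by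
  have h1 := Transfer.abelian_hall_commutator_inf hP (P : Subgroup G).le_normalizer le_rfl
    (Transfer.sylow_coprime_relIndex P (P : Subgroup G).le_normalizer)
  have h2 := Transfer.abelian_hall_commutator_sup hP (P : Subgroup G).le_normalizer le_rfl
    (Transfer.sylow_coprime_relIndex P (P : Subgroup G).le_normalizer)
  rw [← Transfer.sylow_inf_pResidual_of_comm P hP] at h1 h2
  set C := (P : Subgroup G) ⊓ centralizer (normalizer ((P : Subgroup G) : Set G) : Set G) with hC
  refine ⟨pResidual p G, inferInstance, ⟨(MulEquiv.ofBijective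
    ((QuotientGroup.mk' (pResidual p G)).comp C.subtype) ⟨?_, ?_⟩).symm⟩⟩
  · rw [injective_iff_map_eq_one]
    intro x hx
    exact Subtype.ext (mem_bot.1 (h1.le ⟨⟨x.2.1, (QuotientGroup.eq_one_iff _).1 hx⟩, x.2.2⟩))
  · rw [← MonoidHom.range_eq_top, MonoidHom.range_comp, range_subtype]
    have h3 : C ⊔ pResidual p G = ⊤ := by
      rw [eq_top_iff, ← Transfer.pResidual_sup_sylow P]
      exact sup_le le_sup_right (h2.ge.trans (sup_le (inf_le_right.trans le_sup_right) le_sup_left))
    rw [← map_top_of_surjective _ (QuotientGroup.mk'_surjective (pResidual p G)), ← h3,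
      Subgroup.map_sup, QuotientGroup.map_mk'_self, sup_bot_eq]

end Cfsg.Agent.S0105
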