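import Cfsg.Statements.S0106
import Cfsg.Agent.ABG.SL23
import Cfsg.Agent.Invol.Tab

set_option autoImplicit false
open Cfsg

namespace Cfsg.Agent.S0106


open Cfsg.Agent.ABG Cfsg.Agent.BG Subgroup
open Cfsg.Agent.Invol hiding orderOf_conj'

/-- A finite group with generalized quaternion Sylow 2-subgroups either has a normal 2-complement or has a section isomorphic to SL(2,3). -/
theorem result {G : Type*} [Group G] [Finite G] (T : Sylow 2 G) (n : ℕ) (hn : 1 ≤ n) (hT : Nonempty ((T : Subgroup G) ≃* QuaternionGroup (2 ^ n))) : Cfsg.HasNormalPComplement 2 G ∨ ∃ (H K : Subgroup G) (hK : (K.subgroupOf H).Normal), Nonempty ((H ⧸ K.subgroupOf H) ≃* Matrix.SpecialLinearGroup (Fin 2) (ZMod 3)) := by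
  refine or_iff_not_imp_left.2 fun hc => ?_
  obtain ⟨Q, q, k, g, hQ, hq, q2, hk, hg, hn⟩ := Transfer.exists_prime_pow_not_centralizer T hc
  obtain ⟨e⟩ := hT
  obtain ⟨t, r, D⟩ := Block.exists_gq e
  obtain ⟨r', s, B⟩ := exists_tab_quaternion e
  have ho : Odd (orderOf g) := ((hq.odd_of_ne_two q2).pow (n := k)).of_dvd_nat (orderOf_dvd_of_pow_eq_one hk)
  rcases four_or_quat_of_le T.2 B.relIndex_zpowers.dvd hQ (oddEnd_conjEnd _ hg ho) (by
    by_contra! h
    exact hn (mem_cent.2 fun a ha => (mul_inv_eq_iff_eq_mul.1 (congrArg Subtype.val (h ⟨a, ha⟩))).symm)) with h | ⟨⟨e⟩⟩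
  · obtain ⟨a, b, a2, b2, -, a1, b1, ab, hV⟩ := exists_of_isKleinFour h
    exact absurd (((D.uniqInv.uniq a (hQ ((hV a).2 (by simp))) a2).resolve_left a1).trans
      ((D.uniqInv.uniq b (hQ ((hV b).2 (by simp))) b2).resolve_left b1).symm) ab
  obtain ⟨i, j, h⟩ := exists_quat e
  have P := threePt_quat h
  obtain ⟨ψ, h1, h2⟩ := P.exists_hom
  have h6 : g ^ 6 ∈ C[Q] := by
    by_contra h6
    refine move_of_odd h (pow_mem hg 6) (odd_orderOf_pow ho 6) h6 ?_
    have : (⟨g, hg⟩ ^ 6 : N[Q]) ∈ ψ.ker := by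
      rw [MonoidHom.mem_ker, map_pow, ← show Nat.card (Equiv.Perm (Fin 3)) = 6 by simp; rfl, pow_card_eq_one']
    have := ((P.ker _ (pow_mem hg 6)).1 (h2 ▸ this :)).1
    rw [conjSub_zpowers] at this
    exact this ▸ mem_zpowers _
  have hQH : Q ≤ Q ⊔ zpowers (g * g) := le_sup_left
  have hg2 : g * g ∈ Q ⊔ zpowers (g * g) := mem_sup_right (mem_zpowers _)
  have hK : Q ⊔ zpowers (g * g) ≤ C[zpowers (g ^ 6)] := sup_le (cents_symm (zpowers_le.2 h6))
    (by rw [C_zpowers, zpowers_le, mem_cent1, ← sq]; exact (Commute.pow_pow_self g _ _).eq)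
  have := (NormalIn.mk (zpowers_le.2 (by rw [show g ^ 6 = (g * g) ^ 3 by rw [← sq, ← pow_mul]]; exact pow_mem hg2 3))
    (cents_norm hK)).subgroupOf
  refine ⟨_, _, this, quot_equiv_SL23 (Q := Q.subgroupOf _) (g := ⟨_, hg2⟩) ((subgroupOfEquivOfLe hQH).trans e)
    ?_ (fun hc => hn ?_) ?_ (fun x hx => mem_cent.2 fun a ha => Subtype.ext
      (mem_cent.1 (zpowers_le.2 h6 hx) _ ha)) ?_ ?_⟩
  · exact mem_normalizer_iff.2 fun a => mem_normalizer_iff.1 (mul_mem hg hg) a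
  · obtain ⟨m, hm⟩ := exists_sq_pow_eq_of_odd ho
    exact hm ▸ pow_mem (mem_cent.2 fun a ha => congrArg Subtype.val (mem_cent.1 hc ⟨a, hQH ha⟩ ha)) m
  · rw [subgroupOf, subgroupOf, ← comap_inf, inf_eq_bot_of_odd (T.2.to_le hQ) (Nat.card_zpowers (g ^ 6) ▸ odd_orderOf_pow ho 6)]; exact bot_subgroupOf _
  · exact ⟨1, by simp [← sq, ← pow_mul]⟩
  · refine map_injective (subtype_injective _) ?_
    rw [Subgroup.map_sup, MonoidHom.map_zpowers, map_subgroupOf_eq_of_le hQH, map_subtype_top]; rfl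

end Cfsg.Agent.S0106
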