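import Cfsg.Statements.S0108
import Cfsg.Agent.PLocal.Npc
-- import your own Cfsg.Agent.* helpers here

set_option autoImplicit false
open Cfsg

namespace Cfsg.Agent.S0108


open Subgroup Cfsg Cfsg.Agent.Transfer Cfsg.Agent.BG Cfsg.Agent.PLocal Pointwise
open scoped commutatorElement

/-- The Thompson normal p-complement Theorem, in the form stating that for odd p, G has a normal p-complement exactly when the normalizer of the Thompson subgroup J(P) and the centralizer of the centre of P both have one. -/
theorem result {G : Type*} [Group G] [Finite G] {p : ℕ} [Fact p.Prime] (hp : p ≠ 2) (P : Sylow p G) : Cfsg.HasNormalPComplement p G ↔ (Cfsg.HasNormalPComplement p (Subgroup.normalizer (Cfsg.thompsonSubgroupOf p (P : Subgroup G) : Set G)) ∧ Cfsg.HasNormalPComplement p (Subgroup.centralizer (((P : Subgroup G) ⊓ Subgroup.centralizer (P : Set G)) : Set G))) := by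
  refine ⟨fun h => ⟨hasNormalPComplement_subgroup h _, hasNormalPComplement_subgroup h _⟩,
    fun ⟨hN, hC⟩ => npc_J_Z JF_char (fun X _ _ _ hc h T hT h1 => ?_) (isSylowIn_top P)
    (by rwa [ind_JF]) hC⟩
  rw [ind_JF]
  have hQ := Solv.pCore_le_sylow T
  haveI : (OZ p (pCore p X)).Normal :=
    normal_of_top_le ((norm_of_normal _ _).trans (normalizer_le_normalizer_OZ p _))
  have h2 : thompsonSubgroupOf p (T : Subgroup X) ≤ C[OZ p (pCore p X)] := by
    by_contra h2
    obtain ⟨A, -, h3, h4⟩ := exists_quad_J hp T.2 ⟨(OZ_le _ _).trans hQ, norm_of_normal _ _⟩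
      (ea_OZ p _) h2
    exact h3 ((((nstab_of_max hp (isSylowIn_top T) hT h X (involves_self X)).normal _
      (ea_OZ p _).pg).le_of_cent h1 h4).trans (le_centralizer_OZ p _))
  rw [← J_eq_of_le hQ (h2.trans h1)]
  infer_instance


end Cfsg.Agent.S0108
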