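import Cfsg.Statements.S0109
import Cfsg.Agent.Loc.SFF4

set_option autoImplicit false
open Cfsg

namespace Cfsg.Agent.S0109

/-- The Thompson factorization Theorem for solvable groups states that, with p odd (and abelian Sylow 2-subgroups when p = 3) and no nontrivial normal subgroup of order prime to p, every element of G is a product of an element normalizing J(P) and an element centralizing the elements of order dividing p in the centre of P. -/
theorem result {G : Type*} [Group G] [Finite G] {p : ℕ} [Fact p.Prime] (hp : p ≠ 2) (hs : Group.IsSolvable G) (h3 : p = 3 → ∀ T : Sylow 2 G, IsMulCommutative T) (hF : ∀ N : Subgroup G, N.Normal → Nat.Coprime (Nat.card N) p → N = ⊥) (P : Sylow p G) (g : G) : ∃ a ∈ Subgroup.normalizer (Cfsg.thompsonSubgroupOf p (P : Subgroup G) : Set G), ∃ c ∈ Subgroup.centralizer {x : G | x ∈ (P : Subgroup G) ∧ (∀ y ∈ (P : Subgroup G), x * y = y * x) ∧ x ^ p = 1}, g = a * c := by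
  open Cfsg.Agent.Loc Subgroup in
  open scoped commutatorElement in
  have hO : pPrimeCore p G = ⊥ := hF _ inferInstance Sig.coprime_pPrimeCore
  have hsep : IsPSolvable p G := PLocal.pSolv_of_isSolvable
  have tf : IsThompsonFactorizable p G := by
    by_contra hnf
    have h := uf_VZ hsep hO
    obtain ⟨A, hA, hn⟩ := exists_eaMax_of_not_tf hO hnf
    obtain ⟨B, hB, hm⟩ := h.exists_minOff le_top (PLocal.bestOffender_of_mem_eaMax hA le_top h.ea) hn
    have hB' := hB.trans (bar_mono le_top)
    have a := h.ffs.main hB' hm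
    have e := a.p23.resolve_left hp
    obtain ⟨T⟩ : Nonempty (Sylow 2 G) := inferInstance
    obtain ⟨x, -, hx⟩ := (sylIn_bar (sylIn_top T) h.norm).exists_le_conj (a.le.trans (FFS.Eo_le hB'))
      (h.ffs.comm_pgroup hB' hm (by rw [e]; norm_num))
    refine a.not_comm e (le_centralizer_self_of_le ?_ hx)
    rw [← cj_centralizer, cj_le_cj_iff, ← commutator_eq_bot_iff_le_centralizer, ← bar_commutator (le_top.trans h.norm)
      (le_top.trans h.norm), commutator_eq_bot_iff_le_centralizer.2 (le_centralizer_iff_isMulCommutative.2 (h3 e T)),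
      bar_eq_bot_iff bot_le]
    exact bot_le
  obtain ⟨x, hx, c, hc, n, hn, e⟩ := tf P g⁻¹
  rw [hO, mem_bot] at hx
  refine ⟨n⁻¹, inv_mem hn, c⁻¹, inv_mem (centralizer_le (fun y hy => ?_) hc), by rw [← mul_inv_rev, ← one_mul c, ← hx, ← e, inv_inv]⟩
  exact mem_omegaOne ⟨hy.1, fun z hz => (hy.2.1 z hz).symm⟩ hy.2.2

end Cfsg.Agent.S0109
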