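import Cfsg.Statements.S0112
import Cfsg.Agent.PGrp.MaxClassP
import Mathlib.Tactic.Group

set_option autoImplicit false
open Cfsg

namespace Cfsg.Agent.S0112
open scoped commutatorElement

open Subgroup BG PGrp

/-- A p-group with a self-centralizing subgroup of order p^2 is of maximal class. -/
theorem result {X : Type*} [Group X] [Finite X] {p : ℕ} [Fact p.Prime] (n : ℕ) (hX : Nat.card X = p ^ n) (A : Subgroup X) (hA : Nat.card A = p ^ 2) (hC : Subgroup.centralizer (A : Set X) = A) : Group.nilpotencyClass X = n - 1 := by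
  have hp := (Fact.out : p.Prime)
  have h2 : 2 ≤ n := (Nat.pow_dvd_pow_iff_le_right hp.one_lt).1 (hA ▸ hX ▸ card_subgroup_dvd_card A)
  obtain ⟨n, rfl⟩ := Nat.exists_eq_add_of_le' h2
  by_cases h : A ≤ center X
  · refine class_of_cent n hX 1 ?_
    rw [cent1_one, ← hA, ← hC]
    exact card_le_card (centsC.1 (cent_top (G := X) ▸ h))
  obtain ⟨a, ha, haZ⟩ := SetLike.not_le_iff_exists.1 h
  refine class_of_cent n hX a (hA ▸ hC ▸ card_le_card ?_)
  have hZ : center X ≤ A := hC ▸ center_le_centralizer _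
  obtain ⟨k, hk0, hk⟩ := IsPGroup.card_center_eq_prime_pow hX (by simp)
  have h1 := mul_card_le_of_lt (IsPGroup.of_card hX) (left_lt_sup.2 (mt zpowers_le.1 haZ) : center X < center X ⊔ zpowers a)
  have : center X ⊔ zpowers a = A := eq_of_card_le (sup_le hZ (zpowers_le.2 ha)) (by
    rw [hA, sq]; exact (Nat.mul_le_mul_left p (hk ▸ Nat.le_self_pow hk0.ne' p)).trans h1)
  rw [← this]
  exact le_cent_sup (centsC.1 (center_le_centralizer _)) (C_zpowers a).ge

end Cfsg.Agent.S0112
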