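import Cfsg.Statements.S0113
import Cfsg.Agent.PGrp.MaxClassP
import Mathlib.Tactic.Group

set_option autoImplicit false
open Cfsg

namespace Cfsg.Agent.S0113
open scoped commutatorElement

open Subgroup BG PGrp

/-- A 2-group of maximal class contains a cyclic subgroup of index 2. -/
theorem result {X : Type*} [Group X] [Finite X] (n : ℕ) (hn : 3 ≤ n) (hX : Nat.card X = 2 ^ n) (hc : Group.nilpotencyClass X = n - 1) : ∃ C : Subgroup X, IsCyclic C ∧ C.index = 2 := by
  obtain ⟨n, rfl⟩ := Nat.exists_eq_add_of_le' hn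
  obtain ⟨a, x, h⟩ := exists_dqs_of_class hX hc
  exact ⟨zpowers a, inferInstance, h.idx⟩

end Cfsg.Agent.S0113
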