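import Cfsg.Statements.S0114
import Cfsg.Agent.PGrp.MaxClass

set_option autoImplicit false
open Cfsg

namespace Cfsg.Agent.S0114

open Cfsg.Agent.PGrp Subgroup

/-- The central quotient of a 2-group of maximal class is dihedral. -/
theorem result {X : Type*} [Group X] [Finite X] (n : ℕ) (hn : 3 ≤ n) (hX : Nat.card X = 2 ^ n) (hc : Group.nilpotencyClass X = n - 1) : Nonempty (X ⧸ Subgroup.center X ≃* DihedralGroup (2 ^ (n - 2))) := by
  obtain ⟨m, rfl⟩ := Nat.exists_eq_add_of_le' hn
  have hp : IsPGroup 2 X := IsPGroup.of_card hX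
  have := hp.isNilpotent
  obtain ⟨a, x, k, h⟩ := isMC_of_lcs hX fun e => by
    rw [Subgroup.lowerCentralSeries_eq_bot_iff_nilpotencyClass_le, hc] at e
    omega
  have hk := h.card
  rw [hX, Nat.pow_right_inj one_lt_two] at hk
  rw [show m + 3 - 2 = k - 1 by omega]
  exact h.quot_center

end Cfsg.Agent.S0114
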