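import Cfsg.Statements.S0115
import Cfsg.Agent.PGrp.MaxClassP
import Mathlib.Tactic.Group

set_option autoImplicit false
open Cfsg

namespace Cfsg.Agent.S0115
open scoped commutatorElement

open Subgroup BG PGrp

/-- A 2-group of order 2^n, n ≥ 3, is of maximal class exactly when its commutator quotient is a Klein four-group. -/
theorem result {X : Type*} [Group X] [Finite X] (n : ℕ) (hn : 3 ≤ n) (hX : Nat.card X = 2 ^ n) : Group.nilpotencyClass X = n - 1 ↔ IsKleinFour (X ⧸ commutator X) := by
  obtain ⟨n, rfl⟩ := Nat.exists_eq_add_of_le' hn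
  constructor
  · intro h
    obtain ⟨h1, h2⟩ := index_commutator_of_class hX h
    have := (IsPGroup.of_card hX).isNilpotent
    have h4 : Nat.card (X ⧸ commutator X) = 4 := h1
    have hc : ¬ IsCyclic (X ⧸ commutator X) := fun e => h2 (isCyclic_of_quot e).isMulCommutative
    have : Nontrivial (X ⧸ commutator X) := Finite.one_lt_card_iff_nontrivial.1 (by omega)
    exact ⟨h4, (not_isCyclic_iff_exponent_eq_prime Nat.prime_two h4).1 hc⟩
  · intro h
    obtain ⟨a, x, h⟩ := exists_dqs hX h.card_four
    exact h.class_eq

end Cfsg.Agent.S0115
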