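import Cfsg.Statements.S0120
import Cfsg.Agent.Transfer.Hol

set_option autoImplicit false
open Cfsg

namespace Cfsg.Agent.S0120

/-- For odd p, a p'-automorphism of a p-group acting trivially on the elements of order dividing p is trivial. -/
theorem result {G : Type*} [Group G] [Finite G] {p : ℕ} [Fact p.Prime] (hp : p ≠ 2) (hG : IsPGroup p G) (a : MulAut G) (ha : Nat.Coprime (orderOf a) p) (h : ∀ x : G, x ^ p = 1 → a x = x) : a = 1 := by
  have h1 := Transfer.le_centralizer_of_omega (G := Transfer.Hol G) hp
    (A := Transfer.sdR _ (Subgroup.zpowers a)) (K := Transfer.sdL _ ⊤)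
    (Transfer.isPGroup_sdL _ (hG.to_subgroup ⊤)) (Transfer.sdR_le_normalizer_top _ _)
    (by rwa [Transfer.card_sdR, Nat.card_zpowers]) (by
      rintro _ ⟨x, -, rfl⟩ hx
      rw [← map_pow, map_eq_one_iff _ SemidirectProduct.inl_injective] at hx
      refine (Transfer.inl_mem_centralizer_sdR _).2 fun b hb => ?_
      exact (Subgroup.zpowers_le (H := MulAction.stabilizer (MulAut G) x)).2 (h x hx) hb)
  ext x
  exact (Transfer.sdL_le_centralizer_sdR _).1 h1 a (Subgroup.mem_zpowers a) x trivial

end Cfsg.Agent.S0120
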