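import Cfsg.Statements.S0122
import Cfsg.Agent.S0100
import Cfsg.Agent.PGrp.Basic

set_option autoImplicit false
open Cfsg

namespace Cfsg.Agent.S0122

open Subgroup PGrp
open scoped commutatorElement

theorem card_le {G : Type*} [Group G] [Finite G] {E K : Subgroup G} (f : G → G)
    (hf : ∀ x ∈ E, ∀ y ∈ E, f (x * y) = f x * f y) (hK : ∀ x ∈ E, f x = 1 → x ∈ K) :
    ∃ R : Subgroup G, (∀ w, w ∈ R ↔ ∃ x ∈ E, f x = w) ∧
      Nat.card E ≤ Nat.card ↥(E ⊓ K) * Nat.card R := by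
  let φ : E →* G := MonoidHom.mk' (fun x => f x) fun x y => hf x x.2 y y.2
  refine ⟨φ.range, fun w => ⟨fun ⟨x, hx⟩ => ⟨x, x.2, hx⟩, fun ⟨x, hx, e⟩ => ⟨⟨x, hx⟩, e⟩⟩, ?_⟩
  rw [← φ.ker.card_mul_index, index_ker, ← card_map_of_injective (K := φ.ker) E.subtype_injective]
  exact Nat.mul_le_mul_right _ (card_le_of_le fun _ ⟨x, hx, e⟩ => e ▸ ⟨x.2, hK x x.2 hx⟩)

/-- For odd p, a p-group containing an elementary abelian subgroup of order p^4 has a normal elementary abelian subgroup of order p^4. -/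
theorem result {G : Type*} [Group G] [Finite G] {p : ℕ} [Fact p.Prime] (hp : p ≠ 2) (hG : IsPGroup p G) (E : Subgroup G) (hE : Cfsg.IsElementaryAbelian p E) (hE4 : Nat.card E = p ^ 4) : ∃ A : Subgroup G, A.Normal ∧ Cfsg.IsElementaryAbelian p A ∧ Nat.card A = p ^ 4 := by
  by_contra hno
  have hpp : p.Prime := Fact.out
  have h1p := hpp.one_lt
  haveI := hG.isNilpotent
  obtain ⟨A, hA, hAc, hAe, hA3⟩ : ∃ A : Subgroup G, A.Normal ∧ IsMulCommutative A ∧
      (∀ a ∈ A, a ^ p = 1) ∧ Nat.card A = p ^ 3 := by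
    by_contra hh
    push Not at hh
    have := S0100.result hp hG hh E hE.1 hE.2
    rw [hE4, Nat.pow_le_pow_iff_right h1p] at this; omega
  have hΩ : ∀ x ∈ centralizer (A : Set G), x ^ p = 1 → x ∈ A := fun x hx hxp => by
    rw [← BG4.Ohm1_cent_max_normal_abelem' (R := ⊤) (hG.to_subgroup ⊤) hp
      ⟨le_top, BG.norm_of_normal _ _⟩ ⟨hAc, hAe⟩ fun Y hY hYe hle => ?_]
    · exact BG.mem_Ohm1 ⟨mem_top x, hx⟩ hxp
    · by_contra hne
      haveI := hY.normal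
      obtain ⟨k, hk⟩ := (hG.to_subgroup Y).exists_card_eq
      have h1 : Nat.card A < Nat.card Y :=
        lt_of_not_ge fun h => hne (eq_of_le_of_card_ge hle h).symm
      rw [hA3, hk, Nat.pow_lt_pow_iff_right h1p] at h1
      obtain ⟨L, hL, hLY, hL4⟩ := exists_normal_card_eq hG (N := Y) 4
        (hk ▸ Nat.pow_le_pow_right h1p.le h1)
      exact hno ⟨L, hL, ⟨⟨⟨fun x y => Subtype.ext
        (congrArg (fun w : Y => (w : G)) (hYe.1.1.1 ⟨x, hLY x.2⟩ ⟨y, hLY y.2⟩))⟩⟩, fun a ha => hYe.2 a (hLY ha)⟩, hL4⟩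
  have cA : ∀ x ∈ A, ∀ y ∈ A, Commute x y := fun x hx y hy =>
    congrArg Subtype.val (hAc.1.1 ⟨x, hx⟩ ⟨y, hy⟩)
  obtain ⟨Z, hZ, hZA, hZ2⟩ := exists_normal_card_eq hG (N := A) 2
    (hA3 ▸ Nat.pow_le_pow_right h1p.le (by omega))
  obtain ⟨Y, hY, hYZ, hY1⟩ := exists_normal_card_eq hG (N := Z) 1
    (hZ2 ▸ Nat.pow_le_pow_right h1p.le (by omega))
  have gen : ∀ {M N : Subgroup G} [M.Normal], M ≤ N → N ≤ A → Nat.card N = Nat.card M * p →
      ∀ x ∈ N, x ∉ M → ∀ c ∈ N, ∃ w ∈ M, ∃ i : ℤ, w * x ^ i = c := by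
    intro M N _ hMN hNA hc x hx hxM c hcN
    have hn : x ∈ normalizer (M : Set G) := by rw [normalizer_eq_top]; trivial
    rw [← mem_sup_zpowers hn, eq_of_le_of_card_ge (sup_le hMN (zpowers_le.2 hx)) (by
      rw [card_sup_zpowers hpp hn hxM (by rw [hAe x (hNA hx)]; exact one_mem _), hc])]
    exact hcN
  have nle : ∀ {M N : Subgroup G} {k : ℕ}, Nat.card M = p ^ k → Nat.card N = p ^ (k + 1) → ¬ N ≤ M :=
    fun h1 h2 h => by
      have := card_le_of_le h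
      rw [h1, h2, Nat.pow_le_pow_iff_right h1p] at this; omega
  obtain ⟨a, haA, haZ, ha⟩ := exists_central_mod (M := Z) (N := A) (nle hZ2 hA3)
  obtain ⟨b, hbZ, hbY, hb⟩ := exists_central_mod (M := Y) (N := Z) (nle hY1 hZ2)
  obtain ⟨z, hzY, hz1, hz⟩ := exists_central_mod (M := ⊥) (N := Y) (nle (k := 0) (by simp) hY1)
  have cY : ∀ w ∈ Y, ∀ g, Commute w g := fun w hw g => by
    obtain ⟨v, hv, i, rfl⟩ := gen bot_le (hYZ.trans hZA) (by simp [hY1]) z hzY hz1 w hw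
    rw [mem_bot.1 hv, one_mul]
    exact (commutatorElement_eq_one_iff_commute.1 (mem_bot.1 (hz g))).zpow_left i
  have cZ : ∀ {h w : G}, h ∈ centralizer (Z : Set G) → w ∈ Z → Commute w h := fun hh hw => hh _ hw
  have L : ∀ c ∈ A, c ∉ Z → ∀ h ∈ centralizer (Z : Set G), Commute c h → h ^ p = 1 → h ∈ A :=
    fun c hc hcZ h hh hch hp => hΩ h (fun d hd => by
      obtain ⟨w, hw, i, rfl⟩ := gen hZA le_rfl (by rw [hA3, hZ2, pow_succ]) c hc hcZ d hd
      exact ((cZ hh hw).mul_left (hch.zpow_left i)).eq) hp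
  have τ : ∀ h ∈ centralizer (Z : Set G), ∀ k, ⁅a, h * k⁆ = ⁅a, h⁆ * ⁅a, k⁆ := fun h hh k =>
    commutator_mul_right (cZ hh (ha k))
  have T : ∀ c ∈ A, ∃ i : ℤ, (c ∉ Z → ¬ (p : ℤ) ∣ i) ∧
      ∀ h ∈ centralizer (Z : Set G), ⁅c, h⁆ = ⁅a, h⁆ ^ i := fun c hc => by
    obtain ⟨w, hw, i, rfl⟩ := gen hZA le_rfl (by rw [hA3, hZ2, pow_succ]) a haA haZ c hc
    refine ⟨i, fun h ⟨j, hj⟩ => h (by
      rw [hj, zpow_mul, zpow_natCast, hAe a haA, one_zpow, mul_one]; exact hw), fun h hh => ?_⟩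
    have e := commutator_zpow_left (cA _ (hZA (ha h)) a haA) i
    rw [commutator_mul_left (e ▸ cA _ (hZA (zpow_mem (ha h) i)) w (hZA hw)), e,
      commutatorElement_eq_one_iff_commute.2 (cZ hh hw), mul_one]
  have good : ∀ F : Subgroup G, IsElementaryAbelian p F → Nat.card F = p ^ 4 →
      F ≤ centralizer (Z : Set G) ∧ F ⊓ A = Z ∧ ∀ w ∈ Z, ∃ y ∈ F, ⁅a, y⁆ = w := by
    intro F hF hF4
    have cF : ∀ x ∈ F, ∀ y ∈ F, Commute x y := fun x hx y hy =>
      congrArg Subtype.val (hF.1.1.1 ⟨x, hx⟩ ⟨y, hy⟩)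
    have hFC : F ≤ centralizer (Z : Set G) := by
      intro x hx
      by_contra hxC
      have cb : ∀ h, ⁅b, h⁆ = 1 → h ∈ centralizer (Z : Set G) := fun h hh d hd => by
        obtain ⟨w, hw, i, rfl⟩ := gen hYZ hZA (by rw [hY1, hZ2]; ring) b hbZ hbY d hd
        exact ((cY w hw h).mul_left ((commutatorElement_eq_one_iff_commute.1 hh).zpow_left i)).eq
      obtain ⟨R, hR, h1⟩ := card_le (E := F) (K := centralizer (Z : Set G)) (fun h => ⁅b, h⁆)
        (fun x _ y _ => commutator_mul_right (cY _ (hb y) x)) fun x _ h => cb x h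
      have h2 : Nat.card R ≤ p := (card_le_of_le fun w hw => by
        obtain ⟨x, -, rfl⟩ := (hR w).1 hw; exact hb x).trans (hY1.trans (pow_one p)).le
      obtain ⟨R', hR', h3⟩ := card_le (E := F ⊓ centralizer (Z : Set G)) (K := A) (fun h => ⁅a, h⁆)
        (fun x hx y _ => τ x hx.2 y) fun x hx h =>
          L a haA haZ x hx.2 (commutatorElement_eq_one_iff_commute.1 h) (hF.2 x hx.1)
      have h4 : Nat.card R' ≤ p := (card_le_of_le fun w hw => by
        obtain ⟨h, hh, rfl⟩ := (hR' w).1 hw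
        by_contra hn
        apply hxC
        intro d hd
        obtain ⟨w, hw, i, rfl⟩ := gen hYZ hZA (by rw [hY1, hZ2]; ring) _ (ha h) hn d hd
        refine ((cY w hw x).mul_left (Commute.zpow_left ?_ i)).eq
        have hw : ⁅x, a⁆ ∈ Z := by rw [← commutatorElement_inv]; exact inv_mem (ha x)
        have e : x * ⁅a, h⁆ * x⁻¹ = ⁅⁅x, a⁆ * a, h⁆ := by
          rw [conjugate_commutatorElement, (cF x hx h hh.1).eq, mul_inv_cancel_right,
            commutatorElement_def x a, inv_mul_cancel_right]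
        rw [commutator_mul_left (cA _ (hZA (ha h)) _ (hZA hw)),
          commutatorElement_eq_one_iff_commute.2 (cZ hh.2 hw), mul_one] at e
        exact (mul_inv_eq_iff_eq_mul.1 e).symm).trans (hY1.trans (pow_one p)).le
      have h5 : p ^ 3 ≤ Nat.card ↥(F ⊓ centralizer (Z : Set G)) :=
        Nat.le_of_mul_le_mul_right (by
          rw [← pow_succ, ← hF4]; exact h1.trans (Nat.mul_le_mul_left _ h2)) hpp.pos
      have h6 : p ^ 2 ≤ Nat.card ↥(F ⊓ centralizer (Z : Set G) ⊓ A) :=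
        Nat.le_of_mul_le_mul_right (by
          rw [← pow_succ]; exact h5.trans (h3.trans (Nat.mul_le_mul_left _ h4))) hpp.pos
      by_cases hK : F ⊓ centralizer (Z : Set G) ⊓ A ≤ Z
      · have := eq_of_le_of_card_ge hK (hZ2 ▸ h6)
        exact hxC fun d hd => (cF d (this.ge hd).1.1 x hx).eq
      · obtain ⟨c, hc, hcZ⟩ := SetLike.not_le_iff_exists.1 hK
        have := eq_of_le_of_card_ge (H := F ⊓ centralizer (Z : Set G)) (K := A) (fun h hh =>
          L c hc.2 hcZ h hh.2 (cF c hc.1.1 h hh.1) (hF.2 h hh.1)) (hA3 ▸ h5)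
        exact hxC fun d hd => (cF d (this.ge (hZA hd)).1 x hx).eq
    obtain ⟨R, hR, h3⟩ := card_le (E := F) (K := A) (fun h => ⁅a, h⁆)
      (fun x hx y _ => τ x (hFC hx) y) fun x hx h =>
        L a haA haZ x (hFC hx) (commutatorElement_eq_one_iff_commute.1 h) (hF.2 x hx)
    have hRZ : R ≤ Z := fun w hw => by obtain ⟨x, -, rfl⟩ := (hR w).1 hw; exact ha x
    have hK : F ⊓ A ≤ Z := fun c hc => by
      by_contra hcZ
      exact nle hA3 hF4 fun h hh => L c hc.2 hcZ h (hFC hh) (cF c hc.1 h hh) (hF.2 h hh)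
    have h4 := (card_le_of_le hRZ).trans hZ2.le
    have h5 := (card_le_of_le hK).trans hZ2.le
    rw [hF4, show p ^ 4 = p ^ 2 * p ^ 2 by ring] at h3
    have h0 : 0 < p ^ 2 := by positivity
    refine ⟨hFC, eq_of_le_of_card_ge hK (hZ2 ▸ Nat.le_of_mul_le_mul_right
      (h3.trans (Nat.mul_le_mul_left _ h4)) h0), fun w hw => (hR w).1 ?_⟩
    rw [eq_of_le_of_card_ge hRZ (hZ2 ▸ Nat.le_of_mul_le_mul_left
      (h3.trans (Nat.mul_le_mul_right _ h5)) h0)]
    exact hw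
  have hN : normalizer (E : Set G) < ⊤ := lt_top_iff_ne_top.2 fun h =>
    hno ⟨E, normalizer_eq_top_iff.1 h, hE, hE4⟩
  obtain ⟨g, hg, hgN⟩ := SetLike.exists_of_lt (normalizerCondition_of_isNilpotent _ hN)
  set E' := E.map (MulAut.conj g).toMonoidHom with hE'
  have hE'4 : Nat.card E' = p ^ 4 := (card_map_of_injective (MulAut.conj g).injective).trans hE4
  have hE'e : IsElementaryAbelian p E' := by
    haveI := hE.1
    refine ⟨inferInstance, ?_⟩
    rintro _ ⟨x, hx, rfl⟩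
    rw [← map_pow, hE.2 x hx, map_one]
  obtain ⟨hC, hI, hS⟩ := good E hE hE4
  obtain ⟨hC', hI', hS'⟩ := good E' hE'e hE'4
  have cE : ∀ x ∈ E, ∀ y ∈ E, Commute x y := fun x hx y hy =>
    congrArg Subtype.val (hE.1.1.1 ⟨x, hx⟩ ⟨y, hy⟩)
  have cE' : ∀ x ∈ E', ∀ y ∈ E', Commute x y := fun x hx y hy =>
    congrArg Subtype.val (hE'e.1.1.1 ⟨x, hx⟩ ⟨y, hy⟩)
  have τi : ∀ h ∈ centralizer (Z : Set G), ⁅a, h⁻¹⁆ = ⁅a, h⁆⁻¹ := fun h hh =>
    commutator_inv_right (cZ hh (ha h))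
  have dec : ∀ x' ∈ E', ∃ x ∈ E, x⁻¹ * x' ∈ A := fun x' hx' => by
    obtain ⟨x, hx, e⟩ := hS _ (ha x')
    have hn : x' ∈ normalizer (E : Set G) := by
      obtain ⟨y, hy, rfl⟩ := hx'
      exact (mem_normalizer_iff.1 hg y).1 (le_normalizer hy)
    have h1 : ⁅x', x⁻¹⁆ ∈ E := by
      rw [commutatorElement_def]
      exact mul_mem ((mem_normalizer_iff.1 hn _).1 (inv_mem hx)) (inv_mem (inv_mem hx))
    have hx1 := hC hx
    have hx2 := hC' hx'
    have h2 : ⁅x', x⁻¹⁆ ∈ Z := hI ▸ ⟨h1, L a haA haZ _ (hC h1)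
      (commutatorElement_eq_one_iff_commute.1 (by
        rw [commutatorElement_def x', τ _ (mul_mem (mul_mem hx2 (inv_mem hx1)) (inv_mem hx2)),
          τ _ (mul_mem hx2 (inv_mem hx1)), τ _ hx2, inv_inv, τi _ hx1, τi _ hx2, e]
        simp only [mul_inv_cancel, one_mul, inv_mul_cancel])) (hE.2 _ h1)⟩
    refine ⟨x, hx, L a haA haZ _ (mul_mem (inv_mem hx1) hx2)
      (commutatorElement_eq_one_iff_commute.1 (by rw [τ _ (inv_mem hx1), τi _ hx1, e, inv_mul_cancel])) ?_⟩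
    rw [mul_pow_prime hpp hp (cZ (inv_mem hx1) h2) (cZ hx2 h2) (hE.2 _ h1), inv_pow, hE.2 x hx,
      hE'e.2 x' hx']; simp
  have hle : E' ≤ E := fun x' hx' => by
    obtain ⟨x, hx, hc⟩ := dec x' hx'
    by_contra hx'E
    obtain ⟨i, hi, hT⟩ := T _ hc
    have hi := hi fun h => hx'E (by simpa using mul_mem hx (hI.ge h).1)
    refine absurd (card_le_of_le (show Z ≤ zpowers ⁅a, x⁆ from fun w hw => ?_)) ?_
    · obtain ⟨y', hy', rfl⟩ := hS' w hw
      obtain ⟨y, hy, hd⟩ := dec y' hy'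
      obtain ⟨j, -, hU⟩ := T _ hd
      have e1 := hT y' (hC' hy')
      have e2 : ⁅x, y⁻¹ * y'⁆ = (⁅a, x⁆ ^ j)⁻¹ := by
        rw [← hU x (hC hx), commutatorElement_inv]
      have e3 : ⁅x, y * (y⁻¹ * y')⁆ = (⁅a, x⁆ ^ j)⁻¹ := by
        rw [commutator_mul_right (e2 ▸ cZ (hC hy) (inv_mem (zpow_mem (ha x) j))), e2,
          commutatorElement_eq_one_iff_commute.2 (cE x hx y hy), one_mul]
      have e4 := commutator_mul_left (x := x) (y := x⁻¹ * x') (z := y')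
        (e1 ▸ cZ (hC hx) (zpow_mem (ha y') i))
      rw [mul_inv_cancel_left] at e3 e4
      rw [e1, e3, commutatorElement_eq_one_iff_commute.2 (cE' x' hx' y' hy'), eq_comm,
        mul_inv_eq_one] at e4
      by_contra hn
      exact hi (dvd_of_zpow_mem hpp hn (by rw [hAe _ (hZA hw)]; exact one_mem _)
        (e4 ▸ zpow_mem_zpowers _ _))
    · rw [hZ2, Nat.card_zpowers, not_le]
      exact (Nat.le_of_dvd hpp.pos (orderOf_dvd_of_pow_eq_one (hAe _ (hZA (ha x))))).trans_lt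
        (by nlinarith)
  have := eq_of_le_of_card_ge hle (by rw [hE4, hE'4])
  exact hgN (mem_normalizer_iff.2 fun x => ⟨fun hx => hle ⟨x, hx, rfl⟩, fun hx => by
    obtain ⟨y, hy, e⟩ := this.ge hx
    exact (MulAut.conj g).injective e ▸ hy⟩)

end Cfsg.Agent.S0122
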