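import Cfsg.Statements.S0125
import Cfsg.Agent.Transfer.Complement
import Cfsg.Agent.Transfer.SylowIn
import Cfsg.Agent.Solv.Basic

set_option autoImplicit false
open Cfsg

namespace Cfsg.Agent.S0125

open Subgroup

/-- The centralizer of a self-centralizing normal subgroup A of a Sylow p-subgroup is the direct product of A with a normal p'-subgroup. -/
theorem result {G : Type*} [Group G] [Finite G] {p : ℕ} [Fact p.Prime] (R : Sylow p G) (A : Subgroup G) (hAR : A ≤ (R : Subgroup G)) (hAn : (R : Subgroup G) ≤ Subgroup.normalizer (A : Set G)) (hC : (R : Subgroup G) ⊓ Subgroup.centralizer (A : Set G) = A) : ∃ H : Subgroup G, H ≤ Subgroup.centralizer (A : Set G) ∧ Nat.Coprime (Nat.card H) p ∧ Subgroup.centralizer (A : Set G) ≤ Subgroup.normalizer (H : Set G) ∧ H ⊓ A = ⊥ ∧ H ⊔ A = Subgroup.centralizer (A : Set G) := by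
  have h1 : Transfer.IsSylowIn p A (centralizer (A : Set G)) := by
    have := Transfer.isSylowIn_centralizer_of_normalizer (p := p) (P := R) (D := A)
      (by rw [inf_eq_left.2 hAn]; exact Transfer.isSylowIn_of_sylow_le R hAn)
    rwa [hC] at this
  have h2 : HasNormalPComplement p (centralizer (A : Set G)) :=
    Transfer.hasNormalPComplement_of_le_center h1.toSylow fun a ha =>
      mem_center_iff.2 fun g => Subtype.ext (g.2 a ha).symm
  have h3 := Transfer.isComplement'_pResidual h2 h1.toSylow
  refine ⟨(pResidual p _).map (centralizer (A : Set G)).subtype, map_subtype_le _, ?_,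
    Solv.le_normalizer_map_subtype _ _, ?_, ?_⟩
  · rw [card_map_of_injective (subtype_injective _)]
    exact Transfer.hasNormalPComplement_iff_coprime_card_pResidual.1 h2
  · have := congrArg (map (centralizer (A : Set G)).subtype) h3.disjoint.eq_bot
    rwa [map_inf _ _ _ (subtype_injective _), h1.map_toSylow, Subgroup.map_bot] at this
  · have := congrArg (map (centralizer (A : Set G)).subtype) h3.sup_eq_top
    rwa [Subgroup.map_sup, h1.map_toSylow, ← MonoidHom.range_eq_map, range_subtype] at this

end Cfsg.Agent.S0125
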