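import Cfsg.Statements.S0129
import Cfsg.Agent.Transfer.POdd

set_option autoImplicit false
open Cfsg

namespace Cfsg.Agent.S0129

/-- The order of a p-group is bounded by p^(a(a+1)/2) when it has a maximal normal abelian subgroup of order p^a. -/
theorem result {G : Type*} [Group G] [Finite G] {p : ℕ} [Fact p.Prime] (hG : IsPGroup p G) (A : Subgroup G) [A.Normal] (hA : IsMulCommutative A) (hmax : ∀ B : Subgroup G, B.Normal → IsMulCommutative B → A ≤ B → B = A) (a : ℕ) (ha : Nat.card A = p ^ a) : Nat.card G ≤ p ^ (a * (a + 1) / 2) := by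
  have := hG.isNilpotent
  obtain ⟨B, h1, h2, h3, h4⟩ := PGrp.exists_selfCentralizing_normal_abelian A
  rw [hmax B h1 h2 h3] at h4
  have h5 := Transfer.card_le_of_selfCentralizing hG A ha h4.le
  rwa [Nat.choose_two_right, Nat.add_sub_cancel, mul_comm] at h5

end Cfsg.Agent.S0129
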