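import Cfsg.Statements.S0132
import Cfsg.Agent.Transfer.Abelian
import Cfsg.Agent.Solv.Fitting

set_option autoImplicit false
open Cfsg

namespace Cfsg.Agent.S0132

open Subgroup

/-- A minimal non-p-nilpotent finite group is a minimal non-nilpotent group with a normal Sylow p-subgroup. -/
theorem result {G : Type*} [Group G] [Finite G] {p : ℕ} [Fact p.Prime] (h1 : ¬ Cfsg.HasNormalPComplement p G) (h2 : ∀ H : Subgroup G, H ≠ ⊤ → Cfsg.HasNormalPComplement p H) : (∀ H : Subgroup G, H ≠ ⊤ → Group.IsNilpotent H) ∧ ¬ Group.IsNilpotent G ∧ ∀ P : Sylow p G, (P : Subgroup G).Normal := by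
  obtain ⟨P⟩ : Nonempty (Sylow p G) := inferInstance
  obtain ⟨Q, q, k, g, hQP, hq, hqp, hg, hgN, hgC⟩ := Transfer.exists_prime_pow_not_centralizer P h1
  have := Fact.mk hq
  have hc : Nat.Coprime (q ^ k) p := ((Nat.coprime_primes hq Fact.out).2 hqp).pow_left k
  have hgo : Nat.Coprime (orderOf g) p := hc.coprime_dvd_left (orderOf_dvd_of_pow_eq_one hg)
  have hQ : IsPGroup p Q := P.2.to_le hQP
  have htop : Q ⊔ zpowers g = ⊤ := by
    by_contra hne
    have hg' : g ∈ Q ⊔ zpowers g := mem_sup_right (mem_zpowers g)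
    have h3 := Transfer.mem_centralizer_of_hasNormalPComplement (h2 _ hne)
      (hQ.comap_subtype (K := Q ⊔ zpowers g)) (g := ⟨g, hg'⟩)
      (mem_normalizer_iff.2 fun x => mem_normalizer_iff.1 hgN x) (by rwa [← orderOf_coe])
    exact hgC fun x hx => congrArg Subtype.val (h3 ⟨x, mem_sup_left hx⟩ hx)
  have hQn : Q.Normal := Solv.normal_of_le_normalizer_of_sup_eq_top Q.le_normalizer
    (zpowers_le.2 hgN) htop
  have hquot : ∀ x : G, x ^ q ^ k ∈ Q := by
    intro x
    obtain ⟨a, ha, _, ⟨i, rfl⟩, rfl⟩ := (Solv.mem_sup_left_of_le_normalizer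
      (zpowers_le.2 hgN)).1 (htop ▸ mem_top x)
    rw [← QuotientGroup.eq_one_iff, QuotientGroup.mk_pow, QuotientGroup.mk_mul,
      (QuotientGroup.eq_one_iff a).2 ha, one_mul, ← QuotientGroup.mk_pow, ← zpow_natCast,
      ← zpow_mul, mul_comm, zpow_mul, zpow_natCast, hg, one_zpow, QuotientGroup.mk_one]
  have hp : ∀ R : Subgroup G, IsPGroup p R → R ≤ Q := by
    intro R hR x hx
    obtain ⟨j, hj⟩ := hR ⟨x, hx⟩
    obtain ⟨m, hm⟩ := exists_pow_eq_self_of_coprime (x := x) (n := q ^ k)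
      ((hc.pow_right j).coprime_dvd_right (orderOf_dvd_of_pow_eq_one (congrArg Subtype.val hj)))
    exact hm ▸ pow_mem (hquot x) m
  refine ⟨fun H hH => ?_, fun h => h1 Transfer.hasNormalPComplement_of_isNilpotent, fun R => ?_⟩
  · obtain ⟨T⟩ : Nonempty (Sylow p H) := inferInstance
    have h3 : IsPGroup q (pResidual p H) := by
      rintro ⟨x, hx⟩
      refine ⟨k, Subtype.ext (Subtype.ext (Transfer.eq_one_of_mem_isPGroup_of_coprime hQ
        (hquot x) ?_))⟩
      have h4 := (Transfer.mem_pResidual_iff_of_hasNormalPComplement (h2 H hH)).1 hx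
      rw [← orderOf_coe] at h4
      exact h4.coprime_dvd_left (orderOf_pow_dvd _)
    have := h3.isNilpotent
    have := (hQ.comap_subtype (K := H)).isNilpotent
    rw [← Solv.fitting_eq_top_iff, eq_top_iff, ← Transfer.pResidual_sup_sylow T]
    refine sup_le Solv.le_fitting (le_trans ?_ (Solv.le_fitting (N := Q.comap H.subtype)))
    exact map_le_iff_le_comap.1 (hp _ (T.2.map _))
  · rw [← R.3 hQ (hp R R.2)]
    exact hQn

end Cfsg.Agent.S0132
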