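import Cfsg.Statements.S0163
import Cfsg.Agent.CharDeep.Brauer

set_option autoImplicit false
open Cfsg

namespace Cfsg.Agent.S0163

/-- The target property. -/
def Good {G : Type*} [Group G] [Fintype G] (f : G → ℂ) : Prop :=
  ∃ l : List ((E : Subgroup G) × ((E →* ℂˣ) × ℤ)),
    (∀ t ∈ l, ∃ p : ℕ, p.Prime ∧ Cfsg.IsElementary p t.1) ∧
      f = (l.map fun t => (t.2.2 : ℂ) • Cfsg.indFun t.1 (fun e => (t.2.1 e : ℂ))).sum

theorem good_zero {G : Type*} [Group G] [Fintype G] : Good (0 : G → ℂ) := ⟨[], by simp, by simp⟩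

theorem Good.add {G : Type*} [Group G] [Fintype G] {f g : G → ℂ} (h1 : Good f) (h2 : Good g) :
    Good (f + g) := by
  obtain ⟨a, ha, rfl⟩ := h1
  obtain ⟨b, hb, rfl⟩ := h2
  exact ⟨a ++ b, fun t ht => (List.mem_append.1 ht).elim (ha t) (hb t), by simp⟩

theorem Good.zsmul {G : Type*} [Group G] [Fintype G] {f : G → ℂ} (h1 : Good f) (c : ℤ) :
    Good (c • f) := by
  obtain ⟨a, ha, rfl⟩ := h1
  refine ⟨a.map fun t => ⟨t.1, t.2.1, c * t.2.2⟩, fun t ht => ?_, ?_⟩
  · obtain ⟨s, hs, rfl⟩ := List.mem_map.1 ht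
    exact ha s hs
  · rw [List.smul_sum, List.map_map, List.map_map]
    congr 1
    refine List.map_congr_left fun t _ => ?_
    simp [mul_smul, Int.cast_smul_eq_zsmul, mul_assoc]

/-- Brauer's induction Theorem: every character of a finite group is a ℤ-linear combination of functions induced from linear characters (homomorphisms to ℂˣ) of elementary subgroups. -/
theorem result {G : Type*} [Group G] [Fintype G] (χ : G → ℂ) (hχ : Cfsg.IsCharacter G χ) : ∃ l : List ((E : Subgroup G) × ((E →* ℂˣ) × ℤ)), (∀ t ∈ l, ∃ p : ℕ, p.Prime ∧ Cfsg.IsElementary p t.1) ∧ χ = (l.map fun t => (t.2.2 : ℂ) • Cfsg.indFun t.1 (fun e => (t.2.1 e : ℂ))).sum := by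
  classical
  have hf := CharDeep.mem_elemSpan_of_isGeneralizedCharacter hχ.isGeneralizedCharacter
  change Good χ
  clear hχ
  induction hf using Submodule.span_induction with
  | zero => exact good_zero
  | add _ _ _ _ h1 h2 => exact h1.add h2
  | smul c _ _ h1 => exact h1.zsmul c
  | mem f hf =>
    obtain ⟨q, E, ψ, hq, -, hE, hψ, rfl⟩ := hf
    have := CharDeep.isNilpotent_of_isElementary hq hE
    refine Char.isCharacter_induction (P := fun ψ => Good (indFun E ψ)) ?_ ?_ hψ
    · rw [CharDeep.indFun_zero]; exact good_zero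
    · intro φ ξ hφ _ h
      rw [CharDeep.indFun_add]
      refine Good.add ?_ h
      obtain ⟨U, lam, rfl⟩ := CharDeep.isMonomial_of_isNilpotent hφ
      rw [CharDeep.indFun_indFun_map]
      refine ⟨[⟨U.map E.subtype, lam.comp
        (U.equivMapOfInjective E.subtype E.subtype_injective).symm.toMonoidHom, 1⟩], ?_, by simp⟩
      intro t ht
      rw [List.mem_singleton.1 ht]
      exact ⟨q, hq, CharDeep.isElementary_map hq E U
        (CharDeep.isElementary_of_injective hq U.subtype U.subtype_injective hE)⟩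

end Cfsg.Agent.S0163
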