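import Cfsg.Statements.S0166
import Cfsg.Agent.CharDeep.Brauer
import Cfsg.Agent.CharDeep.MGroup
import Cfsg.Agent.Char.Galois
import Cfsg.Agent.Char.RepEquiv

set_option autoImplicit false
open Cfsg

namespace Cfsg.Agent.S0166


open Cfsg.Agent.Char Cfsg.Agent.CharDeep Module Representation

variable {G : Type*} [Group G] (K : IntermediateField ℚ ℂ) {φ ψ χ : G → ℂ}

/-- `ψ` is the character of a representation over `K` with property `P`. -/
def KC (ψ : G → ℂ) (irr : Prop) : Prop := ∃ (V : Type) (_ : AddCommGroup V) (_ : Module K V) (_ : FiniteDimensional K V)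
  (τ : Representation K G V), (irr → τ.IsIrreducible) ∧ ψ = fun g => (τ.character g : ℂ)

variable {K}

theorem KC.matrix {P : Prop} (h : KC K ψ P) : ∃ (n : ℕ) (R : G →* Matrix (Fin n) (Fin n) ℂ),
    (∀ g i j, R g i j ∈ K) ∧ ψ = fun g => (R g).trace := by
  obtain ⟨V, _, _, _, τ, -, rfl⟩ := h
  refine ⟨_, (algebraMap K ℂ).mapMatrix.toMonoidHom.comp ((LinearMap.toMatrixAlgEquiv (finBasis K V)).toMonoidHom.comp τ),
    fun g i j => Subtype.prop _, funext fun g => ?_⟩
  rw [character, LinearMap.trace_eq_matrix_trace K (finBasis K V)]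
  exact AddMonoidHom.map_trace (algebraMap K ℂ) _

theorem KC.isCharacter {P : Prop} (h : KC K ψ P) : IsCharacter G ψ :=
  let ⟨_, R, _, e⟩ := h.matrix; e ▸ isCharacter_trace R

theorem KC.add (h : KC K φ False) (h' : KC K ψ False) : KC K (φ + ψ) False := by
  obtain ⟨V, _, _, _, τ, -, rfl⟩ := h
  obtain ⟨W, _, _, _, σ, -, rfl⟩ := h'
  exact ⟨_, _, _, inferInstance, τ.prod σ, False.elim, funext fun g => by
    simp only [character, Pi.add_apply]; exact_mod_cast (LinearMap.trace_prodMap' (τ g) (σ g)).symm⟩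

theorem kc_monomial [Fintype G] (hK : ∀ z : ℂ, z ^ Monoid.exponent G = 1 → z ∈ K) (h : IsMonomial G ψ) :
    KC K ψ False := by
  classical
  obtain ⟨H, l, rfl⟩ := h
  have := Fintype.ofFinite (G ⧸ H)
  let f : G → K := fun g => if h : g ∈ H then ⟨l ⟨g, h⟩, hK _ (by
    rw [← Units.val_pow_eq_pow_val, ← map_pow, show (⟨g, h⟩ : H) ^ _ = 1 from Subtype.ext (Monoid.pow_exponent_eq_one g),
      map_one, Units.val_one])⟩ else 0
  have f1 : ∀ a b, a ∈ H → f (a * b) = f a * f b := fun a b ha => by
    by_cases hb : b ∈ H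
    · simp only [f, ha, hb, mul_mem ha hb, dif_pos]
      exact Subtype.ext (by simpa using congrArg Units.val (l.map_mul ⟨a, ha⟩ ⟨b, hb⟩))
    · simp [f, hb, H.mul_mem_cancel_left ha]
  let R : G →* Matrix (G ⧸ H) (G ⧸ H) K :=
    { toFun g := .of fun a b => f (a.out⁻¹ * g * b.out)
      map_one' := Matrix.ext fun a b => by
        by_cases e : a = b
        · subst e; simp [f, show ∀ h, (⟨1, h⟩ : H) = 1 from fun _ => rfl]; rfl
        · simp [f, e, ← QuotientGroup.eq]
      map_mul' g h := Matrix.ext fun a c => by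
        have k : ∀ b : G ⧸ H, a.out⁻¹ * g * b.out ∈ H ↔ b = (g⁻¹ * a.out : G) := fun b => by
          conv_rhs => rw [eq_comm, ← QuotientGroup.out_eq' b, QuotientGroup.eq]
          simp
        simp only [Matrix.mul_apply, Matrix.of_apply]
        rw [Finset.sum_eq_single _ (fun b _ hb => by
          rw [show f _ = 0 from dif_neg (mt (k b).1 hb), zero_mul]) (by simp), ← f1 _ _ ((k _).2 rfl)]
        simp [mul_assoc] }
  refine ⟨_, _, _, inferInstance, (Matrix.toLinAlgEquiv'.toMonoidHom.comp ((Matrix.reindexAlgEquiv K K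
    (Fintype.equivFin _)).toMonoidHom.comp R) :), False.elim, funext fun g => ?_⟩
  rw [indFun_eq_sum_quotient _ (isCharacter_hom l).isClassFunction]
  refine .trans ?_ (congrArg Subtype.val ((Matrix.trace_toLin'_eq (Matrix.reindex (Fintype.equivFin _)
    (Fintype.equivFin _) (R g))).trans (Equiv.sum_comp (Fintype.equivFin _).symm fun q => R g q q))).symm
  simp only [AddSubmonoidClass.coe_finsetSum, extendByZero_apply]
  exact Finset.sum_congr rfl fun q _ => by simp [R, f, apply_dite Subtype.val]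

variable [Fintype G]

theorem KC.mem_span (h : KC K ψ False) : ψ ∈ Submodule.span ℤ {φ | KC K φ True} := by
  obtain ⟨V, _, _, _, τ, -, rfl⟩ := h
  induction hn : finrank K V using Nat.strong_induction_on generalizing V with | _ n ih =>
  by_cases hV : Nontrivial (Subrepresentation τ)
  swap
  · have : (⊤ : Submodule K V) = ⊥ := congrArg Subrepresentation.toSubmodule
      ((not_nontrivial_iff_subsingleton.1 hV).elim (⊤ : Subrepresentation τ) ⊥)
    have : Subsingleton V := ⟨fun a b => sub_eq_zero.1 (this ▸ Submodule.mem_top : a - b ∈ (⊥ : Submodule K V))⟩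
    rw [show (fun g => (τ.character g : ℂ)) = 0 from funext fun g => by simp [character, Subsingleton.elim (τ g) 0]]
    exact zero_mem _
  by_cases hi : τ.IsIrreducible
  · exact Submodule.subset_span ⟨V, _, _, ‹_›, τ, fun _ => hi, rfl⟩
  obtain ⟨U, h0, h1⟩ : ∃ U : Subrepresentation τ, U ≠ ⊥ ∧ U ≠ ⊤ := by
    by_contra! h
    exact hi ⟨fun U => or_iff_not_imp_left.2 (h U)⟩
  have : NeZero (Nat.card G : K) := ⟨by exact_mod_cast (Nat.card_pos (α := G)).ne'⟩
  obtain ⟨W, hc⟩ := exists_isCompl U
  have k : ∀ U : Subrepresentation τ, U ≠ ⊤ → finrank K U.toSubmodule < n := fun U h =>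
    hn ▸ Submodule.finrank_lt fun e => h (Subrepresentation.toSubmodule_injective e)
  have i1 := ih _ (k U h1) _ _ _ inferInstance U.toRepresentation rfl
  have i2 := ih _ (k W fun e => h0 (by simpa [e] using hc.inf_eq_bot)) _ _ _ inferInstance W.toRepresentation rfl
  convert add_mem i1 i2 using 1
  have e : (U.toRepresentation.prod W.toRepresentation).Equiv τ := .mk (Submodule.prodEquivOfIsCompl _ _
      ⟨by rw [disjoint_iff, ← Subrepresentation.toSubmodule_inf, hc.inf_eq_bot]; rfl,
       by rw [codisjoint_iff, ← Subrepresentation.toSubmodule_sup, hc.sup_eq_top]; rfl⟩) fun g =>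
    LinearMap.ext fun ⟨a, b⟩ => by simp [Representation.prod, Subrepresentation.toRepresentation]
  ext g
  rw [← char_iso e]
  simp only [character, Pi.add_apply]; exact_mod_cast LinearMap.trace_prodMap' (U.toRepresentation g) (W.toRepresentation g)

theorem KC.orth (h : KC K φ True) (h' : KC K ψ True) (hne : φ ≠ ψ) : classInner φ ψ = 0 := by
  rw [classInner_eq_sum_inv _ h'.isCharacter.isGeneralizedCharacter]
  obtain ⟨V, _, _, _, τ, h, rfl⟩ := h
  obtain ⟨W, _, _, _, σ, h', rfl⟩ := h'
  have := h trivial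
  have := h' trivial
  have : IsEmpty (σ.Equiv τ) := ⟨fun e => hne (by rw [char_iso e])⟩
  have := invertibleOfNonzero (show (Nat.card G : K) ≠ 0 by exact_mod_cast (Nat.card_pos (α := G)).ne')
  have := congrArg Subtype.val (card_inv_mul_sum_char_mul_char_eq_finrank σ τ)
  simpa [finrank_eq_zero_of_subsingleton] using this

theorem kc_irr (hχ : IsIrrCharacter G χ) (h : χ ∈ Submodule.span ℤ {φ | KC K φ True}) : KC K χ True := by
  obtain ⟨φ, hφ, h0⟩ : ∃ φ, KC K φ True ∧ classInner φ χ ≠ 0 := by
    by_contra! k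
    refine one_ne_zero (hχ.classInner_self.symm.trans (Submodule.span_induction (p := fun f _ => classInner f χ = 0)
      k (classInner_zero_left _) (fun _ _ _ _ a b => by rw [classInner_add_left, a, b, add_zero])
      (fun _ _ _ a => by rw [classInner_zsmul_left, a, mul_zero]) h))
  obtain ⟨c, hc⟩ : ∃ c : ℤ, classInner χ φ = c * classInner φ φ := Submodule.span_induction
    (p := fun f _ => ∃ c : ℤ, classInner f φ = c * classInner φ φ) (fun f hf => by
      by_cases e : f = φ
      exacts [⟨1, by simp [e]⟩, ⟨0, by simp [KC.orth hf hφ e]⟩]) ⟨0, by simp [classInner_zero_left]⟩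
    (fun _ _ _ _ ⟨a, ha⟩ ⟨b, hb⟩ => ⟨a + b, by rw [classInner_add_left, ha, hb]; push_cast; ring⟩)
    (fun n _ _ ⟨a, ha⟩ => ⟨n * a, by rw [classInner_zsmul_left, ha]; push_cast; ring⟩) h
  obtain ⟨N, hN⟩ := hφ.isCharacter.exists_nat_classInner hφ.isCharacter
  have e := hφ.isCharacter.classInner_comm hχ.isCharacter
  have k := classInner_self_re_nonneg (φ - (c * N) • χ)
  simp only [classInner_sub_left, classInner_sub_right, classInner_zsmul_left, classInner_zsmul_right, e, hc, hN,
    hχ.classInner_self] at k h0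
  norm_cast at k h0
  have : N = 1 := by
    have := Int.one_le_abs (left_ne_zero_of_mul h0)
    have : 0 < N := Nat.pos_of_ne_zero (by simpa using right_ne_zero_of_mul h0)
    have : (N : ℤ) ^ 2 ≤ c ^ 2 * N ^ 2 := le_mul_of_one_le_left (sq_nonneg _) (by nlinarith [sq_abs c])
    have : (N : ℤ) ≤ 1 := by nlinarith
    omega
  rwa [← (hφ.isCharacter.isIrrCharacter_of_classInner_self (by simp [hN, this])).eq_of_classInner_ne_zero hχ
    (by rw [e, hc, hN]; exact_mod_cast h0)]

theorem kc_all (hK : ∀ z : ℂ, z ^ Monoid.exponent G = 1 → z ∈ K) (h : IsCharacter G χ) : KC K χ False := by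
  classical
  refine isCharacter_induction (P := fun χ => KC K χ False) ⟨_, _, _, inferInstance, Representation.trivial K G (Fin 0 → K), False.elim,
    funext fun g => by simp [character]⟩ (fun φ ψ hφ _ h => .add ?_ h) h
  refine (fun ⟨V, _, _, h, τ, _, e⟩ => ⟨V, _, _, h, τ, False.elim, e⟩ : KC K φ True → _) (kc_irr hφ
    (Submodule.span_le.2 ?_ (mem_elemSpan_of_isGeneralizedCharacter hφ.isGeneralizedCharacter)))
  rintro _ ⟨p, E, ψ, hp, -, hE, hψ, rfl⟩
  have := isNilpotent_of_isElementary hp hE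
  exact isCharacter_induction (P := fun ψ => indFun E ψ ∈ Submodule.span ℤ _) (indFun_zero E ▸ zero_mem _)
    (fun a b ha _ h => indFun_add E a b ▸ add_mem
      (kc_monomial hK ((isMonomial_of_isNilpotent ha).indFun E)).mem_span h) hψ

/-- Brauer's splitting field Theorem: a complex representation of a finite group of exponent m is equivalent to a representation by matrices with entries in ℚ adjoined exp(2πi/m). -/
theorem result {G : Type*} [Group G] [Finite G] (n : ℕ) (ρ : Representation ℂ G (Fin n → ℂ)) : ∃ σ : Representation ℂ G (Fin n → ℂ), Nonempty (ρ.Equiv σ) ∧ ∀ g : G, ∀ i j : Fin n, LinearMap.toMatrix' (σ g) i j ∈ Algebra.adjoin ℚ ({Complex.exp (2 * Real.pi * Complex.I / (Monoid.exponent G : ℂ))} : Set ℂ) := by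
  have := Fintype.ofFinite G
  have hζ := Complex.isPrimitiveRoot_exp _ (Monoid.exponent_ne_zero_of_finite (G := G))
  have : NeZero (Monoid.exponent G) := ⟨Monoid.exponent_ne_zero_of_finite⟩
  obtain ⟨m, R, h1, h2⟩ := (kc_all (K := .adjoin ℚ {_}) (fun z hz => by
    obtain ⟨i, -, rfl⟩ := hζ.eq_pow_of_pow_eq_one hz
    exact pow_mem (IntermediateField.mem_adjoin_simple_self ℚ _) i) (isCharacter_character ρ)).matrix
  obtain rfl : n = m := by simpa using congrFun h2 1
  refine ⟨matrixRep R, nonempty_equiv_of_character_eq _ _ (h2.trans (character_matrixRep R).symm), fun g i j => ?_⟩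
  rw [matrixRep_apply, LinearMap.toMatrix'_toLin', ← IntermediateField.adjoin_simple_toSubalgebra_of_isAlgebraic
    ((hζ.isIntegral (Nat.pos_of_neZero _)).tower_top.isAlgebraic)]
  exact h1 g i j

end Cfsg.Agent.S0166
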