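import Cfsg.Statements.S0168
import Cfsg.Agent.Char.Misc

set_option autoImplicit false
open Cfsg

namespace Cfsg.Agent.S0168


/-- The Burnside–Brauer Theorem. Let χ be the character of a faithful complex representation of a finite group, taking m distinct values. Then every irreducible character has nonzero inner product with χ ^ i for some i < m. -/
theorem result {G : Type*} [Group G] [Fintype G] {V : Type*} [AddCommGroup V] [Module ℂ V] [FiniteDimensional ℂ V] (ρ : Representation ℂ G V) (hfaithful : Function.Injective ρ) (ψ : G → ℂ) (hψ : Cfsg.IsIrrCharacter G ψ) : ∃ i : ℕ, i < Nat.card (Set.range ρ.character) ∧ Cfsg.classInner (fun g => ρ.character g ^ i) ψ ≠ 0 := by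
  classical
  by_contra H
  push Not at H
  let s : Finset ℂ := (Finset.univ.image ρ.character).erase (ρ.character 1)
  let p : Polynomial ℂ := ∏ a ∈ s, (Polynomial.X - Polynomial.C a)
  have hdeg : p.natDegree < Nat.card (Set.range ρ.character) := by
    rw [Polynomial.natDegree_finsetProd_X_sub_C_eq_card, Nat.card_eq_fintype_card,
      ← Set.toFinset_card, Set.toFinset_range]
    exact Finset.card_erase_lt_of_mem (Finset.mem_image_of_mem _ (Finset.mem_univ _))
  have h1 : classInner (fun g => p.eval (ρ.character g)) ψ = 0 := by
    have : (fun g => p.eval (ρ.character g)) = ∑ i ∈ Finset.range (Nat.card (Set.range ρ.character)),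
        p.coeff i • fun g => ρ.character g ^ i := by
      ext g
      rw [Polynomial.eval_eq_sum_range' hdeg]
      simp
    rw [this, Char.classInner_sum_left]
    exact Finset.sum_eq_zero fun i hi => by
      rw [Char.classInner_smul_left, H i (Finset.mem_range.mp hi), mul_zero]
  rw [classInner, Finset.sum_eq_single 1, mul_eq_zero, mul_eq_zero] at h1
  · rcases h1 with h1 | h1 | h1
    · exact inv_ne_zero Char.natCard_cast_ne_zero h1
    · simp only [p, Polynomial.eval_prod, Finset.prod_eq_zero_iff] at h1
      obtain ⟨a, ha, h2⟩ := h1
      exact (Finset.mem_erase.mp ha).1 (by simpa [sub_eq_zero, eq_comm] using h2)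
    · exact hψ.apply_one_ne_zero (by simpa using h1)
  · intro g _ hg
    apply mul_eq_zero_of_left
    simp only [p, Polynomial.eval_prod, Finset.prod_eq_zero_iff]
    refine ⟨ρ.character g, Finset.mem_erase.mpr ⟨fun h => hg (hfaithful ?_),
      Finset.mem_image_of_mem _ (Finset.mem_univ _)⟩, by simp⟩
    rw [map_one]
    exact (Char.character_eq_char_one_iff ρ g).mp h
  · simp

end Cfsg.Agent.S0168
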