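import Cfsg.Statements.S0198
import Cfsg.Agent.Block.Exc

set_option autoImplicit false
open Cfsg

namespace Cfsg.Agent.S0198


open Cfsg.Agent.Block Cfsg.Agent.Char

theorem exc_diff {R I : Type*} [Fintype I] [DecidableEq I] [DecidableEq R] [Nonempty I] (i₀ : R) {t : R → I → ℤ}
    {d : I → ℤ} (hd : ∀ i, 0 < d i) (htd : ∀ j, t j ⬝ᵥ d = 0) (h0 : t i₀ = 0)
    (ht : ∀ j k, j ≠ i₀ → k ≠ i₀ → t j ⬝ᵥ t k = if j = k then 2 else 1) :
    ∃ (δ : ℤ) (ζ : R → I), (δ = 1 ∨ δ = -1) ∧ Function.Injective ζ ∧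
      ∀ j, t j = Pi.single (ζ j) δ - Pi.single (ζ i₀) δ := by
  have key : ∀ j, ∃ α β, j ≠ i₀ → α ≠ β ∧ t j = Pi.single α 1 - Pi.single β 1 := fun j => by
    by_cases hj : j = i₀
    · exact ⟨Classical.arbitrary I, Classical.arbitrary I, fun h => absurd hj h⟩
    · obtain ⟨α, β, h⟩ := two_vec hd (s := t j) (by simp [ht, hj]) (htd j)
      exact ⟨α, β, fun _ => h⟩
  choose α β h using key
  have h1 : ∀ j k, j ≠ i₀ → k ≠ i₀ → j ≠ k → (α j = α k ↔ β j ≠ β k) := fun j k hj hk hjk => by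
    have := (ht j k hj hk).trans (if_neg hjk)
    rw [(h j hj).2, (h k hk).2, sub_dotProduct, single_dotProduct, single_dotProduct] at this
    have h2 := (h j hj).1
    have h3 := (h k hk).1
    simp only [Pi.sub_apply, Pi.single_apply] at this
    split_ifs at this <;> simp_all
  have main : ∃ (δ : ℤ) (c : I) (ε : R → I), (δ = 1 ∨ δ = -1) ∧ (∀ j, j ≠ i₀ → ε j ≠ c ∧
      t j = Pi.single (ε j) δ - Pi.single c δ) ∧ ∀ j k, j ≠ i₀ → k ≠ i₀ → j ≠ k → ε j ≠ ε k := by
    by_cases hb : ∀ j k, j ≠ i₀ → k ≠ i₀ → β j = β k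
    · by_cases h0 : ∃ j₀, j₀ ≠ i₀
      · obtain ⟨j₀, h0⟩ := h0
        exact ⟨1, β j₀, α, Or.inl rfl, fun j hj => by rw [← hb j j₀ hj h0]; exact h j hj,
          fun j k hj hk hjk e => (h1 j k hj hk hjk).1 e (hb j k hj hk)⟩
      · exact ⟨1, β i₀, α, .inl rfl, fun j hj => absurd ⟨j, hj⟩ h0, fun j _ hj => absurd ⟨j, hj⟩ h0⟩
    push Not at hb
    obtain ⟨j, k, hj, hk, hjk⟩ := hb
    have h2 := (h1 j k hj hk fun e => hjk (by rw [e])).2 hjk
    have h3 : ∀ l, l ≠ i₀ → α l = α j := fun l hl => by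
      by_contra hc
      exact hjk ((not_not.1 (mt (h1 l j hl hj fun e => hc (by rw [e])).2 hc)).symm.trans
        (not_not.1 (mt (h1 l k hl hk fun e => hc (by rw [e, h2])).2 (h2 ▸ hc))))
    refine ⟨-1, α j, β, Or.inr rfl, fun l hl => ?_, fun l m hl hm hlm =>
      (h1 l m hl hm hlm).1 ((h3 l hl).trans (h3 m hm).symm)⟩
    rw [← h3 l hl, Pi.single_neg, Pi.single_neg, (h l hl).2]
    exact ⟨(h l hl).1.symm, by abel⟩
  obtain ⟨δ, c, ε, hδ, h2, h3⟩ := main
  refine ⟨δ, fun j => if j = i₀ then c else ε j, hδ, fun j k hjk => ?_, fun j => ?_⟩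
  · by_contra hc
    by_cases hj : j = i₀ <;> by_cases hk : k = i₀ <;> simp only [hj, hk, if_true, if_false] at hjk
    exacts [hc (hj.trans hk.symm), (h2 k hk).1 hjk.symm, (h2 j hj).1 hjk, h3 j k hj hk hc hjk]
  · by_cases hj : j = i₀
    · simp [hj, h0]
    · simp [hj, (h2 j hj).2]

/-- The isometry lemma behind exceptional characters. Let τ be a family of generalized characters of a finite group G indexed by Fin n, with τ i₀ = 0, every τ i vanishing at the identity, and inner products ⟨τ i, τ j⟩ = 2 if i = j and 1 otherwise for i, j ≠ i₀. Then there are a sign ε and pairwise distinct irreducible characters μ i with τ i = ε (μ i − μ i₀) for all i. -/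
theorem result {G : Type*} [Group G] [Fintype G] (n : ℕ) (i₀ : Fin n) (τ : Fin n → (G → ℂ)) (h0 : τ i₀ = 0) (hgen : ∀ i, Cfsg.IsGeneralizedCharacter G (τ i)) (hone : ∀ i, τ i 1 = 0) (hgram : ∀ i j, i ≠ i₀ → j ≠ i₀ → Cfsg.classInner (τ i) (τ j) = if i = j then 2 else 1) : ∃ ε : ℂ, (ε = 1 ∨ ε = -1) ∧ ∃ μ : Fin n → (G → ℂ), (∀ i, Cfsg.IsIrrCharacter G (μ i)) ∧ Function.Injective μ ∧ ∀ i, τ i = ε • (μ i - μ i₀) := by
  classical
  choose t h1 h2 using fun i => (hgen i).exists_int_coeff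
  obtain ⟨δ, ζ, hδ, hζ, h⟩ := exc_diff i₀ (t := t) (d := fun χ => charDegree χ.1)
    (fun χ => Int.natCast_pos.2 χ.2.charDegree_pos) (fun j => by
      have := congrFun (h2 j) 1
      rw [hone, Finset.sum_apply, Finset.sum_congr rfl fun χ _ => by
        rw [Pi.smul_apply, smul_eq_mul, χ.2.apply_one_eq_charDegree]] at this
      exact_mod_cast this.symm)
    (funext fun χ => by simpa [h0, classInner_zero_left] using (h1 i₀ χ).symm) fun j k hj hk => by
      have := hgram j k hj hk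
      rw [(hgen j).isClassFunction.classInner_eq_sum_irr] at this
      simp only [h1, map_intCast] at this
      split_ifs at this ⊢ <;> exact_mod_cast this
  refine ⟨δ, by exact_mod_cast hδ, fun i => ζ i, fun i => (ζ i).2, Subtype.val_injective.comp hζ, fun i => ?_⟩
  rw [h2 i, h i]
  simp [Pi.single_apply, sub_smul, ite_smul, smul_sub]

end Cfsg.Agent.S0198
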