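import Cfsg.Statements.S0170
import Cfsg.Agent.S0198
import Cfsg.Agent.CharDeep.TI
import Cfsg.Agent.CharDeep.Clifford

set_option autoImplicit false
open Cfsg

namespace Cfsg.Agent.S0170


open Cfsg.Agent.Char Cfsg.Agent.CharDeep

/-- Exceptional characters. Let S be a subset of a finite group contained in its normalizer N and meeting its conjugates by elements outside N only in the identity. Given n ≥ 2 distinct irreducible characters of N of equal degree that vanish on N away from S, there exist a sign ε and n distinct irreducible characters θ_i of G such that inducing χ_i − χ_j to G gives ε (θ_i − θ_j) for all i, j. -/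
theorem result {G : Type*} [Group G] [Fintype G] (S : Set G) (hSN : S ⊆ Subgroup.normalizer S) (hTI : ∀ g : G, g ∉ Subgroup.normalizer S → ∀ s ∈ S, g * s * g⁻¹ ∈ S → s = 1) (n : ℕ) (hn : 2 ≤ n) (χ : Fin n → (Subgroup.normalizer S → ℂ)) (hirr : ∀ i, Cfsg.IsIrrCharacter (Subgroup.normalizer S) (χ i)) (hinj : Function.Injective χ) (hvan : ∀ i, ∀ x : Subgroup.normalizer S, (x : G) ∉ S → χ i x = 0) (hdeg : ∀ i j, χ i 1 = χ j 1) : ∃ ε : ℂ, (ε = 1 ∨ ε = -1) ∧ ∃ θ : Fin n → (G → ℂ), (∀ i, Cfsg.IsIrrCharacter G (θ i)) ∧ Function.Injective θ ∧ ∀ i j, Cfsg.indFun (Subgroup.normalizer S) (χ i) - Cfsg.indFun (Subgroup.normalizer S) (χ j) = ε • (θ i - θ j) := by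
  classical
  obtain ⟨ε, h1, θ, h2, h3, h4⟩ := S0198.result n ⟨0, by omega⟩ (fun i => indFun _ (χ i - χ ⟨0, by omega⟩))
    (by simp [indFun_zero]) (fun i => isGeneralizedCharacter_indFun _
      ((hirr _).isGeneralizedCharacter.sub (hirr _).isGeneralizedCharacter))
    (fun i => by simp [indFun_one, hdeg i ⟨0, by omega⟩]) fun i j hi hj => by
      rw [classInner_indFun_indFun_of_TI _ S hTI ((hirr _).isClassFunction.sub (hirr _).isClassFunction)
        (fun x hx => by simp [hvan _ x hx]) (fun x hx => by simp [hvan _ x hx]) (by simp [hdeg i ⟨0, by omega⟩])]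
      simp only [classInner_sub_left, classInner_sub_right, (hirr _).classInner_eq_ite (hirr _), hinj.eq_iff, hi,
        hj.symm, if_true, if_false]
      split_ifs <;> norm_num
  refine ⟨ε, h1, θ, h2, h3, fun i j => ?_⟩
  have := congrArg₂ (· - ·) (h4 i) (h4 j)
  simpa [indFun_sub, ← smul_sub] using this

end Cfsg.Agent.S0170
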