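import Cfsg.Statements.S0171
import Cfsg.Agent.PF.P01

set_option autoImplicit false
open Cfsg

namespace Cfsg.Agent.S0171

open Cfsg.Agent.PF Cfsg.Agent.BG

/-- Let G = K H with K normal, K ⊓ H trivial, and no non-identity element of H commuting with a non-identity element of K (a Frobenius group with kernel K and complement H). Then every non-principal irreducible character of K induces to an irreducible character of G. -/
theorem result {G : Type*} [Group G] [Fintype G] (K H : Subgroup G) [K.Normal] (hKH : K ⊓ H = ⊥) (hKH' : K ⊔ H = ⊤) (hfpf : ∀ h ∈ H, h ≠ 1 → ∀ k ∈ K, h * k = k * h → k = 1) (τ : K → ℂ) (hτ : Cfsg.IsIrrCharacter K τ) (hτ1 : τ ≠ fun _ => 1) : Cfsg.IsIrrCharacter G (Cfsg.indFun K τ) := by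
  have hθ : extendByZero K τ ∈ Irr K := extendByZero_mem_Irr.2 hτ
  have h1 : extendByZero K τ ≠ one K := by
    intro h
    apply hτ1
    ext x
    have := congrFun h x
    rwa [CharDeep.extendByZero_coe, one_of_mem x.2] at this
  rw [← mem_Irr_top, ← Ind_top_extendByZero]
  refine inertia_Ind_irr (normal_top K) hθ ?_
  rintro g ⟨-, hg⟩
  have hg' : g ∈ K ⊔ H := hKH' ▸ Subgroup.mem_top g
  obtain ⟨k, hk, h, hh, rfl⟩ := Subgroup.mem_sup_of_normal_left.1 hg'
  have hhI : h ∈ PF.inertia (extendByZero K τ) := by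
    have := (PF.inertia _).mul_mem ((PF.inertia _).inv_mem (le_inertia_of_CF (Irr_CF hθ) hk)) hg
    simpa using this
  by_cases h0 : h = 1
  · simpa [h0] using hk
  exfalso
  refine not_mem_inertia_of_regular' (N := ⊥) (normal_bot K) (by rw [norm_bot]; trivial)
    (norm_of_normal K ⊤ trivial) ?_ hθ bot_le h1 hhI
  intro k hk e
  rw [Subgroup.mem_bot] at e ⊢
  refine hfpf h hh h0 k hk ?_
  calc h * k = (h * k * h⁻¹ * k⁻¹) * (k * h) := by group
    _ = k * h := by rw [e, one_mul]

end Cfsg.Agent.S0171
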