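import Cfsg.Statements.S0172
import Cfsg.Agent.Char.Misc
import Mathlib.GroupTheory.GroupAction.CardCommute

set_option autoImplicit false
open Cfsg

namespace Cfsg.Agent.S0172


/-- Class number of a Frobenius group: if G = K H with K normal, K ⊓ H trivial and no non-identity element of H commuting with a non-identity element of K, then |H| * k(G) + 1 = |H| * k(H) + k(K), where k denotes the number of conjugacy classes. -/
theorem result {G : Type*} [Group G] [Finite G] (K H : Subgroup G) [K.Normal] (hKH : K ⊓ H = ⊥) (hKH' : K ⊔ H = ⊤) (hfpf : ∀ h ∈ H, h ≠ 1 → ∀ k ∈ K, h * k = k * h → k = 1) : Nat.card H * Nat.card (ConjClasses G) + 1 = Nat.card H * Nat.card (ConjClasses H) + Nat.card (ConjClasses K) := by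
  classical
  have hmod : ∀ a ∈ H, ∀ b ∈ H, (a : G ⧸ K) = b → a = b := by
    intro a ha b hb hab
    have h1 : a⁻¹ * b ∈ K ⊓ H := ⟨QuotientGroup.eq.1 hab, H.mul_mem (H.inv_mem ha) hb⟩
    rw [hKH, Subgroup.mem_bot] at h1
    exact inv_mul_eq_one.1 h1
  have hK1 : ∀ k ∈ K, (k : G ⧸ K) = 1 := fun k hk => (QuotientGroup.eq_one_iff k).2 hk
  have hdec : ∀ g : G, ∃ h ∈ H, ∃ k ∈ K, g = h * k := by
    intro g
    have : g ∈ ((H ⊔ K : Subgroup G) : Set G) := by rw [sup_comm, hKH']; trivial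
    rw [Subgroup.mul_normal] at this
    obtain ⟨h, hh, k, hk, rfl⟩ := this
    exact ⟨h, hh, k, hk, rfl⟩
  let Y := {q : {p : H × H // Commute p.1 p.2} // q ≠ ⟨(1, 1), Commute.refl _⟩}
  let f : {p : K × K // Commute p.1 p.2} ⊕ (K × Y) → {p : G × G // Commute p.1 p.2} :=
    fun z => match z with
      | Sum.inl p => ⟨(p.1.1, p.1.2), p.2.map K.subtype⟩
      | Sum.inr (k, q) => ⟨(k * q.1.1.1 * (k : G)⁻¹, k * q.1.1.2 * (k : G)⁻¹),
          (q.1.2.map H.subtype).map (MulAut.conj (k : G))⟩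
  have hY : ∀ q : Y, (q.1.1.1 : G) ≠ 1 ∨ (q.1.1.2 : G) ≠ 1 := by
    rintro ⟨⟨⟨a, b⟩, hab⟩, hq⟩
    by_contra h
    push Not at h
    apply hq
    apply Subtype.ext
    exact Prod.ext (Subtype.ext h.1) (Subtype.ext h.2)
  have hconj : ∀ k ∈ K, ∀ a : G, ((k * a * k⁻¹ : G) : G ⧸ K) = a := by
    intro k hk a
    rw [QuotientGroup.mk_mul, QuotientGroup.mk_mul, QuotientGroup.mk_inv, hK1 k hk]; simp
  have hlr : ∀ p k q, f (Sum.inl p) ≠ f (Sum.inr (k, q)) := by
    intro p k q h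
    have h1 : (p.1.1 : G) = k * q.1.1.1 * (k : G)⁻¹ := congrArg (fun z => z.1.1) h
    have h2 : (p.1.2 : G) = k * q.1.1.2 * (k : G)⁻¹ := congrArg (fun z => z.1.2) h
    rcases hY q with h3 | h3
    · apply h3
      refine hmod _ q.1.1.1.2 _ H.one_mem ?_
      rw [← hconj k k.2, ← h1, hK1 _ p.1.1.2]; rfl
    · apply h3
      refine hmod _ q.1.1.2.2 _ H.one_mem ?_
      rw [← hconj k k.2, ← h2, hK1 _ p.1.2.2]; rfl
  have hinj : Function.Injective f := by
    rintro (p | ⟨k, q⟩) (p' | ⟨k', q'⟩) h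
    · have h1 : (p.1.1 : G) = p'.1.1 := congrArg (fun z => z.1.1) h
      have h2 : (p.1.2 : G) = p'.1.2 := congrArg (fun z => z.1.2) h
      congr 1
      exact Subtype.ext (Prod.ext (Subtype.ext h1) (Subtype.ext h2))
    · exact absurd h (hlr _ _ _)
    · exact absurd h.symm (hlr _ _ _)
    · have h1 : (k : G) * q.1.1.1 * (k : G)⁻¹ = k' * q'.1.1.1 * (k' : G)⁻¹ :=
        congrArg (fun z => z.1.1) h
      have h2 : (k : G) * q.1.1.2 * (k : G)⁻¹ = k' * q'.1.1.2 * (k' : G)⁻¹ :=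
        congrArg (fun z => z.1.2) h
      have e1 : (q.1.1.1 : G) = q'.1.1.1 := by
        refine hmod _ q.1.1.1.2 _ q'.1.1.1.2 ?_
        rw [← hconj k k.2, h1, hconj k' k'.2]
      have e2 : (q.1.1.2 : G) = q'.1.1.2 := by
        refine hmod _ q.1.1.2.2 _ q'.1.1.2.2 ?_
        rw [← hconj k k.2, h2, hconj k' k'.2]
      have key : ∀ a ∈ H, a ≠ 1 → (k : G) * a * (k : G)⁻¹ = k' * a * (k' : G)⁻¹ → k = k' := by
        intro a ha ha1 h
        have := hfpf a ha ha1 ((k' : G)⁻¹ * k) (K.mul_mem (K.inv_mem k'.2) k.2) (by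
          calc a * ((k' : G)⁻¹ * k) = (k' : G)⁻¹ * (k' * a * (k' : G)⁻¹) * k := by group
            _ = _ := by rw [← h]; group)
        exact Subtype.ext (inv_mul_eq_one.1 this).symm
      have e3 : k = k' := by
        rcases hY q with h3 | h3
        · exact key _ q.1.1.1.2 h3 (by rw [h1, e1])
        · exact key _ q.1.1.2.2 h3 (by rw [h2, e2])
      congr 2
      exact Subtype.ext (Subtype.ext (Prod.ext (Subtype.ext e1) (Subtype.ext e2)))
  have hmain : ∀ x y : G, Commute x y → x ∉ K →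
      ∃ k ∈ K, k⁻¹ * x * k ∈ H ∧ k⁻¹ * y * k ∈ H := by
    intro x y hxy hx
    obtain ⟨h, hh, k0, hk0, rfl⟩ := hdec x
    have hh1 : h ≠ 1 := by rintro rfl; exact hx (by simpa using hk0)
    obtain ⟨c, hc⟩ := isConj_iff.1 (Char.isConj_mul_of_centralizer_trivial K
      (fun k hk e => hfpf h hh hh1 k hk e.symm) hk0)
    obtain ⟨h2, hh2, k2, hk2, hc2⟩ := hdec c⁻¹
    have hx' : k2 * (h * k0) * k2⁻¹ = h2⁻¹ * h * h2 := by
      have : k2 = h2⁻¹ * c⁻¹ := by rw [hc2]; group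
      rw [this, ← hc]; group
    have hxH : k2 * (h * k0) * k2⁻¹ ∈ H := by
      rw [hx']; exact H.mul_mem (H.mul_mem (H.inv_mem hh2) hh) hh2
    refine ⟨k2⁻¹, K.inv_mem hk2, by simpa using hxH, ?_⟩
    rw [inv_inv]
    have hcomm : Commute (k2 * (h * k0) * k2⁻¹) (k2 * y * k2⁻¹) := hxy.map (MulAut.conj k2)
    have hne : k2 * (h * k0) * k2⁻¹ ≠ 1 := by rw [hx']; simpa [mul_assoc, inv_mul_eq_one] using hh1
    generalize k2 * (h * k0) * k2⁻¹ = a at hxH hcomm hne
    obtain ⟨h3, hh3, k3, hk3, hy⟩ := hdec (k2 * y * k2⁻¹)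
    rw [hy] at hcomm ⊢
    have e : a * h3 = h3 * a := by
      refine hmod _ (H.mul_mem hxH hh3) _ (H.mul_mem hh3 hxH) ?_
      have := congrArg (fun z : G => (z : G ⧸ K)) hcomm.eq
      simpa [QuotientGroup.mk_mul, hK1 k3 hk3] using this
    have : k3 = 1 := by
      refine hfpf a hxH hne k3 hk3 ?_
      apply mul_left_cancel (a := h3)
      rw [← mul_assoc, ← e, mul_assoc, hcomm.eq, mul_assoc]
    rw [this, mul_one]; exact hh3
  have hsurj : Function.Surjective f := by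
    rintro ⟨⟨x, y⟩, hxy⟩
    by_cases hb : x ∈ K ∧ y ∈ K
    · exact ⟨Sum.inl ⟨(⟨x, hb.1⟩, ⟨y, hb.2⟩), Subtype.ext hxy.eq⟩, rfl⟩
    · have : ∃ k ∈ K, k⁻¹ * x * k ∈ H ∧ k⁻¹ * y * k ∈ H := by
        by_cases hx : x ∈ K
        · obtain ⟨k, hk, h1, h2⟩ := hmain y x hxy.symm (fun hy => hb ⟨hx, hy⟩)
          exact ⟨k, hk, h2, h1⟩
        · exact hmain x y hxy hx
      obtain ⟨k, hk, h1, h2⟩ := this
      have hc : Commute (k⁻¹ * x * k) (k⁻¹ * y * k) := by
        simpa using hxy.map (MulAut.conj k⁻¹)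
      refine ⟨Sum.inr (⟨k, hk⟩, ⟨⟨(⟨_, h1⟩, ⟨_, h2⟩), Subtype.ext hc.eq⟩, ?_⟩), ?_⟩
      · intro h
        have e1 : k⁻¹ * x * k = 1 := congrArg (fun z => (z.1.1 : G)) h
        have e2 : k⁻¹ * y * k = 1 := congrArg (fun z => (z.1.2 : G)) h
        apply hb
        have : x = 1 := by simpa [mul_assoc, inv_mul_eq_one] using e1
        have : y = 1 := by simpa [mul_assoc, inv_mul_eq_one] using e2
        subst_vars
        exact ⟨K.one_mem, K.one_mem⟩
      · apply Subtype.ext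
        refine Prod.ext ?_ ?_
        · show k * (k⁻¹ * x * k) * k⁻¹ = x
          group
        · show k * (k⁻¹ * y * k) * k⁻¹ = y
          group
  have hcard := Nat.card_eq_of_bijective f ⟨hinj, hsurj⟩
  have hYc : Nat.card Y + 1 = Nat.card (ConjClasses H) * Nat.card H := by
    rw [← card_comm_eq_card_conjClasses_mul_card]
    have := Nat.card_congr (Equiv.optionSubtypeNe (⟨(1, 1), Commute.refl _⟩ : {p : H × H // Commute p.1 p.2}))
    rw [← this, Finite.card_option]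
  rw [Nat.card_sum, Nat.card_prod, card_comm_eq_card_conjClasses_mul_card,
    card_comm_eq_card_conjClasses_mul_card] at hcard
  have hG : Nat.card G = Nat.card K * Nat.card H := by
    have : K.IsComplement' H := Subgroup.isComplement'_of_disjoint_and_mul_eq_univ
      (disjoint_iff.2 hKH) (by rw [← Subgroup.normal_mul, hKH']; rfl)
    exact this.card_mul.symm
  rw [hG] at hcard
  have hK : 0 < Nat.card K := Nat.card_pos
  apply Nat.eq_of_mul_eq_mul_left hK
  nlinarith [hcard, hYc]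

end Cfsg.Agent.S0172
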