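import Cfsg.Statements.S0174
import Cfsg.Agent.CharDeep.Clifford

set_option autoImplicit false
open Cfsg

namespace Cfsg.Agent.S0174

/-- The Clifford Theorem for characters: if θ is an irreducible character of a finite group G, N is a normal subgroup and χ is an irreducible character of N occurring in the restriction of θ, then θ restricted to N equals e times the sum of the distinct G-conjugates of χ, where e is the inner product of the restriction with χ. -/
theorem result {G : Type*} [Group G] [Fintype G] (N : Subgroup G) [Fintype N] (hN : N.Normal) (θ : G → ℂ) (hθ : Cfsg.IsIrrCharacter G θ) (χ : N → ℂ) (hχ : Cfsg.IsIrrCharacter N χ) (hconst : Cfsg.classInner (fun n : N => θ n) χ ≠ 0) : (fun n : N => θ n) = Cfsg.classInner (fun n : N => θ n) χ • ∑ᶠ ψ ∈ {ψ : N → ℂ | ∃ g : G, ψ = fun n : N => χ ⟨g * n * g⁻¹, hN.conj_mem n n.2 g⟩}, ψ := by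
  classical
  conv_lhs => rw [CharDeep.res_eq_smul_sum_conjN N hθ hχ hconst]
  have h1 : {ψ : N → ℂ | ∃ g : G, ψ = fun n : N => χ ⟨g * n * g⁻¹, hN.conj_mem n n.2 g⟩} =
      ↑(Finset.univ.image fun g : G => CharDeep.conjN N g χ) := by
    ext ψ
    simp only [Set.mem_ofPred_eq, Finset.coe_image, Finset.coe_univ, Set.image_univ, Set.mem_range]
    exact ⟨fun ⟨g, h⟩ => ⟨g, h.symm⟩, fun ⟨g, h⟩ => ⟨g, h.symm⟩⟩
  rw [h1, finsum_mem_coe_finset, Finset.sum_comp (fun ψ => ψ) (fun g => CharDeep.conjN N g χ),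
    Finset.smul_sum, Finset.smul_sum]
  refine Finset.sum_congr rfl fun ψ hψ => ?_
  obtain ⟨b, -, rfl⟩ := Finset.mem_image.1 hψ
  have := CharDeep.card_filter_conjN_eq N χ b
  rw [← Nat.cast_smul_eq_nsmul ℂ, smul_smul]
  congr 1
  rw [div_mul_eq_mul_div, div_eq_iff (CharDeep.card_ne_zero' _), ← this]
  congr!

end Cfsg.Agent.S0174
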