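import Cfsg.Statements.S0175
import Cfsg.Agent.CharDeep.MGroup
import Cfsg.Agent.Char.Second
import Cfsg.Agent.Char.Central
import Mathlib.GroupTheory.Solvable

set_option autoImplicit false
open Cfsg

namespace Cfsg.Agent.S0175

/-- Taketa's Theorem on M-groups: if every irreducible complex character of a finite group is induced from a linear character (a homomorphism to ℂˣ) of some subgroup, the group is solvable. -/
theorem result {G : Type*} [Group G] [Fintype G] (hM : ∀ χ : G → ℂ, Cfsg.IsIrrCharacter G χ → ∃ (H : Subgroup G) (lam : H →* ℂˣ), χ = Cfsg.indFun H (fun h => (lam h : ℂ))) : Group.IsSolvable G := by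
  classical
  have key : ∀ d : ℕ, ∀ χ : G → ℂ, IsIrrCharacter G χ → charDegree χ ≤ d →
      ∀ g ∈ derivedSeries G d, χ g = χ 1 := by
    intro d
    induction d with
    | zero => intro χ hχ h; exact absurd hχ.charDegree_pos (by omega)
    | succ d ih =>
      intro χ hχ hd g hg
      obtain ⟨H, lam, rfl⟩ := hM χ hχ
      have hdeg : charDegree (indFun H fun h => (lam h : ℂ)) = H.index :=
        Char.charDegree_eq_of_apply_one (by simp [CharDeep.indFun_one])
      have hle : derivedSeries G d ≤ H := by
        intro x hx
        have hπ := CharDeep.isCharacter_indFun H (Char.isCharacter_one (G := H))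
        apply CharDeep.mem_of_indFun_apply_eq H Char.isCharacter_one one_ne_zero
        obtain ⟨ξ, hξ, hsum⟩ := hπ.exists_add_of_classInner_ne_zero Char.isIrrCharacter_one (by
          rw [CharDeep.classInner_indFun_left H _ (Char.isClassFunction_const 1),
            (Char.isIrrCharacter_one (G := H)).classInner_self]
          exact one_ne_zero)
        have h1 : charDegree ξ ≤ d := by
          have := congrFun hsum 1
          rw [CharDeep.indFun_one, Pi.add_apply, hξ.apply_one_eq_charDegree, mul_one] at this
          have h2 : H.index = 1 + charDegree ξ := by exact_mod_cast this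
          omega
        rw [hsum, Pi.add_apply, Pi.add_apply, hξ.isClassFunction.apply_eq_sum_irr x,
          hξ.isClassFunction.apply_eq_sum_irr 1]
        congr 1
        refine Finset.sum_congr rfl fun φ _ => ?_
        by_cases h : classInner ξ φ = 0
        · simp [h]
        · rw [ih φ φ.2 ?_ x hx]
          have := hξ.apply_one_re_le_of_classInner_ne_zero φ.2 h
          rw [hξ.apply_one_eq_charDegree, φ.2.apply_one_eq_charDegree] at this
          have h3 : charDegree (φ : G → ℂ) ≤ charDegree ξ := by simpa using this
          omega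
      have hle' : derivedSeries G (d + 1) ≤ H :=
        le_trans (Subgroup.commutator_le_left _ _) hle
      refine CharDeep.indFun_apply_eq_of_normal H _ (derivedSeries G (d + 1)) hle' ?_ hg
      intro m hm
      have h1 : derivedSeries G (d + 1) ≤ (lam.ker).map H.subtype := by
        rw [derivedSeries_succ, Subgroup.commutator_le]
        intro a ha b hb
        refine ⟨⟨a, hle ha⟩ * ⟨b, hle hb⟩ * ⟨a, hle ha⟩⁻¹ * ⟨b, hle hb⟩⁻¹, ?_, rfl⟩
        rw [SetLike.mem_coe, MonoidHom.mem_ker, map_mul, map_mul, map_mul, map_inv, map_inv,
          mul_inv_cancel_comm, mul_inv_cancel]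
      obtain ⟨y, hy, hym⟩ := h1 hm
      have : y = ⟨m, hle' hm⟩ := Subtype.ext hym
      rw [← this, MonoidHom.mem_ker.1 hy, map_one]
  refine ⟨⟨Nat.card G, ?_⟩⟩
  rw [eq_bot_iff]
  intro g hg
  exact Char.eq_one_of_forall_irr fun χ hχ =>
    key _ χ hχ (Nat.le_of_dvd Nat.card_pos hχ.charDegree_dvd_card) g hg

end Cfsg.Agent.S0175
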