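import Cfsg.Statements.S0177
import Cfsg.Agent.Block.Exc
import Cfsg.Agent.CharDeep.Ind

set_option autoImplicit false
open Cfsg

namespace Cfsg.Agent.S0177


open Cfsg.Agent.Char Cfsg.Agent.CharDeep Subgroup

/-- The Artin induction Theorem: for a character χ of a finite group, |G| • χ is a ℤ-linear combination of functions induced from homomorphisms of cyclic subgroups into ℂˣ. -/
theorem result {G : Type*} [Group G] [Fintype G] (χ : G → ℂ) (hχ : Cfsg.IsCharacter G χ) : ∃ l : List ((A : Subgroup G) × ((A →* ℂˣ) × ℤ)), (∀ t ∈ l, IsCyclic t.1) ∧ (Nat.card G : ℂ) • χ = (l.map fun t => (t.2.2 : ℂ) • Cfsg.indFun t.1 (fun a => (t.2.1 a : ℂ))).sum := by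
  classical
  let M : AddSubgroup (G → ℂ) :=
    { carrier := {f | ∃ l : List ((A : Subgroup G) × ((A →* ℂˣ) × ℤ)), (∀ t ∈ l, IsCyclic t.1) ∧
        f = (l.map fun t => (t.2.2 : ℂ) • Cfsg.indFun t.1 (fun a => (t.2.1 a : ℂ))).sum}
      zero_mem' := ⟨[], by simp⟩
      add_mem' := fun ⟨l, a, b⟩ ⟨m, c, d⟩ => ⟨l ++ m, by simpa [or_imp, forall_and] using ⟨a, c⟩, by simp [b, d]⟩
      neg_mem' := fun ⟨l, a, b⟩ => ⟨l.map fun t => ⟨t.1, t.2.1, -t.2.2⟩, List.forall_mem_map.2 a, by
        rw [b]; clear a b; induction l <;> simp_all [add_comm]⟩ }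
  have := Fintype.ofFinite (Subgroup G)
  let f : Subgroup G → G → ℂ := fun B g => ∑ x : G, if zpowers (x⁻¹ * g * x) = B then χ g else 0
  have h1 : ∀ A : Subgroup G, ∑ B with B ≤ A, f B = indFun A ((Nat.card A : ℂ) • fun a : A => χ a) := fun A => by
    ext g
    rw [indFun_smul, Pi.smul_apply, indFun_apply, smul_eq_mul, mul_inv_cancel_left₀ (card_ne_zero' A),
      Finset.sum_apply, Finset.sum_comm]
    refine Finset.sum_congr rfl fun x _ => ?_
    simp [extendByZero_apply, isClassFunction_conj' hχ.isClassFunction]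
  have h2 : ∀ A, f A ∈ M := fun A => by
    induction A using WellFoundedLT.induction with | _ A ih =>
    by_cases hA : IsCyclic A
    · obtain ⟨a, -, ha⟩ := Block.exists_int_expansion (A := A) (fun a b => mul_comm' a b)
        ((hχ.restrict A).natCast_smul (Nat.card A)).isGeneralizedCharacter
      rw [eq_sub_of_add_eq ((Finset.add_sum_erase _ f (a := A) (by simp)).trans (h1 A))]
      refine sub_mem ?_ (sum_mem fun B hB => ih B (by simpa [lt_iff_le_and_ne, and_comm] using hB))
      rw [show ((Nat.card A : ℂ) • fun a : A => χ a) = ∑ l : A →* ℂˣ, (a l : ℂ) • fun u => (l u : ℂ) from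
        funext fun u => by simpa using ha u, indFun_sum]
      exact sum_mem fun l _ => ⟨[⟨A, l, a l⟩], by simpa, by simp [indFun_smul]⟩
    · exact (funext fun g => Finset.sum_eq_zero fun x _ => if_neg fun e : zpowers _ = A => hA (e ▸ inferInstance) : f A = 0) ▸ zero_mem M
  have := sum_mem (t := {B | B ≤ ⊤}) fun B _ => h2 B
  rwa [h1, indFun_smul, indFun_top hχ.isClassFunction, card_top] at this

end Cfsg.Agent.S0177
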