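import Cfsg.Statements.S0180
import Cfsg.Agent.Char.Galois

set_option autoImplicit false
open Cfsg

namespace Cfsg.Agent.S0180


/-- Every irreducible complex character of a finite group takes only rational values if and only if g is conjugate to g ^ m for every element g and every m coprime to the group order. -/
theorem result {G : Type*} [Group G] [Finite G] : (∀ χ : Cfsg.IrrCharacter G, ∀ g : G, ∃ q : ℚ, (χ : G → ℂ) g = (q : ℂ)) ↔ ∀ m : ℕ, m.Coprime (Nat.card G) → ∀ g : G, IsConj g (g ^ m) := by
  constructor
  · intro h m hm g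
    obtain ⟨σ, hσ⟩ := Char.exists_ringEquiv_apply_pow hm
    refine (Char.isConj_iff_forall_irr _ _).mpr fun χ => ?_
    obtain ⟨q, hq⟩ := h χ g
    rw [hσ _ χ.2.isGeneralizedCharacter, hq, map_ratCast]
  · intro h χ g
    refine Char.exists_rat_of_fixed (Char.isAlgebraic_rat_of_isIntegral (χ.2.isCharacter.isIntegral g))
      fun σ => ?_
    obtain ⟨m, hm, hσ⟩ := Char.exists_pow_apply_eq_map (G := G) σ.toRingHom
    exact (hσ _ χ.2.isGeneralizedCharacter g).symm.trans
      (χ.2.isClassFunction.apply_eq_of_isConj (h m hm g)).symm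

end Cfsg.Agent.S0180
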