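import Cfsg.Statements.S0184
import Cfsg.Agent.Char.Misc
import Cfsg.Agent.PGrp.Basic

set_option autoImplicit false
open Cfsg

namespace Cfsg.Agent.S0184


/-- A finite p-group admits a faithful irreducible complex representation if and only if its centre is cyclic. -/
theorem result {G : Type*} [Group G] [Finite G] (p : ℕ) [Fact p.Prime] (hG : IsPGroup p G) : (∃ (n : ℕ) (ρ : Representation ℂ G (Fin n → ℂ)), ρ.IsIrreducible ∧ Function.Injective ρ) ↔ IsCyclic (Subgroup.center G) := by
  classical
  constructor
  · rintro ⟨n, ρ, hρ, hinj⟩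
    refine (Char.isIrrCharacter_character ρ).isCyclic_center ?_
    rw [Char.charKer_character, MonoidHom.ker_eq_bot_iff]
    exact hinj
  · intro hc
    suffices ∃ χ, IsIrrCharacter G χ ∧ Char.charKer χ = ⊥ by
      obtain ⟨χ, ⟨n, ρ, hρ, rfl⟩, h⟩ := this
      rw [Char.charKer_character, MonoidHom.ker_eq_bot_iff] at h
      exact ⟨n, ρ, hρ, h⟩
    rcases subsingleton_or_nontrivial G with h | h
    · exact ⟨_, Char.isIrrCharacter_one, Subsingleton.elim _ _⟩
    have hnt := hG.center_nontrivial
    have := Fintype.ofFinite (Subgroup.center G)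
    obtain ⟨w, hw⟩ := exists_prime_orderOf_dvd_card' (G := Subgroup.center G) p (by
      obtain ⟨n, hn, h⟩ := (hG.to_subgroup (Subgroup.center G)).nontrivial_iff_card.mp hnt
      exact h ▸ dvd_pow_self p hn.ne')
    have hw1 : (w : G) ≠ 1 := fun h => by
      rw [show w = 1 from Subtype.ext h, orderOf_one] at hw
      exact (Fact.out : p.Prime).one_lt.ne hw
    obtain ⟨χ, hχ, h1⟩ := Char.exists_irr_apply_ne hw1
    refine ⟨χ, hχ, ?_⟩
    by_contra hk
    have := hχ.isClassFunction.normal_charKer
    obtain ⟨x, hx, hx1, hxp, hxc⟩ := PGrp.exists_central_mod_pow hG (M := ⊥) (N := Char.charKer χ)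
      (by simpa using hk)
    rw [Subgroup.mem_bot] at hx1 hxp
    have hxz : x ∈ Subgroup.center G := Subgroup.mem_center_iff.mpr fun g =>
      (commutatorElement_eq_one_iff_mul_comm.mp (Subgroup.mem_bot.mp (hxc g))).symm
    let x' : Subgroup.center G := ⟨x, hxz⟩
    have hx' : orderOf x' = p := orderOf_eq_prime (Subtype.ext hxp) (fun h => hx1 (congrArg Subtype.val h))
    have h2 : (Subgroup.zpowers x' : Set (Subgroup.center G)).toFinset =
        Finset.univ.filter (fun a : Subgroup.center G => a ^ p = 1) := by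
      apply Finset.eq_of_subset_of_card_le
      · intro a ha
        obtain ⟨k, rfl⟩ := Subgroup.mem_zpowers_iff.mp (Set.mem_toFinset.mp ha)
        simp only [Finset.mem_filter, Finset.mem_univ, true_and]
        rw [← zpow_natCast, ← zpow_mul, mul_comm, zpow_mul, zpow_natCast, ← hx', pow_orderOf_eq_one,
          one_zpow]
      · rw [Set.toFinset_card, ← Nat.card_eq_fintype_card]
        exact (IsCyclic.card_pow_eq_one_le (Fact.out : p.Prime).pos).trans
          (hx'.symm.trans (Nat.card_zpowers x').symm).le
    have h3 : w ∈ Subgroup.zpowers x' := by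
      have : w ∈ Finset.univ.filter (fun a : Subgroup.center G => a ^ p = 1) := by
        simp [← hw]
      rw [← h2] at this
      exact Set.mem_toFinset.mp this
    obtain ⟨k, rfl⟩ := Subgroup.mem_zpowers_iff.mp h3
    exact h1 (hχ.isCharacter.mem_charKer.mp (zpow_mem hx k))

end Cfsg.Agent.S0184
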