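import Cfsg.Statements.S0186
import Cfsg.Agent.Char.Misc

set_option autoImplicit false
open Cfsg

namespace Cfsg.Agent.S0186


/-- Let G be a finite simple group of order n and p a prime dividing n. If G has more than n / p^2 conjugacy classes, then every Sylow p-subgroup of G is abelian. -/
theorem result {G : Type*} [Group G] [Finite G] [IsSimpleGroup G] (p : ℕ) [Fact p.Prime] (hp : p ∣ Nat.card G) (hmany : Nat.card G < p ^ 2 * Nat.card (ConjClasses G)) (P : Sylow p G) (a b : G) (ha : a ∈ P) (hb : b ∈ P) : a * b = b * a := by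
  classical
  by_cases h2 : p ^ 2 ∣ Nat.card G
  swap
  · obtain ⟨n, hn⟩ := IsPGroup.iff_card.mp P.isPGroup'
    have h3 : p ^ n ∣ Nat.card G := hn ▸ Subgroup.card_subgroup_dvd_card (P : Subgroup G)
    have h4 : n ≤ 1 := by
      by_contra h
      exact h2 ((pow_dvd_pow p (by omega)).trans h3)
    have : IsCyclic P := isCyclic_of_card_dvd_prime (p := p) (by
      have := pow_dvd_pow p h4
      rwa [pow_one, ← hn] at this)
    exact congrArg Subtype.val (mul_comm' (⟨a, ha⟩ : P) ⟨b, hb⟩)
  obtain ⟨χ, h1, hlt⟩ : ∃ χ : IrrCharacter G, χ ≠ Char.irrOne G ∧ charDegree χ.1 < p := by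
    by_contra H
    push Not at H
    have h3 := Char.sum_charDegree_sq (G := G)
    rw [← Finset.add_sum_erase _ _ (Finset.mem_univ (Char.irrOne G)),
      Char.charDegree_eq_of_apply_one (n := 1) (by simp)] at h3
    have h4 := Finset.card_nsmul_le_sum (Finset.univ.erase (Char.irrOne G))
      (fun χ => charDegree χ.1 ^ 2) (p ^ 2)
      (fun χ hχ => Nat.pow_le_pow_left (H χ (Finset.mem_erase.mp hχ).1) 2)
    rw [Finset.card_erase_of_mem (Finset.mem_univ _), Finset.card_univ, ← Nat.card_eq_fintype_card,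
      Char.card_irr_eq_card_conjClasses, smul_eq_mul] at h4
    obtain ⟨c, hc⟩ := h2
    have h5 : c < Nat.card (ConjClasses G) := by
      rw [hc] at hmany
      exact lt_of_mul_lt_mul_left hmany (Nat.zero_le _)
    have h6 : c * p ^ 2 ≤ (Nat.card (ConjClasses G) - 1) * p ^ 2 :=
      Nat.mul_le_mul_right _ (by omega)
    rw [mul_comm c, ← hc] at h6
    omega
  have hk := χ.2.charKer_eq_bot_of_simple fun h => h1 (Subtype.ext h)
  have hr := χ.2.isCharacter.restrict (P : Subgroup G)
  refine congrArg Subtype.val (hr.comm_of_faithful_of_lt ?_ ?_ ⟨a, ha⟩ ⟨b, hb⟩)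
  · rw [eq_bot_iff]
    intro x hx
    have : (x : G) ∈ Char.charKer χ.1 := χ.2.isCharacter.mem_charKer.mpr (hr.mem_charKer.mp hx)
    rw [hk] at this
    exact Subtype.ext this
  · intro q hq hd
    obtain ⟨n, hn⟩ := IsPGroup.iff_card.mp P.isPGroup'
    rw [hn] at hd
    rw [(Nat.prime_dvd_prime_iff_eq hq Fact.out).mp (hq.dvd_of_dvd_pow hd)]
    exact hlt

end Cfsg.Agent.S0186
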