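import Cfsg.Statements.S0194
import Cfsg.Agent.Char.FS
import Cfsg.Agent.CharDeep.Clifford

set_option autoImplicit false
open scoped ComplexConjugate
open Cfsg

namespace Cfsg.Agent.S0194


/-- Let G have odd order, H be a normal subgroup and θ a non-principal irreducible character of H. Then the function induced from θ is orthogonal to its complex conjugate. -/
theorem result {G : Type*} [Group G] [Fintype G] (hodd : Odd (Nat.card G)) (H : Subgroup G) [H.Normal] (θ : H → ℂ) (hθ : Cfsg.IsIrrCharacter H θ) (hθ1 : θ ≠ fun _ => 1) : Cfsg.classInner (fun g => conj (Cfsg.indFun H θ g)) (Cfsg.indFun H θ) = 0 := by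
  classical
  rw [← CharDeep.indFun_conj]
  refine CharDeep.classInner_indFun_indFun_eq_zero H hθ.conj hθ fun g hg => ?_
  have hodd' : Odd (Nat.card H) := hodd.of_dvd_nat (Subgroup.card_subgroup_dvd_card H)
  have h1 : CharDeep.conjN H g θ = fun h => conj (θ h) := by
    ext n
    have := congrArg conj (congrFun hg n)
    simpa [CharDeep.conjN] using this
  have h2 : g * g ∈ CharDeep.inertia H θ := by
    rw [CharDeep.mem_inertia, CharDeep.conjN_mul, h1, hg]
  have h3 : g ∈ CharDeep.inertia H θ := by
    obtain ⟨k, hk⟩ := hodd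
    have : g = (g * g) ^ (k + 1) := by
      rw [← sq, ← pow_mul, show 2 * (k + 1) = Nat.card G + 1 by omega, pow_succ, pow_card_eq_one',
        one_mul]
    rw [this]
    exact pow_mem h2 _
  rw [CharDeep.mem_inertia, h1] at h3
  exact hθ.conj_ne_of_odd hodd' hθ1 h3

end Cfsg.Agent.S0194
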