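import Cfsg.Statements.S0196
import Mathlib.GroupTheory.GroupAction.Quotient
import Mathlib.GroupTheory.Index
import Mathlib.Tactic.Group
import Mathlib.Data.Set.Card
import Mathlib.Algebra.BigOperators.Ring.Finset

set_option autoImplicit false
open Cfsg

namespace Cfsg.Agent.S0196

theorem index_dvd_card {N X : Type*} [Group N] [Finite X] [MulAction N X] (S : Subgroup N)
    (h : ∀ x : X, MulAction.stabilizer N x = S) : S.index ∣ Nat.card X := by
  classical
  have : Fintype X := Fintype.ofFinite X
  have e := MulAction.selfEquivSigmaOrbitsQuotientStabilizer N X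
  have : Fintype (MulAction.orbitRel.Quotient N X) := Fintype.ofFinite _
  have hf : ∀ ω : MulAction.orbitRel.Quotient N X, Finite (N ⧸ MulAction.stabilizer N ω.out) := by
    intro ω
    exact Finite.of_equiv _ (MulAction.orbitEquivQuotientStabilizer N ω.out)
  rw [Nat.card_congr e, Nat.card_sigma]
  refine Finset.dvd_sum fun ω _ => ?_
  rw [h]
  exact dvd_rfl

/-- Let A be a subgroup of a finite group G that equals the centralizer of each of its non-identity elements, and let N be its normalizer. Then the index of A in N divides |A| − 1 (N/A permutes the non-identity elements of A in orbits of full length). -/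
theorem result {G : Type*} [Group G] [Finite G] (A : Subgroup G) (hA : ∀ x ∈ A, x ≠ 1 → Subgroup.centralizer ({x} : Set G) = A) : (A.subgroupOf (Subgroup.normalizer (A : Set G))).index ∣ Nat.card A - 1 := by
  classical
  set N := Subgroup.normalizer (A : Set G) with hN
  let X := {x : G // x ∈ A ∧ x ≠ 1}
  letI : MulAction N X :=
    { smul := fun n x => ⟨n.1 * x.1 * n.1⁻¹, (Subgroup.mem_normalizer_iff.1 n.2 _).1 x.2.1,
        by simpa using x.2.2⟩
      one_smul := fun x => Subtype.ext (by show (1 : G) * x.1 * (1 : G)⁻¹ = x.1; group)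
      mul_smul := fun a b x => Subtype.ext (by
        show (a.1 * b.1) * x.1 * (a.1 * b.1)⁻¹ = a.1 * (b.1 * x.1 * b.1⁻¹) * a.1⁻¹; group) }
  have hX : Nat.card X = Nat.card A - 1 := by
    have : Nat.card X = ((A : Set G) \ {1}).ncard := by
      rw [← Nat.card_coe_set_eq]; rfl
    rw [this, Set.ncard_diff_singleton_of_mem (by simp), ← Nat.card_coe_set_eq]
    rfl
  rw [← hX]
  refine index_dvd_card _ fun x => ?_
  ext n
  rw [MulAction.mem_stabilizer_iff, Subgroup.mem_subgroupOf, Subtype.ext_iff]
  conv_rhs => rw [← hA x.1 x.2.1 x.2.2]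
  rw [Subgroup.mem_centralizer_singleton_iff]
  show n.1 * x.1 * n.1⁻¹ = x.1 ↔ _
  rw [mul_inv_eq_iff_eq_mul]

end Cfsg.Agent.S0196
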