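import Cfsg.Statements.S0210
import Cfsg.Agent.Invol.Basic

set_option autoImplicit false
open Cfsg

namespace Cfsg.Agent.S0210

/-- If x, y are involutions whose product has even order, no element of the subgroup generated by x and y conjugates x to y. -/
theorem result {G : Type*} [Group G] [Finite G] (x y : G) (hx : orderOf x = 2) (hy : orderOf y = 2) (heven : Even (orderOf (x * y))) (d : G) (hd : d ∈ Subgroup.closure ({x, y} : Set G)) : d * x * d⁻¹ ≠ y := by
  open Cfsg.Agent.Invol in
  have hx2 := mul_self_of hx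
  have hy2 := mul_self_of hy
  have hi := conj_prod_left hx2 hy2
  have key : ∀ k : ℤ, x * (x * y) ^ (2 * k) ≠ y := by
    intro k h
    have h1 : (x * y) ^ (2 * k) = (x * y) ^ (1 : ℤ) := by
      rw [zpow_one]
      conv_rhs => rw [← h]
      rw [mul_self_cancel hx2]
    rw [zpow_eq_zpow_iff_modEq] at h1
    obtain ⟨m, hm⟩ := heven
    obtain ⟨c, hc⟩ := h1.dvd
    rw [hm] at hc
    push_cast at hc
    have : (1 : ℤ) = 2 * (k + m * c) := by linarith
    omega
  obtain ⟨k, rfl | rfl⟩ := (mem_closure_pair_iff hx2 hy2 d).1 hd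
  · rw [zpow_conj_of_inverts hi, ← mul_neg]
    exact key _
  · intro h
    apply key k
    rw [← h]
    conv_lhs => rw [h]
    rw [inv_eq_of_mul_self (mul_zpow_sq_of_inverts hx2 hi k), mul_assoc, mul_self_cancel hx2,
      mul_assoc, ← zpow_add, two_mul]

end Cfsg.Agent.S0210
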