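import Cfsg.Statements.S0211
import Cfsg.Agent.Invol.Basic

set_option autoImplicit false
open Cfsg

namespace Cfsg.Agent.S0211

/-- Let x, y be involutions with xy of even order n and z = (xy)^(n/2). Then xz is conjugate to x by an element of the subgroup generated by x, y if and only if 4 divides n. -/
theorem result {G : Type*} [Group G] [Finite G] (x y : G) (hx : orderOf x = 2) (hy : orderOf y = 2) (heven : Even (orderOf (x * y))) : (∃ d ∈ Subgroup.closure ({x, y} : Set G), d * x * d⁻¹ = x * (x * y) ^ (orderOf (x * y) / 2)) ↔ 4 ∣ orderOf (x * y) := by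
  open Cfsg.Agent.Invol in
  have hx2 := mul_self_of hx
  have hy2 := mul_self_of hy
  have hi := conj_prod_left hx2 hy2
  obtain ⟨m, hm⟩ := heven
  have hm2 : orderOf (x * y) / 2 = m := by omega
  rw [hm2]
  have key : ∀ k : ℤ, x * (x * y) ^ (2 * k) = x * (x * y) ^ m → 4 ∣ orderOf (x * y) := by
    intro k h
    have h1 : (x * y) ^ (2 * k) = (x * y) ^ (m : ℤ) := by
      rw [zpow_natCast]; exact mul_left_cancel h
    rw [zpow_eq_zpow_iff_modEq] at h1
    obtain ⟨c, hc⟩ := h1.dvd
    rw [hm] at hc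
    push_cast at hc
    have : (m : ℤ) = 2 * (k + m * c) := by linarith
    omega
  constructor
  · rintro ⟨d, hd, h⟩
    obtain ⟨k, rfl | rfl⟩ := (mem_closure_pair_iff hx2 hy2 d).1 hd
    · rw [zpow_conj_of_inverts hi, ← mul_neg] at h
      exact key _ h
    · apply key k
      rw [← h, inv_eq_of_mul_self (mul_zpow_sq_of_inverts hx2 hi k), mul_assoc (x * _),
        mul_self_cancel hx2, mul_assoc x, ← zpow_add, two_mul]
  · rintro ⟨c, hc⟩
    refine ⟨(x * y) ^ (-(c : ℤ)), (mem_closure_pair_iff hx2 hy2 _).2 ⟨_, Or.inl rfl⟩, ?_⟩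
    rw [zpow_conj_of_inverts hi, ← zpow_natCast]
    congr 2
    omega

end Cfsg.Agent.S0211
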