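import Cfsg.Statements.S0236
import Cfsg.Agent.Invol.Basic

set_option autoImplicit false
open Cfsg

namespace Cfsg.Agent.S0236

/-- If x is an involution, the number of ordered pairs (u, v) of involutions with uv = x, plus one, equals the number of involutions in the centralizer of x. -/
theorem result {G : Type*} [Group G] [Finite G] (x : G) (hx : orderOf x = 2) : Nat.card {p : G × G // orderOf p.1 = 2 ∧ orderOf p.2 = 2 ∧ p.1 * p.2 = x} + 1 = Nat.card {t : G // orderOf t = 2 ∧ Commute t x} := by
  open Cfsg.Agent.Invol in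
  classical
  have := Fintype.ofFinite G
  have hx2 := mul_self_of hx
  have e : Nat.card {p : G × G // orderOf p.1 = 2 ∧ orderOf p.2 = 2 ∧ p.1 * p.2 = x} =
      Nat.card {t : G // (orderOf t = 2 ∧ Commute t x) ∧ t ≠ x} := by
    refine Nat.card_congr ⟨fun p => ⟨p.1.1, ⟨p.2.1, ?_⟩, ?_⟩,
      fun t => ⟨(t.1, t.1 * x), t.2.1.1, ?_, ?_⟩, fun p => ?_, fun t => rfl⟩
    · obtain ⟨⟨u, v⟩, hu, hv, rfl⟩ := p
      exact (commute_of_inverts_of_mul_self (conj_prod_left (mul_self_of hu) (mul_self_of hv))
        hx2).symm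
    · obtain ⟨⟨u, v⟩, hu, hv, rfl⟩ := p
      intro h
      exact ne_one_of hv (by simpa using h.symm)
    · exact orderOf_mul_of_commute (mul_self_of t.2.1.1) hx2 t.2.1.2 t.2.2
    · exact mul_self_cancel (mul_self_of t.2.1.1) x
    · obtain ⟨⟨u, v⟩, hu, hv, rfl⟩ := p
      exact Subtype.ext (Prod.ext rfl (mul_self_cancel (mul_self_of hu) v))
  rw [e, card_subtype_eq_filter, card_subtype_eq_filter,
    ← Finset.card_insert_of_notMem (a := x) (by simp)]
  congr 1
  ext t
  simp only [Finset.mem_filter, Finset.mem_univ, true_and, Finset.mem_insert]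
  by_cases ht : t = x
  · simp [ht, hx]
  · simp [ht]

end Cfsg.Agent.S0236
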