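import Cfsg.Statements.S0238
import Cfsg.Agent.Invol.Basic
import Cfsg.Agent.S0236

set_option autoImplicit false
open Cfsg

namespace Cfsg.Agent.S0238

/-- For every x in a finite group G, the number c of ordered pairs (u, v) of involutions with uv = x is at most |C_G(x)|; c = 0 when x is not conjugate to x⁻¹; and c + 2 ≤ |C_G(x)| when x is an involution. -/
theorem result {G : Type*} [Group G] [Finite G] (x : G) : Nat.card {p : G × G // orderOf p.1 = 2 ∧ orderOf p.2 = 2 ∧ p.1 * p.2 = x} ≤ Nat.card (Subgroup.centralizer ({x} : Set G)) ∧ (¬ IsConj x x⁻¹ → Nat.card {p : G × G // orderOf p.1 = 2 ∧ orderOf p.2 = 2 ∧ p.1 * p.2 = x} = 0) ∧ (orderOf x = 2 → Nat.card {p : G × G // orderOf p.1 = 2 ∧ orderOf p.2 = 2 ∧ p.1 * p.2 = x} + 2 ≤ Nat.card (Subgroup.centralizer ({x} : Set G))) := by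
  open Cfsg.Agent.Invol in
  have h1 : ∀ p : {p : G × G // orderOf p.1 = 2 ∧ orderOf p.2 = 2 ∧ p.1 * p.2 = x},
      p.1.1 * x * p.1.1⁻¹ = x⁻¹ := by
    rintro ⟨⟨u, v⟩, hu, hv, rfl⟩
    exact conj_prod_left (mul_self_of hu) (mul_self_of hv)
  have h2 : ¬ IsConj x x⁻¹ →
      Nat.card {p : G × G // orderOf p.1 = 2 ∧ orderOf p.2 = 2 ∧ p.1 * p.2 = x} = 0 := by
    intro h
    have : IsEmpty {p : G × G // orderOf p.1 = 2 ∧ orderOf p.2 = 2 ∧ p.1 * p.2 = x} :=
      ⟨fun p => h (isConj_iff.2 ⟨_, h1 p⟩)⟩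
    exact Nat.card_of_isEmpty
  refine ⟨?_, h2, fun hx => ?_⟩
  · by_cases h : IsConj x x⁻¹
    · rw [← card_conjugating h]
      refine Nat.card_le_card_of_injective (fun p => ⟨p.1.1, h1 p⟩) ?_
      rintro ⟨⟨u, v⟩, hu, hv, h⟩ ⟨⟨u', v'⟩, hu', hv', h'⟩ he
      have he : u = u' := congrArg Subtype.val he
      subst he
      dsimp only at h h'
      have : v = v' := mul_left_cancel (h.trans h'.symm)
      subst this
      rfl
    · rw [h2 h]; exact Nat.zero_le _
  · rw [show ∀ a : ℕ, a + 2 = a + 1 + 1 from fun a => rfl, S0236.result x hx,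
      ← card_mul_self_eq_one (fun t => Commute t x) (Commute.one_left x)]
    refine Nat.card_le_card_of_injective (fun t => ⟨t.1, mem_centralizer_singleton.2 t.2.2⟩) ?_
    intro a b h
    exact Subtype.ext (by simpa using h)

end Cfsg.Agent.S0238
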