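import Cfsg.Statements.S0233
import Cfsg.Agent.Invol.Basic
import Cfsg.Agent.S0238
import Mathlib.GroupTheory.IndexNormal

set_option autoImplicit false
open Cfsg

namespace Cfsg.Agent.S0233

/-- The extended centralizer. -/
def ext {G : Type*} [Group G] (x : G) : Subgroup G where
  carrier := {g | Commute g x ∨ g * x * g⁻¹ = x⁻¹}
  one_mem' := Or.inl (Commute.one_left x)
  mul_mem' := by
    rintro a b (ha | ha) (hb | hb)
    · exact Or.inl (ha.mul_left hb)
    · exact Or.inr (Invol.inverts_commute_mul hb ha)
    · exact Or.inr (Invol.inverts_mul_of_commute ha hb)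
    · exact Or.inl (Invol.commute_mul_of_inverts ha hb)
  inv_mem' := by
    rintro a (ha | ha)
    · exact Or.inl ha.inv_left
    · exact Or.inr (Invol.inv_inverts ha)

theorem relIndex_ext {G : Type*} [Group G] {x t : G} (hx : x * x ≠ 1) (ht : t * x * t⁻¹ = x⁻¹) :
    (Subgroup.centralizer ({x} : Set G)).relIndex (ext x) = 2 := by
  have key : ∀ g : G, Commute g x → g * x * g⁻¹ = x⁻¹ → False := by
    intro g h1 h2
    rw [h1.eq, mul_inv_cancel_right] at h2
    apply hx
    nth_rewrite 1 [h2]
    exact inv_mul_cancel x
  rw [Subgroup.relIndex, Subgroup.index_eq_two_iff]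
  refine ⟨⟨t, Or.inr ht⟩, ?_⟩
  rintro ⟨b, hb⟩
  simp only [Subgroup.mem_subgroupOf, Invol.mem_centralizer_singleton, Subgroup.coe_mul]
  rcases hb with hb | hb
  · exact Or.inr ⟨hb, fun h => key _ h (Invol.inverts_commute_mul ht hb)⟩
  · exact Or.inl ⟨Invol.commute_mul_of_inverts hb ht, fun h => key _ h hb⟩

/-- Let G be a finite group of even order with exactly n involutions whose centre has odd order, and put a = |G|/n. Then G has a proper subgroup H with |G : H| = 2 or |G : H| < a(a+1)/2; over ℕ the latter reads 2·|G:H|·n² < |G|·(|G| + n). -/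
theorem result {G : Type*} [Group G] [Finite G] (heven : Even (Nat.card G)) (hZ : Odd (Nat.card (Subgroup.center G))) : ∃ H : Subgroup G, H ≠ ⊤ ∧ (H.index = 2 ∨ 2 * H.index * (Nat.card {t : G // orderOf t = 2}) ^ 2 < Nat.card G * (Nat.card G + Nat.card {t : G // orderOf t = 2})) := by
  open Cfsg.Agent.Invol in
  classical
  have := Fintype.ofFinite G
  by_contra hcon
  push Not at hcon
  set n := Nat.card {t : G // orderOf t = 2} with hn
  set g := Nat.card G with hg
  have hgpos : 0 < g := Nat.card_pos
  have hnpos : 0 < n := by
    obtain ⟨t, ht⟩ := exists_invol_of_even heven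
    have : Nonempty {t : G // orderOf t = 2} := ⟨⟨t, ht⟩⟩
    exact Nat.card_pos
  let c : G → ℕ := fun x => Nat.card {p : G × G // orderOf p.1 = 2 ∧ orderOf p.2 = 2 ∧ p.1 * p.2 = x}
  have hbound : ∀ H : Subgroup G, H ≠ ⊤ → Nat.card H * (g + n) ≤ 2 * n ^ 2 := by
    intro H hH
    have h1 := (hcon H hH).2
    have h2 : H.index * Nat.card H = g := H.index_mul_card
    have h3 : 0 < H.index := Nat.pos_of_ne_zero Subgroup.index_ne_zero_of_finite
    rw [← h2] at h1
    nth_rewrite 2 [h2] at h1
    refine Nat.le_of_mul_le_mul_left ?_ h3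
    calc H.index * (Nat.card H * (g + n)) = H.index * Nat.card H * (g + n) := by ring
      _ ≤ 2 * H.index * n ^ 2 := h1
      _ = _ := by ring
  have hnf : (Finset.univ.filter fun t : G => orderOf t = 2).card = n := (card_subtype_eq_filter _).symm
  have hsum : ∑ x, c x = n ^ 2 := by
    have h1 := Finset.card_eq_sum_card_fiberwise (f := fun p : G × G => p.1 * p.2)
      (s := (Finset.univ.filter fun t : G => orderOf t = 2) ×ˢ
        (Finset.univ.filter fun t : G => orderOf t = 2)) (t := Finset.univ)
      (fun _ _ => Finset.mem_univ _)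
    rw [Finset.card_product, hnf, ← pow_two] at h1
    rw [h1]
    refine Finset.sum_congr rfl fun x _ => ?_
    simp only [c]
    rw [card_subtype_eq_filter]
    congr 1
    ext p
    simp [and_assoc]
  have hpt : ∀ x : G, (c x + (if orderOf x = 2 then 2 else 0)) * (g + n) + (if x = 1 then n ^ 2 else 0)
      ≤ n ^ 2 + (if orderOf x = 2 then n ^ 2 else 0) + (if x = 1 then n * (g + n) else 0) := by
    intro x
    by_cases hx1 : x = 1
    · subst hx1
      have : c 1 ≤ n := by
        refine Nat.card_le_card_of_injective (fun p => ⟨p.1.1, p.2.1⟩) ?_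
        rintro ⟨⟨u, v⟩, hu, hv, h⟩ ⟨⟨u', v'⟩, hu', hv', h'⟩ he
        have he : u = u' := congrArg Subtype.val he
        subst he
        dsimp only at h h'
        have : v = v' := mul_left_cancel (h.trans h'.symm)
        subst this
        rfl
      simp only [orderOf_one, OfNat.one_ne_ofNat, if_false, if_true, add_zero]
      rw [add_comm]
      gcongr
    · by_cases hx2 : orderOf x = 2
      · simp only [hx1, hx2, if_true, if_false, add_zero]
        have h1 := hbound (Subgroup.centralizer {x}) (fun h => by
          have : x ∈ Subgroup.center G := Subgroup.mem_center_iff.2 fun y =>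
            mem_centralizer_singleton.1 (h ▸ Subgroup.mem_top y)
          exact (odd_card_iff.1 hZ) x this hx2)
        have h2 := (S0238.result x).2.2 hx2
        calc _ ≤ Nat.card (Subgroup.centralizer ({x} : Set G)) * (g + n) := Nat.mul_le_mul_right _ h2
          _ ≤ _ := by omega
      · simp only [hx1, hx2, if_false, add_zero]
        by_cases hr : IsConj x x⁻¹
        · obtain ⟨t, ht⟩ := isConj_iff.1 hr
          have hxx : x * x ≠ 1 := fun h => hx2 (orderOf_two_iff.2 ⟨h, hx1⟩)
          have h1 := relIndex_ext hxx ht
          have hle : Subgroup.centralizer ({x} : Set G) ≤ ext x := fun y hy =>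
            Or.inl (mem_centralizer_singleton.1 hy)
          have h2 : ext x ≠ ⊤ := by
            intro h
            rw [h, Subgroup.relIndex_top_right] at h1
            refine (hcon _ ?_).1 h1
            intro h0
            rw [h0] at h1
            simp at h1
          have h3 := hbound _ h2
          have h4 := ((Subgroup.centralizer ({x} : Set G)).subgroupOf (ext x)).card_mul_index
          rw [Nat.card_congr (Subgroup.subgroupOfEquivOfLe hle).toEquiv] at h4
          change _ * Subgroup.relIndex _ _ = _ at h4
          rw [h1] at h4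
          rw [← h4] at h3
          have h5 := Nat.mul_le_mul_right (g + n) (S0238.result x).1
          change c x * _ ≤ _ at h5
          nlinarith
        · have : c x = 0 := (S0238.result x).2.1 hr
          simp [this]
  have := Finset.sum_le_sum fun x (_ : x ∈ Finset.univ) => hpt x
  simp only [Finset.sum_add_distrib, ← Finset.sum_mul, hsum, Finset.sum_ite_eq', Finset.mem_univ,
    if_true, Finset.sum_const, smul_eq_mul, ← Finset.sum_filter, hnf, Finset.card_univ,
    ← Nat.card_eq_fintype_card, ← hg] at this
  nlinarith

end Cfsg.Agent.S0233
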