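import Cfsg.Statements.S0212
import Cfsg.Agent.Invol.Basic
import Cfsg.Agent.S0233
import Mathlib.GroupTheory.SpecificGroups.Cyclic

set_option autoImplicit false
open Cfsg

namespace Cfsg.Agent.S0212

theorem card_le_factorial {G : Type*} [Group G] [Finite G] [IsSimpleGroup G] {H : Subgroup G}
    (hH : H ≠ ⊤) : Nat.card G ∣ H.index.factorial := by
  have h1 : H.normalCore = ⊥ := (Subgroup.Normal.eq_bot_or_eq_top inferInstance).resolve_right
    fun h => hH (top_le_iff.1 (h ▸ H.normalCore_le))
  have hf : Function.Injective (MulAction.toPermHom G (G ⧸ H)) := by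
    rw [← MonoidHom.ker_eq_bot_iff, ← Subgroup.normalCore_eq_ker, h1]
  have := Subgroup.card_dvd_of_injective _ hf
  rwa [Nat.card_perm] at this

theorem odd_center {G : Type*} [Group G] [Finite G] [IsSimpleGroup G] (h : 2 < Nat.card G) :
    Odd (Nat.card (Subgroup.center G)) := by
  rw [Invol.odd_card_iff]
  intro z hz hz2
  have : (Subgroup.zpowers z).Normal := ⟨fun n hn g => by
      rw [Subgroup.mem_center_iff.1 (Subgroup.zpowers_le.2 hz hn) g, mul_inv_cancel_right]; exact hn⟩
  rcases this.eq_bot_or_eq_top with h1 | h1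
  · exact Invol.ne_one_of hz2 (by simpa using h1)
  · have := Nat.card_zpowers z
    rw [h1, Subgroup.card_top] at this
    omega

/-- The Brauer–Fowler bound: if G is a finite simple group and t an involution of G whose centralizer has order n, then |G| ≤ (2n^2)!. -/
theorem result {G : Type*} [Group G] [Finite G] [IsSimpleGroup G] (t : G) (ht : orderOf t = 2) : Nat.card G ≤ Nat.factorial (2 * (Nat.card (Subgroup.centralizer ({t} : Set G))) ^ 2) := by
  open Cfsg.Agent.Invol in
  set c := Nat.card (Subgroup.centralizer ({t} : Set G)) with hc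
  have hcpos : 0 < c := Nat.card_pos
  by_cases h2 : Nat.card G ≤ 2
  · exact h2.trans ((by nlinarith : 2 ≤ 2 * c ^ 2).trans (Nat.self_le_factorial _))
  push Not at h2
  obtain ⟨H, hH, h⟩ := S0233.result (even_iff_two_dvd.2 (ht ▸ orderOf_dvd_natCard t)) (odd_center h2)
  refine (Nat.le_of_dvd (Nat.factorial_pos _) (card_le_factorial hH)).trans (Nat.factorial_le ?_)
  rcases h with h | h
  · nlinarith
  · set n := Nat.card {t : G // orderOf t = 2}
    have h1 : Nat.card G ≤ n * c := by
      rw [← card_class_mul_card_centralizer t]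
      refine Nat.mul_le_mul_right _ (Nat.card_le_card_of_injective
        (fun y => ⟨y.1, by rw [← orderOf_of_isConj y.2, ht]⟩) ?_)
      intro a b h
      exact Subtype.ext (by simpa using h)
    have h3 : 2 * H.index * n ^ 2 < (c * (c + 1)) * n ^ 2 :=
      calc _ < _ := h
        _ ≤ n * c * (n * c + n) := by gcongr
        _ = _ := by ring
    have h4 := Nat.lt_of_mul_lt_mul_right h3
    nlinarith

end Cfsg.Agent.S0212
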