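import Cfsg.Statements.S0213
import Cfsg.Agent.Invol.Basic

set_option autoImplicit false
open Cfsg

namespace Cfsg.Agent.S0213

/-- Thompson Order Formula, two-class case: if every involution of the finite group G is conjugate to exactly one of the non-conjugate involutions x₁, x₂, and nᵢ is the number of pairs (u, v) with u conjugate to x₁, v conjugate to x₂ and xᵢ in the cyclic group generated by uv, then |G| = |C(x₂)| n₁ + |C(x₁)| n₂. -/
theorem result {G : Type*} [Group G] [Finite G] (x₁ x₂ : G) (h₁ : orderOf x₁ = 2) (h₂ : orderOf x₂ = 2) (hnc : ¬ IsConj x₁ x₂) (hall : ∀ t : G, orderOf t = 2 → IsConj x₁ t ∨ IsConj x₂ t) : Nat.card G = Nat.card (Subgroup.centralizer ({x₂} : Set G)) * Nat.card {p : G × G // IsConj x₁ p.1 ∧ IsConj x₂ p.2 ∧ x₁ ∈ Subgroup.zpowers (p.1 * p.2)} + Nat.card (Subgroup.centralizer ({x₁} : Set G)) * Nat.card {p : G × G // IsConj x₁ p.1 ∧ IsConj x₂ p.2 ∧ x₂ ∈ Subgroup.zpowers (p.1 * p.2)} := by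
  open Cfsg.Agent.Invol in
  classical
  have := Fintype.ofFinite G
  let N : G → ℕ := fun z =>
    Nat.card {p : G × G // IsConj x₁ p.1 ∧ IsConj x₂ p.2 ∧ z ∈ Subgroup.zpowers (p.1 * p.2)}
  have hN : ∀ x z : G, IsConj x z → N z = N x := by
    intro x z h
    obtain ⟨g, rfl⟩ := isConj_iff.1 h
    symm
    refine Nat.card_congr (Equiv.subtypeEquiv
      (Equiv.prodCongr (MulAut.conj g).toEquiv (MulAut.conj g).toEquiv) fun p => ?_)
    have e : ∀ a b : G, IsConj a (g * b * g⁻¹) ↔ IsConj a b := fun a b =>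
      ⟨fun h => h.trans (isConj_iff.2 ⟨g, rfl⟩ : IsConj b _).symm,
        fun h => h.trans (isConj_iff.2 ⟨g, rfl⟩)⟩
    have e2 : g * p.1 * g⁻¹ * (g * p.2 * g⁻¹) = g * (p.1 * p.2) * g⁻¹ := by group
    simp only [Equiv.prodCongr_apply, Prod.map_fst, Prod.map_snd, MulEquiv.toEquiv_eq_coe,
      EquivLike.coe_coe, MulAut.conj_apply, e, e2, Subgroup.mem_zpowers_iff, conj_zpow,
      mul_left_inj, mul_right_inj]
  let A := Finset.univ.filter fun y : G => IsConj x₁ y
  let B := Finset.univ.filter fun y : G => IsConj x₂ y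
  have hdisj : Disjoint A B := by
    rw [Finset.disjoint_filter]
    exact fun y _ h1 h2 => hnc (h1.trans h2.symm)
  have h1 := Finset.card_eq_sum_card_fiberwise
    (f := fun p : G × G => (p.1 * p.2) ^ (orderOf (p.1 * p.2) / 2)) (s := A ×ˢ B) (t := A ∪ B) (by
      intro p hp
      simp only [A, B, Finset.coe_product, Finset.coe_filter, Finset.mem_univ, true_and,
        Set.mem_prod, Set.mem_ofPred_eq, Finset.coe_union, Set.mem_union] at hp ⊢
      refine hall _ (orderOf_pow_half (orderOf_pos _).ne' (Nat.not_odd_iff_even.1 fun ho => hnc ?_))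
      exact hp.1.trans ((isConj_of_odd (mul_self_of (by rw [← orderOf_of_isConj hp.1, h₁]))
        (mul_self_of (by rw [← orderOf_of_isConj hp.2, h₂])) ho).trans hp.2.symm))
  have h2 : ∀ z : G, orderOf z = 2 → ((A ×ˢ B).filter fun p : G × G =>
      (p.1 * p.2) ^ (orderOf (p.1 * p.2) / 2) = z).card = N z := by
    intro z hz
    simp only [N]
    rw [card_subtype_eq_filter]
    congr 1
    ext p
    simp only [A, B, Finset.mem_filter, Finset.mem_product, Finset.mem_univ, true_and, and_assoc]
    refine and_congr_right fun _ => and_congr_right fun _ => ⟨fun h => h ▸ Subgroup.npow_mem_zpowers _ _, fun h => ?_⟩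
    obtain ⟨k, rfl⟩ := Subgroup.mem_zpowers_iff.1 h
    set r := p.1 * p.2
    have h3 := mul_self_of hz
    rw [← zpow_add, ← orderOf_dvd_iff_zpow_eq_one] at h3
    have h4 := ne_one_of hz
    rw [Ne, ← orderOf_dvd_iff_zpow_eq_one] at h4
    rw [← zpow_natCast, zpow_eq_zpow_iff_modEq, Int.modEq_iff_dvd]
    obtain ⟨c, hc⟩ := h3
    rcases Int.even_or_odd' c with ⟨d, rfl | rfl⟩
    · exact absurd ⟨d, by linarith⟩ h4
    · have : (2 : ℤ) ∣ orderOf r := ⟨k - orderOf r * d, by linarith⟩
      obtain ⟨m, hm⟩ := this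
      refine ⟨d, ?_⟩
      push_cast
      have : (orderOf r : ℤ) / 2 = m := by omega
      rw [this]
      nlinarith
  rw [Finset.sum_union hdisj, Finset.sum_congr rfl (g := fun _ => N x₁) (fun z hz => by
      have hz := (Finset.mem_filter.1 hz).2
      rw [h2 z (by rw [← orderOf_of_isConj hz, h₁]), hN _ _ hz]),
    Finset.sum_congr rfl (s₁ := B) (g := fun _ => N x₂) (fun z hz => by
      have hz := (Finset.mem_filter.1 hz).2
      rw [h2 z (by rw [← orderOf_of_isConj hz, h₂]), hN _ _ hz]),
    Finset.card_product, Finset.sum_const, Finset.sum_const, smul_eq_mul, smul_eq_mul] at h1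
  have hA := card_class_mul_card_centralizer x₁
  have hB := card_class_mul_card_centralizer x₂
  rw [card_subtype_eq_filter] at hA hB
  change A.card * _ = _ at hA
  change B.card * _ = _ at hB
  change _ = _ * N x₁ + _ * N x₂
  have hpos : 0 < Nat.card G := Nat.card_pos
  refine Nat.eq_of_mul_eq_mul_left hpos ?_
  calc Nat.card G * Nat.card G = (A.card * B.card) * Nat.card (Subgroup.centralizer ({x₁} : Set G)) *
      Nat.card (Subgroup.centralizer ({x₂} : Set G)) := by
        conv_lhs => rw [← hA]; arg 2; rw [hA, ← hB]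
        ring
    _ = _ := by
      rw [h1, mul_add (Nat.card G)]
      nth_rewrite 1 [← hA]
      rw [← hB]
      ring

end Cfsg.Agent.S0213
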