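import Cfsg.Statements.S0216
import Cfsg.Agent.Invol.Isolated

set_option autoImplicit false
open Cfsg

namespace Cfsg.Agent.S0216

/-- For an involution u in a Sylow 2-subgroup P of a finite group G, the following are equivalent: no G-conjugate of u other than u lies in P; every commutator of u with an element of G has odd order. -/
theorem result {G : Type*} [Group G] [Finite G] (P : Sylow 2 G) (u : G) (hu : orderOf u = 2) (huP : u ∈ P) : (∀ g : G, g * u * g⁻¹ ∈ P → g * u * g⁻¹ = u) ↔ (∀ g : G, Odd (orderOf (u * g * u⁻¹ * g⁻¹))) := by
  open Cfsg.Agent.Invol in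
  rw [← isolated_iff_sylow P hu huP]
  constructor
  · intro h g
    have := Isolated.odd_orderOf_mul h (IsConj.refl u) (isConj_iff.2 ⟨g, rfl⟩)
    rw [inv_eq_of hu]
    convert this using 2
    group
  · intro h
    refine isolated_of_odd hu fun t ht => ?_
    obtain ⟨g, rfl⟩ := isConj_iff.1 ht
    have := h g
    rw [inv_eq_of hu] at this
    convert this using 2
    group

end Cfsg.Agent.S0216
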