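import Cfsg.Statements.S0218
import Cfsg.Agent.Invol.Dihedral

set_option autoImplicit false
open Cfsg

namespace Cfsg.Agent.S0218

/-- The generalized quaternion group of order 2^(n+3) contains exactly one element of order 2. -/
theorem result (n : ℕ) : Nat.card {x : QuaternionGroup (2 ^ (n + 1)) // orderOf x = 2} = 1 := by
  open Cfsg.Agent.Invol in
  rw [Nat.card_eq_one_iff_exists]
  obtain ⟨t, r, ht, h, hr, htr, hD⟩ := exists_of_equiv_quaternion
    (Subgroup.topEquiv : (⊤ : Subgroup (QuaternionGroup (2 ^ (n + 1)))) ≃* _)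
  have hpos : 0 < 2 ^ (n + 1) := by positivity
  have h0 : orderOf (r ^ 2 ^ (n + 1)) = 2 := by
    rw [orderOf_pow_of_dvd hpos.ne' (by rw [hr]; exact Dvd.intro_left 2 rfl), hr,
      Nat.mul_div_cancel _ hpos]
  refine ⟨⟨_, h0⟩, ?_⟩
  rintro ⟨x, hx⟩
  apply Subtype.ext
  obtain ⟨k, rfl | rfl⟩ := (hD x).1 (Subgroup.mem_top x)
  · have h1 := mul_self_of hx
    rw [← zpow_add, ← orderOf_dvd_iff_zpow_eq_one, hr] at h1
    obtain ⟨c, hc⟩ := h1
    have hk : k = (2 ^ (n + 1) : ℕ) * c := by push_cast at hc ⊢; linarith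
    have h2 := ne_one_of hx
    dsimp only
    rw [hk, zpow_mul, zpow_natCast] at h2 ⊢
    exact (zpow_invol (mul_self_of h0) c).resolve_left h2
  · exfalso
    have h1 := mul_self_of hx
    rw [mul_assoc, ← mul_assoc (r ^ k), zpow_mul_of_inverts h, mul_assoc, ← zpow_add,
      neg_add_cancel, zpow_zero, mul_one, ht] at h1
    exact ne_one_of h0 h1

end Cfsg.Agent.S0218
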