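import Cfsg.Statements.S0219
import Cfsg.Agent.Invol.Basic
import Mathlib.GroupTheory.Transfer

set_option autoImplicit false
open Cfsg

namespace Cfsg.Agent.S0219

/-- If a finite group has even order and a cyclic Sylow 2-subgroup, then it has a subgroup of index 2 (consider the parity of permutations in the regular representation). -/
theorem result {G : Type*} [Group G] [Finite G] (heven : Even (Nat.card G)) (T : Sylow 2 G) (hT : IsCyclic (T : Subgroup G)) : ∃ H : Subgroup G, H.index = 2 := by
  have : Fact (Nat.Prime 2) := ⟨Nat.prime_two⟩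
  have hmin : (Nat.card G).minFac = 2 := (Nat.minFac_eq_two_iff _).2 heven.two_dvd
  have hc := IsCyclic.isComplement' hmin hT
  set K := (MonoidHom.transferSylow T (IsCyclic.normalizer_le_centralizer hmin hT)).ker
  have hidx : K.index = Nat.card T := hc.symm.index_eq_card
  obtain ⟨n, hn⟩ := T.isPGroup'.exists_card_eq
  have hT2 : 2 ∣ Nat.card T := T.dvd_card_of_dvd_card heven.two_dvd
  have hcard : Nat.card (G ⧸ K) = 2 ^ n := by rw [← Subgroup.index_eq_card, hidx]; exact hn
  have hn0 : n ≠ 0 := by
    rintro rfl
    have : Nat.card T = 1 := hn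
    omega
  obtain ⟨m, rfl⟩ := Nat.exists_eq_succ_of_ne_zero hn0
  obtain ⟨L, hL⟩ := Sylow.exists_subgroup_card_pow_prime (G := G ⧸ K) 2 (n := m)
    (by rw [hcard]; exact pow_dvd_pow 2 (Nat.le_succ m))
  refine ⟨L.comap (QuotientGroup.mk' K), ?_⟩
  rw [Subgroup.index_comap_of_surjective _ (QuotientGroup.mk'_surjective K)]
  have := L.card_mul_index
  rw [hL, hcard, pow_succ] at this
  exact Nat.eq_of_mul_eq_mul_left (by positivity) this

end Cfsg.Agent.S0219
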