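import Cfsg.Statements.S0220
import Cfsg.Agent.Invol.Dihedral
import Cfsg.Agent.S0219

set_option autoImplicit false
open Cfsg

namespace Cfsg.Agent.S0220

/-- If x is an involution of a finite group G and a Sylow 2-subgroup of the centralizer of x is cyclic, then G has a subgroup of index 2; in particular G is not simple unless it has order 2. -/
theorem result {G : Type*} [Group G] [Finite G] (x : G) (hx : orderOf x = 2) (S : Sylow 2 ↥(Subgroup.centralizer ({x} : Set G))) (hS : IsCyclic (S : Subgroup ↥(Subgroup.centralizer ({x} : Set G)))) : ∃ H : Subgroup G, H.index = 2 := by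
  open Cfsg.Agent.Invol in
  have : Fact (Nat.Prime 2) := ⟨Nat.prime_two⟩
  have hx2 := mul_self_of hx
  have key : ∀ T : Subgroup G, IsPGroup 2 T → T ≤ Subgroup.centralizer ({x} : Set G) → IsCyclic T := by
    intro T hT hle
    obtain ⟨R, hR⟩ := (hT.comap_subtype (K := Subgroup.centralizer ({x} : Set G))).exists_le_sylow
    have : IsCyclic R := isCyclic_of_surjective (S.equiv R) (S.equiv R).surjective
    have : IsCyclic (T.subgroupOf (Subgroup.centralizer ({x} : Set G))) :=
      Subgroup.isCyclic_of_le hR
    exact isCyclic_of_surjective _ (Subgroup.subgroupOfEquivOfLe hle).surjective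
  obtain ⟨T, hT⟩ := (isPGroup_zpowers (p := 2) (x := x) (n := 1)
    (by rw [pow_one, pow_two, hx2])).exists_le_sylow
  have hxT : x ∈ (T : Subgroup G) := hT (Subgroup.mem_zpowers x)
  obtain ⟨z, hzT, hz, hzc⟩ := exists_central_invol T.isPGroup' (by
    intro h; rw [h] at hxT; exact ne_one_of hx hxT)
  have hzx : z = x := by
    by_contra hne
    have hV := isKleinFour_closure (mul_self_of hz) hx2 (hzc x hxT).symm (ne_one_of hz)
      (ne_one_of hx) hne
    refine IsKleinFour.not_isCyclic (key _ (isPGroup_of_isKleinFour hV) ?_)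
    rw [Subgroup.closure_le]
    rintro v (rfl | rfl)
    · exact mem_centralizer_singleton.2 (hzc x hxT).symm
    · exact mem_centralizer_singleton.2 (Commute.refl _)
  subst hzx
  exact S0219.result (even_iff_two_dvd.2 (hx ▸ orderOf_dvd_natCard z)) T
    (key _ T.isPGroup' fun s hs => mem_centralizer_singleton.2 (hzc s hs))

end Cfsg.Agent.S0220
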