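import Cfsg.Statements.S0226
import Cfsg.Agent.Invol.Basic
import Mathlib.GroupTheory.Perm.Cycle.Type

set_option autoImplicit false
open Cfsg

namespace Cfsg.Agent.S0226

/-- A finite group of even order has an odd number of involutions. -/
theorem result {G : Type*} [Group G] [Finite G] (heven : Even (Nat.card G)) : Odd (Nat.card {t : G // orderOf t = 2}) := by
  open Cfsg.Agent.Invol in
  classical
  have := Fintype.ofFinite G
  have : Fact (Nat.Prime 2) := ⟨Nat.prime_two⟩
  let f : Function.End G := fun g => g⁻¹
  have hf : f ^ 2 ^ 1 = 1 := by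
    funext g
    show (g⁻¹)⁻¹ = g
    exact inv_inv g
  have h1 := Equiv.Perm.card_fixedPoints_modEq hf
  have h2 := card_mul_self_eq_one (G := G) (fun _ => True) trivial
  have h3 : Nat.card {t : G // t * t = 1 ∧ True} = Fintype.card f.fixedPoints := by
    rw [← Nat.card_eq_fintype_card]
    refine Nat.card_congr (Equiv.subtypeEquivRight fun t => ?_)
    show _ ↔ t⁻¹ = t
    rw [and_true, inv_eq_iff_mul_eq_one]
  simp only [and_true] at h2 h3
  rw [← h3, h2, ← Nat.card_eq_fintype_card] at h1
  rw [Nat.even_iff] at heven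
  rw [Nat.odd_iff]
  unfold Nat.ModEq at h1
  omega

end Cfsg.Agent.S0226
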