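import Cfsg.Statements.S0230
import Cfsg.Agent.Invol.Basic

set_option autoImplicit false
open Cfsg

namespace Cfsg.Agent.S0230

/-- Let G be a finite group with two non-conjugate involutions, and let t be an involution whose centralizer has maximal order among centralizers of involutions. Then |G| < |C_G(t)|^3. -/
theorem result {G : Type*} [Group G] [Finite G] (s t : G) (hs : orderOf s = 2) (ht : orderOf t = 2) (hnc : ¬ IsConj s t) (hmax : ∀ u : G, orderOf u = 2 → Nat.card (Subgroup.centralizer ({u} : Set G)) ≤ Nat.card (Subgroup.centralizer ({t} : Set G))) : Nat.card G < Nat.card (Subgroup.centralizer ({t} : Set G)) ^ 3 := by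
  open Cfsg.Agent.Invol in
  classical
  have := Fintype.ofFinite G
  set c := Nat.card (Subgroup.centralizer ({t} : Set G)) with hc
  have h1 : ∀ z : G, (Finset.univ.filter fun u : G => orderOf u = 2 ∧ Commute u z).card <
      Nat.card (Subgroup.centralizer ({z} : Set G)) := by
    intro z
    rw [← card_subtype_eq_filter, Nat.lt_iff_add_one_le,
      ← card_mul_self_eq_one (fun u => Commute u z) (Commute.one_left z)]
    refine Nat.card_le_card_of_injective (fun t => ⟨t.1, mem_centralizer_singleton.2 t.2.2⟩) ?_
    intro a b h
    exact Subtype.ext (by simpa using h)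
  have h2 : (Finset.univ.filter fun u : G => IsConj t u) ⊆
      (Finset.univ.filter fun z : G => orderOf z = 2 ∧ Commute z s).biUnion
        fun z => Finset.univ.filter fun u : G => orderOf u = 2 ∧ Commute u z := by
    intro u hu
    simp only [Finset.mem_filter, Finset.mem_univ, true_and, Finset.mem_biUnion] at hu ⊢
    have hu2 : orderOf u = 2 := by rw [← orderOf_of_isConj hu, ht]
    obtain ⟨k, h1, h2, h3⟩ := exists_commute_of_not_isConj (mul_self_of hs) (mul_self_of hu2)
      (fun h => hnc (h.trans hu.symm))
    exact ⟨_, ⟨h1, h2⟩, hu2, h3.symm⟩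
  have h3 := (Finset.card_le_card h2).trans (Finset.card_biUnion_le_card_mul _ _ c (fun z hz =>
    ((h1 z).le.trans (hmax z (Finset.mem_filter.1 hz).2.1))))
  have h4 := (h1 s).trans_le (hmax s hs)
  rw [← card_subtype_eq_filter] at h3
  rw [← card_class_mul_card_centralizer t, ← hc]
  have hpos : 0 < c := Nat.card_pos
  calc _ ≤ _ * c * c := Nat.mul_le_mul_right c h3
    _ < c * c * c := by gcongr
    _ = c ^ 3 := by ring

end Cfsg.Agent.S0230
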