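import Cfsg.Statements.S0231
import Cfsg.Agent.Invol.StrongEmb

set_option autoImplicit false
open scoped Pointwise
open Cfsg

namespace Cfsg.Agent.S0231

/-- Let T be a Sylow 2-subgroup of the finite group G which is not normal and which intersects every other Sylow 2-subgroup trivially. Then G has a single conjugacy class of involutions. -/
theorem result {G : Type*} [Group G] [Finite G] (T : Sylow 2 G) (hnn : ¬ (T : Subgroup G).Normal) (hTI : ∀ g : G, MulAut.conj g • (T : Subgroup G) ≠ T → MulAut.conj g • (T : Subgroup G) ⊓ T = ⊥) (s t : G) (hs : orderOf s = 2) (ht : orderOf t = 2) : IsConj s t := by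
  open Cfsg.Agent.Invol in
  have : Fact (Nat.Prime 2) := ⟨Nat.prime_two⟩
  have hin : ∀ t ∈ Subgroup.normalizer (T : Set G), orderOf t = 2 → t ∈ T := fun t htN ht =>
    mem_sylow_of_mem_normalizer (n := 1) (by rw [pow_one, pow_two, mul_self_of ht]) T htN
  refine SE.isConj (H := Subgroup.normalizer (T : Set G)) (stronglyEmbedded_iff.2 ⟨?_, ?_, ?_⟩) hs ht
  · intro h
    exact hnn (Subgroup.normalizer_eq_top_iff.1 h)
  · obtain ⟨g, hg⟩ := exists_conj_invol_mem_sylow (mul_self_of ht) T
    exact ⟨_, Subgroup.le_normalizer (H := (T : Subgroup G)) hg, by rw [orderOf_conj', ht]⟩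
  · intro t htN ht g hg
    have h2 : orderOf (g * t * g⁻¹) = 2 := by rw [orderOf_conj', ht]
    rw [← Sylow.smul_eq_iff_mem_normalizer]
    by_contra hne
    have := hTI g (fun h => hne (Sylow.ext h))
    have h3 : g * t * g⁻¹ ∈ MulAut.conj g • (T : Subgroup G) ⊓ T :=
      ⟨Subgroup.smul_mem_pointwise_smul t (MulAut.conj g) _ (hin t htN ht), hin _ hg h2⟩
    rw [this] at h3
    exact ne_one_of h2 h3

end Cfsg.Agent.S0231
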