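import Cfsg.Statements.S0232
import Cfsg.Agent.Invol.Basic
import Cfsg.Agent.S0233
import Cfsg.Agent.S0230
import Cfsg.Agent.S0219
import Mathlib.Data.Set.Finite.Lemmas

set_option autoImplicit false
open Cfsg

namespace Cfsg.Agent.S0232

universe u

theorem aux (k : ℕ) : ∀ {G : Type u} [Group G] [Finite G], Nat.card G = k → Even (Nat.card G) →
    2 < Nat.card G → ∃ H : Subgroup G, H ≠ ⊤ ∧ Nat.card G < (Nat.card H) ^ 3 := by
  open Cfsg.Agent.Invol in
  induction k using Nat.strong_induction_on with
  | _ k ih =>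
  intro G _ _ hk heven hgt
  have hidx : ∀ H : Subgroup G, H.index = 2 → H ≠ ⊤ ∧ Nat.card G < (Nat.card H) ^ 3 := by
    intro H hH
    refine ⟨fun h => by simp [h] at hH, ?_⟩
    have := H.card_mul_index
    rw [hH] at this
    have h2 : 2 ≤ Nat.card H := by omega
    rw [← this]
    nlinarith [Nat.mul_le_mul h2 h2]
  by_cases hZ : Odd (Nat.card (Subgroup.center G))
  · obtain ⟨t0, ht0⟩ := exists_invol_of_even heven
    have hproper : ∀ t : G, orderOf t = 2 → Subgroup.centralizer ({t} : Set G) ≠ ⊤ := by
      intro t ht h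
      have : t ∈ Subgroup.center G := Subgroup.mem_center_iff.2 fun y =>
        mem_centralizer_singleton.1 (h ▸ Subgroup.mem_top y)
      exact (odd_card_iff.1 hZ) t this ht
    obtain ⟨t, ht, hmax⟩ := Set.exists_max_image {t : G | orderOf t = 2}
      (fun t => Nat.card (Subgroup.centralizer ({t} : Set G))) (Set.toFinite _) ⟨t0, ht0⟩
    by_cases h1 : ∃ s : G, orderOf s = 2 ∧ ¬ IsConj s t
    · obtain ⟨s, hs, hst⟩ := h1
      exact ⟨_, hproper t ht, S0230.result s t hs ht hst hmax⟩
    push Not at h1
    obtain ⟨H, hH, h | h⟩ := S0233.result heven hZ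
    · exact ⟨H, hidx H h⟩
    set n := Nat.card {t : G // orderOf t = 2} with hn
    set c := Nat.card (Subgroup.centralizer ({t} : Set G)) with hc
    have h2 : n * c = Nat.card G := by
      rw [← card_class_mul_card_centralizer t]
      congr 1
      exact Nat.card_congr (Equiv.subtypeEquivRight fun y =>
        ⟨fun hy => (h1 y hy).symm, fun hy => by rw [← orderOf_of_isConj hy, ht]⟩)
    have h3 : 2 * H.index * n ^ 2 < (c * (c + 1)) * n ^ 2 :=
      calc _ < _ := h
        _ = _ := by rw [← h2]; ring
    have h4 := Nat.lt_of_mul_lt_mul_right h3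
    have h5 := H.index_mul_card
    have hcpos : 0 < c := Nat.card_pos
    rcases le_or_gt (Nat.card H) c with h6 | h6
    · refine ⟨_, hproper t ht, ?_⟩
      rw [← hc, ← h5]
      have : H.index < c * c := by nlinarith
      calc _ ≤ H.index * c := by gcongr
        _ < c * c * c := by gcongr
        _ = _ := by ring
    · refine ⟨H, hH, ?_⟩
      rw [← h5]
      have : H.index < Nat.card H * Nat.card H := by nlinarith
      calc _ < Nat.card H * Nat.card H * Nat.card H := by gcongr; omega
        _ = _ := by ring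
  · obtain ⟨z, hz, hz2⟩ := exists_invol_mem_of_even (Nat.not_odd_iff_even.1 hZ)
    have : (Subgroup.zpowers z).Normal := ⟨fun n hn g => by
      rw [Subgroup.mem_center_iff.1 (Subgroup.zpowers_le.2 hz hn) g, mul_inv_cancel_right]; exact hn⟩
    have hq := (Subgroup.zpowers z).card_mul_index
    rw [Nat.card_zpowers, hz2] at hq
    by_cases h1 : (Subgroup.zpowers z).index = 2
    · exact ⟨_, hidx _ h1⟩
    by_cases h2 : Even (Subgroup.zpowers z).index
    · obtain ⟨H, hH, h⟩ := ih (Nat.card (G ⧸ Subgroup.zpowers z)) (by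
        rw [← Subgroup.index_eq_card]; omega) rfl h2 (by
        rw [← Subgroup.index_eq_card]; obtain ⟨m, hm⟩ := h2; omega)
      have hs := QuotientGroup.mk'_surjective (Subgroup.zpowers z)
      refine ⟨H.comap (QuotientGroup.mk' _), fun h0 => hH ?_, ?_⟩
      · rw [← Subgroup.map_comap_eq_self_of_surjective hs H, h0, Subgroup.map_top_of_surjective _ hs]
      · have h3 := (H.comap (QuotientGroup.mk' _)).card_mul_index
        rw [Subgroup.index_comap_of_surjective _ hs, ← hq, Subgroup.index_eq_card (Subgroup.zpowers z),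
          ← H.card_mul_index, ← mul_assoc] at h3
        have h4 := Nat.eq_of_mul_eq_mul_right (Nat.pos_of_ne_zero Subgroup.index_ne_zero_of_finite) h3
        rw [h4, ← hq, Subgroup.index_eq_card, mul_pow]
        omega
    · have : Fact (Nat.Prime 2) := ⟨Nat.prime_two⟩
      have hp : IsPGroup 2 (Subgroup.zpowers z) := isPGroup_zpowers (n := 1)
        (by rw [pow_one, pow_two, mul_self_of hz2])
      obtain ⟨H, hH⟩ := S0219.result heven (hp.toSylow fun h => h2 (even_iff_two_dvd.2 h))
        (inferInstanceAs (IsCyclic (Subgroup.zpowers z)))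
      exact ⟨H, hidx H hH⟩

/-- A finite group G of even order greater than 2 has a proper subgroup H with |G| < |H|^3. -/
theorem result {G : Type*} [Group G] [Finite G] (heven : Even (Nat.card G)) (hgt : 2 < Nat.card G) : ∃ H : Subgroup G, H ≠ ⊤ ∧ Nat.card G < (Nat.card H) ^ 3 := by
  exact aux _ rfl heven hgt

end Cfsg.Agent.S0232
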