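import Cfsg.Statements.S0234
import Cfsg.Agent.Invol.Basic
import Cfsg.Agent.S0212
import Cfsg.Agent.S0219
import Mathlib.GroupTheory.SpecificGroups.Alternating.Simple
import Mathlib.GroupTheory.Solvable
import Mathlib.GroupTheory.Perm.Fin

set_option autoImplicit false
open Cfsg

namespace Cfsg.Agent.S0234

theorem count_A5 : (Finset.univ.filter fun σ : Equiv.Perm (Fin 5) =>
    (σ * σ = 1 ∧ σ ≠ 1) ∧ Equiv.Perm.sign σ = 1).card = 15 := by decide +kernel

/-- In a finite simple group G of even order greater than 2, the number n of involutions satisfies 3n < |G|. -/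
theorem result {G : Type*} [Group G] [Finite G] [IsSimpleGroup G] (heven : Even (Nat.card G)) (hgt : 2 < Nat.card G) : 3 * Nat.card {t : G // orderOf t = 2} < Nat.card G := by
  open Cfsg.Agent.Invol in
  by_contra hcon
  push Not at hcon
  have hno : ∀ H : Subgroup G, H.index ≠ 2 := by
    intro H hH
    rcases (Subgroup.normal_of_index_eq_two hH).eq_bot_or_eq_top with h | h
    · rw [h, Subgroup.index_bot] at hH; omega
    · simp [h] at hH
  obtain ⟨H, hH, h | h⟩ := S0233.result heven (S0212.odd_center hgt)
  · exact hno H h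
  set n := Nat.card {t : G // orderOf t = 2} with hn
  have h3 : 2 * H.index * n ^ 2 < 12 * n ^ 2 :=
    calc _ < _ := h
      _ ≤ (3 * n) * (3 * n + n) := by gcongr
      _ = _ := by ring
  have h4 := Nat.lt_of_mul_lt_mul_right h3
  have h5 : H.index ≤ 5 := by omega
  have hcore : H.normalCore = ⊥ := (Subgroup.Normal.eq_bot_or_eq_top inferInstance).resolve_right
    fun h => hH (top_le_iff.1 (h ▸ H.normalCore_le))
  have := Fintype.ofFinite (G ⧸ H)
  obtain ⟨e⟩ : Nonempty ((G ⧸ H) ↪ Fin 5) := Function.Embedding.nonempty_of_card_le (by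
    rw [← Nat.card_eq_fintype_card, Fintype.card_fin]; exact h5)
  let f : G →* Equiv.Perm (Fin 5) := (Equiv.Perm.viaEmbeddingHom e).comp (MulAction.toPermHom G (G ⧸ H))
  have hf : Function.Injective f := by
    refine (Equiv.Perm.viaEmbeddingHom_injective e).comp ?_
    rw [← MonoidHom.ker_eq_bot_iff, ← Subgroup.normalCore_eq_ker, hcore]
  have hsign : ∀ g, Equiv.Perm.sign (f g) = 1 := by
    rcases (inferInstance : (Equiv.Perm.sign.comp f).ker.Normal).eq_bot_or_eq_top with h | h
    · have := Nat.card_le_card_of_injective _ ((MonoidHom.ker_eq_bot_iff _).1 h)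
      rw [Nat.card_eq_fintype_card (α := ℤˣ), Fintype.card_units_int] at this
      omega
    · intro g
      exact (h ▸ Subgroup.mem_top g : g ∈ (Equiv.Perm.sign.comp f).ker)
  have hn15 : n ≤ 15 := by
    rw [← count_A5, ← card_subtype_eq_filter]
    refine Nat.card_le_card_of_injective (fun t => ⟨f t.1, orderOf_two_iff.1 (by
      rw [orderOf_injective f hf, t.2]), hsign _⟩) ?_
    intro a b h
    exact Subtype.ext (hf (by simpa using h))
  -- the image is a subgroup of `A₅` of index at least two
  let f' : G →* alternatingGroup (Fin 5) := f.codRestrict _ fun g => hsign g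
  have hf' : Function.Injective f' := fun a b h => hf (congrArg Subtype.val h)
  have hA : Nat.card (alternatingGroup (Fin 5)) = 60 := by
    have := two_mul_nat_card_alternatingGroup (α := Fin 5)
    rw [Nat.card_perm, Nat.card_fin, show Nat.factorial 5 = 120 from rfl] at this
    omega
  have : IsSimpleGroup (alternatingGroup (Fin 5)) := alternatingGroup.isSimpleGroup (by simp)
  have h6 := f'.range.card_mul_index
  rw [← Nat.card_congr (MonoidHom.ofInjective hf').toEquiv, hA] at h6
  have h7 : f'.range ≠ ⊤ := by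
    intro h
    rw [h, Subgroup.index_top] at h6
    omega
  have h8 := S0212.card_le_factorial h7
  rw [hA] at h8
  have h9 : 5 ≤ f'.range.index := by
    by_contra h
    push Not at h
    interval_cases f'.range.index <;> simp [Nat.factorial] at h8
  have h10 : Nat.card G ≤ 12 := by nlinarith
  have : Fact (Nat.Prime 2) := ⟨Nat.prime_two⟩
  have : Fact (Nat.Prime 3) := ⟨Nat.prime_three⟩
  obtain ⟨T⟩ : Nonempty (Sylow 2 G) := inferInstance
  have hT := T.card_eq_multiplicity
  have hTi := (T : Subgroup G).card_mul_index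
  have hdvd : Nat.card G ∣ 60 := Dvd.intro _ h6
  have hcyc : ¬ IsCyclic T := fun h => by
    obtain ⟨K, hK⟩ := S0219.result heven T h
    exact hno K hK
  have hT2 : Nat.card T ≠ 2 := fun h => hcyc (isCyclic_of_prime_card h)
  have hTtop : (T : Subgroup G) ≠ ⊤ := by
    intro h
    have hp : IsPGroup 2 G := (h ▸ T.isPGroup').of_equiv Subgroup.topEquiv
    obtain ⟨k, hk⟩ := hp.exists_card_eq
    obtain ⟨L, hL⟩ := Sylow.exists_subgroup_card_pow_prime (G := G) 2 (n := k - 1)
      (by rw [hk]; exact pow_dvd_pow 2 (Nat.sub_le k 1))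
    have := L.card_mul_index
    have hk0 : k ≠ 0 := by rintro rfl; omega
    obtain ⟨m, rfl⟩ := Nat.exists_eq_succ_of_ne_zero hk0
    rw [hL, hk, pow_succ] at this
    exact hno L (Nat.eq_of_mul_eq_mul_left (by positivity) this)
  have h11 := S0212.card_le_factorial hTtop
  have h12 := T.not_dvd_index
  obtain ⟨k, hk⟩ := T.isPGroup'.exists_card_eq
  have hk' : Nat.card T = 2 ^ k := hk
  have h13 : (T : Subgroup G).index ≠ 1 := fun h => hTtop (Subgroup.index_eq_one.1 h)
  have h14 : 2 ∣ Nat.card T := T.dvd_card_of_dvd_card heven.two_dvd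
  have h15 : 4 ≤ Nat.card T := by
    have := (Nat.card_pos (α := T))
    omega
  change Nat.card T * _ = _ at hTi
  have h16 : (T : Subgroup G).index ≤ 3 := by nlinarith
  have h17 : (T : Subgroup G).index ≠ 0 := Subgroup.index_ne_zero_of_finite
  have h18 : (T : Subgroup G).index = 3 := by omega
  rw [h18] at h11 hTi
  have := Nat.le_of_dvd (by norm_num [Nat.factorial]) h11
  simp [Nat.factorial] at this
  omega

end Cfsg.Agent.S0234
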