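import Cfsg.Statements.S0235
import Cfsg.Agent.Invol.Basic

set_option autoImplicit false
open Cfsg

namespace Cfsg.Agent.S0235

/-- If x² ≠ 1, the ordered pairs (u, v) of involutions with uv = x correspond bijectively to the involutions t with t x t⁻¹ = x⁻¹ (via (u, v) ↦ u), so the two counts agree. -/
theorem result {G : Type*} [Group G] [Finite G] (x : G) (hx : x ^ 2 ≠ 1) : Nat.card {p : G × G // orderOf p.1 = 2 ∧ orderOf p.2 = 2 ∧ p.1 * p.2 = x} = Nat.card {t : G // orderOf t = 2 ∧ t * x * t⁻¹ = x⁻¹} := by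
  open Cfsg.Agent.Invol in
  refine Nat.card_congr ⟨fun p => ⟨p.1.1, p.2.1, ?_⟩, fun t => ⟨(t.1, t.1 * x), t.2.1, ?_, ?_⟩,
    fun p => ?_, fun t => rfl⟩
  · obtain ⟨⟨u, v⟩, hu, hv, rfl⟩ := p
    exact conj_prod_left (mul_self_of hu) (mul_self_of hv)
  · obtain ⟨t, ht, hi⟩ := t
    refine orderOf_two_iff.2 ⟨mul_sq_of_inverts (mul_self_of ht) hi, fun h => hx ?_⟩
    have : x = t := by rw [← inv_eq_of ht]; exact eq_inv_of_mul_eq_one_right h
    rw [this, pow_two, mul_self_of ht]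
  · exact mul_self_cancel (mul_self_of t.2.1) x
  · obtain ⟨⟨u, v⟩, hu, hv, rfl⟩ := p
    exact Subtype.ext (Prod.ext rfl (mul_self_cancel (mul_self_of hu) v))

end Cfsg.Agent.S0235
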