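import Cfsg.Statements.S0240
import Cfsg.Agent.Invol.Basic

set_option autoImplicit false
open Cfsg

namespace Cfsg.Agent.S0240

/-- Let G be a finite group with n involutions and H a subgroup with |H|·(n+1) > |G|. Then some nontrivial h ∈ H is strongly real in G: an involution t of G satisfies t h t⁻¹ = h⁻¹. -/
theorem result {G : Type*} [Group G] [Finite G] (H : Subgroup G) (hH : Nat.card G < Nat.card H * (Nat.card {t : G // orderOf t = 2} + 1)) : ∃ h : G, h ∈ H ∧ h ≠ 1 ∧ ∃ t : G, orderOf t = 2 ∧ t * h * t⁻¹ = h⁻¹ := by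
  open Cfsg.Agent.Invol in
  have h1 := card_mul_self_eq_one (G := G) (fun _ => True) trivial
  simp only [and_true] at h1
  rw [← h1, ← H.card_mul_index] at hH
  have h2 : H.index < Nat.card {t : G // t * t = 1} := Nat.lt_of_mul_lt_mul_left hH
  have h3 : ¬ Function.Injective (fun t : {t : G // t * t = 1} => (QuotientGroup.mk t.1 : G ⧸ H)) :=
    fun h => absurd (Nat.card_le_card_of_injective _ h) (not_le.2 h2)
  unfold Function.Injective at h3
  push Not at h3
  obtain ⟨⟨s, hs⟩, ⟨t, ht⟩, h4, h5⟩ := h3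
  have h6 : s * t ∈ H := by
    have := QuotientGroup.eq.1 h4
    rwa [inv_eq_of_mul_self hs] at this
  have hne : s ≠ t := fun h => h5 (Subtype.ext h)
  refine ⟨s * t, h6, fun h => hne ?_, ?_⟩
  · rw [← inv_eq_of_mul_self ht]; exact eq_inv_of_mul_eq_one_left h
  · by_cases hs1 : s = 1
    · exact ⟨t, orderOf_two_iff.2 ⟨ht, fun h => hne (hs1.trans h.symm)⟩, conj_prod_right hs ht⟩
    · exact ⟨s, orderOf_two_iff.2 ⟨hs, hs1⟩, conj_prod_left hs ht⟩

end Cfsg.Agent.S0240
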