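import Cfsg.Statements.S0241
import Cfsg.Agent.Invol.Basic

set_option autoImplicit false
open Cfsg

namespace Cfsg.Agent.S0241

/-- If x ≠ 1 is conjugate to x⁻¹ in a finite group G and |C_G(x)| is odd, then some involution t satisfies t x t⁻¹ = x⁻¹. -/
theorem result {G : Type*} [Group G] [Finite G] (x : G) (hx : x ≠ 1) (hreal : IsConj x x⁻¹) (hodd : Odd (Nat.card (Subgroup.centralizer ({x} : Set G)))) : ∃ t : G, orderOf t = 2 ∧ t * x * t⁻¹ = x⁻¹ := by
  open Cfsg.Agent.Invol in
  obtain ⟨g, hg⟩ := isConj_iff.1 hreal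
  have hxo : Odd (orderOf x) := odd_orderOf_of_mem hodd (mem_centralizer_singleton.2 (Commute.refl x))
  have hc : Commute (g * g) x := commute_mul_of_inverts hg hg
  have hm := odd_orderOf_of_mem hodd (mem_centralizer_singleton.2 hc)
  have hinv := pow_inverts_of_odd hg hm
  refine ⟨_, orderOf_two_iff.2 ⟨?_, ?_⟩, hinv⟩
  · rw [← (Commute.refl g).mul_pow, pow_orderOf_eq_one]
  · intro h
    rw [h] at hinv
    apply hx
    apply eq_one_of_odd_of_inverts_of_commute hxo hinv (Commute.one_right x)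

end Cfsg.Agent.S0241
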