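import Cfsg.Statements.S0250
import Cfsg.Agent.Classical.PSL2Basic

set_option autoImplicit false
open Cfsg

namespace Cfsg.Agent.S0250

open Cfsg.Agent.Classical

/-- SL_2(2) is isomorphic to S_3. -/
theorem result {F : Type*} [Field F] [Fintype F] (hF : Fintype.card F = 2) : Nonempty (Matrix.SpecialLinearGroup (Fin 2) F ≃* Equiv.Perm (Fin 3)) := by
  rw [← Nat.card_eq_fintype_card] at hF
  have h2 : (2 : F) = 0 := two_eq_zero_iff_even.2 (by rw [hF]; norm_num)
  refine nonempty_equiv_perm_of_injective (α := P1 F) (by rw [card_P1, hF])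
    ((MulAction.toPermHom _ _).comp (pslMk F))
    (MulAction.toPerm_injective.comp (pslMk_injective h2)) (by rw [card_SL2, hF]; rfl)

end Cfsg.Agent.S0250
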