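import Cfsg.Statements.S0256
import Cfsg.Agent.Gen.GL42
import Cfsg.Agent.Classical.SLCard
import Cfsg.Agent.Classical.FieldCongr
import Mathlib.Tactic.Group

set_option autoImplicit false
open Cfsg

namespace Cfsg.Agent.S0256
open scoped commutatorElement

open Subgroup Cfsg.Agent.Classical

/-- PSL_4(2) is isomorphic to A_8. -/
theorem result {F : Type*} [Field F] [Fintype F] (hF : Fintype.card F = 2) : Nonempty (Matrix.ProjectiveSpecialLinearGroup (Fin 4) F ≃* alternatingGroup (Fin 8)) := by
  haveI : Fact (Nat.Prime 2) := ⟨Nat.prime_two⟩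
  obtain ⟨e⟩ := nonempty_ringEquiv_zmod (F := F) (p := 2) (by rw [Nat.card_eq_fintype_card, hF])
  obtain ⟨e2⟩ := Gen.gl4_equiv
  have h1 : center (Matrix.SpecialLinearGroup (Fin 4) (ZMod 2)) = ⊥ := by
    rw [← card_eq_one, card_center_SL]
    simp
  have h2 := card_units_mul_card_SL (ι := Fin 4) (R := ZMod 2)
  rw [Nat.card_units, Nat.card_zmod, show 2 - 1 = 1 from rfl, one_mul] at h2
  exact ⟨(pslCongr e).trans ((QuotientGroup.quotientMulEquivOfEq h1).trans (QuotientGroup.quotientBot.trans
    ((MulEquiv.ofBijective Matrix.SpecialLinearGroup.toGL ((Nat.bijective_iff_injective_and_card _).2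
      ⟨Matrix.SpecialLinearGroup.toGL_injective, h2⟩)).trans e2)))⟩

end Cfsg.Agent.S0256
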