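import Cfsg.Statements.S0258
import Cfsg.Agent.Classical.SL2Unip

set_option autoImplicit false
open Cfsg

namespace Cfsg.Agent.S0258

open Cfsg.Agent.Classical

/-- GL_2(q), q a power of the prime p, has exactly q + 1 Sylow p-subgroups. -/
theorem result {F : Type*} [Field F] [Fintype F] {q : ℕ} (hF : Fintype.card F = q) (p : ℕ) [Fact p.Prime] [CharP F p] : Nat.card (Sylow p (Matrix.GeneralLinearGroup (Fin 2) F)) = q + 1 := by
  have H := unipAct_GL (F := F) p
  have hX := not_char_dvd_card_P1 F p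
  choose f hf using H.exists_sylow hX
  rw [← hF, ← Nat.card_eq_fintype_card, ← card_P1]
  symm
  refine Nat.card_congr (Equiv.ofBijective f ⟨fun x y h => ?_, fun P => ?_⟩)
  · obtain ⟨g, rfl⟩ := MulAction.exists_smul_eq (Matrix.GeneralLinearGroup (Fin 2) F) inf x
    have h1 : Matrix.SpecialLinearGroup.toGL (uSL (1 : F)) ∈ H.U inf :=
      ⟨by rw [← map_pow, uSL_pow]; simp, by rw [gl_smul_inf_eq_inf]; simp⟩
    have h2 : g * Matrix.SpecialLinearGroup.toGL (uSL (1 : F)) * g⁻¹ ∈ H.U (g • inf) := by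
      rw [← H.smul_U]; exact ⟨_, h1, rfl⟩
    have h3 := h2
    rw [← hf, h, hf] at h3
    refine gl_unique_fixed p ?_ h2.1 h2.2 h3.2
    rw [Ne, conj_eq_one_iff, ← map_one (Matrix.SpecialLinearGroup.toGL (n := Fin 2) (R := F)),
      Matrix.SpecialLinearGroup.toGL_injective.eq_iff]
    simp
  · obtain ⟨x, hx⟩ := H.exists_sylow_eq hX P
    exact ⟨x, Sylow.ext ((hf x).trans hx.symm)⟩

end Cfsg.Agent.S0258
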