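import Cfsg.Statements.S0259
import Cfsg.Agent.Classical.SL2Unip

set_option autoImplicit false
open Cfsg

namespace Cfsg.Agent.S0259

open Cfsg.Agent.Classical

/-- Distinct Sylow p-subgroups of GL_2(q), p the characteristic, intersect trivially. -/
theorem result {F : Type*} [Field F] [Fintype F] (p : ℕ) [Fact p.Prime] [CharP F p] (P Q : Sylow p (Matrix.GeneralLinearGroup (Fin 2) F)) (h : P ≠ Q) : (P : Subgroup (Matrix.GeneralLinearGroup (Fin 2) F)) ⊓ (Q : Subgroup (Matrix.GeneralLinearGroup (Fin 2) F)) = ⊥ := by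
  have H := unipAct_GL (F := F) p
  have hX := not_char_dvd_card_P1 F p
  obtain ⟨x, hx⟩ := H.exists_sylow_eq hX P
  obtain ⟨y, hy⟩ := H.exists_sylow_eq hX Q
  rw [eq_bot_iff, hx, hy]
  rintro g ⟨h1, h2⟩
  by_contra hg
  obtain rfl := gl_unique_fixed p hg h1.1 h1.2 h2.2
  exact h (Sylow.ext (hx.trans hy.symm))

end Cfsg.Agent.S0259
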