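import Cfsg.Statements.S0260
import Cfsg.Agent.Classical.SL2Unip

set_option autoImplicit false
open Cfsg

namespace Cfsg.Agent.S0260

open Cfsg.Agent.Classical

/-- Any two distinct Sylow p-subgroups of SL_2(q), p the characteristic, generate SL_2(q). -/
theorem result {F : Type*} [Field F] [Fintype F] (p : ℕ) [Fact p.Prime] [CharP F p] (P Q : Sylow p (Matrix.SpecialLinearGroup (Fin 2) F)) (h : P ≠ Q) : (P : Subgroup (Matrix.SpecialLinearGroup (Fin 2) F)) ⊔ (Q : Subgroup (Matrix.SpecialLinearGroup (Fin 2) F)) = ⊤ := by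
  have H := unipAct_SL (F := F) p
  have hX := not_char_dvd_card_P1 F p
  obtain ⟨x, hx⟩ := H.exists_sylow_eq hX P
  obtain ⟨y, hy⟩ := H.exists_sylow_eq hX Q
  have hxy : x ≠ y := by rintro rfl; exact h (Sylow.ext (hx.trans hy.symm))
  obtain ⟨g, h1, h2⟩ := sl_exists_smul_eq_inf_zero hxy
  apply Subgroup.map_injective (f := (MulAut.conj g).toMonoidHom) (MulAut.conj g).injective
  rw [Subgroup.map_sup, hx, hy, H.smul_U, H.smul_U, h1, h2,
    Subgroup.map_top_of_surjective _ (MulAut.conj g).surjective]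
  exact sl_eq_top_of_uSL_lSL
    (fun b => Subgroup.mem_sup_left ((mem_unipSL_inf p).2 ⟨b, rfl⟩))
    (fun b => Subgroup.mem_sup_right ((mem_unipSL_zero p).2 ⟨b, rfl⟩))

end Cfsg.Agent.S0260
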