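import Cfsg.Statements.S0263
import Cfsg.Agent.Classical.SL2Unip

set_option autoImplicit false
open Cfsg

namespace Cfsg.Agent.S0263

open Cfsg.Agent.Classical

/-- A Sylow p-subgroup of GL_n(q), p the characteristic, has order q^(n(n-1)/2). -/
theorem result {F : Type*} [Field F] [Fintype F] {q : ℕ} (hF : Fintype.card F = q) (p : ℕ) [Fact p.Prime] [CharP F p] (n : ℕ) (P : Sylow p (Matrix.GeneralLinearGroup (Fin n) F)) : Nat.card P = q ^ (n * (n - 1) / 2) := by
  have hp : p.Prime := Fact.out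
  obtain ⟨k, -, hk⟩ := FiniteField.card F p
  rw [hF] at hk
  rw [hk, ← pow_mul]
  apply card_sylow_of_card P (m := ∏ i : Fin n, (q ^ (n - i) - 1))
  · rw [Matrix.card_GL_field, hF, pow_mul, ← hk, ← Finset.sum_range_id, ← Finset.prod_pow_eq_pow_sum,
      Finset.prod_range, ← Finset.prod_mul_distrib]
    refine Finset.prod_congr rfl fun i _ => ?_
    rw [Nat.mul_sub, ← pow_add, mul_one, Nat.add_sub_cancel' i.2.le]
  · rw [hp.prime.dvd_finsetProd_iff]
    rintro ⟨i, -, hi⟩
    have h1 : p ∣ q ^ (n - i) := dvd_pow (hk ▸ dvd_pow_self p k.ne_zero) (by have := i.2; omega)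
    have h2 : 0 < q ^ (n - i) := pow_pos (hk ▸ pow_pos hp.pos _) _
    exact hp.one_lt.ne' (Nat.dvd_one.1 ((Nat.dvd_sub_iff_right h2 h1).1 hi))

end Cfsg.Agent.S0263
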