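import Cfsg.Statements.S0267
import Cfsg.Agent.Classical.P1

set_option autoImplicit false
open Cfsg

namespace Cfsg.Agent.S0267

open Matrix Classical in
theorem key {F : Type*} [Field F] (g : Matrix.SpecialLinearGroup (Fin 2) F) (c : F)
    (h0 : g • (inf : P1 F) = inf) (h1 : g • (pt 0 : P1 F) = pt 0) (h2 : g • (pt 1 : P1 F) = pt c) :
    IsSquare c := by
  rw [sl_smul_eq, gl_smul_inf_eq_inf] at h0
  rw [sl_smul_eq, gl_smul_pt_eq_pt] at h1 h2
  have hd := g.det_coe
  rw [det_fin_two] at hd
  simp only [SpecialLinearGroup.coe_GL_coe_matrix] at h0 h1 h2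
  refine ⟨g.1 0 0, ?_⟩
  rw [h0] at h2 hd
  have h3 : g.1 0 1 = 0 := by simpa using h1
  rw [h3] at h2
  linear_combination (- g.1 0 0) * h2 - c * hd

/-- SL_2(q) is 3-transitive on the q+1 points of the projective line if and only if q is even. -/
theorem result {F : Type*} [Field F] [Fintype F] : MulAction.IsMultiplyPretransitive (Matrix.SpecialLinearGroup (Fin 2) F) (Projectivization F (Fin 2 → F)) 3 ↔ ringChar F = 2 := by
  classical
  open Classical in
  constructor
  · intro h
    by_contra h2
    obtain ⟨c, hc⟩ := FiniteField.exists_nonsquare h2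
    have hc0 : c ≠ 0 := by rintro rfl; exact hc ⟨0, by simp⟩
    rw [MulAction.isMultiplyPretransitive_iff] at h
    obtain ⟨g, hg⟩ := h ⟨![inf, pt 0, pt 1], by
        intro i j; fin_cases i <;> fin_cases j <;> simp⟩
      ⟨![inf, pt 0, pt c], by intro i j; fin_cases i <;> fin_cases j <;> simp [hc0, hc0.symm]⟩
    exact hc (key g c (congrArg (· 0) hg) (congrArg (· 1) hg) (congrArg (· 2) hg))
  · intro h
    rw [MulAction.isMultiplyPretransitive_iff]
    intro x y
    obtain ⟨g, h0, h1, h2⟩ := exists_smul_eq_three (x := x 0) (y := x 1) (z := x 2)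
      (x' := y 0) (y' := y 1) (z' := y 2) (by simp) (by simp) (by simp) (by simp) (by simp) (by simp)
    obtain ⟨g', rfl⟩ := Matrix.ProjectiveSpecialLinearGroup.toPGL_surj_of_roots (n := Fin 2) (R := F)
      (fun r => by
        obtain ⟨s, hs⟩ := FiniteField.isSquare_of_char_two h (r : F)
        have : s ≠ 0 := by rintro rfl; exact r.ne_zero (by simpa using hs)
        exact ⟨Units.mk0 s this, Units.ext (by simp [hs, sq])⟩) g
    induction g' using QuotientGroup.induction_on with | H g' =>
    rw [← psl_smul_eq] at h0 h1 h2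
    refine ⟨g', ?_⟩
    ext i
    fin_cases i
    · exact h0
    · exact h1
    · exact h2

end Cfsg.Agent.S0267
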