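import Cfsg.Statements.S0272
import Cfsg.Agent.Classical.SL2Unip
import Cfsg.Agent.S0258

set_option autoImplicit false
open Cfsg

namespace Cfsg.Agent.S0272

open Cfsg.Agent.Classical

/-- The normaliser in GL_2(q) of a Sylow p-subgroup, p the characteristic, has order q (q-1)^2. -/
theorem result {F : Type*} [Field F] [Fintype F] {q : ℕ} (hF : Fintype.card F = q) (p : ℕ) [Fact p.Prime] [CharP F p] (P : Sylow p (Matrix.GeneralLinearGroup (Fin 2) F)) : Nat.card (Subgroup.normalizer ((P : Subgroup (Matrix.GeneralLinearGroup (Fin 2) F)) : Set (Matrix.GeneralLinearGroup (Fin 2) F))) = q * (q - 1) ^ 2 := by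
  have h1 := S0258.result hF p
  rw [P.card_eq_index_normalizer] at h1
  have h2 := (Subgroup.normalizer (P : Set (Matrix.GeneralLinearGroup (Fin 2) F))).index_mul_card
  rw [h1, card_GL2, Nat.card_eq_fintype_card (α := F), hF, mul_comm] at h2
  exact Nat.eq_of_mul_eq_mul_right (Nat.succ_pos q) h2

end Cfsg.Agent.S0272
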