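import Cfsg.Statements.S0273
import Cfsg.Agent.Classical.SL2Unip

set_option autoImplicit false
open Cfsg

namespace Cfsg.Agent.S0273

open Cfsg.Agent.Classical

/-- In GL_2(q) the centraliser of a non-trivial element of a Sylow p-subgroup (p the characteristic) has order q (q-1): the Sylow subgroup times the scalars. -/
theorem result {F : Type*} [Field F] [Fintype F] {q : ℕ} (hF : Fintype.card F = q) (p : ℕ) [Fact p.Prime] [CharP F p] (P : Sylow p (Matrix.GeneralLinearGroup (Fin 2) F)) (a : Matrix.GeneralLinearGroup (Fin 2) F) (ha : a ∈ P) (ha1 : a ≠ 1) : Nat.card (Subgroup.centralizer ({a} : Set (Matrix.GeneralLinearGroup (Fin 2) F))) = q * (q - 1) := by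
  obtain ⟨n, hn⟩ := P.2 ⟨a, ha⟩
  obtain ⟨h1, h2⟩ := m2_unip_of_pow p (m := a.1) (n := n) (by
    rw [← Units.val_pow_eq_pow_val, show a ^ p ^ n = 1 from congrArg Subtype.val hn, Units.val_one])
  rw [card_centralizer_GL_unip (by rw [disc, h1, h2]; norm_num), Nat.card_eq_fintype_card, hF]
  rintro ⟨b, c, -⟩
  apply ha1
  ext1
  rw [m2_eq_of_upper_unip c h1 h2, b]
  ext i j; fin_cases i <;> fin_cases j <;> simp

end Cfsg.Agent.S0273
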