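import Cfsg.Statements.S0275
import Cfsg.Agent.Classical.DicksonSL
import Cfsg.Agent.S0274
import Cfsg.Agent.S0261

set_option autoImplicit false
open Cfsg

namespace Cfsg.Agent.S0275

open Cfsg.Agent.Classical

/-- If p is odd and H is a subgroup of SL_2(q), q a power of p, with more than one Sylow p-subgroup, then the Sylow 2-subgroups of H are generalised quaternion. -/
theorem result {F : Type*} [Field F] [Fintype F] (p : ℕ) [Fact p.Prime] [CharP F p] (hp : p ≠ 2) (H : Subgroup (Matrix.SpecialLinearGroup (Fin 2) F)) (hH : 1 < Nat.card (Sylow p H)) (S : Sylow 2 H) : ∃ k : ℕ, 1 ≤ k ∧ Nonempty ((S : Subgroup H) ≃* QuaternionGroup (2 ^ k)) := by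
  refine (sl_isCyclic_or_quaternion (two_ne_zero_of_char F p hp) (H.subtype.comp (Subgroup.subtype _))
    (H.subtype_injective.comp (Subgroup.subtype_injective _)) S.2).resolve_left fun h => ?_
  obtain ⟨K, hK, ⟨e⟩⟩ := S0274.result p hp H hH
  obtain ⟨P⟩ : Nonempty (Sylow 2 (Matrix.SpecialLinearGroup (Fin 2) (ZMod p))) := inferInstance
  obtain ⟨k, hk, ⟨e'⟩⟩ := S0261.result (F := ZMod p)
    (by rw [ZMod.card]; exact (Fact.out : p.Prime).odd_of_ne_two hp) P
  let f : Matrix.SpecialLinearGroup (Fin 2) (ZMod p) →* H :=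
    (Subgroup.inclusion hK).comp e.symm.toMonoidHom
  have hf : Function.Injective f := (Subgroup.inclusion_injective hK).comp e.symm.injective
  obtain ⟨Q, hQ⟩ := (P.2.map f).exists_le_sylow
  have : IsCyclic Q := isCyclic_of_surjective _ (S.equiv Q).surjective
  have : IsCyclic ((P : Subgroup _).map f) := Subgroup.isCyclic_of_le hQ
  have : IsCyclic (QuaternionGroup (2 ^ k)) := isCyclic_of_surjective _
    (((P : Subgroup _).equivMapOfInjective f hf).symm.trans e').surjective
  have h1 := this.isMulCommutative.is_comm.comm (QuaternionGroup.a 1) (QuaternionGroup.xa 0)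
  simp only [QuaternionGroup.a_mul_xa, QuaternionGroup.xa_mul_a, QuaternionGroup.xa.injEq] at h1
  have h2 : ((2 : ℕ) : ZMod (2 * 2 ^ k)) = 0 := by push_cast; linear_combination -h1
  rw [ZMod.natCast_eq_zero_iff] at h2
  have := Nat.le_of_dvd two_pos h2
  have : 2 ^ 1 ≤ 2 ^ k := Nat.pow_le_pow_right two_pos hk
  omega

end Cfsg.Agent.S0275
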