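import Cfsg.Statements.S0282
import Cfsg.Agent.Gen2.U32

set_option autoImplicit false
open Cfsg

namespace Cfsg.Agent.S0282

/-- PSU_3(2) is a solvable group of order 72. -/
theorem result {F : Type*} [Field F] [Fintype F] (hF : Fintype.card F = 4) : Nat.card (Cfsg.PSU 3 F 2) = 72 ∧ Group.IsSolvable (Cfsg.PSU 3 F 2) := by
  refine ⟨Gen2.card_psu32 hF, ?_⟩
  obtain ⟨N, _, h, -, ⟨e⟩⟩ := Gen2.psu32 hF
  have : Finite N := Nat.finite_of_card_ne_zero (by omega)
  have := (IsPGroup.of_card (p := 3) (n := 2) h).isNilpotent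
  have := (IsPGroup.of_card (G := QuaternionGroup 2) (p := 2) (n := 3) (by simp [QuaternionGroup.card])).isNilpotent
  have := Group.isSolvable_of_isSolvable_injective (f := e.toMonoidHom) e.injective
  exact Group.isSolvable_of_ker_le_range N.subtype (QuotientGroup.mk' N) (by simp)

end Cfsg.Agent.S0282
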