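import Cfsg.Statements.S0298
import Cfsg.Agent.Classical.LowIso

set_option autoImplicit false
open Cfsg

namespace Cfsg.Agent.S0298

open Cfsg.Agent.Classical Cfsg.Agent.Geom Cfsg.Agent.Geom.Formed Module

/-- PΩ_3(q) is isomorphic to PSL_2(q) for q odd. -/
theorem result {F : Type*} [Field F] [Fintype F] (hodd : Odd (Fintype.card F)) : Nonempty (Cfsg.POmega F (Cfsg.quadFormOdd 1 F) ≃* Matrix.ProjectiveSpecialLinearGroup (Fin 2) F) := by
  obtain ⟨f, hf⟩ := exists_hom_O3 (F := F)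
  have h2 : (2 : F) ≠ 0 := two_ne_zero_iff_odd.2 (by rwa [Nat.card_eq_fintype_card])
  have h3 : 3 ≤ Nat.card F := by
    have := Finite.one_lt_card (α := F)
    rw [← Nat.card_eq_fintype_card, Nat.odd_iff] at hodd
    omega
  have hn := quadOdd_nondeg F 1 h2
  obtain ⟨e⟩ := low_iso hn (notExc_of_two_ne_zero h2) (by simp) f sl_neg_one_eq sl_neg_one_mem hf
    (hom_units_int_SL2 h3) (by
      rw [card_isom_odd 1 hn (by simp), card_SL2]
      obtain ⟨k, hk⟩ : ∃ k, Nat.card F = k + 1 := ⟨Nat.card F - 1, by omega⟩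
      simp only [hk, Finset.prod_range_one, Nat.add_sub_cancel]
      rw [show (k + 1) ^ (2 * (0 + 1)) - 1 = k * (k + 2) from Nat.sub_eq_of_eq_add (by ring)]
      ring) center_PSL2
  rw [← coe_quadOdd]
  exact ⟨(pOmegaEquiv _).trans e⟩

end Cfsg.Agent.S0298
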