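import Cfsg.Statements.S0299
import Cfsg.Agent.Classical.LowIso

set_option autoImplicit false
open Cfsg

namespace Cfsg.Agent.S0299

open Cfsg.Agent.Classical Cfsg.Agent.Geom Cfsg.Agent.Geom.Formed Module

/-- PΩ^+_4(q) is isomorphic to PSL_2(q) x PSL_2(q) for q at least 3. -/
theorem result {F : Type*} [Field F] [Fintype F] (hF : 3 ≤ Fintype.card F) : Nonempty (Cfsg.POmega F (Cfsg.quadFormPlus 2 F) ≃* Matrix.ProjectiveSpecialLinearGroup (Fin 2) F × Matrix.ProjectiveSpecialLinearGroup (Fin 2) F) := by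
  obtain ⟨f, hf⟩ := exists_hom_O4p (F := F)
  have hn := quadPlus_nondeg F 2
  have hx := notExc_plus (F := F) (m := 2) (.inl (by omega))
  rw [← Nat.card_eq_fintype_card] at hF
  have h1 : ((pslMk F).prodMap (pslMk F)).ker = Subgroup.center _ := by
    ext g
    simp [MonoidHom.ker_prodMap, Subgroup.mem_prod, Subgroup.mem_center_iff, Prod.ext_iff,
      forall_and]
  let e₀ := (QuotientGroup.quotientMulEquivOfEq h1).symm.trans
    (QuotientGroup.quotientKerEquivOfSurjective _ (pslMk_surjective.prodMap pslMk_surjective))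
  obtain ⟨e⟩ := low_iso hn hx (by simp) f (fun h => by rw [sl_neg_one_eq h]; rfl)
    (Subgroup.mem_center_iff.2 fun g => by simp [Prod.ext_iff]) hf (fun φ g => by
      rw [← Prod.fst_mul_snd g, map_mul]
      exact (congrArg₂ _ (hom_units_int_SL2 hF (φ.comp (MonoidHom.inl _ _)) g.1)
        (hom_units_int_SL2 hF (φ.comp (MonoidHom.inr _ _)) g.2)).trans (one_mul 1)) (by
      rw [card_isom_plus 1 hn (quadPlus_wittIndex F 2) (by simp), Nat.card_prod, card_SL2]
      obtain ⟨k, hk⟩ : ∃ k, Nat.card F = k + 1 := ⟨Nat.card F - 1, by omega⟩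
      simp only [hk, Finset.prod_range_one, Nat.add_sub_cancel]
      rw [show (k + 1) ^ (2 * (0 + 1)) - 1 = k * (k + 2) from Nat.sub_eq_of_eq_add (by ring)]
      ring) (eq_bot_iff.2 fun g hg => e₀.injective (by
        have h2 : ∀ x, x * e₀ g = e₀ g * x := fun x => by
          obtain ⟨x, rfl⟩ := e₀.surjective x
          rw [← map_mul, Subgroup.mem_center_iff.1 hg, map_mul]
        rw [map_one]
        exact Prod.ext (center_PSL2.le (Subgroup.mem_center_iff.2 fun x => congrArg Prod.fst (h2 (x, 1))))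
          (center_PSL2.le (Subgroup.mem_center_iff.2 fun x => congrArg Prod.snd (h2 (1, x))))))
  rw [← coe_quadPlus]
  exact ⟨(pOmegaEquiv _).trans (e.trans e₀)⟩

end Cfsg.Agent.S0299
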