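import Cfsg.Statements.S0300
import Cfsg.Agent.Classical.LowIso

set_option autoImplicit false
open Cfsg

namespace Cfsg.Agent.S0300

open Cfsg.Agent.Classical Cfsg.Agent.Geom Cfsg.Agent.Geom.Formed Module

/-- PΩ^-_4(q) is isomorphic to PSL_2(q^2). -/
theorem result {F K : Type*} [Field F] [Fintype F] [Field K] [Fintype K] {q : ℕ} (hF : Fintype.card F = q) (hK : Fintype.card K = q ^ 2) (a b : F) (hab : ∀ z₁ z₂ : F, z₁ ^ 2 + a * z₁ * z₂ + b * z₂ ^ 2 = 0 → z₁ = 0 ∧ z₂ = 0) : Nonempty (Cfsg.POmega F (Cfsg.quadFormMinus 1 F a b) ≃* Matrix.ProjectiveSpecialLinearGroup (Fin 2) K) := by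
  obtain ⟨f, hf⟩ := exists_hom_O4m hK hF hab
  have hn := quadMinus_nondeg F 1 (disc_ne_zero_of_anisotropic hab)
  have hw := quadMinus_wittIndex F 1 hab
  have h2 := two_le_of_card_eq_sq hK
  rw [← Nat.card_eq_fintype_card] at hF hK
  obtain ⟨e⟩ := low_iso hn (.inr (.inr fun h => by have := h.unique hw; omega)) (by simp) f
    (fun h => sl_neg_one_eq (two_eq_zero_iff_even.2 (by
      rw [hK, ← hF]; exact (two_eq_zero_iff_even.1 h).pow_of_ne_zero two_ne_zero)))
    sl_neg_one_mem hf (hom_units_int_SL2 (by nlinarith)) (by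
      rw [card_isom_minus 1 hn hw (by simp), card_SL2, hK, hF]
      simp only [Finset.prod_range_one]
      ring) center_PSL2
  rw [← coe_quadMinus]
  exact ⟨(pOmegaEquiv _).trans e⟩

end Cfsg.Agent.S0300
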