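import Cfsg.Statements.S0304
import Cfsg.Agent.Classical.SpTwo

set_option autoImplicit false
open Cfsg

namespace Cfsg.Agent.S0304

open Cfsg.Agent.Classical Cfsg.Agent.Geom Cfsg.Agent.Geom.Formed Module

/-- In characteristic 2, O_{2m+1}(q) is isomorphic to Sp_{2m}(q). -/
theorem result {F : Type*} [Field F] [Fintype F] [CharP F 2] (m : ℕ) : Nonempty (Cfsg.isometryGroup F (Cfsg.quadFormOdd m F) ≃* Matrix.symplecticGroup (Fin m) F) := by
  rw [← coe_quadOdd]
  exact (O_odd_equiv_sp (F := F) (m := m)).map fun e => (isometryEquiv _).trans (e.trans (spEquiv m F).symm)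

end Cfsg.Agent.S0304
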