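import Cfsg.Statements.S0307
import Cfsg.Agent.Classical.DetQuot

set_option autoImplicit false
open Cfsg

namespace Cfsg.Agent.S0307

open Cfsg.Agent.Classical Matrix Subgroup MulAction

/-- PSL_n(q) is normal in PGL_n(q) with cyclic quotient of order gcd(n, q-1): the image of the natural map PSL_n → PGL_n is the kernel of a surjective homomorphism onto the cyclic group of that order. -/
theorem result {F : Type*} [Field F] [Fintype F] {q : ℕ} (hF : Fintype.card F = q) (n : ℕ) (hn : 1 ≤ n) : ∃ g : Matrix.ProjGenLinGroup (Fin n) F →* Multiplicative (ZMod (Nat.gcd n (q - 1))), Function.Surjective g ∧ g.ker = (Matrix.ProjectiveSpecialLinearGroup.toPGL : Matrix.ProjectiveSpecialLinearGroup (Fin n) F →* Matrix.ProjGenLinGroup (Fin n) F).range := by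
  have : Nonempty (Fin n) := ⟨⟨0, hn⟩⟩
  have hZ : (Subgroup.center (GL (Fin n) F)).map GeneralLinearGroup.det =
      (powMonoidHom n).range := by
    ext x
    rw [GeneralLinearGroup.center_eq_range_scalar]
    constructor
    · rintro ⟨_, ⟨a, rfl⟩, rfl⟩
      exact ⟨a, by simp⟩
    · rintro ⟨a, rfl⟩
      exact ⟨_, ⟨a, rfl⟩, by simp⟩
  obtain ⟨φ, h1, h2⟩ := exists_hom_zmod_gcd (GeneralLinearGroup.det : GL (Fin n) F →* Fˣ)
    GeneralLinearGroup.det_surjective _ n hZ (N := q - 1)
    (by rw [Nat.card_units, Nat.card_eq_fintype_card, hF])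
  refine ⟨QuotientGroup.lift _ φ (h2 ▸ le_sup_right), ?_, ?_⟩
  · intro y
    obtain ⟨x, rfl⟩ := h1 y
    exact ⟨ProjGenLinGroup.mk x, rfl⟩
  · ext g
    induction g using ProjGenLinGroup.induction_on with | mk g =>
    change g ∈ φ.ker ↔ _
    rw [h2, ← range_toGL, ← ProjGenLinGroup.ker_mk, ← Subgroup.comap_map_eq, Subgroup.mem_comap]
    constructor
    · rintro ⟨_, ⟨s, rfl⟩, h⟩
      exact ⟨QuotientGroup.mk s, h⟩
    · rintro ⟨s, h⟩
      induction s using QuotientGroup.induction_on with | H s =>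
      exact ⟨_, ⟨s, rfl⟩, h⟩

end Cfsg.Agent.S0307
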