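import Cfsg.Statements.S0310
import Cfsg.Agent.BN.Parabolic

set_option autoImplicit false
open Cfsg

namespace Cfsg.Agent.S0310

/-- For a set `J` of distinguished generators, the subgroup generated by `B` and `J` is exactly the union of
the double cosets `B n B` with `n` in the subgroup generated by `J` (so `B W_J B` is a subgroup). -/
theorem result {G : Type*} [Group G] (P : Cfsg.BNPair G) {J : Set G}
    (hJ : J ⊆ P.S) (g : G) :
    g ∈ P.parabolic J ↔ ∃ n ∈ Subgroup.closure J, g ∈ DoubleCoset.doubleCoset n (P.B : Set G) P.B := by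
  constructor
  · intro hg
    obtain ⟨l, hl, hp⟩ := (BN.mem_parabolic_iff hJ).1 hg
    refine ⟨BN.wordN l, BN.wordN_mem fun s hs => Subgroup.subset_closure (hl s hs), ?_⟩
    rw [← BN.cell_eq_cell_iff_mem, BN.cell_coe, BN.wmk_wordN, hp]
  · rintro ⟨n, hn, hg⟩
    exact BN.mem_of_cell_eq (BN.B_le_parabolic J) (BN.cell_eq_cell_iff_mem.2 hg)
      ((le_sup_right : Subgroup.closure J ≤ P.parabolic J) hn)

end Cfsg.Agent.S0310
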