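import Cfsg.Statements.S0316
import Cfsg.Agent.BN.Parabolic

set_option autoImplicit false
open Cfsg

namespace Cfsg.Agent.S0316

/-- The map `J ↦ P_J` is a lattice isomorphism from the power set of the set of distinguished generators onto the
subgroups containing `B`. -/
theorem result {G : Type*} [Group G] (P : Cfsg.BNPair G) :
    ∃ e : Set P.S ≃o {M : Subgroup G // P.B ≤ M},
      ∀ J : Set P.S, ((e J : {M : Subgroup G // P.B ≤ M}) : Subgroup G) = P.parabolic (Subtype.val '' J) := by
  have hsub : ∀ J : Set P.S, Subtype.val '' J ⊆ P.S := by rintro J _ ⟨s, _, rfl⟩; exact s.2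
  let e : Set P.S ≃ {M : Subgroup G // P.B ≤ M} :=
    { toFun := fun J => ⟨P.parabolic (Subtype.val '' J), BN.B_le_parabolic _⟩
      invFun := fun M => {s | (s : G) ∈ M.1}
      left_inv := by
        intro J
        ext s
        simp only [Set.mem_setOf_eq]
        rw [BN.s_mem_parabolic_iff (hsub J) s.2]
        simp
      right_inv := by
        rintro ⟨M, hM⟩
        apply Subtype.ext
        simp only
        conv_rhs => rw [BN.eq_parabolic hM]
        congr 1
        ext s
        simp [and_comm] }
  refine ⟨⟨e, ?_⟩, fun J => rfl⟩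
  intro J K
  constructor
  · intro h s hs
    have h1 : (s : G) ∈ P.parabolic (Subtype.val '' K) :=
      h (BN.subset_parabolic (P := P) (Subtype.val '' J) ⟨s, hs, rfl⟩)
    rw [BN.s_mem_parabolic_iff (hsub K) s.2] at h1
    simpa using h1
  · intro h
    exact BN.parabolic_mono (P := P) (Set.image_mono h)

end Cfsg.Agent.S0316
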