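import Cfsg.Statements.S0321
import Cfsg.Agent.BN.Parabolic

set_option autoImplicit false
open Cfsg

namespace Cfsg.Agent.S0321

/-- For `n ∈ N` not in `B`, the union `B ∪ B n B` is (the underlying set of) a subgroup exactly when `n` agrees
modulo `B ⊓ N` with one of the distinguished representatives; thus the distinguished involutions are
determined by `B` and `N`. -/
theorem result {G : Type*} [Group G] (P : Cfsg.BNPair G) {n : G}
    (hn : n ∈ P.N) (hnB : n ∉ P.B) :
    (∃ H : Subgroup G, (H : Set G) = (P.B : Set G) ∪ DoubleCoset.doubleCoset n (P.B : Set G) P.B) ↔ ∃ s ∈ P.S, s⁻¹ * n ∈ P.B := by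
  constructor
  · rintro ⟨H, hH⟩
    have hB : P.B ≤ H := fun b hb => by rw [← SetLike.mem_coe, hH]; exact Or.inl hb
    have hnH : n ∈ H := by
      rw [← SetLike.mem_coe, hH]; exact Or.inr (DoubleCoset.mem_doubleCoset_self _ _ _)
    have hne : (P.S ∩ (H : Set G)).Nonempty := by
      by_contra h
      rw [Set.not_nonempty_iff_eq_empty] at h
      rw [BN.eq_parabolic hB, h, BNPair.parabolic, Subgroup.closure_empty, sup_bot_eq] at hnH
      exact hnB hnH
    obtain ⟨s, hs, hsH⟩ := hne
    refine ⟨s, hs, ?_⟩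
    rw [hH] at hsH
    rcases hsH with h | h
    · exact absurd h (BN.not_mem_B ⟨s, hs⟩)
    · rw [← BN.cell_eq_cell_iff_mem, BN.cell_of_mem hn, BN.cell_of_mem (P.subset hs), BN.wmk_eq_iff] at h
      exact h
  · rintro ⟨s, hs, h⟩
    have hc : BN.cell P n = (BN.gens P).s ⟨s, hs⟩ := by
      rw [BN.cell_of_mem hn, BN.gens_s, eq_comm, BN.wmk_eq_iff]; exact h
    refine ⟨P.parabolic {s}, ?_⟩
    ext g
    rw [SetLike.mem_coe, BN.mem_parabolic_iff (Set.singleton_subset_iff.2 hs), Set.mem_union, SetLike.mem_coe,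
      ← BN.cell_eq_cell_iff_mem, ← BN.cell_eq_one_iff, hc]
    constructor
    · rintro ⟨l, hl, hp⟩
      rw [← hp]
      clear hp
      induction l with
      | nil => simp
      | cons t l ih =>
        have ht : t = ⟨s, hs⟩ := Subtype.ext (hl t (by simp))
        rcases ih (fun u hu => hl u (by simp [hu])) with h1 | h1
        · right; simp [h1, ht]
        · left; simp [h1, ht, BN.InvGen.mul_self]
    · rintro (h1 | h1)
      · rw [h1]; exact Subgroup.one_mem _
      · rw [h1]; exact BN.s_mem_weylSub rfl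

end Cfsg.Agent.S0321
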