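import Cfsg.Statements.S0322
import Cfsg.Agent.BN.Parabolic

set_option autoImplicit false
open Cfsg

namespace Cfsg.Agent.S0322

/-- A group with a (B,N)-pair of rank one acts doubly transitively on the left cosets of `B`. -/
theorem result {G : Type*} [Group G] (P : Cfsg.BNPair G) (h : P.rank = 1) : MulAction.IsMultiplyPretransitive G (G ⧸ P.B) 2 := by
  obtain ⟨hsub, ⟨s⟩⟩ := Nat.card_eq_one_iff_unique.1 h
  have hW : ∀ w : BN.Weyl P, w = 1 ∨ w = (BN.gens P).s s := by
    intro w
    obtain ⟨l, rfl⟩ := (BN.gens P).gen w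
    induction l with
    | nil => simp
    | cons t l ih =>
      obtain rfl : t = s := Subsingleton.elim _ _
      rcases ih with h1 | h1
      · right; simp [h1]
      · left; simp [h1, BN.InvGen.mul_self]
  rw [MulAction.is_two_pretransitive_iff]
  intro a b c d hab hcd
  obtain ⟨a, rfl⟩ := QuotientGroup.mk_surjective a
  obtain ⟨b, rfl⟩ := QuotientGroup.mk_surjective b
  obtain ⟨c, rfl⟩ := QuotientGroup.mk_surjective c
  obtain ⟨d, rfl⟩ := QuotientGroup.mk_surjective d
  rw [Ne, QuotientGroup.eq, ← BN.cell_eq_one_iff] at hab hcd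
  have h1 : BN.cell P (c⁻¹ * d) = BN.cell P (a⁻¹ * b) := by
    rw [(hW _).resolve_left hab, (hW _).resolve_left hcd]
  obtain ⟨b₁, h₁, b₂, h₂, he⟩ := BN.cell_eq_cell_iff.1 h1
  refine ⟨c * b₁ * a⁻¹, ?_, ?_⟩
  · rw [MulAction.Quotient.smul_mk, QuotientGroup.eq]
    simpa using h₁
  · rw [MulAction.Quotient.smul_mk, QuotientGroup.eq]
    have : d = c * (b₁ * (a⁻¹ * b) * b₂) := by rw [← he]; simp
    rw [this]
    simpa [mul_assoc] using h₂

end Cfsg.Agent.S0322
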