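import Cfsg.Statements.S0323

set_option autoImplicit false
open scoped Pointwise
open Cfsg

namespace Cfsg.Agent.S0323

/-- A doubly transitive action on a set with at least three points yields a (B,N)-pair of rank one:
`B` is the stabiliser of a point `x`, `N` the setwise stabiliser of a pair `{x, y}`. -/
theorem result {G Ω : Type*} [Group G] [MulAction G Ω]
    (h2 : MulAction.IsMultiplyPretransitive G Ω 2) {x y z : Ω} (hxy : x ≠ y) (hyz : y ≠ z) (hxz : x ≠ z) :
    ∃ P : Cfsg.BNPair G, P.B = MulAction.stabilizer G x ∧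
      P.N = MulAction.stabilizer G ({x, y} : Set Ω) ∧ P.rank = 1 := by
  rw [MulAction.is_two_pretransitive_iff] at h2
  obtain ⟨s, hsx, hsy⟩ := h2 hxy hxy.symm
  have memN : ∀ n : G, n ∈ MulAction.stabilizer G ({x, y} : Set Ω) ↔
      (n • x = x ∧ n • y = y) ∨ (n • x = y ∧ n • y = x) := by
    intro n
    rw [MulAction.mem_stabilizer_iff, Set.smul_set_insert, Set.smul_set_singleton,
      Set.pair_eq_pair_iff]
  have hsN : s ∈ MulAction.stabilizer G ({x, y} : Set Ω) := (memN s).2 (Or.inr ⟨hsx, hsy⟩)
  have key : ∀ g g' : G, g • x ≠ x → g' • x ≠ x →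
      g ∈ DoubleCoset.doubleCoset g' (MulAction.stabilizer G x : Set G) (MulAction.stabilizer G x) := by
    intro g g' hg hg'
    obtain ⟨b, hb1, hb2⟩ := h2 hg'.symm hg.symm
    refine DoubleCoset.mem_doubleCoset.2 ⟨b, hb1, (b * g')⁻¹ * g, ?_, by simp [mul_assoc]⟩
    simp only [SetLike.mem_coe, MulAction.mem_stabilizer_iff]
    rw [mul_smul, ← hb2, ← mul_smul b, inv_smul_smul]
  have key2 : ∀ g g' : G, g • x = x → g' • x = x →
      g ∈ DoubleCoset.doubleCoset g' (MulAction.stabilizer G x : Set G) (MulAction.stabilizer G x) := by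
    intro g g' hg hg'
    refine DoubleCoset.mem_doubleCoset.2 ⟨1, Subgroup.one_mem _, g'⁻¹ * g, ?_, by simp⟩
    simp only [SetLike.mem_coe, MulAction.mem_stabilizer_iff]
    rw [mul_smul, hg, inv_smul_eq_iff, hg']
  refine ⟨{ B := MulAction.stabilizer G x, N := MulAction.stabilizer G ({x, y} : Set Ω), S := {s}
            sup_eq_top := ?_, conj_mem := ?_, subset := ?_, sq_mem := ?_, inj := ?_, closure_sup := ?_,
            mul_mem_union := ?_, conj_ne := ?_ }, rfl, rfl, by simp [BNPair.rank]⟩
  · rw [eq_top_iff]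
    intro g _
    by_cases hg : g • x = x
    · exact Subgroup.mem_sup_left hg
    · obtain ⟨b, hb, b', hb', rfl⟩ := DoubleCoset.mem_doubleCoset.1 (key g s hg (by rw [hsx]; exact hxy.symm))
      exact Subgroup.mul_mem _ (Subgroup.mul_mem _ (Subgroup.mem_sup_left hb) (Subgroup.mem_sup_right hsN))
        (Subgroup.mem_sup_left hb')
  · rintro n hn t ⟨ht1, ht2⟩
    have htx : t • x = x := ht1
    have hty : t • y = y := by
      rcases (memN t).1 ht2 with h | h
      · exact h.2
      · exact absurd (htx.symm.trans h.1) hxy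
    rw [MulAction.mem_stabilizer_iff, mul_smul, mul_smul]
    rcases (memN n).1 hn with h | h
    · have : n⁻¹ • x = x := by rw [inv_smul_eq_iff, h.1]
      rw [this, htx, h.1]
    · have : n⁻¹ • x = y := by rw [inv_smul_eq_iff, h.2]
      rw [this, hty, h.2]
  · rintro _ rfl; exact hsN
  · rintro _ rfl
    rw [MulAction.mem_stabilizer_iff, mul_smul, hsx, hsy]
  · rintro _ rfl _ rfl _; rfl
  · apply le_antisymm
    · rw [sup_le_iff, Subgroup.closure_le, Set.singleton_subset_iff]
      exact ⟨hsN, inf_le_right⟩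
    · intro n hn
      rcases (memN n).1 hn with h | h
      · exact Subgroup.mem_sup_right ⟨h.1, hn⟩
      · have hs : s ∈ Subgroup.closure {s} := Subgroup.subset_closure rfl
        have : s⁻¹ * n ∈ MulAction.stabilizer G x ⊓ MulAction.stabilizer G ({x, y} : Set Ω) := by
          refine ⟨?_, Subgroup.mul_mem _ (Subgroup.inv_mem _ hsN) hn⟩
          change (s⁻¹ * n) • x = x
          rw [mul_smul, h.1, inv_smul_eq_iff, hsx]
        have h3 := Subgroup.mul_mem _ (Subgroup.mem_sup_left hs) (Subgroup.mem_sup_right this)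
        simpa using h3
  · intro s' hs' n hn b hb
    rw [Set.mem_singleton_iff.1 hs']
    have hb' : b • x = x := hb
    rcases (memN n).1 hn with h | h
    · left
      apply key
      · rw [mul_smul, mul_smul, h.1, hb', hsx]; exact hxy.symm
      · rw [mul_smul, h.1, hsx]; exact hxy.symm
    · by_cases h1 : (s * b * n) • x = x
      · left
        apply key2 _ _ h1
        rw [mul_smul, h.1, hsy]
      · right
        apply key _ _ h1
        rw [h.1]; exact hxy.symm
  · intro s' hs' h
    rw [Set.mem_singleton_iff.1 hs'] at h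
    obtain ⟨b, hb1, hb2⟩ := h2 hxy hxz
    have : s * b * s ∈ (MulAction.stabilizer G x : Set G) := h ▸ ⟨b, hb1, rfl⟩
    simp only [SetLike.mem_coe, MulAction.mem_stabilizer_iff] at this
    rw [mul_smul, mul_smul, hsx, hb2, ← hsy] at this
    exact hyz (smul_left_cancel _ this).symm

end Cfsg.Agent.S0323
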