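import Cfsg.Statements.S0327
import Cfsg.Agent.Sz.Structure

set_option autoImplicit false
open Cfsg

namespace Cfsg.Agent.S0327

/-- The Suzuki group (`m ≥ 1`) is a Zassenhaus group on the `q² + 1` points of the Suzuki–Tits ovoid. -/
theorem result {F : Type*} [Field F] [Fintype F] {m : ℕ} (hm : 1 ≤ m)
    (hF : Fintype.card F = 2 ^ (2 * m + 1)) :
    Cfsg.IsZassenhausGroup (Cfsg.Sz F m) (Cfsg.suzukiOvoid F m) := by
  let := Sz.titsOfCard hm hF
  have he := Sz.titsOfCard_θ hm hF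
  let := Sz.ovoidRep he
  have hs := Sz.ptEquiv_smul he
  refine ⟨⟨fun {g h} hgh => ?_⟩, ?_, ?_, ?_, ?_⟩
  · apply eq_of_smul_eq_smul (α := Sz.Pt F)
    intro p
    apply (Sz.ptEquiv he).injective
    rw [hs, hs, hgh]
  · rw [MulAction.is_two_pretransitive_iff]
    intro a b c d hab hcd
    obtain ⟨a, rfl⟩ := (Sz.ptEquiv he).surjective a
    obtain ⟨b, rfl⟩ := (Sz.ptEquiv he).surjective b
    obtain ⟨c, rfl⟩ := (Sz.ptEquiv he).surjective c
    obtain ⟨d, rfl⟩ := (Sz.ptEquiv he).surjective d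
    obtain ⟨g, h1, h2⟩ := MulAction.is_two_pretransitive_iff.1 (Sz.two_transitive (F := F) (G := Cfsg.Sz F m))
      (fun h => hab (congrArg _ h)) (fun h => hcd (congrArg _ h))
    exact ⟨g, by rw [← hs, h1], by rw [← hs, h2]⟩
  · intro g a b c hab hbc hac ha hb hc
    obtain ⟨a, rfl⟩ := (Sz.ptEquiv he).surjective a
    obtain ⟨b, rfl⟩ := (Sz.ptEquiv he).surjective b
    obtain ⟨c, rfl⟩ := (Sz.ptEquiv he).surjective c
    rw [← hs, (Sz.ptEquiv he).injective.eq_iff] at ha hb hc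
    exact Sz.eq_one_of_fix_three (fun h => hab (congrArg _ h)) (fun h => hbc (congrArg _ h))
      (fun h => hac (congrArg _ h)) ha hb hc
  · obtain ⟨a, h0, h1⟩ := Sz.Tits.big (F := F)
    refine ⟨Sz.M _ (Units.mk0 a h0), fun h => h1 (congrArg Units.val (Sz.M_eq_one.1 h)),
      Sz.ptEquiv he .inf, Sz.ptEquiv he (.fin 0 0), fun h => ?_, ?_, ?_⟩
    · cases (Sz.ptEquiv he).injective h
    · rw [← hs]; simp
    · rw [← hs]; simp
  · intro N hN ht
    rcases (Sz.isSimpleGroup F (Cfsg.Sz F m)).eq_bot_or_eq_top_of_normal N hN with rfl | rfl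
    · obtain ⟨⟨g, hg⟩, h⟩ := ht.exists_smul_eq (Sz.ptEquiv he .inf) (Sz.ptEquiv he (.fin 0 0))
      rw [Subgroup.mem_bot] at hg
      subst hg
      change (1 : Cfsg.Sz F m) • Sz.ptEquiv he .inf = _ at h
      rw [one_smul] at h
      cases (Sz.ptEquiv he).injective h
    · refine ⟨Sz.ptEquiv he .inf, fun h => ?_⟩
      have h1 : (⟨Sz.S _ (0 : F) 1, trivial⟩ : (⊤ : Subgroup (Cfsg.Sz F m))) ∈
          MulAction.stabilizer (⊤ : Subgroup (Cfsg.Sz F m)) (Sz.ptEquiv he .inf) := by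
        change Sz.S (Cfsg.Sz F m) (0 : F) 1 • Sz.ptEquiv he .inf = Sz.ptEquiv he .inf
        rw [← hs]; simp
      rw [h, Subgroup.mem_bot] at h1
      have := Sz.S_eq_one.1 (congrArg Subtype.val h1)
      simp at this

end Cfsg.Agent.S0327
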