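import Cfsg.Statements.S0330
import Cfsg.Agent.Sz.Structure

set_option autoImplicit false
open Cfsg

namespace Cfsg.Agent.S0330

open Sz in
theorem aux {F : Type*} [Field F] [Finite F] [Tits F] {G : Type*} [Group G] [SzRep F G] :
    Monoid.exponent (U F G) = 4 ∧ Subgroup.center (U F G) = commutator (U F G) ∧
      Nat.card (Subgroup.center (U F G)) = Nat.card F := by
  have hc : Subgroup.center (U F G) = (Z F G).subgroupOf (U F G) := by
    ext ⟨u, hu⟩
    rw [Subgroup.mem_center_iff, Subgroup.mem_subgroupOf]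
    constructor
    · intro h
      obtain ⟨a, b, rfl⟩ := hu
      rw [S_mem_Z_iff]
      obtain ⟨c, h0, h1⟩ := Tits.big (F := F)
      have h2 := S_comm_iff'.1 (congrArg Subtype.val (h ⟨S G 1 0, S_mem_U _ _⟩))
      have h3 := S_comm_iff'.1 (congrArg Subtype.val (h ⟨S G c 0, S_mem_U _ _⟩))
      grind
    · intro h v
      exact Subtype.ext (Z_comm h v.2).symm
  refine ⟨?_, ?_, ?_⟩
  · apply Nat.dvd_antisymm
    · exact Monoid.exponent_dvd_of_forall_pow_eq_one fun u => Subtype.ext (pow_four_of_mem_U u.2)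
    · have : orderOf (⟨S G (1 : F) 0, S_mem_U _ _⟩ : U F G) = 2 ^ (1 + 1) := by
        apply orderOf_eq_prime_pow
        · intro h
          have h1 : S G (1 : F) 0 * S G (1 : F) 0 = 1 := by simpa [sq] using congrArg Subtype.val h
          simpa using S_mul_self_eq_one.1 h1
        · exact Subtype.ext (S_pow_four _ _)
      exact (show orderOf _ = 4 from this) ▸ Monoid.order_dvd_exponent _
  · rw [hc]
    apply le_antisymm
    · rintro ⟨_, hu⟩ ⟨b, rfl⟩
      obtain ⟨a, c, rfl⟩ := exists_commutator_eq b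
      have := Subgroup.commutator_mem_commutator (Subgroup.mem_top (⟨S G a 0, S_mem_U _ _⟩ : U F G))
        (Subgroup.mem_top (⟨S G c 0, S_mem_U _ _⟩ : U F G))
      rw [commutator]
      convert this using 1
      apply Subtype.ext
      exact (commutator_S (G := G) a 0 c 0).symm
    · rw [commutator, Subgroup.commutator_le]
      rintro ⟨_, a, b, rfl⟩ - ⟨_, c, d, rfl⟩ -
      exact ⟨_, commutator_S a b c d⟩
  · rw [hc, Nat.card_congr (Subgroup.subgroupOfEquivOfLe Z_le_U).toEquiv, card_Z]

/-- A Sylow 2-subgroup `P` of the Suzuki group (field with `q = 2^(2m+1)` elements, `m ≥ 1`) has order `q²` and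
exponent `4`; its centre coincides with its commutator subgroup and has order `q`. -/
theorem result {F : Type*} [Field F] [Fintype F] {m : ℕ} (hm : 1 ≤ m)
    (hF : Fintype.card F = 2 ^ (2 * m + 1)) (P : Sylow 2 (Cfsg.Sz F m)) :
    Nat.card P = (2 ^ (2 * m + 1)) ^ 2 ∧ Monoid.exponent P = 4 ∧
      Subgroup.center P = commutator P ∧ Nat.card (Subgroup.center P) = 2 ^ (2 * m + 1) := by
  let := Sz.titsOfCard hm hF
  obtain ⟨inst, h⟩ := @Sz.exists_rep_U_eq F _ _ _ _ (Sz.ovoidRep (Sz.titsOfCard_θ hm hF)) _ P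
  have h1 := aux (F := F) (G := Cfsg.Sz F m)
  have h2 := Sz.card_U (F := F) (G := Cfsg.Sz F m)
  rw [Nat.card_eq_fintype_card (α := F), hF, h] at h1 h2
  exact ⟨h2, h1⟩

end Cfsg.Agent.S0330
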