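import Cfsg.Statements.S0332
import Cfsg.Agent.Sz.Partition

set_option autoImplicit false
open Cfsg

namespace Cfsg.Agent.S0332

open Sz in
theorem aux {F : Type*} [Field F] [Finite F] [Tits F] {G : Type*} [Group G] [SzRep F G] : IsCNGroup G := by
  intro g hg
  have := finite_G F G
  rcases Nat.even_or_odd (orderOf g) with h | h
  · rcases elt_cases F g with ⟨x, hx⟩ | ⟨x, l, hl, hx⟩ | h'
    · have : Fact (Nat.Prime 2) := ⟨Nat.prime_two⟩
      apply IsPGroup.isNilpotent (p := 2)
      intro c
      refine ⟨2, Subtype.ext ?_⟩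
      have h1 : x⁻¹ * c * x ∈ U F G := mem_U_of_commute hx
        (fun e => hg (by simpa [mul_assoc] using congrArg (fun z => x * z * x⁻¹) e)) (by
          calc x⁻¹ * c * x * (x⁻¹ * g * x) = x⁻¹ * (c * g) * x := by group
            _ = _ := by rw [Subgroup.mem_centralizer_singleton_iff.1 c.2]; group)
      have := pow_four_of_mem_U h1
      rwa [show x⁻¹ * c * x = x⁻¹ * c * x⁻¹⁻¹ by simp, conj_pow, conj_eq_one_iff] at this
    · have h1 := odd_orderOf_M (G := G) l
      rw [← hx, show x⁻¹ * g * x = MulAut.conj x⁻¹ g by simp, MulEquiv.orderOf_eq] at h1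
      exact absurd h (Nat.not_even_iff_odd.2 h1)
    · exact absurd h (Nat.not_even_iff_odd.2 ((odd_card_sq_add_one F).of_dvd_nat h'.orderOf_dvd))
  · have := isCyclic_centralizer_of_odd F hg h
    exact @CommGroup.isNilpotent _ IsCyclic.commGroup

/-- The Suzuki group is a CN-group: every non-identity element has nilpotent centraliser. -/
theorem result {F : Type*} [Field F] [Fintype F] {m : ℕ} (hm : 1 ≤ m)
    (hF : Fintype.card F = 2 ^ (2 * m + 1)) : Cfsg.IsCNGroup (Cfsg.Sz F m) := by
  let := Sz.titsOfCard hm hF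
  let := Sz.ovoidRep (Sz.titsOfCard_θ hm hF)
  exact aux (F := F)

end Cfsg.Agent.S0332
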