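import Cfsg.Statements.S0335
import Cfsg.Agent.Sz.Structure

set_option autoImplicit false
open Cfsg

namespace Cfsg.Agent.S0335

theorem indep {F : Type*} [Field F] [Sz.Tits F] (a b c : Sz.Pt F) (hab : a ≠ b) (hbc : b ≠ c) (hac : a ≠ c) :
    LinearIndependent F ![Sz.vec a, Sz.vec b, Sz.vec c] := by
  obtain ⟨g, rfl, rfl⟩ := Sz.exists_smul_pair (G := Sz.SzGL F) hab
  obtain ⟨c, rfl⟩ : ∃ c', c = g • c' := ⟨g⁻¹ • c, by simp⟩
  obtain ⟨k₁, h₁, e₁⟩ := Sz.smul_spec g⁻¹ (g • (Sz.Pt.inf : Sz.Pt F))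
  obtain ⟨k₂, h₂, e₂⟩ := Sz.smul_spec g⁻¹ (g • (Sz.Pt.fin 0 0 : Sz.Pt F))
  obtain ⟨k₃, h₃, e₃⟩ := Sz.smul_spec g⁻¹ (g • c)
  rw [inv_smul_smul] at e₁ e₂ e₃
  rw [Fintype.linearIndependent_iff]
  intro r hr
  have h := congrArg (Sz.rho F g⁻¹).mulVec hr
  simp only [Fin.sum_univ_three, Matrix.mulVec_add, Matrix.mulVec_smul, Matrix.cons_val_zero,
    Matrix.cons_val_one, Matrix.cons_val, Matrix.mulVec_zero, e₁, e₂, e₃] at h
  cases c with
  | inf => exact absurd rfl hac
  | fin x y =>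
    have h0 := congrFun h 0
    have h1 := congrFun h 1
    have h2 := congrFun h 2
    have h3 := congrFun h 3
    simp [Sz.vec, h₃] at h0 h1 h2 h3
    have hr2 : r 2 = 0 := by
      by_contra hne
      exact hbc (by rw [h1.resolve_left hne, h2.resolve_left hne])
    simp [hr2, h₁, h₂] at h0 h3
    intro i; fin_cases i <;> assumption

/-- The Suzuki–Tits point set is an ovoid: any three distinct points of it are projectively independent
(no line of projective 3-space meets it in more than two points). -/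
theorem result {F : Type*} [Field F] [Fintype F] {m : ℕ} (hm : 1 ≤ m)
    (hF : Fintype.card F = 2 ^ (2 * m + 1)) (p : Fin 3 ↪ Cfsg.suzukiOvoid F m) :
    Projectivization.Independent (fun i => (p i : Projectivization F (Fin 4 → F))) := by
  let := Sz.titsOfCard hm hF
  have he := Sz.titsOfCard_θ hm hF
  choose q hq using fun i => (Sz.mem_ovoid_iff he).1 (p i).2
  have hne : ∀ i j, i ≠ j → q i ≠ q j := fun i j hij h =>
    hij (p.injective (Subtype.ext (by rw [← hq, ← hq, h])))
  have h1 := indep (q 0) (q 1) (q 2) (hne _ _ (by decide)) (hne _ _ (by decide)) (hne _ _ (by decide))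
  have h2 : ![Sz.vec (q 0), Sz.vec (q 1), Sz.vec (q 2)] = fun i => Sz.vec (q i) := by
    ext1 i; fin_cases i <;> rfl
  rw [h2] at h1
  have h3 := Projectivization.Independent.mk _ (fun i => Sz.vec_ne_zero (q i)) h1
  convert h3 using 2 with i
  exact (hq i).symm

end Cfsg.Agent.S0335
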