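import Cfsg.Statements.S0346
import Cfsg.Agent.Perm.ZassFeit
import Cfsg.Agent.Perm.ZassPSL
import Cfsg.Agent.S0738

set_option autoImplicit false
open Cfsg

namespace Cfsg.Agent.S0346

open MulAction Perm

/-- The number of points of a finite simple Zassenhaus group is `p^k + 1` for some prime power `p^k` (the regular normal
subgroup of a point stabiliser is a `p`-group). -/
theorem result {G Ω : Type*} [Group G] [Finite G] [MulAction G Ω] [Fintype Ω]
    (hZ : Cfsg.IsZassenhausGroup G Ω) [IsSimpleGroup G] :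
    IsPrimePow (Fintype.card Ω - 1) := by
  obtain ⟨-, -, a, b, hab, -⟩ := hZ.2.2.2.1
  obtain ⟨F, hF, ht, hn⟩ := Zass.exists_kernel hZ a
  have hc := Zass.card_kernel hab hF ht
  have h3 := (Zass.card_dvd hZ hab).2
  rw [Nat.card_eq_fintype_card (α := Ω)] at hc h3
  have key : ∀ p f : ℕ, p.Prime → Fintype.card Ω = p ^ f + 1 → IsPrimePow (Fintype.card Ω - 1) :=
    fun p f hp h => ⟨p, f, hp.prime, Nat.pos_of_ne_zero (by rintro rfl; rw [pow_zero] at h; omega), by omega⟩
  by_cases hd : Fintype.card Ω - 2 ≤ 2 * Nat.card ↥(stabilizer G a ⊓ stabilizer G b)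
  · have hFr := Zass.frobKer hZ hab hF
    obtain ⟨-, p, f, hp, -, h⟩ := S0738.result hZ hab hd F hFr.lt.le hFr.normal.subgroupOf
      fun y z hy hz => by
        obtain ⟨u, hu, e⟩ := ht y z hy hz
        refine ⟨⟨u, hu⟩, e, fun v hv => Subtype.ext (inv_mul_eq_one.1 (Zass.kernel_eq_one hF
          (F.mul_mem (F.inv_mem hu) v.2) hy ?_)).symm⟩
        rw [mul_smul, hv, inv_smul_eq_iff, e]
    exact key p f hp h
  rw [← Nat.card_eq_fintype_card] at hd
  rcases Nat.even_or_odd (Nat.card ↥(stabilizer G a ⊓ stabilizer G b)) with h | h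
  · obtain ⟨K, _, _, h1, -⟩ := Zass.equiv_PSL_of_even hZ hab h (by omega)
    obtain ⟨p, _, f, hp, h2⟩ := FiniteField.card' K
    exact key p f hp (by rw [← h2, ← h1, Nat.card_eq_fintype_card])
  · obtain ⟨f, h1⟩ := (Zass.feit hab _ rfl hZ hF h (by omega)).1.exists_card_eq
    exact key 2 f Nat.prime_two (by omega)

end Cfsg.Agent.S0346
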