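import Cfsg.Statements.S0347
import Cfsg.Agent.Perm.ZassSuz2

set_option autoImplicit false
open Cfsg

namespace Cfsg.Agent.S0347

open MulAction Perm

/-- If in a finite simple Zassenhaus group the stabiliser of a point `x` has a normal `2`-subgroup `U` which is
non-abelian and acts regularly on the points other than `x`, then the group is simple of Suzuki order (order-level
predicate `IsSuzuki`). -/
theorem result {G Ω : Type*} [Group G] [Finite G] [MulAction G Ω] [Finite Ω]
    (hZ : Cfsg.IsZassenhausGroup G Ω) [IsSimpleGroup G]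
    (x : Ω) (U : Subgroup G) (hUle : U ≤ MulAction.stabilizer G x) (hUn : (U.subgroupOf (MulAction.stabilizer G x)).Normal)
    (hU2 : IsPGroup 2 U) (hUna : ∃ u v : U, u * v ≠ v * u)
    (hreg : ∀ y z : Ω, y ≠ x → z ≠ x → ∃! u : U, (u : G) • y = z) :
    Cfsg.IsSuzuki G := by
  obtain ⟨b, hb⟩ : ∃ b, x ≠ b := by
    obtain ⟨-, -, a, b, hab, -⟩ := hZ.2.2.2.1
    by_contra! h
    exact hab ((h a).symm.trans (h b))
  obtain ⟨n, ⟨m, rfl⟩, h2, h3, h4, -⟩ :=
    Zass.suzuki hZ hb (Zass.mem_kernel_iff hZ hb hUle hreg) hU2 hUna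
  refine ⟨‹_›, m, by omega, ?_⟩
  rw [Zass.card_eq hZ hb, h3, ← pow_mul, mul_comm _ 2, Nat.add_sub_cancel,
    Nat.eq_sub_of_add_eq h4, mul_comm (_ + 1)]

end Cfsg.Agent.S0347
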