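import Cfsg.Statements.S0362
import Cfsg.Agent.Golay.Basic

set_option autoImplicit false
open Cfsg

namespace Cfsg.Agent.S0362

open Cfsg.Agent.Comp Cfsg.Agent.Golay in
theorem rows_orth : ∀ r ∈ rows, ∀ r' ∈ rows, (popc 24 (r &&& r') : ZMod 2) = 0 := by decide +kernel

/-- The length-24 code is self-orthogonal: the dot product over ZMod 2 of any two of its words vanishes (with dimension 12 this makes it self-dual). -/
theorem result (v w : Cfsg.GolayPt → ZMod 2) (hv : v ∈ Cfsg.golayCode) (hw : w ∈ Cfsg.golayCode) : ∑ i, v i * w i = 0 := by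
  obtain ⟨s, hs, rfl⟩ := Golay.mem_golayCode_iff.1 hv
  obtain ⟨t, ht, rfl⟩ := Golay.mem_golayCode_iff.1 hw
  rw [← Golay.isG_iff.1 hs, ← Golay.isG_iff.1 ht, Golay.gE_eq_lin, Golay.gE_eq_lin]
  refine Comp.lin_induction (p := fun s => ∑ i, Golay.EG.word s i * Golay.EG.word (Comp.lin Golay.rows (t &&& 4095)) i = 0)
    (by simp) (fun a b ha hb => ?_) _ (fun r hr => ?_) _
  · simp only [Comp.Enc.word_xor, Pi.add_apply, add_mul, Finset.sum_add_distrib, ha, hb, add_zero]
  · refine Comp.lin_induction (p := fun s => ∑ i, Golay.EG.word r i * Golay.EG.word s i = 0)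
      (by simp) (fun a b ha hb => ?_) _ (fun r' hr' => ?_) _
    · simp only [Comp.Enc.word_xor, Pi.add_apply, mul_add, Finset.sum_add_distrib, ha, hb, add_zero]
    · rw [Golay.EG.dot_word]; exact rows_orth r hr r' hr'

end Cfsg.Agent.S0362
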