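import Cfsg.Statements.S0371
import Cfsg.Agent.Golay.M24

set_option autoImplicit false
open Cfsg

namespace Cfsg.Agent.S0371

theorem key : ∀ r : ZMod 23, r ≠ 0 → Comp.allL Golay.rows (fun s => Golay.isG (Comp.imgP 24 5 31
    (Comp.pack 5 24 fun i => Golay.EG.enc ((Golay.EG.dec i).map fun x => r * r * x)) s)) = true := by
  decide +kernel

/-- Multiplication by a nonzero square residue modulo 23, fixing the extra point, lies in the group of the length-24 code. -/
theorem result (u : (ZMod 23)ˣ) (hu : IsSquare u) : Equiv.optionCongr (Units.mulLeft u) ∈ Cfsg.M24 := by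
  obtain ⟨r, rfl⟩ := hu
  have : Fact (1 < 23) := ⟨by norm_num⟩
  refine Golay.mem_M24_of_rep ?_ (key r r.ne_zero)
  have := Comp.PRep.canon (E := Golay.EG) Golay.par24 (Equiv.optionCongr (Units.mulLeft (r * r)))
  exact this

end Cfsg.Agent.S0371
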