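import Cfsg.Statements.S0381
import Cfsg.Agent.Golay.Fix

set_option autoImplicit false
open Cfsg

namespace Cfsg.Agent.S0381

/-- The pointwise stabiliser of an octad in the group of the length-24 code has order 16 and every element of it squares to the identity. -/
theorem result (o : Finset Cfsg.GolayPt) (ho : o ∈ Cfsg.octads) : Nat.card ↥(Cfsg.M24 ⊓ fixingSubgroup (Equiv.Perm Cfsg.GolayPt) (o : Set Cfsg.GolayPt)) = 16 ∧ ∀ g ∈ Cfsg.M24 ⊓ fixingSubgroup (Equiv.Perm Cfsg.GolayPt) (o : Set Cfsg.GolayPt), g * g = 1 := by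
  have e : (Comp.fixF Golay.MG o).map M24.subtype = M24 ⊓ fixingSubgroup (Equiv.Perm GolayPt) (o : Set GolayPt) := by
    ext g
    rw [Subgroup.mem_inf, mem_fixingSubgroup_iff]
    exact ⟨fun ⟨k, hk, e⟩ => e ▸ ⟨k.2, hk⟩, fun h => ⟨⟨g, h.1⟩, h.2, rfl⟩⟩
  rw [← e, Subgroup.card_map_of_injective M24.subtype_injective]
  refine ⟨Golay.card_fixOct ho, ?_⟩
  rintro _ ⟨k, hk, rfl⟩
  rw [← map_mul, Golay.sq_fixOct ho hk, map_one]

end Cfsg.Agent.S0381
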