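import Cfsg.Statements.S0384
import Cfsg.Agent.Golay.Mathieu

set_option autoImplicit false
open scoped Pointwise
open Cfsg

namespace Cfsg.Agent.S0384

/-- A dodecad stabiliser is sharply 5-transitive on the dodecad. -/
theorem result (d : Finset Cfsg.GolayPt) (hd : d ∈ Cfsg.dodecads) (x y : Fin 5 ↪ Cfsg.GolayPt) (hx : ∀ i, x i ∈ d) (hy : ∀ i, y i ∈ d) : ∃! g : MulAction.stabilizer Cfsg.M24 d, ∀ i, ((g : Cfsg.M24) : Equiv.Perm Cfsg.GolayPt) (x i) = y i := by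
  obtain ⟨g, hg, e⟩ := Golay.dodecad_trans hd Golay.squareDodecad_mem
  have hm : ∀ z : Fin 5 ↪ Cfsg.GolayPt, (∀ i, z i ∈ d) → ∀ i, (g • z) i ∈ Golay.D12 := fun z hz i => by
    rw [Golay.D12, ← e]; exact Finset.smul_mem_smul_finset (hz i)
  obtain ⟨h, hh, e'⟩ := Golay.trans12 (g • x) (g • y) (hm x hx) (hm y hy)
  have hd' : (g⁻¹ * h * g) • d = d := by
    rw [mul_smul, mul_smul, e, MulAction.mem_stabilizer_iff.1 hh.2, ← e, inv_smul_smul]
  have hxy : ∀ i, (g⁻¹ * h * g) • x i = y i := fun i => by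
    rw [mul_smul, mul_smul, inv_smul_eq_iff]; exact e' i
  refine ⟨⟨⟨g⁻¹ * h * g, M24.mul_mem (M24.mul_mem (M24.inv_mem hg) hh.1) hg⟩, hd'⟩, hxy, ?_⟩
  rintro ⟨⟨k, hk⟩, hk'⟩ hk2
  have hk3 : k • d = d := hk'
  have : h⁻¹ * (g * k * g⁻¹) = 1 := by
    refine Golay.sharp12 (hm x hx) (Spor.M12.mul_mem (Spor.M12.inv_mem hh)
      ⟨M24.mul_mem (M24.mul_mem hg hk) (M24.inv_mem hg), ?_⟩) fun i => ?_
    · show _ • _ = _
      rw [← e, mul_smul, mul_smul, inv_smul_smul, hk3]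
    · rw [mul_smul, inv_smul_eq_iff, e' i]
      show (g * k * g⁻¹) • g • x i = g • y i
      rw [mul_smul, mul_smul, inv_smul_smul]
      exact congrArg g (hk2 i)
  rw [inv_mul_eq_one] at this
  refine Subtype.ext (Subtype.ext ?_)
  show k = g⁻¹ * h * g
  rw [this]; group

end Cfsg.Agent.S0384
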