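import Cfsg.Statements.S0385
import Cfsg.Agent.Golay.Fix

set_option autoImplicit false
open Cfsg

namespace Cfsg.Agent.S0385

/-- The 6-point intersections of octads with a fixed dodecad form a Steiner system S(5, 6, 12) on the dodecad. -/
theorem result (d : Finset Cfsg.GolayPt) (hd : d ∈ Cfsg.dodecads) : Cfsg.IsSteinerSystem 5 6 {h : Finset {p : Cfsg.GolayPt // p ∈ d} | ∃ o ∈ Cfsg.octads, (o ∩ d).card = 6 ∧ h = Finset.subtype (fun p => p ∈ d) o} := by
  have hc : ∀ o : Finset GolayPt, (o.subtype (· ∈ d)).card = (o ∩ d).card := fun o => by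
    rw [Finset.card_subtype, Finset.filter_mem_eq_inter]
  refine ⟨?_, fun s hs => ?_⟩
  · rintro _ ⟨o, -, h, rfl⟩; rw [hc, h]
  have hsub : ∀ o : Finset GolayPt, s ⊆ o.subtype (· ∈ d) ↔ s.map (Function.Embedding.subtype _) ⊆ o := fun o => by
    simp only [Finset.subset_iff, Finset.mem_subtype, Finset.mem_map, Function.Embedding.coe_subtype]
    exact ⟨by rintro h _ ⟨a, ha, rfl⟩; exact h ha, fun h a ha => h ⟨a, ha, rfl⟩⟩
  have h5 : (s.map (Function.Embedding.subtype _)).card = 5 := by rw [Finset.card_map, hs]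
  obtain ⟨o, ho, hso⟩ := Comp.Steiner.exists_block Golay.isSteiner_octads h5
  refine ⟨_, ⟨⟨o, ho, ?_, rfl⟩, (hsub o).2 hso⟩, ?_⟩
  · have h1 := Finset.card_le_card ((hsub o).2 hso)
    have h2 := Golay.card_symmDiff_add o d
    have h3 := Golay.card_supp (Golay.symmDiff_mem_supp ho.1 hd.1)
    rw [hc, hs] at h1
    rw [ho.2, hd.2] at h2
    show (o ∩ d).card = 6
    have h4 := (Finset.card_le_card (Finset.inter_subset_left (s₁ := o) (s₂ := d))).trans ho.2.le
    omega
  · rintro _ ⟨⟨o', ho', -, rfl⟩, h⟩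
    rw [Golay.octad_eq_of_five ho' ho h5.ge ((hsub o').1 h) hso]

end Cfsg.Agent.S0385
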