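import Cfsg.Statements.S0389
import Cfsg.Agent.Golay.Mathieu

set_option autoImplicit false
open scoped Pointwise
open Cfsg

namespace Cfsg.Agent.S0389

/-- The stabiliser of a dodecad and a point on it is 3-transitive on the complementary dodecad. -/
theorem result (d : Finset Cfsg.GolayPt) (hd : d ∈ Cfsg.dodecads) (p : Cfsg.GolayPt) (hp : p ∈ d) (x y : Fin 3 ↪ Cfsg.GolayPt) (hx : ∀ i, x i ∉ d) (hy : ∀ i, y i ∉ d) : ∃ g ∈ MulAction.stabilizer Cfsg.M24 d ⊓ MulAction.stabilizer Cfsg.M24 p, ∀ i, (g : Equiv.Perm Cfsg.GolayPt) (x i) = y i := by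
  obtain ⟨g, hg, e, ep⟩ := Golay.dodecad_point_trans hd hp
  have hm : ∀ z : Fin 3 ↪ Cfsg.GolayPt, (∀ i, z i ∉ d) → ∀ i, (g • z) i ∈ Golay.D12' := fun z hz i => by
    rw [Golay.D12', ← e, Finset.mem_coe, Finset.mem_compl]
    exact fun h => hz i ((Finset.smul_mem_smul_finset_iff g).1 h)
  obtain ⟨h, hh, e'⟩ := Golay.trans11' (g • x) (g • y) (hm x hx) (hm y hy)
  refine ⟨⟨g⁻¹ * h * g, M24.mul_mem (M24.mul_mem (M24.inv_mem hg) hh.1.1) hg⟩, ⟨?_, ?_⟩, fun i => ?_⟩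
  · show (g⁻¹ * h * g) • d = d
    rw [mul_smul, mul_smul, e, MulAction.mem_stabilizer_iff.1 hh.1.2, ← e, inv_smul_smul]
  · show (g⁻¹ * h * g) • p = p
    rw [mul_smul, mul_smul, ep, MulAction.mem_stabilizer_iff.1 hh.2, ← ep, inv_smul_smul]
  · show (g⁻¹ * h * g) • x i = y i
    rw [mul_smul, mul_smul, inv_smul_eq_iff]; exact e' i

end Cfsg.Agent.S0389
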