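import Cfsg.Statements.S0402
import Cfsg.Agent.Leech.Simple

set_option autoImplicit false
open Cfsg

namespace Cfsg.Agent.S0402

open Cfsg.Agent.Leech Cfsg.Agent.Comp

/-- Stabiliser of a minimal vector is simple of order 42305421312000. -/
theorem result (v : Cfsg.leechLattice) (hv : Cfsg.sqNorm (v : Cfsg.GolayPt → ℤ) = 32) : Cfsg.IsCo2 (MulAction.stabilizer Cfsg.Co0 v) := by
  obtain ⟨g, rfl⟩ := norm32 hv
  have := simple_Co2
  let e := (conjEquiv g (map_conj_stabilizer g uu)).symm
  exact ⟨e.isSimpleGroup, (Nat.card_congr e.toEquiv).trans card_Co2⟩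

end Cfsg.Agent.S0402
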