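import Cfsg.Statements.S0403
import Cfsg.Agent.Leech.Simple

set_option autoImplicit false
open Cfsg

namespace Cfsg.Agent.S0403

open Cfsg.Agent.Leech Cfsg.Agent.Comp

/-- Stabiliser of a vector of sum of squares 48 is simple of order 495766656000. -/
theorem result (v : Cfsg.leechLattice) (hv : Cfsg.sqNorm (v : Cfsg.GolayPt → ℤ) = 48) : Cfsg.IsCo3 (MulAction.stabilizer Cfsg.Co0 v) := by
  obtain ⟨g, rfl⟩ := norm48 hv
  have := simple_Co3
  let e := (conjEquiv g (map_conj_stabilizer g vv)).symm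
  exact ⟨e.isSimpleGroup, (Nat.card_congr e.toEquiv).trans card_Co3⟩

end Cfsg.Agent.S0403
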