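import Cfsg.Statements.S0412
import Cfsg.Agent.Golay.Witt

set_option autoImplicit false
open Cfsg

namespace Cfsg.Agent.S0412

/-- Aut of an S(5, 8, 24) is simple of order 244823040 and 5-transitive on points. -/
theorem result {α : Type*} [Fintype α] [DecidableEq α] (hα : Fintype.card α = 24) {B : Set (Finset α)} (hB : Cfsg.IsSteinerSystem 5 8 B) : Cfsg.IsM24 (Cfsg.setSystemAut B) ∧ MulAction.IsMultiplyPretransitive (Cfsg.setSystemAut B) α 5 := by
  obtain ⟨e, h⟩ := Golay.uniq24 hα hB
  have f := (Comp.autEquiv h).trans (MulEquiv.subgroupCongr Golay.M24_eq_aut_octads.symm)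
  have := Golay.simple_M24
  refine ⟨⟨f.isSimpleGroup, (Nat.card_congr f.toEquiv).trans Golay.card_M24⟩,
    (Comp.transOn_aut h ?_).isMultiplyPretransitive⟩
  rw [← Golay.M24_eq_aut_octads]; exact Golay.trans5

end Cfsg.Agent.S0412
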