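import Cfsg.Statements.S0414
import Cfsg.Agent.Golay.Witt

set_option autoImplicit false
open Cfsg

namespace Cfsg.Agent.S0414

/-- Aut of an S(3, 6, 22) has order 887040, is 3-transitive, and contains a simple subgroup of index 2. -/
theorem result {α : Type*} [Fintype α] [DecidableEq α] (hα : Fintype.card α = 22) {B : Set (Finset α)} (hB : Cfsg.IsSteinerSystem 3 6 B) : Nat.card (Cfsg.setSystemAut B) = 887040 ∧ MulAction.IsMultiplyPretransitive (Cfsg.setSystemAut B) α 3 ∧ ∃ H : Subgroup (Cfsg.setSystemAut B), H.index = 2 ∧ Cfsg.IsM22 H := by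
  obtain ⟨E, rfl⟩ := Golay.uniq22 hα hB
  obtain ⟨f⟩ := Golay.sub22_equiv E
  have := Golay.simple_M22
  have hle := (Golay.codes_b22 E).closure_le fun _ _ _ h h' => h.unique h'
  have g := (Subgroup.subgroupOfEquivOfLe hle).trans f.symm
  have hc := (Nat.card_congr g.toEquiv).trans Golay.card_M22
  refine ⟨(Golay.card_closure22 E).1, (Golay.trans_aut22 E).isMultiplyPretransitive, _, ?_, g.isSimpleGroup, hc⟩
  have h1 := Subgroup.card_mul_index ((Subgroup.closure (Comp.genSet (Comp.PRep E 5 31) Golay.b22)).subgroupOf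
    (setSystemAut (Comp.sysOf E Golay.l22)))
  rw [hc, (Golay.card_closure22 E).1] at h1
  omega

end Cfsg.Agent.S0414
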