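import Cfsg.Statements.S0423
import Cfsg.Agent.Spor.MdJ2
import Cfsg.Agent.Spor.Act4

set_option autoImplicit false
open Cfsg

namespace Cfsg.Agent.S0423

/-- Existence of a simple group of order 604800. -/
theorem result : ∃ G : Subgroup (Equiv.Perm (Fin 100)), Cfsg.IsJ2 G := by
  have := Spor.MdJ2.simple
  obtain ⟨P, e, -, -⟩ := Spor.exists_perm_fin Spor.MdJ2.H Spor.MdJ2.index (by decide)
  exact ⟨P, Spor.simple_card_congr ⟨Spor.MdJ2.simple, Spor.MdJ2.card⟩ e⟩

end Cfsg.Agent.S0423
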