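import Cfsg.Statements.S0425
import Cfsg.Agent.Golay.Witt

set_option autoImplicit false
open Cfsg

namespace Cfsg.Agent.S0425

/-- Aut of an S(5, 6, 12) is simple of order 95040 and sharply 5-transitive on points. -/
theorem result {α : Type*} [Fintype α] [DecidableEq α] (hα : Fintype.card α = 12) {B : Set (Finset α)} (hB : Cfsg.IsSteinerSystem 5 6 B) : Cfsg.IsM12 (Cfsg.setSystemAut B) ∧ MulAction.IsMultiplyPretransitive (Cfsg.setSystemAut B) α 5 ∧ ∀ x : Fin 5 ↪ α, MulAction.stabilizer (Cfsg.setSystemAut B) x = ⊥ := by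
  obtain ⟨E, rfl⟩ := Golay.uniq12 hα hB
  obtain ⟨f⟩ := Golay.aut12_equiv E
  obtain ⟨g⟩ := Golay.equiv12 Golay.dod0_mem
  have := Golay.simple_M12
  have ht := (Golay.trans_aut12 E).isMultiplyPretransitive
  refine ⟨⟨(f.symm.trans g).isSimpleGroup, (Golay.card_closure12 E).1⟩, ht, fun x => ?_⟩
  have h1 := Comp.card_stabilizer_embedding (G := setSystemAut (Comp.sysOf E Golay.l12)) x
  rw [(Golay.card_closure12 E).1, hα, show Nat.descFactorial 12 5 = 95040 from rfl] at h1
  exact Subgroup.card_eq_one.1 (Nat.eq_of_mul_eq_mul_left (by norm_num) (h1.symm.trans (mul_one _).symm))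

end Cfsg.Agent.S0425
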