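import Cfsg.Statements.S0426
import Cfsg.Agent.Golay.Witt

set_option autoImplicit false
open Cfsg

namespace Cfsg.Agent.S0426

/-- Aut of an S(4, 5, 11) is simple of order 7920 and sharply 4-transitive on points. -/
theorem result {α : Type*} [Fintype α] [DecidableEq α] (hα : Fintype.card α = 11) {B : Set (Finset α)} (hB : Cfsg.IsSteinerSystem 4 5 B) : Cfsg.IsM11 (Cfsg.setSystemAut B) ∧ MulAction.IsMultiplyPretransitive (Cfsg.setSystemAut B) α 4 ∧ ∀ x : Fin 4 ↪ α, MulAction.stabilizer (Cfsg.setSystemAut B) x = ⊥ := by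
  obtain ⟨E, rfl⟩ := Golay.uniq11 hα hB
  obtain ⟨f⟩ := Golay.aut11_equiv E
  have := Golay.simple_M11
  have ht := (Golay.trans_aut11 E).isMultiplyPretransitive
  refine ⟨⟨f.symm.isSimpleGroup, (Golay.card_closure11 E).1⟩, ht, fun x => ?_⟩
  have h1 := Comp.card_stabilizer_embedding (G := setSystemAut (Comp.sysOf E Golay.l11)) x
  rw [(Golay.card_closure11 E).1, hα, show Nat.descFactorial 11 4 = 7920 from rfl] at h1
  exact Subgroup.card_eq_one.1 (Nat.eq_of_mul_eq_mul_left (by norm_num) (h1.symm.trans (mul_one _).symm))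

end Cfsg.Agent.S0426
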