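import Cfsg.Statements.S0429
import Cfsg.Agent.Perm.Srg77

set_option autoImplicit false
open Cfsg

namespace Cfsg.Agent.S0429

open Perm

/-- Uniqueness of the strongly regular graph with parameters (77, 16, 0, 4). -/
theorem result {V W : Type*} [Fintype V] [Fintype W] {G : SimpleGraph V} {H : SimpleGraph W} [DecidableRel G.Adj] [DecidableRel H.Adj] (hG : G.IsSRGWith 77 16 0 4) (hH : H.IsSRGWith 77 16 0 4) : Nonempty (G ≃g H) := by
  classical
  have h := srg_iff.1 hG
  have h' := srg_iff.1 hH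
  obtain ⟨B, hB, ⟨φ⟩⟩ := S77.exists_iso_block h
  obtain ⟨B', hB', ⟨φ'⟩⟩ := S77.exists_iso_block h'
  obtain ⟨e, he⟩ := HS.exists_sys_iso (Nat.card_eq_fintype_card.symm.trans (S77.card_co h))
    (Nat.card_eq_fintype_card.symm.trans (S77.card_co h')) hB hB'
  exact ⟨(φ.trans (HS.blkIso e he)).trans φ'.symm⟩

end Cfsg.Agent.S0429
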