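import Cfsg.Statements.S0439
import Cfsg.Agent.Fischer.Small
-- import your own Cfsg.Agent.* helpers here

set_option autoImplicit false
open Cfsg

namespace Cfsg.Agent.S0439

/-- In the symmetric group of degree n ≥ 2, the set of transpositions is a conjugacy class of 3-transpositions which generates the group. -/
theorem result (n : ℕ) (hn : 2 ≤ n) : Cfsg.IsThreeTranspositionClass {σ : Equiv.Perm (Fin n) | σ.IsSwap} := by
  open Fischer Equiv in
  refine ⟨⟨fun d hd => Perm.IsSwap.orderOf hd, ?_⟩, ?_, Perm.closure_isSwap⟩
  · rintro _ ⟨a, b, hab, rfl⟩ _ ⟨c, d, hcd, rfl⟩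
    rw [← commute_iff_sq (swap_mul_self _ _) (swap_mul_self _ _),
      ← br_iff_cube (swap_mul_self _ _) (swap_mul_self _ _)]
    have key : ∀ x y z : Fin n, x ≠ y → x ≠ z → y ≠ z → Br (swap x y) (swap y z) := by
      intro x y z h1 h2 h3
      have e1 : swap x y * swap y z * swap x y = swap x z := by
        have := swap_mul_swap_mul_swap h3.symm h2.symm
        rwa [swap_comm y x, swap_comm z y] at this
      have e2 : swap y z * swap x y * swap y z = swap x z := by
        rw [swap_mul_swap_mul_swap h1 h2, swap_comm]
      rw [Br, e1, e2]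
    by_cases h1 : a = c
    · subst h1
      by_cases h2 : b = d
      · subst h2; exact Or.inl (Commute.refl _)
      · right; rw [swap_comm a b]; exact key _ _ _ hab.symm h2 hcd
    by_cases h2 : a = d
    · subst h2
      by_cases h3 : b = c
      · subst h3; left; rw [swap_comm]; exact Commute.refl _
      · right; rw [swap_comm a b, swap_comm c a]; exact key _ _ _ hab.symm h3 h1
    by_cases h3 : b = c
    · subst h3; right; exact key _ _ _ hab h2 hcd
    by_cases h4 : b = d
    · subst h4; right; rw [swap_comm c b]; exact key _ _ _ hab h1 h3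
    left
    apply Perm.Disjoint.commute
    intro x
    by_cases hx : x = a ∨ x = b
    · right; rcases hx with rfl | rfl <;> apply swap_apply_of_ne_of_ne <;> assumption
    · left; push Not at hx; exact swap_apply_of_ne_of_ne hx.1 hx.2
  · have h01 : (⟨0, by omega⟩ : Fin n) ≠ ⟨1, by omega⟩ := by simp
    refine ⟨swap ⟨0, by omega⟩ ⟨1, by omega⟩, ⟨_, _, h01, rfl⟩, ?_⟩
    ext σ
    constructor
    · rintro ⟨a, b, hab, rfl⟩
      exact Perm.isConj_swap h01 hab
    · intro h
      obtain ⟨g, rfl⟩ := isConj_iff.1 h
      exact ⟨_, _, g.injective.ne h01, (swap_apply_apply g _ _).symm⟩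

end Cfsg.Agent.S0439
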