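import Cfsg.Statements.S0442
import Cfsg.Agent.Fischer.Small
-- import your own Cfsg.Agent.* helpers here

set_option autoImplicit false
open Cfsg

namespace Cfsg.Agent.S0442

/-- A standard trick for producing elements of an involution centraliser: for an involution a and an element g, let b be the conjugate g⁻¹ * a * g. If a * b has odd order 2m + 1 then g * (a * b) ^ m commutes with a; if a * b has even order 2m then (a * b) ^ m and (a * (g * a * g⁻¹)) ^ m commute with a. -/
theorem result {G : Type*} [Group G] (a g : G) (ha : orderOf a = 2) : (∀ m : ℕ, orderOf (a * (g⁻¹ * a * g)) = 2 * m + 1 → Commute (g * (a * (g⁻¹ * a * g)) ^ m) a) ∧ (∀ m : ℕ, orderOf (a * (g⁻¹ * a * g)) = 2 * m → Commute ((a * (g⁻¹ * a * g)) ^ m) a ∧ Commute ((a * (g * a * g⁻¹)) ^ m) a) := by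
  open Fischer in
  have h2 := sq_of_orderOf ha
  have hb : (g⁻¹ * a * g) * (g⁻¹ * a * g) = 1 := by
    calc (g⁻¹ * a * g) * (g⁻¹ * a * g) = g⁻¹ * (a * a) * g := by group
      _ = 1 := by rw [h2]; simp
  have hinv := Invol.conj_prod_left h2 hb
  refine ⟨fun m hm => ?_, fun m hm => ?_⟩
  · set r := a * (g⁻¹ * a * g) with hr
    have e1 : a * r ^ m = (r ^ m)⁻¹ * a := by
      have := Invol.conj_pow_of_inverts hinv m
      rw [mul_inv_eq_iff_eq_mul] at this
      rw [this]
    have e2 : r ^ (2 * m + 1) = 1 := by rw [← hm, pow_orderOf_eq_one]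
    have e3 : a * g = g * (a * r) := by rw [hr, ← mul_assoc a a, h2]; group
    have e4 : r ^ m * a = a * (r ^ m)⁻¹ := by
      rw [eq_mul_inv_iff_mul_eq, mul_assoc, e1]; group
    have e5 : (r ^ m)⁻¹ = r * r ^ m := by
      rw [inv_eq_iff_mul_eq_one, ← e2]; group
    show g * r ^ m * a = a * (g * r ^ m)
    rw [mul_assoc, e4, e5, ← mul_assoc a g, e3]; group
  · have key : ∀ b : G, b * b = 1 → orderOf (a * b) = 2 * m → Commute ((a * b) ^ m) a := by
      intro b hb hm
      have hinv := Invol.conj_prod_left h2 hb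
      have := Invol.conj_pow_of_inverts hinv m
      have e2 : (a * b) ^ m * (a * b) ^ m = 1 := by rw [← pow_add, ← two_mul, ← hm, pow_orderOf_eq_one]
      exact Invol.commute_of_inverts_of_mul_self this e2
    refine ⟨key _ hb hm, key _ ?_ ?_⟩
    · calc (g * a * g⁻¹) * (g * a * g⁻¹) = g * (a * a) * g⁻¹ := by group
        _ = 1 := by rw [h2]; simp
    · rw [← hm, ← Invol.orderOf_conj' (a * g) (a * (g⁻¹ * a * g))]
      congr 1
      rw [mul_inv_rev, inv_eq_of_sq h2]
      calc a * (g * a * g⁻¹) = a * (g * a * g⁻¹) * (a * a) := by rw [h2, mul_one]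
        _ = _ := by group

end Cfsg.Agent.S0442
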