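import Cfsg.Statements.S0445
import Cfsg.Agent.Comp.Tv

set_option autoImplicit false
open Cfsg

namespace Cfsg.Agent.S0445



/-- In the special linear group of dimension 5 over the field with two elements, the centraliser of a transvection has order 21504 = 2 ^ 7 · 168 (it is an extension of an extraspecial group of order 2 ^ 7 by the simple group of order 168). -/
theorem result (s : Matrix.SpecialLinearGroup (Fin 5) (ZMod 2)) (hs : (s : Matrix (Fin 5) (Fin 5) (ZMod 2)) = Matrix.transvection 0 1 1) : Nat.card (Subgroup.centralizer ({s} : Set (Matrix.SpecialLinearGroup (Fin 5) (ZMod 2)))) = 21504 := by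
  exact (Comp.Tv.card_equiv s hs).1

end Cfsg.Agent.S0445
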