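import Cfsg.Statements.S0458
import Cfsg.Agent.Spor.MdJ3
import Cfsg.Agent.Spor.Act4

set_option autoImplicit false
open Cfsg

namespace Cfsg.Agent.S0458

/-- Janko's third group exists as a transitive permutation group of degree 6156 with point stabiliser of order 8160: a simple group of order 50232960. -/
theorem result : ∃ H : Subgroup (Equiv.Perm (Fin 6156)), Cfsg.IsJ3 H ∧ MulAction.IsPretransitive H (Fin 6156) ∧ Nat.card (MulAction.stabilizer H (0 : Fin 6156)) = 8160 := by
  have := Spor.MdJ3.simple
  obtain ⟨P, e, h1, h2⟩ := Spor.exists_perm_fin Spor.MdJ3.H Spor.MdJ3.index (by decide)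
  refine ⟨P, Spor.simple_card_congr ⟨Spor.MdJ3.simple, Spor.MdJ3.card⟩ e, h1, ?_⟩
  rw [h2, Subgroup.card_map_of_injective e.injective, Spor.MdJ3.cardH]

end Cfsg.Agent.S0458
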