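import Cfsg.Statements.S0459
import Cfsg.Agent.Spor.RuTits

set_option autoImplicit false
open Cfsg

namespace Cfsg.Agent.S0459

/-- The Rudvalis group exists as a transitive permutation group of degree 4060: simple of order 145926144000, with point stabiliser of order 35942400 containing a simple subgroup of order 17971200 (the order of the Tits group). -/
theorem result : ∃ H : Subgroup (Equiv.Perm (Fin 4060)), Cfsg.IsRu H ∧ MulAction.IsPretransitive H (Fin 4060) ∧ Nat.card (MulAction.stabilizer H (0 : Fin 4060)) = 35942400 ∧ ∃ T : Subgroup (MulAction.stabilizer H (0 : Fin 4060)), Cfsg.IsTits T := by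
  have := Spor.MdRu.simple
  obtain ⟨P, e, h1, h2⟩ := Spor.exists_perm_fin Spor.MdRu.H Spor.MdRu.index (by decide)
  obtain ⟨T, h3⟩ := Spor.MdRu.tits
  obtain ⟨T', -, ⟨e2⟩⟩ := Spor.exists_sub_map e h2 T
  refine ⟨P, Spor.simple_card_congr ⟨Spor.MdRu.simple, Spor.MdRu.card⟩ e, h1, ?_, T', Spor.simple_card_congr h3 e2.symm⟩
  rw [h2, Subgroup.card_map_of_injective e.injective, Spor.MdRu.cardH]

end Cfsg.Agent.S0459
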