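import Cfsg.Statements.S0460
import Cfsg.Agent.Spor.ONSub

set_option autoImplicit false
open Cfsg

namespace Cfsg.Agent.S0460

/-- The O'Nan group exists as a transitive permutation group of degree 122760: simple of order 460815505920, point stabiliser of order 3753792, and containing simple subgroups of orders 175560 and 7920. -/
theorem result : ∃ H : Subgroup (Equiv.Perm (Fin 122760)), Cfsg.IsON H ∧ MulAction.IsPretransitive H (Fin 122760) ∧ Nat.card (MulAction.stabilizer H (0 : Fin 122760)) = 3753792 ∧ (∃ K : Subgroup H, Cfsg.IsJ1 K) ∧ (∃ K : Subgroup H, Cfsg.IsM11 K) := by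
  have := Spor.ONM.simple
  obtain ⟨P, e, h1, h2⟩ := Spor.exists_perm_fin Spor.ONM.H Spor.ONM.index (by decide)
  obtain ⟨K1, h3⟩ := Spor.ONM.subJ1
  obtain ⟨K2, h4⟩ := Spor.ONM.subM11
  refine ⟨P, Spor.simple_card_congr ⟨Spor.ONM.simple, Spor.ONM.card⟩ e, h1, ?_,
    ⟨_, Spor.simple_card_congr h3 (e.subgroupMap K1)⟩, ⟨_, Spor.simple_card_congr h4 (e.subgroupMap K2)⟩⟩
  rw [h2, Subgroup.card_map_of_injective e.injective, Spor.ONM.cardH]

end Cfsg.Agent.S0460
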