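import Cfsg.Statements.S0461
import Cfsg.Agent.Spor.J4G

set_option autoImplicit false
open Cfsg

namespace Cfsg.Agent.S0461

/-- Janko's fourth group exists as a group of 112 × 112 matrices over the field with two elements: GL(112, 2) has a simple subgroup of order 86775571046077562880. -/
theorem result : ∃ H : Subgroup (GL (Fin 112) (ZMod 2)), Cfsg.IsJ4 H := by
  obtain ⟨ρ, hρ⟩ : ∃ ρ : Cfsg.Spor.J4 →* GL (Fin 112) (ZMod 2), Function.Injective ρ :=
    (fun (K p : ℕ) (h1 : K = 112) (h2 : p = 2) (ρ : Cfsg.Spor.J4 →* (Matrix (Fin K) (Fin K) (ZMod p))ˣ)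
      (hρ : Function.Injective ρ) => by subst h1 h2; exact ⟨ρ, hρ⟩) _ _ rfl rfl Spor.J4G.ρ Spor.J4G.main.2.1
  exact ⟨ρ.range, Spor.simple_card_congr ⟨Spor.J4G.simple, Spor.J4G.main.2.2.2.2.1⟩ (MonoidHom.ofInjective hρ)⟩

end Cfsg.Agent.S0461
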