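import Cfsg.Statements.S0463
import Cfsg.Agent.Spor.HnX

set_option autoImplicit false
open Cfsg

namespace Cfsg.Agent.S0463

/-- The Harada–Norton group exists as a transitive permutation group of degree 1140000: simple of order 273030912000000 with point stabiliser isomorphic to the alternating group of degree 12. -/
theorem result : ∃ H : Subgroup (Equiv.Perm (Fin 1140000)), Cfsg.IsHN H ∧ MulAction.IsPretransitive H (Fin 1140000) ∧ Nonempty (MulAction.stabilizer H (0 : Fin 1140000) ≃* alternatingGroup (Fin 12)) := by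
  have := Spor.HnG.simple
  obtain ⟨e⟩ := Spor.HnX.equiv
  have h1 := (Spor.genL Spor.HnX.m1y (List.range 10)).index_mul_card
  rw [← Nat.card_congr e.toEquiv, Spor.HnG.main.2.2.2.2.1, nat_card_alternatingGroup, Nat.card_fin] at h1
  have h2 : (Spor.genL Spor.HnX.m1y (List.range 10)).index = 1140000 := by
    rw [show Nat.factorial 12 / 2 = 239500800 by decide] at h1
    exact Nat.eq_of_mul_eq_mul_right (by decide) (h1.trans (by decide))
  obtain ⟨P, f, h3, h4⟩ := Spor.exists_perm_fin _ h2 (by decide)
  exact ⟨P, ⟨f.symm.isSimpleGroup, (Nat.card_congr f.toEquiv).symm.trans Spor.HnG.main.2.2.2.2.1⟩, h3,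
    ⟨(MulEquiv.subgroupCongr h4).trans ((f.subgroupMap _).symm.trans e.symm)⟩⟩

end Cfsg.Agent.S0463
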