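import Cfsg.Statements.S0471
import Cfsg.Agent.Spor.Fi22Cov

set_option autoImplicit false
open Cfsg

namespace Cfsg.Agent.S0471

/-- The Fischer group of order 64561751654400 exists as a 3-transposition group: a simple group of that order generated by a conjugacy class of 3510 3-transpositions, the centraliser of each being a non-split double cover of PSU(6, 2). -/
theorem result : ∃ (G : Type) (_ : Group G) (_ : Finite G), Cfsg.IsFi22 G ∧ ∃ D : Set G, Cfsg.IsThreeTranspositionClass D ∧ Nat.card D = 3510 ∧ ∀ d ∈ D, ∃ (F : Type) (_ : Field F) (_ : Fintype F), Fintype.card F = 4 ∧ Cfsg.IsNonsplitDoubleCover (Subgroup.centralizer ({d} : Set G)) (Cfsg.PSU 6 F 2) := by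
  have := Spor.Fi22M.simple
  refine ⟨Cfsg.Spor.Fi22, inferInstance, Nat.finite_of_card_ne_zero (by rw [Spor.Fi22M.card]; decide),
    ⟨Spor.Fi22M.simple, Spor.Fi22M.card⟩, conjugatesOf (Spor.Fi22M.g 0),
    ⟨Spor.Fi22M.three, ⟨_, IsConj.refl _, rfl⟩, Spor.closure_conjugatesOf_simple Spor.Fi22M.a_ne⟩,
    by rw [Spor.card_conjugatesOf, Spor.Fi22M.centralizer_a, Spor.Fi22M.index], fun d hd => ?_⟩
  obtain ⟨e⟩ := Spor.centralizer_equiv hd
  exact ⟨Spor.F4, inferInstance, inferInstance, rfl,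
    Spor.nonsplit_congr Spor.Fi22M.cover' ((MulEquiv.subgroupCongr Spor.Fi22M.centralizer_a.symm).trans e)
      (MulEquiv.refl _)⟩

end Cfsg.Agent.S0471
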