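import Cfsg.Statements.S0475
import Cfsg.Agent.Spor.ThC

set_option autoImplicit false
open Cfsg

namespace Cfsg.Agent.S0475

/-- In some simple group of the Thompson group's order there is an involution whose centraliser C has a normal extraspecial subgroup Q of order 2 ^ 9 such that C / Q is isomorphic to the alternating group of degree 9. -/
theorem result : ∃ (G : Type) (_ : Group G) (_ : Finite G), Cfsg.IsTh G ∧ ∃ z : G, orderOf z = 2 ∧ ∃ (Q : Subgroup (Subgroup.centralizer ({z} : Set G))) (_ : Q.Normal), Nat.card Q = 2 ^ 9 ∧ Cfsg.IsExtraspecial 2 Q ∧ Nonempty ((Subgroup.centralizer ({z} : Set G)) ⧸ Q ≃* alternatingGroup (Fin 9)) := by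
  exact ⟨Cfsg.Spor.Th, inferInstance, inferInstance, ⟨Spor.ThG.simple, Spor.ThG.main.2.2.2.2.1⟩, _, Spor.ThC.ord,
    Spor.ThC.struct⟩

end Cfsg.Agent.S0475
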