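import Cfsg.Statements.S0480
import Cfsg.Agent.FI.Rows

set_option autoImplicit false
open Cfsg

namespace Cfsg.Agent.S0480

open Cfsg.Agent.FI Cfsg.Agent.Fischer Cfsg.Agent.Geom

/-- The simple 3-transposition groups: if a finite non-abelian simple group G is generated by a conjugacy class of 3-transpositions, then G is isomorphic to a symplectic group Sp(2n, 2), or to a projective special unitary group PSU(n, 2) (defined over the field with four elements), or to the projective commutator subgroup of an orthogonal group in odd dimension over the field with three elements, or G has order 64561751654400, or G has order 4089470473293004800. -/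
theorem result {G : Type*} [Group G] [Finite G] [IsSimpleGroup G] (hna : ∃ x y : G, x * y ≠ y * x) {D : Set G} (hD : Cfsg.IsThreeTranspositionClass D) : (∃ n : ℕ, Nonempty (G ≃* Matrix.symplecticGroup (Fin n) (ZMod 2))) ∨ (∃ (F : Type) (_ : Field F) (_ : Fintype F) (n : ℕ), Fintype.card F = 4 ∧ Nonempty (G ≃* Cfsg.PSU n F 2)) ∨ (∃ m : ℕ, Nonempty (G ≃* Cfsg.POmega (ZMod 3) (Cfsg.quadFormOdd m (ZMod 3)))) ∨ Cfsg.IsFi22 G ∨ Cfsg.IsFi23 G := by
  obtain ⟨x, y, hxy⟩ := hna
  have ns : ¬ Group.IsSolvable G := fun l => hxy (IsSimpleGroup.comm_iff_isSolvable.2 l x y)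
  have hp : commutator G = ⊤ := (IsSimpleGroup.eq_bot_or_eq_top_of_normal _ inferInstance).resolve_left fun l =>
    hxy (commutatorElement_eq_one_iff_mul_comm.1 (Subgroup.mem_bot.1 (l ▸
      Subgroup.commutator_mem_commutator (Subgroup.mem_top x) (Subgroup.mem_top y))))
  haveI : Group.IsPerfect G := ⟨hp⟩
  have h := PR.of_fischer hD (fun N hN l => (IsSimpleGroup.eq_bot_or_eq_top_of_normal N hN).resolve_right
    fun o => ns (by subst o; exact Group.isSolvable_of_surjective (f := Subgroup.subtype ⊤) Subgroup.topEquiv.surjective))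
    (by rw [hp]; exact hp)
  have I : ∀ {K : Type} [Group K], (G ≃* K) → (commutator K).index = 1 := fun e => by
    rw [← index_eq_of_mem_iff e fun g => (mem_commutator_equiv e g).symm, hp, Subgroup.index_top]
  rcases h.list (F := F4) with ⟨k, c⟩ | k | ⟨n, hn, k⟩ | k | ⟨n, Q, lam, hn, k⟩ | ⟨ψ, -⟩ | ⟨ψ, -⟩ | ⟨ψ, -⟩
  · obtain ⟨n, hn, e, he⟩ := h.sym k c
    obtain ⟨d, hd⟩ := TC.nonempty hD
    have := not_perfect_of_hom (Equiv.Perm.sign.comp e.toMonoidHom) d
    exact absurd ((Equiv.Perm.IsSwap.sign_eq (he.subset ⟨d, hd, rfl⟩)).symm.trans this) (by decide)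
  · obtain ⟨m, e, -⟩ := out_sp h.tg h.z k
    exact .inl ⟨m, ⟨e⟩⟩
  · obtain ⟨e, -⟩ := out_u h.tg h.z hn k
    exact .inr (.inl ⟨F4, inferInstance, inferInstance, n, factF4.out, ⟨e⟩⟩)
  · rcases out_o2 h.tg h.z k with ⟨m, hm, e, -⟩ | ⟨m, hm, e, -⟩
    · have := (I (coe_quadPlus (ZMod 2) m ▸ e)).symm.trans ((index_Omega (Q := quadPlus (ZMod 2) m)).trans (index_commutator_even
        (quadPlus_nondeg _ _) (notExc_of_finrank (by simp; omega)) rfl (by simp; omega)))
      omega
    · have := (I (coe_quadMinus (ZMod 2) m 1 1 ▸ e)).symm.trans ((index_Omega (Q := quadMinus (ZMod 2) m 1 1)).trans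
        (index_commutator_even (quadMinus_nondeg _ _ (by decide)) (notExc_of_finrank (by simp; omega)) rfl (by simp)))
      omega
  · obtain ⟨e, -⟩ := out_o3 h.tg h.z hn k
    rcases Nat.even_or_odd n with o | ⟨m, rfl⟩
    · obtain ⟨f, x, l⟩ := o3_sign k.nd hn one_ne_zero o
      obtain ⟨x, rfl⟩ := e.surjective x
      exact absurd (not_perfect_of_hom (f.comp e.toMonoidHom) x) l
    · obtain ⟨e1⟩ := commutator_congr e
      obtain ⟨e2⟩ := o3_commutator k.nd hn one_ne_zero
      obtain ⟨c, hc, t, ht⟩ := exists_isIso_odd k.nd (m := m) (by simp)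
      obtain ⟨e3⟩ := pOmega_congr ((MulEquiv.subgroupCongr (OG_smul hc).symm).trans ht.isomCongr)
      exact .inr (.inr (.inl ⟨m, coe_quadOdd (ZMod 3) m ▸ ⟨(Subgroup.topEquiv.symm.trans (MulEquiv.subgroupCongr hp.symm)).trans
        (e1.trans (e2.trans (quotCenterCongr e3)))⟩⟩))
  · exact .inr (.inr (.inr (.inl ⟨inferInstance, (Nat.card_congr ψ.toEquiv).symm.trans Spor.Fi22M.card⟩)))
  · exact .inr (.inr (.inr (.inr ⟨inferInstance, (Nat.card_congr ψ.toEquiv).symm.trans Spor.Fi23M.card⟩)))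
  · have := (I ψ.symm).symm.trans Spor.Fi24M.index_commutator
    omega

end Cfsg.Agent.S0480
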