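import Cfsg.Statements.S0481
import Cfsg.Agent.Loc.PGrp

set_option autoImplicit false
open Cfsg

namespace Cfsg.Agent.S0481

open Cfsg.Agent.Loc Subgroup

/-- Large extraspecial subgroups: let z be an involution of a finite group G whose centraliser C contains a normal 2-subgroup Q with centre of order 2 and all squares central, such that every element of G centralising Q lies in Q. Then C contains a Sylow 2-subgroup of G, and any involution of G whose centraliser contains a Sylow 2-subgroup of G is conjugate to z. -/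
theorem result {G : Type*} [Group G] [Finite G] (z : G) (hz : orderOf z = 2) (Q : Subgroup G) (hQC : Q ≤ Subgroup.centralizer ({z} : Set G)) (hQn : ∀ g ∈ Subgroup.centralizer ({z} : Set G), ∀ q ∈ Q, g * q * g⁻¹ ∈ Q) (hQ2 : IsPGroup 2 Q) (hZ : Nat.card (Subgroup.center Q) = 2) (hsq : ∀ x : Q, x ^ 2 ∈ Subgroup.center Q) (hlarge : Subgroup.centralizer (Q : Set G) ≤ Q) : (∃ P : Sylow 2 G, (P : Subgroup G) ≤ Subgroup.centralizer ({z} : Set G)) ∧ ∀ u : G, orderOf u = 2 → (∃ P : Sylow 2 G, (P : Subgroup G) ≤ Subgroup.centralizer ({u} : Set G)) → IsConj z u := by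
  obtain ⟨T, hT⟩ := exists_sylIn 2 (centralizer ({z} : Set G))
  have hQT : Q ≤ T := hT.le_of_le_normalizer hQC hQ2 (hT.le.trans (le_normalizer_of_cj_le fun g hg =>
    cj_le_iff_forall.2 (hQn g hg)))
  have h1 : ∀ y, y ≠ 1 → y ∈ centralizer (Q : Set G) → ∀ y', y' ≠ 1 → y' ∈ centralizer (Q : Set G) → y = y' := by
    intro y h1 h2 y' h1' h2'
    obtain ⟨c, -, hc⟩ := (Nat.card_eq_two_iff' (1 : center Q)).1 hZ
    have e : ∀ y (h1 : y ≠ 1) (h2 : y ∈ centralizer (Q : Set G)), y = c.1.1 := fun y h1 h2 =>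
      congrArg (·.1.1) (hc ⟨⟨y, hlarge h2⟩, mem_center_iff.2 fun q => Subtype.ext (h2 q q.2)⟩
        fun h => h1 (congrArg (·.1.1) h))
    rw [e y h1 h2, e y' h1' h2']
  have hz1 : z ≠ 1 := fun h => by simp [h] at hz
  have hzT : z ∈ centralizer (T : Set G) := fun t ht => mem_centralizer_singleton_iff.1 (hT.le ht)
  have h2 : ∀ y, y ≠ 1 → y ∈ centralizer (T : Set G) → y = z := fun y h hy =>
    h1 y h (centralizer_anti hQT hy) z hz1 (centralizer_anti hQT hzT)
  have hS : SylIn 2 T ⊤ := sylIn_of_sylIn_normalizer (hT.mono (le_inf le_top le_normalizer) fun g hg =>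
    mem_centralizer_singleton_iff.2 (mul_inv_eq_iff_eq_mul.1 (h2 _ (by simpa using hz1)
      (conj_mem_of_mem_normalizer (normalizer_le_normalizer_centralizer T hg.2) hzT))))
  refine ⟨⟨hS.toSylowTop, hT.le⟩, ?_⟩
  rintro u hu ⟨P, hP⟩
  obtain ⟨g, -, e⟩ := (sylIn_top P).exists_conj hS
  refine (isConj_iff.2 ⟨g, h2 _ (by rintro h; simp [conj_eq_one_iff.1 h] at hu) ?_⟩).symm
  rw [← e, ← cj_centralizer]
  exact conj_mem_cj fun t ht => mem_centralizer_singleton_iff.1 (hP ht)

end Cfsg.Agent.S0481
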