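import Cfsg.Statements.S0502
import Cfsg.Agent.Sig.Sf5
import Cfsg.Agent.Loc.Chain
import Cfsg.Agent.Block.Klein

set_option autoImplicit false
open Cfsg

namespace Cfsg.Agent.S0502

open Subgroup Cfsg.Agent.BG Cfsg.Agent.Sig

theorem klein_le {G : Type*} [Group G] [Finite G] {V : Subgroup G} (hA : Abelem 2 V)
    (h2 : 2 ^ 2 ≤ Nat.card V) : ∃ U ≤ V, IsKleinFour U := by
  obtain ⟨U, hU, -⟩ := exists_kleinFour le_rfl hA h2
  exact ⟨U.map V.subtype, map_subtype_le _,
    Block.isKleinFour_of_equiv (U.equivMapOfInjective _ V.subtype_injective) hU⟩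

/-- If a finite 2-group has a normal elementary abelian subgroup of order at least 8, then any two of its Klein
four-subgroups are joined by a chain of Klein four-subgroups with consecutive members commuting elementwise. -/
theorem result {P : Type*} [Group P] [Finite P] (hP : IsPGroup 2 P)
    (E : Subgroup P) [E.Normal] (hE : IsMulCommutative E) (hE2 : ∀ e ∈ E, e ^ 2 = 1) (hE8 : 8 ≤ Nat.card E) :
    Cfsg.IsFourConnected P := by
  have := Fact.mk Nat.prime_two
  have hA : Abelem 2 E := abelemP.2 ⟨hE, hE2⟩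
  have hn : E ⊴ ⊤ := ⟨le_top, le_normalizer_of_normal⟩
  obtain ⟨z, hz, hc, h1, hz2⟩ := exists_center_p (hP.to_subgroup ⊤) hn (fun e => by
    rw [e, card_bot] at hE8; omega)
  have hc : ∀ g, g * z = z * g := fun g => hc g (mem_top g)
  have key : ∀ U : Subgroup P, IsKleinFour U → ∃ W ≤ E, IsKleinFour W ∧ Relation.ReflTransGen
      (fun A B : Subgroup P => IsKleinFour A ∧ IsKleinFour B ∧ ∀ a ∈ A, ∀ b ∈ B, a * b = b * a)
      U W := fun U hU => by
    obtain ⟨v, hv, hvz⟩ : ∃ v ∈ U, v ∉ zpowers z := by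
      by_contra! e
      have := card_le_card (show U ≤ zpowers z from e)
      rw [Nat.card_zpowers, orderOf_eq_prime hz2 h1, hU.card_four] at this; omega
    have v2 : v ^ 2 = 1 := by rw [pow_two, Invol.mul_self_of_mem_four hU hv]
    obtain ⟨k1, k2⟩ := sq_le_sup_zpowers hz2 h1 v2 (mem_cent1.2 (hc v)) hvz
    have k3 := card_le_sq_cent hA v2 (le_normalizer_of_normal (mem_top v))
    obtain ⟨W, hW, kW⟩ := klein_le (abelemS (inf_le_left : E ⊓ centralizer {v} ≤ E) hA)
      (pow_succ_le (hA.pg.sub inf_le_left) (by nlinarith))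
    obtain ⟨V, hV, kV⟩ := klein_le k1 k2
    have c : ∀ X : Subgroup P, (∀ x ∈ X, x * v = v * x) → ∀ a ∈ X, ∀ b ∈ V, a * b = b * a :=
      fun X hX a ha b hb => (hV.trans (sup_le (zpowers_le.2 (mem_cent.2 fun x _ => hc x))
        (zpowers_le.2 (mem_cent.2 hX))) hb) a ha
    exact ⟨W, hW.trans inf_le_left, kW, (Relation.ReflTransGen.single ⟨hU, kV,
      c U fun x hx => Invol.commute_of_mem_four hU hx hv⟩).tail ⟨kV, kW, fun a ha b hb =>
        (c W (fun x hx => mem_cent1.1 (hW hx).2) b hb a ha).symm⟩⟩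
  intro U V hU hV
  obtain ⟨W, h1, h2, h3⟩ := key U hU
  obtain ⟨W', h1', h2', h3'⟩ := key V hV
  exact (h3.tail ⟨h2, h2', fun a ha b hb => hA.cent (h1' hb) a (h1 ha)⟩).trans
    (Loc.rtg_symm (fun A B h => ⟨h.2.1, h.1, fun a ha b hb => (h.2.2 b hb a ha).symm⟩) h3')

end Cfsg.Agent.S0502
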