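import Cfsg.Statements.S0518
import Cfsg.Agent.Loc.JC8

set_option autoImplicit false
open Cfsg

namespace Cfsg.Agent.S0518

/-- Let G be a finite group of characteristic 2 type with trivial 2-core in which every 2-local subgroup is solvable
and, for every Sylow 2-subgroup S, the centralizer of the set of central involutions of S lies in the normalizer of S.
Then either G has a strongly embedded subgroup, or the subgroup generated by the elements of odd order has two distinct
maximal 2-local subgroups, each isomorphic to the symmetric group of degree 4, whose intersection has order 8. -/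
theorem result {G : Type*} [Group G] [Finite G]
    (hL : Cfsg.IsCharacteristicTwoType G) (hO : Cfsg.pCore 2 G = ⊥)
    (hN : ∀ N : Subgroup G, Cfsg.IsTwoLocal N → Group.IsSolvable N)
    (hZ : ∀ S : Sylow 2 G,
      Subgroup.centralizer {z : G | z ∈ (S : Subgroup G) ∧ z ^ 2 = 1 ∧ ∀ s ∈ (S : Subgroup G), s * z = z * s} ≤
        Subgroup.normalizer ((S : Subgroup G) : Set G))
    (H : Subgroup G) (hH : H = Subgroup.closure {g : G | Odd (orderOf g)}) :
    (∃ K : Subgroup G, Cfsg.IsStronglyEmbedded K) ∨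
      ∃ M₁ M₂ : Subgroup H, M₁ ≠ M₂ ∧ Cfsg.IsMaximalTwoLocal M₁ ∧ Cfsg.IsMaximalTwoLocal M₂ ∧
        Nonempty (M₁ ≃* Equiv.Perm (Fin 4)) ∧ Nonempty (M₂ ≃* Equiv.Perm (Fin 4)) ∧ Nat.card ↥(M₁ ⊓ M₂) = 8 := by
  open Cfsg.Agent.Loc Subgroup in
  open scoped commutatorElement in
  have e : H = pResidual 2 G := by simp only [hH, pResidual, Nat.coprime_two_right]
  subst e
  have h : ZN G := ⟨hL, hN, fun S => le_trans (centralizer_le fun z hz =>
    le_OZ (zpowers_le.2 hz.1) (zpowers_le.2 hz.2.2) (fun x hx => by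
      obtain ⟨k, rfl⟩ := hx
      rw [← zpow_natCast, ← zpow_mul, mul_comm, zpow_mul, zpow_natCast, hz.2.1, one_zpow]) (mem_zpowers z)) (hZ S)⟩
  refine or_iff_not_imp_left.2 fun hn => ?_
  obtain ⟨S, hS⟩ := exists_sylIn 2 (⊤ : Subgroup G)
  have h0 : S ≠ ⊥ := hS.ne_bot (by rw [card_top]; exact hL.1.two_dvd)
  obtain ⟨T, m⟩ := h.exists_mx hO hS ⟨_, hS.pg.to_le (PLocal.J_le _ _), PLocal.J_ne_bot_of_isPGroup hS.pg h0, rfl⟩
    le_rfl fun e => hn ⟨_, e⟩
  obtain ⟨K, L, K', L', u, v, ne⟩ := h.exists_pair hO m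
  have a : AM T K L K' L' := ⟨h, hO, u, v, ne⟩
  have c := a.s3.cardT
  rw [a.core, u.jc.cW] at c
  have e : L.subgroupOf (pResidual 2 G) ⊓ L'.subgroupOf (pResidual 2 G) = (T ⊓ pResidual 2 G).subgroupOf _ := by
    rw [inf_subgroupOf_right, ← a.inf_eq]; rfl
  refine ⟨_, _, fun e' => ?_, a.maxl, a.symm.maxl, a.iso, a.symm.iso, by rw [e, card_subgroupOf inf_le_right, c]⟩
  rw [← e', inf_idem] at e
  refine a.s3.not_le' fun x hx => ?_
  exact (e.le (show (⟨x, hx.2⟩ : pResidual 2 G) ∈ L.subgroupOf _ from hx.1) :)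

end Cfsg.Agent.S0518
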