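import Cfsg.Statements.S0986
import Mathlib.GroupTheory.Nilpotent
import Mathlib.GroupTheory.Sylow

set_option autoImplicit false
open Cfsg

namespace Cfsg.Agent.S0986

open Subgroup

theorem exists_lt {G : Type*} [Group G] [Finite G] {p : ℕ} [Fact p.Prime] (P : Sylow p G)
    {D : Subgroup G} (h : D < P) : ∃ S : Sylow p (normalizer (D : Set G)),
      Nat.card D < Nat.card ((P : Subgroup G) ⊓ normalizer (D : Set G) : Subgroup G) ∧
      (P : Subgroup G) ⊓ normalizer (D : Set G) ≤ (S : Subgroup _).map (normalizer (D : Set G)).subtype := by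
  obtain ⟨S, hS⟩ := (P.isPGroup'.comap_subtype (K := normalizer (D : Set G))).exists_le_sylow
  refine ⟨S, ?_, fun x hx => ⟨⟨x, hx.2⟩, hS hx.1, rfl⟩⟩
  have := P.isPGroup'.isNilpotent
  have h1 : D.subgroupOf P < ⊤ := by
    rw [lt_top_iff_ne_top, Ne, subgroupOf_eq_top]
    exact h.not_ge
  have h2 := Group.normalizerCondition_of_isNilpotent (G := P) _ h1
  rw [← subgroupOf_normalizer_eq h.le] at h2
  obtain ⟨x, hx, hx'⟩ := SetLike.exists_of_lt h2
  refine lt_of_not_ge fun e => hx' ?_
  rw [mem_subgroupOf, eq_of_le_of_card_ge (le_inf h.le le_normalizer) e]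
  exact ⟨x.2, hx⟩

/-- Let P and Q be distinct Sylow p-subgroups of a finite group G chosen so that the order of P ∩ Q is as large as possible among intersections of two distinct Sylow p-subgroups, and let N be the normalizer of P ∩ Q. Then N has more than one Sylow p-subgroup, any two distinct Sylow p-subgroups of N intersect exactly in P ∩ Q, and each Sylow p-subgroup of N lies in exactly one Sylow p-subgroup of G. -/
theorem result {G : Type*} [Group G] [Finite G] (p : ℕ) [Fact p.Prime] (P Q : Sylow p G) (hPQ : P ≠ Q) (hmax : ∀ P' Q' : Sylow p G, P' ≠ Q' → Nat.card ↥((P' : Subgroup G) ⊓ (Q' : Subgroup G)) ≤ Nat.card ↥((P : Subgroup G) ⊓ (Q : Subgroup G))) : 1 < Nat.card (Sylow p ↥(Subgroup.normalizer (((P : Subgroup G) ⊓ (Q : Subgroup G) : Subgroup G) : Set G))) ∧ (∀ S T : Sylow p ↥(Subgroup.normalizer (((P : Subgroup G) ⊓ (Q : Subgroup G) : Subgroup G) : Set G)), S ≠ T → (S : Subgroup _) ⊓ (T : Subgroup _) = ((P : Subgroup G) ⊓ (Q : Subgroup G)).subgroupOf (Subgroup.normalizer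 (((P : Subgroup G) ⊓ (Q : Subgroup G) : Subgroup G) : Set G))) ∧ ∀ S : Sylow p ↥(Subgroup.normalizer (((P : Subgroup G) ⊓ (Q : Subgroup G) : Subgroup G) : Set G)), ∃! T : Sylow p G, (S : Subgroup _).map (Subgroup.normalizer (((P : Subgroup G) ⊓ (Q : Subgroup G) : Subgroup G) : Set G)).subtype ≤ (T : Subgroup G) := by
  set D : Subgroup G := (P : Subgroup G) ⊓ Q with hD
  have hP : D < P := lt_of_le_of_ne inf_le_left fun h =>
    hPQ (Sylow.ext (P.is_maximal' Q.isPGroup' (inf_eq_left.1 h)).symm)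
  have hQ : D < Q := lt_of_le_of_ne inf_le_right fun h =>
    hPQ (Sylow.ext (Q.is_maximal' P.isPGroup' (inf_eq_right.1 h)))
  have key : ∀ (A : Subgroup G) (T T' : Sylow p G), Nat.card D < Nat.card A → A ≤ T → A ≤ T' →
      T = T' := fun A T T' h h1 h2 => by
    by_contra hne
    exact (h.trans_le (card_le_of_le (le_inf h1 h2))).not_ge (hmax T T' hne)
  obtain ⟨S0, a0, b0⟩ := exists_lt P hP
  obtain ⟨S1, a1, b1⟩ := exists_lt Q hQ
  have hex : ∀ S : Sylow p (normalizer (D : Set G)), ∃ T : Sylow p G,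
      (S : Subgroup _).map (normalizer (D : Set G)).subtype ≤ T := fun S =>
    (S.isPGroup'.map _).exists_le_sylow
  have hlt : ∀ S : Sylow p (normalizer (D : Set G)),
      Nat.card D < Nat.card ((S : Subgroup _).map (normalizer (D : Set G)).subtype) := fun S => by
    have := a0.trans_le (card_le_of_le b0)
    rwa [card_subtype, S0.card_eq_multiplicity, ← S.card_eq_multiplicity, ← card_subtype] at this
  refine ⟨?_, fun S T hST => ?_, fun S => ?_⟩
  · refine Finite.one_lt_card_iff_nontrivial.2 ⟨S0, S1, fun h => hPQ ?_⟩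
    obtain ⟨T, hT⟩ := hex S0
    rw [key _ P T a0 inf_le_left (b0.trans hT), key _ Q T a1 inf_le_left (b1.trans (h ▸ hT))]
  · obtain ⟨S', hS'⟩ := S.exists_comap_subtype_eq
    obtain ⟨T', hT'⟩ := T.exists_comap_subtype_eq
    have hne : S' ≠ T' := fun h => hST (Sylow.ext (by rw [← hS', ← hT', h]))
    have hn : IsPGroup p (D.subgroupOf (normalizer (D : Set G))) :=
      (P.isPGroup'.to_le hP.le).comap_subtype
    have hle : ∀ R : Sylow p (normalizer (D : Set G)), ∀ R' : Sylow p G,
        (R' : Subgroup G).comap (normalizer (D : Set G)).subtype = R → D ≤ R' :=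
      fun R R' h x hx => by
        have := hn.le_sylow_of_normal R (show (⟨x, le_normalizer hx⟩ : normalizer (D : Set G)) ∈ _
          from hx)
        rwa [← h] at this
    have := eq_of_le_of_card_ge (le_inf (hle S S' hS') (hle T T' hT')) (hmax S' T' hne)
    rw [← hS', ← hT', ← comap_inf, ← this]
    rfl
  · obtain ⟨T, hT⟩ := hex S
    exact ⟨T, hT, fun T' h => key _ _ _ (hlt S) h hT⟩

end Cfsg.Agent.S0986
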