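import Cfsg.Statements.S0520
import Cfsg.Agent.S0502
import Cfsg.Agent.S0986

set_option autoImplicit false
open Cfsg

namespace Cfsg.Agent.S0520

open Subgroup Cfsg.Agent.BG Cfsg.Agent.Sig Pointwise

theorem mem_of_inf {G : Type*} [Group G] [Finite G] {p : ℕ} [Fact p.Prime] (S : Sylow p G)
    {r : Subgroup G → Prop} (hr : ∀ A B, A ≤ B → r A → r B)
    (hc : ∀ (g : G) A, r A → r (A.map (MulAut.conj g).toMonoidHom)) {Γ : Subgroup G}
    (hΓ : ∀ Q ≤ (S : Subgroup G), r Q → normalizer (Q : Set G) ≤ Γ) (k : ℕ) : ∀ a b : G,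
    Nat.card G ≤ Nat.card (((a • S : Sylow p G) : Subgroup G) ⊓ (b • S : Sylow p G) : Subgroup G) + k →
    r (((a • S : Sylow p G) : Subgroup G) ⊓ (b • S : Sylow p G)) → a⁻¹ * b ∈ Γ := by
  induction k using Nat.strong_induction_on with | _ k ih => ?_
  intro a b hk h
  set D : Subgroup G := ((a • S : Sylow p G) : Subgroup G) ⊓ (b • S : Sylow p G) with hD
  have h1 : D.map (MulAut.conj a⁻¹).toMonoidHom ≤ S := by
    rintro _ ⟨_, ⟨⟨x, hx, rfl⟩, -⟩, rfl⟩
    simp only [mul_assoc, MulEquiv.toMonoidHom_eq_coe, MonoidHom.coe_coe, MulAut.conj_apply,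
      MulDistribMulAction.toMonoidEnd_apply, MulDistribMulAction.toMonoidHom_apply, MulAut.smul_def,
      inv_mul_cancel_left, inv_inv, inv_mul_cancel, mul_one]
    exact hx
  by_cases hPQ : a • S = b • S
  · refine hΓ S le_rfl (hr _ _ h1 (hc _ _ h)) (Sylow.smul_eq_iff_mem_normalizer.1 ?_)
    rw [mul_smul, ← hPQ, inv_smul_smul]
  have hP : D < (a • S : Sylow p G) := lt_of_le_of_ne inf_le_left fun h =>
    hPQ (Sylow.ext ((a • S).is_maximal' (b • S).isPGroup' (inf_eq_left.1 h)).symm)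
  have hQ : D < (b • S : Sylow p G) := lt_of_le_of_ne inf_le_right fun h =>
    hPQ (Sylow.ext ((b • S).is_maximal' (a • S).isPGroup' (inf_eq_right.1 h)))
  obtain ⟨S0, a0, b0⟩ := S0986.exists_lt _ hP
  obtain ⟨S1, a1, b1⟩ := S0986.exists_lt _ hQ
  obtain ⟨n, rfl⟩ := MulAction.exists_smul_eq (normalizer (D : Set G)) S0 S1
  obtain ⟨T, hT⟩ := (S0.isPGroup'.map (normalizer (D : Set G)).subtype).exists_le_sylow
  obtain ⟨c, rfl⟩ := MulAction.exists_smul_eq G S T
  have step : ∀ (x y : G) (A : Subgroup G), Nat.card D < Nat.card A → D ≤ A →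
      A ≤ (x • S : Sylow p G) → A ≤ (y • S : Sylow p G) → x⁻¹ * y ∈ Γ := fun x y A e0 e1 e2 e3 => by
    have := card_le_of_le (le_inf e2 e3)
    have := card_le_card_group (((x • S : Sylow p G) : Subgroup G) ⊓ (y • S : Sylow p G))
    exact ih (k - 1) (by omega) x y (by omega) (hr _ _ (e1.trans (le_inf e2 e3)) h)
  have e1 := step a c _ a0 (le_inf hP.le le_normalizer) inf_le_left (b0.trans hT)
  have e2 := step b (n * c) _ a1 (le_inf hQ.le le_normalizer) inf_le_left (b1.trans (by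
    rintro _ ⟨_, ⟨x, hx, rfl⟩, rfl⟩
    rw [mul_smul]
    exact ⟨x, hT ⟨x, hx, rfl⟩, rfl⟩))
  have e3 : a⁻¹ * n * a ∈ Γ := hΓ _ h1 (hc _ _ h) (by
    rw [← map_equiv_normalizer_eq]
    exact ⟨n, n.2, by simp⟩)
  simpa [mul_assoc] using mul_mem (mul_mem e3 e1) (inv_mem e2)

/-- Let G be a finite group of 2-rank at least 2 and S a Sylow 2-subgroup whose commuting graph of Klein four-subgroups is
connected. Then the commuting graph of Klein four-subgroups of G is disconnected if and only if the 2-generated core — the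
subgroup generated by the normalizers N_G(Q) of the subgroups Q of S that contain a Klein four-group — is a proper
subgroup of G. -/
theorem result {G : Type*} [Group G] [Finite G] (h2 : ¬ Cfsg.PRankLE 2 1 G)
    (S : Sylow 2 G) (hS : Cfsg.IsFourConnected (S : Subgroup G)) :
    ¬ Cfsg.IsFourConnected G ↔
      (⨆ Q : {Q : Subgroup G // Q ≤ (S : Subgroup G) ∧ ¬ Cfsg.PRankLE 2 1 Q},
          Subgroup.normalizer ((Q : Subgroup G) : Set G)) ≠ ⊤ := by
  have := Fact.mk Nat.prime_two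
  refine not_congr ?_
  have hr : ∀ Q : Subgroup G, ¬ PRankLE 2 1 Q ↔ ∃ U ≤ Q, IsKleinFour U := fun Q =>
    ⟨fun h => by
      obtain ⟨E, h1, h2, h3⟩ := exists_abelem_of_rank h
      obtain ⟨U, h4, h5⟩ := S0502.klein_le h2 h3
      exact ⟨U, h4.trans h1, h5⟩,
    fun ⟨U, h1, h2⟩ => not_rank_of_abelem (abelemP.2 ⟨⟨⟨fun a b =>
      mul_comm_of_exponent_two h2.exponent_two a b⟩⟩, fun a ha => by
        rw [pow_two, Invol.mul_self_of_mem_four h2 ha]⟩) h1 h2.card_four.ge⟩
  have hex : ∀ A : Subgroup G, IsPGroup 2 A → ∃ x : G, A ≤ (x • S : Sylow 2 G) := fun A hA => by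
    obtain ⟨T, hT⟩ := hA.exists_le_sylow
    obtain ⟨x, rfl⟩ := MulAction.exists_smul_eq G S T
    exact ⟨x, hT⟩
  have hinv : ∀ (x : G) (A : Subgroup G), A ≤ (x • S : Sylow 2 G) →
      A.map (MulAut.conj x⁻¹).toMonoidHom ≤ S := fun x A hA => by
    rintro _ ⟨y, hy, rfl⟩
    obtain ⟨z, hz, rfl⟩ := hA hy
    simp only [mul_assoc, MulEquiv.toMonoidHom_eq_coe, MonoidHom.coe_coe, MulAut.conj_apply,
      MulDistribMulAction.toMonoidEnd_apply, MulDistribMulAction.toMonoidHom_apply, MulAut.smul_def,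
      inv_mul_cancel_left, inv_inv, inv_mul_cancel, mul_one]
    exact hz
  obtain ⟨U, hU, kU⟩ : ∃ U ≤ (S : Subgroup G), IsKleinFour U := by
    obtain ⟨E, h1, h3⟩ := exists_abelem_of_rank_top h2
    obtain ⟨U, -, h5⟩ := S0502.klein_le h1 h3
    obtain ⟨x, hx⟩ := hex U (Invol.isPGroup_of_isKleinFour h5)
    exact ⟨_, hinv x U hx, Invol.IsKleinFour.map_conj h5 _⟩
  set Γ := ⨆ Q : {Q : Subgroup G // Q ≤ (S : Subgroup G) ∧ ¬ PRankLE 2 1 Q},
    normalizer ((Q : Subgroup G) : Set G)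
  refine ⟨fun h => eq_top_iff.2 fun g _ => ?_, fun h => ?_⟩
  · have key : ∀ (a b : G) (A : Subgroup G), IsKleinFour A → A ≤ (a • S : Sylow 2 G) →
        A ≤ (b • S : Sylow 2 G) → a⁻¹ * b ∈ Γ := fun a b A kA h1 h3 =>
      mem_of_inf S (r := fun Q => ∃ U ≤ Q, IsKleinFour U)
        (fun A B h ⟨U, h1, h2⟩ => ⟨U, h1.trans h, h2⟩)
        (fun g A ⟨U, h1, h2⟩ => ⟨_, map_mono h1, Invol.IsKleinFour.map_conj h2 g⟩)
        (fun Q h1 h2 => le_iSup (fun Q : {Q : Subgroup G // Q ≤ (S : Subgroup G) ∧ ¬ PRankLE 2 1 Q} =>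
          normalizer ((Q : Subgroup G) : Set G)) ⟨Q, h1, (hr Q).2 h2⟩) _ a b (Nat.le_add_left _ _)
        ⟨A, le_inf h1 h3, kA⟩
    have k2 : ∀ V, Relation.ReflTransGen (fun A B : Subgroup G => IsKleinFour A ∧ IsKleinFour B ∧
        ∀ a ∈ A, ∀ b ∈ B, a * b = b * a) U V → ∃ x ∈ Γ, V ≤ (x • S : Sylow 2 G) := fun V hV => by
      induction hV with
      | refl => exact ⟨1, one_mem _, by rwa [one_smul]⟩
      | tail _ h ih =>
        obtain ⟨x, hx, e⟩ := ih
        obtain ⟨y, hy⟩ := hex _ ((Invol.isPGroup_of_isKleinFour h.1).to_sup_of_normal_left'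
          (Invol.isPGroup_of_isKleinFour h.2.1) fun b hb => centralizer_le_normalizer _
            fun a ha => h.2.2 a ha b hb)
        exact ⟨y, by simpa using mul_mem hx (key x y _ h.1 e (le_sup_left.trans hy)),
          le_sup_right.trans hy⟩
    obtain ⟨x, hx, e⟩ := k2 _ (h U _ kU (Invol.IsKleinFour.map_conj kU g))
    simpa using mul_mem hx (key x g _ (Invol.IsKleinFour.map_conj kU g) e (map_mono hU))
  · let R := Relation.ReflTransGen fun A B : Subgroup G => IsKleinFour A ∧ IsKleinFour B ∧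
      ∀ a ∈ A, ∀ b ∈ B, a * b = b * a
    have sym : ∀ {A B}, R A B → R B A :=
      Loc.rtg_symm fun A B h => ⟨h.2.1, h.1, fun a ha b hb => (h.2.2 b hb a ha).symm⟩
    have cj : ∀ (g : G) {A B}, R A B →
        R (A.map (MulAut.conj g).toMonoidHom) (B.map (MulAut.conj g).toMonoidHom) := fun g _ _ =>
      Loc.rtg_lift _ fun A B h => ⟨Invol.IsKleinFour.map_conj h.1 g,
        Invol.IsKleinFour.map_conj h.2.1 g, by
          rintro _ ⟨a, ha, rfl⟩ _ ⟨b, hb, rfl⟩
          rw [← map_mul, ← map_mul, h.2.2 a ha b hb]⟩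
    have inS : ∀ V ≤ (S : Subgroup G), IsKleinFour V → R U V := fun V hV kV => by
      have e : ∀ {A : Subgroup (S : Subgroup G)}, IsKleinFour A → IsKleinFour (A.map (S : Subgroup G).subtype) :=
        fun {A} => Block.isKleinFour_of_equiv (A.equivMapOfInjective _ (subtype_injective _))
      have := Loc.rtg_lift (s := fun A B : Subgroup G => IsKleinFour A ∧ IsKleinFour B ∧
        ∀ a ∈ A, ∀ b ∈ B, a * b = b * a) (map (S : Subgroup G).subtype) (fun A B h => ⟨e h.1, e h.2.1, by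
          rintro _ ⟨a, ha, rfl⟩ _ ⟨b, hb, rfl⟩
          rw [← map_mul, ← map_mul, h.2.2 a ha b hb]⟩) (hS _ _
        (Block.isKleinFour_of_equiv (subgroupOfEquivOfLe hU).symm kU)
        (Block.isKleinFour_of_equiv (subgroupOfEquivOfLe hV).symm kV))
      rwa [map_subgroupOf_eq_of_le hU, map_subgroupOf_eq_of_le hV] at this
    have all : ∀ g : G, R U (U.map (MulAut.conj g).toMonoidHom) := fun g => by
      refine iSup_induction _ (C := fun g => R U (U.map (MulAut.conj g).toMonoidHom))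
        (h.ge (mem_top g)) (fun Q x hx => ?_) (by
          rw [map_one]; exact (map_id U).symm ▸ Relation.ReflTransGen.refl)
        fun x y hx hy => ?_
      · obtain ⟨V, h1, h3⟩ := (hr _).1 Q.2.2
        refine (inS _ ?_ (Invol.IsKleinFour.map_conj h3 x)).trans
          (sym (cj x (inS V (h1.trans Q.2.1) h3)))
        rintro _ ⟨v, hv, rfl⟩
        exact Q.2.1 ((mem_normalizer_iff.1 hx v).1 (h1 hv))
      · have := hx.trans (cj x hy)
        rwa [map_map, show (MulAut.conj x).toMonoidHom.comp (MulAut.conj y).toMonoidHom =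
          (MulAut.conj (x * y)).toMonoidHom by ext; simp [mul_assoc]] at this
    have fin : ∀ V : Subgroup G, IsKleinFour V → R U V := fun V kV => by
      obtain ⟨x, hx⟩ := hex V (Invol.isPGroup_of_isKleinFour kV)
      have := (all x).trans (cj x (inS _ (hinv x V hx) (Invol.IsKleinFour.map_conj kV _)))
      rwa [map_map, show (MulAut.conj x).toMonoidHom.comp (MulAut.conj x⁻¹).toMonoidHom =
        MonoidHom.id G by ext; simp [mul_assoc], map_id] at this
    exact fun V W kV kW => (sym (fin V kV)).trans (fin W kW)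

end Cfsg.Agent.S0520
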