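import Cfsg.Statements.S0521
import Cfsg.Agent.BG.S6
import Cfsg.Agent.PLocal.Npc

set_option autoImplicit false
open Cfsg

namespace Cfsg.Agent.S0521

open Cfsg.Agent.BG Subgroup
open scoped commutatorElement

theorem aux {X : Type*} [Group X] [Finite X] [Group.IsSolvable X] (hX : Odd (Nat.card X)) (p : ℕ)
    [hp : Fact p.Prime] (h0 : pPrimeCore p X = ⊥) (S : Sylow p X)
    (hS : IsCyclic ↥⁅(S : Subgroup X), (S : Subgroup X)⁆) : (S : Subgroup X).Normal := by
  set R := pCore p X with hR
  have pR : IsPGroup p R := Solv.isPGroup_pCore p X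
  have RS : R ≤ S := pR.le_sylow_of_normal S
  have hC : C[R] ≤ R := Solv.centralizer_pCore_le h0
  have h1 : ⁅(S : Subgroup X), (S : Subgroup X)⁆ ≤ R := by
    refine (PLocal.odd_stableOn (by rwa [card_top]) pR le_normalizer_of_normal).le_of_cent hC ?_
    exact commG1.2 ((commg_subr (RS.trans (normalizer_commutator_ge_left _ _))).trans
      (cyclic_abelian hS).cent)
  have : (Phi R).Normal := normalizer_eq_top_iff.1 (eq_top_iff.2
    (norms_Phi le_normalizer_of_normal))
  let g := QuotientGroup.mk' (Phi R)
  have hg : Function.Surjective g := QuotientGroup.mk'_surjective _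
  have hk : g.ker = Phi R := QuotientGroup.ker_mk' _
  have cp : ∀ T : Subgroup (X ⧸ Phi R), T.Normal → IsPGroup p (T.comap g) → T ≤ R.map g :=
    fun T _ h => by
      rw [← map_comap_eq_self_of_surjective hg T]
      exact map_mono (Solv.le_pCore h)
  have nR : (R.map g).Normal := Subgroup.Normal.map inferInstance g hg
  have h2 : C[R.map g] ≤ R.map g := cp _ inferInstance (PiNat.pg fun q hq hd => by
    by_contra hne
    obtain ⟨Q, hQ, hc⟩ := Cauchy_sub hq hd
    have e1 : PiGrp {p}ᶜ Q := by change PiNat _ _; rw [hc]; exact (pnat_prime hq).2 hne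
    have e2 : Q ≤ C[R] := coprime_cent_Phi le_normalizer_of_normal (pnat_coprime pR.pi e1) (by
      rw [← hk, ← Subgroup.map_eq_bot_iff, map_commutator, commutator_comm, commG1]
      exact map_le_iff_le_comap.2 hQ)
    exact ne_bot_of_prime (hc ▸ hq) (trivg_of_pi (pgroupS (e2.trans hC) pR.pi) e1))
  have h3 : (S : Subgroup X).map g ≤ pCore p (X ⧸ Phi R) := by
    refine (PLocal.odd_stableOn (by
      rw [card_top]; exact hX.of_dvd_nat (card_quotient_dvd_card _)) (pR.map g)
      le_normalizer_of_normal).le_of_cent (h2.trans (Solv.le_pCore (pR.map g))) ?_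
    set D := ⁅(S : Subgroup X).map g, (S : Subgroup X).map g⁆ with hD
    refine le_bot_iff.1 ((commutator_mono (commutator_mono (map_mono RS) le_rfl) le_rfl).trans
      (commG1.2 ?_).le)
    by_cases e : D = ⊥
    · rw [← hD, e]; exact bot_le
    have hc : IsCyclic D := by
      rw [hD, ← map_commutator]
      exact isCyclic_of_surjective _ (g.subgroupMap_surjective _)
    obtain ⟨d, hd⟩ := (Subgroup.isCyclic_iff_exists_zpowers_eq_top _).1 hc
    have hq : (Nat.card D).Prime := by
      have : d ∈ R.map g := by
        refine map_mono h1 ?_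
        rw [map_commutator, ← hD, ← hd]; exact mem_zpowers d
      obtain ⟨x, hx, rfl⟩ := this
      rw [← hd, Nat.card_zpowers, orderOf_eq_prime (p := p) (by
        rw [← map_pow, ← g.mem_ker, hk]; exact pow_mem_Phi pR hx) (by
          rintro e1; rw [← hd, e1, zpowers_one_eq_bot] at e; exact e rfl)]
      exact hp.out
    exact (prime_meet hq (meet_center_nil (pgroup_nil (S.2.map g)) 
      ⟨commutator_le_self _, normalizer_commutator_ge_left _ _⟩ e)).trans
      inf_le_right
  have h4 : (S : Subgroup X) ≤ R := (map_le_iff_le_comap.1 h3).trans (Solv.le_pCore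
    ((Solv.isPGroup_pCore p _).comap_of_ker_isPGroup g (pR.to_le (hk.le.trans (Phi_sub R)))))
  rw [le_antisymm h4 RS]; infer_instance

/-- Let X be a finite solvable group of odd order, p a prime and S a Sylow p-subgroup of X whose commutator subgroup is
cyclic. Then the product of the largest normal subgroup of X of order prime to p with S is a normal subgroup of X. -/
theorem result {X : Type*} [Group X] [Finite X] [Group.IsSolvable X]
    (hX : Odd (Nat.card X)) (p : ℕ) [Fact p.Prime] (S : Sylow p X) (hS : IsCyclic (commutator (S : Subgroup X))) :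
    (Cfsg.pPrimeCore p X ⊔ (S : Subgroup X)).Normal := by
  let f := QuotientGroup.mk' (pPrimeCore p X)
  have hf : Function.Surjective f := QuotientGroup.mk'_surjective _
  have h := aux (hX.of_dvd_nat (card_quotient_dvd_card _)) p
    (Solv.pPrimeCore_quotient_pPrimeCore p X) (S.mapSurjective hf) (by
      rw [Sylow.coe_mapSurjective, ← map_commutator, ← map_subtype_commutator]
      have := isCyclic_of_surjective _ ((S : Subgroup X).subtype.subgroupMap_surjective
        (commutator S))
      exact isCyclic_of_surjective _ (f.subgroupMap_surjective _))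
  have := h.comap f
  rwa [Sylow.coe_mapSurjective, comap_map_eq, QuotientGroup.ker_mk', sup_comm] at this

end Cfsg.Agent.S0521
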