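import Cfsg.Statements.S0522
import Cfsg.Agent.BG.S6
import Cfsg.Agent.PLocal.Npc
import Cfsg.Agent.S0205

set_option autoImplicit false
open Cfsg

namespace Cfsg.Agent.S0522

open Cfsg.Agent.BG Subgroup

/-- Transitivity Theorem (odd-order setting). Let X be a finite group of odd order in which the normalizer of every
nontrivial p-subgroup is solvable, P a Sylow p-subgroup, and B an abelian subgroup of P, normalized by P, with
C_P(B) = B and containing an elementary abelian subgroup of order p^3. Then for every prime q ≠ p, any two q-subgroups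
that are maximal among the q-subgroups normalized by B are conjugate by an element of the centralizer of B. -/
theorem result {X : Type*} [Group X] [Finite X] (hX : Odd (Nat.card X)) (p : ℕ)
    [Fact p.Prime] (hloc : ∀ T : Subgroup X, IsPGroup p T → T ≠ ⊥ → Group.IsSolvable (Subgroup.normalizer (T : Set X)))
    (P : Sylow p X) (B : Subgroup X) (hBP : B ≤ (P : Subgroup X))
    (hBn : ∀ x ∈ (P : Subgroup X), ∀ b ∈ B, x * b * x⁻¹ ∈ B) (hBa : IsMulCommutative B)
    (hBc : (P : Subgroup X) ⊓ Subgroup.centralizer (B : Set X) = B)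
    (hB3 : ∃ E : Subgroup X, E ≤ B ∧ (∀ e ∈ E, e ^ p = 1) ∧ p ^ 3 ≤ Nat.card E)
    (q : ℕ) [Fact q.Prime] (hqp : q ≠ p) (Q₁ Q₂ : Subgroup X)
    (h₁ : IsPGroup q Q₁ ∧ B ≤ Subgroup.normalizer (Q₁ : Set X) ∧
      ∀ R : Subgroup X, IsPGroup q R → B ≤ Subgroup.normalizer (R : Set X) → Q₁ ≤ R → R = Q₁)
    (h₂ : IsPGroup q Q₂ ∧ B ≤ Subgroup.normalizer (Q₂ : Set X) ∧
      ∀ R : Subgroup X, IsPGroup q R → B ≤ Subgroup.normalizer (R : Set X) → Q₂ ≤ R → R = Q₂) :
    ∃ c ∈ Subgroup.centralizer (B : Set X), Q₂ = Q₁.map (MulAut.conj c).toMonoidHom := by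
  have := S0205.result hX
  let f := QuotientGroup.mk' (pPrimeCore p X)
  have hf : Function.Surjective f := QuotientGroup.mk'_surjective _
  have hk : f.ker = pPrimeCore p X := QuotientGroup.ker_mk' _
  have hc := Solv.coprime_card_pPrimeCore p X
  have pB : IsPGroup p B := P.2.to_le hBP
  set R := pCore p (X ⧸ pPrimeCore p X) with hR
  have pR : IsPGroup p R := Solv.isPGroup_pCore p _
  have RS : R ≤ (P : Subgroup X).map f := pR.le_sylow_of_normal (P.mapSurjective hf)
  have hC : C[R] ≤ R := Solv.centralizer_pCore_le (Solv.pPrimeCore_quotient_pPrimeCore p X)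
  have h1 : B.map f ≤ R := by
    refine (PLocal.odd_stableOn (by
      rw [card_top]; exact hX.of_dvd_nat (card_quotient_dvd_card _)) pR
      le_normalizer_of_normal).le_of_cent hC ?_
    refine commG1.2 ((commg_subr (RS.trans ?_)).trans (B.map_isMulCommutative f).cent)
    exact (map_mono fun x hx => mem_normalizer_fintype (hBn x hx)).trans (le_normalizer_map f)
  have h2 : R ⊓ C[B.map f] ≤ B.map f := fun y hy => by
    obtain ⟨x, hx, rfl⟩ := RS hy.1
    refine mem_map_of_mem f (hBc.le ⟨hx, fun b hb => ?_⟩)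
    have e1 : b * x * (x * b)⁻¹ ∈ pPrimeCore p X ⊓ (P : Subgroup X) := mem_inf.2 ⟨by
      rw [← hk, f.mem_ker, map_mul, map_inv, map_mul, map_mul, hy.2 _ (mem_map_of_mem f hb),
        mul_inv_cancel], mul_mem (mul_mem (hBP hb) hx) (inv_mem (mul_mem hx (hBP hb)))⟩
    obtain ⟨k, hk⟩ := P.2.exists_card_eq
    rwa [coprime_TI (hk ▸ hc.pow_right k), mem_bot, mul_inv_eq_one] at e1
  have key : ∀ Q : Subgroup X, IsPGroup q Q → B ≤ N[Q] → Q ≤ pPrimeCore p X := fun Q hQ hn => by
    have e0 := IsPGroup.coprime_card_of_ne p q hqp.symm _ _ pR (hQ.map f)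
    have e1 : Q.map f ≤ C[B.map f] := commG1.1 (le_bot_iff.1 ((le_inf
      ((commutator_mono le_rfl h1).trans (commutator_le_right _ _))
      (commg_subl ((map_mono hn).trans (le_normalizer_map f)))).trans (coprime_TI e0).le))
    have e2 := coprime_nil_cent_of_selfcent le_normalizer_of_normal e0 (pgroup_nil pR) h1 e1 h2
    rw [← hk, ← Subgroup.map_eq_bot_iff, ← coprime_TI e0]
    exact (inf_eq_right.2 (e2.trans hC)).symm
  obtain ⟨k, hk'⟩ := pB.exists_card_eq
  have hc' : (Nat.card (pPrimeCore p X)).Coprime (Nat.card B) := hk' ▸ hc.pow_right k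
  have syl : ∀ Q : Subgroup X, IsPGroup q Q → B ≤ N[Q] →
      (∀ R : Subgroup X, IsPGroup q R → B ≤ N[R] → Q ≤ R → R = Q) →
      SylowIn q Q (pPrimeCore p X) := fun Q h1 h2 h3 => by
    obtain ⟨T, t1, t2, t3⟩ := coprime_Sylow_subset le_normalizer_of_normal hc'
      (.inr inferInstance) (key Q h1 h2) h1 h2
    exact h3 T t1.pg t2 t3 ▸ t1
  obtain ⟨c, hc, e⟩ := coprime_Sylow_trans le_normalizer_of_normal hc' (.inr inferInstance)
    (syl Q₁ h₁.1 h₁.2.1 h₁.2.2) h₁.2.1 (syl Q₂ h₂.1 h₂.2.1 h₂.2.2) h₂.2.1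
  exact ⟨c, hc.2, e⟩

end Cfsg.Agent.S0522
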