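import Cfsg.Statements.S0529
import Cfsg.Agent.SolvStr.Huppert

set_option autoImplicit false
open Cfsg

namespace Cfsg.Agent.S0529

open Subgroup Solv SolvStr

universe u

theorem aux (m : ℕ) : ∀ (G : Type u) [Group G] [Finite G], Nat.card G = m → IsSupersolvable G →
    ∃ (n : ℕ) (H : Fin (n + 1) → Subgroup G), H 0 = ⊥ ∧ H (Fin.last n) = ⊤ ∧ (∀ i, (H i).Normal) ∧
      (∀ i : Fin n, H i.castSucc ≤ H i.succ ∧ ((H i.castSucc).relIndex (H i.succ)).Prime) ∧
      ∀ i j : Fin n, i ≤ j →
        (H j.castSucc).relIndex (H j.succ) ≤ (H i.castSucc).relIndex (H i.succ) := by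
  induction m using Nat.strong_induction_on with
  | _ m ih =>
  intro G _ _ hm hG
  rcases subsingleton_or_nontrivial G with hs | hs
  · exact ⟨0, fun _ => ⊥, rfl, Subsingleton.elim _ _, fun _ => inferInstance, fun i => i.elim0,
      fun i => i.elim0⟩
  obtain ⟨p, hp, hpd, hmax⟩ := exists_max_prime G
  have := Fact.mk hp
  obtain ⟨P⟩ : Nonempty (Sylow p G) := inferInstance
  have := ss_normal_sylow hG hmax P
  obtain ⟨N, hN, hNP, hNc⟩ := ss_exists_normal_card_prime_le hG (P : Subgroup G)
    (P.ne_bot_of_dvd_card hpd)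
  have hNb : N ≠ ⊥ := by
    rintro rfl
    rw [card_bot] at hNc
    exact Nat.not_prime_one hNc
  have hNp : Nat.card N = p :=
    ((Nat.prime_dvd_prime_iff_eq hp hNc).1
      (dvd_card_of_isPGroup (P.isPGroup'.to_le hNP) hNb)).symm
  obtain ⟨n, K, h0, h1, h2, h3, h4⟩ := ih _ (hm ▸ card_quotient_lt hNb) (G ⧸ N) rfl
    (isSupersolvable_quotient hG N)
  have hs := QuotientGroup.mk'_surjective N
  have hr : ∀ A B : Subgroup (G ⧸ N), (A.comap (QuotientGroup.mk' N)).relIndex
      (B.comap (QuotientGroup.mk' N)) = A.relIndex B := fun A B => by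
    rw [relIndex_comap, map_comap_eq_self_of_surjective hs]
  have e0 : (⊥ : Subgroup G).relIndex ((K 0).comap (QuotientGroup.mk' N)) = p := by
    rw [relIndex_bot_left, h0, MonoidHom.comap_bot, QuotientGroup.ker_mk', hNp]
  refine ⟨n + 1, Fin.cons ⊥ fun i => (K i).comap (QuotientGroup.mk' N), rfl, ?_, ?_, ?_, ?_⟩
  · rw [← Fin.succ_last, Fin.cons_succ, h1, comap_top]
  · intro i
    refine Fin.cases ?_ (fun i => ?_) i
    · exact normal_bot
    · exact (h2 i).comap _
  · intro i
    refine Fin.cases ?_ (fun i => ?_) i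
    · simp only [Fin.castSucc_zero, Fin.cons_zero, Fin.cons_succ, e0]
      exact ⟨bot_le, hp⟩
    · simp only [← Fin.succ_castSucc, Fin.cons_succ, hr]
      exact ⟨comap_mono (h3 i).1, (h3 i).2⟩
  · intro i j
    refine Fin.cases ?_ (fun i => ?_) i <;> refine Fin.cases ?_ (fun j => ?_) j <;> intro hij
    · exact le_rfl
    · simp only [Fin.castSucc_zero, Fin.cons_zero, ← Fin.succ_castSucc, Fin.cons_succ, hr, e0]
      refine hmax _ (h3 j).2 ?_
      exact (relIndex_dvd_card _ _).trans ((card_subgroup_dvd_card _).trans (card_quotient_dvd_card N))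
    · exact absurd hij (by simp)
    · simp only [← Fin.succ_castSucc, Fin.cons_succ, hr]
      exact h4 i j (Fin.succ_le_succ_iff.1 hij)

/-- A finite supersolvable group has a chain of normal subgroups, from the trivial subgroup to the whole group, in which every step has prime index and the primes occurring are non-increasing as one goes up the chain. -/
theorem result {G : Type*} [Group G] [Finite G] (hG : Cfsg.IsSupersolvable G) : ∃ (n : ℕ) (H : Fin (n + 1) → Subgroup G), H 0 = ⊥ ∧ H (Fin.last n) = ⊤ ∧ (∀ i, (H i).Normal) ∧ (∀ i : Fin n, H i.castSucc ≤ H i.succ ∧ ((H i.castSucc).relIndex (H i.succ)).Prime) ∧ ∀ i j : Fin n, i ≤ j → (H j.castSucc).relIndex (H j.succ) ≤ (H i.castSucc).relIndex (H i.succ) := by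
  exact aux _ G rfl hG

end Cfsg.Agent.S0529
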