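import Cfsg.Statements.S0530
import Cfsg.Agent.SolvStr.Huppert

set_option autoImplicit false
open Cfsg

namespace Cfsg.Agent.S0530

open Subgroup Solv SolvStr

universe u

theorem aux (p : ℕ) [hp : Fact p.Prime] (n : ℕ) : ∀ (G : Type u) [Group G] [Finite G],
    Nat.card G = 2 * p ^ n → IsSupersolvable G := by
  induction n using Nat.strong_induction_on with
  | _ n ih =>
  intro G _ _ hG
  obtain ⟨P, hP⟩ := Sylow.exists_subgroup_card_pow_prime (G := G) p (n := n)
    (hG ▸ Dvd.intro_left _ rfl)
  have hi : P.index = 2 := by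
    have := P.card_mul_index
    rw [hP, hG, mul_comm] at this
    exact Nat.eq_of_mul_eq_mul_right (pow_pos hp.out.pos n) this
  have hn := normal_of_index_eq_two hi
  have hPp : IsPGroup p P := IsPGroup.of_card hP
  rcases Nat.eq_zero_or_pos n with rfl | hn0
  · have : IsCyclic G := isCyclic_of_prime_card (p := 2) (by simpa using hG)
    exact isSupersolvable_of_isCyclic
  have hnt : Nontrivial P := by
    rw [← Finite.one_lt_card_iff_nontrivial, hP]
    exact Nat.one_lt_pow hn0.ne' hp.out.one_lt
  have := hPp.center_nontrivial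
  obtain ⟨⟨⟨x, hxP⟩, hxc⟩, hx1⟩ := exists_ne (1 : center P)
  have hx1' : x ≠ 1 := fun e => hx1 (Subtype.ext (Subtype.ext e))
  have hxc' : ∀ y ∈ P, y * x = x * y := fun y hy =>
    congrArg Subtype.val (mem_center_iff.1 hxc ⟨y, hy⟩)
  obtain ⟨t, ht⟩ := index_eq_two_iff'.1 hi
  have htP : t ∉ P := by
    have := ht 1
    rw [mul_one] at this
    intro h
    rcases this with ⟨_, h2⟩ | ⟨_, h2⟩
    · exact h2 P.one_mem
    · exact h2 h
  have hcases : ∀ g : G, g ∈ P ∨ t⁻¹ * g ∈ P := by
    intro g
    rw [mul_mem_iff_of_index_two hi, inv_mem_iff]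
    tauto
  have ht2 : t * t ∈ P := mul_self_mem_of_index_two hi t
  -- a nontrivial element of `P` generating a normal subgroup
  obtain ⟨z, hzP, hz1, hz⟩ : ∃ z ∈ P, z ≠ 1 ∧ (zpowers z).Normal := by
    have key : ∀ z : G, (∀ y ∈ P, y * z = z * y) → t * z * t⁻¹ ∈ zpowers z → (zpowers z).Normal := by
      intro z h1 h2
      rw [← normalizer_eq_top_iff, eq_top_iff]
      intro g _
      have h3 : P ≤ normalizer ((zpowers z : Subgroup G) : Set G) := by
        refine le_trans ?_ (centralizer_le_normalizer _)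
        rw [le_centralizer_iff, zpowers_le]
        exact h1
      have h4 : t ∈ normalizer ((zpowers z : Subgroup G) : Set G) := by
        refine mem_normalizer_fintype ?_
        rintro _ ⟨k, rfl⟩
        simp only
        rw [← conj_zpow]
        exact zpow_mem h2 k
      rcases hcases g with h | h
      · exact h3 h
      · simpa using mul_mem h4 (h3 h)
    by_cases hinv : t * x * t⁻¹ = x⁻¹
    · exact ⟨x, hxP, hx1', key x hxc' (hinv ▸ inv_mem (mem_zpowers x))⟩
    · have hy := hn.conj_mem x hxP t
      refine ⟨x * (t * x * t⁻¹), P.mul_mem hxP hy, fun e => hinv (eq_inv_of_mul_eq_one_right e),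
        key _ (fun y hy' => ?_) ?_⟩
      · have := hxc' _ (hn.conj_mem' y hy' t)
        calc y * (x * (t * x * t⁻¹)) = (y * x) * (t * x * t⁻¹) := by group
          _ = x * t * (t⁻¹ * y * t * x) * t⁻¹ := by rw [hxc' y hy']; group
          _ = _ := by rw [this]; group
      · have e : t * (x * (t * x * t⁻¹)) * t⁻¹ = x * (t * x * t⁻¹) := by
          calc _ = (t * x * t⁻¹) * ((t * t * x) * (t * t)⁻¹) := by group
            _ = (t * x * t⁻¹) * x := by rw [hxc' _ ht2]; group
            _ = _ := hxc' _ hy
        rw [e]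
        exact mem_zpowers _
  have hle : zpowers z ≤ P := zpowers_le.2 hzP
  obtain ⟨j, hj, hc⟩ := (Nat.dvd_prime_pow hp.out).1 (hP ▸ card_dvd_of_le hle)
  have hj0 : j ≠ 0 := by
    rintro rfl
    rw [pow_zero, card_eq_one, zpowers_eq_bot] at hc
    exact hz1 hc
  refine isSupersolvable_of_isCyclic_of_quotient (zpowers z) (ih (n - j) (by omega) _ ?_)
  have := (zpowers z).card_eq_card_quotient_mul_card_subgroup
  rw [hG, hc, ← pow_sub_mul_pow p hj, ← mul_assoc] at this
  exact (Nat.eq_of_mul_eq_mul_right (pow_pos hp.out.pos j) this).symm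

/-- A finite group whose order is twice a prime power is supersolvable. -/
theorem result {G : Type*} [Group G] [Finite G] (p n : ℕ) (hp : p.Prime) (hG : Nat.card G = 2 * p ^ n) : Cfsg.IsSupersolvable G := by
  have := Fact.mk hp
  exact aux p n G hG

end Cfsg.Agent.S0530
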