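import Cfsg.Statements.S0533
import Cfsg.Agent.SolvStr.Huppert
import Cfsg.Agent.SolvStr.Product

set_option autoImplicit false
open Cfsg

namespace Cfsg.Agent.S0533

open Subgroup Solv SolvStr

universe u

theorem index_prime {G : Type*} [Group G] [Finite G] {M D : Subgroup G} (hM : IsCoatom M)
    [D.Normal] [IsCyclic D] (hD : D ≠ ⊥) (h : D ⊓ M = ⊥) : M.index.Prime := by
  have key : ∀ K : Subgroup G, K.Normal → K ≤ D → K ≠ ⊥ → M.index = Nat.card K := by
    intro K _ hKD hK
    have h1 : K ⊓ M = ⊥ := eq_bot_iff.2 ((inf_le_inf_right M hKD).trans h.le)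
    exact (isComplement'_of_inf_sup h1 (sup_eq_top_of_isCoatom hM
      (fun e => hK (by rw [← h1, inf_eq_left.2 e])))).index_eq_card
  rw [key D inferInstance le_rfl hD]
  refine card_prime_of_isCyclic_of_minimal_normal hD fun K hK hKD => ?_
  by_cases h0 : K = ⊥
  · exact Or.inl h0
  · exact Or.inr (eq_of_le_of_card_ge hKD
      (by rw [← key D inferInstance le_rfl hD, ← key K hK hKD h0]))

theorem aux (n : ℕ) : ∀ (G : Type u) [Group G] [Finite G], Nat.card G = n →
    (∀ H : Subgroup G, HasSubgroupOfEveryOrder H) → IsSupersolvable G := by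
  induction n using Nat.strong_induction_on with
  | _ n ih =>
  intro G _ _ hn h
  rcases subsingleton_or_nontrivial G with hs | hs
  · exact isSupersolvable_of_subsingleton
  have hsub : ∀ H : Subgroup G, H ≠ ⊤ → IsSupersolvable H := fun H hH =>
    ih _ (hn ▸ card_lt_of_ne_top hH) H rfl fun K =>
      clt_of_mulEquiv (K.equivMapOfInjective H.subtype H.subtype_injective).symm (h _)
  obtain ⟨p, hp, hpd, hmax⟩ := exists_max_prime G
  have := Fact.mk hp
  obtain ⟨P⟩ : Nonempty (Sylow p G) := inferInstance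
  have hPn := normal_sylow_of_forall_clt h hmax P
  have hP0 := P.ne_bot_of_dvd_card hpd
  refine huppert fun M hM => ?_
  by_cases hPM : (P : Subgroup G) ≤ M
  · obtain ⟨K, hK⟩ := exists_right_complement'_of_coprime (N := (P : Subgroup G))
      P.card_coprime_index
    have hK1 : K ≠ ⊤ := by
      rintro rfl
      exact hP0 (by simpa using hK.disjoint)
    rw [← index_map_mk' hPM]
    exact ss_index_prime_of_isCoatom
      (isSupersolvable_of_mulEquiv hK.symm.QuotientMulEquiv.symm (hsub K hK1))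
      (isCoatom_map_mk' hM hPM)
  obtain ⟨H, hH⟩ := clt_of_mulEquiv topEquiv (h ⊤) (Nat.card G / p) (Nat.div_dvd_of_dvd hpd)
  have hi : H.index = p := by
    have e := H.card_mul_index
    rw [hH] at e
    refine Nat.eq_of_mul_eq_mul_left (Nat.div_pos (Nat.le_of_dvd Nat.card_pos hpd) hp.pos) ?_
    rw [e, Nat.div_mul_cancel hpd]
  have hH1 : H ≠ ⊤ := by
    rintro rfl
    rw [index_top] at hi
    exact hp.one_lt.ne hi
  have hPH : (P : Subgroup G) ⊔ H = ⊤ := by
    rw [← index_eq_one]
    exact Nat.eq_one_of_dvd_coprimes ((Nat.Prime.coprime_iff_not_dvd hp).2 P.not_dvd_index)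
      ((index_dvd_of_le le_sup_right).trans hi.dvd) (index_dvd_of_le le_sup_left)
  have hPM' := sup_eq_top_of_isCoatom hM hPM
  have := P.isPGroup'.isNilpotent
  have hcomm : ⁅(P : Subgroup G), (P : Subgroup G)⁆ ≤ (P : Subgroup G) ⊓ M :=
    le_inf (commutator_le_left _ _)
      ((commutator_le_frattini_of_normal (P : Subgroup G)).trans (frattini_le_coatom hM))
  have hnorm : ∀ D : Subgroup G, (P : Subgroup G) ⊓ M ≤ D → D ≤ P →
      (P : Subgroup G) ≤ normalizer (D : Set G) := fun D h1 h2 =>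
    le_normalizer_iff_commutator_le_left.2 ((commutator_mono h2 le_rfl).trans (hcomm.trans h1))
  have hA : ((P : Subgroup G) ⊓ M).Normal :=
    normal_of_le_normalizer_of_sup_eq_top (hnorm _ le_rfl inf_le_left)
      (le_normalizer_inf le_normalizer_of_normal le_normalizer) hPM'
  have hidx : ∀ L : Subgroup G, (P : Subgroup G) ⊔ L = ⊤ → L.relIndex P = L.index := by
    intro L hL
    rw [← relIndex_top_right, ← hL]
    exact (isProd_sup_of_le_normalizer le_normalizer_of_normal).relIndex_eq
  by_cases h1 : (P : Subgroup G) ⊓ H ≤ M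
  · have h2 : M.index ∣ p := by
      have h3 := relIndex_dvd_of_le_left (P : Subgroup G) h1
      rwa [inf_relIndex_left, hidx M hPM', hidx H hPH, hi] at h3
    rcases (Nat.dvd_prime hp).1 h2 with e | e
    · exact absurd (index_eq_one.1 e) hM.1
    · rwa [e]
  obtain ⟨⟨g, hgH⟩, hgP, hgA, hn⟩ := ss_exists_step (hsub H hH1)
    (A := ((P : Subgroup G) ⊓ M).subgroupOf H) (B := (P : Subgroup G).subgroupOf H)
    (fun e => h1 fun x hx => (e (show (⟨x, hx.2⟩ : H) ∈ (P : Subgroup G).subgroupOf H from hx.1)).2)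
  have hD : (((P : Subgroup G) ⊓ M) ⊔ zpowers g).Normal := by
    refine normal_of_le_normalizer_of_sup_eq_top
      (hnorm _ le_sup_left (sup_le inf_le_left (zpowers_le.2 hgP))) ?_ hPH
    have h3 := le_normalizer_map_subtype H
      (((P : Subgroup G) ⊓ M).subgroupOf H ⊔ zpowers (⟨g, hgH⟩ : H))
    have h4 := le_normalizer_sup (le_normalizer_of_normal (H := (P : Subgroup G) ⊓ M)) h3
    rwa [Subgroup.map_sup, subgroupOf_map_subtype, MonoidHom.map_zpowers, ← sup_assoc,
      sup_inf_self] at h4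
  rw [← index_map_mk' (N := (P : Subgroup G) ⊓ M) inf_le_right]
  have e : (((P : Subgroup G) ⊓ M) ⊔ zpowers g).map (QuotientGroup.mk' ((P : Subgroup G) ⊓ M)) =
      zpowers (QuotientGroup.mk' ((P : Subgroup G) ⊓ M) g) := by
    rw [Subgroup.map_sup, map_mk'_eq_bot_iff.2 le_rfl, bot_sup_eq, MonoidHom.map_zpowers]
  have : (zpowers (QuotientGroup.mk' ((P : Subgroup G) ⊓ M) g)).Normal :=
    e ▸ hD.map _ (QuotientGroup.mk'_surjective ((P : Subgroup G) ⊓ M))
  refine index_prime (isCoatom_map_mk' hM inf_le_right)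
    (D := zpowers (QuotientGroup.mk' ((P : Subgroup G) ⊓ M) g)) ?_ ?_
  · rw [Ne, zpowers_eq_bot, QuotientGroup.mk'_apply, QuotientGroup.eq_one_iff]
    exact hgA
  · rw [eq_bot_iff]
    rintro _ ⟨⟨k, rfl⟩, m, hm, e⟩
    rw [mem_bot]
    simp only [QuotientGroup.mk'_apply, ← QuotientGroup.mk_zpow] at e ⊢
    rw [QuotientGroup.eq] at e
    rw [QuotientGroup.eq_one_iff]
    exact ⟨zpow_mem hgP k, by simpa using M.mul_mem hm e.2⟩

/-- If every subgroup of a finite group has subgroups of all orders dividing its order, then the group is supersolvable. -/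
theorem result {G : Type*} [Group G] [Finite G] (h : ∀ H : Subgroup G, Cfsg.HasSubgroupOfEveryOrder H) : Cfsg.IsSupersolvable G := by
  exact aux _ G rfl h

end Cfsg.Agent.S0533
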