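import Cfsg.Statements.S0535
import Cfsg.Agent.Solv.HallConverse

set_option autoImplicit false
open Cfsg

namespace Cfsg.Agent.S0535

open Subgroup Solv

/-- Suppose that for every nontrivial subgroup H of a finite group and every prime p dividing the order of H there is a proper subgroup of H whose index in H is a power of p. Then the group is solvable. -/
theorem result {G : Type*} [Group G] [Finite G] (h : ∀ H : Subgroup G, H ≠ ⊥ → ∀ p : ℕ, p.Prime → p ∣ Nat.card H → ∃ K : Subgroup H, K ≠ ⊤ ∧ ∃ k : ℕ, K.index = p ^ k) : Group.IsSolvable G := by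
  refine isSolvable_of_forall_exists_hall fun p hp _ => ?_
  -- a minimal subgroup of `p`-power index
  obtain ⟨H, ⟨k, hk⟩, hmin⟩ := exists_minimal_of_wellFoundedLT
    (fun H : Subgroup G => ∃ k : ℕ, H.index = p ^ k) ⟨⊤, 0, by simp⟩
  refine ⟨H, (isPiHall_compl_singleton_iff hp).2 ⟨?_, k, hk⟩⟩
  rw [Nat.coprime_comm, Nat.Prime.coprime_iff_not_dvd hp]
  intro hd
  have hH : H ≠ ⊥ := by
    rintro rfl
    rw [card_bot, Nat.dvd_one] at hd
    exact hp.one_lt.ne' hd
  obtain ⟨K, hK, j, hj⟩ := h H hH p hp hd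
  have h1 : (K.map H.subtype).index = p ^ (j + k) := by
    rw [index_map_subtype, hj, hk, pow_add]
  have h2 := hmin ⟨_, h1⟩ (map_subtype_le K)
  apply hK
  rw [eq_top_iff]
  intro x _
  obtain ⟨y, hy, e⟩ := h2 x.2
  rwa [← Subtype.ext e]

end Cfsg.Agent.S0535
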