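import Cfsg.Statements.S0537
import Cfsg.Agent.SolvStr.Schmidt

set_option autoImplicit false
open Cfsg

namespace Cfsg.Agent.S0537

open Subgroup Cfsg.Agent.BG Cfsg.Agent.SolvStr

/-- A finite non-abelian group in which every proper subgroup is abelian is either of prime-power order, or is generated by a cyclic Sylow p-subgroup and a normal Sylow q-subgroup that is elementary abelian, for distinct primes p and q. -/
theorem result {G : Type*} [Group G] [Finite G] (hna : ¬ IsMulCommutative G) (h : ∀ H : Subgroup G, H ≠ ⊤ → IsMulCommutative H) : (∃ p : ℕ, p.Prime ∧ IsPGroup p G) ∨ ∃ p q : ℕ, p.Prime ∧ q.Prime ∧ p ≠ q ∧ ∃ (P : Sylow p G) (Q : Sylow q G), IsCyclic P ∧ (Q : Subgroup G).Normal ∧ Cfsg.IsElementaryAbelian q (Q : Subgroup G) ∧ (P : Subgroup G) ⊔ Q = ⊤ := by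
  have hna' : ¬ IsMulCommutative (⊤ : Subgroup G) := mt abelian_top_iff.1 hna
  by_cases hn : Group.IsNilpotent G
  · left
    obtain ⟨p, hp, hd⟩ := exists_prime_dvd_card (A := (⊤ : Subgroup G)) fun e => hna' (e ▸ abelian_bot)
    have := Fact.mk hp
    have hd' := nilpotent_pcoreC {p} (nil_top_iff.2 hn)
    refine ⟨p, hp, ?_⟩
    by_cases h1 : Op p (⊤ : Subgroup G) = ⊤
    · exact (h1 ▸ Op_pgroup p ⊤ : IsPGroup p (⊤ : Subgroup G)).of_equiv topEquiv
    · refine absurd (hd'.sup ▸ abelianY (h _ h1) (h _ fun e => ?_) hd'.symm.cent) hna'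
      exact pcore_pgroup {p}ᶜ (⊤ : Subgroup G) p hp (e.symm ▸ hd) rfl
  · right
    obtain ⟨p, q, x, Q, hs⟩ := schmidt ⟨hn, fun H hH => abelian_nil (h H hH)⟩
    obtain ⟨P, R, hP, rfl⟩ := hs.exists_sylow
    have := Fact.mk hs.pq
    have hab : IsMulCommutative (R : Subgroup G) := h _ fun e => hs.ncent (by
      rw [← top_inf_eq (zpowers x), ← e, coprime_TI hs.coprime]; exact bot_le)
    refine ⟨p, q, hs.pp, hs.pq, hs.ne, P, R, hP ▸ inferInstance, hs.normal.normal, ?_,
      by rw [hP, sup_comm, hs.sup]⟩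
    have h1 : omegaOne q (R : Subgroup G) ⊔ zpowers x = ⊤ := by
      by_contra h1
      exact hs.ncent (coprime_abelian_faithful_Ohm1 hs.sylQ.pg (hs.norm _) hs.coprime hab
        (sub_abelian_cent2 (h _ h1) le_sup_right le_sup_left))
    have h2 : (R : Subgroup G) = omegaOne q (R : Subgroup G) := by
      conv_lhs => rw [← inf_top_eq (R : Subgroup G), ← h1,
        group_modl (Or.inr (norms_Ohm q (hs.norm _))) (Ohm_sub _ _), coprime_TI hs.coprime, sup_bot_eq]
    rw [h2]; exact Ohm1_abelem q hab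

end Cfsg.Agent.S0537
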