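import Cfsg.Statements.S0541
import Cfsg.Agent.SolvStr.Subnormal

set_option autoImplicit false
open Pointwise
open Cfsg

namespace Cfsg.Agent.S0541

open Subgroup Cfsg.Agent.SolvStr Cfsg.Agent.Solv

/-- Let Z and Y be subgroups of a finite group G and p a prime. Suppose that for every g in G the subgroup generated by the conjugates of g Z g⁻¹ under Y is a p-group. Then there is a Sylow p-subgroup P of G such that Y normalizes the subgroup generated by all conjugates of Z contained in P. -/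
theorem result {G : Type*} [Group G] [Finite G] (p : ℕ) [Fact p.Prime] (Z Y : Subgroup G) (h : ∀ g : G, IsPGroup p ↥(⨆ y ∈ Y, MulAut.conj (y * g) • Z)) : ∃ P : Sylow p G, Y ≤ Subgroup.normalizer ((⨆ g ∈ {g : G | MulAut.conj g • Z ≤ (P : Subgroup G)}, MulAut.conj g • Z : Subgroup G) : Set G) := by
  -- the family of `Y`-invariant `p`-subgroups generated by conjugates of `Z`
  let C : Set (Subgroup G) := {B | ∃ g : G, B = MulAut.conj g • Z}
  let M : Subgroup G → Prop := fun U => IsPGroup p U ∧ Y ≤ normalizer (U : Set G) ∧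
    U = sSup {B | B ∈ C ∧ B ≤ U}
  have hM0 : M ⊥ := ⟨IsPGroup.of_bot, le_normalizer_of_normal, le_antisymm bot_le (sSup_le fun B hB => hB.2)⟩
  obtain ⟨U, -, hU⟩ := exists_maximal_ge_of_wellFoundedGT M ⊥ hM0
  obtain ⟨hUp, hUY, hUeq⟩ := hU.1
  obtain ⟨P, hUP⟩ := hUp.exists_le_sylow
  have hW : (⨆ g ∈ {g : G | MulAut.conj g • Z ≤ (P : Subgroup G)}, MulAut.conj g • Z : Subgroup G)
      = sSup {B | B ∈ C ∧ B ≤ P} := by
    apply le_antisymm
    · exact iSup₂_le fun g hg => le_sSup ⟨⟨g, rfl⟩, hg⟩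
    · refine sSup_le ?_
      rintro B ⟨⟨g, rfl⟩, hg⟩
      exact le_iSup₂_of_le g hg le_rfl
  refine ⟨P, ?_⟩
  rw [hW]
  by_cases hc : {B | B ∈ C ∧ B ≤ (P : Subgroup G)} ⊆ {B | B ∈ C ∧ B ≤ U}
  · have : {B | B ∈ C ∧ B ≤ (P : Subgroup G)} = {B | B ∈ C ∧ B ≤ U} :=
      Set.Subset.antisymm hc fun B hB => ⟨hB.1, hB.2.trans hUP⟩
    rw [this, ← hUeq]
    exact hUY
  exfalso
  have : Group.IsNilpotent (P : Subgroup G) := P.isPGroup'.isNilpotent
  obtain ⟨X, ⟨⟨g, rfl⟩, hXP⟩, hX0, hXn⟩ := exists_le_normalizer_sSup_in (V := (P : Subgroup G))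
    (S := {B | B ∈ C ∧ B ≤ (P : Subgroup G)}) (S₀ := {B | B ∈ C ∧ B ≤ U})
    (fun B hB => SubnIn.of_isNilpotent hB.2)
    (by
      rintro B ⟨⟨x, rfl⟩, hB⟩ y hy
      refine ⟨⟨y * x, conj_smul_conj_smul _ _ _⟩, ?_⟩
      rw [← conj_smul_eq_self_of_mem hy]
      exact conj_smul_mono _ hB)
    ⟨fun B hB => ⟨hB.1, hB.2.trans hUP⟩, hc⟩
  rw [← hUeq] at hXn
  set W : Subgroup G := ⨆ y ∈ Y, MulAut.conj (y * g) • Z with hWdef
  have hWn : W ≤ normalizer (U : Set G) := by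
    refine iSup₂_le fun y hy => ?_
    rw [← conj_smul_conj_smul, ← conj_smul_eq_self_iff.2 (hUY hy), normalizer_conj_smul]
    exact conj_smul_mono _ hXn
  have hYW : Y ≤ normalizer (W : Set G) := by
    rw [le_normalizer_iff]
    intro x hx
    rw [← conj_smul_le_iff, conj_smul_eq_map, map_le_iff_le_comap]
    refine iSup₂_le fun y hy => ?_
    rw [← map_le_iff_le_comap, ← conj_smul_eq_map, conj_smul_conj_smul, ← mul_assoc]
    exact le_iSup₂_of_le (f := fun y (_ : y ∈ Y) => MulAut.conj (y * g) • Z) (x * y)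
      (mul_mem hx hy) le_rfl
  have hMW : M (U ⊔ W) := by
    refine ⟨hUp.to_sup_of_normal_left' (h g) hWn, le_normalizer_sup hUY hYW, le_antisymm ?_
      (sSup_le fun B hB => hB.2)⟩
    refine sup_le ?_ (iSup₂_le fun y hy => le_sSup ⟨⟨_, rfl⟩, le_sup_of_le_right ?_⟩)
    · conv_lhs => rw [hUeq]
      exact sSup_le_sSup fun B hB => ⟨hB.1, hB.2.trans le_sup_left⟩
    · exact le_iSup₂_of_le (f := fun y (_ : y ∈ Y) => MulAut.conj (y * g) • Z) y hy le_rfl
  have h1 := hU.2 hMW le_sup_left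
  refine hX0 ⟨⟨g, rfl⟩, le_trans ?_ (le_sup_right.trans h1)⟩
  exact le_iSup₂_of_le (f := fun y (_ : y ∈ Y) => MulAut.conj (y * g) • Z) 1 (one_mem _)
    (by rw [one_mul])

end Cfsg.Agent.S0541
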