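import Cfsg.Statements.S0542
import Cfsg.Agent.Loc.Syl

set_option autoImplicit false
open Cfsg

namespace Cfsg.Agent.S0542

open Subgroup Cfsg.Agent.Loc

/-- A Sylow p-subgroup of a finite group meets every subnormal subgroup H in a Sylow p-subgroup of H. -/
theorem result {G : Type*} [Group G] [Finite G] (p : ℕ) [Fact p.Prime] (H : Subgroup G) (hH : H.IsSubnormal) (S : Sylow p G) : ∃ Q : Sylow p H, (Q : Subgroup H) = (S : Subgroup G).subgroupOf H := by
  have key : SylIn p ((S : Subgroup G) ⊓ H) H := by
    induction hH with
    | top => simpa using sylIn_top S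
    | step H K hle hK hN ih =>
      rw [normal_subgroupOf_iff_le_normalizer hle] at hN
      have := ih.inf_normal' hle hN
      rwa [inf_assoc, inf_eq_right.2 hle] at this
  refine ⟨key.toSylow, ?_⟩
  rw [key.coe_toSylow, inf_subgroupOf_right]

end Cfsg.Agent.S0542
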