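import Cfsg.Statements.S0547
import Cfsg.Agent.Solv.MinNormal

set_option autoImplicit false
open Cfsg

namespace Cfsg.Agent.S0547

open Subgroup Cfsg.Agent.Solv MulAction

theorem trans {G : Type*} [Group G] {Ω : Type*} [MulAction G Ω] [FaithfulSMul G Ω]
    (hprim : MulAction.IsPreprimitive G Ω) (M : Subgroup G) [M.Normal] (hM : M ≠ ⊥) :
    MulAction.IsPretransitive M Ω := by
  refine IsQuasiPreprimitive.isPretransitive_of_normal fun h => hM ?_
  rw [eq_bot_iff]
  intro x hx
  rw [mem_bot]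
  refine eq_of_smul_eq_smul (α := Ω) fun ω => ?_
  have : ω ∈ fixedPoints M Ω := h ▸ Set.mem_univ _
  rw [one_smul]
  exact this ⟨x, hx⟩

theorem reg {G : Type*} [Group G] {Ω : Type*} [MulAction G Ω] [FaithfulSMul G Ω]
    (M : Subgroup G) (ht : MulAction.IsPretransitive M Ω) (ω : Ω) :
    stabilizer G ω ⊓ centralizer (M : Set G) = ⊥ := by
  rw [eq_bot_iff]
  rintro x ⟨hx, hc⟩
  rw [mem_bot]
  refine eq_of_smul_eq_smul (α := Ω) fun η => ?_
  obtain ⟨m, rfl⟩ := exists_smul_eq M ω η
  rw [one_smul, Subgroup.smul_def, smul_smul, ← hc m m.2, mul_smul, mem_stabilizer_iff.1 hx]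

/-- Let a finite solvable group G act faithfully and primitively on a set, and let M be a minimal normal subgroup of G. Then M is transitive with trivial point stabilizers, and the number of points equals the order of M, which is a prime power p ^ d with d ≥ 1. -/
theorem result {G : Type*} [Group G] [Finite G] [Group.IsSolvable G] {Ω : Type*} [Nonempty Ω] [MulAction G Ω] [FaithfulSMul G Ω] (hprim : MulAction.IsPreprimitive G Ω) (M : Subgroup G) [M.Normal] (hM : M ≠ ⊥) (hmin : ∀ K : Subgroup G, K.Normal → K ≤ M → K = ⊥ ∨ K = M) : MulAction.IsPretransitive M Ω ∧ (∀ ω : Ω, MulAction.stabilizer M ω = ⊥) ∧ ∃ p d : ℕ, p.Prime ∧ 0 < d ∧ Nat.card Ω = p ^ d ∧ Nat.card M = p ^ d := by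
  have ht := trans hprim M hM
  obtain ⟨hc, p, hp, hpow⟩ := elementary_of_minimal_normal hM hmin
  have hreg : ∀ ω : Ω, stabilizer M ω = ⊥ := by
    intro ω
    rw [eq_bot_iff]
    intro x hx
    have : (x : G) ∈ stabilizer G ω ⊓ centralizer (M : Set G) := ⟨hx, M.le_centralizer x.2⟩
    rw [reg M ht ω] at this
    exact Subtype.ext this
  refine ⟨ht, hreg, ?_⟩
  have := Fact.mk hp
  have : Nontrivial M := (nontrivial_iff_ne_bot M).2 hM
  obtain ⟨d, hd, hcard⟩ := (isPGroup_of_pow_eq_one hpow).nontrivial_iff_card.1 this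
  refine ⟨p, d, hp, hd, ?_, hcard⟩
  obtain ⟨ω⟩ := ‹Nonempty Ω›
  rw [← index_stabilizer_of_transitive M ω, hreg, index_bot, hcard]

end Cfsg.Agent.S0547
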