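import Cfsg.Statements.S0548
import Cfsg.Agent.S0547
import Cfsg.Agent.SolvStr.Frattini

set_option autoImplicit false
open Cfsg

namespace Cfsg.Agent.S0548

open Subgroup Cfsg.Agent.Solv Cfsg.Agent.SolvStr MulAction

/-- Let a finite solvable group G act faithfully and primitively on a set, let M be a minimal normal subgroup and H the stabilizer of a point. Then H is a complement to M, no non-identity element of H centralizes M, and the only subgroups of M normalized by H are the trivial subgroup and M. -/
theorem result {G : Type*} [Group G] [Finite G] [Group.IsSolvable G] {Ω : Type*} [MulAction G Ω] [FaithfulSMul G Ω] (hprim : MulAction.IsPreprimitive G Ω) (M : Subgroup G) [M.Normal] (hM : M ≠ ⊥) (hmin : ∀ K : Subgroup G, K.Normal → K ≤ M → K = ⊥ ∨ K = M) (ω : Ω) : Subgroup.IsComplement' M (MulAction.stabilizer G ω) ∧ MulAction.stabilizer G ω ⊓ Subgroup.centralizer (M : Set G) = ⊥ ∧ ∀ K : Subgroup G, K ≤ M → MulAction.stabilizer G ω ≤ Subgroup.normalizer (K : Set G) → K = ⊥ ∨ K = M := by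
  have ht := S0547.trans hprim M hM
  obtain ⟨hc, p, hp, hpow⟩ := elementary_of_minimal_normal hM hmin
  have h1 := S0547.reg M ht ω
  have hsup : M ⊔ stabilizer G ω = ⊤ := by
    rw [eq_top_iff]
    intro g _
    obtain ⟨m, hm⟩ := exists_smul_eq M ω (g • ω)
    have : g = m * ((m : G)⁻¹ * g) := by simp
    rw [this]
    refine mul_mem_sup m.2 ?_
    rw [mem_stabilizer_iff, mul_smul, ← hm, Subgroup.smul_def, inv_smul_smul]
  refine ⟨isComplement'_of_inf_sup ?_ hsup, h1, fun K hK hn => hmin K ?_ hK⟩
  · rw [eq_bot_iff, ← h1]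
    exact le_inf inf_le_right (inf_le_left.trans M.le_centralizer)
  · exact normal_of_le_normalizer_of_sup_eq_top
      ((M.le_centralizer.trans (centralizer_le hK)).trans (centralizer_le_normalizer _)) hn hsup

end Cfsg.Agent.S0548
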