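import Cfsg.Statements.S0550
import Cfsg.Agent.SolvStr.Frattini

set_option autoImplicit false
open Cfsg

namespace Cfsg.Agent.S0550

open Subgroup Cfsg.Agent.SolvStr Cfsg.Agent.Solv

/-- Let U be a maximal subgroup with trivial normal core in a finite group G, and A ≠ B two minimal normal subgroups. Then A is the centralizer of B and B that of A, U complements each of them, A and B are non-abelian, and A, B and (A ⊔ B) ∩ U are pairwise isomorphic. -/
theorem result {G : Type*} [Group G] [Finite G] (U : Subgroup G) (hU : IsCoatom U) (hcore : U.normalCore = ⊥) (A B : Subgroup G) [A.Normal] [B.Normal] (hA : A ≠ ⊥) (hB : B ≠ ⊥) (hAmin : ∀ K : Subgroup G, K.Normal → K ≤ A → K = ⊥ ∨ K = A) (hBmin : ∀ K : Subgroup G, K.Normal → K ≤ B → K = ⊥ ∨ K = B) (hAB : A ≠ B) : Subgroup.centralizer (B : Set G) = A ∧ Subgroup.centralizer (A : Set G) = B ∧ Subgroup.IsComplement' A U ∧ Subgroup.IsComplement' B U ∧ ¬ IsMulCommutative A ∧ Nonempty (A ≃* B) ∧ Nonempty (A ≃* ↥((A ⊔ B) ⊓ U))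 := by
  have hd : A ⊓ B = ⊥ := by
    rcases hAmin (A ⊓ B) inferInstance inf_le_left with h | h
    · exact h
    · rcases hBmin A inferInstance (inf_eq_left.1 h) with h' | h'
      · exact absurd h' hA
      · exact absurd h' hAB
  have hc : A ≤ centralizer (B : Set G) := by
    rw [← commutator_eq_bot_iff_le_centralizer]
    exact le_bot_iff.1 ((commutator_le_inf A B).trans hd.le)
  have h1 := eq_centralizer_of_coreFree hU hcore hB hA hc
  have h2 := eq_centralizer_of_coreFree hU hcore hA hB (le_centralizer_iff.1 hc)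
  have hAU : A ⊓ U = ⊥ := h1 ▸ centralizer_inf_eq_bot_of_coreFree hU hcore hB
  have hBU : B ⊓ U = ⊥ := h2 ▸ centralizer_inf_eq_bot_of_coreFree hU hcore hA
  have hAU' := sup_eq_top_of_coreFree hU hcore hA
  have hBU' := sup_eq_top_of_coreFree hU hcore hB
  have e1 : Nonempty (A ≃* ↥((A ⊔ B) ⊓ U)) := by
    refine nonempty_mulEquiv_of_sup_eq (B := B) hd ?_ ?_
    · rw [eq_bot_iff, ← hBU]
      exact le_inf inf_le_right (inf_le_left.trans inf_le_right)
    · rw [sup_comm ((A ⊔ B) ⊓ U) B, inf_comm,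
        ← sup_inf_of_le_left le_normalizer_of_normal le_sup_right, hBU', top_inf_eq]
  have e2 : Nonempty (B ≃* ↥((A ⊔ B) ⊓ U)) := by
    refine nonempty_mulEquiv_of_sup_eq (B := A) (by rwa [inf_comm]) ?_ ?_
    · rw [eq_bot_iff, ← hAU]
      exact le_inf inf_le_right (inf_le_left.trans inf_le_right)
    · rw [sup_comm ((A ⊔ B) ⊓ U) A, inf_comm,
        ← sup_inf_of_le_left le_normalizer_of_normal le_sup_left, hAU', top_inf_eq, sup_comm]
  refine ⟨h1.symm, h2.symm, isComplement'_of_inf_sup hAU hAU', isComplement'_of_inf_sup hBU hBU',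
    fun h => hA ?_, ?_, e1⟩
  · rw [eq_bot_iff, ← hd]
    exact le_inf le_rfl (h2 ▸ A.le_centralizer)
  · obtain ⟨e1⟩ := e1
    obtain ⟨e2⟩ := e2
    exact ⟨e1.trans e2.symm⟩

end Cfsg.Agent.S0550
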