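import Cfsg.Statements.S0551
import Cfsg.Agent.SolvStr.Frattini
import Cfsg.Agent.Loc.Syl

set_option autoImplicit false
open Pointwise
open Cfsg

namespace Cfsg.Agent.S0551

open Subgroup Cfsg.Agent.Solv Cfsg.Agent.SolvStr Cfsg.Agent.Loc

/-- In a finite solvable group all core-free maximal subgroups are conjugate. -/
theorem result {G : Type*} [Group G] [Finite G] [Group.IsSolvable G] (U V : Subgroup G) (hU : IsCoatom U) (hV : IsCoatom V) (hUc : U.normalCore = ⊥) (hVc : V.normalCore = ⊥) : ∃ g : G, MulAut.conj g • U = V := by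
  have hnt : Nontrivial G := by
    by_contra h
    rw [not_nontrivial_iff_subsingleton] at h
    exact hU.1 (Subsingleton.elim _ _)
  obtain ⟨p, N, hp, hNn, hN, hNc, -, hNp, hmin⟩ := exists_normal_elementary G
  have := Fact.mk hp
  have hC : N = centralizer (N : Set G) := eq_centralizer_of_coreFree hU hUc hN hN N.le_centralizer
  have hinf : ∀ W : Subgroup G, IsCoatom W → W.normalCore = ⊥ → N ⊓ W = ⊥ := by
    intro W hW hWc
    have := centralizer_inf_eq_bot_of_coreFree hW hWc hN
    rwa [← hC] at this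
  by_cases hN' : N = ⊤
  · have h1 := hinf U hU hUc
    have h2 := hinf V hV hVc
    rw [hN', top_inf_eq] at h1 h2
    exact ⟨1, by rw [h1, h2, conj_one_smul]⟩
  have : Nontrivial (G ⧸ N) := QuotientGroup.nontrivial_iff.2 hN'
  obtain ⟨q, L', hq, hL'n, hL', -, -, hL'q, -⟩ := exists_normal_elementary (G ⧸ N)
  have := Fact.mk hq
  set L := L'.comap (QuotientGroup.mk' N) with hL
  have hNL : N ≤ L := QuotientGroup.le_comap_mk' N L'
  have hLN : ¬ L ≤ N := by
    intro h
    apply hL'
    rw [← map_comap_eq_self_of_surjective (QuotientGroup.mk'_surjective N) L', eq_bot_iff,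
      ← QuotientGroup.map_mk'_self N]
    exact map_mono h
  have hpq : q ≠ p := by
    rintro rfl
    have hLp : IsPGroup q L := hL'q.comap_of_ker_isPGroup _ (by rwa [QuotientGroup.ker_mk'])
    have := hLp.isNilpotent
    exact hLN ((le_centralizer_minimal_normal hmin).trans hC.ge)
  have key : ∀ W : Subgroup G, IsCoatom W → W.normalCore = ⊥ →
      SylIn q (W ⊓ L) L ∧ normalizer ((W ⊓ L : Subgroup G) : Set G) = W := by
    intro W hW hWc
    have h1 := hinf W hW hWc
    have h2 := sup_eq_top_of_coreFree hW hWc hN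
    have h3 : N ⊔ (W ⊓ L) = L := by
      rw [← Solv.sup_inf_of_le_left le_normalizer_of_normal hNL, h2, top_inf_eq]
    have h4 : N ⊓ (W ⊓ L) = ⊥ := by rw [← inf_assoc, h1, bot_inf_eq]
    have h5 := card_sup_of_disjoint (N := N) (H := W ⊓ L) le_normalizer_of_normal h4
    rw [h3] at h5
    have h6 := card_comap_mk' N L'
    rw [← hL, h5] at h6
    have h7 : Nat.card (W ⊓ L : Subgroup G) = Nat.card L' := Nat.eq_of_mul_eq_mul_left Nat.card_pos h6
    obtain ⟨k, hk⟩ := IsPGroup.iff_card.1 hL'q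
    obtain ⟨j, hj⟩ := IsPGroup.iff_card.1 hNp
    refine ⟨sylIn_of_not_dvd_relIndex inf_le_right (IsPGroup.of_card (h7.trans hk)) ?_, ?_⟩
    · have h8 := card_mul_relIndex (inf_le_right : W ⊓ L ≤ L)
      rw [h5, mul_comm (Nat.card N)] at h8
      rw [Nat.eq_of_mul_eq_mul_left Nat.card_pos h8, hj]
      exact fun h => hpq ((Nat.prime_dvd_prime_iff_eq hq hp).1 (hq.dvd_of_dvd_pow h))
    · have h9 : W ≤ normalizer ((W ⊓ L : Subgroup G) : Set G) :=
        Solv.le_normalizer_inf le_normalizer le_normalizer_of_normal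
      refine ((hW.le_iff.1 h9).resolve_left fun h => ?_)
      rw [normalizer_eq_top_iff] at h
      have : W ⊓ L = ⊥ := le_bot_iff.1 (hWc ▸ normal_le_normalCore.2 inf_le_left)
      rw [this, sup_bot_eq] at h3
      exact hLN h3.ge
  obtain ⟨g, -, hg⟩ := (key U hU hUc).1.exists_conj (key V hV hVc).1
  refine ⟨g, ?_⟩
  rw [← (key U hU hUc).2, ← normalizer_conj_smul, conj_smul_eq_map, hg, (key V hV hVc).2]

end Cfsg.Agent.S0551
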