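import Cfsg.Statements.S0553
import Cfsg.Agent.SolvStr.Schmidt

set_option autoImplicit false
open Cfsg

namespace Cfsg.Agent.S0553

open Subgroup Cfsg.Agent.BG

theorem aux (n : ℕ) : ∀ (G : Type*) [Group G] [Finite G] (M : Subgroup G), #M ≤ n →
    Group.IsSolvable M → M ≠ ⊥ → (∀ A, MaxSub A M → (#A).Coprime (A.relIndex M)) →
    ∃ p : ℕ, p.Prime ∧ p ∣ #M ∧ ∃ P, SylowIn p P M ∧ P ⊴ M := by
  induction n with
  | zero => intro G _ _ M h; exact absurd (cardG_pos M) (by omega)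
  | succ n ih =>
  intro G _ _ M hc hs h1 h
  obtain ⟨V, p, hV, hVn, hV1, hp, hVa⟩ := solvable_norm_abelem hs h1 (normG M)
  have := Fact.mk hp
  have nV : V ⊴ M := ⟨hV, hVn⟩
  have hpM := (pgroup_pdiv hVa.pg hV1).trans (cardSg hV)
  by_cases hVM : M ≤ V
  · exact ⟨p, hp, hpM, M, pHall_id (IsPGroup.sub hVa.pg hVM).pi, normal_refl M⟩
  obtain ⟨q, hq, hqd, Q', hQ', hQn⟩ := ih _ (M /ᵍ V) (by have := ltn_quotient hV1 hV; omega)
    (quotient_sol V hs) (quotient_neq1 hVn hVM) fun A hA => by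
      obtain ⟨B, hB1, hB2, rfl⟩ := inv_quotientS nV hA.lt.le
      have nB := nV.subl hB1 hB2
      rw [index_quotient_eq hB2 hVn (inf_le_right.trans hB1)]
      refine (h B ⟨(quotient_proper nB nV).1 hA.lt, fun X h1 h2 => ?_⟩).coprime_dvd_left
        (dvdn_quotient _ _)
      have nX := nV.subl (hB1.trans h1) h2.le
      exact quotient_inj nX nB (hA.max _ (quotientS V h1) ((quotient_proper nX nV).2 h2))
  have := Fact.mk hq
  obtain ⟨Q, hQ⟩ := Sylow_exists q M
  have e := uniq_normal_Hall hQ' hQn (quotient_pHall hVn hQ)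
  have nVQ : V ⊔ Q ⊴ M := normal_of_quotient hVn le_sup_left (sup_le hV hQ.le)
    (by rwa [quotientYidl (hQ.le.trans hVn), e])
  by_cases hN : M ≤ N[Q]
  · exact ⟨q, hq, hqd.trans (dvdn_quotient _ _), Q, hQ, hQ.le, hN⟩
  have hF := Hall_Frattini_arg (solvableS nVQ.le hs) nVQ (pHall_subl le_sup_right nVQ.le hQ)
  rw [sup_assoc, sup_eq_right.2 (le_inf hQ.le (normG Q))] at hF
  obtain ⟨A, hA1, hA⟩ := maxSub_exists (inf_lt_left.2 hN)
  have hVA : V ⊔ A = M := le_antisymm (sup_le hV hA.lt.le) (hF.ge.trans (sup_le_sup_left hA1 V))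
  have h2 : A.relIndex M ∣ #V := by
    have h3 := card_sup_mul_inf (Or.inr (hA.lt.le.trans hVn))
    rw [hVA, ← card_mul_relIndex hA.lt.le, mul_assoc, mul_comm #V] at h3
    exact ⟨_, (Nat.eq_of_mul_eq_mul_left (cardG_pos A) h3).symm⟩
  have h4 : p ∣ A.relIndex M := by
    obtain ⟨r, hr, hd⟩ := Nat.exists_prime_and_dvd (mt relIndex_eq_one.1 hA.lt.not_ge)
    rwa [← show r = p from hVa.pg.pi r hr (hd.trans h2)]
  refine ⟨p, hp, hpM, V, sylow_mk hV hVa.pg fun hd => ?_, nV⟩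
  rw [← hVA, relIndex_sup_norml (hA.lt.le.trans hVn)] at hd
  exact hp.ne_one (Nat.eq_one_of_dvd_coprimes (h A hA) (hd.trans (relIndex_dvd_card _ _)) h4)

/-- Let G be a nontrivial finite solvable group in which every maximal subgroup has order coprime to its index. Then for some prime p dividing the order of G the Sylow p-subgroups of G are normal. -/
theorem result {G : Type*} [Group G] [Finite G] [Group.IsSolvable G] [Nontrivial G] (h : ∀ M : Subgroup G, IsCoatom M → (Nat.card M).Coprime M.index) : ∃ p : ℕ, p.Prime ∧ p ∣ Nat.card G ∧ ∀ P : Sylow p G, (P : Subgroup G).Normal := by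
  obtain ⟨p, hp, hd, P, hP, hn⟩ := aux _ G ⊤ le_rfl (solvable_of ⊤) top_ne_bot fun A hA => by
    rw [relIndex_top_right]; exact h A (maxSub_top.1 hA)
  have := Fact.mk hp
  refine ⟨p, hp, by rwa [card_top] at hd, fun Q => ?_⟩
  rw [uniq_normal_Hall hP hn (sylowIn_top Q)]; exact hn.normal

end Cfsg.Agent.S0553
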