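import Cfsg.Statements.S0554
import Cfsg.Agent.BG.Base6

set_option autoImplicit false
open Cfsg

namespace Cfsg.Agent.S0554

open Subgroup Cfsg.Agent.BG
open scoped Pointwise

theorem prod_absorb {M : Type*} [Monoid M] {n a : M} : ∀ L : List M, (∀ b ∈ L, Commute b n) →
    a ∈ L → a * n = a → L.prod * n = L.prod
  | [], _, h, _ => by simp at h
  | b :: L, hc, h, ha => by
    rw [List.prod_cons]
    rcases List.mem_cons.1 h with rfl | h
    · rw [mul_assoc, (Commute.list_prod_left L n fun b hb => hc b (List.mem_cons_of_mem _ hb)).eq,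
        ← mul_assoc, ha]
    · rw [mul_assoc, prod_absorb L (fun b hb => hc b (List.mem_cons_of_mem _ hb)) h ha]

theorem aux {t : ℕ} (p : Fin t → ℕ) (n : ℕ) : ∀ (G : Type*) [Group G] [Finite G], Nat.card G ≤ n →
    Group.IsSolvable G → (∀ q : ℕ, q.Prime → q ∣ Nat.card G → ∃ i, p i = q) →
    ∀ S : Fin t → Subgroup G, (∀ i, SylowIn (p i) (S i) ⊤) →
    ∀ g, g ∈ (List.ofFn fun i => (S i : Set G)).prod := by
  induction n with
  | zero => intro G _ _ h; exact absurd (Nat.card_pos (α := G)) (by omega)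
  | succ n ih =>
  intro G _ _ hc hs hall S hS g
  by_cases h1 : (⊤ : Subgroup G) = ⊥
  · obtain rfl : g = 1 := h1.le (mem_top g)
    exact Set.mem_prod_list_ofFn.2 ⟨fun i => ⟨1, one_mem _⟩, by simp⟩
  obtain ⟨V, q, -, hVn, hV1, hq, hVa⟩ := solvable_norm_abelem (solvable_of ⊤) h1 (normG ⊤)
  have := Fact.mk hq
  have : V.Normal := NormalIn.normal ⟨le_top, hVn⟩
  obtain ⟨i, rfl⟩ := hall q hq ((pgroup_pdiv hVa.pg hV1).trans (card_subgroup_dvd_card V))
  have hV : V ≤ S i := normal_sub_Hall (hS i) (normal_top V) hVa.pg.pi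
  obtain ⟨f, hf⟩ := Set.mem_prod_list_ofFn.1 (ih (G ⧸ V) (by
      have h2 := card_eq_card_quotient_mul_card_subgroup V
      have h3 := cardG_gt1 hV1
      have h4 := Nat.card_pos (α := G ⧸ V)
      nlinarith) inferInstance
    (fun q hq hd => hall q hq (hd.trans (card_quotient_dvd_card V)))
    (fun i => (S i).map (QuotientGroup.mk' V)) (fun i => by
      have := pHall_map (QuotientGroup.mk' V) (hS i)
      rwa [map_top_of_surjective _ (QuotientGroup.mk'_surjective V)] at this) (g : G ⧸ V))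
  choose s hs hs' using fun i => (f i).2
  have h2 : (List.ofFn s).prod⁻¹ * g ∈ V := by
    rw [← QuotientGroup.eq, ← hf, ← QuotientGroup.mk'_apply, map_list_prod, List.map_ofFn]
    congr 2; exact funext hs'
  rw [← prod_absorb (n := (V : Set G)) (a := S i) _ (fun b hb => ?_) ((List.mem_ofFn' _ _).2 ⟨i, rfl⟩)
    (by rw [← mul_normal, sup_eq_left.2 hV])]
  · exact ⟨_, Set.mem_prod_list_ofFn.2 ⟨fun i => ⟨s i, hs i⟩, rfl⟩, _, h2, by simp⟩
  · exact set_mul_normal_comm b V

/-- Let G be a finite solvable group and let S assign to each of t distinct primes, including every prime divisor of the order of G, a Sylow subgroup of G. Then every element of G is a product s_0 s_1 ⋯ s_(t-1) with s_i in S i, the factors taken in the given order. -/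
theorem result {G : Type*} [Group G] [Finite G] [Group.IsSolvable G] (t : ℕ) (p : Fin t → ℕ) (hp : ∀ i, (p i).Prime) (hinj : Function.Injective p) (hall : ∀ q : ℕ, q.Prime → q ∣ Nat.card G → ∃ i, p i = q) (S : (i : Fin t) → Sylow (p i) G) : ∀ g : G, ∃ s : (i : Fin t) → G, (∀ i, s i ∈ (S i : Subgroup G)) ∧ g = (List.ofFn s).prod := by
  intro g
  obtain ⟨f, hf⟩ := Set.mem_prod_list_ofFn.1 (aux p _ G le_rfl inferInstance hall (fun i => S i)
    (fun i => have := Fact.mk (hp i); sylowIn_top (S i)) g)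
  exact ⟨fun i => f i, fun i => (f i).2, hf.symm⟩

end Cfsg.Agent.S0554
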