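import Cfsg.Statements.S0555
import Cfsg.Agent.BG.Base5

set_option autoImplicit false
open Cfsg

namespace Cfsg.Agent.S0555

open Subgroup Cfsg.Agent.BG

theorem cyclic_quo {G : Type*} [Group G] {M N : Subgroup G} (h : N ⊴ M)
    [(N.subgroupOf M).Normal] (hc : IsCyclic (M ⧸ N.subgroupOf M)) : IsCyclic (M /ᵍ N) := by
  have := isog_cyclic (quotient_isog_mathlib (N.subgroupOf M)) hc
  rwa [subgroupOf_map_subtype, inf_of_le_left h.le] at this

theorem aux {G : Type*} [Group G] {H A B D : Subgroup G} (hH : H ⊴ ⊤) (hA : A = ⁅H, H⁆)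
    (hB : B = ⁅A, A⁆) (hD : D = ⁅B, B⁆) (c1 : IsCyclic (A /ᵍ B)) (c2 : IsCyclic (B /ᵍ D)) : B = D := by
  have n1 : A ⊴ ⊤ := hA ▸ hH.comm hH
  have n2 : B ⊴ ⊤ := hB ▸ n1.comm n1
  have n3 : D ⊴ ⊤ := hD ▸ n2.comm n2
  have l1 : B ≤ A := hB ▸ der_sub A
  have l2 : D ≤ B := hD ▸ der_sub B
  have h1 : A /ᵍ D ≤ C[B /ᵍ D] := by
    rw [hA, quotient_der (le_top.trans n3.norm)]
    exact der1_cent_cyclic c2 (quotient_norms D (le_top.trans n2.norm))
  have h2 : IsMulCommutative (A /ᵍ D) := cyclic_factor_abelian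
    (le_inf (quotientS D l1) (cents_symm h1)) (isog_cyclic (isog_symm (third_isog
      (n3.subl (l2.trans l1) le_top) (n2.subl l1 le_top) l2)) c1)
  exact le_antisymm (hB.le.trans (der1_min (le_top.trans n3.norm) h2)) l2

/-- Let i ≥ 1. If in the derived series of a group the quotient of the i-th term by the (i+1)-st and the quotient of the (i+1)-st by the (i+2)-nd are both cyclic, then the (i+1)-st and (i+2)-nd terms coincide. -/
theorem result {G : Type*} [Group G] (i : ℕ) (hi : 1 ≤ i) (h₁ : IsCyclic (↥(derivedSeries G i) ⧸ (derivedSeries G (i + 1)).subgroupOf (derivedSeries G i))) (h₂ : IsCyclic (↥(derivedSeries G (i + 1)) ⧸ (derivedSeries G (i + 2)).subgroupOf (derivedSeries G (i + 1)))) : derivedSeries G (i + 1) = derivedSeries G (i + 2) := by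
  obtain ⟨j, rfl⟩ := Nat.exists_eq_add_of_le' hi
  exact aux (normal_top (derivedSeries G j)) rfl rfl rfl (cyclic_quo (der_normal _) h₁)
    (cyclic_quo (der_normal _) h₂)

end Cfsg.Agent.S0555
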