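import Cfsg.Statements.S0557
import Cfsg.Agent.S0080
import Cfsg.Agent.Solv.Pi

set_option autoImplicit false
open Cfsg

namespace Cfsg.Agent.S0557

open scoped commutatorElement

theorem map_foc_le {N G : Type*} [Group N] [Group G] (f : N →* G) {K : Subgroup N} {L : Subgroup G}
    (h : K.map f ≤ L) : (Subgroup.focalSubgroup K).map f ≤ Subgroup.focalSubgroup L := by
  rw [Subgroup.map_le_iff_le_comap, Subgroup.focalSubgroup_def, Subgroup.closure_le]
  rintro g ⟨hg, x, hx, u, rfl⟩
  refine Subgroup.subset_closure ⟨h ⟨_, hg, rfl⟩, f x, h ⟨_, hx, rfl⟩, f u, ?_⟩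
  simp [map_commutatorElement]

theorem map_iter_le {N G : Type*} [Group N] [Group G] (f : N →* G) (n : ℕ) :
    ∀ {K : Subgroup N} {L : Subgroup G}, K.map f ≤ L →
      ((fun K : Subgroup N => Subgroup.focalSubgroup K)^[n] K).map f ≤
        (fun K : Subgroup G => Subgroup.focalSubgroup K)^[n] L := by
  induction n with
  | zero => intro K L h; exact h
  | succ n ih =>
    intro K L h
    rw [Function.iterate_succ_apply, Function.iterate_succ_apply]
    exact ih (map_foc_le f h)

theorem aux (n : ℕ) : ∀ {G : Type*} [Group G] [Finite G] (H : Subgroup G)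
    (_ : (Nat.card H).Coprime H.index)
    (_ : (fun K : Subgroup G => Subgroup.focalSubgroup K)^[n] H = ⊥),
    ∃ N : Subgroup G, N.Normal ∧ Nat.card N = H.index := by
  induction n with
  | zero =>
    intro G _ _ H _ h
    have : H = ⊥ := h
    subst this
    exact ⟨⊤, inferInstance, by simp⟩
  | succ n ih =>
    intro G _ _ H hH h
    obtain ⟨h1, N, hN, h2, h3⟩ := Cfsg.Agent.S0080.result H
      (Nat.Coprime.coprime_dvd_right (Subgroup.relIndex_dvd_card _ _) hH.symm)
    rw [Function.iterate_succ_apply] at h
    have hfN : Subgroup.focalSubgroup H = N ⊓ H := h1.trans h2.symm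
    have hidx : (H.subgroupOf N).index = H.index := by
      have e1 := Subgroup.relIndex_sup_left H N
      have e2 : Nat.card H * (H.subgroupOf N).index * N.index = Nat.card H * H.index * N.index := by
        have a1 : N.relIndex H = N.index := by
          rw [← Subgroup.relIndex_sup_left H N, h3, Subgroup.relIndex_top_right]
        have a2 : Nat.card (H.subgroupOf N) * (H.subgroupOf N).index = Nat.card N :=
          Subgroup.card_mul_index _
        have a3 : Nat.card (N.subgroupOf H) * N.relIndex H = Nat.card H :=
          Subgroup.card_mul_index _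
        have a4 : Nat.card (H.subgroupOf N) = Nat.card (N.subgroupOf H) := by
          rw [← Subgroup.inf_subgroupOf_right H N, ← Subgroup.inf_subgroupOf_right N H,
            Nat.card_congr (Subgroup.subgroupOfEquivOfLe inf_le_right).toEquiv,
            Nat.card_congr (Subgroup.subgroupOfEquivOfLe inf_le_right).toEquiv, inf_comm]
        have a5 := Subgroup.card_mul_index N
        have a6 := Subgroup.card_mul_index H
        calc Nat.card H * (H.subgroupOf N).index * N.index
            = (Nat.card (H.subgroupOf N) * (H.subgroupOf N).index) * N.index * N.index := by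
              rw [← a3, a1, a4]; ring
          _ = Nat.card G * N.index := by rw [a2, a5]
          _ = _ := by rw [a6]
      exact Nat.eq_of_mul_eq_mul_left Nat.card_pos
        (Nat.eq_of_mul_eq_mul_right (Nat.pos_of_ne_zero Subgroup.index_ne_zero_of_finite) e2)
    have hcd : Nat.card (H.subgroupOf N) ∣ Nat.card H := by
      rw [← Subgroup.inf_subgroupOf_right H N,
        Nat.card_congr (Subgroup.subgroupOfEquivOfLe inf_le_right).toEquiv]
      exact Subgroup.card_dvd_of_le inf_le_left
    have hc : (Nat.card (H.subgroupOf N)).Coprime (H.subgroupOf N).index := by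
      rw [hidx]; exact Nat.Coprime.coprime_dvd_left hcd hH
    have hb : (fun K : Subgroup N => Subgroup.focalSubgroup K)^[n] (H.subgroupOf N) = ⊥ := by
      have := map_iter_le N.subtype n (K := H.subgroupOf N) (L := Subgroup.focalSubgroup H)
        (by rw [Subgroup.subgroupOf_map_subtype, hfN, inf_comm])
      rw [h, le_bot_iff, Subgroup.map_eq_bot_iff_of_injective _ N.subtype_injective] at this
      exact this
    obtain ⟨M, hM, hMc⟩ := ih (H.subgroupOf N) hc hb
    have hMi : M.index = Nat.card (H.subgroupOf N) := by
      have a2 : Nat.card (H.subgroupOf N) * (H.subgroupOf N).index = Nat.card N :=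
        Subgroup.card_mul_index _
      have a3 := Subgroup.card_mul_index M
      rw [hMc, ← a2, mul_comm] at a3
      exact Nat.eq_of_mul_eq_mul_right (Nat.pos_of_ne_zero Subgroup.index_ne_zero_of_finite) a3
    have hMcop : (Nat.card M).Coprime M.index := by rw [hMi, hMc]; exact hc.symm
    have hchar : M.Characteristic := by
      have hh := Solv.isPiHall_of_coprime hMcop
      have := Solv.HallOf.eq_piCoreOf_of_normal (Solv.isPiHallOf_top_iff.2 hh)
        (by rw [Subgroup.normalizer_eq_top])
      rw [Solv.piCoreOf_top] at this
      rw [this]; infer_instance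
    refine ⟨M.map N.subtype, inferInstance, ?_⟩
    rw [Subgroup.card_map_of_injective N.subtype_injective, hMc, hidx]

/-- Let H be a subgroup of a finite group G with order coprime to its index. If iterating the focal-subgroup construction starting from H reaches the trivial subgroup after finitely many steps, then H has a normal complement in G. -/
theorem result {G : Type*} [Group G] [Finite G] (H : Subgroup G) (hHall : (Nat.card H).Coprime H.index) (n : ℕ) (hfoc : (fun K : Subgroup G => Subgroup.focalSubgroup K)^[n] H = ⊥) : ∃ N : Subgroup G, N.Normal ∧ Subgroup.IsComplement' N H := by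
  obtain ⟨N, hN, hc⟩ := aux n H hHall hfoc
  refine ⟨N, hN, Subgroup.isComplement'_of_coprime ?_ ?_⟩
  · rw [hc, mul_comm, Subgroup.card_mul_index]
  · rw [hc]; exact hHall.symm

end Cfsg.Agent.S0557
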