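import Cfsg.Statements.S0561
import Cfsg.Agent.SolvStr.Product
import Cfsg.Agent.Solv.Hall

set_option autoImplicit false
open Pointwise
open Cfsg

namespace Cfsg.Agent.S0561

open Subgroup Cfsg.Agent.SolvStr Cfsg.Agent.Solv

theorem conj_eq_of_mem {G : Type*} [Group G] {H A : Subgroup G} (hA : A ≤ H)
    (hAn : (A.subgroupOf H).Normal) {h : G} (hh : h ∈ H) : MulAut.conj h • A = A := by
  have := (normal_subgroupOf_iff_le_normalizer hA).1 hAn hh
  exact (conj_smul_eq_self_iff.2 this)

/-- Let the finite solvable group G be the product HK of subgroups, and let A be normal in H and B normal in K, where A and B are Hall subgroups of G (order coprime to index). Then for all x, y the product set of xAx⁻¹ and yBy⁻¹ is a subgroup of G. -/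
theorem result {G : Type*} [Group G] [Finite G] [Group.IsSolvable G] (H K A B : Subgroup G) (hHK : ∀ g : G, ∃ h ∈ H, ∃ k ∈ K, g = h * k) (hA : A ≤ H) (hAn : (A.subgroupOf H).Normal) (hB : B ≤ K) (hBn : (B.subgroupOf K).Normal) (hAh : (Nat.card A).Coprime A.index) (hBh : (Nat.card B).Coprime B.index) (x y : G) : ∃ S : Subgroup G, (S : Set G) = ((MulAut.conj x • A : Subgroup G) : Set G) * ((MulAut.conj y • B : Subgroup G) : Set G) := by
  have h := isProd_top hHK
  have key : ∃ R, IsProd A B R := by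
    let π : Set ℕ := {p | p ∣ Nat.card A ∨ p ∣ Nat.card B}
    have ok := HallOK.of_isSolvable π G
    obtain ⟨R₁, hR₁, h₁⟩ := ok.exists_hall_ge (K := A) (fun p _ hp => Or.inl hp)
    obtain ⟨R₂, hR₂, h₂⟩ := ok.exists_hall_ge (K := B) (fun p _ hp => Or.inr hp)
    obtain ⟨g, rfl⟩ := ok.exists_conj_eq hR₁ hR₂
    obtain ⟨k, hk, a, ha, rfl⟩ := h.symm.exists_mul g (mem_top g)
    have e1 : A ≤ MulAut.conj a • R₁ :=
      (conj_eq_of_mem hA hAn ha).ge.trans (conj_smul_mono _ h₁)
    have e2 : B ≤ MulAut.conj a • R₁ := by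
      refine (conj_eq_of_mem hB hBn (inv_mem hk)).ge.trans ((conj_smul_mono _ h₂).trans ?_)
      rw [conj_smul_conj_smul]
      simp
    refine ⟨_, isProd_of_coprime_relIndex e1 e2 ?_⟩
    refine Nat.coprime_of_dvd fun p hp hp1 hp2 => ?_
    have hR : IsPiNum π (Nat.card (MulAut.conj a • R₁ : Subgroup G)) := by
      rw [card_conj_smul]; exact (isPiHall_iff.1 hR₁).1
    rcases hR p hp (hp1.trans (relIndex_dvd_card _ _)) with h3 | h3
    · exact hp.one_lt.ne' (Nat.eq_one_of_dvd_coprimes hAh h3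
        (hp1.trans (relIndex_dvd_index_of_le e1)))
    · exact hp.one_lt.ne' (Nat.eq_one_of_dvd_coprimes hBh h3
        (hp2.trans (relIndex_dvd_index_of_le e2)))
  obtain ⟨R, hR⟩ := key
  obtain ⟨a, ha, k, hk, e⟩ := hHK (x⁻¹ * y)
  refine ⟨MulAut.conj (x * a) • R, isProd_iff_coe.1 ?_⟩
  have e1 : MulAut.conj x • A = MulAut.conj (x * a) • A := by
    rw [← conj_smul_conj_smul, conj_eq_of_mem hA hAn ha]
  have e2 : MulAut.conj y • B = MulAut.conj (x * a) • B := by
    have : y = x * a * k := by rw [mul_assoc, ← e]; group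
    rw [this, ← conj_smul_conj_smul (x * a), conj_eq_of_mem hB hBn hk]
  rw [e1, e2]
  exact hR.conj _

end Cfsg.Agent.S0561
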