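import Cfsg.Statements.S0563
import Cfsg.Agent.SolvStr.Wielandt

set_option autoImplicit false
open Pointwise
open Cfsg

namespace Cfsg.Agent.S0563

open Subgroup Cfsg.Agent.BG Cfsg.Agent.SolvStr

/-- If a finite group G is the product AB of two nilpotent subgroups of coprime orders, then G is solvable, and for every Sylow p-subgroup P of A and Sylow q-subgroup Q of B the product set PQ is a subgroup. -/
theorem result {G : Type*} [Group G] [Finite G] (A B : Subgroup G) (hA : Group.IsNilpotent A) (hB : Group.IsNilpotent B) (hcop : (Nat.card A).Coprime (Nat.card B)) (hAB : ∀ g : G, ∃ a ∈ A, ∃ b ∈ B, g = a * b) : Group.IsSolvable G ∧ ∀ (p q : ℕ) [Fact p.Prime] [Fact q.Prime] (P : Sylow p A) (Q : Sylow q B), ∃ S : Subgroup G, (S : Set G) = (((P : Subgroup A).map A.subtype : Subgroup G) : Set G) * (((Q : Subgroup B).map B.subtype : Subgroup G) : Set G) := by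
  have h := isProd_top hAB
  have hs := wielandt_coprime h hA hB hcop
  refine ⟨isog_sol (isog_symm isog_top) hs, fun p q _ _ P Q => ?_⟩
  have key : ∀ {A B : Subgroup G} {p : ℕ} [Fact p.Prime] (P : Sylow p A), IsProd A B ⊤ →
      (#A).Coprime #B → IsPiHallOf (primesOf #A ∩ {p}) ((P : Subgroup A).map A.subtype) ⊤ := by
    intro A B p _ P h co
    exact subHall_Hall (h.hall (pnat_pi _) (coprime_pi'.1 co)) Set.inter_subset_left
      (pHall_congr (fun r hr hd => ⟨fun e => ⟨mem_primesOf.2 ⟨hr, hd⟩, e⟩, fun e => e.2⟩)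
        (sylowIn_of_sylow P))
  exact ⟨_, isProd_iff_coe.1 (prod_of_hall hs h (nilpotent_Hall_normal hA (sylowIn_of_sylow P)).norm
    (nilpotent_Hall_normal hB (sylowIn_of_sylow Q)).norm (key P h hcop) (key Q h.symm hcop.symm))⟩

end Cfsg.Agent.S0563
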