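import Cfsg.Statements.S0565
import Cfsg.Agent.S0564

set_option autoImplicit false
open Cfsg

namespace Cfsg.Agent.S0565

open Subgroup Cfsg.Agent.BG Cfsg.Agent.SolvStr

universe u in
theorem aux (n : ℕ) : ∀ (G : Type u) [Group G] [Finite G] (A B : Subgroup G),
    IsProd A B ⊤ → Group.IsNilpotent A → Group.IsNilpotent B → (A ≠ ⊤ ∨ B ≠ ⊤) →
    Nat.card G ≤ n → ∃ N : Subgroup G, N.Normal ∧ N ≠ ⊤ ∧ (A ≤ N ∨ B ≤ N) := by
  induction n with
  | zero => intro G _ _ A B _ _ _ _ h; exact absurd h (by simp [Nat.card_pos.ne'])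
  | succ n ih =>
  intro G _ _ A B h nA nB hp hn
  by_contra hc
  have full : ∀ N : Subgroup G, N.Normal → N ≠ ⊥ → N ⊔ A = ⊤ ∧ N ⊔ B = ⊤ := fun N hN h1 => by
    by_contra hc'
    have hs := QuotientGroup.mk'_surjective N
    have e : ∀ X : Subgroup G, X.map (QuotientGroup.mk' N) = ⊤ → N ⊔ X = ⊤ := fun X e => by
      rw [sup_comm, ← Solv.comap_map_mk', e, comap_top]
    obtain ⟨M, hM, h2, h3⟩ := ih _ _ _ (h.map_top hs) (nilpotent_map _ nA) (nilpotent_map _ nB)
      (by
        by_contra h4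
        push Not at h4
        exact hc' ⟨e A h4.1, e B h4.2⟩) (by have := Solv.card_quotient_lt h1; omega)
    refine hc ⟨M.comap (QuotientGroup.mk' N), inferInstance, fun e => h2 ?_,
      h3.imp map_le_iff_le_comap.1 map_le_iff_le_comap.1⟩
    rw [← map_comap_eq_self_of_surjective hs M, e, ← MonoidHom.range_eq_map,
      MonoidHom.range_eq_top.2 hs]
  have prop : ∀ {A B : Subgroup G}, Group.IsNilpotent A → A = ⊤ → B ≠ ⊤ →
      ∃ N : Subgroup G, N.Normal ∧ N ≠ ⊤ ∧ B ≤ N := fun {A B} nA e h1 => by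
    subst e
    obtain ⟨M, h2, h3⟩ := maxSub_exists h1.lt_top
    exact ⟨M, (nil_maximal_normal nA h3).normal, h3.lt.ne, h2⟩
  have hA : A ≠ ⊤ := fun e => by
    obtain ⟨N, h1, h2, h3⟩ := prop nA e (hp.resolve_left (not_not.2 e))
    exact hc ⟨N, h1, h2, Or.inr h3⟩
  have hB : B ≠ ⊤ := fun e => by
    obtain ⟨N, h1, h2, h3⟩ := prop nB e hA
    exact hc ⟨N, h1, h2, Or.inl h3⟩
  have : Group.IsSolvable G := S0564.result A B nA nB (isProd_top_iff.1 h)
  obtain ⟨N, hN, -⟩ := minnormal_exists (M := (⊤ : Subgroup G)) (H := ⊤)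
    (fun e => hA (top_le_iff.1 (e.le.trans bot_le))) (normG _)
  obtain ⟨p, hp, ab⟩ := minnormal_solvable hN le_top (solvable_of _)
  have := Fact.mk hp
  have nN : N ⊴ ⊤ := ⟨le_top, hN.norm⟩
  have key : ∀ {A : Subgroup G}, A ≠ ⊤ → Group.IsNilpotent A →
      (∀ N : Subgroup G, N.Normal → N ≠ ⊥ → N ⊔ A = ⊤) → PiGrp {p}ᶜ A := fun {A} hA nA full => by
    have e := full N nN.normal hN.ne
    have e1 := hN.map_eq (U := N ⊓ C[Op p A]) inf_le_left (e.ge.trans (sup_le
      (sub_abelian_norm ab.abelian inf_le_left)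
      (normsI (le_top.trans hN.norm) (norms_cent (pcore_normal _ _).norm))))
      (pgroup_cent_ne_bot (Op_pgroup p A) ab.pg (le_top.trans hN.norm) hN.ne)
    have n1 : Op p A ⊴ ⊤ := ⟨le_top, e.ge.trans (sup_le (cents_norm (e1.ge.trans inf_le_right))
      (pcore_normal _ _).norm)⟩
    have e2 : Op p A = ⊥ := by
      by_contra h1
      exact hA ((sup_eq_right.2 (pcore_sub _ _)).symm.trans (full _ n1.normal h1))
    have := nilpotent_pcore_Hall {p} nA
    unfold Op at e2
    rw [e2] at this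
    exact p'group_of_Hall_bot this
  exact ((key hA nA fun N h1 h2 => (full N h1 h2).1).mul (key hB nB fun N h1 h2 => (full N h1 h2).2))
    p hp ((pgroup_pdiv ab.pg hN.ne).trans ((cardSg le_top).trans h.card_dvd)) rfl

/-- Let the finite group G be the product AB of nilpotent subgroups A and B, not both equal to G. Then there is a proper normal subgroup of G containing A or containing B. -/
theorem result {G : Type*} [Group G] [Finite G] (A B : Subgroup G) (hA : Group.IsNilpotent A) (hB : Group.IsNilpotent B) (hAB : ∀ g : G, ∃ a ∈ A, ∃ b ∈ B, g = a * b) (hproper : A ≠ ⊤ ∨ B ≠ ⊤) : ∃ N : Subgroup G, N.Normal ∧ N ≠ ⊤ ∧ (A ≤ N ∨ B ≤ N) := by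
  exact aux _ G A B (isProd_top hAB) hA hB hproper le_rfl

end Cfsg.Agent.S0565
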