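import Cfsg.Statements.S0567

set_option autoImplicit false
open Cfsg

namespace Cfsg.Agent.S0567

open Subgroup
open scoped commutatorElement

/-- A subgroup H of a group G is subnormal exactly when, for some m, the subgroup obtained from G by taking the commutator with H m times in succession is contained in H. -/
theorem result {G : Type*} [Group G] (H : Subgroup G) : H.IsSubnormal ↔ ∃ m : ℕ, (fun K : Subgroup G => ⁅K, H⁆)^[m] ⊤ ≤ H := by
  constructor
  · intro h
    induction h with
    | top => exact ⟨0, le_top⟩
    | step H K hle hK hN ih =>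
      obtain ⟨m, hm⟩ := ih
      rw [normal_subgroupOf_iff_le_normalizer hle, le_normalizer_iff_commutator_le_right] at hN
      have mono : ∀ n : ℕ, (fun L : Subgroup G => ⁅L, H⁆)^[n] ⊤ ≤
          (fun L : Subgroup G => ⁅L, K⁆)^[n] ⊤ := by
        intro n
        induction n with
        | zero => exact le_rfl
        | succ n ihn =>
          rw [Function.iterate_succ_apply', Function.iterate_succ_apply']
          exact commutator_mono ihn hle
      refine ⟨m + 1, ?_⟩
      rw [Function.iterate_succ_apply']
      exact (commutator_mono ((mono m).trans hm) le_rfl).trans hN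
  · rintro ⟨m, hm⟩
    have key : ∀ n : ℕ, ((fun L : Subgroup G => ⁅L, H⁆)^[n] ⊤ ⊔ H).IsSubnormal ∧
        H ≤ normalizer (((fun L : Subgroup G => ⁅L, H⁆)^[n] ⊤ : Subgroup G) : Set G) := by
      intro n
      induction n with
      | zero => exact ⟨by simp, le_normalizer_of_normal (H := ⊤)⟩
      | succ n ihn =>
        rw [Function.iterate_succ_apply']
        set X := (fun L : Subgroup G => ⁅L, H⁆)^[n] ⊤
        refine ⟨?_, normalizer_commutator_ge_right X H⟩
        have h1 : ⁅X, H⁆ ≤ X := le_normalizer_iff_commutator_le_left.1 ihn.2
        have hle : ⁅X, H⁆ ⊔ H ≤ X ⊔ H := sup_le_sup_right h1 H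
        refine IsSubnormal.step _ _ hle ihn.1 ?_
        rw [normal_subgroupOf_iff_le_normalizer hle]
        refine sup_le ?_ (le_sup_right.trans le_normalizer)
        rw [le_normalizer_iff]
        intro x hx
        have : (⁅X, H⁆ ⊔ H) ≤ (⁅X, H⁆ ⊔ H).comap (MulAut.conj x).toMonoidHom := by
          refine sup_le (fun y hy => ?_) (fun y hy => ?_)
          · exact mem_sup_left ((le_normalizer_iff.1 (normalizer_commutator_ge_left X H)) x hx y hy)
          · have : x * y * x⁻¹ = ⁅x, y⁆ * y := by simp [commutatorElement_def]
            show x * y * x⁻¹ ∈ ⁅X, H⁆ ⊔ H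
            rw [this]
            exact mul_mem_sup (commutator_mem_commutator hx hy) hy
        exact fun y hy => this hy
    have := (key m).1
    rwa [sup_eq_right.2 hm] at this

end Cfsg.Agent.S0567
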