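import Cfsg.Statements.S0570
import Cfsg.Agent.SolvStr.SysNorm

set_option autoImplicit false
open Cfsg

namespace Cfsg.Agent.S0570

open SolvStr Solv Subgroup

theorem aux {G : Type*} [Group G] [Finite G] [Group.IsSolvable G] (F : Subgroup G) [F.Normal]
    [Group.IsNilpotent F] [Group.IsNilpotent (G ⧸ F)] (C : Subgroup G) (hC : IsCarterSubgroup C) :
    ∃ K : Nat.Primes → Subgroup G, IsComplementSystem K ∧ C = systemNormalizer K := by
  have := hC.1
  have hCF := carter_sup_eq_top (N := F) hC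
  have hn : ∀ π : Set ℕ, (piCoreOf π F).Normal := fun π => by
    rw [piCoreOf_eq_piCore_inf]; infer_instance
  have hnil : ∀ (π : Set ℕ) (H : Subgroup G) [Group.IsNilpotent H],
      piCoreOf πᶜ H ⊔ piCoreOf π H = H := fun π H _ => by
    have := congrArg (Subgroup.map H.subtype) (piCore_sup_piCore_compl_eq_top (π := π) (G := H))
    rwa [Subgroup.map_sup, ← MonoidHom.range_eq_map, range_subtype, sup_comm] at this
  have hCK : ∀ π : Set ℕ, C ≤ normalizer ((piCoreOf π F ⊔ piCoreOf π C : Subgroup G) : Set G) :=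
    fun π => le_normalizer_sup le_normalizer_of_normal (le_normalizer_piCoreOf π C)
  have hK : IsComplementSystem fun p => piCoreOf {(p : ℕ)}ᶜ F ⊔ piCoreOf {(p : ℕ)}ᶜ C := by
    refine isComplementSystem_iff.2 fun p => isPiHall_iff.2
      ⟨(isPiNum_card_piCoreOf _ F).card_sup (isPiNum_card_piCoreOf _ C) le_normalizer_of_normal, ?_⟩
    rw [compl_compl]
    set K := piCoreOf {(p : ℕ)}ᶜ F ⊔ piCoreOf {(p : ℕ)}ᶜ C with hKdef
    have h1 := isProd_sup_of_le_normalizer ((piCoreOf_le {(p : ℕ)} C).trans (hCK {(p : ℕ)}ᶜ))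
    have h2 := isProd_sup_of_le_normalizer (N := piCoreOf {(p : ℕ)} F)
      (H := K ⊔ piCoreOf {(p : ℕ)} C) le_normalizer_of_normal
    have h3 : piCoreOf {(p : ℕ)} F ⊔ (K ⊔ piCoreOf {(p : ℕ)} C) = ⊤ := by
      rw [hKdef, sup_assoc, hnil, ← sup_assoc, sup_comm (piCoreOf {(p : ℕ)} F), hnil, sup_comm, hCF]
    rw [h3] at h2
    rw [← relIndex_mul_index (le_sup_left : K ≤ K ⊔ piCoreOf {(p : ℕ)} C)]
    exact ((isPiNum_card_piCoreOf _ C).of_dvd h1.symm.relIndex_dvd).mul
      ((isPiNum_card_piCoreOf _ F).of_dvd h2.index_dvd)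
  refine ⟨_, hK, ?_⟩
  have hle : C ≤ systemNormalizer fun p => piCoreOf {(p : ℕ)}ᶜ F ⊔ piCoreOf {(p : ℕ)}ᶜ C :=
    le_iInf fun p => hCK _
  by_contra hne
  have := Loc.lt_inf_normalizer_of_nilpotent (isNilpotent_systemNormalizer hK) (lt_of_le_of_ne hle hne)
  rw [hC.2] at this
  exact this.not_ge inf_le_right

/-- Let G be a finite group with a nilpotent normal subgroup F such that G modulo F is nilpotent (nilpotent length at most two). Then a subgroup of G is a Carter subgroup if and only if it is the system normalizer of some Hall complement system. -/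
theorem result {G : Type*} [Group G] [Finite G] (F : Subgroup G) [F.Normal] (hF : Group.IsNilpotent F) (hGF : Group.IsNilpotent (G ⧸ F)) (C : Subgroup G) : Cfsg.IsCarterSubgroup C ↔ ∃ K : Nat.Primes → Subgroup G, Cfsg.IsComplementSystem K ∧ C = Cfsg.systemNormalizer K := by
  have : Group.IsSolvable G := isSolvable_of_normal_of_quotient F
  refine ⟨aux F C, ?_⟩
  rintro ⟨K, hK, rfl⟩
  obtain ⟨D, hD⟩ : ∃ C : Subgroup G, IsCarterSubgroup C := S0045.result.1
  obtain ⟨L, hL, e⟩ := aux F D hD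
  obtain ⟨g, hg⟩ := exists_conj_system hL hK
  rw [← funext hg, systemNormalizer_conj, ← e]
  exact isCarter_conj hD g

end Cfsg.Agent.S0570
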