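import Cfsg.Statements.S0572
import Cfsg.Agent.S0047

set_option autoImplicit false
open Cfsg

namespace Cfsg.Agent.S0572

open scoped commutatorElement

/-- Itô's Theorem: if a group G is the product AB of two abelian subgroups, then the commutator subgroup of G is abelian, i.e. the second term of the derived series is trivial. -/
theorem result {G : Type*} [Group G] (A B : Subgroup G) [IsMulCommutative A] [IsMulCommutative B] (hAB : ∀ g : G, ∃ a ∈ A, ∃ b ∈ B, g = a * b) : derivedSeries G 2 = ⊥ := by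
  have cA : ∀ x ∈ A, ∀ y ∈ A, x * y = y * x := fun x hx y hy => setLike_mul_comm hx hy
  have cB : ∀ x ∈ B, ∀ y ∈ B, x * y = y * x := fun x hx y hy => setLike_mul_comm hx hy
  have hcomm : ⁅⁅A, B⁆, ⁅A, B⁆⁆ = ⊥ := by
    rw [Subgroup.commutator_eq_bot_iff_le_centralizer, Subgroup.commutator_def,
      Subgroup.centralizer_closure, Subgroup.closure_le]
    rintro _ ⟨a, ha, b, hb, rfl⟩ _ ⟨a1, ha1, b1, hb1, rfl⟩
    have := S0047.key A B hAB a ha b hb a1⁻¹ (A.inv_mem ha1) b1⁻¹ (B.inv_mem hb1)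
    set c := ⁅a, b⁆
    simp only [commutatorElement_def]
    calc a1 * b1 * a1⁻¹ * b1⁻¹ * c
        = a1 * b1 * ((a1⁻¹ * b1⁻¹) * c * (a1⁻¹ * b1⁻¹)⁻¹) * (a1⁻¹ * b1⁻¹) := by group
      _ = a1 * b1 * ((b1⁻¹ * a1⁻¹) * c * (b1⁻¹ * a1⁻¹)⁻¹) * (a1⁻¹ * b1⁻¹) := by rw [this]
      _ = _ := by group
  have htop : A ⊔ B = ⊤ := by
    rw [eq_top_iff]
    intro g _
    obtain ⟨a, ha, b, hb, rfl⟩ := hAB g
    exact Subgroup.mul_mem_sup ha hb
  have hN : (⁅A, B⁆ : Subgroup G).Normal := by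
    rw [← Subgroup.normalizer_eq_top_iff, eq_top_iff, ← htop, sup_le_iff]
    exact ⟨Subgroup.normalizer_commutator_ge_left A B, Subgroup.normalizer_commutator_ge_right A B⟩
  have hle : commutator G ≤ ⁅A, B⁆ := by
    rw [← Subgroup.Normal.quotient_commutative_iff_commutator_le]
    refine ⟨⟨fun x y => ?_⟩⟩
    obtain ⟨x, rfl⟩ := QuotientGroup.mk_surjective x
    obtain ⟨y, rfl⟩ := QuotientGroup.mk_surjective y
    obtain ⟨a, ha, b, hb, rfl⟩ := hAB x
    obtain ⟨a', ha', b', hb', rfl⟩ := hAB y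
    have hab : ∀ a ∈ A, ∀ b ∈ B, Commute (a : G ⧸ ⁅A, B⁆) (b : G ⧸ ⁅A, B⁆) := by
      intro a ha b hb
      rw [← commutatorElement_eq_one_iff_commute]
      have := (QuotientGroup.eq_one_iff _).mpr (Subgroup.commutator_mem_commutator ha hb)
      simpa [commutatorElement_def] using this
    have haa : Commute (a : G ⧸ ⁅A, B⁆) (a' : G ⧸ ⁅A, B⁆) := by
      have := congrArg (fun x : G => (x : G ⧸ ⁅A, B⁆)) (cA a ha a' ha')
      simpa [Commute, SemiconjBy] using this
    have hbb : Commute (b : G ⧸ ⁅A, B⁆) (b' : G ⧸ ⁅A, B⁆) := by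
      have := congrArg (fun x : G => (x : G ⧸ ⁅A, B⁆)) (cB b hb b' hb')
      simpa [Commute, SemiconjBy] using this
    simp only [QuotientGroup.mk_mul]
    exact ((haa.mul_right (hab a ha b' hb')).mul_left ((hab a' ha' b hb).symm.mul_right hbb)).eq
  rw [eq_bot_iff, ← hcomm]
  exact Subgroup.commutator_mono hle hle

end Cfsg.Agent.S0572
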