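import Cfsg.Statements.S0573
import Cfsg.Agent.S0572
import Cfsg.Agent.SolvStr.Product
import Cfsg.Agent.Solv.Fitting

set_option autoImplicit false
open Cfsg

namespace Cfsg.Agent.S0573

open Subgroup Cfsg.Agent.Solv Cfsg.Agent.SolvStr
open scoped commutatorElement

/-- the centre of a product of two abelian subgroups is factorised -/
theorem center_fact {G : Type*} [Group G] {A B S : Subgroup G} [IsMulCommutative A]
    [IsMulCommutative B] (h : IsProd A B S) {a b : G} (ha : a ∈ A) (hb : b ∈ B)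
    (hz : a * b ∈ centralizer (S : Set G)) : a ∈ centralizer (S : Set G) := by
  rw [h.eq_sup]
  refine (le_centralizer_iff.1 (sup_le ?_ ?_) : zpowers a ≤ _) (mem_zpowers a)
  · exact A.le_centralizer.trans (centralizer_le (zpowers_le.2 ha))
  · rw [le_centralizer_iff, zpowers_le]
    have : a = a * b * b⁻¹ := by simp
    rw [this]
    exact mul_mem (centralizer_le h.right_le hz) (inv_mem (B.le_centralizer hb))

theorem exists_center {G : Type*} [Group G] {A B S : Subgroup G} [IsMulCommutative A]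
    [IsMulCommutative B] (h : IsProd A B S) {z : G} (hz : z ∈ S) (hz1 : z ≠ 1)
    (hc : z ∈ centralizer (S : Set G)) :
    (∃ a ∈ A, a ≠ 1 ∧ a ∈ centralizer (S : Set G)) ∨
      ∃ b ∈ B, b ≠ 1 ∧ b ∈ centralizer (S : Set G) := by
  obtain ⟨a, ha, b, hb, rfl⟩ := h.exists_mul z hz
  have h1 := center_fact h ha hb hc
  by_cases h0 : a = 1
  · right
    subst h0
    rw [one_mul] at hz1 hc
    exact ⟨b, hb, hz1, hc⟩
  · exact Or.inl ⟨a, ha, h0, h1⟩

theorem step {G : Type*} [Group G] {A B : Subgroup G} [IsMulCommutative A]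
    [IsMulCommutative B] (h : IsProd A B ⊤) (hZ : center G = ⊥) {a : G} (ha : a ∈ A) (ha1 : a ≠ 1)
    (hc : a ∈ centralizer (commutator G : Set G)) :
    ∃ N : Subgroup G, N.Normal ∧ N ≠ ⊥ ∧ N ≤ A := by
  have hn : (A ⊔ commutator G).Normal := Normal.of_commutator_le G le_sup_right
  refine ⟨centralizer ((A ⊔ commutator G : Subgroup G) : Set G), inferInstance, fun h0 => ha1 ?_, ?_⟩
  · rw [← mem_bot, ← h0]
    refine (le_centralizer_iff.1 (sup_le ?_ ?_) : zpowers a ≤ _) (mem_zpowers a)
    · exact A.le_centralizer.trans (centralizer_le (zpowers_le.2 ha))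
    · rwa [le_centralizer_iff, zpowers_le]
  · intro x hx
    have hx' : x ∈ centralizer (A : Set G) := centralizer_le (le_sup_left : A ≤ _) hx
    obtain ⟨a', ha', b, hb, rfl⟩ := h.exists_mul x (mem_top x)
    have hb' : b ∈ centralizer (A : Set G) :=
      (Subgroup.mul_mem_cancel_left _ (A.le_centralizer ha')).1 hx'
    have : b ∈ center G := by
      rw [← centralizer_univ, ← coe_top, h.eq_sup]
      refine (le_centralizer_iff.1 (sup_le ?_ ?_) : zpowers b ≤ _) (mem_zpowers b)
      · rwa [le_centralizer_iff, zpowers_le]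
      · exact B.le_centralizer.trans (centralizer_le (zpowers_le.2 hb))
    rw [hZ, mem_bot] at this
    rw [this, mul_one]
    exact ha'

/-- If a nontrivial finite group G is the product AB of abelian subgroups A and B, then some nontrivial normal subgroup of G is contained in A or in B. -/
theorem result {G : Type*} [Group G] [Finite G] [Nontrivial G] (A B : Subgroup G) [IsMulCommutative A] [IsMulCommutative B] (hAB : ∀ g : G, ∃ a ∈ A, ∃ b ∈ B, g = a * b) : ∃ N : Subgroup G, N.Normal ∧ N ≠ ⊥ ∧ (N ≤ A ∨ N ≤ B) := by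
  have h := isProd_top hAB
  by_cases hZ : center G = ⊥
  swap
  · obtain ⟨z, hz, hz1⟩ := (bot_or_exists_ne_one _).resolve_left hZ
    have key : ∀ a : G, a ≠ 1 → a ∈ centralizer ((⊤ : Subgroup G) : Set G) →
        (zpowers a).Normal ∧ zpowers a ≠ ⊥ := by
      intro a ha hc
      rw [coe_top, centralizer_univ] at hc
      refine ⟨⟨fun x hx g => ?_⟩, by simpa using ha⟩
      rw [(mem_center_iff.1 (zpowers_le.2 hc hx) g), mul_inv_cancel_right]
      exact hx
    rcases exists_center h (mem_top z) hz1 (by rwa [coe_top, centralizer_univ]) with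
      ⟨a, ha, ha1, hc⟩ | ⟨a, ha, ha1, hc⟩
    · exact ⟨_, (key a ha1 hc).1, (key a ha1 hc).2, Or.inl (zpowers_le.2 ha)⟩
    · exact ⟨_, (key a ha1 hc).1, (key a ha1 hc).2, Or.inr (zpowers_le.2 ha)⟩
  have hD : commutator G ≠ ⊥ := by
    intro h0
    rw [commutator_eq_bot_iff_center_eq_top, hZ] at h0
    exact bot_ne_top h0
  have hDc : IsMulCommutative (commutator G) := by
    rw [← commutator_self_eq_bot_iff]
    exact S0572.result A B hAB
  have hAB' : A ⊓ B = ⊥ := by
    rw [eq_bot_iff, ← hZ, ← centralizer_univ, ← coe_top, h.eq_sup, le_centralizer_iff]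
    exact sup_le (A.le_centralizer.trans (centralizer_le fun _ hx => hx.1))
      (B.le_centralizer.trans (centralizer_le fun _ hx => hx.2))
  have hnil := isNilpotent_of_isMulCommutative (commutator G)
  obtain ⟨p, N, hp, hNn, hN, hND, -, -, hNp, -⟩ := exists_normal_elementary_le (commutator G) hD
  have := Fact.mk hp
  -- the factoriser of `N₀ = O_p(G) ∩ G'`
  set N₀ := pCore p G ⊓ commutator G with hN₀
  set X := (N₀ ⊔ A) ⊓ (N₀ ⊔ B) with hX
  have e1 : X = N₀ ⊔ (A ⊓ (N₀ ⊔ B)) := sup_inf_of_le_left le_normalizer_of_normal le_sup_left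
  have e2 : X = N₀ ⊔ (B ⊓ (N₀ ⊔ A)) := by
    rw [hX, inf_comm]
    exact sup_inf_of_le_left le_normalizer_of_normal le_sup_left
  have hXp : IsProd (A ⊓ (N₀ ⊔ B)) (B ⊓ (N₀ ⊔ A)) X := by
    refine ⟨e1 ▸ le_sup_right, e2 ▸ le_sup_right, fun g hg => ?_⟩
    obtain ⟨a, ha, b, hb, rfl⟩ := hAB g
    exact ⟨a, ⟨ha, (Subgroup.mul_mem_cancel_right _ (mem_sup_right hb)).1 hg.2⟩, b,
      ⟨hb, (Subgroup.mul_mem_cancel_left _ (mem_sup_right ha)).1 hg.1⟩, rfl⟩
  have hXn : X.Normal := by
    refine normal_of_le_normalizer_of_sup_eq_top (H := A) (K := B) ?_ ?_ h.eq_sup.symm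
    · rw [e1]
      exact le_normalizer_sup le_normalizer_of_normal
        ((A.le_centralizer.trans (centralizer_le fun _ hx => hx.1)).trans
          (centralizer_le_normalizer _))
    · rw [e2]
      exact le_normalizer_sup le_normalizer_of_normal
        ((B.le_centralizer.trans (centralizer_le fun _ hx => hx.1)).trans
          (centralizer_le_normalizer _))
  have hN₀p : IsPGroup p N₀ := (isPGroup_pCore p G).to_inf_left
  have hXpg : IsPGroup p X := by
    have h1 := hXp.card_mul_card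
    have h2 : (A ⊓ (N₀ ⊔ B)) ⊓ (B ⊓ (N₀ ⊔ A)) = ⊥ :=
      le_bot_iff.1 ((inf_le_inf inf_le_left inf_le_left).trans hAB'.le)
    rw [h2, card_bot, mul_one] at h1
    have h3 := card_sup_dvd (N := N₀) (H := A ⊓ (N₀ ⊔ B)) le_normalizer_of_normal
    rw [← e1, h1, mul_comm (Nat.card N₀)] at h3
    have h4 := Nat.dvd_of_mul_dvd_mul_left Nat.card_pos h3
    obtain ⟨k, hk⟩ := IsPGroup.iff_card.1 hN₀p
    rw [e2]
    exact hN₀p.to_sup_of_normal_left (IsPGroup.of_card_dvd_pow (hk ▸ h4))
  have hNX : N ≤ X := by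
    rw [e1]
    exact le_sup_of_le_left (le_inf (le_pCore hNp) hND)
  have hXnt : Nontrivial X := (nontrivial_iff_ne_bot X).2 fun h0 => hN (le_bot_iff.1 (h0 ▸ hNX))
  obtain ⟨z, hz, hz1⟩ := (bot_or_exists_ne_one _).resolve_left hXpg.bot_lt_center.ne'
  have hzc : (z : G) ∈ centralizer (X : Set G) := fun y hy =>
    congrArg Subtype.val (mem_center_iff.1 hz ⟨y, hy⟩)
  -- elements of `Z(X)` centralise `G'`
  have hcent : ∀ a ∈ X, a ∈ centralizer (X : Set G) → a ∈ centralizer (commutator G : Set G) := by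
    intro a ha hc
    have h1 : commutator G ≤ N₀ ⊔ pPrimeCore p G := by
      refine le_of_forall_isPGroup_le fun q _ Q hQ hQq => ?_
      have hQF : Q ≤ fittingSubgroup G := hQ.trans le_fitting
      by_cases hqp : q = p
      · subst hqp
        exact le_sup_of_le_left (le_inf (le_pCore_of_le_fitting hQq hQF) hQ)
      · exact le_sup_of_le_right ((le_pCore_of_le_fitting hQq hQF).trans
          (pCore_le_pPrimeCore_of_ne (Ne.symm hqp)))
    refine centralizer_le h1 ?_
    refine (le_centralizer_iff.1 (sup_le ?_ ?_) : zpowers a ≤ _) (mem_zpowers a)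
    · rw [le_centralizer_iff, zpowers_le]
      exact centralizer_le (show N₀ ≤ X from e1 ▸ le_sup_left) hc
    · rw [le_centralizer_iff, zpowers_le]
      exact pCore_le_centralizer_pPrimeCore (le_pCore hXpg ha)
  have hA1 : IsMulCommutative (A ⊓ (N₀ ⊔ B) : Subgroup G) := by
    rw [← le_centralizer_iff_isMulCommutative]
    exact (inf_le_left.trans A.le_centralizer).trans (centralizer_le fun _ hx => hx.1)
  have hB1 : IsMulCommutative (B ⊓ (N₀ ⊔ A) : Subgroup G) := by
    rw [← le_centralizer_iff_isMulCommutative]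
    exact (inf_le_left.trans B.le_centralizer).trans (centralizer_le fun _ hx => hx.1)
  rcases exists_center hXp z.2 (fun h0 => hz1 (Subtype.ext h0)) hzc with
    ⟨a, ha, ha1, hc⟩ | ⟨a, ha, ha1, hc⟩
  · obtain ⟨M, h1, h2, h3⟩ := step h hZ ha.1 ha1 (hcent a (hXp.left_le ha) hc)
    exact ⟨M, h1, h2, Or.inl h3⟩
  · obtain ⟨M, h1, h2, h3⟩ := step h.symm hZ ha.1 ha1 (hcent a (hXp.right_le ha) hc)
    exact ⟨M, h1, h2, Or.inr h3⟩

end Cfsg.Agent.S0573
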