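import Cfsg.Statements.S0571
import Cfsg.Agent.S0573
import Cfsg.Agent.SolvStr.Product
import Cfsg.Agent.SolvStr.Supersolvable

set_option autoImplicit false
open Cfsg

namespace Cfsg.Agent.S0571

open Subgroup Cfsg.Agent.SolvStr

theorem aux (n : ℕ) : ∀ (G : Type*) [Group G] [Finite G] (A B : Subgroup G) [IsCyclic A]
    [IsCyclic B], IsProd A B ⊤ → Nat.card G ≤ n → Cfsg.IsSupersolvable G := by
  induction n with
  | zero => intro G _ _ A B _ _ _ h; exact absurd h (by simp [Nat.card_pos.ne'])
  | succ n ih =>
    intro G _ _ A B _ _ h hn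
    rcases subsingleton_or_nontrivial G with hs | hs
    · exact isSupersolvable_of_subsingleton
    obtain ⟨N, hN, hN0, hle⟩ := Cfsg.Agent.S0573.result A B (isProd_top_iff.1 h)
    haveI : IsCyclic N := by
      rcases hle with hle | hle
      · exact isCyclic_of_injective (inclusion hle) (inclusion_injective hle)
      · exact isCyclic_of_injective (inclusion hle) (inclusion_injective hle)
    refine isSupersolvable_of_isCyclic_of_quotient N ?_
    haveI : IsCyclic (A.map (QuotientGroup.mk' N)) :=
      isCyclic_of_surjective _ (MonoidHom.subgroupMap_surjective (QuotientGroup.mk' N) A)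
    haveI : IsCyclic (B.map (QuotientGroup.mk' N)) :=
      isCyclic_of_surjective _ (MonoidHom.subgroupMap_surjective (QuotientGroup.mk' N) B)
    refine ih _ _ _ (h.map_top (QuotientGroup.mk'_surjective N)) ?_
    have h1 := card_eq_card_quotient_mul_card_subgroup N
    have h2 : 1 < Nat.card N := (one_lt_card_iff_ne_bot N).2 hN0
    have h3 : 0 < Nat.card (G ⧸ N) := Nat.card_pos
    nlinarith

/-- If a finite group G is the product AB of two cyclic subgroups (every element is a product ab), then G is supersolvable. -/
theorem result {G : Type*} [Group G] [Finite G] (A B : Subgroup G) [IsCyclic A] [IsCyclic B] (hAB : ∀ g : G, ∃ a ∈ A, ∃ b ∈ B, g = a * b) : Cfsg.IsSupersolvable G := by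
  exact aux _ G A B (isProd_top hAB) le_rfl

end Cfsg.Agent.S0571
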