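import Cfsg.Statements.S0574
import Cfsg.Agent.S0564
import Cfsg.Agent.S0572
import Mathlib.NumberTheory.ArithmeticFunction.Misc

set_option autoImplicit false
open Cfsg

namespace Cfsg.Agent.S0574

open Subgroup Cfsg.Agent.BG Cfsg.Agent.SolvStr

universe u in
theorem lemL (n : ℕ) : ∀ (G : Type u) [Group G] [Finite G] [Group.IsSolvable G] (A D : Subgroup G),
    IsMulCommutative A → Group.IsNilpotent D → A ⊔ ⁅D, D⁆ = ⊤ → Nat.card G ≤ n → ⁅D, D⁆ = ⊥ := by
  induction n with
  | zero => intro G _ _ _ A B _ _ _ h; exact absurd h (by simp [Nat.card_pos.ne'])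
  | succ n ih =>
  intro G _ _ _ A D cA nD h hn
  by_contra hc
  have sub : ∀ N : Subgroup G, N.Normal → N ≠ ⊥ → ⁅D, D⁆ ≤ N := fun N hN h1 => by
    have hs := QuotientGroup.mk'_surjective N
    have := ih _ (A.map (QuotientGroup.mk' N)) (D.map (QuotientGroup.mk' N)) inferInstance
      (nilpotent_map _ nD) (by
        rw [← map_commutator, ← Subgroup.map_sup, h, ← MonoidHom.range_eq_map,
          MonoidHom.range_eq_top.2 hs]) (by have := Solv.card_quotient_lt h1; omega)
    rwa [← map_commutator, Subgroup.map_eq_bot_iff, QuotientGroup.ker_mk'] at this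
  obtain ⟨N, hN, -⟩ := minnormal_exists (M := (⊤ : Subgroup G)) (H := ⊤)
    (fun e => hc (le_bot_iff.1 (le_top.trans e.le))) (normG _)
  obtain ⟨p, hp, ab⟩ := minnormal_solvable hN le_top (solvable_of _)
  have := Fact.mk hp
  have nN : N ⊴ ⊤ := ⟨le_top, hN.norm⟩
  have l1 := sub N nN.normal hN.ne
  have e : N ⊔ A = ⊤ := top_le_iff.1 (h.ge.trans (sup_le le_sup_right (l1.trans le_sup_left)))
  have e1 := hN.map_eq (U := N ⊓ C[Op p A]) inf_le_left (e.ge.trans (sup_le
    (sub_abelian_norm ab.abelian inf_le_left)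
    (normsI (le_top.trans hN.norm) (norms_cent (pcore_normal _ _).norm))))
    (pgroup_cent_ne_bot (Op_pgroup p A) ab.pg (le_top.trans hN.norm) hN.ne)
  have n1 : Op p A ⊴ ⊤ := ⟨le_top, e.ge.trans (sup_le (cents_norm (e1.ge.trans inf_le_right))
    (pcore_normal _ _).norm)⟩
  have e2 : Op p A = ⊥ := by
    by_contra h1
    exact hc (der1_eq_bot.2 (abelianS (le_top.trans (h.ge.trans (sup_le le_rfl
      ((sub _ n1.normal h1).trans (pcore_sub _ _))))) cA))
  have e3 := nilpotent_pcore_Hall {p} (abelian_nil cA)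
  unfold Op at e2
  rw [e2] at e3
  have pA := p'group_of_Hall_bot e3
  have sN : SylowIn p N ⊤ := pHall_of_compl
    (IsComplIn.mk' (Or.inr (le_top.trans hN.norm)) e (pgroup_p'_TI ab.pg pA)) ab.pg.pi pA
  have d := nilpotent_pcoreC {p} nD
  refine hc (der1_eq_bot.2 (d.sup ▸ abelianY
    (abelianS (sub_normal_Hall sN nN le_top (pcore_pgroup _ _)) ab.abelian)
    (der1_eq_bot.1 (le_bot_iff.1 ((le_inf ((dergS (pcore_sub _ _)).trans l1) (der_sub _)).trans
      (pgroup_p'_TI ab.pg (pcore_pgroup _ _)).le))) (pcore_cent_pcoreC _ _)))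

theorem der_le {G : Type*} [Group G] {H : Subgroup G} (h : derivedSeries G 2 ≤ H) (m : ℕ) :
    derivedSeries G (2 + m) ≤ (derivedSeries H m).map H.subtype := by
  induction m with
  | zero => exact h.trans (map_subtype_top H).ge
  | succ m ih =>
    rw [← add_assoc, derivedSeries_succ, derivedSeries_succ, map_commutator]
    exact commutator_mono ih ih

theorem len_lt {a b : ℕ} (hb : b ≠ 0) (h : a ∣ b) (h' : a < b) :
    a.primeFactorsList.length < b.primeFactorsList.length := by
  obtain ⟨k, rfl⟩ := h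
  have ha : a ≠ 0 := left_ne_zero_of_mul hb
  have hk : k ≠ 0 := right_ne_zero_of_mul hb
  rw [(Nat.perm_primeFactorsList_mul ha hk).length_eq, List.length_append]
  have : k.primeFactorsList ≠ [] := by
    rw [Nat.primeFactorsList_ne_nil]
    by_contra h2
    have : k = 1 := by omega
    simp [this] at h'
  have := List.length_pos_iff.2 this
  omega

universe u in
theorem aux (n : ℕ) : ∀ (G : Type u) [Group G] [Finite G] (A B : Subgroup G),
    IsProd A B ⊤ → IsMulCommutative A → Group.IsNilpotent B →
    (#⁅B, B⁆).primeFactorsList.length ≤ n → derivedSeries G (2 * (1 + n)) = ⊥ := by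
  have ab : ∀ (G : Type u) [Group G] [Finite G] (A B : Subgroup G),
      IsProd A B ⊤ → IsMulCommutative A → ⁅B, B⁆ = ⊥ → ∀ n, derivedSeries G (2 * (1 + n)) = ⊥ := by
    intro G _ _ A B h cA e n
    have := der1_eq_bot.1 e
    have h1 := der_le (H := ⊥) (S0572.result A B (isProd_top_iff.1 h)).le (2 * n)
    rw [mul_add]
    exact le_bot_iff.1 (h1.trans (map_subtype_le _))
  induction n with
  | zero =>
    intro G _ _ A B h cA nB hn
    refine ab G A B h cA ?_ 0
    by_contra hc
    have := len_lt (cardG_ne_zero _) (one_dvd _) (cardG_gt1 hc)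
    omega
  | succ n ih =>
  intro G _ _ A B h cA nB hn
  by_cases hc : ⁅B, B⁆ = ⊥
  · exact ab G A B h cA hc _
  have h0 := h.of_left_le (U := A ⊔ ⁅B, B⁆) le_sup_left
  set H := A ⊔ ⁅B, B⁆ with hH
  have h1 := h0.subgroupOf_top
  have nD : Group.IsNilpotent ((B ⊓ H).subgroupOf H) :=
    isog_nil (isog_symm (isog_subgroupOf h0.right_le)) (nilpotentS inf_le_left nB)
  have cA' : IsMulCommutative (A.subgroupOf H) := inferInstance
  have e0 : (⁅(B ⊓ H).subgroupOf H, (B ⊓ H).subgroupOf H⁆).map H.subtype = ⁅B ⊓ H, B ⊓ H⁆ := by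
    rw [map_commutator, map_subgroupOf_eq_of_le inf_le_right]
  have lt : ⁅B ⊓ H, B ⊓ H⁆ < ⁅B, B⁆ := lt_of_le_of_ne (dergS inf_le_left) fun e => by
    have := S0564.result _ _ (abelian_nil cA') nD (isProd_top_iff.1 h1)
    have := lemL _ H _ _ cA' nD (map_injective (subtype_injective _) (by
      rw [Subgroup.map_sup, e0, e, map_subgroupOf_eq_of_le le_sup_left, map_subtype_top])) le_rfl
    rw [this, Subgroup.map_bot] at e0
    exact hc (e.symm.trans e0.symm)
  have e1 := ih H _ _ h1 cA' nD (by
    have := len_lt (cardG_ne_zero _) (cardSg lt.le) (proper_card lt)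
    rw [← card_map_subtype, e0]; omega)
  have e2 : derivedSeries G 2 ≤ H := by
    refine le_trans ?_ (h.normalClosure_le le_sup_left le_sup_right (der_normal B).norm)
    have hs := QuotientGroup.mk'_surjective (normalClosure ((⁅B, B⁆ : Subgroup G) : Set G))
    have : IsMulCommutative (B.map (QuotientGroup.mk' (normalClosure
        ((⁅B, B⁆ : Subgroup G) : Set G)))) := der1_eq_bot.1 (by
      rw [← map_commutator, Subgroup.map_eq_bot_iff, QuotientGroup.ker_mk']
      exact le_normalClosure)
    have h2 := S0572.result _ _ (isProd_top_iff.1 (h.map_top hs))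
    rwa [← map_derivedSeries_eq hs, Subgroup.map_eq_bot_iff, QuotientGroup.ker_mk'] at h2
  have := der_le e2 (2 * (1 + n))
  rw [e1, Subgroup.map_bot] at this
  rw [show 2 * (1 + (n + 1)) = 2 + 2 * (1 + n) by ring]
  exact le_bot_iff.1 this

/-- Let the finite group G be the product AB of an abelian subgroup A and a subgroup B of nilpotency class at most two, and let Ω be the number of prime factors, with multiplicity, of the order of the commutator subgroup of B. Then the term of index 2(1 + Ω) of the derived series of G is trivial. -/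
theorem result {G : Type*} [Group G] [Finite G] (A B : Subgroup G) [IsMulCommutative A] (hB : commutator ↥B ≤ Subgroup.center ↥B) (hAB : ∀ g : G, ∃ a ∈ A, ∃ b ∈ B, g = a * b) : derivedSeries G (2 * (1 + (Nat.card ↥(commutator ↥B)).primeFactorsList.length)) = ⊥ := by
  have e : (commutator B).map B.subtype = ⁅B, B⁆ := by
    rw [commutator_def, map_commutator, map_subtype_top]
  refine aux _ G A B (isProd_top hAB) inferInstance ?_ (by rw [← e, card_map_subtype])
  exact nil_of_quotient_center (N := Z[B]) le_rfl (abelian_nil (sub_der1_abelian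
    (by rw [← e, ← map_subtype_center]; exact map_mono hB)))

end Cfsg.Agent.S0574
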