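import Cfsg.Statements.S0576
import Cfsg.Agent.SolvStr.Frattini

set_option autoImplicit false
open Cfsg

namespace Cfsg.Agent.S0576

open Subgroup Cfsg.Agent.SolvStr Cfsg.Agent.Solv

/-- Let H be a normal subgroup of a finite group G with H contained in the Frattini subgroup of G. Then the group of inner automorphisms of H is contained in the Frattini subgroup of the automorphism group of H. -/
theorem result {G : Type*} [Group G] [Finite G] (H : Subgroup G) [H.Normal] (hH : H ≤ frattini G) : (MulAut.conj : ↥H →* MulAut ↥H).range ≤ frattini (MulAut ↥H) := by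
  rw [le_frattini_iff]
  intro M hM
  by_contra hc
  have hn : (MulAut.conj : ↥H →* MulAut ↥H).range.Normal := by
    refine ⟨?_⟩
    rintro _ ⟨x, rfl⟩ σ
    exact ⟨σ x, by ext y; simp⟩
  have h1 := sup_eq_top_of_isCoatom hM hc
  let φ : G →* MulAut H := MulAut.conjNormal
  have h2 : H ⊔ M.comap φ = ⊤ := by
    rw [eq_top_iff]
    intro g _
    have : φ g ∈ (MulAut.conj : ↥H →* MulAut ↥H).range ⊔ M := h1 ▸ mem_top _
    obtain ⟨_, ⟨x, rfl⟩, m, hm, h⟩ := mem_sup_of_normal_left.1 this
    have h3 : φ x = MulAut.conj x := by ext y; simp [φ]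
    have : g = x * ((x : G)⁻¹ * g) := by simp
    rw [this]
    refine mul_mem_sup x.2 ?_
    rw [mem_comap, map_mul, map_inv, ← h, h3, inv_mul_cancel_left]
    exact hm
  have h4 := eq_top_of_sup_of_le_frattini hH h2
  apply hc
  rintro _ ⟨x, rfl⟩
  have h3 : φ x = MulAut.conj x := by ext y; simp [φ]
  have : (x : G) ∈ M.comap φ := h4 ▸ mem_top _
  rwa [mem_comap, h3] at this

end Cfsg.Agent.S0576
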