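import Cfsg.Statements.S0577
import Cfsg.Agent.SolvStr.Schmidt

set_option autoImplicit false
open Cfsg

namespace Cfsg.Agent.S0577

open Subgroup Cfsg.Agent.BG Cfsg.Agent.SolvStr

theorem abelian_map_mk' {G : Type*} [Group G] {D K : Subgroup G} [D.Normal] :
    IsMulCommutative (K.map (QuotientGroup.mk' D)) ↔ ⁅K, K⁆ ≤ D := by
  rw [← der1_eq_bot, ← map_commutator, Subgroup.map_eq_bot_iff, QuotientGroup.ker_mk']

/-- Let G be a finite minimal non-nilpotent group and Q a normal Sylow q-subgroup of G, and let D be the commutator subgroup of Q regarded in G (a normal subgroup). Then G modulo D is non-abelian and all its proper subgroups are abelian. -/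
theorem result {G : Type*} [Group G] [Finite G] (hG : Cfsg.IsMinimalNonNilpotent G) (q : ℕ) [Fact q.Prime] (hq : q ∣ Nat.card G) (Q : Sylow q G) (hQ : (Q : Subgroup G).Normal) (D : Subgroup G) [D.Normal] (hD : D = (commutator ↥(Q : Subgroup G)).map (Q : Subgroup G).subtype) : ¬ IsMulCommutative (G ⧸ D) ∧ ∀ K : Subgroup (G ⧸ D), K ≠ ⊤ → IsMulCommutative K := by
  obtain ⟨p', q', x, R, hs⟩ := schmidt hG
  rw [map_subtype_commutator] at hD
  have hQ' := sylowIn_top Q
  obtain rfl : q = q' := by
    by_contra hne
    obtain rfl : q = p' := by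
      rw [← card_top, ← hs.sdprod.card] at hq
      exact ((Nat.Prime.dvd_mul Fact.out).1 hq).elim (fun h => absurd (hs.sylQ.pi q Fact.out h) hne)
        fun h => hs.sylP.pi q Fact.out h
    rw [← uniq_normal_Hall hQ' (normal_top _) hs.sylP] at hQ
    exact hs.ncent (cents_symm (TI_cent (norm_of_normal _ _) (hs.norm _) (coprime_TI hs.coprime)))
  obtain rfl : R = Q := uniq_normal_Hall hQ' (normal_top _) hs.sylQ
  constructor
  · intro h
    have h1 := abelian_map_mk'.1 (abelianS (le_top : (⊤ : Subgroup G).map (QuotientGroup.mk' D) ≤ ⊤)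
      (abelian_top_iff.2 h))
    exact hs.ncent (coprime_cent_Phi (hs.norm _) hs.coprime ((commgSS le_top le_top).trans
      (h1.trans (hD.le.trans (der1_sub_Phi (pgroup_nil hQ'.pg))))))
  · intro K hK
    rw [← map_comap_eq_self_of_surjective (QuotientGroup.mk'_surjective D) K, abelian_map_mk']
    have hn := hG.2 (K.comap (QuotientGroup.mk' D)) fun e => hK (by
      rw [← map_comap_eq_self_of_surjective (QuotientGroup.mk'_surjective D) K, e,
        map_top_of_surjective _ (QuotientGroup.mk'_surjective D)])
    have hd := nilpotent_pcoreC {q} hn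
    rw [← hd.sup, der_sup_cent hd.cent, der1_eq_bot.2 (cyclic_abelian (hs.cyclic (pcore_pgroup _ _))),
      sup_bot_eq]
    exact (dergS (sub_normal_Hall hQ' (normal_top _) le_top (pcore_pgroup _ _))).trans hD.ge

end Cfsg.Agent.S0577
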