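import Cfsg.Statements.S0578
import Cfsg.Agent.SolvStr.Schmidt

set_option autoImplicit false
open Cfsg

namespace Cfsg.Agent.S0578

open Subgroup Cfsg.Agent.BG Cfsg.Agent.SolvStr

/-- If in a finite group the normalizer of each abelian subgroup coincides with its centralizer, then the group is abelian. -/
theorem result {G : Type*} [Group G] [Finite G] (h : ∀ A : Subgroup G, IsMulCommutative A → Subgroup.normalizer (A : Set G) = Subgroup.centralizer (A : Set G)) : IsMulCommutative G := by
  rw [← abelian_top_iff]
  by_contra hna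
  obtain ⟨H, -, hH, hmin⟩ := mingroup_exists (P := fun H : Subgroup G => ¬ IsMulCommutative H) hna
  have hab : ∀ A < H, IsMulCommutative A := fun A hA => by_contra fun h' => hA.ne (hmin A h' hA.le)
  obtain ⟨M, hM, hn, -⟩ := maxSub_der (sol_of_proper_nil fun A hA => abelian_nil (hab A hA))
    fun e => hH (e ▸ abelian_bot)
  obtain ⟨x, hx, hx'⟩ := SetLike.exists_of_lt hM.lt
  rw [← hM.sup_eq (zpowers_le.2 hx) (by rwa [zpowers_le])] at hH
  exact hH (abelianY (hab M hM.lt) (abelian_zpowers x)
    (cents_symm ((zpowers_le.2 hx).trans (hn.norm.trans (h M (hab M hM.lt)).le))))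

end Cfsg.Agent.S0578
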