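import Cfsg.Statements.S0582
import Cfsg.Agent.SolvStr.Huppert
import Cfsg.Agent.Transfer.Hall

set_option autoImplicit false
open Pointwise
open Cfsg

namespace Cfsg.Agent.S0582

open Subgroup Cfsg.Agent.Transfer Cfsg.Agent.SolvStr

theorem le_norm {G : Type*} [Group G] [Finite G] {q : ℕ} [Fact q.Prime] {T H : Subgroup G}
    (hT : IsSylowIn q T H) (hH : Cfsg.IsSupersolvable H)
    (hmax : ∀ r : ℕ, r.Prime → r ∣ Nat.card H → r ≤ q) : H ≤ normalizer (T : Set G) := by
  have := ss_normal_sylow hH hmax hT.toSylow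
  rw [← hT.map_toSylow]
  exact Solv.le_normalizer_map_subtype H _

universe u in
theorem aux {G : Type u} [Group G] [Finite G] {H K : Subgroup G}
    (sH : Cfsg.IsSupersolvable H) (sK : Cfsg.IsSupersolvable K)
    (hH : Nat.Coprime (Nat.card H) H.index)
    (hc : Nat.card K = Nat.card H) : ∃ x : G, MulAut.conj x • K = H := by
  induction hn : Nat.card G using Nat.strong_induction_on generalizing G with
  | _ n ih =>
  by_cases h1 : Nat.card H = 1
  · exact ⟨1, by rw [conj_one_smul, card_eq_one.1 h1, card_eq_one.1 (hc.trans h1)]⟩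
  have : Nontrivial H := Finite.one_lt_card_iff_nontrivial.1
    (by have := Nat.card_pos (α := H); omega)
  obtain ⟨q, hq, hqd, hmax⟩ := exists_max_prime H
  have := Fact.mk hq
  have hiK : K.index = H.index :=
    Nat.eq_of_mul_eq_mul_left (Nat.card_pos (α := H)) (by rw [card_mul_index, ← hc, card_mul_index])
  obtain ⟨T, hT⟩ := exists_isSylowIn (p := q) H
  obtain ⟨T', hT'⟩ := exists_isSylowIn (p := q) K
  obtain ⟨y, -, hy⟩ := (isSylowIn_top_of_hall hH hqd hT).exists_conj_eq
    (isSylowIn_top_of_hall (by rwa [hc, hiK]) (hc ▸ hqd) hT')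
  set K' := MulAut.conj y • K with hK'
  have sK' : Cfsg.IsSupersolvable K' := isSupersolvable_map _ sK
  have hTK' : IsSylowIn q T K' := hy ▸ hT'.conj y
  have hc' : Nat.card K' = Nat.card H := by rw [hK', card_conj_smul, hc]
  suffices ∃ x : G, MulAut.conj x • K' = H by
    obtain ⟨x, hx⟩ := this
    exact ⟨x * y, by rw [← conj_smul_conj_smul, hx]⟩
  have hT0 : T ≠ ⊥ := by
    rintro rfl
    exact hT.not_dvd (by rwa [relIndex_bot_left])
  by_cases hN : normalizer (T : Set G) = ⊤
  · have := normalizer_eq_top_iff.1 hN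
    have hs := QuotientGroup.mk'_surjective T
    have hcard : ∀ L : Subgroup G, T ≤ L →
        Nat.card L = Nat.card (L.map (QuotientGroup.mk' T)) * Nat.card T := fun L hL => by
      rw [card_eq_card_map_mul_card_inf_ker (QuotientGroup.mk' T) L, QuotientGroup.ker_mk',
        inf_eq_right.2 hL]
    obtain ⟨x, hx⟩ := ih (Nat.card (G ⧸ T)) (by
        rw [← hn, ← index_eq_card, ← T.index_mul_card]
        exact lt_mul_of_one_lt_right (Nat.pos_of_ne_zero index_ne_zero_of_finite)
          ((one_lt_card_iff_ne_bot T).2 hT0))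
      (H := H.map (QuotientGroup.mk' T)) (K := K'.map (QuotientGroup.mk' T))
      (isSupersolvable_map _ sH) (isSupersolvable_map _ sK')
      ((hH.coprime_dvd_left (card_map_dvd _ _)).coprime_dvd_right (index_map_dvd _ hs))
      (Nat.eq_of_mul_eq_mul_right (Nat.card_pos (α := T))
        (by rw [← hcard _ hT.le, ← hcard _ hTK'.le, hc'])) rfl
    obtain ⟨x, rfl⟩ := hs x
    refine ⟨x, ?_⟩
    rw [← Solv.map_conj_smul] at hx
    have h2 := congrArg (comap (QuotientGroup.mk' T)) hx
    rwa [comap_map_eq, comap_map_eq, QuotientGroup.ker_mk', sup_eq_left.2 hT.le, sup_eq_left.2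
      (Normal.conj_smul_eq_self x T ▸ conj_smul_mono x hTK'.le)] at h2
  · set N := normalizer (T : Set G)
    have hHN : H ≤ N := le_norm hT sH hmax
    have hKN : K' ≤ N := le_norm hTK' sK' (hc' ▸ hmax)
    obtain ⟨x, hx⟩ := ih (Nat.card N) (by
        rw [← hn, ← card_top (G := G)]
        exact card_lt_of_lt (lt_top_iff_ne_top.2 hN))
      (H := H.subgroupOf N) (K := K'.subgroupOf N)
      (isSupersolvable_subgroupOf sH) (isSupersolvable_subgroupOf sK')
      (by rw [Solv.card_subgroupOf hHN]; exact hH.coprime_dvd_right (relIndex_dvd_index_of_le hHN))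
      (by rw [Solv.card_subgroupOf hHN, Solv.card_subgroupOf hKN, hc']) rfl
    refine ⟨x, ?_⟩
    rw [← map_subgroupOf_eq_of_le hKN, ← Solv.map_subtype_conj_smul, hx,
      map_subgroupOf_eq_of_le hHN]

/-- Let H and K be supersolvable subgroups of a finite group G of the same order, that order being coprime to their index. Then H and K are conjugate in G. -/
theorem result {G : Type*} [Group G] [Finite G] (H K : Subgroup G) (hH : Cfsg.IsSupersolvable H) (hK : Cfsg.IsSupersolvable K) (hcard : Nat.card H = Nat.card K) (hHall : (Nat.card H).Coprime H.index) : ∃ x : G, MulAut.conj x • H = K := by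
  have hi : K.index = H.index :=
    Nat.eq_of_mul_eq_mul_left (Nat.card_pos (α := H))
      (by rw [card_mul_index, hcard, card_mul_index])
  exact aux hK hH (by rw [hi, ← hcard]; exact hHall) hcard

end Cfsg.Agent.S0582
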