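import Cfsg.Statements.S0587
import Cfsg.Agent.SolvStr.Frattini

set_option autoImplicit false
open Cfsg

namespace Cfsg.Agent.S0587

open Subgroup Cfsg.Agent.SolvStr Cfsg.Agent.Solv

/-- Let G be a finite group whose largest normal p-subgroup L is nontrivial, and M a maximal subgroup of G with trivial normal core. Then L is elementary abelian, M is a complement to L, L is a minimal normal subgroup of G, the centralizer of L is L, and for every prime q such that the largest normal q-subgroup of M is nontrivial, the order of L is congruent to 1 modulo q and q ≠ p. -/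
theorem result {G : Type*} [Group G] [Finite G] (p : ℕ) [Fact p.Prime] (hL : Cfsg.pCore p G ≠ ⊥) (M : Subgroup G) (hM : IsCoatom M) (hcore : M.normalCore = ⊥) : Cfsg.IsElementaryAbelian p (Cfsg.pCore p G) ∧ Subgroup.IsComplement' (Cfsg.pCore p G) M ∧ (∀ K : Subgroup G, K.Normal → K ≤ Cfsg.pCore p G → K = ⊥ ∨ K = Cfsg.pCore p G) ∧ Subgroup.centralizer ((Cfsg.pCore p G : Subgroup G) : Set G) = Cfsg.pCore p G ∧ ∀ (q : ℕ) [Fact q.Prime], Cfsg.pCore q ↥M ≠ ⊥ → Nat.card (Cfsg.pCore p G) % q = 1 % q ∧ q ≠ p := by
  set L := pCore p G with hLdef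
  have hLp : IsPGroup p L := isPGroup_pCore p G
  have hnt : Nontrivial L := (nontrivial_iff_ne_bot L).2 hL
  let Z : Subgroup G := (center L).map L.subtype
  have hZn : Z.Normal := inferInstance
  have hZ : Z ≠ ⊥ := by
    intro h
    rw [map_eq_bot_iff_of_injective _ L.subtype_injective] at h
    exact hLp.bot_lt_center.ne' h
  have hLZ : L ≤ centralizer (Z : Set G) := by
    rintro x hx _ ⟨y, hy, rfl⟩
    exact (congrArg Subtype.val (mem_center_iff.1 hy ⟨x, hx⟩)).symm
  have h1 := eq_centralizer_of_coreFree hM hcore hZ hL hLZ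
  have hmin : ∀ K : Subgroup G, K.Normal → K ≤ L → K = ⊥ ∨ K = L := by
    intro K hK hKL
    by_cases h0 : K = ⊥
    · exact Or.inl h0
    · exact Or.inr ((eq_centralizer_of_coreFree hM hcore hZ h0 (hKL.trans hLZ)).trans h1.symm)
  have hZL : Z = L := (hmin Z hZn (map_subtype_le _)).resolve_left hZ
  rw [hZL] at h1
  have hinf : L ⊓ M = ⊥ := by
    have := centralizer_inf_eq_bot_of_coreFree hM hcore hL
    rwa [← h1] at this
  have hsup := sup_eq_top_of_coreFree hM hcore hL
  have hnil := hLp.isNilpotent
  obtain ⟨hcomm, r, hr, hpow⟩ := elementary_of_minimal_normal hL hmin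
  have hrp : r = p := by
    obtain ⟨x, hx⟩ := exists_ne (1 : L)
    have h2 : orderOf x = r := by
      have := Fact.mk hr
      exact orderOf_eq_prime (Subtype.ext (hpow x x.2)) hx
    exact ((Nat.prime_dvd_prime_iff_eq Fact.out hr).1 (h2 ▸ hLp.dvd_orderOf hx)).symm
  subst hrp
  refine ⟨⟨hcomm, hpow⟩, isComplement'_of_inf_sup hinf hsup, hmin, h1.symm, fun q _ hq => ?_⟩
  set Q : Subgroup G := (pCore q M).map M.subtype with hQ
  have hQp : IsPGroup q Q := (isPGroup_pCore q M).map _
  have hQn : M ≤ normalizer (Q : Set G) := le_normalizer_map_subtype M _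
  have hC : L ⊓ centralizer (Q : Set G) = ⊥ := by
    have hn : (L ⊓ centralizer (Q : Set G)).Normal :=
      normal_of_le_normalizer_of_sup_eq_top
        ((L.le_centralizer.trans (centralizer_le fun _ hx => hx.1)).trans
          (centralizer_le_normalizer _))
        (le_normalizer_inf le_normalizer_of_normal (le_normalizer_centralizer hQn)) hsup
    refine (hmin _ hn inf_le_left).resolve_right fun h => hq ?_
    rw [← map_eq_bot_iff_of_injective _ M.subtype_injective, eq_bot_iff, ← hinf]
    exact le_inf (h1 ▸ le_centralizer_iff.1 (inf_eq_left.1 h)) (map_subtype_le _)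
  let : MulAction Q L := MulAction.compHom L
    ((MulAut.conjNormal : G →* MulAut L).comp Q.subtype)
  have h3 := hQp.card_modEq_card_fixedPoints L
  have h4 : MulAction.fixedPoints Q L = {1} := by
    ext x
    simp only [MulAction.mem_fixedPoints, Set.mem_singleton_iff]
    constructor
    · intro hx
      have : (x : G) ∈ L ⊓ centralizer (Q : Set G) := by
        refine ⟨x.2, fun y hy => ?_⟩
        have h5 : y * x * y⁻¹ = x := congrArg Subtype.val (hx ⟨y, hy⟩)
        rw [mul_inv_eq_iff_eq_mul] at h5
        exact h5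
      rw [hC] at this
      exact Subtype.ext this
    · rintro rfl y
      exact map_one (MulAut.conjNormal (y : G))
  rw [h4, Nat.card_unique (α := ({1} : Set L))] at h3
  refine ⟨h3, ?_⟩
  rintro rfl
  have h5 := dvd_card_of_isPGroup hLp hL
  exact (Fact.out : q.Prime).one_lt.ne' (Nat.eq_one_of_dvd_one ((h3.dvd_iff dvd_rfl).1 h5))

end Cfsg.Agent.S0587
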