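import Cfsg.Statements.S0588
import Cfsg.Agent.Solv.Basic

set_option autoImplicit false
open Cfsg

namespace Cfsg.Agent.S0588

open Subgroup Cfsg.Agent.Solv

/-- If a subgroup H of a finite group G contains the centralizer of every non-identity element of H, then the order of H is coprime to its index. -/
theorem result {G : Type*} [Group G] [Finite G] (H : Subgroup G) (h : ∀ x ∈ H, x ≠ 1 → Subgroup.centralizer ({x} : Set G) ≤ H) : (Nat.card H).Coprime H.index := by
  refine Nat.coprime_of_dvd fun p hp hpH hpi => ?_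
  have := Fact.mk hp
  obtain ⟨x, hx⟩ := exists_prime_orderOf_dvd_card' p hpH
  have hx1 : (x : G) ≠ 1 := by
    intro h0
    have : x = 1 := Subtype.ext h0
    rw [this, orderOf_one] at hx
    exact hp.one_lt.ne hx
  have hP : IsPGroup p (zpowers (x : G)) :=
    IsPGroup.of_card (n := 1) (by rw [Nat.card_zpowers, orderOf_coe, hx, pow_one])
  obtain ⟨S, hS⟩ := hP.exists_le_sylow
  have hxS : (x : G) ∈ S := hS (mem_zpowers _)
  have : Nontrivial S := ⟨⟨⟨x, hxS⟩, 1, fun h0 => hx1 (congrArg Subtype.val h0)⟩⟩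
  obtain ⟨z, hz⟩ := (nontrivial_iff_exists_ne_one _).1 S.isPGroup'.center_nontrivial
  have hzS : ∀ y ∈ S, y * (z : G) = z * y := fun y hy =>
    congrArg Subtype.val (mem_center_iff.1 hz.1 ⟨y, hy⟩)
  have hzH : (z : G) ∈ H := h x x.2 hx1 (mem_centralizer_singleton_iff.2 (hzS _ hxS).symm)
  have hSH : (S : Subgroup G) ≤ H := fun y hy =>
    h z hzH (fun h0 => hz.2 (Subtype.ext h0)) (mem_centralizer_singleton_iff.2 (hzS _ hy))
  exact S.not_dvd_index (hpi.trans (index_dvd_of_le hSH))

end Cfsg.Agent.S0588
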