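import Cfsg.Statements.S0589
import Cfsg.Agent.BG.TI
import Cfsg.Agent.Frob.Basic
import Cfsg.Agent.S0035

set_option autoImplicit false
open Pointwise
open Cfsg

namespace Cfsg.Agent.S0589

open Subgroup Cfsg.Agent.BG Cfsg.Agent.Frob

theorem frob_sub {G : Type*} [Group G] {H L : Subgroup G} (hH : IsFrobeniusComplement H)
    (h1 : H.subgroupOf L ≠ ⊥) (h2 : ¬ L ≤ H) : IsFrobeniusComplement (H.subgroupOf L) :=
  isFrobeniusComplement_iff.2 ⟨h1, by rwa [Ne, subgroupOf_eq_top], fun g x hx hx1 hg =>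
    mem_of_conj_mem hH (g := (g : G)) (x := (x : G)) hx (by simpa using hx1) hg⟩

/-- Let H be a Frobenius complement in a finite group G and L a subgroup of G whose order divides the order of H. Then L is contained in some conjugate of H. -/
theorem result {G : Type*} [Group G] [Finite G] (H : Subgroup G) (hH : Cfsg.IsFrobeniusComplement H) (L : Subgroup G) (hL : Nat.card L ∣ Nat.card H) : ∃ x : G, L ≤ MulAut.conj x • H := by
  by_contra! hn
  obtain ⟨N, hN, -, hc⟩ := S0035.result H hH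
  have key : ∀ y : L, y ≠ 1 → ∃ g : G, y ∈ (MulAut.conj g • H).subgroupOf L := fun y hy => by
    by_contra! h
    have h1 : (y : G) ∈ N := by rw [← SetLike.mem_coe, hN]; exact Or.inr h
    have h2 : L ⊓ N = ⊥ := coprime_TI (by
      rw [← hc.index_eq_card]; exact (coprime_card_index hH).coprime_dvd_left hL)
    exact hy (Subtype.ext (h2.le ⟨y.2, h1⟩))
  have fr : ∀ y : L, y ≠ 1 → ∀ g : G, y ∈ (MulAut.conj g • H).subgroupOf L →
      IsFrobeniusComplement ((MulAut.conj g • H).subgroupOf L) := fun y hy g h =>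
    frob_sub (IsFrobeniusComplement.conj hH g) (ne_bot_of_mem h hy) (hn g)
  obtain ⟨x, hx, hx1⟩ := exists_mem_ne_one (H := L) fun e => hn 1 (e ▸ bot_le)
  obtain ⟨a, ha⟩ := key ⟨x, hx⟩ (by simpa using hx1)
  have hA := fr _ (by simpa using hx1) a ha
  obtain ⟨y, hy, hy1⟩ : ∃ y ∈ frobeniusKernel ((MulAut.conj a • H).subgroupOf L), y ≠ 1 := by
    by_contra! h
    have h1 := card_frobeniusKernel hA
    rw [show frobeniusKernel ((MulAut.conj a • H).subgroupOf L) = {1} from
      Set.eq_singleton_iff_unique_mem.2 ⟨Or.inl rfl, h⟩, Nat.card_unique, eq_comm, index_eq_one] at h1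
    exact hA.2.1 h1
  obtain ⟨b, hb⟩ := key y hy1
  obtain ⟨l, z, hz1, hz, hz'⟩ := exists_conj_inf_ne_bot hA (fr y hy1 b hb)
  rw [mem_subgroupOf, mem_conj_smul] at hz hz' hb
  have h1 := inv_mul_mem_of_conj_mem hH (a := b) (b := l * a) (by simpa using hz1) hz
    (by simpa [mul_assoc] using hz')
  refine (mem_frobeniusKernel.1 hy).elim hy1 fun h => h l ?_
  rw [mem_subgroupOf, mem_conj_smul]
  simpa [mul_assoc] using H.mul_mem (H.mul_mem (H.inv_mem h1) hb) h1

end Cfsg.Agent.S0589
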