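import Cfsg.Statements.S0592
import Cfsg.Agent.PLocal.Rep
import Cfsg.Agent.PLocal.Basic
-- import your own Cfsg.Agent.* helpers here

set_option autoImplicit false
open Cfsg

namespace Cfsg.Agent.S0592


open Subgroup Cfsg Cfsg.Agent.Loc Cfsg.Agent.PLocal
open scoped commutatorElement

/-- Two quadratically acting generators of a linear group that is not a p-group, with the p'-part of the order of their product dividing q - 1, give a homomorphism onto a subgroup of SL(2, q) that is not a p-group. -/
theorem result {K : Type*} [Field K] [Fintype K] {p : ℕ} [Fact p.Prime] [CharP K p] {W : Type*} [AddCommGroup W] [Module K W] [FiniteDimensional K W] [Finite W] [Nontrivial W] (H : Subgroup (W ≃ₗ[K] W)) (a b : W ≃ₗ[K] W) (hH : H = Subgroup.closure {a, b}) (ha : ∀ w : W, a (a w - w) = a w - w) (hb : ∀ w : W, b (b w - w) = b w - w) (hnp : ¬ IsPGroup p H) (hk : ∃ e k : ℕ, orderOf (a * b) = p ^ e * k ∧ k ∣ Fintype.card K - 1) : ∃ φ : H →* Matrix.SpecialLinearGroup (Fin 2) K, ¬ IsPGroup p φ.range := by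
  subst hH
  obtain ⟨e, k, h1, h2⟩ := hk
  have ha' : a ∈ closure {a, b} := subset_closure (by simp)
  have hb' : b ∈ closure {a, b} := subset_closure (by simp)
  let ρ : Representation K (closure {a, b} : Subgroup (W ≃ₗ[K] W)) W :=
    LinearEquiv.automorphismGroup.toLinearMapMonoidHom.comp (Subgroup.subtype _)
  have hgen : closure {(⟨a, ha'⟩ : (closure {a, b} : Subgroup (W ≃ₗ[K] W))), ⟨b, hb'⟩} = ⊤ := by
    apply map_injective (subtype_injective _)
    rw [MonoidHom.map_closure, Set.image_pair, ← MonoidHom.range_eq_map, range_subtype]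
    rfl
  haveI : Finite (W ≃ₗ[K] W) := Finite.of_injective (fun f => (f : W → W)) DFunLike.coe_injective
  obtain ⟨φ, R, h3, -⟩ := exists_SL2_of_rep (p := p) hgen (N := p ^ e * k)
    (h1 ▸ (orderOf_pos _).ne') (Subtype.ext (h1 ▸ pow_orderOf_eq_one (a * b)))
    (splits_X_pow_sub_one h2) _ W rfl ρ (LinearMap.ext fun w => by simpa [sq, ρ, sub_eq_zero] using ha w)
    (LinearMap.ext fun w => by simpa [sq, ρ, sub_eq_zero] using hb w) fun h => hnp fun g => by
      obtain ⟨k, hk⟩ := h g
      exact ⟨k, Subtype.ext (LinearEquiv.toLinearMap_injective hk)⟩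
  exact ⟨φ, h3⟩


end Cfsg.Agent.S0592
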