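import Cfsg.Statements.S0594
import Cfsg.Agent.PLocal.Stable
-- import your own Cfsg.Agent.* helpers here

set_option autoImplicit false
open Cfsg

namespace Cfsg.Agent.S0594


open Subgroup Cfsg Cfsg.Agent.Loc Cfsg.Agent.PLocal
open scoped commutatorElement

/-- For odd p, two quadratic generators of a faithful group that is not a p-group, one of which acts nontrivially on a normal subgroup of order prime to p, force p = 3 and a section isomorphic to SL(2,3). -/
theorem result {G : Type*} [Group G] [Finite G] {p : ℕ} [Fact p.Prime] (hp : p ≠ 2) (V H : Subgroup G) (hV : Cfsg.IsElementaryAbelian p V) (hHV : H ≤ Subgroup.normalizer (V : Set G)) (hf : H ⊓ Subgroup.centralizer (V : Set G) = ⊥) (a b : G) (hab : H = Subgroup.closure {a, b}) (ha : ⁅⁅V, Subgroup.zpowers a⁆, Subgroup.zpowers a⁆ = ⊥) (hb : ⁅⁅V, Subgroup.zpowers b⁆, Subgroup.zpowers b⁆ = ⊥) (hnp : ¬ IsPGroup p H) (Q : Subgroup G) (hQH : Q ≤ H) (hQn : H ≤ Subgroup.normalizer (Q : Set G)) (hQ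 : (Nat.card Q).Coprime p) (hQa : ⁅Q, Subgroup.zpowers a⁆ ≠ ⊥) : p = 3 ∧ ∃ (K L : Subgroup G) (hL : (L.subgroupOf K).Normal), K ≤ H ∧ Nonempty ((K ⧸ L.subgroupOf K) ≃* Matrix.SpecialLinearGroup (Fin 2) (ZMod 3)) := by
  rw [← involves_iff]
  by_contra hcon
  have haH : a ∈ H := hab ▸ subset_closure (by simp)
  have hP := ea_isPGroup (ea_zpowers (quad_pow_eq_one hV hHV hf haH ha))
  have hle : Q ⊔ zpowers a ≤ H := sup_le hQH ((zpowers_le).2 haH)
  have hn : zpowers a ≤ normalizer (Q : Set G) := ((zpowers_le).2 haH).trans hQn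
  have := stableOn_of_pSolv hp (pSolv_sup hn (pSolv_of_coprime hQ) (pSolv_of_isPGroup hP))
    (fun h1 h2 => hcon ⟨h1, h2.mono hle⟩) (ea_isPGroup hV) (hle.trans hHV) a
    (mem_sup_right (mem_zpowers a)) ha
  rw [opMod_eq_pCoreOf ((eq_bot_iff.2 ((inf_le_inf_right _ hle).trans hf.le)) ▸ IsPGroup.of_bot)] at this
  refine hQa (eq_bot_iff.2 ?_)
  rw [← disjoint_of_isPGroup_of_coprime (isPGroup_pCoreOf p (Q ⊔ zpowers a)) hQ]
  exact le_inf ((commutator_mono le_rfl ((zpowers_le).2 this)).trans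
    (comm_le_right (le_sup_left.trans (le_normalizer_pCoreOf p _)))) (comm_le_left hn)


end Cfsg.Agent.S0594
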