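import Cfsg.Statements.S0604
import Cfsg.Agent.PLocal.Thompson
-- import your own Cfsg.Agent.* helpers here

set_option autoImplicit false
open Cfsg

namespace Cfsg.Agent.S0604


open Subgroup Cfsg Cfsg.Agent.Loc Cfsg.Agent.PLocal
open scoped commutatorElement

/-- The Thompson subgroup of G is the join of the Thompson subgroups of its Sylow p-subgroups. -/
theorem result {G : Type*} [Group G] [Finite G] {p : ℕ} [Fact p.Prime] : Cfsg.thompsonSubgroup p G = ⨆ S : Sylow p G, Cfsg.thompsonSubgroupOf p (S : Subgroup G) := by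
  rw [← J_top]
  apply le_antisymm
  · refine J_le_iff.2 fun A hA => ?_
    obtain ⟨S, hS⟩ := (ea_isPGroup hA.2.1).exists_le_sylow
    exact le_iSup_of_le S (le_J (mem_maxFam_of_le hA le_top hS))
  · exact iSup_le fun S => J_sylIn_le (sylIn_top S)


end Cfsg.Agent.S0604
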