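import Cfsg.Statements.S0605
import Cfsg.Agent.PLocal.Thompson
-- import your own Cfsg.Agent.* helpers here

set_option autoImplicit false
open Cfsg

namespace Cfsg.Agent.S0605


open Subgroup Cfsg Cfsg.Agent.Loc Cfsg.Agent.PLocal
open scoped commutatorElement

/-- Elements of order p in the centralizer of the Thompson subgroup belong to the Thompson subgroup (so to its centre). -/
theorem result {G : Type*} [Group G] [Finite G] {p : ℕ} [Fact p.Prime] (x : G) (hx : x ∈ Subgroup.centralizer (Cfsg.thompsonSubgroup p G : Set G)) (ho : orderOf x = p) : x ∈ Cfsg.thompsonSubgroup p G := by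
  rw [← J_top] at hx ⊢
  obtain ⟨A, hA⟩ := eaMax_nonempty p (⊤ : Subgroup G)
  exact le_J hA (mem_of_mem_eaMax hA (mem_top x) (centralizer_anti (le_J hA) hx)
    (ho ▸ pow_orderOf_eq_one x))


end Cfsg.Agent.S0605
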