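import Cfsg.Statements.S0612
import Cfsg.Agent.Loc.SFF

set_option autoImplicit false
open Cfsg

namespace Cfsg.Agent.S0612

/-- In such a faithful group every nontrivial best offender decomposes as a direct product of minimal nontrivially-acting best offenders. -/
theorem result {G : Type*} [Group G] [Finite G] {p : ℕ} [Fact p.Prime] (V H : Subgroup G) (hV : Cfsg.IsElementaryAbelian p V) (hHV : H ≤ Subgroup.normalizer (V : Set G)) (hf : H ⊓ Subgroup.centralizer (V : Set G) = ⊥) (hS1 : Subgroup.centralizer (Cfsg.pPrimeCore p ↥H : Set ↥H) ≤ Cfsg.pPrimeCore p ↥H) (hS3 : H = ⨆ A : {A : Subgroup G // A ≤ H ∧ Cfsg.IsBestOffenderOn p V A}, (A : Subgroup G)) (hH1 : H ≠ ⊥) (A : Subgroup G) (hAH : A ≤ H) (hA : Cfsg.IsBestOffenderOn p V A) (hA1 : A ≠ ⊥) : ∃ (k : ℕ) (B : Fin k → Subgroup G), (∀ i, B i ≤ A ∧ Cfsg.IsBestOffenderOn p V (B i) ∧ ⁅V, B i⁆ ≠ ⊥ ∧ ∀ C : Subgroup G, C ≤ B i → Cfsg.IsBestOffenderOn p V C → ⁅V, C⁆ ≠ ⊥ →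 C = B i) ∧ iSupIndep B ∧ ⨆ i, B i = A := by
  open Cfsg.Agent.Loc Subgroup in
  open scoped commutatorElement in
  classical
  have h := ffs_of hV hHV hf hS1
  have ex : ∃ k, ∃ B : Fin k → Subgroup G, (∀ i, B i ≤ A ∧ MinOff p V (B i)) ∧ ⨆ i, B i = A := by
    let e := Finite.equivFin {B : Subgroup G // B ≤ A ∧ MinOff p V B}
    refine ⟨_, fun i => (e.symm i : Subgroup G), fun i => (e.symm i).2, le_antisymm (iSup_le fun i => (e.symm i).2.1)
      (h.le_of_minOff hAH hA fun B h1 h2 => le_iSup_of_le (e ⟨B, h1, h2⟩) (by simp))⟩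
  obtain ⟨B, hB, e⟩ := Nat.find_spec ex
  refine ⟨_, B, hB, fun i => disjoint_iff.2 ?_, e⟩
  refine (eq_bot_or_eq_of_card (h.card_minOff ((hB i).1.trans hAH) (hB i).2) inf_le_left).resolve_right fun e' => ?_
  have hmin := fun m => Nat.find_min ex (m := m)
  generalize Nat.find ex = k at *
  obtain ⟨k, rfl⟩ : ∃ n, k = n + 1 := ⟨k - 1, by have := i.pos; omega⟩
  refine hmin k (Nat.lt_succ_self k) ⟨fun j => B (i.succAbove j), fun j => hB _, le_antisymm (iSup_le fun j => (hB _).1) ?_⟩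
  have key : ∀ j, j ≠ i → B j ≤ ⨆ j, B (i.succAbove j) := fun j hj => by
    obtain ⟨l, rfl⟩ := Fin.exists_succAbove_eq hj
    exact le_iSup (fun j => B (i.succAbove j)) l
  rw [← e]
  refine iSup_le fun j => ?_
  by_cases hj : j = i
  · exact hj ▸ (inf_eq_left.1 e').trans (iSup₂_le key)
  · exact key j hj

end Cfsg.Agent.S0612
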