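import Cfsg.Statements.S0615
import Cfsg.Agent.Loc.SFF2

set_option autoImplicit false
open Cfsg

namespace Cfsg.Agent.S0615

/-- Two subnormal subgroups acting irreducibly on their incomparable commutator modules, in a faithful group with trivial largest normal p-subgroup, generate their direct product, and the commutator module splits accordingly. -/
theorem result {G : Type*} [Group G] [Finite G] {p : ℕ} [Fact p.Prime] (V E E₁ E₂ : Subgroup G) (hV : Cfsg.IsElementaryAbelian p V) (hEV : E ≤ Subgroup.normalizer (V : Set G)) (hf : E ⊓ Subgroup.centralizer (V : Set G) = ⊥) (hgen : E = E₁ ⊔ E₂) (hs₁ : (E₁.subgroupOf E).IsSubnormal) (hs₂ : (E₂.subgroupOf E).IsSubnormal) (hOp : Cfsg.pCore p ↥E = ⊥) (hirr₁ : (∀ U : Subgroup G, U ≤ ⁅V, E₁⁆ → E₁ ≤ Subgroup.normalizer (U : Set G) → U = ⊥ ∨ U = ⁅V, E₁⁆)) (hirr₂ : (∀ U : Subgroup G,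 U ≤ ⁅V, E₂⁆ → E₂ ≤ Subgroup.normalizer (U : Set G) → U = ⊥ ∨ U = ⁅V, E₂⁆)) (h12 : ¬ ⁅V, E₁⁆ ≤ ⁅V, E₂⁆) (h21 : ¬ ⁅V, E₂⁆ ≤ ⁅V, E₁⁆) (hc₁ : 2 < Nat.card E₁) (hc₂ : 2 < Nat.card E₂) : ⁅E₁, E₂⁆ = ⊥ ∧ E₁ ⊓ E₂ = ⊥ ∧ ⁅V, E₁⁆ ⊓ ⁅V, E₂⁆ = ⊥ ∧ ⁅V, E⁆ = ⁅V, E₁⁆ ⊔ ⁅V, E₂⁆ := by
  open Cfsg.Agent.Loc Subgroup in
  open scoped commutatorElement in
  have hO := pCoreOf_eq_bot_iff.2 hOp
  have l₁ : E₁ ≤ E := hgen ▸ le_sup_left
  have l₂ : E₂ ≤ E := hgen ▸ le_sup_right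
  have s₁ : Sig.SubnIn E₁ E := ⟨l₁, hs₁⟩
  have s₂ : Sig.SubnIn E₂ E := ⟨l₂, hs₂⟩
  obtain ⟨a, b⟩ := prod_of_irred hV hEV hf hO hgen s₁ s₂ hirr₁ hirr₂ h12 h21 hc₁ hc₂
  refine ⟨commutator_eq_bot_of_faith hf l₁ l₂ a b, le_bot_iff.1 ?_, ?_, hgen ▸ commutator_sup_eq_of_comm (l₁.trans hEV) (l₂.trans hEV)⟩
  · rw [← faith_comm_of_subnIn hV hEV hf hO s₁]
    exact inf_le_inf_left _ (commutator_eq_bot_iff'.1 a)
  · exact (hirr₂ _ inf_le_right (le_normalizer_inf (le_normalizer_of_le_centralizer (commutator_eq_bot_iff'.1 a))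
      (le_normalizer_commutator (l₂.trans hEV) le_normalizer))).resolve_right fun e => h21 (e.ge.trans inf_le_left)

end Cfsg.Agent.S0615
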