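import Cfsg.Statements.S0617
import Cfsg.Agent.Loc.SFF3

set_option autoImplicit false
open Cfsg

namespace Cfsg.Agent.S0617

/-- Structure Theorem for failure of factorization: a faithful group generated by best offenders, with self-centralizing p'-core, is a direct product of copies of SL(2, p) (p = 2 or 3), each acting on its own plane in V, which is the direct product of these planes and C_V(H). -/
theorem result {G : Type*} [Group G] [Finite G] {p : ℕ} [Fact p.Prime] (V H : Subgroup G) (hV : Cfsg.IsElementaryAbelian p V) (hHV : H ≤ Subgroup.normalizer (V : Set G)) (hf : H ⊓ Subgroup.centralizer (V : Set G) = ⊥) (hS1 : Subgroup.centralizer (Cfsg.pPrimeCore p ↥H : Set ↥H) ≤ Cfsg.pPrimeCore p ↥H) (hS3 : H = ⨆ A : {A : Subgroup G // A ≤ H ∧ Cfsg.IsBestOffenderOn p V A}, (A : Subgroup G)) (hH1 : H ≠ ⊥) : (p = 2 ∨ p = 3) ∧ (∀ E : {E : Subgroup G // ∃ A : Subgroup G,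 A ≤ H ∧ Cfsg.IsBestOffenderOn p V A ∧ ⁅V, A⁆ ≠ ⊥ ∧ (∀ B : Subgroup G, B ≤ A → Cfsg.IsBestOffenderOn p V B → ⁅V, B⁆ ≠ ⊥ → B = A) ∧ E = ⁅((Cfsg.pPrimeCore p ↥H).map H.subtype), A⁆ ⊔ A}, H ≤ Subgroup.normalizer ((E : Subgroup G) : Set G) ∧ Nonempty (↥(E : Subgroup G) ≃* Matrix.SpecialLinearGroup (Fin 2) (ZMod p)) ∧ Nat.card ↥(⁅V, (E : Subgroup G)⁆) = p ^ 2) ∧ iSupIndep (fun E : {E : Subgroup G // ∃ A : Subgroup G, A ≤ H ∧ Cfsg.IsBestOffenderOn p V A ∧ ⁅V, A⁆ ≠ ⊥ ∧ (∀ B : Subgroup G, B ≤ A → Cfsg.IsBestOffenderOn p V B → ⁅V, B⁆ ≠ ⊥ → B = A) ∧ E = ⁅((Cfsg.pPrimeCore p ↥H).map H.subtype), A⁆ ⊔ A} => (E : Subgroup G)) ∧ (⨆ E : {E : Subgroup G // ∃ A : Subgroup G, A ≤ H ∧ Cfsg.IsBestOffenderOn p V A ∧ ⁅V, A⁆ ≠ ⊥ ∧ (∀ B : Subgroup G, B ≤ A → Cfsg.IsBestOffenderOn p V B → ⁅V, B⁆ ≠ ⊥ → B = A) ∧ E = ⁅((Cfsg.pPrimeCore p ↥H).map H.subtype), A⁆ ⊔ A}, (E : Subgroup G)) = H ∧ iSupIndep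 (fun o : Option {E : Subgroup G // ∃ A : Subgroup G, A ≤ H ∧ Cfsg.IsBestOffenderOn p V A ∧ ⁅V, A⁆ ≠ ⊥ ∧ (∀ B : Subgroup G, B ≤ A → Cfsg.IsBestOffenderOn p V B → ⁅V, B⁆ ≠ ⊥ → B = A) ∧ E = ⁅((Cfsg.pPrimeCore p ↥H).map H.subtype), A⁆ ⊔ A} => o.elim (V ⊓ Subgroup.centralizer (H : Set G)) (fun E => ⁅V, (E : Subgroup G)⁆)) ∧ (V ⊓ Subgroup.centralizer (H : Set G)) ⊔ (⨆ E : {E : Subgroup G // ∃ A : Subgroup G, A ≤ H ∧ Cfsg.IsBestOffenderOn p V A ∧ ⁅V, A⁆ ≠ ⊥ ∧ (∀ B : Subgroup G, B ≤ A → Cfsg.IsBestOffenderOn p V B → ⁅V, B⁆ ≠ ⊥ → B = A) ∧ E = ⁅((Cfsg.pPrimeCore p ↥H).map H.subtype), A⁆ ⊔ A}, ⁅V, (E : Subgroup G)⁆) = V := by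
  open Cfsg.Agent.Loc Subgroup in
  open scoped commutatorElement in
  have h := ffs_of hV hHV hf hS1
  have gen : ∀ X : Subgroup G, (∀ B ≤ H, MinOff p V B → B ≤ X) → H ≤ X := fun X hX =>
    hS3.le.trans (iSup_le fun B => h.le_of_minOff B.2.1 B.2.2 fun C h1 h2 => hX C (h1.trans B.2.1) h2)
  obtain ⟨A₀, hA₀, m₀⟩ : ∃ A ≤ H, MinOff p V A := by
    by_contra hcon
    push Not at hcon
    exact hH1 (le_bot_iff.1 (gen ⊥ fun B h1 h2 => absurd h2 (hcon B h1)))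
  set I := {E : Subgroup G // ∃ A : Subgroup G, A ≤ H ∧ IsBestOffenderOn p V A ∧ ⁅V, A⁆ ≠ ⊥ ∧ (∀ B : Subgroup G, B ≤ A →
    IsBestOffenderOn p V B → ⁅V, B⁆ ≠ ⊥ → B = A) ∧ E = ⁅((pPrimeCore p ↥H).map H.subtype), A⁆ ⊔ A} with hI
  have ex : ∀ E : I, ∃ A ≤ H, MinOff p V A ∧ E.1 = Eo p H A := fun ⟨_, A, h1, h2, h3, h4, h5⟩ => ⟨A, h1, ⟨h2, h3, h4⟩, h5⟩
  choose f f1 f2 f3 using ex
  have ns := fun E : I => f3 E ▸ h.main (f1 E) (f2 E)
  have ne : ∀ E E' : I, E' ≠ E → ⁅V, E.1⁆ ≤ centralizer (E'.1 : Set G) ∧ ⁅V, E'.1⁆ ≤ centralizer (E.1 : Set G) :=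
    fun E E' hne => by
      rw [f3 E, f3 E']
      exact ((h.dich (f1 E) (f2 E) (f1 E') (f2 E')).resolve_left fun e =>
        hne (Subtype.ext (by rw [f3 E, f3 E', e]))).imp_right And.left
  have top : H ≤ ⨆ E : I, E.1 := gen _ fun B h1 h2 =>
    le_iSup_of_le (f := fun E : I => E.1) ⟨_, B, h1, h2.1, h2.2.1, h2.2.2, rfl⟩ le_sup_right
  have EH : ∀ E : I, E.1 ≤ H := fun E => f3 E ▸ FFS.Eo_le (f1 E)
  refine ⟨(h.main hA₀ m₀).p23, fun E => ⟨?_, (ns E).iso, (ns E).cW⟩, fun E => disjoint_iff.2 (le_bot_iff.1 ?_),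
    le_antisymm (iSup_le EH) top, fun o => disjoint_iff.2 (le_bot_iff.1 ?_), le_antisymm (sup_le inf_le_left (iSup_le fun E => (ns E).Wle)) ?_⟩
  · rw [f3 E]
    exact hS3.le.trans (iSup_le fun B => h.best_le_norm (f1 E) (f2 E) B.2.1 B.2.2)
  · exact le_trans (inf_le_inf_left _ (iSup₂_le fun E' hne => le_centralizer_iff.1 (ne E E' hne).1)) (ns E).faith.le
  · rcases o with _ | E
    · refine le_trans (le_inf (inf_le_right.trans (iSup₂_le fun o ho => ?_)) (inf_le_left.trans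
        (inf_le_right.trans (centralizer_anti Sig.ppIn_le))))
        (commutator_inf_centralizer_eq_bot h.comm h.pg h.normF Sig.coprime_ppIn).le
      rcases o with _ | E
      · exact absurd rfl ho
      · exact (ns E).commQ.ge.trans (commutator_mono le_rfl (FFS.QF (f1 E)))
    · refine le_trans (inf_le_inf_left _ (iSup₂_le fun o ho => ?_)) (ns E).infE.le
      rcases o with _ | E'
      · exact inf_le_right.trans (centralizer_anti (EH E))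
      · exact (ne E E' fun e => ho (congrArg some e)).2
  · have hQ : (⨆ E : I, ⁅Sig.ppIn p H, f E⁆) ≤ Sig.ppIn p H := iSup_le fun E => FFS.QF (f1 E)
    refine (Solv.commutator_sup_inf_centralizer (hQ.trans h.normF) (Sig.coprime_of_isPGroup_of_coprime h.pg
      (Sig.coprime_card_of_le hQ Sig.coprime_ppIn)).symm (Or.inr (Sig.isSolvable_of_isPGroup h.pg))).ge.trans
      (sup_le (le_sup_of_le_right (comm_le_of_commKer (iSup_le fun E => le_commKer_of (iSup_le fun E => (ns E).Wle)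
        ((ns E).commQ.le.trans (le_iSup (fun E : I => ⁅V, E.1⁆) E))))) (le_sup_of_le_left (le_inf inf_le_left
        (le_centralizer_iff.1 (top.trans (iSup_le fun E => le_centralizer_iff.1 ((ns E).le_cent_of inf_le_left
          (inf_le_right.trans (centralizer_anti (le_iSup (fun E : I => ⁅Sig.ppIn p H, f E⁆) E))))))))))

end Cfsg.Agent.S0617
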