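import Cfsg.Statements.S0619
import Cfsg.Agent.Loc.SFF4

set_option autoImplicit false
open Cfsg

namespace Cfsg.Agent.S0619

/-- For a p-separable group and a normal elementary abelian p-subgroup V with no nontrivial normal p-subgroup modulo its centralizer C, the Thompson subgroup J(G) moves Ω₁(Z(J(C))) only inside V. -/
theorem result {G : Type*} [Group G] [Finite G] {p : ℕ} [Fact p.Prime] (hsep : Cfsg.IsPSolvable p G) (V : Subgroup G) [V.Normal] (hV : Cfsg.IsElementaryAbelian p V) (hO : Cfsg.pCore p (G ⧸ Subgroup.centralizer (V : Set G)) = ⊥) : ⁅Cfsg.omegaOne p (Cfsg.centerThompsonOf p (Subgroup.centralizer (V : Set G))), Cfsg.thompsonSubgroup p G⁆ ≤ V := by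
  open Cfsg.Agent.Loc Subgroup in
  open scoped commutatorElement in
  have h : UF p V ⊤ := ⟨hV, le_normalizer_of_normal, red_top_iff.2 hO, PLocal.pSolv_top.2 hsep⟩
  have hc := (isElementaryAbelian_iff.1 hV).1
  rw [commutator_comm, ← PLocal.J_top]
  refine (le_commKer_iff.1 (PLocal.J_le_iff.2 fun A hA => le_commKer_iff.2 ⟨le_normalizer_of_normal, ?_⟩)).2
  have h1 := PLocal.omega_ZJ_le (PLocal.mem_maxFam_of_le (h.mem_eaMax hA le_top le_top) le_top (sup_le inf_le_left hc))
  exact (commutator_mono le_rfl h1).trans (commutator_sup_right_le le_normalizer_of_normal le_normalizer_of_normal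
    (commutator_le_of_le_centralizer ((isElementaryAbelian_iff.1 hA.2.1).1.trans (centralizer_anti inf_le_right)) _)
    (commutator_le_right_of_le_normalizer le_normalizer_of_normal))

end Cfsg.Agent.S0619
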