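import Cfsg.Statements.S0621
import Cfsg.Agent.Loc.SFF4

set_option autoImplicit false
open Cfsg

namespace Cfsg.Agent.S0621

section helpers
open Cfsg.Agent.Loc Subgroup
open scoped commutatorElement

theorem uf {G : Type*} [Group G] [Finite G] {p : ℕ} [Fact p.Prime] {K : Subgroup G} (hsep : IsPSolvable p K)
    (hO : pPrimeCore p K = ⊥) : UF p ((PLocal.VZ p K).map K.subtype) K :=
  have h := uf_VZ hsep hO
  ⟨isElementaryAbelian_map _ h.ea, normal_map_subtype inferInstance,
    (isPReducedNormal_iff.1 (isPReducedNormal_iff_top.2 ⟨le_top, h.norm, h.ea, h.red⟩)).red, hsep⟩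

theorem best {G : Type*} [Group G] [Finite G] {p : ℕ} [Fact p.Prime] {K : Subgroup G} {V A : Subgroup K}
    (hV : IsElementaryAbelian p V) (hA : A ∈ PLocal.eaMax p (⊤ : Subgroup K)) :
    IsBestOffenderOn p (V.map K.subtype) (A.map K.subtype) :=
  PLocal.bestOffender_of_mem_eaMax (H := K) (PLocal.image_subtype_eaMax K ▸ ⟨A, PLocal.eaMax_top (G := K) ▸ hA, rfl⟩)
    (map_subtype_le _) (isElementaryAbelian_map _ hV)

end helpers

/-- Let K be p-separable with O_p'(K) = 1, normalized by an elementary abelian q-group X for a prime q not dividing the order of K. If the Thompson factorization fails in K, then p is 2 or 3 and the fixed points of X contain a plane W of order p² and a subgroup inducing SL(2, p) on it. -/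
theorem result {G : Type*} [Group G] [Finite G] {p : ℕ} [Fact p.Prime] {q : ℕ} [Fact q.Prime] (K X : Subgroup G) (hXK : X ≤ Subgroup.normalizer (K : Set G)) (hX : Cfsg.IsElementaryAbelian q X) (hq : ¬ q ∣ Nat.card K) (hsep : Cfsg.IsPSolvable p ↥K) (hO : Cfsg.pPrimeCore p ↥K = ⊥) (hnf : ¬ Cfsg.IsThompsonFactorizable p ↥K) : (p = 2 ∨ p = 3) ∧ ∃ W D : Subgroup G, W ≤ K ⊓ Subgroup.centralizer (X : Set G) ∧ D ≤ K ⊓ Subgroup.centralizer (X : Set G) ∧ Cfsg.IsElementaryAbelian p W ∧ Nat.card W = p ^ 2 ∧ D ≤ Subgroup.normalizer (W : Set G) ∧ ∃ hn : ((Subgroup.centralizer (W : Set G)).subgroupOf D).Normal, Nonempty ((↥D ⧸ (Subgroup.centralizer (W : Set G)).subgroupOf D) ≃* Matrix.SpecialLinearGroup (Fin 2) (ZMod p)) := by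
  open Cfsg.Agent.Loc Subgroup in
  open scoped commutatorElement in
  have h := uf hsep hO
  obtain ⟨A, hA, hn⟩ := exists_eaMax_of_not_tf hO hnf
  obtain ⟨B, hB, hm⟩ := h.exists_minOff (map_subtype_le A) (best (uf_VZ hsep hO).ea hA) fun hle =>
    hn (by rw [← map_subtype_le_map_subtype, map_subtype_centralizer]; exact le_inf hle (map_subtype_le _))
  have hB' := hB.trans (bar_mono (map_subtype_le A))
  obtain ⟨W, D, h1, h2, h3, h4, ⟨φ, h5, h6⟩, -⟩ := h.coprime_op hB' hm (isPGroup_of_isElementaryAbelian hX)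
    (hXK.trans (normalizer_le_normalizer_map_subtype _)) hXK hq
  exact ⟨(h.ffs.main hB' hm).p23, W, D, h1.trans (inf_le_inf_right _ (map_subtype_le _)), h2,
    isElementaryAbelian_of_le h.ea (h1.trans inf_le_left), h3, h4, exists_quot_equiv h5 h6⟩

end Cfsg.Agent.S0621
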