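import Cfsg.Statements.S0620
import Cfsg.Agent.Loc.SFF4
import Cfsg.Agent.S0621

set_option autoImplicit false
open Cfsg

namespace Cfsg.Agent.S0620

/-- Under coprime action of an elementary abelian q-group X on a p-separable group K with trivial p'-core, K is generated by the normalizer of J(S), the centralizer of Ω₁(Z(S)) and the fixed points of X. -/
theorem result {G : Type*} [Group G] [Finite G] {p : ℕ} [Fact p.Prime] {q : ℕ} [Fact q.Prime] (K X : Subgroup G) (hXK : X ≤ Subgroup.normalizer (K : Set G)) (hX : Cfsg.IsElementaryAbelian q X) (hq : ¬ q ∣ Nat.card K) (hsep : Cfsg.IsPSolvable p ↥K) (hO : Cfsg.pPrimeCore p ↥K = ⊥) (S : Sylow p ↥K) : (Subgroup.normalizer (Cfsg.thompsonSubgroupOf p (S : Subgroup ↥K) : Set ↥K) ⊔ Subgroup.centralizer (Cfsg.omegaOne p ((S : Subgroup ↥K) ⊓ Subgroup.centralizer ((S : Subgroup ↥K) : Set ↥K)) : Set ↥K) ⊔ (Subgroup.centralizer (X : Set G)).subgroupOf K) = ⊤ := by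
  open Cfsg.Agent.Loc Subgroup in
  open scoped commutatorElement in
  have h := S0621.uf hsep hO
  set V := (PLocal.VZ p K).map K.subtype with hV
  set U := normalizer (thompsonSubgroupOf p (S : Subgroup K) : Set K) ⊔ centralizer (omegaOne p ((S : Subgroup K) ⊓
    centralizer ((S : Subgroup K) : Set K)) : Set K) ⊔ (centralizer (X : Set G)).subgroupOf K with hU
  have nU : U.map K.subtype ≤ normalizer (V : Set G) := (map_subtype_le _).trans h.norm
  have hSU : (S : Subgroup K) ≤ U := (le_normalizer.trans (PLocal.normalizer_le_normalizer_J p _)).trans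
    (le_sup_left.trans le_sup_left)
  have hJ : (thompsonSubgroup p K).map K.subtype ≤ normalizer (V : Set G) := (map_subtype_le _).trans h.norm
  have best : ∀ A ∈ PLocal.eaMax p (⊤ : Subgroup K), IsBestOffenderOn p (til V V) (bar V (A.map K.subtype)) :=
    fun A hA => best_bar ((map_subtype_le _).trans h.norm) (S0621.best (uf_VZ hsep hO).ea hA)
  have key : ∀ A ∈ PLocal.eaMax p (⊤ : Subgroup K), bar V (A.map K.subtype) ≤ bar V (U.map K.subtype) := fun A hA => by
    refine h.ffs.le_of_minOff (bar_mono (map_subtype_le _)) (best A hA) fun B hB hm => ?_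
    have hB' := hB.trans (bar_mono (map_subtype_le A))
    obtain ⟨-, D, -, h2, -, -, -, h3⟩ := h.coprime_op hB' hm (isPGroup_of_isElementaryAbelian hX)
      (hXK.trans (normalizer_le_normalizer_map_subtype _)) hXK hq
    have hBJ : B ≤ bar V ((thompsonSubgroup p K).map K.subtype) :=
      hB.trans (bar_mono (map_mono (PLocal.J_top p K ▸ PLocal.le_J hA)))
    have nJ := bar_le_normalizer (V := V) (normal_map_subtype (inferInstance : (thompsonSubgroup p K).Normal))
    have s1 := ((sylIn_bar (sylIn_map_subtype S) h.norm).inf_normal' (bar_mono (map_subtype_le _)) nJ).inf_normal'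
      (comm_sup_le_of_cj fun x hx => cj_le_of_mem_normalizer (nJ (Sig.ppIn_le hx)) hBJ) (N := Eo p (bar V K) B) (by
        rw [← le_pre_iff hJ, ← PLocal.J_top, map_le_iff_le_comap, PLocal.J_le_iff]
        exact fun A' hA' => map_le_iff_le_comap.1 ((le_pre_iff ((map_subtype_le _).trans h.norm)).2
          (h.ffs.best_le_norm hB' hm (bar_mono (map_subtype_le _)) (best A' hA'))))
    obtain ⟨e, he, h4⟩ := s1.exists_le_conj le_sup_right (h.ffs.pg_minOff hB' hm)
    obtain ⟨d, hd, h5⟩ := h3 e he
    rw [← mul_inv_cancel_left d e, ← cj_cj, cj_eq_of_mem_centralizer (centralizer_anti inf_le_right h5)] at h4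
    refine h4.trans (cj_le_of_mem (bar_mono (fun x hx => ?_) hd) (inf_le_left.trans (inf_le_left.trans
      (bar_mono (map_mono hSU)))))
    exact ⟨⟨x, (h2 hx).1⟩, mem_sup_right (h2 hx).2, rfl⟩
  have hJU : thompsonSubgroup p K ≤ U := by
    rw [← PLocal.J_top, PLocal.J_le_iff]
    refine fun A hA => map_subtype_le_map_subtype.1 ((le_inf (sup_comm (U.map K.subtype) _ ▸
      (bar_le_bar_iff ((map_subtype_le _).trans h.norm) nU).1 (key A hA)) (map_subtype_le _)).trans ?_)
    rw [sup_inf_of_le_right (le_normalizer_centralizer nU) (map_subtype_le _), ← map_subtype_centralizer]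
    exact sup_le (map_mono ((centralizer_anti (PLocal.OZ_le_VZ S)).trans (le_sup_right.trans le_sup_left))) le_rfl
  refine eq_top_iff.2 fun g _ => ?_
  obtain ⟨c, hc, n, hn, rfl⟩ := PLocal.exists_mul_normalizer_J S (PLocal.J_le_thompson S) g
  exact mul_mem (hJU hc) (mem_sup_left (mem_sup_left hn))

end Cfsg.Agent.S0620
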