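import Cfsg.Statements.S0626
import Cfsg.Agent.PLocal.Stable
-- import your own Cfsg.Agent.* helpers here

set_option autoImplicit false
open Cfsg

namespace Cfsg.Agent.S0626


open Subgroup Cfsg Cfsg.Agent.Loc Cfsg.Agent.PLocal
open scoped commutatorElement

/-- For odd p, groups whose Sylow 2-subgroups are abelian are p-stable in the action sense. -/
theorem result {G : Type*} [Group G] [Finite G] {p : ℕ} [Fact p.Prime] (hp : p ≠ 2) (hab : ∀ T : Sylow 2 G, IsMulCommutative T) : Cfsg.IsActionPStable p G := by
  refine isActionPStable_of_not_quadIn (not_quadIn_of_abelian_two hp fun Q _ hQ => ?_)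
  obtain ⟨T, hT⟩ := hQ.exists_le_sylow
  exact isMulCommutative_of_le (hab T) hT


end Cfsg.Agent.S0626
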