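import Cfsg.Statements.S0627
import Cfsg.Agent.PLocal.Stable
import Cfsg.Agent.S0625
-- import your own Cfsg.Agent.* helpers here

set_option autoImplicit false
open Cfsg

namespace Cfsg.Agent.S0627


open Subgroup Cfsg Cfsg.Agent.Loc Cfsg.Agent.PLocal
open scoped commutatorElement

/-- In a p-separable group with p at least 5, the normalizer of W(S) supplements the largest normal subgroup of order prime to p. -/
theorem result {G : Type*} [Group G] [Finite G] {p : ℕ} [Fact p.Prime] (hp : 5 ≤ p) (hsep : Cfsg.IsPSolvable p G) (S : Sylow p G) : Cfsg.pPrimeCore p G ⊔ Subgroup.normalizer (((Cfsg.stableNormalClosure p ↥(S : Subgroup G)).map (S : Subgroup G).subtype) : Set G) = ⊤ := by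
  have hf := QuotientGroup.mk'_surjective (pPrimeCore p G)
  have hk : (Nat.card (QuotientGroup.mk' (pPrimeCore p G)).ker).Coprime p := by
    rw [QuotientGroup.ker_mk']; exact coprime_pPrimeCore p G
  have h1 := WOf_normal (S0625.result hp (pSolv_quotient hsep (pPrimeCore p G)))
    (centralizer_pCore_le_of_pSolv (pSolv_quotient hsep _) (pPrimeCore_quotient_pPrimeCore p G))
    (S.mapSurjective hf)
  rw [Sylow.coe_mapSurjective, ← map_WOf (inf_ker_eq_bot_of_coprime hk S.2), ← normalizer_eq_top_iff,
    normalizer_map_of_coprime hf hk (S.2.to_le (WOf_le _ _))] at h1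
  have := congrArg (comap (QuotientGroup.mk' (pPrimeCore p G))) h1
  rwa [comap_map_eq, QuotientGroup.ker_mk', comap_top, sup_comm] at this


end Cfsg.Agent.S0627
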