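import Cfsg.Statements.S0628
import Cfsg.Agent.PLocal.Npc
-- import your own Cfsg.Agent.* helpers here

set_option autoImplicit false
open Cfsg

namespace Cfsg.Agent.S0628


open Subgroup Cfsg Cfsg.Agent.Transfer Cfsg.Agent.BG Cfsg.Agent.PLocal Pointwise
open scoped commutatorElement

/-- The normal p-complement Theorem of Thompson in the form with W(S): for odd p, G has a normal p-complement as soon as the normalizer of the characteristic subgroup W(S) of a Sylow p-subgroup S has one. -/
theorem result {G : Type*} [Group G] [Finite G] {p : ℕ} [Fact p.Prime] (hp : p ≠ 2) (S : Sylow p G) (hN : Cfsg.HasNormalPComplement p ↥(Subgroup.normalizer (((Cfsg.stableNormalClosure p ↥(S : Subgroup G)).map (S : Subgroup G).subtype) : Set G))) : Cfsg.HasNormalPComplement p G := by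
  refine npc_of_stable (W := fun Q _ => stableNormalClosure p Q) hp
    ⟨fun Q _ _ hQ _ => ?_, fun Q R _ _ _ _ e => map_W e⟩ (fun K R _ hc h T => ?_)
    (isSylowIn_top S) hN
  · beta_reduce
    rw [← WOf_top]
    exact WOf_ne_bot (hQ.to_subgroup ⊤) top_ne_bot
  · exact WOf_normal (isActionPStable_of_stableOn
      (fun H P hP hH => (h _ (involves_self _)).stableOn hP hH)
      fun N _ V _ hV => (h _ (involves_quot N)).normal V hV) hc T


end Cfsg.Agent.S0628
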