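import Cfsg.Statements.S0629
import Cfsg.Agent.PLocal.PSolv
-- import your own Cfsg.Agent.* helpers here

set_option autoImplicit false
open Cfsg

namespace Cfsg.Agent.S0629


open Subgroup Cfsg Cfsg.Agent.Loc Cfsg.Agent.PLocal
open scoped commutatorElement

/-- A group in which the centralizer of a Sylow p-subgroup of O_{p',p}(G) is p-solvable is p-constrained. -/
theorem result {G : Type*} [Group G] [Finite G] {p : ℕ} [Fact p.Prime] (P : Sylow p ↥(Cfsg.pPrimePCore p G)) (hsol : Cfsg.IsPSolvable p ↥(Subgroup.centralizer (((P : Subgroup ↥(Cfsg.pPrimePCore p G)).map (Cfsg.pPrimePCore p G).subtype : Subgroup G) : Set G))) : Cfsg.IsPConstrained p G := by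
  have hf := QuotientGroup.mk'_surjective (pPrimeCore p G)
  have hk := QuotientGroup.ker_mk' (pPrimeCore p G)
  refine isPConstrained_iff.2 (le_pCore_of_le_centralizer (pPrimeCore_quotient_pPrimeCore p G) le_rfl ?_)
  rw [← map_sylIn_pPrimePCore hf hk (sylIn_map_subtype P),
    centralizer_map_of_coprime hf (hk.symm ▸ coprime_pPrimeCore p G) (sylIn_map_subtype P).pg]
  exact pSolv_map hsol _


end Cfsg.Agent.S0629
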