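import Cfsg.Statements.S0633
import Cfsg.Agent.Sig.HH3

set_option autoImplicit false
open Cfsg

namespace Cfsg.Agent.S0633

open Subgroup Cfsg.Agent.BG Cfsg.Agent.Sig

/-- Theorem B of Hall and Higman on the minimal polynomial of a p-element of order p^n in a p-solvable linear group on a nonzero vector space in characteristic p with no nontrivial normal p-subgroup: its degree is p^n, except when some p^n₀ - 1 (n₀ ≤ n) is a power of a prime q for which the Sylow q-subgroups are non-abelian, in which case the degree is at least p^(n-n₀)(p^n₀ - 1). -/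
theorem result {F : Type*} [Field F] {p : ℕ} [Fact p.Prime] [CharP F p] {V : Type*} [AddCommGroup V] [Module F V] [FiniteDimensional F V] [Nontrivial V] (H : Subgroup (V ≃ₗ[F] V)) [Finite H] (hsol : Cfsg.IsPSolvable p H) (hOp : Cfsg.pCore p H = ⊥) (x : V ≃ₗ[F] V) (hx : x ∈ H) (n : ℕ) (hn : orderOf x = p ^ n) (r : ℕ) (hr : minpoly F (x : Module.End F V) = (Polynomial.X - 1) ^ r) : r = p ^ n ∨ ∃ n₀ q m : ℕ, 1 ≤ n₀ ∧ n₀ ≤ n ∧ q.Prime ∧ 1 ≤ m ∧ p ^ n₀ - 1 = q ^ m ∧ (∀ Q : Sylow q H, ¬ IsMulCommutative Q) ∧ p ^ (n - n₀) * (p ^ n₀ - 1) ≤ r := by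
  have hp : p.Prime := Fact.out
  let ρ : H →* Module.End F V := LinearEquiv.automorphismGroup.toLinearMapMonoidHom.comp H.subtype
  have hρ : Function.Injective ρ := fun a b e => Subtype.ext (LinearEquiv.toLinearMap_injective e)
  have h1 : (⟨x, hx⟩ : H) ^ p ^ n = 1 := Subtype.ext (by rw [Subgroup.coe_pow, ← hn, pow_orderOf_eq_one]; rfl)
  have h2 : (ρ ⟨x, hx⟩ - 1) ^ r = 0 := by
    have := minpoly.aeval F (x : Module.End F V)
    rw [hr, map_pow, map_sub, Polynomial.aeval_X, map_one] at this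
    exact this
  have h3 : r ≤ p ^ n := by
    have := minpoly.dvd F (x : Module.End F V) (p := (Polynomial.X - Polynomial.C 1) ^ p ^ n) (by
      simp only [map_pow, map_sub, Polynomial.aeval_X, map_one]
      rw [HH.sub_one_pow (K := F), sub_eq_zero]
      exact (map_pow ρ ⟨x, hx⟩ _).symm.trans (by rw [h1, map_one]))
    rw [hr, ← Polynomial.C_1] at this
    simpa only [Polynomial.natDegree_pow, Polynomial.natDegree_X_sub_C, mul_one] using
      Polynomial.natDegree_le_of_dvd this (pow_ne_zero _ (Polynomial.X_sub_C_ne_zero 1))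
  refine or_iff_not_imp_left.2 fun ne => ?_
  obtain _ | n := n
  · obtain rfl : r = 0 := by rw [pow_zero] at h3 ne; omega
    exact absurd h2 (by simp)
  obtain ⟨k, h4, h5, h6, h7⟩ := HH.thmB hsol hOp hρ h1 (fun e => (Nat.pow_lt_pow_right hp.one_lt n.lt_succ_self).not_ge
    (Nat.le_of_dvd (pow_pos hp.pos n) (hn ▸ orderOf_dvd_of_pow_eq_one (congrArg Subtype.val e)))) h2 (h3.lt_of_ne ne)
  obtain ⟨q, m, k1, k2, k3, -, k4⟩ := h7.sylow
  exact ⟨k, q, m, h4, h5, k1, k2, k3, k4, h6⟩

end Cfsg.Agent.S0633
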