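import Cfsg.Statements.S0640
import Cfsg.Agent.BG4.Rows
import Cfsg.Agent.Transfer.Hol
import Mathlib.Tactic.Group

set_option autoImplicit false
open Cfsg

namespace Cfsg.Agent.S0640
open scoped commutatorElement

open Cfsg.Agent.BG Cfsg.Agent.BG4 Subgroup
open Cfsg.Agent.Transfer

/-- For odd p, a prime q ≠ p dividing the order of the automorphism group of a p-group of rank at most 2 divides p² - 1 and is less than p. -/
theorem result {R : Type*} [Group R] [Finite R] {p : ℕ} [Fact p.Prime] (hp : p ≠ 2) (hR : IsPGroup p R) (hrk : Cfsg.PRankLE p 2 R) (q : ℕ) (hq : q.Prime) (hqp : q ≠ p) (hdvd : q ∣ Nat.card (MulAut R)) : q ∣ p ^ 2 - 1 ∧ q < p := by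
  let φ := MonoidHom.id (MulAut R)
  have pR : IsPGroup p (sdL φ ⊤) := isPGroup_sdL φ (hR.of_equiv topEquiv.symm)
  have h0 : sdR φ ⊤ ⊓ C[sdL φ ⊤] = ⊥ := by
    refine (eq_bot_iff_forall _).mpr ?_
    rintro _ ⟨⟨a, -, rfl⟩, h⟩
    have : a = 1 := MulEquiv.ext fun x => (inr_mul_inl_eq_iff φ).mp (mem_cent.mp h _ ((inl_mem_sdL φ).mpr trivial)).symm
    rw [this, map_one]
  have hi : C[sdL φ ⊤].relIndex (sdR φ ⊤) = Nat.card (MulAut R) := by
    rw [← card_top, ← card_sdR φ, ← card_inf_mul_relIndex C[sdL φ ⊤], inf_comm, h0, card_bot, one_mul]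
  have h := pi_Aut_rank2_pgroup pR (odd_of_ne_two pR hp)
    ((p_rank_map_inj SemidirectProduct.inl_injective p ⊤).le.trans ((pRankLE_top Fact.out).mp hrk))
    (sdR_le_normalizer_top φ ⊤) hq (hi ▸ hdvd) hqp
  exact ⟨h.1, h.2.1⟩

end Cfsg.Agent.S0640
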