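import Cfsg.Statements.S0641
import Cfsg.Agent.PLocal.Thompson
-- import your own Cfsg.Agent.* helpers here

set_option autoImplicit false
open Cfsg

namespace Cfsg.Agent.S0641


open Subgroup Cfsg Cfsg.Agent.Loc Cfsg.Agent.PLocal
open scoped commutatorElement

/-- Regularity of a p-group passes to quotient groups. -/
theorem result {G : Type*} [Group G] {p : ℕ} [Fact p.Prime] (hG : Cfsg.IsRegularPGroup p G) (N : Subgroup G) [N.Normal] : Cfsg.IsRegularPGroup p (G ⧸ N) := by
  refine ⟨hG.1.to_quotient N, fun a b n => ?_⟩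
  obtain ⟨a, rfl⟩ := QuotientGroup.mk'_surjective N a
  obtain ⟨b, rfl⟩ := QuotientGroup.mk'_surjective N b
  obtain ⟨c, hc, he⟩ := hG.2 a b n
  refine ⟨QuotientGroup.mk' N c, ?_, by rw [← map_mul, ← map_pow, he]; simp only [map_mul, map_pow]⟩
  have h1 : closure ({QuotientGroup.mk' N a, QuotientGroup.mk' N b} : Set (G ⧸ N)) =
      (closure ({a, b} : Set G)).map (QuotientGroup.mk' N) := by
    rw [MonoidHom.map_closure, Set.image_pair]
  rw [h1, ← map_commutator]
  refine closure_induction (p := fun c _ => QuotientGroup.mk' N c ∈ powerClosure p n _) ?_ ?_ ?_ ?_ hc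
  · rintro _ ⟨x, hx, rfl⟩
    exact subset_closure ⟨_, mem_map_of_mem _ hx, map_pow _ _ _⟩
  · rw [map_one]; exact one_mem _
  · intro x y _ _ hx hy; rw [map_mul]; exact mul_mem hx hy
  · intro x _ hx; rw [map_inv]; exact inv_mem hx


end Cfsg.Agent.S0641
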