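import Cfsg.Statements.S0642
import Cfsg.Agent.Gen2.Regular

set_option autoImplicit false
open Cfsg

namespace Cfsg.Agent.S0642

open Subgroup Cfsg.Agent.BG Cfsg.Agent.Gen2
open scoped commutatorElement

/-- Among finite 2-groups the regular ones are exactly the abelian ones. -/
theorem result {G : Type*} [Group G] [Finite G] (hG : IsPGroup 2 G) : Cfsg.IsRegularPGroup 2 G ↔ ∀ a b : G, a * b = b * a := by
  haveI : Fact (Nat.Prime 2) := ⟨Nat.prime_two⟩
  constructor
  · intro h a b
    obtain ⟨c, hc, he⟩ := (Reg.of_regular h).2 a b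
    set L := closure ({a, b} : Set G) with hL
    have hn : L ≤ normalizer (powerClosure 2 1 ⁅L, L⁆ : Set G) := (der_normal L).norm.trans (pc_norm _)
    have h1 : ⁅b⁻¹, a⁻¹⁆ ∈ powerClosure 2 1 ⁅L, L⁆ := by
      have e : ⁅b⁻¹, a⁻¹⁆ = b * c * b⁻¹ := by
        have : c = (a ^ 2 * b ^ 2)⁻¹ * (a * b) ^ 2 := by rw [he]; group
        rw [this, commutatorElement_def]; simp only [pow_two]; group
      rw [e]; exact conj_mem_of_norm (hn (right_mem_pair a b)) hc
    have hL' : closure ({b⁻¹, a⁻¹} : Set G) = L := by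
      refine le_antisymm (pair_le (L.inv_mem (right_mem_pair a b)) (L.inv_mem (left_mem_pair a b))) (pair_le ?_ ?_)
      · simpa using inv_mem (right_mem_pair b⁻¹ a⁻¹)
      · simpa using inv_mem (left_mem_pair b⁻¹ a⁻¹)
    have h2 := der_pair_le (hn (L.inv_mem (right_mem_pair a b))) (hn (L.inv_mem (left_mem_pair a b))) h1
    rw [hL'] at h2
    have h3 : ⁅L, L⁆ = ⊥ := by
      by_contra hne
      have h4 : powerClosure 2 1 ⁅L, L⁆ ≤ Phi ⁅L, L⁆ :=
        pc_le_iff.2 fun x hx => by simpa using ((Phi_min (hG.to_subgroup _)).1 le_rfl).2 x hx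
      exact (Phi_proper hne).not_ge (h2.trans h4)
    exact IsMulCommutative.comm (der1_eq_bot.1 h3) (left_mem_pair a b) (right_mem_pair a b)
  · intro h
    exact ⟨hG, fun a b n => ⟨1, one_mem _, by rw [mul_one, Commute.mul_pow (h a b)]⟩⟩

end Cfsg.Agent.S0642
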