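import Cfsg.Statements.S0644
import Cfsg.Agent.Gen2.Regular

set_option autoImplicit false
open Cfsg

namespace Cfsg.Agent.S0644

open Subgroup Cfsg.Agent.BG Cfsg.Agent.Gen2
open scoped commutatorElement

/-- In a regular p-group the p^n-th powers of the elements of any subgroup H form a subgroup, whose derived subgroup is contained in the subgroup generated by the p^n-th powers of elements of the derived subgroup of H. -/
theorem result {G : Type*} [Group G] [Finite G] {p : ℕ} [Fact p.Prime] (hG : Cfsg.IsRegularPGroup p G) (H : Subgroup G) (n : ℕ) : {y : G | ∃ x ∈ H, y = x ^ (p ^ n)} = (Cfsg.powerClosure p n H : Set G) ∧ ⁅Cfsg.powerClosure p n H, Cfsg.powerClosure p n H⁆ ≤ Cfsg.powerClosure p n ⁅H, H⁆ := by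
  have hr := Reg.of_regular hG
  refine ⟨Set.ext fun y => (hr.mem_pc n H y).symm, commutator_le.2 fun x hx y hy => ?_⟩
  obtain ⟨a, ha, rfl⟩ := (hr.mem_pc n H x).1 hx
  exact (hr.mod_pc n H ha (pc_le H hy)).2

end Cfsg.Agent.S0644
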