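import Cfsg.Statements.S0645
import Cfsg.Agent.PGrp.Cyclic
import Mathlib.Tactic.Group

set_option autoImplicit false
open Cfsg

namespace Cfsg.Agent.S0645
open scoped commutatorElement

open Cfsg.Agent.PGrp Subgroup

/-- Classification of p-groups with a cyclic maximal subgroup, odd p: a non-abelian one of order p^n has generators a of order p^(n-1) and b of order p, b outside the cyclic subgroup generated by a, with b a b⁻¹ = a^(1 + p^(n-2)). -/
theorem result {G : Type*} [Group G] [Finite G] {p : ℕ} [Fact p.Prime] (hp : p ≠ 2) (n : ℕ) (hn : 3 ≤ n) (hG : Nat.card G = p ^ n) (C : Subgroup G) (hC : IsCyclic C) (hCi : C.index = p) (hna : ∃ x y : G, x * y ≠ y * x) : ∃ a b : G, orderOf a = p ^ (n - 1) ∧ orderOf b = p ∧ b ∉ Subgroup.zpowers a ∧ b * a * b⁻¹ = a ^ (1 + p ^ (n - 2)) := by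
  have hp' : p.Prime := Fact.out
  have pG : IsPGroup p G := IsPGroup.of_card hG
  obtain ⟨a, rfl⟩ := (Subgroup.isCyclic_iff_exists_zpowers_eq_top C).mp hC
  have := normal_of_index_eq pG hCi
  obtain ⟨m, rfl⟩ : ∃ m, n = m + 3 := ⟨n - 3, by omega⟩
  have ha : orderOf a = p ^ (m + 2) := by
    have h := card_mul_index (zpowers a)
    rw [hCi, hG, Nat.card_zpowers, pow_succ] at h
    exact Nat.eq_of_mul_eq_mul_right hp'.pos h
  obtain ⟨x, hx⟩ : ∃ x, x ∉ zpowers a := by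
    by_contra! h
    rw [(eq_top_iff' _).mpr h, index_top] at hCi
    exact hp'.one_lt.ne hCi
  have hc : ¬ Commute x a := fun hc => by
    have h1 := isMulCommutative_sup_zpowers (A := zpowers a) (x := x)
      (mem_centralizer_iff.mpr (by rintro _ ⟨i, rfl⟩; exact (hc.zpow_right i).symm))
    rw [sup_zpowers_eq_top hCi hx] at h1
    obtain ⟨u, v, huv⟩ := hna
    exact huv (congrArg Subtype.val (h1.is_comm.comm ⟨u, trivial⟩ ⟨v, trivial⟩))
  obtain ⟨k, hk⟩ := exists_conj_eq_zpow (a := a) x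
  obtain ⟨⟨u, hu⟩, h2⟩ := modular_case hp' ha hk (pow_mem_of_index_eq hCi x) (fun h => absurd h hp)
  obtain ⟨i, hi⟩ := h2 hc
  have hy := zpow_mul_conj_eq hk i
  have hy' : a ^ i * x ∉ zpowers a := fun h => hx ((mul_mem_cancel_left (zpow_mem (mem_zpowers a) i)).mp h)
  set y := a ^ i * x
  simp only [Nat.add_one_sub_one] at hu
  have hpu : ¬ (p : ℤ) ∣ u := fun ⟨w, hw⟩ => hc ((commute_iff_dvd hk).mpr
    ⟨w, by rw [hu, hw, ha]; push_cast; ring⟩)
  obtain ⟨s, t, hst⟩ := isCoprime_pow_of_not_dvd hp' hpu 1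
  have hp0 : (p : ℤ) ≠ 0 := by exact_mod_cast hp'.ne_zero
  obtain ⟨j, hj⟩ := Int.eq_ofNat_of_zero_le (Int.emod_nonneg t hp0)
  have hju : (p : ℤ) ∣ j * u - 1 := by
    rw [← hj, Int.emod_def]
    exact ⟨-s - t / p * u, by linear_combination hst⟩
  have key : ∀ j : ℕ, (p : ℤ) ^ (m + 2) ∣ k ^ j - (1 + j * u * p ^ (m + 1)) := fun j => by
    induction j with
    | zero => simp
    | succ j ih =>
      obtain ⟨w, hw⟩ := ih
      refine ⟨w * k + j * u * u * p ^ m, ?_⟩
      rw [pow_succ, eq_add_of_sub_eq hw, eq_add_of_sub_eq hu]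
      push_cast; ring
  have hb : y ^ j ∉ zpowers a := fun h => by
    have h1 := dvd_of_zpow_mem hp' hy' (hi ▸ one_mem _) (i := j) (by simpa using h)
    have h3 := (dvd_sub_right (h1.mul_right u)).mp hju
    exact hp'.one_lt.ne' (by exact_mod_cast Int.eq_one_of_dvd_one (by positivity) h3)
  refine ⟨a, y ^ j, ha, orderOf_eq_prime (by rw [← pow_mul, mul_comm, pow_mul, hi, one_pow])
    (fun h => hb (h ▸ one_mem _)), hb, ?_⟩
  rw [pow_conj_eq hy, ← zpow_natCast, zpow_eq_zpow_iff_modEq, ha]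
  refine (Int.modEq_iff_dvd.mpr ?_).symm
  obtain ⟨w, hw⟩ := key j
  obtain ⟨v, hv⟩ := hju
  refine ⟨w + v, ?_⟩
  show _ - ((1 + p ^ (m + 1) : ℕ) : ℤ) = _
  rw [eq_add_of_sub_eq hw, eq_add_of_sub_eq hv]
  push_cast; ring

end Cfsg.Agent.S0645
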