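import Cfsg.Statements.S0646
import Cfsg.Agent.PGrp.MaxClass

set_option autoImplicit false
open Cfsg

namespace Cfsg.Agent.S0646

open Cfsg.Agent.PGrp Subgroup

/-- Classification of non-abelian 2-groups with a cyclic maximal subgroup: dihedral, generalized quaternion, and for order at least 16 the modular group and the semidihedral group, each given by generators a (of index 2) and b with the stated relations. -/
theorem result {G : Type*} [Group G] [Finite G] (n : ℕ) (hn : 3 ≤ n) (hG : Nat.card G = 2 ^ n) (C : Subgroup G) (hC : IsCyclic C) (hCi : C.index = 2) (hna : ∃ x y : G, x * y ≠ y * x) : ∃ a b : G, orderOf a = 2 ^ (n - 1) ∧ b ∉ Subgroup.zpowers a ∧ ((b ^ 2 = 1 ∧ b * a * b⁻¹ = a⁻¹) ∨ (b ^ 2 = a ^ (2 ^ (n - 2)) ∧ b * a * b⁻¹ = a⁻¹) ∨ (4 ≤ n ∧ b ^ 2 = 1 ∧ b * a * b⁻¹ = a ^ (1 + 2 ^ (n - 2))) ∨ (4 ≤ n ∧ b ^ 2 = 1 ∧ b * a * b⁻¹ = a ^ (2 ^ (n - 2) - 1))) := by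
  obtain ⟨a, rfl⟩ := (Subgroup.isCyclic_iff_exists_zpowers_eq_top C).mp hC
  obtain ⟨-, x, hx, hc⟩ := exists_not_commute hCi.dvd fun e => by
    obtain ⟨x, y, h⟩ := hna; exact h (e.is_comm.comm x y)
  have ha : orderOf a = 2 ^ (n - 1) := by
    have := (zpowers a).card_mul_index
    rw [Nat.card_zpowers, hCi, hG, show n = n - 1 + 1 by omega, pow_succ] at this
    omega
  rcases mc_or_modular ha hCi hx hc with ⟨y, hy⟩ | ⟨h3, y, hy, y2, hk⟩
  · refine ⟨a, y, ha, hy.nmem, ?_⟩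
    rcases hy.dqs with h | h | ⟨h0, h⟩
    · exact .inl h
    · exact .inr (.inl h)
    · exact .inr (.inr (.inr ⟨by omega, h⟩))
  · exact ⟨a, y, ha, hy, .inr (.inr (.inl ⟨by omega, y2, hk⟩))⟩

end Cfsg.Agent.S0646
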