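import Cfsg.Statements.S0657
import Cfsg.Agent.PLocal.Qd
-- import your own Cfsg.Agent.* helpers here

set_option autoImplicit false
open Cfsg

namespace Cfsg.Agent.S0657


open Subgroup Cfsg Cfsg.Agent.Loc Cfsg.Agent.PLocal
open scoped commutatorElement

/-- For odd p, a group that fails to be p-stable modulo its largest normal subgroup of order prime to p, and whose upper p-series does not stop there, has a section isomorphic to SL(2, p). -/
theorem result {G : Type*} [Group G] [Finite G] {p : ℕ} [Fact p.Prime] (hp : p ≠ 2) (hO : Cfsg.pPrimeCore p G < Cfsg.pPrimePCore p G) (hns : ¬ Cfsg.IsPStable p (G ⧸ Cfsg.pPrimeCore p G)) : ∃ (K L : Subgroup G) (hL : (L.subgroupOf K).Normal), K ≤ ⊤ ∧ Nonempty ((K ⧸ L.subgroupOf K) ≃* Matrix.SpecialLinearGroup (Fin 2) (ZMod p)) := by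
  rw [← involves_iff]
  by_contra h
  refine hns (isPStable_of_stableOn ((Fact.out : p.Prime).odd_of_ne_two hp) (fun h0 => hO.ne' ?_)
    (pPrimeCore_quotient_pPrimeCore p G) fun P _ hP => stableOn_of_not_involves_SL2 hp
      (fun h1 => h (PLocal.Involves.of_map (φ := QuotientGroup.mk' (pPrimeCore p G)) ?_)) hP le_normalizer_of_normal)
  · rw [pPrimePCore_eq_comap (QuotientGroup.mk'_surjective _) (QuotientGroup.ker_mk' _), h0,
      MonoidHom.comap_bot, QuotientGroup.ker_mk']
  · rwa [map_top_of_surjective _ (QuotientGroup.mk'_surjective _)]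


end Cfsg.Agent.S0657
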