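import Cfsg.Statements.S0658
import Cfsg.Agent.PLocal.ZJ
-- import your own Cfsg.Agent.* helpers here

set_option autoImplicit false
open Cfsg

namespace Cfsg.Agent.S0658


open Subgroup Cfsg Cfsg.Agent.Loc Cfsg.Agent.PLocal
open scoped commutatorElement

/-- In a group of characteristic p type all of whose p-locals are p-stable (p odd), the normalizer of Z(J(P)) contains the normalizer of every nontrivial subgroup of the Sylow p-subgroup P. -/
theorem result {G : Type*} [Group G] [Finite G] {p : ℕ} [Fact p.Prime] (hp : p ≠ 2) (hloc : ∀ Q : Subgroup G, IsPGroup p Q → Q ≠ ⊥ → Cfsg.pPrimeCore p ↥(Subgroup.normalizer (Q : Set G)) = ⊥ ∧ Cfsg.IsPConstrained p ↥(Subgroup.normalizer (Q : Set G)) ∧ Cfsg.IsPStable p ↥(Subgroup.normalizer (Q : Set G))) (P : Sylow p G) (Q : Subgroup G) (hQP : Q ≤ (P : Subgroup G)) (hQ1 : Q ≠ ⊥) : Subgroup.normalizer (Q : Set G) ≤ Subgroup.normalizer (Cfsg.centerThompsonAOf ((P : Subgroup G)) : Set G) := by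
  refine normalizer_le_of_local (W := fun H => centerThompsonAOf H) ZJA_le
    (fun R hR h => ZJA_ne_bot hR h) cj_ZJA (fun Q R hQ hQ1 hR => ?_) P hQP hQ1
  obtain ⟨h1, h2, h3⟩ := hloc Q hQ hQ1
  have := normal_map_subtype (ZJA_normal hp ((isPConstrained_iff_of_bot h1).1 h2)
    (fun B _ hB => IsPStable.stableOn h3 hB) hR.toSylow)
  rwa [map_ZJA (inf_ker_of_injective (subtype_injective _) _), hR.map_toSylow] at this


end Cfsg.Agent.S0658
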