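import Cfsg.Statements.S0661
import Cfsg.Agent.PLocal.PSolv
-- import your own Cfsg.Agent.* helpers here

set_option autoImplicit false
open Cfsg

namespace Cfsg.Agent.S0661


open Subgroup Cfsg Cfsg.Agent.Loc Cfsg.Agent.PLocal
open scoped commutatorElement

/-- If, modulo the largest normal subgroup of order prime to p, the largest normal p-subgroup contains its centralizer, then for every p-subgroup P the p'-core of N_G(P) is just O_p'(G) ∩ N_G(P). -/
theorem result {G : Type*} [Group G] [Finite G] {p : ℕ} [Fact p.Prime] (hc : Subgroup.centralizer (Cfsg.pCore p (G ⧸ Cfsg.pPrimeCore p G) : Set (G ⧸ Cfsg.pPrimeCore p G)) ≤ Cfsg.pCore p (G ⧸ Cfsg.pPrimeCore p G)) (P : Subgroup G) (hP : IsPGroup p P) : (Cfsg.pPrimeCore p ↥(Subgroup.normalizer (P : Set G))).map (Subgroup.normalizer (P : Set G)).subtype = Cfsg.pPrimeCore p G ⊓ Subgroup.normalizer (P : Set G) := by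
  have hf := QuotientGroup.mk'_surjective (pPrimeCore p G)
  have hk : (Nat.card (QuotientGroup.mk' (pPrimeCore p G)).ker).Coprime p := by
    rw [QuotientGroup.ker_mk']; exact coprime_pPrimeCore p G
  apply le_antisymm
  · refine le_inf ?_ (map_subtype_le _)
    have h1 := map_ppCoreOf_le (p := p) (QuotientGroup.mk' (pPrimeCore p G)) (normalizer (P : Set G))
    rw [← normalizer_map_of_coprime hf hk hP, ppCoreOf_eq_bot_iff.2
      (pPrimeCore_eq_bot_of_centralizer_le (charP_normalizer hc (hP.map _))), le_bot_iff,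
      Subgroup.map_eq_bot_iff, QuotientGroup.ker_mk'] at h1
    exact h1
  · exact Solv.pPrimeCore_inf_le_map _


end Cfsg.Agent.S0661
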