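import Cfsg.Statements.S0663
import Cfsg.Agent.Gen2.Uniserial

set_option autoImplicit false
open Cfsg

namespace Cfsg.Agent.S0663

open Subgroup Cfsg.Agent.BG Cfsg.Agent.Gen2

/-- A p-group acts uniserially on a p-group N of order p^n exactly when the iterated commutator chain from N has length n; in that case the chain terms are all the invariant subgroups of N and they are normal in N. -/
theorem result {L : Type*} [Group L] [Finite L] {p : ℕ} [Fact p.Prime] (N G : Subgroup L) (hN : IsPGroup p N) (hG : IsPGroup p G) (hGN : G ≤ Subgroup.normalizer (N : Set L)) (n : ℕ) (hn : Nat.card N = p ^ n) : ((∀ H : Subgroup L, H ≤ N → G ≤ Subgroup.normalizer (H : Set L) → H ≠ ⊥ → (⁅H, G⁆).relIndex H = p) ↔ Cfsg.iterCommutator N G (n - 1) ≠ ⊥ ∨ n = 0) ∧ ((∀ H : Subgroup L, H ≤ N → G ≤ Subgroup.normalizer (H : Set L) → H ≠ ⊥ → (⁅H, G⁆).relIndex H = p) → ∀ H : Subgroup L, H ≤ N → G ≤ Subgroup.normalizer (H : Set L) → (∃ i ≤ n, H = Cfsg.iterCommutator N G i) ∧ N ≤ Subgroup.normalizer (H : Set L)) := by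
  have hp : p.Prime := Fact.out
  have key : (∀ H : Subgroup L, H ≤ N → G ≤ Subgroup.normalizer (H : Set L) → H ≠ ⊥ → (⁅H, G⁆).relIndex H = p) →
      Cfsg.iterCommutator N G (n - 1) ≠ ⊥ ∨ n = 0 := by
    intro h
    rcases Nat.eq_zero_or_pos n with h0 | h0
    · exact Or.inr h0
    left
    have h1 : ∀ i ≤ n, Nat.card (Cfsg.iterCommutator N G i) = p ^ (n - i) := by
      intro i
      induction i with
      | zero => intro _; exact hn
      | succ i ih =>
        intro hi
        have h2 := ih (by omega)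
        have hne : Cfsg.iterCommutator N G i ≠ ⊥ := fun he => by
          rw [he, card_bot] at h2
          have h3 := Nat.pow_le_pow_right hp.pos (show 1 ≤ n - i by omega)
          have := hp.two_le
          rw [pow_one] at h3; omega
        have h3 := card_mul_relIndex (iterC_succ_le hGN i)
        have h4 : (Cfsg.iterCommutator N G (i + 1)).relIndex (Cfsg.iterCommutator N G i) = p :=
          h _ (iterC_le hGN i) (iterC_norm hGN i) hne
        rw [h4, h2, show n - i = (n - (i + 1)) + 1 by omega, pow_succ] at h3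
        exact Nat.eq_of_mul_eq_mul_right hp.pos h3
    intro he
    have := h1 (n - 1) (by omega)
    rw [he, card_bot, show n - (n - 1) = 1 by omega, pow_one] at this
    exact hp.one_lt.ne this
  refine ⟨⟨key, fun h H hH hGH hne => ?_⟩, fun h H hH hGH => ?_⟩
  · obtain ⟨i, hi, rfl⟩ := eq_iterC hN hG hGN hn h hH hGH
    refine iterC_relIndex hN hG hGN hn h (lt_of_le_of_ne hi fun he => hne ?_)
    rw [← card_eq_one_iff, iterC_card hN hG hGN hn h hi, he, Nat.sub_self, pow_zero]
  · obtain ⟨i, hi, rfl⟩ := eq_iterC hN hG hGN hn (key h) hH hGH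
    exact ⟨⟨i, hi, rfl⟩, iterC_normal hN hG hGN hn (key h) i hi⟩

end Cfsg.Agent.S0663
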