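import Cfsg.Statements.S0666
import Cfsg.Agent.Char.Frobenius
import Cfsg.Agent.BG.Base1

set_option autoImplicit false
open Cfsg

namespace Cfsg.Agent.S0666

open Subgroup BG Finset
open scoped IsMulCommutative

theorem aux {Γ W : Type*} [Group Γ] [Finite Γ] [CommGroup W] (φ : Γ →* MulAut W) {H N : Subgroup Γ}
    (hH : IsFrobeniusComplement H) (hN : (N : Set Γ) = frobeniusKernel H) (hc : IsComplement' N H)
    (h1 : ∀ w, (∀ g ∈ N, φ g w = w) → w = 1) (h2 : ∀ w, (∀ g ∈ H, φ g w = w) → w = 1) (w : W) : w ^ #N = 1 := by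
  classical
  have := Fintype.ofFinite Γ
  have tr : ∀ (S : Subgroup Γ) w, ∀ s ∈ S, φ s (∏ g : S, φ g w) = ∏ g : S, φ g w := fun S w s hs => by
    rw [map_prod, ← Equiv.prod_comp (Equiv.mulLeft (⟨s, hs⟩ : S)) fun g : S => φ g w]; simp
  have mN : ∀ x, x ∈ N ↔ x = 1 ∨ ∀ g, g⁻¹ * x * g ∉ H := fun x => by
    rw [← Frob.mem_frobeniusKernel, ← hN]; rfl
  have e1 : ∏ g with g ∉ N, φ g w = 1 := by
    have := prod_filter_mul_prod_filter_not univ (· ∈ N) fun g => φ g w
    rwa [prod_subtype (p := (· ∈ N)) _ (by simp), h1 _ (tr N w), one_mul,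
      prod_subtype (p := (· ∈ (⊤ : Subgroup Γ))) univ (by simp), h1 _ fun g _ => tr ⊤ w g trivial] at this
  have e2 : ∏ x : N × H, φ (x.1 * x.2 * x.1⁻¹) w = 1 := by
    rw [Fintype.prod_prod_type]
    exact prod_eq_one fun k _ => by simpa using congrArg (φ k) (h2 _ (tr H (φ k⁻¹ w)))
  rw [← prod_filter_mul_prod_filter_not univ (·.2 = 1), prod_bij (t := {g | g ∉ N}) (g := fun g => φ g w)
    (s := {x : N × H | ¬ x.2 = 1}) (fun x _ => x.1 * x.2 * x.1⁻¹) ?_ ?_ ?_ (fun _ _ => rfl), e1, mul_one,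
    prod_congr rfl (g := fun _ => w) fun x hx => by simp [(mem_filter.1 hx).2], prod_const] at e2
  · rw [← e2, Nat.card_eq_fintype_card, ← card_univ]
    congr 1
    exact card_bij (fun k _ => (k, 1)) (by simp) (by simp) (by simp)
  · simp only [mem_filter, mem_univ, true_and, mN, not_or]
    exact fun x hx => ⟨by simpa using hx, fun r => r x.1 (by simp [mul_assoc])⟩
  · rintro ⟨k, h⟩ hx ⟨k', h'⟩ - e
    have : (k : Γ)⁻¹ * k' ∈ H := Frob.mem_of_conj_mem hH h.2 (by simpa using hx) (by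
      have e : (k : Γ) * h * (k : Γ)⁻¹ = k' * h' * (k' : Γ)⁻¹ := e
      rw [show ((k : Γ)⁻¹ * k')⁻¹ * h * ((k : Γ)⁻¹ * k') = (k' : Γ)⁻¹ * (k * h * (k : Γ)⁻¹) * k' by group, e]
      simp [mul_assoc])
    obtain rfl : k = k' := Subtype.ext (inv_mul_eq_one.1 (hc.disjoint.le_bot ⟨N.mul_mem (N.inv_mem k.2) k'.2, this⟩))
    simpa using e
  · intro x hx
    simp only [mem_filter, mem_univ, true_and, mN, not_or, not_forall, not_not] at hx ⊢
    obtain ⟨x1, g, hg⟩ := hx
    obtain ⟨⟨k, h⟩, rfl⟩ := hc.2 g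
    exact ⟨⟨k, h * ⟨_, hg⟩ * h⁻¹⟩, fun r => x1 (by simpa [Subtype.ext_iff, inv_mul_eq_one, mul_assoc] using r),
      by simp [mul_assoc]⟩

/-- A Frobenius group acting on a nontrivial abelian group of order prime to that of its kernel, with the kernel acting without nontrivial fixed points, has a complement with a nontrivial fixed point. -/
theorem result {G : Type*} [Group G] [Finite G] (V F : Subgroup G) (hVab : IsMulCommutative V) (hV1 : V ≠ ⊥) (hFV : F ≤ Subgroup.normalizer (V : Set G)) (H : Subgroup ↥F) (hH : Cfsg.IsFrobeniusComplement H) (hcop : (Nat.card V).Coprime (Nat.card (Cfsg.frobeniusKernel H))) (hCK : V ⊓ Subgroup.centralizer (Subtype.val '' Cfsg.frobeniusKernel H : Set G) = ⊥) : V ⊓ Subgroup.centralizer ((H.map F.subtype : Subgroup G) : Set G) ≠ ⊥ := by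
  obtain ⟨N, hN, -, hc⟩ := Char.exists_frobenius_kernel hH
  let φ : F →* MulAut V := V.normalizerMonoidHom.comp (inclusion hFV)
  have k : ∀ (g : F) (w : V), φ g w = w → (g : G) * w = w * g := fun g w e =>
    mul_inv_eq_iff_eq_mul.1 (congrArg Subtype.val e)
  refine fun h => hV1 (eq_bot_iff.2 fun v hv => ?_)
  have := aux φ hH hN hc (fun w r => Subtype.ext (hCK.le ⟨w.2, ?_⟩)) (fun w r => Subtype.ext (h.le ⟨w.2, ?_⟩)) ⟨v, hv⟩
  · rw [← hN] at hcop
    exact congrArg Subtype.val (orderOf_eq_one_iff.1 (Nat.eq_one_of_dvd_coprimes hcop (orderOf_dvd_natCard _)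
      (orderOf_dvd_of_pow_eq_one this)))
  · rintro _ ⟨g, hg, rfl⟩
    exact k g w (r g (hN.ge hg))
  · rintro _ ⟨g, hg, rfl⟩
    exact k g w (r g hg)

end Cfsg.Agent.S0666
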