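import Cfsg.Statements.S0667
import Cfsg.Agent.PLocal.ZJ
-- import your own Cfsg.Agent.* helpers here

set_option autoImplicit false
open Cfsg

namespace Cfsg.Agent.S0667


open Subgroup Cfsg Cfsg.Agent.Loc Cfsg.Agent.PLocal
open scoped commutatorElement

/-- Glauberman's Theorem in the p-constrained, p-stable vocabulary: for odd p such a group is the product of its largest normal subgroup of order prime to p with the normalizer of Z(J(P)), and Z(J(P)) is normal when that p'-subgroup is trivial. -/
theorem result {G : Type*} [Group G] [Finite G] {p : ℕ} [Fact p.Prime] (hp : p ≠ 2) (hc : Cfsg.IsPConstrained p G) (hs : Cfsg.IsPStable p G) (P : Sylow p G) : Cfsg.pPrimeCore p G ⊔ Subgroup.normalizer (Cfsg.centerThompsonAOf ((P : Subgroup G)) : Set G) = ⊤ ∧ (Cfsg.pPrimeCore p G = ⊥ → (Cfsg.centerThompsonAOf ((P : Subgroup G))).Normal) := by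
  refine ⟨?_, fun h => ZJA_normal hp ((isPConstrained_iff_of_bot h).1 hc)
    (fun B _ hB => IsPStable.stableOn hs hB) P⟩
  have hf := QuotientGroup.mk'_surjective (pPrimeCore p G)
  have hk : (Nat.card (QuotientGroup.mk' (pPrimeCore p G)).ker).Coprime p := by
    rw [QuotientGroup.ker_mk']; exact coprime_pPrimeCore p G
  have h1 := ZJA_normal hp (isPConstrained_iff.1 hc)
    (fun B _ hB => IsPStable.stableOn ((isPStable_iff_quotient hs.2.1).1 hs) hB) (P.mapSurjective hf)
  rw [Sylow.coe_mapSurjective, ← map_ZJA (inf_ker_eq_bot_of_coprime hk P.2), ← normalizer_eq_top_iff,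
    normalizer_map_of_coprime hf hk (P.2.to_le (ZJA_le _))] at h1
  rw [sup_comm, ← Solv.comap_map_mk', h1, comap_top]


end Cfsg.Agent.S0667
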