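import Cfsg.Statements.S0668
import Mathlib.LinearAlgebra.Dimension.Constructions
import Mathlib.LinearAlgebra.Pi
import Mathlib.LinearAlgebra.StdBasis

set_option autoImplicit false
open Cfsg

namespace Cfsg.Agent.S0668

open MulAction

theorem permRep_single {G : Type*} [Group G] {K : Type*} [Field K] {Ω : Type*} [DecidableEq Ω]
    [MulAction G Ω] (g : G) (x : Ω) :
    Cfsg.permRep K G Ω g (Pi.single x 1) = Pi.single (g • x) 1 := by
  funext y
  change (Pi.single x (1 : K) : Ω → K) (g⁻¹ • y) = _
  simp only [Pi.single_apply, inv_smul_eq_iff]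

/-- The equivariant linear maps between the permutation modules of two finite `G`-sets form a space whose dimension is the number of `G`-orbits on the product of the two sets. -/
theorem result {G : Type*} [Group G] {K : Type*} [Field K] {Ω₁ Ω₂ : Type*} [Fintype Ω₁] [Fintype Ω₂] [MulAction G Ω₁] [MulAction G Ω₂] : Module.finrank K ((Cfsg.permRep K G Ω₁).linHom (Cfsg.permRep K G Ω₂)).invariants = Nat.card (MulAction.orbitRel.Quotient G (Ω₁ × Ω₂)) := by
  classical
  let Q := orbitRel.Quotient G (Ω₁ × Ω₂)
  let M : (Q → K) →ₗ[K] ((Ω₁ → K) →ₗ[K] (Ω₂ → K)) :=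
    { toFun := fun c => 
        { toFun := fun f y => ∑ x, c (Quotient.mk'' (x, y)) * f x
          map_add' := fun f₁ f₂ => by funext y; simp [mul_add, Finset.sum_add_distrib]
          map_smul' := fun r f => by funext y; simp [Finset.mul_sum, mul_left_comm] }
      map_add' := fun c₁ c₂ => by refine LinearMap.ext fun f => ?_; funext y; simp [add_mul, Finset.sum_add_distrib]
      map_smul' := fun r c => by refine LinearMap.ext fun f => ?_; funext y; simp [Finset.mul_sum, mul_assoc] }
  have hM : ∀ c x y, M c (Pi.single x 1) y = c (Quotient.mk'' (x, y)) := by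
    intro c x y
    simp [M, Pi.single_apply]
  have hinj : Function.Injective M := by
    intro c₁ c₂ h
    funext q
    refine Quotient.inductionOn' q fun ⟨x, y⟩ => ?_
    rw [← hM c₁, ← hM c₂, h]
  have hmem : ∀ T : (Ω₁ → K) →ₗ[K] (Ω₂ → K),
      T ∈ ((Cfsg.permRep K G Ω₁).linHom (Cfsg.permRep K G Ω₂)).invariants ↔
        ∀ (g : G) x y, T (Pi.single (g • x) 1) (g • y) = T (Pi.single x 1) y := by
    intro T
    rw [Representation.mem_invariants]
    constructor
    · intro h g x y
      have := congrFun (LinearMap.congr_fun (h g⁻¹) (Pi.single x 1)) y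
      rw [← this, Representation.linHom_apply]
      simp only [LinearMap.comp_apply, inv_inv, permRep_single]
      change _ = T _ (g⁻¹⁻¹ • y)
      rw [inv_inv]
    · intro h g
      refine (Pi.basisFun K Ω₁).ext fun x => ?_
      funext y
      rw [Representation.linHom_apply]
      simp only [LinearMap.comp_apply, Pi.basisFun_apply, permRep_single]
      exact h g⁻¹ x y
  have hrange : LinearMap.range M =
      ((Cfsg.permRep K G Ω₁).linHom (Cfsg.permRep K G Ω₂)).invariants := by
    ext T
    rw [hmem]
    constructor
    · rintro ⟨c, rfl⟩ g x y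
      rw [hM, hM]
      congr 1
      exact Quotient.sound' ⟨g, rfl⟩
    · intro h
      refine ⟨fun q => Quotient.liftOn' q (fun z => T (Pi.single z.1 1) z.2) ?_, ?_⟩
      · rintro _ z ⟨g, rfl⟩
        exact h g z.1 z.2
      · refine (Pi.basisFun K Ω₁).ext fun x => ?_
        funext y
        rw [Pi.basisFun_apply, hM]
        rfl
  rw [← hrange, LinearMap.finrank_range_of_inj hinj]
  have : Fintype Q := Fintype.ofFinite Q
  rw [Module.finrank_fintype_fun_eq_card, Nat.card_eq_fintype_card]

end Cfsg.Agent.S0668
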