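import Cfsg.Statements.S0676
import Cfsg.Agent.Perm.PrimeDeg

set_option autoImplicit false
open Cfsg

namespace Cfsg.Agent.S0676

open MulAction Perm

/-- A non-solvable transitive permutation group of prime degree `p` whose Sylow `p`-normaliser has even order is triply transitive. -/
theorem result {α : Type*} [Fintype α] [DecidableEq α] {p : ℕ} [Fact p.Prime] (hα : Fintype.card α = p) (G : Subgroup (Equiv.Perm α)) [MulAction.IsPretransitive G α] (hG : ¬ Group.IsSolvable G) (P : Sylow p G) (heven : Even (Nat.card (Subgroup.normalizer ((P : Subgroup G) : Set G)))) : MulAction.IsMultiplyPretransitive G α 3 := by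
  obtain ⟨c, e, -, hP, hc⟩ := exists_zcoord (Ω := α) (by simpa using hα) P
  have hna : ¬ ∀ g : G, Aff e g := fun h => hG (solvable_of_aff h)
  obtain ⟨t, b, ht⟩ := exists_refl hc (fun h => hna (aff_of_le_three (by omega))) (hP ▸ heven)
  exact three_trans_of_refl hc hna ht

end Cfsg.Agent.S0676
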