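import Cfsg.Statements.S0677
import Cfsg.Agent.Perm.PrimeDeg

set_option autoImplicit false
open Cfsg

namespace Cfsg.Agent.S0677

open MulAction Perm

/-- In a transitive permutation group of prime degree `p` whose Sylow `p`-normaliser has even order, the point stabilisers are the only subgroups of index `p`. -/
theorem result {α : Type*} [Fintype α] [DecidableEq α] {p : ℕ} [Fact p.Prime] (hα : Fintype.card α = p) (G : Subgroup (Equiv.Perm α)) [MulAction.IsPretransitive G α] (P : Sylow p G) (heven : Even (Nat.card (Subgroup.normalizer ((P : Subgroup G) : Set G)))) (H : Subgroup G) (hH : H.index = p) : ∃ a : α, H = MulAction.stabilizer G a := by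
  have hα' : Nat.card α = p := by simpa using hα
  obtain ⟨c, e, ho, hP, hc⟩ := exists_zcoord (Ω := α) hα' P
  obtain ⟨a, q, h⟩ : ∃ (a : α) (q : G ⧸ H), stabilizer G q = stabilizer G a := by
    by_cases h2 : p = 2
    · subst h2
      have h1 : Nat.card G ≤ 2 := by
        have := G.card_le_card_group
        rwa [Nat.card_perm, hα'] at this
      have h3 := card_mul_card_stabilizer (G := G) (e 0)
      have h4 := card_mul_card_stabilizer (G := G) ((1 : G) : G ⧸ H)
      rw [hα'] at h3
      rw [show Nat.card (G ⧸ H) = 2 from hH] at h4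
      exact ⟨e 0, ((1 : G) : G ⧸ H), by
        rw [Subgroup.eq_bot_of_card_le (stabilizer G ((1 : G) : G ⧸ H)) (by omega),
          Subgroup.eq_bot_of_card_le (stabilizer G (e 0)) (by omega)]⟩
    obtain ⟨t, b, ht⟩ := exists_refl hc h2 (hP ▸ heven)
    have := sylow_isPretransitive (α := G ⧸ H) (f := 1) (by rw [pow_one]; exact hH) P
    rw [← hP] at this
    obtain ⟨e', hc'⟩ := exists_zcoord_of (Ω := G ⧸ H) ho hH
    exact exists_stabilizer_eq_of_refl hc h2 ht hc'
  obtain ⟨g, hg⟩ := exists_smul_eq G q ((1 : G) : G ⧸ H)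
  refine ⟨g • a, ?_⟩
  rw [stabilizer_smul_eq_stabilizer_map_conj, ← h, ← stabilizer_smul_eq_stabilizer_map_conj, hg,
    stabilizer_quotient]

end Cfsg.Agent.S0677
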