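import Cfsg.Statements.S0678
import Cfsg.Agent.Perm.PrimeDeg2
import Cfsg.Agent.Gen2.PrimeCyc

set_option autoImplicit false
open Cfsg

namespace Cfsg.Agent.S0678

open MulAction Perm

/-- A non-solvable transitive permutation group on 7 points that does not contain the alternating group is a simple group of order 168. -/
theorem result {α : Type*} [Fintype α] [DecidableEq α] (hα : Fintype.card α = 7) (G : Subgroup (Equiv.Perm α)) [MulAction.IsPretransitive G α] (hG : ¬ Group.IsSolvable G) (hA : ¬ alternatingGroup α ≤ G) : Nat.card G = 168 ∧ IsSimpleGroup G := by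
  have : Fact (Nat.Prime 7) := ⟨Nat.prime_seven⟩
  obtain ⟨h2, d, n, h3, h4, h5, h6, h7, h8, h9, -⟩ := prime_deg_cases hα G hG
  have hp := isPreprimitive_of_is_two_pretransitive h2
  have f2 : (Nat.factorial 7).factorization 2 = 4 := by
    rw [Nat.factorization_def _ Nat.prime_two]; decide +kernel
  have f3 : (Nat.factorial 7).factorization 3 = 2 := by
    rw [Nat.factorization_def _ Nat.prime_three]; decide +kernel
  have a2 := mt (alternatingGroup_le_of_pow_dvd G hp (p := 2) (by omega)) hA
  have a3 := mt (alternatingGroup_le_of_pow_dvd G hp (p := 3) (by omega)) hA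
  have a4 := Gen2.dvd_card_of_trans h2 (by omega)
  have a5 := G.card_subgroup_dvd_card
  rw [Nat.card_perm, Nat.card_eq_fintype_card (α := α)] at a5
  rw [hα] at a2 a3 a4 a5
  rw [f2] at a2
  rw [f3] at a3
  have d2 : d ≠ 2 := fun h => by
    obtain ⟨a, ha⟩ := h5 h
    have : a < 3 := (Nat.pow_lt_pow_iff_right (a := 2) (by norm_num)).1 (by omega)
    interval_cases a <;> omega
  clear h5
  have key : ∀ m ∈ Nat.divisors 5040, ¬ 2 ^ 4 ∣ m → ¬ 3 ^ 2 ∣ m → 42 ∣ m →
      (m % 21 = 0 → m / 21 % 7 = 1 → m = 168) ∧ (m / 42 % 7 = 1 → m = 42) := by decide +kernel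
  obtain ⟨k1, k2⟩ := key _ (Nat.mem_divisors.2 ⟨a5, by norm_num⟩) a2 a3 a4
  have hd : d ≤ 6 := Nat.le_of_dvd (by norm_num) h3
  have d3 : d = 3 := by
    interval_cases d <;> omega
  subst d3
  exact ⟨by omega, h9 Nat.prime_three⟩

end Cfsg.Agent.S0678
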