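import Cfsg.Statements.S0681
import Cfsg.Agent.Perm.Basic

set_option autoImplicit false
open Cfsg

namespace Cfsg.Agent.S0681

open MulAction Perm

section
variable {F : Type*} [Cfsg.NearField F]

/-- right multiplication as an additive homomorphism -/
def rmul (a : F) : F →+ F := AddMonoidHom.mk' (fun x => x * a) fun x y => NearField.right_distrib x y a

theorem zero_mul' (a : F) : 0 * a = 0 := (rmul a).map_zero

theorem sub_mul' (x y a : F) : (x - y) * a = x * a - y * a := (rmul a).map_sub x y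

theorem neg_mul' (x a : F) : (-x) * a = -(x * a) := (rmul a).map_neg x

theorem mul_ne_zero' {a b : F} (ha : a ≠ 0) (hb : b ≠ 0) : a * b ≠ 0 := fun h => by
  obtain ⟨c, hc, -⟩ := NearField.exists_inv b hb
  apply ha
  rw [← mul_one a, ← hc, ← mul_assoc, h, zero_mul']

theorem ne_zero_of_mul_eq_one {a b : F} (h : a * b = 1) : b ≠ 0 := by
  rintro rfl
  exact NearField.zero_ne_one ((NearField.mul_zero a).symm.trans h)
end

/-- The affine maps `x ↦ x * a + b`, `a ≠ 0`, of a near-field form a sharply doubly transitive permutation group. -/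
theorem result {F : Type*} [Cfsg.NearField F] : ∃ H : Subgroup (Equiv.Perm F), (∀ σ : Equiv.Perm F, σ ∈ H ↔ ∃ a b : F, a ≠ 0 ∧ ∀ x : F, σ x = x * a + b) ∧ MulAction.IsMultiplyPretransitive H F 2 ∧ ∀ x : Fin 2 ↪ F, MulAction.stabilizer H x = ⊥ := by
  let H : Subgroup (Equiv.Perm F) :=
    { carrier := {σ | ∃ a b : F, a ≠ 0 ∧ ∀ x : F, σ x = x * a + b}
      one_mem' := ⟨1, 0, NearField.zero_ne_one.symm, fun x => by simp⟩
      mul_mem' := by
        rintro σ τ ⟨a, b, ha, hσ⟩ ⟨c, d, hc, hτ⟩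
        refine ⟨c * a, d * a + b, mul_ne_zero' hc ha, fun x => ?_⟩
        rw [Equiv.Perm.mul_apply, hσ, hτ, NearField.right_distrib, mul_assoc, add_assoc]
      inv_mem' := by
        rintro σ ⟨a, b, ha, hσ⟩
        obtain ⟨c, hc, hc'⟩ := NearField.exists_inv a ha
        refine ⟨c, -b * c, ne_zero_of_mul_eq_one hc, fun x => ?_⟩
        rw [Equiv.Perm.inv_eq_iff_eq, hσ, ← NearField.right_distrib, mul_assoc, hc', mul_one,
          neg_add_cancel_right] }
  refine ⟨H, fun σ => Iff.rfl, is_two_pretransitive_iff.mpr fun {x y z w} hxy hzw => ?_,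
    sharp_of_forall fun x hx ⟨g, a, b, ha, hg⟩ h => ?_⟩
  · obtain ⟨c, hc, hc'⟩ := NearField.exists_inv (x - y) (sub_ne_zero.mpr hxy)
    have ha : c * (z - w) ≠ 0 := mul_ne_zero' (ne_zero_of_mul_eq_one hc) (sub_ne_zero.mpr hzw)
    obtain ⟨a', h1, h2⟩ := NearField.exists_inv _ ha
    have key : x * (c * (z - w)) - y * (c * (z - w)) = z - w := by
      rw [← sub_mul', ← mul_assoc, hc, one_mul]
    refine ⟨⟨⟨fun u => u * (c * (z - w)) + (-(x * (c * (z - w))) + z),
      fun u => (u - (-(x * (c * (z - w))) + z)) * a', fun u => ?_, fun u => ?_⟩, _, _, ha,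
      fun _ => rfl⟩, ?_, ?_⟩
    · simp only [add_sub_cancel_right, mul_assoc, h1, mul_one]
    · simp only [mul_assoc, h2, mul_one, sub_add_cancel]
    · exact add_neg_cancel_left _ _
    · change y * (c * (z - w)) + (-(x * (c * (z - w))) + z) = w
      rw [← add_assoc, ← sub_eq_add_neg, ← neg_sub, key, neg_sub, sub_add_cancel]
  · have h0 : x 0 * a + b = x 0 := (hg _).symm.trans (h 0)
    have h1 : x 1 * a + b = x 1 := (hg _).symm.trans (h 1)
    obtain ⟨c, hc, hc'⟩ := NearField.exists_inv (x 0 - x 1) (sub_ne_zero.mpr (hx.ne (by decide)))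
    have : (x 0 - x 1) * a = x 0 - x 1 := by
      rw [sub_mul']
      conv_rhs => rw [← h0, ← h1]
      rw [add_sub_add_right_eq_sub]
    have ha1 : a = 1 := by rw [← one_mul a, ← hc', mul_assoc, this]
    rw [ha1, mul_one, add_eq_left] at h0
    exact Subtype.ext (Equiv.ext fun u => by simp [hg, ha1, h0])

end Cfsg.Agent.S0681
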