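import Cfsg.Statements.S0682
import Cfsg.Agent.Perm.Sharp2
import Cfsg.Agent.S0681

set_option autoImplicit false
open Cfsg

namespace Cfsg.Agent.S0682

open Perm

/-- A finite near-field has prime-power order; its additive group is commutative of prime exponent. -/
theorem result {F : Type*} [Cfsg.NearField F] [Finite F] : ∃ p j : ℕ, p.Prime ∧ 1 ≤ j ∧ Nat.card F = p ^ j ∧ (∀ x y : F, x + y = y + x) ∧ ∀ x : F, p • x = 0 := by
  haveI : Nontrivial F := ⟨0, 1, NearField.zero_ne_one⟩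
  obtain ⟨hc, p, hp, hpow⟩ := elementary_of_aut (N := Multiplicative F) fun u v hu hv => by
    obtain ⟨c, hc, hc'⟩ := NearField.exists_inv u.toAdd hu
    obtain ⟨d, -, hd⟩ := NearField.exists_inv _
      (S0681.mul_ne_zero' (S0681.ne_zero_of_mul_eq_one hc) (show v.toAdd ≠ 0 from hv))
    refine ⟨(S0681.rmul (c * v.toAdd)).toMultiplicative, fun y => ⟨.ofAdd (y.toAdd * d), ?_⟩, ?_⟩
    · change Multiplicative.ofAdd (y.toAdd * d * (c * v.toAdd)) = y
      rw [mul_assoc, hd, mul_one]; rfl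
    · change Multiplicative.ofAdd (u.toAdd * (c * v.toAdd)) = v
      rw [← mul_assoc, hc, one_mul]; rfl
  obtain ⟨j, hj, hcard⟩ := exists_card_eq_pow hp hpow
  exact ⟨p, j, hp, hj, hcard, fun x y => hc (.ofAdd x) (.ofAdd y), fun x => hpow (.ofAdd x)⟩

end Cfsg.Agent.S0682
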