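import Cfsg.Statements.S0683
import Cfsg.Agent.Perm.Sharp2
import Mathlib.Algebra.Group.MinimalAxioms

set_option autoImplicit false
open Cfsg

namespace Cfsg.Agent.S0683

open MulAction Perm

/-- A finite sharply doubly transitive permutation group is the affine group of a near-field: the permuted set carries a near-field structure for which the group consists exactly of the maps `x ↦ x * a + b` with `a ≠ 0`. -/
theorem result {α : Type*} [Fintype α] [DecidableEq α] (H : Subgroup (Equiv.Perm α)) [MulAction.IsMultiplyPretransitive H α 2] (hsharp : ∀ x : Fin 2 ↪ α, MulAction.stabilizer H x = ⊥) (h2 : 2 ≤ Fintype.card α) : ∃ _ : Cfsg.NearField α, ∀ σ : Equiv.Perm α, σ ∈ H ↔ ∃ a b : α, a ≠ 0 ∧ ∀ x : α, σ x = x * a + b := by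
  haveI : Nontrivial α := Fintype.one_lt_card_iff_nontrivial.mp h2
  have hs : ∀ g : H, ∀ x y : α, x ≠ y → g • x = x → g • y = y → g = 1 :=
    fun g x y h => eq_one_of_sharp_two hsharp h
  obtain ⟨N, hN, -, hmem, ht, hab, -⟩ := sharp2_exists_kernel inferInstance hs
  obtain ⟨o, i, hoi⟩ := exists_pair_ne α
  have hr : ∀ u ∈ N, u • o = o → u = 1 := fun u hu h =>
    ((hmem u).mp hu).resolve_right fun h' => h' o h
  have ht' : ∀ x : α, ∃ u ∈ N, u • o = x := fun x => by
    obtain ⟨u, hu⟩ := ht.exists_smul_eq o x
    exact ⟨u, u.2, hu⟩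
  choose t htN ht using ht'
  have htu : ∀ u ∈ N, t (u • o) = u := fun u hu =>
    eq_of_smul_eq_of_semiregular hr (htN _) hu (ht _)
  have hm' : ∀ y : α, ∃ h : H, h • o = o ∧ (y ≠ o → h • i = y) := fun y => by
    rcases eq_or_ne y o with rfl | hy
    · exact ⟨1, one_smul _ _, fun h => absurd rfl h⟩
    · obtain ⟨g, h1, h2⟩ := exists_smul_two (G := H) inferInstance hoi hy.symm
      exact ⟨g, h1, fun _ => h2⟩
  choose m hmo hm using hm'
  have hne : ∀ h : H, h • o = o → ∀ y, y ≠ o → h • y ≠ o := fun h ho y hy h' =>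
    hy (smul_left_cancel h (h'.trans ho.symm))
  have hmu : ∀ h : H, h • o = o → m (h • i) = h := fun h ho => by
    have := hs (h⁻¹ * m (h • i)) o i hoi (by rw [mul_smul, hmo, inv_smul_eq_iff, ho])
      (by rw [mul_smul, hm _ (hne h ho i hoi.symm), inv_smul_smul])
    exact (inv_mul_eq_one.mp this).symm
  have hto : t o = 1 := by simpa using htu 1 N.one_mem
  have hmi : m i = 1 := by simpa using hmu 1 (one_smul _ _)
  letI : Add α := ⟨fun x y => t x • y⟩
  letI : Zero α := ⟨o⟩
  letI : Neg α := ⟨fun x => (t x)⁻¹ • o⟩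
  letI : AddGroup α := AddGroup.ofLeftAxioms
    (fun x y z => by
      change t (t x • y) • z = t x • t y • z
      conv_lhs => rw [← ht y, ← mul_smul, htu _ (N.mul_mem (htN x) (htN y)), mul_smul])
    (fun x => by change t o • x = x; rw [hto, one_smul])
    (fun x => by
      change t ((t x)⁻¹ • o) • x = o
      rw [htu _ (N.inv_mem (htN x)), inv_smul_eq_iff, ht])
  letI : Monoid α :=
    { mul := fun x y => if y = o then o else m y • x
      one := i
      mul_assoc := fun x y z => by
        change (if z = o then o else m z • (if y = o then o else m y • x)) =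
          if (if z = o then o else m z • y) = o then o else m (if z = o then o else m z • y) • x
        by_cases hz : z = o
        · simp [hz]
        by_cases hy : y = o
        · simp [hz, hy, hmo]
        simp only [hz, hy, if_false, hne _ (hmo z) y hy]
        conv_rhs => rw [← hm y hy, ← mul_smul, hmu _ (by rw [mul_smul, hmo, hmo]), mul_smul]
      one_mul := fun x => by
        change (if x = o then o else m x • i) = x
        split_ifs with h
        · exact h.symm
        · exact hm x h
      mul_one := fun x => by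
        change (if i = o then o else m i • x) = x
        rw [if_neg hoi.symm, hmi, one_smul] }
  have hmul : ∀ x y : α, y ≠ o → x * y = m y • x := fun x y hy => if_neg hy
  have hadd : ∀ x y : α, x + y = t y • x := fun x y => by
    change t x • y = _
    conv_lhs => rw [← ht y, ← mul_smul, hab _ (htN x) _ (htN y), mul_smul, ht]
  refine ⟨{ right_distrib := fun x y z => ?_
            mul_zero := fun x => if_pos rfl
            zero_ne_one := hoi
            exists_inv := fun x hx => ⟨(m x)⁻¹ • i, ?_, ?_⟩ }, fun σ => ⟨fun hσ => ?_, ?_⟩⟩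
  · by_cases hz : z = o
    · rw [hz, show (x + y) * o = o from if_pos rfl, show x * o = o from if_pos rfl,
        show y * o = o from if_pos rfl]
      exact (add_zero (0 : α)).symm
    · rw [hmul _ _ hz, hmul _ _ hz, hmul _ _ hz, hadd, hadd]
      have : t (m z • y) = m z * t y * (m z)⁻¹ := by
        rw [← htu _ (hN.conj_mem _ (htN y) (m z)), mul_smul, mul_smul,
          inv_smul_eq_iff.mpr (hmo z).symm, ht]
      rw [this, mul_smul, mul_smul, inv_smul_smul]
  · have h := inv_smul_eq_iff.mpr (hmo x).symm
    rw [hmul _ _ (hne _ h i hoi.symm), hmu _ h, inv_smul_eq_iff]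
    exact (hm x hx).symm
  · rw [hmul _ _ hx, smul_inv_smul]; rfl
  · let g : H := ⟨σ, hσ⟩
    have h : ((t (g • o))⁻¹ * g) • o = o := by rw [mul_smul, inv_smul_eq_iff, ht]
    refine ⟨((t (g • o))⁻¹ * g) • i, g • o, hne _ h i hoi.symm, fun x => ?_⟩
    rw [hmul _ _ (hne _ h i hoi.symm), hmu _ h, hadd, mul_smul, smul_inv_smul]; rfl
  · rintro ⟨a, b, ha, hσ⟩
    have : σ = (t b * m a : H) := Equiv.ext fun x => by
      rw [hσ, hmul _ _ ha, hadd, ← mul_smul]; rfl
    rw [this]; exact Subtype.property _

end Cfsg.Agent.S0683
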