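import Cfsg.Statements.S0684
import Cfsg.Agent.Perm.NearField

set_option autoImplicit false
open Cfsg

namespace Cfsg.Agent.S0684

open Perm.NF

/-- Point stabiliser of a sharply doubly transitive group not of semilinear type: a maximal normal abelian subgroup `A` of a linear group `H` that is regular on non-zero vectors and has no irreducible cyclic normal subgroup is cyclic and reducible, and the order of `A` divides `p ^ k - 1` for `k` the dimension of a minimal `A`-invariant subspace. -/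
theorem result {p : ℕ} [Fact p.Prime] {V : Type*} [AddCommGroup V] [Module (ZMod p) V] [Finite V] (H : Subgroup (V ≃ₗ[ZMod p] V)) (hreg : ∀ v w : V, v ≠ 0 → w ≠ 0 → ∃! h : H, (h : V ≃ₗ[ZMod p] V) v = w) (hI : ∀ A : Subgroup H, A.Normal → IsCyclic A → ∃ W : Submodule (ZMod p) V, W ≠ ⊥ ∧ W ≠ ⊤ ∧ ∀ a ∈ A, ∀ v ∈ W, ((a : H) : V ≃ₗ[ZMod p] V) v ∈ W) (A : Subgroup H) (hAn : A.Normal) (hAc : IsMulCommutative A) (hAmax : ∀ B : Subgroup H, B.Normal → IsMulCommutative B → A ≤ B → B = A) : IsCyclic A ∧ ∃ W : Submodule (ZMod p) V, W ≠ ⊥ ∧ W ≠ ⊤ ∧ (∀ a ∈ A, ∀ v ∈ W, ((a : H) : V ≃ₗ[ZMod p] V) v ∈ W) ∧ (∀ W' : Submodule (ZMod p) V, W' ≤ W → (∀ a ∈ A, ∀ v ∈ W', ((a : H) : V ≃ₗ[ZMod p] V) v ∈ W') → W' = ⊥ ∨ W' = W) ∧ Nat.card A ∣ p ^ Module.finrank (ZMod p) W - 1 := by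
  have h : Reg H V := hreg
  obtain ⟨W₀, h0, -, -⟩ := hI ⊥ inferInstance inferInstance
  haveI : Nontrivial V := (Submodule.nontrivial_iff _).mp ⟨_, _, h0⟩
  have hc := h.isCyclic hAc
  obtain ⟨W, ⟨h1, h2, h3⟩, hmin⟩ := (wellFounded_lt (α := Submodule (ZMod p) V)).has_min
    {W | W ≠ ⊥ ∧ W ≠ ⊤ ∧ ∀ a ∈ A, ∀ v ∈ W, ((a : H) : V ≃ₗ[ZMod p] V) v ∈ W} (hI A hAn hc)
  refine ⟨hc, W, h1, h2, h3, fun W' h4 h5 => ?_, ?_⟩
  · by_contra! h6
    exact hmin W' ⟨h6.1, fun e => h2 (top_le_iff.mp (e.ge.trans h4)), h5⟩ (lt_of_le_of_ne h4 h6.2)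
  · have := h.card_dvd (U := W.toAddSubgroup) h3
    rwa [show Nat.card W.toAddSubgroup = Nat.card W from rfl,
      Module.natCard_eq_pow_finrank (K := ZMod p) (V := W), Nat.card_zmod] at this

end Cfsg.Agent.S0684
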