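import Cfsg.Statements.S0685
import Cfsg.Agent.Perm.NearField

set_option autoImplicit false
open Cfsg

namespace Cfsg.Agent.S0685

open Perm.NF

/-- In a linear group over the prime field that is regular on non-zero vectors and has no irreducible cyclic normal subgroup, a maximal normal abelian subgroup is properly contained in its centraliser, which is non-abelian. -/
theorem result {p : ℕ} [Fact p.Prime] {V : Type*} [AddCommGroup V] [Module (ZMod p) V] [Finite V] (H : Subgroup (V ≃ₗ[ZMod p] V)) (hreg : ∀ v w : V, v ≠ 0 → w ≠ 0 → ∃! h : H, (h : V ≃ₗ[ZMod p] V) v = w) (hI : ∀ A : Subgroup H, A.Normal → IsCyclic A → ∃ W : Submodule (ZMod p) V, W ≠ ⊥ ∧ W ≠ ⊤ ∧ ∀ a ∈ A, ∀ v ∈ W, ((a : H) : V ≃ₗ[ZMod p] V) v ∈ W) (A : Subgroup H) (hAn : A.Normal) (hAc : IsMulCommutative A) (hAmax : ∀ B : Subgroup H, B.Normal → IsMulCommutative B → A ≤ B → B = A) : A < Subgroup.centralizer (A : Set H) ∧ ¬ IsMulCommutative (Subgroup.centralizer (A : Set H)) := by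
  have h : Reg H V := hreg
  obtain ⟨W₀, h0, -, -⟩ := hI ⊥ inferInstance inferInstance
  haveI : Nontrivial V := (Submodule.nontrivial_iff _).mp ⟨_, _, h0⟩
  have hI' : ∀ A : Subgroup H, A.Normal → IsCyclic A → ¬ Irr V A := fun A h1 h2 h3 => by
    obtain ⟨W, h4, h5, h6⟩ := hI A h1 h2
    rcases h3 W.toAddSubgroup h6 with e | e
    · exact h4 (Submodule.toAddSubgroup_injective e)
    · exact h5 (Submodule.toAddSubgroup_injective e)
  haveI := h.isCyclic hAc
  have h1 := h.centralizer_ne (hI' A hAn this)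
  exact ⟨lt_of_le_of_ne A.le_centralizer h1.symm,
    fun h2 => h1 (hAmax _ inferInstance h2 A.le_centralizer)⟩

end Cfsg.Agent.S0685
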