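import Cfsg.Statements.S0690
import Cfsg.Agent.Perm.FpfPerfect

set_option autoImplicit false
open Cfsg

namespace Cfsg.Agent.S0690

/-- Zassenhaus: a perfect non-trivial group of fixed-point-free automorphisms of a finite group is isomorphic to `SL(2,5)`. -/
theorem result {K : Type*} [Group K] [Finite K] (G : Subgroup (MulAut K)) (hfpf : ∀ φ ∈ G, φ ≠ 1 → ∀ k : K, φ k = k → k = 1) (hperf : commutator G = ⊤) (hne : G ≠ ⊥) : Nonempty (G ≃* Matrix.SpecialLinearGroup (Fin 2) (ZMod 5)) := by
  haveI : Nontrivial G := (Subgroup.nontrivial_iff_ne_bot G).mpr hne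
  haveI : Nontrivial K := by
    by_contra hK
    haveI := not_nontrivial_iff_subsingleton.mp hK
    exact hne ((Subgroup.eq_bot_iff_forall G).mpr fun φ _ => MulEquiv.ext fun _ =>
      Subsingleton.elim _ _)
  exact Perm.nonempty_equiv_SL25_of_perfect (Gen2.isFC_of_action G.subtype fun φ h =>
    hfpf φ φ.2 fun e => h (Subtype.ext e)) hperf

end Cfsg.Agent.S0690
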