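import Cfsg.Statements.S0692
import Cfsg.Agent.Perm.RegTab

set_option autoImplicit false
open Cfsg

namespace Cfsg.Agent.S0692

open Perm

def tB : ℕ := 0xa1475682390798a5602314798a25346010687914235a9a5768031249a8035461276897a2435010578691324aa890561324728935647a10164392875a0
def tD : ℕ := 0x9105220441a336311522a5224236333778034044114866518529662552963a65597aa77078033488858979941996aa85886a7709960a21041a471a700
def tR : ℕ := 0x768ba7925424ab39859b751ca6b59b998848c6bc34c9a78a567c67798a547c6985b25c98ba66a7b9b7c4ca3a59b3675a827634798aa850187864a9630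

/-- An exceptional sharply doubly transitive group of degree 11^2: the listed matrices generate a subgroup of GL(2,11) of order 120 acting regularly on the non-zero vectors. -/
theorem result (A : Matrix.GeneralLinearGroup (Fin 2) (ZMod 11)) (B : Matrix.GeneralLinearGroup (Fin 2) (ZMod 11)) (hA : (A : Matrix (Fin 2) (Fin 2) (ZMod 11)) = !![0, -1; 1, 0]) (hB : (B : Matrix (Fin 2) (Fin 2) (ZMod 11)) = !![2, 4; 1, -3]) : Nat.card (Subgroup.closure ({A, B} : Set (Matrix.GeneralLinearGroup (Fin 2) (ZMod 11)))) = 120 ∧ ∀ v w : Fin 2 → ZMod 11, v ≠ 0 → w ≠ 0 → ∃! h : Subgroup.closure ({A, B} : Set (Matrix.GeneralLinearGroup (Fin 2) (ZMod 11))), Matrix.mulVec ((h : Matrix.GeneralLinearGroup (Fin 2) (ZMod 11)) : Matrix (Fin 2) (Fin 2) (ZMod 11)) v = w := by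
  have : Fact (1 < 11) := ⟨by norm_num⟩
  have key := regular_of_tab (F := ZMod 11) {A, B} (fun a c => (tabN 11 4 tB a c : ℕ))
    (fun a c => (tabN 11 4 tD a c : ℕ)) (tabN 11 4 tR) (by decide +kernel) (by
      simp only [Set.mem_insert_iff, Set.mem_singleton_iff, forall_eq_or_imp, forall_eq, hA, hB,
        Matrix.of_apply, Matrix.cons_val', Matrix.cons_val_zero, Matrix.cons_val_one,
        Matrix.cons_val_fin_one]
      decide +kernel) (by
      simp only [Set.mem_insert_iff, Set.mem_singleton_iff, exists_eq_or_imp, exists_eq_left, hA, hB,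
        Matrix.of_apply, Matrix.cons_val', Matrix.cons_val_zero, Matrix.cons_val_one,
        Matrix.cons_val_fin_one]
      decide +kernel)
  rwa [Nat.card_zmod] at key

end Cfsg.Agent.S0692
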