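import Cfsg.Statements.S0694
import Mathlib.NumberTheory.Multiplicity
import Mathlib.Algebra.IsPrimePow
import Mathlib.Data.ZMod.Basic
import Mathlib.Tactic.LinearCombination
import Mathlib.RingTheory.PrincipalIdealDomain
import Mathlib.RingTheory.UniqueFactorizationDomain.Multiplicity
import Mathlib.RingTheory.Int.Basic

set_option autoImplicit false
open Cfsg

namespace Cfsg.Agent.S0694

theorem emult_geom {r : ℕ} (hr : r.Prime) {q : ℤ} (h0 : q - 1 ≠ 0) (h1 : (r : ℤ) ∣ q - 1)
    (h2 : r = 2 → 4 ∣ q - 1) (i : ℕ) :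
    emultiplicity (r : ℤ) (∑ j ∈ Finset.range i, q ^ j) = emultiplicity r i := by
  have hp : Prime (r : ℤ) := Nat.prime_iff_prime_int.1 hr
  have hq : ¬ (r : ℤ) ∣ q := fun h => hp.not_dvd_one (by simpa using dvd_sub h h1)
  have key : emultiplicity (r : ℤ) (q ^ i - 1 ^ i) = emultiplicity (r : ℤ) (q - 1) +
      emultiplicity r i := by
    rcases hr.eq_two_or_odd' with rfl | ho
    · rw [← Int.natCast_emultiplicity]
      exact Int.two_pow_sub_pow' i (h2 rfl) hq
    · exact Int.emultiplicity_pow_sub_pow hr ho h1 hq i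
  rw [one_pow, ← mul_geom_sum, emultiplicity_mul hp] at key
  exact ENat.add_right_injective_of_ne_top
    (finiteMultiplicity_iff_emultiplicity_ne_top.1 (FiniteMultiplicity.of_prime_left hp h0)) key

/-- The Dickson pair condition: for a prime power `q` and `n > 1`, (every prime factor of `n` divides `q - 1`, and `4 ∣ n → 4 ∣ q - 1`) holds exactly when `q ^ n ≡ 1` modulo `n * (q - 1)` but `q ^ i` is not, for `0 < i < n`. -/
theorem result (q n : ℕ) (hq : IsPrimePow q) (hn : 1 < n) : ((∀ r : ℕ, r.Prime → r ∣ n → r ∣ q - 1) ∧ (4 ∣ n → 4 ∣ q - 1)) ↔ (q ^ n ≡ 1 [MOD n * (q - 1)] ∧ ∀ i : ℕ, 0 < i → i < n → ¬ q ^ i ≡ 1 [MOD n * (q - 1)]) := by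
  have hq2 := hq.two_le
  let s : ℕ → ℤ := fun i => ∑ j ∈ Finset.range i, (q : ℤ) ^ j
  have hc : ((q - 1 : ℕ) : ℤ) = q - 1 := by omega
  have h0 : (q : ℤ) - 1 ≠ 0 := by omega
  have hs : ∀ i, ((q : ℤ) - 1) * s i = q ^ i - 1 := fun i => mul_geom_sum _ i
  have hiff : ∀ i, q ^ i ≡ 1 [MOD n * (q - 1)] ↔ (n : ℤ) ∣ s i := fun i => by
    rw [Nat.ModEq.comm, Nat.modEq_iff_dvd]
    push_cast
    rw [hc, ← hs, mul_comm, mul_dvd_mul_iff_left h0]
  simp only [hiff]
  constructor
  · rintro ⟨h1, h2⟩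
    have key : ∀ i r k : ℕ, r.Prime → r ^ k ∣ n → (r ^ k ∣ (s i).natAbs ↔ r ^ k ∣ i) := by
      intro i r k hr hk
      rw [← Int.natCast_dvd, Nat.cast_pow]
      rcases k with _ | k
      · simp
      have h3 : (r : ℤ) ∣ q - 1 := by
        rw [← hc]; exact_mod_cast h1 r hr ((dvd_pow_self r k.succ_ne_zero).trans hk)
      by_cases h4 : r = 2 → (4 : ℤ) ∣ q - 1
      · rw [pow_dvd_iff_le_emultiplicity, pow_dvd_iff_le_emultiplicity, emult_geom hr h0 h3 h4]
      obtain ⟨rfl, h5⟩ := Classical.not_imp.1 h4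
      rcases k with _ | k
      · rw [zero_add, pow_one, pow_one]
        have : ∀ i : ℕ, s i % 2 = i % 2 := fun i => by
          induction i with
          | zero => rfl
          | succ i ih =>
            have h6 : Odd ((q : ℤ) ^ i) := (Int.odd_iff.2 (by omega)).pow
            rw [Int.odd_iff] at h6
            simp only [s, Finset.sum_range_succ] at ih ⊢
            omega
        have := this i
        omega
      · have := h2 (Dvd.dvd.trans ⟨2 ^ k, by ring⟩ hk)
        omega
    have key' : ∀ i, (n : ℤ) ∣ s i ↔ n ∣ i := fun i => by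
      rw [Int.natCast_dvd, Nat.dvd_iff_prime_pow_dvd_dvd, Nat.dvd_iff_prime_pow_dvd_dvd i]
      exact forall₄_congr fun r k hr hk => key i r k hr hk
    exact ⟨(key' n).2 dvd_rfl, fun i h3 h4 h5 => Nat.not_dvd_of_pos_of_lt h3 h4 ((key' i).1 h5)⟩
  · rintro ⟨h1, h2⟩
    have : NeZero n := ⟨by omega⟩
    have hcop : IsCoprime (n : ℤ) q := by
      obtain ⟨c, hc⟩ := h1
      obtain ⟨m, rfl⟩ : ∃ m, n = m + 1 := ⟨n - 1, by omega⟩
      exact ⟨-((q - 1) * c), q ^ m, by have := hs (m + 1); rw [hc] at this; linear_combination -this⟩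
    have hlt : ∀ i j : Fin n, i < j → (s i : ZMod n) ≠ s j := fun i j hij e => by
      obtain ⟨k, hk⟩ := Nat.exists_eq_add_of_lt hij
      rw [ZMod.intCast_eq_intCast_iff_dvd_sub] at e
      have h3 : s j - s i = q ^ (i : ℕ) * s (k + 1) := by
        simp only [s]
        rw [hk, add_assoc, Finset.sum_range_add, Finset.mul_sum]
        simp only [pow_add]
        ring
      exact h2 (k + 1) (by omega) (by omega) (hcop.pow_right.dvd_of_dvd_mul_left (h3 ▸ e))
    have hb : Function.Bijective fun i : Fin n => (s i : ZMod n) :=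
      (Fintype.bijective_iff_injective_and_card _).2 ⟨fun i j e => by
        rcases lt_trichotomy i j with h | h | h
        exacts [absurd e (hlt i j h), h, absurd e.symm (hlt j i h)], by simp⟩
    have hsurj : ∀ a : ℤ, ∃ i, (n : ℤ) ∣ a - s i := fun a => by
      obtain ⟨i, hi⟩ := hb.2 a
      exact ⟨i, (ZMod.intCast_eq_intCast_iff_dvd_sub _ _ _).1 hi⟩
    have h3 : ∀ r : ℕ, r.Prime → r ∣ n → r ∣ q - 1 := fun r hr hd => by
      have hp : Prime (r : ℤ) := Nat.prime_iff_prime_int.1 hr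
      rw [← Int.natCast_dvd_natCast, hc]
      by_contra h4
      obtain ⟨u, v, huv⟩ := hp.irreducible.coprime_iff_not_dvd.2 h4
      obtain ⟨i, hi⟩ := hsurj (-v)
      obtain ⟨c, hc⟩ := (Int.natCast_dvd_natCast.2 hd).trans hi
      have h5 : (r : ℤ) ∣ q ^ i := ⟨u - (q - 1) * c, by linear_combination -hs i - huv - (q - 1) * hc⟩
      exact hp.not_unit (hcop.isUnit_of_dvd' (Int.natCast_dvd_natCast.2 hd) (hp.dvd_of_dvd_pow h5))
    refine ⟨h3, fun h4 => ?_⟩
    have h5 := h3 2 Nat.prime_two (Dvd.dvd.trans (by norm_num) h4)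
    by_contra h6
    obtain ⟨c, hc⟩ : (4 : ℤ) ∣ q + 1 := by omega
    have h7 : ∀ i, s i % 4 = i % 2 := fun i => by
      induction i using Nat.twoStepInduction with
      | zero => rfl
      | one => simp [s]
      | more i ih _ =>
        have : s (i + 2) = s i + 4 * (q ^ i * c) := by
          simp only [s, Finset.sum_range_succ]
          linear_combination q ^ i * hc
        omega
    obtain ⟨i, hi⟩ := hsurj 2
    have := (Int.natCast_dvd_natCast.2 h4).trans hi
    have := h7 i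
    omega

end Cfsg.Agent.S0694
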