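import Cfsg.Statements.S0695
import Cfsg.Agent.Perm.NormalSub

set_option autoImplicit false
open Cfsg

namespace Cfsg.Agent.S0695

open MulAction Perm

/-- A regular normal subgroup of a doubly primitive group of finite degree at least 2 is an elementary abelian 2-group (and the degree is a power of 2), unless the degree is 3. -/
theorem result {G : Type*} [Group G] {X : Type*} [Fintype X] [MulAction G X] (hX : 2 ≤ Fintype.card X) (h2 : MulAction.IsMultiplyPreprimitive G X 2) (N : Subgroup G) [N.Normal] (htrans : MulAction.IsPretransitive N X) (hreg : ∀ x : X, MulAction.stabilizer N x = ⊥) : Fintype.card X = 3 ∨ (IsMulCommutative N ∧ (∀ n ∈ N, n ^ 2 = 1) ∧ ∃ m : ℕ, Fintype.card X = 2 ^ m) := by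
  haveI : Nontrivial X := Fintype.one_lt_card_iff_nontrivial.mp hX
  obtain ⟨a⟩ : Nonempty X := inferInstance
  have hr := fun x => (stabilizer_eq_bot_iff N x).mp (hreg x)
  refine (regular_normal_two_primitive h2 N htrans hr a).imp
    (fun h => by rwa [Nat.card_eq_fintype_card] at h) fun h => ⟨?_, h, ?_⟩
  · refine isMulCommutative_of_forall fun x hx y hy => ?_
    have h1 := h _ (N.mul_mem hx hy)
    have h2 := h x hx
    have h3 := h y hy
    rw [sq] at h1 h2 h3
    rw [← inv_eq_of_mul_eq_one_right h1, mul_inv_rev, inv_eq_of_mul_eq_one_right h2,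
      inv_eq_of_mul_eq_one_right h3]
  · haveI : Finite N := Finite.of_equiv _ (regularEquiv htrans a (hr a)).symm
    haveI := Fact.mk Nat.prime_two
    have hP : IsPGroup 2 N := fun x => ⟨1, Subtype.ext (by simpa using h x x.2)⟩
    obtain ⟨m, hm⟩ := hP.exists_card_eq
    exact ⟨m, by rw [← hm, card_eq_of_regular htrans a (hr a), Nat.card_eq_fintype_card]⟩

end Cfsg.Agent.S0695
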