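import Cfsg.Statements.S0698
import Cfsg.Agent.Perm.NormalSub
import Cfsg.Agent.S0695

set_option autoImplicit false
open Cfsg

namespace Cfsg.Agent.S0698

open MulAction Perm

/-- Jordan's Theorem on normal subgroups of multiply transitive groups: if `G` is `k`-transitive (`k > 1`) of degree greater than `k`, a non-trivial normal subgroup is `(k-1)`-transitive, except possibly for `k = 3` when it may be an elementary abelian 2-group. -/
theorem result {α : Type*} [Fintype α] [DecidableEq α] (G : Subgroup (Equiv.Perm α)) {k : ℕ} (hk : 1 < k) (hdeg : k < Fintype.card α) (hG : MulAction.IsMultiplyPretransitive G α k) (N : Subgroup G) [N.Normal] (hN : N ≠ ⊥) : MulAction.IsMultiplyPretransitive N α (k - 1) ∨ (k = 3 ∧ IsMulCommutative N ∧ ∀ n ∈ N, n ^ 2 = 1) := by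
  obtain ⟨k, rfl⟩ : ∃ j, k = j + 2 := ⟨k - 2, by omega⟩
  have hα : Nat.card α = Fintype.card α := Nat.card_eq_fintype_card
  have hG' : IsMultiplyPreprimitive G α (k + 1) :=
    isMultiplyPreprimitive_of_isMultiplyPretransitive_succ G α
      (by rw [ENat.card_eq_coe_natCard]; exact_mod_cast (by omega))
  by_cases h : ∃ a : α, ∃ h ∈ N, h ≠ 1 ∧ h • a = a
  · exact Or.inl (isMultiplyPretransitive_of_normal k hG' (by omega) N h)
  have hr : ∀ a : α, ∀ h ∈ N, h • a = a → h = 1 := fun a u hu ha => by
    by_contra h1; exact h ⟨a, u, hu, h1, ha⟩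
  have hle : ∀ m, m ≤ k + 1 → IsMultiplyPreprimitive G α m := fun m hm =>
    isMultiplyPreprimitive_of_le G α hG' hm
      (by rw [ENat.card_eq_coe_natCard]; exact_mod_cast (by omega))
  haveI := (is_one_preprimitive_iff G α).mp (hle 1 (by omega))
  have ht := isPretransitive_of_normal (α := α) N hN
  rcases k with _ | _ | k
  · exact Or.inl (is_one_pretransitive_iff.mpr ht)
  · rcases S0695.result (by omega) hG' N ht fun a => (stabilizer_eq_bot_iff N a).mpr (hr a)
      with h | h
    · omega
    · exact Or.inr ⟨rfl, h.1, h.2.1⟩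
  · have := regular_normal_three_primitive (by omega) (hle 3 (by omega)) N ht hr
    omega

end Cfsg.Agent.S0698
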