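import Cfsg.Statements.S0699
import Cfsg.Agent.Perm.NormalSub
import Cfsg.Agent.Perm.Generous
import Cfsg.Agent.Perm.Sharp3Odd
import Cfsg.Agent.S0695

set_option autoImplicit false
open Cfsg

namespace Cfsg.Agent.S0699

open MulAction Perm

/-- Wagner's Theorem: a non-trivial normal subgroup of a triply transitive permutation group of odd degree at least 5 is triply transitive. -/
theorem result {α : Type*} [Fintype α] [DecidableEq α] (G : Subgroup (Equiv.Perm α)) (hodd : Odd (Fintype.card α)) (h5 : 5 ≤ Fintype.card α) (hG : MulAction.IsMultiplyPretransitive G α 3) (N : Subgroup G) [N.Normal] (hN : N ≠ ⊥) : MulAction.IsMultiplyPretransitive N α 3 := by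
  have hNn : N.Normal := inferInstance
  have hα : Nat.card α = Fintype.card α := Nat.card_eq_fintype_card
  have hG' : IsMultiplyPreprimitive G α 2 :=
    isMultiplyPreprimitive_of_isMultiplyPretransitive_succ G α
      (by rw [ENat.card_eq_coe_natCard]; exact_mod_cast (by omega))
  haveI := isPreprimitive_of_is_two_pretransitive hG'.isMultiplyPretransitive
  have ht := isPretransitive_of_normal (α := α) N hN
  have h2 : IsMultiplyPretransitive N α 2 := by
    refine isMultiplyPretransitive_of_normal 1 hG' (by omega) N ?_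
    by_contra h
    have hr : ∀ a : α, ∀ h ∈ N, h • a = a → h = 1 := fun a u hu ha => by
      by_contra h1; exact h ⟨a, u, hu, h1, ha⟩
    rcases S0695.result (by omega) hG' N ht fun a => (stabilizer_eq_bot_iff N a).mpr (hr a)
      with h | ⟨-, -, _ | m, h⟩
    · omega
    · omega
    · rw [h, pow_succ, Nat.odd_iff] at hodd; omega
  -- an involution in `N`
  haveI : Nontrivial α := Fintype.one_lt_card_iff_nontrivial.mp (by omega)
  obtain ⟨a, b, hab⟩ := exists_pair_ne α
  obtain ⟨u, hua, hub⟩ := exists_smul_two h2 hab hab.symm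
  have heven : 2 ∣ Nat.card N := by
    refine dvd_trans ?_ (orderOf_dvd_natCard u)
    by_contra h
    obtain ⟨m, hm⟩ := Nat.not_even_iff_odd.mp (fun h' => h h'.two_dvd)
    have h1 : ∀ j, (u ^ (2 * j)) • a = a := fun j => by
      induction j with
      | zero => simp
      | succ j ih => rw [mul_add, pow_add, mul_smul, mul_one, sq, mul_smul, hua, hub, ih]
    have := h1 m
    rw [← smul_left_cancel_iff u, ← mul_smul, ← pow_succ', ← hm, pow_orderOf_eq_one, one_smul,
      hua] at this
    exact hab this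
  haveI := Fact.mk Nat.prime_two
  obtain ⟨t, ht2⟩ := exists_prime_orderOf_dvd_card' 2 heven
  have htt : t * t = 1 := by rw [← sq, ← ht2, pow_orderOf_eq_one]
  have ht1 : t ≠ 1 := by rintro rfl; simp at ht2
  obtain ⟨x, -, hx⟩ := exists_fixed_of_odd (Ω := α) htt Set.univ (fun _ _ => trivial)
    (by simpa using hodd)
  obtain ⟨y, hy⟩ := exists_smul_ne (α := α) ht1
  have hxy : x ≠ y := by rintro rfl; exact hy hx
  have hxy' : x ≠ t • y := fun h => hxy (smul_left_cancel t (hx.trans h))
  have hgen : Generous N α 2 := generous_of_swap fun s hs a ha b hb hab => by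
    obtain ⟨c, hc⟩ := Finset.card_eq_one.mp (show ((s.erase a).erase b).card = 1 by
      rw [Finset.card_erase_of_mem (by simp [hb, hab.symm]), Finset.card_erase_of_mem ha, hs])
    have hc' : ∀ z, z ≠ b ∧ z ≠ a ∧ z ∈ s ↔ z = c := fun z => by
      rw [← Finset.mem_singleton, ← hc]; simp
    obtain ⟨hcb, hca, -⟩ := (hc' c).mpr rfl
    obtain ⟨g, h1, h2, h3⟩ := exists_smul_three hG hxy hxy' hy.symm hca hcb hab
    refine ⟨⟨g * t * g⁻¹, hNn.conj_mem _ t.2 g⟩, ?_, ?_, fun z hz hza hzb => ?_⟩
    · change (g * t * g⁻¹) • a = b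
      rw [← h2, ← h3, mul_smul, inv_smul_smul, mul_smul]; rfl
    · change (g * t * g⁻¹) • b = a
      rw [← h2, ← h3, mul_smul, inv_smul_smul, mul_smul]
      congr 1
      change t • t • y = y
      rw [← mul_smul, htt, one_smul]
    · change (g * t * g⁻¹) • z = z
      rw [(hc' z).mp ⟨hzb, hza, hz⟩, ← h1, mul_smul, inv_smul_smul, mul_smul]
      exact congrArg _ hx
  refine isMultiplyPretransitive_succ h2 {a, b} (Finset.card_pair hab) fun c d hc hd => ?_
  by_contra hcd
  let M : Subgroup G := N ⊓ fixingSubgroup G (({a, b} : Finset α) : Set α)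
  have hodd' : ∀ z ∉ ({a, b} : Finset α), ¬ 2 ∣ Nat.card (orbit M z) := by
    obtain ⟨w, hw, hw'⟩ := exists_orbit_not_dvd Nat.prime_two M (({a, b} : Finset α) : Set α)ᶜ
      (fun g hg z hz => notMem_of_mem_orbit_fixing hz ⟨⟨g, hg.2⟩, rfl⟩) (by
        have := Set.ncard_add_ncard_compl (({a, b} : Finset α) : Set α)
        rw [Set.ncard_coe_finset, Finset.card_pair hab] at this
        rw [Nat.card_coe_set_eq, Nat.odd_iff] at *
        omega)
    intro z hz
    simp only [Finset.coe_insert, Finset.coe_singleton, Set.mem_compl_iff, Set.mem_insert_iff,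
      Set.mem_singleton_iff, Finset.mem_insert, Finset.mem_singleton, not_or] at hz hw
    obtain ⟨g, h1, h2, rfl⟩ := exists_smul_three hG hab (Ne.symm hw.1) (Ne.symm hw.2) hab
      (Ne.symm hz.1) (Ne.symm hz.2)
    rwa [card_orbit_eq_of_conj M g fun m => ?_]
    have hg : g ∈ fixingSubgroup G (({a, b} : Finset α) : Set α) := by
      rw [mem_fixingSubgroup_iff]; simp [h1, h2]
    simp only [M, Subgroup.mem_inf, hNn.mem_comm_iff (a := g * m), inv_mul_cancel_left,
      Subgroup.mul_mem_cancel_right _ (Subgroup.inv_mem _ hg), Subgroup.mul_mem_cancel_left _ hg]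
  obtain ⟨i, hi⟩ := hgen.exists_dvd_card_orbit (by omega) Nat.prime_two le_rfl {a, b}
    (Finset.card_pair hab) ![c, d] (fun i => by fin_cases i <;> assumption) (fun i j hij => by
      fin_cases i <;> fin_cases j
      · exact absurd rfl hij
      · rintro ⟨g, hg⟩
        exact hcd ⟨g, fun z hz => g.2 ⟨z, hz⟩, hg⟩
      · rintro ⟨g, hg⟩
        exact hcd ⟨(g⁻¹ : fixingSubgroup N _), fun z hz => (g⁻¹).2 ⟨z, hz⟩,
          inv_smul_eq_iff.mpr (Eq.symm hg)⟩
      · exact absurd rfl hij)
  rw [orbit_fixingSubgroup_subgroup] at hi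
  exact hodd' _ (by fin_cases i <;> assumption) hi

end Cfsg.Agent.S0699
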