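import Cfsg.Statements.S0700
import Cfsg.Agent.Perm.BurnsideMin

set_option autoImplicit false
open Cfsg

namespace Cfsg.Agent.S0700

open MulAction Perm

/-- Burnside's Theorem on doubly transitive groups: a minimal normal subgroup of a finite doubly transitive permutation group is elementary abelian and regular, or simple and primitive. -/
theorem result {α : Type*} [Fintype α] [DecidableEq α] (G : Subgroup (Equiv.Perm α)) (hG : MulAction.IsMultiplyPretransitive G α 2) (N : Subgroup G) [N.Normal] (hN : N ≠ ⊥) (hmin : ∀ M : Subgroup G, M.Normal → M ≤ N → M = ⊥ ∨ M = N) : (IsMulCommutative N ∧ (∃ p : ℕ, p.Prime ∧ ∀ n ∈ N, n ^ p = 1) ∧ ∀ a : α, MulAction.stabilizer N a = ⊥) ∨ (IsSimpleGroup N ∧ MulAction.IsPreprimitive N α) := by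
  by_cases h : ∃ a : α, ∃ u ∈ N, u ≠ 1 ∧ u • a = a
  · have hp := isPreprimitive_of_minimal_normal hG N hN hmin h
    exact Or.inr ⟨isSimpleGroup_of_minimal_normal hG N hN hmin hp, hp⟩
  have hr : ∀ a : α, ∀ h ∈ N, h • a = a → h = 1 := fun a u hu ha => by
    by_contra h1; exact h ⟨a, u, hu, h1, ha⟩
  obtain ⟨u, hu⟩ := (Subgroup.ne_bot_iff_exists_ne_one).mp hN
  obtain ⟨a, -⟩ := exists_smul_ne (α := α) hu
  obtain ⟨h1, h2⟩ := elementary_of_regular_normal hG N hN a (hr a)
  exact Or.inl ⟨isMulCommutative_of_forall h1, h2, fun a => (stabilizer_eq_bot_iff N a).mpr (hr a)⟩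

end Cfsg.Agent.S0700
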