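import Cfsg.Statements.S0701

set_option autoImplicit false
open Cfsg

namespace Cfsg.Agent.S0701

open MulAction

/-- The centraliser in the full symmetric group of a transitive permutation group `G` is semiregular, and it is transitive if and only if `G` is regular. -/
theorem result {α : Type*} (G : Subgroup (Equiv.Perm α)) [MulAction.IsPretransitive G α] : (∀ c ∈ Subgroup.centralizer (G : Set (Equiv.Perm α)), ∀ a : α, c a = a → c = 1) ∧ (MulAction.IsPretransitive (Subgroup.centralizer (G : Set (Equiv.Perm α))) α ↔ ∀ a : α, MulAction.stabilizer G a = ⊥) := by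
  have key : ∀ c ∈ Subgroup.centralizer (G : Set (Equiv.Perm α)), ∀ a : α, c a = a → c = 1 := by
    intro c hc a ha
    ext b
    obtain ⟨g, rfl⟩ := exists_smul_eq G a b
    have h := Equiv.congr_fun (hc g g.2) a
    simp only [Equiv.Perm.coe_mul, Function.comp_apply, ha] at h
    exact h.symm
  refine ⟨key, fun h a => ?_, fun h => ⟨fun a b => ?_⟩⟩
  · rw [eq_bot_iff]
    intro g hg
    apply Subtype.ext
    ext b
    obtain ⟨c, rfl⟩ := exists_smul_eq (Subgroup.centralizer (G : Set (Equiv.Perm α))) a b
    have h := Equiv.congr_fun (c.2 g g.2) a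
    have hg' : (g : Equiv.Perm α) a = a := hg
    simp only [Equiv.Perm.coe_mul, Function.comp_apply, hg'] at h
    exact h
  · choose t ht using fun x => exists_smul_eq G a x
    choose u hu using fun x => exists_smul_eq G b x
    have uniq : ∀ (x : α) (g₁ g₂ : G), g₁ • x = g₂ • x → g₁ = g₂ := by
      intro x g₁ g₂ hg
      have : g₂⁻¹ * g₁ ∈ stabilizer G x := by rw [mem_stabilizer_iff, mul_smul, hg, inv_smul_smul]
      rw [h x, Subgroup.mem_bot, inv_mul_eq_one] at this
      exact this.symm
    have ht' : ∀ g : G, t (g • a) = g := fun g => uniq a _ _ (ht _)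
    have hu' : ∀ g : G, u (g • b) = g := fun g => uniq b _ _ (hu _)
    let c : Equiv.Perm α :=
      { toFun := fun x => t x • b
        invFun := fun x => u x • a
        left_inv := fun x => by simp only [hu', ht]
        right_inv := fun x => by simp only [ht', hu] }
    refine ⟨⟨c, fun g hg => ?_⟩, ?_⟩
    · ext x
      change (⟨g, hg⟩ : G) • t x • b = t ((⟨g, hg⟩ : G) • x) • b
      conv_rhs => rw [← ht x, ← mul_smul, ht', mul_smul]
    · change t a • b = b
      have := ht' 1
      rw [one_smul] at this
      rw [this, one_smul]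

end Cfsg.Agent.S0701
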