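import Cfsg.Statements.S0702
import Mathlib.Algebra.Group.Subgroup.Finite
import Mathlib.Tactic.Group
import Cfsg.Agent.S0701

set_option autoImplicit false
open Cfsg

namespace Cfsg.Agent.S0702

open MulAction

/-- For a transitive permutation group `G` on a finite set, the centraliser of `G` in the symmetric group is isomorphic to `N_G(G_ω)/G_ω`, and its orbit of `ω` is the set of fixed points of `G_ω`. -/
theorem result {α : Type*} [Finite α] (G : Subgroup (Equiv.Perm α)) [MulAction.IsPretransitive G α] (a : α) : Nonempty (Subgroup.centralizer (G : Set (Equiv.Perm α)) ≃* Subgroup.normalizer ((MulAction.stabilizer G a : Subgroup G) : Set G) ⧸ (MulAction.stabilizer G a).subgroupOf (Subgroup.normalizer ((MulAction.stabilizer G a : Subgroup G) : Set G))) ∧ MulAction.orbit (Subgroup.centralizer (G : Set (Equiv.Perm α))) a = MulAction.fixedPoints (MulAction.stabilizer G a) α := by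
  let N := Subgroup.normalizer ((MulAction.stabilizer G a : Subgroup G) : Set G)
  let C := Subgroup.centralizer (G : Set (Equiv.Perm α))
  choose t ht using fun x => exists_smul_eq G a x
  have hwd : ∀ (n : N) (g : G), (t (g • a) * (n : G)⁻¹) • a = (g * (n : G)⁻¹) • a := by
    intro n g
    have h1 : g⁻¹ * t (g • a) ∈ stabilizer G a := by
      rw [mem_stabilizer_iff, mul_smul, ht, inv_smul_smul]
    have h2 := (Subgroup.mem_normalizer_iff.mp n.2 _).mp h1
    rw [mem_stabilizer_iff] at h2
    conv_rhs => rw [← h2, ← mul_smul]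
    congr 1
    group
  let f : N →* Function.End α :=
    { toFun := fun n x => (t x * (n : G)⁻¹) • a
      map_one' := by funext x; simp [ht, Function.End.one_def]
      map_mul' := fun m n => by
        funext x
        change _ = (t ((t x * (n : G)⁻¹) • a) * (m : G)⁻¹) • a
        rw [hwd, Subgroup.coe_mul, mul_inv_rev, mul_assoc] }
  let φ : N →* Equiv.Perm α := f.toHomPerm
  have hφ : ∀ (n : N) (g : G), φ n (g • a) = (g * (n : G)⁻¹) • a := fun n g => hwd n g
  have hφC : ∀ n, φ n ∈ C := by
    intro n g hg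
    ext x
    obtain ⟨k, rfl⟩ := exists_smul_eq G a x
    change (⟨g, hg⟩ : G) • φ n (k • a) = φ n ((⟨g, hg⟩ : G) • k • a)
    rw [← mul_smul, hφ, hφ, ← mul_smul, mul_assoc]
  have hcomm : ∀ c ∈ C, ∀ (g : G) x, c (g • x) = g • c x := fun c hc g x =>
    (Equiv.congr_fun (hc g g.2) x).symm
  have hfix : ∀ x ∈ fixedPoints (stabilizer G a) α, ∃ n : N, φ n a = x := by
    intro x hx
    have h1 : ∀ s ∈ stabilizer G a, (t x)⁻¹ * s * t x ∈ stabilizer G a := by
      intro s hs
      have := hx ⟨s, hs⟩
      rw [mem_stabilizer_iff, mul_smul, mul_smul, ht, inv_smul_eq_iff, ht]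
      exact this
    have h2 : (t x)⁻¹ ∈ N := Subgroup.mem_normalizer_fintype (fun s hs => by simpa using h1 s hs)
    refine ⟨⟨_, h2⟩, ?_⟩
    have := hφ ⟨_, h2⟩ 1
    simpa [ht] using this
  have hCfix : ∀ c ∈ C, c a ∈ fixedPoints (stabilizer G a) α := by
    intro c hc s
    change (s : G) • c a = c a
    rw [← hcomm c hc, s.2]
  have hsurj : Function.Surjective (φ.codRestrict C hφC) := by
    rintro ⟨c, hc⟩
    obtain ⟨n, hn⟩ := hfix _ (hCfix c hc)
    refine ⟨n, Subtype.ext ?_⟩
    ext x
    obtain ⟨k, rfl⟩ := exists_smul_eq G a x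
    change φ n (k • a) = c (k • a)
    rw [hcomm _ hc, hcomm _ (hφC n), hn]
  have hker : (φ.codRestrict C hφC).ker = (stabilizer G a).subgroupOf N := by
    ext n
    rw [MonoidHom.ker_codRestrict, MonoidHom.mem_ker, Subgroup.mem_subgroupOf, ← inv_mem_iff,
      mem_stabilizer_iff]
    have h1 : φ n a = (n : G)⁻¹ • a := by simpa using hφ n 1
    constructor
    · intro h; rw [← h1, h]; rfl
    · intro h
      exact (Cfsg.Agent.S0701.result G).1 _ (hφC n) a (h1.trans h)
  refine ⟨⟨((QuotientGroup.quotientKerEquivOfSurjective _ hsurj).symm.trans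
    (QuotientGroup.quotientMulEquivOfEq hker))⟩, ?_⟩
  ext x
  constructor
  · rintro ⟨c, rfl⟩
    exact hCfix c c.2
  · intro hx
    obtain ⟨n, hn⟩ := hfix x hx
    exact ⟨⟨φ n, hφC n⟩, hn⟩

end Cfsg.Agent.S0702
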