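import Cfsg.Statements.S0703
import Cfsg.Agent.S0704

set_option autoImplicit false
open Cfsg

namespace Cfsg.Agent.S0703

open MulAction Cfsg.Agent.Perm

/-- An abelian transitive minimal normal subgroup `M` of a permutation group on a finite set is self-centralising in the symmetric group, regular, elementary abelian, and is the unique minimal normal subgroup. -/
theorem result {α : Type*} [Finite α] (G : Subgroup (Equiv.Perm α)) (M : Subgroup G) [M.Normal] (hM : M ≠ ⊥) (hmin : ∀ L : Subgroup G, L.Normal → L ≤ M → L = ⊥ ∨ L = M) (hab : IsMulCommutative M) (htrans : MulAction.IsPretransitive M α) : Subgroup.centralizer ((M.map G.subtype : Subgroup (Equiv.Perm α)) : Set (Equiv.Perm α)) = M.map G.subtype ∧ (∀ a : α, MulAction.stabilizer M a = ⊥) ∧ (∃ p : ℕ, p.Prime ∧ ∀ m ∈ M, m ^ p = 1) ∧ ∀ L : Subgroup G, L.Normal → L ≠ ⊥ → (∀ L' : Subgroup G, L'.Normal → L' ≤ L → L' = ⊥ ∨ L' = L) → L = M := by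
  have hne : Nonempty α := by
    by_contra h
    rw [not_nonempty_iff] at h
    apply hM
    rw [eq_bot_iff]
    intro x _
    exact Subsingleton.elim _ _
  obtain ⟨a⟩ := hne
  have hc := mul_comm_of_isMulCommutative hab
  have hC := Cfsg.Agent.S0704.centralizer_eq G M M a hc htrans htrans
  refine ⟨hC, fun x => (stabilizer_eq_bot_iff M x).mpr fun m hm hx =>
    eq_one_of_commute htrans (fun n hn => hc n hn m hm) hx,
    exists_prime_pow_eq_one M hM hmin hab, fun L hLn hL hLmin => ?_⟩
  refine (hmin L hLn ?_).resolve_left hL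
  by_contra h
  apply h
  have := commute_of_minimal_normal hLmin h
  intro l hl
  have : (l : Equiv.Perm α) ∈ M.map G.subtype := by
    rw [← hC]
    rintro _ ⟨m, hm, rfl⟩
    exact congrArg Subtype.val (this l hl m hm).symm
  obtain ⟨n, hn, h⟩ := this
  exact Subtype.ext h ▸ hn

end Cfsg.Agent.S0703
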