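import Cfsg.Statements.S0707
import Mathlib.GroupTheory.SpecificGroups.Cyclic
import Cfsg.Agent.Perm.Basic

set_option autoImplicit false
open Cfsg

namespace Cfsg.Agent.S0707

open MulAction

/-- In a primitive permutation group, distinct points have distinct stabilisers unless the group is regular of prime degree. -/
theorem result {α : Type*} (G : Subgroup (Equiv.Perm α)) [MulAction.IsPreprimitive G α] (h : ¬ (Nat.card α).Prime ∨ ∃ a : α, MulAction.stabilizer G a ≠ ⊥) {a b : α} (hab : a ≠ b) : MulAction.stabilizer G a ≠ MulAction.stabilizer G b := by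
  intro heq
  have : Nontrivial α := ⟨a, b, hab⟩
  have hco := IsPreprimitive.isCoatom_stabilizer_of_isPreprimitive G a
  have hB : IsBlock G {x : α | stabilizer G x = stabilizer G a} := by
    rw [isBlock_iff_smul_eq_of_mem]
    intro g x hx hgx
    have key : ∀ y : α, stabilizer G y = stabilizer G a ↔ stabilizer G (g • y) = stabilizer G a := by
      intro y
      have hx' : stabilizer G x = stabilizer G a := hx
      have hgx' : stabilizer G (g • x) = stabilizer G a := hgx
      conv_rhs => rw [← hgx']
      rw [← hx', stabilizer_smul_eq_stabilizer_map_conj, stabilizer_smul_eq_stabilizer_map_conj]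
      exact (Subgroup.map_injective (MulAut.conj g).injective).eq_iff.symm
    ext y
    rw [Set.mem_smul_set_iff_inv_smul_mem, Set.mem_ofPred_eq, key, smul_inv_smul]
    rfl
  have hbot : ∀ x : α, stabilizer G x = ⊥ := by
    rcases hB.subsingleton_or_eq_univ with h1 | h1
    · exact absurd (h1 (show a ∈ _ from rfl) (show b ∈ _ from heq.symm)) hab
    · have h2 : ∀ x : α, stabilizer G x = stabilizer G a := fun x => by
        have : x ∈ {x : α | stabilizer G x = stabilizer G a} := h1 ▸ Set.mem_univ x
        exact this
      intro x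
      rw [eq_bot_iff]
      intro g hg
      apply Subtype.ext
      ext y
      rw [h2, ← h2 y] at hg
      exact hg
  rcases h with h | ⟨x, hx⟩
  · apply h
    rw [hbot a] at hco
    have hall : ∀ H : Subgroup G, H = ⊥ ∨ H = ⊤ := fun H => by
      rcases eq_or_ne H ⊥ with h | h
      · exact Or.inl h
      · exact Or.inr (hco.2 H (bot_lt_iff_ne_bot.mpr h))
    have hnt : Nontrivial G := (Subgroup.nontrivial_iff).mp ⟨⊥, ⊤, hco.1⟩
    obtain ⟨g, hg⟩ := exists_ne (1 : G)
    have hcyc : IsCyclic G := isCyclic_iff_exists_zpowers_eq_top.mpr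
      ⟨g, (hall _).resolve_left (by simpa using hg)⟩
    have hs : IsSimpleGroup G := ⟨fun H _ => hall H⟩
    have hp := Group.is_simple_iff_prime_card.mp hs
    rw [← Perm.card_mul_card_stabilizer a, hbot a] at hp
    simpa using hp
  · exact hx (hbot x)

end Cfsg.Agent.S0707
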