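import Cfsg.Statements.S0708
import Cfsg.Agent.Perm.PrimeDeg

set_option autoImplicit false
open Cfsg

namespace Cfsg.Agent.S0708

open MulAction Perm

/-- Tits' argument: a sharply 4-transitive group (no finiteness assumed) has finite degree at most 11, and at most 6 when the degree is even. -/
theorem result {G : Type*} [Group G] {Ω : Type*} [MulAction G Ω] (h4 : MulAction.IsMultiplyPretransitive G Ω 4) (hsharp : ∀ x : Fin 4 ↪ Ω, MulAction.stabilizer G x = ⊥) (hne : Nonempty (Fin 4 ↪ Ω)) : Finite Ω ∧ Nat.card Ω ≤ 11 ∧ (Even (Nat.card Ω) → Nat.card Ω ≤ 6) := by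
  classical
  obtain ⟨x⟩ := hne
  have hx : ∀ i j, i ≠ j → x i ≠ x j := fun i j h => x.injective.ne h
  have h01 := hx 0 1 (by decide)
  have h02 := hx 0 2 (by decide)
  have h03 := hx 0 3 (by decide)
  have h12 := hx 1 2 (by decide)
  have h13 := hx 1 3 (by decide)
  have h23 := hx 2 3 (by decide)
  generalize x 0 = p at *
  generalize x 1 = q at *
  generalize x 2 = r at *
  generalize x 3 = s at *
  have sh := @eq_one_of_sharp_four G Ω _ _ hsharp
  obtain ⟨t, tp, tq, tr, ts⟩ := exists_smul_four h4 h01 h02 h03 h12 h13 h23 h01.symm h12 h13 h02 h03 h23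
  have htt : t * t = 1 := sh h01 h02 h03 h12 h13 h23 (by rw [mul_smul, tp, tq])
    (by rw [mul_smul, tq, tp]) (by rw [mul_smul, tr, tr]) (by rw [mul_smul, ts, ts])
  have htt' : ∀ a : Ω, t • t • a = a := fun a => by rw [smul_smul, htt, one_smul]
  have good : ∀ y z : Ω, p ≠ y → p ≠ z → q ≠ y → q ≠ z → y ≠ z → ∃ a₀ b₀ : Ω, ∀ v : G, v • p = p →
      v • q = q → v • y = z → v • z = y → ∀ a : Ω, t • a ≠ a → v • a = t • a → v • t • a = a →
      a = a₀ ∨ a = b₀ := by
    intro y z h1 h2 h3 h5 h6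
    by_cases h : ∃ (v : G) (a : Ω), v • p = p ∧ v • q = q ∧ v • y = z ∧ v • z = y ∧ t • a ≠ a ∧
      v • a = t • a ∧ v • t • a = a
    swap
    · exact ⟨p, p, fun v a1 a2 a3 a4 a a5 a6 a7 => absurd ⟨v, a, a1, a2, a3, a4, a5, a6, a7⟩ h⟩
    obtain ⟨v, a, a1, a2, a3, a4, a5, a6, a7⟩ := h
    refine ⟨a, t • a, fun w b1 b2 b3 b4 b b5 b6 b7 => ?_⟩
    obtain rfl : v = w := inv_mul_eq_one.1 (sh h01 h1 h2 h3 h5 h6
      (by rw [mul_smul, b1, inv_smul_eq_iff, a1]) (by rw [mul_smul, b2, inv_smul_eq_iff, a2])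
      (by rw [mul_smul, b3, inv_smul_eq_iff, a3]) (by rw [mul_smul, b4, inv_smul_eq_iff, a4]))
    by_contra! hc
    have : t * v = 1 := sh (a := a) (b := t • a) (c := b) (d := t • b) a5.symm hc.1.symm
      (fun e => hc.2 (by rw [e, htt'])) hc.2.symm (fun e => hc.1 (smul_left_cancel t e).symm) b5.symm
      (by rw [mul_smul, a6, htt']) (by rw [mul_smul, a7]) (by rw [mul_smul, b6, htt'])
      (by rw [mul_smul, b7])
    exact h01 (by rw [← tp, ← a1, smul_smul, this, one_smul, a1])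
  have hv : ∀ a : Ω, t • a ≠ a → a ≠ p → a ≠ q → ∃ v : G, v • p = p ∧ v • q = q ∧ v • a = t • a ∧
      v • t • a = a ∧ (∀ y : Ω, v • v • y = y) ∧ (∀ y : Ω, t • y = y → t • v • y = v • y) ∧
      ¬ (v • r = r ∧ v • s = s) := by
    intro a a1 a2 a3
    have a4 : p ≠ t • a := fun e => a3 (by rw [← tp, e, htt'])
    have a5 : q ≠ t • a := fun e => a2 (by rw [← tq, e, htt'])
    obtain ⟨v, v1, v2, v3, v4⟩ := exists_smul_four h4 h01 a2.symm a4 a3.symm a5 a1.symm
      h01 a4 a2.symm a5 a3.symm a1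
    have sh' := @sh _ _ _ _ h01 a2.symm a4 a3.symm a5 a1.symm
    have b1 : v * v = 1 := sh' (by rw [mul_smul, v1, v1]) (by rw [mul_smul, v2, v2])
      (by rw [mul_smul, v3, v4]) (by rw [mul_smul, v4, v3])
    have b2 : t * v * t * v = 1 := sh' (by simp only [mul_smul, v1, v2, tp, tq])
      (by simp only [mul_smul, v1, v2, tp, tq]) (by simp only [mul_smul, v3, htt'])
      (by simp only [mul_smul, v4])
    have b3 : ∀ y : Ω, v • v • y = y := fun y => by rw [smul_smul, b1, one_smul]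
    refine ⟨v, v1, v2, v3, v4, b3, fun y hy => ?_, fun h => a1 ?_⟩
    · have := congrArg (· • v • y) b2
      simpa only [mul_smul, b3, hy, one_smul] using this
    · rw [← v3, sh h01 h02 h03 h12 h13 h23 v1 v2 h.1 h.2, one_smul]
  have fin : ∀ (S : Finset Ω), (∀ a, a ∈ S) → Finite Ω ∧ Nat.card Ω ≤ S.card := fun S h => by
    have := Fintype.mk S h
    refine ⟨inferInstance, ?_⟩
    rw [Nat.card_eq_fintype_card, ← Finset.card_univ]
    exact Finset.card_le_card fun a _ => h a
  obtain ⟨a₁, b₁, g₁⟩ := good r s h02 h03 h12 h13 h23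
  by_cases hF : ∃ u : Ω, t • u = u ∧ u ≠ r ∧ u ≠ s
  · obtain ⟨u, tu, ur, us⟩ := hF
    have pu : p ≠ u := fun e => h01 (by rw [← tp, e, tu])
    have qu : q ≠ u := fun e => h01 (by rw [← tq, e, tu])
    have hfix : ∀ y : Ω, t • y = y → y = r ∨ y = s ∨ y = u := fun y hy => by
      by_contra! hc
      have := sh h23 ur.symm hc.1.symm us.symm hc.2.1.symm hc.2.2.symm tr ts tu hy
      exact h01 (by rw [← tp, this, one_smul])
    obtain ⟨a₂, b₂, g₂⟩ := good r u h02 pu h12 qu ur.symm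
    obtain ⟨a₃, b₃, g₃⟩ := good s u h03 pu h13 qu us.symm
    obtain ⟨f1, f2⟩ := fin [p, q, r, s, u, a₁, b₁, a₂, b₂, a₃, b₃].toFinset fun a => by
      by_cases a1 : t • a = a
      · rcases hfix a a1 with h | h | h <;> simp [h]
      by_cases a2 : a = p
      · simp [a2]
      by_cases a3 : a = q
      · simp [a3]
      obtain ⟨v, v1, v2, v3, v4, v5, v6, v7⟩ := hv a a1 a2 a3
      rcases hfix _ (v6 r tr) with h | h | h
      · rcases hfix _ (v6 s ts) with k | k | k
        · exact absurd (smul_left_cancel v (h.trans k.symm)) h23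
        · exact absurd ⟨h, k⟩ v7
        · rcases g₃ v v1 v2 k (by rw [← k, v5]) a a1 v3 v4 with h | h <;> simp [h]
      · rcases g₁ v v1 v2 h (by rw [← h, v5]) a a1 v3 v4 with h | h <;> simp [h]
      · rcases g₂ v v1 v2 h (by rw [← h, v5]) a a1 v3 v4 with h | h <;> simp [h]
    refine ⟨f1, f2.trans (List.toFinset_card_le _), fun he => ?_⟩
    have hT : IsPGroup 2 (Subgroup.zpowers t) := IsPGroup.of_card_dvd_pow (n := 1) (by
      rw [Nat.card_zpowers, pow_one]
      exact orderOf_dvd_of_pow_eq_one (by rw [sq, htt]))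
    have h5 := card_modEq_fixed hT (Set.univ : Set Ω) fun _ _ _ _ => trivial
    have h6 : {y : Ω | y ∈ Set.univ ∧ ∀ g ∈ Subgroup.zpowers t, g • y = y} = {r, s, u} := by
      ext y
      refine ⟨fun h => hfix y (h.2 t (Subgroup.mem_zpowers t)), fun h => ⟨trivial, fun g hg => ?_⟩⟩
      obtain rfl | rfl := eq_one_or_eq_of_mem_zpowers htt hg
      · exact one_smul _ _
      · rcases h with rfl | rfl | rfl <;> assumption
    rw [Nat.card_univ, show Nat.card {y : Ω // y ∈ Set.univ ∧ ∀ g ∈ Subgroup.zpowers t, g • y = y} = 3 by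
      rw [← Set.ncard_eq_three.2 ⟨r, s, u, h23, ur.symm, us.symm, h6⟩]; rfl] at h5
    exact absurd (Nat.even_iff.1 he) (by rw [h5]; decide)
  · have hfix : ∀ y : Ω, t • y = y → y = r ∨ y = s := fun y hy => by
      by_contra! hc
      exact hF ⟨y, hy, hc⟩
    obtain ⟨f1, f2⟩ := fin [p, q, r, s, a₁, b₁].toFinset fun a => by
      by_cases a1 : t • a = a
      · rcases hfix a a1 with h | h <;> simp [h]
      by_cases a2 : a = p
      · simp [a2]
      by_cases a3 : a = q
      · simp [a3]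
      obtain ⟨v, v1, v2, v3, v4, v5, v6, v7⟩ := hv a a1 a2 a3
      rcases hfix _ (v6 r tr) with h | h
      · rcases hfix _ (v6 s ts) with k | k
        · exact absurd (smul_left_cancel v (h.trans k.symm)) h23
        · exact absurd ⟨h, k⟩ v7
      · rcases g₁ v v1 v2 h (by rw [← h, v5]) a a1 v3 v4 with h | h <;> simp [h]
    have := f2.trans (List.toFinset_card_le _)
    exact ⟨f1, this.trans (by simp), fun _ => this⟩

end Cfsg.Agent.S0708
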