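import Cfsg.Statements.S0709

set_option autoImplicit false
open Cfsg

namespace Cfsg.Agent.S0709

open MulAction Subgroup

/-- Witt's Lemma for constructing transitive extensions. Points `q 1, …, q t` (`t ≥ 2`) of a finite set are given; `G` fixes `q i` for `i ≥ 3` and is doubly transitive on the remaining points; `s 1 ∈ G` swaps `q 1, q 2`; for `2 ≤ i ≤ t-1`, `s i` swaps `q i, q (i+1)` and fixes the other `q j`; with `H` the stabiliser of `q 1, q 2` in `G`: `s i ^ 2 ∈ H`, `(s i * s (i+1)) ^ 3 ∈ H`, `(s i * s j) ^ 2 ∈ H` for `j ≥ i + 2`, and `s i` (`i ≥ 2`) normalises the stabiliser of `q 2` in `G`. Then `G` and the `s i` generate a `t`-transitive group whose pointwise stabiliser of the `q`'s is `H`. -/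
theorem result {α : Type*} [Fintype α] [DecidableEq α] (t : ℕ) (ht : 2 ≤ t) (q : ℕ → α) (hq : ∀ i j : ℕ, 1 ≤ i → i ≤ t → 1 ≤ j → j ≤ t → q i = q j → i = j) (G : Subgroup (Equiv.Perm α)) (hfix : ∀ g ∈ G, ∀ i : ℕ, 3 ≤ i → i ≤ t → g (q i) = q i) (h2 : ∀ a b c d : α, (∀ i, 3 ≤ i → i ≤ t → a ≠ q i ∧ b ≠ q i ∧ c ≠ q i ∧ d ≠ q i) → a ≠ b → c ≠ d → ∃ g ∈ G, g a = c ∧ g b = d) (s : ℕ → Equiv.Perm α) (hs1 : s 1 ∈ G) (hs1q : s 1 (q 1) = q 2 ∧ s 1 (q 2) = q 1) (hsq : ∀ i : ℕ, 2 ≤ i → i + 1 ≤ t → s i (q i) = q (i + 1) ∧ s i (q (i + 1)) = q i ∧ ∀ j : ℕ, 1 ≤ j → j ≤ t → j ≠ i → j ≠ i + 1 → s i (q j) = q j) (H : Subgroup (Equiv.Perm α)) (hH : H = G ⊓ MulAction.stabilizer (Equiv.Perm α) (q 1) ⊓ MulAction.stabilizer (Equiv.Perm α) (q 2)) (hsq2 : ∀ i : ℕ, 1 ≤ i → i + 1 ≤ t → s i ^ 2 ∈ H) (hbraid : ∀ i : ℕ, 1 ≤ i → i + 2 ≤ t → (s i * s (i + 1)) ^ 3 ∈ H) (hcomm : ∀ i j : ℕ, 1 ≤ i → i + 2 ≤ j → j + 1 ≤ t → (s i * s j) ^ 2 ∈ H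 ∧ (s j * s i) ^ 2 ∈ H) (hnorm : ∀ i : ℕ, 2 ≤ i → i + 1 ≤ t → ∀ g ∈ G ⊓ MulAction.stabilizer (Equiv.Perm α) (q 2), s i * g * (s i)⁻¹ ∈ G ⊓ MulAction.stabilizer (Equiv.Perm α) (q 2)) : MulAction.IsMultiplyPretransitive ↥(Subgroup.closure ((G : Set (Equiv.Perm α)) ∪ {x | ∃ i : ℕ, 2 ≤ i ∧ i + 1 ≤ t ∧ x = s i})) α t ∧ Subgroup.closure ((G : Set (Equiv.Perm α)) ∪ {x | ∃ i : ℕ, 2 ≤ i ∧ i + 1 ≤ t ∧ x = s i}) ⊓ fixingSubgroup (Equiv.Perm α) {x | ∃ i : ℕ, 1 ≤ i ∧ i ≤ t ∧ x = q i} = H := by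
  set G1 := G ⊓ stabilizer (Equiv.Perm α) (q 2) with hG1
  have mG1 : ∀ g, g ∈ G1 ↔ g ∈ G ∧ g (q 2) = q 2 := fun g => Iff.rfl
  have mH : ∀ g, g ∈ H ↔ (g ∈ G ∧ g (q 1) = q 1) ∧ g (q 2) = q 2 := fun g => by rw [hH]; rfl
  let Y : ℕ → Subgroup (Equiv.Perm α) := fun k => closure ((G1 : Set _) ∪ {x | ∃ i, 1 ≤ i ∧ i + 1 ≤ k ∧ x = s i})
  have hY1 : ∀ k, G1 ≤ Y k := fun k x hx => subset_closure (Or.inl hx)
  have hHY : ∀ k, H ≤ Y k := fun k x hx => hY1 k ((mG1 x).2 ⟨((mH x).1 hx).1.1, ((mH x).1 hx).2⟩)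
  have hsY : ∀ i k, 1 ≤ i → i + 1 ≤ k → s i ∈ Y k := fun i k h1 h2 => subset_closure (Or.inr ⟨i, h1, h2, rfl⟩)
  have hmono : ∀ k, Y k ≤ Y (k + 1) := fun k => closure_mono (Set.union_subset_union_right _
    fun x ⟨i, h1, h2, e⟩ => ⟨i, h1, by omega, e⟩)
  have hY11 : Y 1 ≤ G1 := (closure_le _).2 (by rintro x (hx | ⟨i, h1, h2, -⟩); exacts [hx, by omega])
  have hY2 : Y 2 ≤ G := (closure_le _).2 (by
    rintro x (hx | ⟨i, h1, h2, rfl⟩)
    · exact hx.1
    · rwa [show i = 1 by omega])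
  have hs : ∀ i, 1 ≤ i → i + 1 ≤ t → s i (q i) = q (i + 1) ∧ s i (q (i + 1)) = q i ∧
      ∀ j, i + 1 < j → j ≤ t → s i (q j) = q j := fun i h1 h2 => by
    rcases h1.eq_or_lt with rfl | h1
    · exact ⟨hs1q.1, hs1q.2, fun j h3 h4 => hfix _ hs1 j h3 h4⟩
    · exact ⟨(hsq i h1 h2).1, (hsq i h1 h2).2.1, fun j h3 h4 => (hsq i h1 h2).2.2 j (by omega) h4 (by omega) (by omega)⟩
  have hYfix : ∀ k j, 1 ≤ k → k < j → j ≤ t → ∀ g ∈ Y k, g (q j) = q j := fun k j h1 h2 h3 =>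
    (closure_le (stabilizer (Equiv.Perm α) (q j))).2 (by
      rintro x (hx | ⟨i, h4, h5, rfl⟩)
      · rcases (show j = 2 ∨ 3 ≤ j by omega) with rfl | h
        · exact hx.2
        · exact hfix x hx.1 j h h3
      · exact (hs i h4 (by omega)).2.2 j (by omega) h3)
  have hne : ∀ i j, 1 ≤ i → i < j → j ≤ t → q i ≠ q j := fun i j h1 h2 h3 e =>
    h2.ne (hq i j h1 (by omega) (by omega) h3 e)
  have T0 : ∀ y z, (∀ j, 1 < j → j ≤ t → y ≠ q j) → (∀ j, 1 < j → j ≤ t → z ≠ q j) → ∃ g ∈ G1, g y = z :=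
    fun y z hy hz => by
      obtain ⟨g, hg, e1, e2⟩ := h2 (q 2) y (q 2) z (fun i h1 h3 => ⟨hne 2 i (by omega) h1 h3, hy i (by omega) h3,
        hne 2 i (by omega) h1 h3, hz i (by omega) h3⟩) (hy 2 (by omega) ht).symm (hz 2 (by omega) ht).symm
      exact ⟨g, ⟨hg, e1⟩, e2⟩
  have DC : ∀ k, 1 ≤ k → k + 1 ≤ t → ∀ g ∈ Y (k + 1), g ∈ Y k ∨ ∃ a ∈ Y k, ∃ b ∈ Y k, g = a * s k * b := by
    intro k hk
    induction k, hk using Nat.le_induction with
    | base =>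
      intro _ g hg
      replace hg := hY2 hg
      by_cases e : g (q 2) = q 2
      · exact Or.inl (hY1 1 ⟨hg, e⟩)
      · obtain ⟨a, ha, e1⟩ := T0 (q 1) (g (q 2)) (fun j h1 h3 => hne 1 j le_rfl h1 h3) fun j h1 h3 e1 => by
          rcases (show j = 2 ∨ 3 ≤ j by omega) with rfl | h
          · exact e e1
          · exact hne 2 j (by omega) h h3 (g.injective (e1.trans (hfix g hg j h h3).symm))
        refine Or.inr ⟨a, hY1 1 ha, (a * s 1)⁻¹ * g, hY1 1 ((mG1 _).2 ⟨G.mul_mem (G.inv_mem (G.mul_mem ha.1 hs1)) hg, ?_⟩), by group⟩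
        change (a * s 1)⁻¹ (g (q 2)) = q 2
        rw [Equiv.Perm.inv_eq_iff_eq, Equiv.Perm.mul_apply, hs1q.2, e1]
    | succ k hk ih =>
      intro hkt
      replace ih := ih (by omega)
      have hss : ∀ k', s (k + 1) ^ 2 ∈ Y k' := fun k' => hHY _ (hsq2 _ (by omega) hkt)
      have n1 : ∀ y ∈ Y k, s (k + 1) * y * (s (k + 1))⁻¹ ∈ Y k := fun y hy => by
        have : Y k ≤ (Y k).comap (MulAut.conj (s (k + 1))).toMonoidHom := (closure_le _).2 (by
          rintro x (hx | ⟨i, h1, h2, rfl⟩)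
          · exact hY1 k (hnorm (k + 1) (by omega) hkt x hx)
          · have := mul_mem (mul_mem (hHY k (hcomm i (k + 1) h1 (by omega) hkt).2) (inv_mem (hsY i k h1 h2)))
              (inv_mem (hss k))
            change s (k + 1) * s i * (s (k + 1))⁻¹ ∈ Y k
            convert this using 1
            simp only [sq]; group)
        exact this hy
      have n2 : ∀ y ∈ Y k, (s (k + 1))⁻¹ * y * s (k + 1) ∈ Y k := fun y hy => by
        convert mul_mem (mul_mem (inv_mem (hss k)) (n1 y hy)) (hss k) using 1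
        simp only [sq]; group
      let P : Equiv.Perm α → Prop := fun g => g ∈ Y (k + 1) ∨ ∃ a ∈ Y (k + 1), ∃ b ∈ Y (k + 1), g = a * s (k + 1) * b
      have p1 : ∀ y ∈ Y (k + 1), ∀ g, P g → P (y * g) := by
        rintro y hy g (hg | ⟨a, ha, b, hb, rfl⟩)
        · exact Or.inl (mul_mem hy hg)
        · exact Or.inr ⟨y * a, mul_mem hy ha, b, hb, by group⟩
      have p2 : ∀ g, P g → P (s (k + 1) * g) := by
        rintro g (hg | ⟨a, ha, b, hb, rfl⟩)
        · exact Or.inr ⟨1, one_mem _, g, hg, by rw [one_mul]⟩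
        · rcases ih a ha with ha | ⟨a1, h1, a2, h2, rfl⟩
          · left
            convert mul_mem (mul_mem (hmono k (n1 a ha)) (hss _)) hb using 1
            simp only [sq]; group
          · have hk' := inv_mem (hsY k (k + 1) hk le_rfl)
            refine Or.inr ⟨_, mul_mem (mul_mem (mul_mem (hmono k (n1 a1 h1)) hk') (hHY _ (hbraid k hk hkt)))
              (inv_mem (hss _)), _, mul_mem (mul_mem hk' (hmono k (n2 a2 h2))) hb, ?_⟩
            simp only [pow_succ, pow_zero, one_mul]; group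
      have gen : ∀ x ∈ ((G1 : Set _) ∪ {x | ∃ i, 1 ≤ i ∧ i + 1 ≤ k + 1 + 1 ∧ x = s i}), x ∈ Y (k + 1) ∨ x = s (k + 1) := by
        rintro x (hx | ⟨i, h1, h2, rfl⟩)
        · exact Or.inl (hY1 _ hx)
        · rcases h2.eq_or_lt with e | e
          · exact Or.inr (by rw [show i = k + 1 by omega])
          · exact Or.inl (hsY i _ h1 (by omega))
      intro g hg
      induction hg using closure_induction_left with
      | one => exact Or.inl (one_mem _)
      | mul_left x hx y _ h =>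
        rcases gen x hx with e | rfl
        exacts [p1 x e y h, p2 y h]
      | inv_mul_cancel x hx y _ h =>
        rcases gen x hx with e | rfl
        · exact p1 _ (inv_mem e) y h
        · have := p1 _ (inv_mem (hss _)) _ (p2 y h)
          rwa [show (s (k + 1) ^ 2)⁻¹ * (s (k + 1) * y) = (s (k + 1))⁻¹ * y by simp only [sq]; group] at this
  have ST : ∀ k, 1 ≤ k → k ≤ t → ∀ g ∈ Y k, (∀ j, 1 ≤ j → j ≤ t → g (q j) = q j) → g ∈ Y 1 := by
    intro k hk
    induction k, hk using Nat.le_induction with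
    | base => exact fun _ g hg _ => hg
    | succ k hk ih =>
      intro hkt g hg hf
      rcases DC k hk hkt g hg with h | ⟨a, ha, b, hb, rfl⟩
      · exact ih (by omega) g h hf
      · have := hf (k + 1) (by omega) hkt
        rw [Equiv.Perm.mul_apply, Equiv.Perm.mul_apply, hYfix k _ hk (by omega) hkt b hb, (hs k hk hkt).2.1] at this
        exact absurd (a.injective (this.trans (hYfix k _ hk (by omega) hkt a ha).symm)) (hne _ _ hk (by omega) hkt)
  have T1 : ∀ k, 1 ≤ k → k ≤ t → ∀ y, (∀ j, k < j → j ≤ t → y ≠ q j) → ∃ g ∈ Y k, g y = q k := by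
    intro k hk
    induction k, hk using Nat.le_induction with
    | base =>
      intro _ y hy
      obtain ⟨g, hg, e⟩ := T0 y (q 1) hy fun j h1 h3 => hne 1 j le_rfl h1 h3
      exact ⟨g, hY1 1 hg, e⟩
    | succ k hk ih =>
      intro hkt y hy
      by_cases e : y = q (k + 1)
      · exact ⟨1, one_mem _, e⟩
      · obtain ⟨g, hg, e1⟩ := ih (by omega) y fun j h1 h3 => by
          rcases (show j = k + 1 ∨ k + 1 < j by omega) with rfl | h
          exacts [e, hy j h h3]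
        exact ⟨s k * g, mul_mem (hsY k _ hk le_rfl) (hmono k hg), by rw [Equiv.Perm.mul_apply, e1, (hs k hk hkt).1]⟩
  have T : ∀ k, 1 ≤ k → k ≤ t → ∀ x : ℕ → α, (∀ i j, 1 ≤ i → i < j → j ≤ k → x i ≠ x j) →
      (∀ i j, 1 ≤ i → i ≤ k → k < j → j ≤ t → x i ≠ q j) → ∃ g ∈ Y k, ∀ i, 1 ≤ i → i ≤ k → g (x i) = q i := by
    intro k hk
    induction k, hk using Nat.le_induction with
    | base =>
      intro h x _ hx
      obtain ⟨g, hg, e⟩ := T1 1 le_rfl h (x 1) fun j => hx 1 j le_rfl le_rfl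
      exact ⟨g, hg, fun i h1 h2 => by rwa [show i = 1 by omega]⟩
    | succ k hk ih =>
      intro hkt x hi hx
      obtain ⟨g, hg, e⟩ := T1 (k + 1) (by omega) hkt (x (k + 1)) fun j => hx _ j (by omega) le_rfl
      obtain ⟨g', hg', e'⟩ := ih (by omega) (fun i => g (x i))
        (fun i j h1 h2 h3 e1 => hi i j h1 h2 (by omega) (g.injective e1)) fun i j h1 h2 h3 h4 e1 => by
          rcases (show j = k + 1 ∨ k + 1 < j by omega) with rfl | h
          · exact hi i (k + 1) h1 (by omega) le_rfl (g.injective (e1.trans e.symm))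
          · exact hx i j h1 (by omega) h h4 (g.injective (e1.trans (hYfix _ j (by omega) h h4 g hg).symm))
      refine ⟨g' * g, mul_mem (hmono k hg') hg, fun i h1 h2 => ?_⟩
      rcases h2.eq_or_lt with rfl | h2
      · rw [Equiv.Perm.mul_apply, e, hYfix k _ hk (by omega) hkt g' hg']
      · exact e' i h1 (by omega)
  have hGY : G ≤ Y t := by
    have h3 : ∀ k, 2 ≤ k → Y 2 ≤ Y k := fun k hk => by
      induction k, hk using Nat.le_induction with
      | base => exact le_rfl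
      | succ k _ ih => exact ih.trans (hmono k)
    intro g hg
    obtain ⟨a, ha, e⟩ := T1 2 (by omega) ht (g (q 2)) fun j h1 h3 e1 =>
      hne 2 j (by omega) h1 h3 (g.injective (e1.trans (hfix g hg j h1 h3).symm))
    simpa using mul_mem (inv_mem (h3 t ht ha)) (hY1 t (⟨mul_mem (hY2 ha) hg, e⟩ : a * g ∈ G1))
  have hX : closure ((G : Set (Equiv.Perm α)) ∪ {x | ∃ i : ℕ, 2 ≤ i ∧ i + 1 ≤ t ∧ x = s i}) = Y t := by
    refine le_antisymm ((closure_le _).2 ?_) ((closure_le _).2 ?_)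
    · rintro x (hx | ⟨i, h1, h2, rfl⟩)
      exacts [hGY hx, hsY i t (by omega) h2]
    · rintro x (hx | ⟨i, h1, h2, rfl⟩)
      · exact subset_closure (Or.inl hx.1)
      · rcases h1.eq_or_lt with rfl | h1
        exacts [subset_closure (Or.inl hs1), subset_closure (Or.inr ⟨i, h1, h2, rfl⟩)]
  rw [hX]
  refine ⟨isMultiplyPretransitive_iff.2 ?_, ?_⟩
  · have : ∀ x : Fin t ↪ α, ∃ g ∈ Y t, ∀ i : Fin t, g (x i) = q (i + 1) := fun x => by
      obtain ⟨g, hg, e⟩ := T t (by omega) le_rfl (fun i => if h : i - 1 < t then x ⟨i - 1, h⟩ else q 0)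
        (fun i j h1 h2 h3 => by
          rw [dif_pos (by omega), dif_pos (by omega)]
          exact fun e => by have := congrArg Fin.val (x.injective e); simp only at this; omega)
        (fun i j _ _ _ _ => by omega)
      exact ⟨g, hg, fun i => by simpa using e (i + 1) (by omega) (by omega)⟩
    intro x y
    obtain ⟨g, hg, e⟩ := this x
    obtain ⟨g', hg', e'⟩ := this y
    refine ⟨⟨g'⁻¹ * g, mul_mem (inv_mem hg') hg⟩, Function.Embedding.ext fun i => ?_⟩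
    change g'⁻¹ (g (x i)) = y i
    rw [Equiv.Perm.inv_eq_iff_eq, e, e']
  · ext g
    rw [mem_inf, mem_fixingSubgroup_iff, mH]
    constructor
    · rintro ⟨hg, hf⟩
      have hf' : ∀ j, 1 ≤ j → j ≤ t → g (q j) = q j := fun j h1 h2 => hf _ ⟨j, h1, h2, rfl⟩
      exact ⟨⟨(hY11 (ST t (by omega) le_rfl g hg hf')).1, hf' 1 le_rfl (by omega)⟩, hf' 2 (by omega) ht⟩
    · rintro ⟨⟨hg, e1⟩, e2⟩
      refine ⟨hGY hg, ?_⟩
      rintro _ ⟨i, h1, h2, rfl⟩
      rcases (show i = 1 ∨ i = 2 ∨ 3 ≤ i by omega) with rfl | rfl | h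
      exacts [e1, e2, hfix g hg i h h2]

end Cfsg.Agent.S0709
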