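import Cfsg.Statements.S0711
import Cfsg.Agent.Perm.Basic
import Mathlib.GroupTheory.GroupAction.Jordan

set_option autoImplicit false
open Cfsg

namespace Cfsg.Agent.S0711

open MulAction Perm Equiv Equiv.Perm Finset

theorem exists_seg {α : Type*} [Fintype α] [DecidableEq α] (x : Perm α) (a : α) (j : ℕ)
    (hj : j ≤ x.support.card) : ∃ S ⊆ x.support, S.card = j ∧ ∃ s, ∀ u ∈ S, x u ∉ S → u = s := by
  induction j with
  | zero => exact ⟨∅, by simp, rfl, a, by simp⟩
  | succ j ih =>
    obtain ⟨S, h1, h2, s, h3⟩ := ih (by omega)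
    obtain ⟨a, a1, a2, a3⟩ : ∃ a ∈ x.support, a ∉ S ∧ ∀ u ∈ S, x u ∉ S → x u = a := by
      by_cases h : ∃ u ∈ S, x u ∉ S
      · obtain ⟨u, h4, h5⟩ := h
        exact ⟨x u, apply_mem_support.2 (h1 h4), h5, fun v h6 h7 => by rw [h3 v h6 h7, h3 u h4 h5]⟩
      · obtain ⟨a, h4, h5⟩ := exists_mem_notMem_of_card_lt_card (s := S) (t := x.support) (by omega)
        exact ⟨a, h4, h5, fun u h6 h7 => absurd ⟨u, h6, h7⟩ h⟩
    refine ⟨insert a S, insert_subset a1 h1, by rw [card_insert_of_notMem a2, h2], a,
      fun u h4 h5 => (mem_insert.1 h4).resolve_right fun h6 => ?_⟩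
    rw [mem_insert, not_or] at h5
    exact h5.1 (a3 u h6 h5.2)

theorem card_le {α : Type*} [Fintype α] [DecidableEq α] (x z : Perm α) (S B : Finset α)
    (hS : S ⊆ x.support) (hz : ∀ u ∈ S, z u = u) (hB : B ⊆ x.support ∩ (z * x * z⁻¹).support) :
    (x⁻¹ * (z * x * z⁻¹)).support.card + (S.filter fun u => x u ∈ S).card + B.card ≤
      2 * x.support.card := by
  have h1 := card_union_add_card_inter x.support (z * x * z⁻¹).support
  have h2 := card_le_card hB
  rw [card_support_conj] at h1
  have h3 : Disjoint (x⁻¹ * (z * x * z⁻¹)).support (S.filter fun u => x u ∈ S) :=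
    disjoint_right.2 fun u hu => by
      rw [mem_filter] at hu
      rw [notMem_support, Perm.mul_apply, Perm.mul_apply, Perm.mul_apply,
        inv_eq_iff_eq.2 (hz u hu.1).symm, hz _ hu.2, inv_eq_iff_eq]
  have h4 := card_le_card (union_subset ((support_mul_le x⁻¹ (z * x * z⁻¹)).trans
    (by rw [support_inv]; rfl))
    ((filter_subset (fun u => x u ∈ S) S).trans (hS.trans subset_union_left)) :
      _ ⊆ x.support ∪ (z * x * z⁻¹).support)
  rw [card_union_of_disjoint h3] at h4
  omega

/-- A `k`-transitive permutation group (`k ≥ 3`) with a non-identity element of support smaller than `2k - 2` contains a non-identity element of support at most 3, and therefore contains the alternating group. -/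
theorem result {α : Type*} [Fintype α] [DecidableEq α] (G : Subgroup (Equiv.Perm α)) {k : ℕ} (hk : 3 ≤ k) (hkn : k ≤ Fintype.card α) (hG : MulAction.IsMultiplyPretransitive G α k) (g : Equiv.Perm α) (hg : g ∈ G) (hg1 : g ≠ 1) (hsupp : g.support.card < 2 * k - 2) : (∃ h : Equiv.Perm α, h ∈ G ∧ h ≠ 1 ∧ h.support.card ≤ 3) ∧ alternatingGroup α ≤ G := by
  have hkn' : k ≤ Nat.card α := by simpa using hkn
  have hz : ∀ (S : Finset α) (a b : α), S.card < k → a ∉ S → b ∉ S →
      ∃ z ∈ G, (∀ u ∈ S, z u = u) ∧ z a = b := fun S a b h1 h2 h3 => by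
    obtain ⟨z, h4⟩ := exists_smul_eq_of_injOn_le hG hkn' (insert a S)
      ((card_insert_le a S).trans h1) (swap a b) (swap a b).injective.injOn
    exact ⟨z, z.2, fun u hu => (h4 u (mem_insert_of_mem hu)).trans
      (swap_apply_of_ne_of_ne (fun e => h2 (e ▸ hu)) fun e => h3 (e ▸ hu)),
      (h4 a (mem_insert_self a S)).trans (swap_apply_left a b)⟩
  obtain ⟨x, ⟨x1, x2⟩, x3⟩ := exists_minimalFor_of_wellFoundedLT (fun x : Perm α => x ∈ G ∧ x ≠ 1)
    (fun x => x.support.card) ⟨g, hg, hg1⟩
  have hmin : ∀ y ∈ G, y ≠ 1 → x.support.card ≤ y.support.card := fun y h1 h2 =>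
    (le_total _ _).elim id fun h => x3 ⟨h1, h2⟩ h
  have h3 : x.support.card ≤ 3 := by
    by_contra hc
    have h4 := hmin g hg hg1
    obtain ⟨ω, -, hω⟩ : ∃ ω ∈ (univ : Finset α), ω ∉ x.support := by
      refine exists_mem_notMem_of_card_lt_card ?_
      obtain ⟨a, b, c, -, -, -, h5, h6, h7⟩ := two_lt_card_iff.1 (show 2 < x.support.card by omega)
      obtain ⟨z, h8, h9, h10⟩ := hz {a} b c (by simp; omega) (by simp [h5.symm]) (by simp [h6.symm])
      refine (hmin z h8 fun e => h7 (by simpa [e] using h10)).trans_lt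
        (card_lt_card (ssubset_univ_iff.2 fun e => ?_))
      exact mem_support.1 (e ▸ mem_univ a) (h9 a (mem_singleton_self a))
    obtain ⟨S, S1, S2, s, S3⟩ := exists_seg x ω (min (k - 1) (x.support.card - 1)) (by omega)
    have hS : ∀ z : Perm α, (∀ u ∈ S, z u = u) → S ⊆ x.support ∩ (z * x * z⁻¹).support :=
      fun z h => subset_inter S1 fun u hu => by
        rw [support_conj, mem_map]
        exact ⟨u, S1 hu, h u hu⟩
    have hne : ∀ z : Perm α, ∀ a ∈ x.support, z a = ω → x⁻¹ * (z * x * z⁻¹) ≠ 1 := fun z a h1 h2 e =>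
      hω (by
        rw [inv_mul_eq_one.1 e, support_conj, mem_map]
        exact ⟨a, h1, h2⟩)
    have hmem : ∀ z ∈ G, x⁻¹ * (z * x * z⁻¹) ∈ G := fun z h =>
      mul_mem (inv_mem x1) (mul_mem (mul_mem h x1) (inv_mem h))
    by_cases hb : ∃ u ∈ S, x u ∉ S
    · obtain ⟨u, u1, u2⟩ := hb
      have hA : S.card ≤ (S.filter fun u => x u ∈ S).card + 1 := by
        refine (card_le_card fun v hv => ?_).trans (card_insert_le s _)
        by_cases h : x v ∈ S
        · exact mem_insert_of_mem (mem_filter.2 ⟨hv, h⟩)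
        · exact S3 v hv h ▸ mem_insert_self _ _
      by_cases hk' : x.support.card ≤ k
      · obtain ⟨z, z1, z2, z3⟩ := hz S (x u) ω (by omega) u2 fun h => hω (S1 h)
        have := card_le x z S S S1 z2 (hS z z2)
        have := hmin _ (hmem z z1) (hne z _ (apply_mem_support.2 (S1 u1)) z3)
        omega
      · obtain ⟨b, b1, b2⟩ := exists_mem_notMem_of_card_lt_card (s := insert (x u) S) (t := x.support)
          ((card_insert_le _ _).trans_lt (by omega))
        rw [mem_insert, not_or] at b2
        obtain ⟨z, z1, z2, z3⟩ := hz S (x u) b (by omega) u2 b2.2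
        have := card_le x z S (insert b S) S1 z2 (insert_subset (mem_inter.2 ⟨b1, by
          rw [support_conj, mem_map]
          exact ⟨_, apply_mem_support.2 (S1 u1), z3⟩⟩) (hS z z2))
        rw [card_insert_of_notMem b2.2] at this
        have := hmin _ (hmem z z1) fun e => b2.1 (by
          have := congrArg (· u) (inv_mul_eq_one.1 e)
          simp only [Perm.mul_apply] at this
          rw [inv_eq_iff_eq.2 (z2 u u1).symm, z3] at this
          exact this.symm)
        omega
    · obtain ⟨a, a1, a2⟩ := exists_mem_notMem_of_card_lt_card (s := S) (t := x.support) (by omega)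
      obtain ⟨z, z1, z2, z3⟩ := hz S a ω (by omega) a2 fun h => hω (S1 h)
      have := card_le x z S S S1 z2 (hS z z2)
      rw [filter_true_of_mem fun u hu => by_contra fun h => hb ⟨u, hu, h⟩] at this
      have := hmin _ (hmem z z1) (hne z _ a1 z3)
      omega
  refine ⟨⟨x, x1, x2, h3⟩, ?_⟩
  have hp : IsPreprimitive G α :=
    isPreprimitive_of_is_two_pretransitive (isMultiplyPretransitive_of_le (by omega) hkn')
  have := one_lt_card_support_of_ne_one x2
  obtain h | h : x.support.card = 2 ∨ x.support.card = 3 := by omega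
  · rw [subgroup_eq_top_of_isPreprimitive_of_isSwap_mem hp x (card_support_eq_two.1 h) x1]
    exact le_top
  · exact alternatingGroup_le_of_isPreprimitive_of_isThreeCycle_mem hp
      (card_support_eq_three_iff.1 h) x1

end Cfsg.Agent.S0711
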