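import Cfsg.Statements.S0714
import Cfsg.Agent.Perm.PermMod
import Mathlib.GroupTheory.SpecificGroups.Alternating

set_option autoImplicit false
open Cfsg

namespace Cfsg.Agent.S0714

open MulAction Perm Equiv Equiv.Perm Finset

/-- Over any field, the permutation module of the alternating group of degree at least 5 has exactly four invariant subspaces: zero, the constant functions, the functions with coordinate sum zero, and everything. -/
theorem result {α : Type*} [Fintype α] [DecidableEq α] (hα : 5 ≤ Fintype.card α) {K : Type*} [Field K] (W : Subrepresentation (Cfsg.permRep K (alternatingGroup α) α)) : W.toSubmodule = ⊥ ∨ W = Cfsg.permConstants K (alternatingGroup α) α ∨ W = Cfsg.permSumZero K (alternatingGroup α) α ∨ W.toSubmodule = ⊤ := by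
  have hW := funInv_of_subrep W
  by_cases hc : ∀ f ∈ W.toSubmodule, ∀ a b, f a = f b
  · by_cases h0 : W.toSubmodule = ⊥
    · exact Or.inl h0
    obtain ⟨f, h1, h2⟩ := W.toSubmodule.exists_mem_ne_zero_of_ne_bot h0
    obtain ⟨a, ha⟩ := Function.ne_iff.1 h2
    refine Or.inr (Or.inl (Subrepresentation.toSubmodule_injective (le_antisymm (fun v hv =>
      mem_permConstants.2 ⟨v a, funext fun x => hc v hv x a⟩) fun v hv => ?_)))
    obtain ⟨c, rfl⟩ := mem_permConstants.1 hv
    convert W.toSubmodule.smul_mem (c * (f a)⁻¹) h1 using 1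
    funext x
    rw [Pi.smul_apply, hc f h1 x a, smul_eq_mul, mul_assoc, inv_mul_cancel₀ ha, mul_one]
  push Not at hc
  obtain ⟨f, hf, b, a, hab⟩ := hc
  have ab : b ≠ a := fun e => hab (by rw [e])
  obtain ⟨c, d, e, hc, hd, he, cd, ce, de⟩ := two_lt_card_iff.1 (show 2 < ({a, b}ᶜ : Finset α).card by
    rw [card_compl, card_pair ab.symm]; omega)
  simp only [mem_compl, mem_insert, mem_singleton, not_or] at hc hd he
  have h1 := sub_mem hf (hW ⟨swap a b * swap a c, by simp [ab.symm, Ne.symm hc.1]⟩ f hf)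
  set g := f - _ with hg
  have g1 : g b ≠ 0 := by
    simpa [hg, swap_apply_of_ne_of_ne ab (Ne.symm hc.2), sub_eq_zero] using hab
  have g2 : ∀ x, x ≠ a → x ≠ b → x ≠ c → g x = 0 := fun x h1 h2 h3 => by
    simp [hg, swap_apply_of_ne_of_ne h1 h3, swap_apply_of_ne_of_ne h1 h2]
  have h2 := W.toSubmodule.smul_mem (g b)⁻¹
    (sub_mem h1 (hW ⟨swap b d * swap b e, by simp [Ne.symm hd.2, Ne.symm he.2]⟩ g h1))
  have h3 : (Pi.single b 1 - Pi.single d 1 : α → K) ∈ W.toSubmodule := by
    convert h2 using 1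
    funext x
    have gd := g2 d hd.1 hd.2 cd.symm
    have ge := g2 e he.1 he.2 ce.symm
    by_cases xb : x = b
    · simp [xb, Ne.symm hd.2, swap_apply_of_ne_of_ne he.2 de.symm, ge, g1]
    by_cases xd : x = d
    · simp [xd, hd.2, swap_apply_of_ne_of_ne hd.2 de, gd, g1]
    by_cases xe : x = e
    · simp [xe, he.2, de.symm, gd, ge]
    simp [xb, xd, swap_apply_of_ne_of_ne xb xe, swap_apply_of_ne_of_ne xb xd]
  have h4 : IsMultiplyPretransitive (alternatingGroup α) α 2 := by
    have := alternatingGroup.isMultiplyPretransitive α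
    exact isMultiplyPretransitive_of_le (n := Nat.card α - 2) (by simp; omega) (Nat.sub_le _ _)
  have h5 : ∀ x, (Pi.single x 1 - Pi.single a 1 : α → K) ∈ W.toSubmodule := fun x => by
    by_cases hx : x = a
    · simp [hx]
    obtain ⟨k, k1, k2⟩ := exists_smul_two h4 hx (Ne.symm hd.2)
    convert hW k _ h3 using 1
    funext y
    simp only [Pi.sub_apply, Pi.single_apply, ← k1, ← k2, smul_left_cancel_iff]
  have h6 : (Cfsg.permSumZero K (alternatingGroup α) α).toSubmodule ≤ W.toSubmodule := fun v hv => by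
    convert W.toSubmodule.sum_mem (t := univ) fun x _ => W.toSubmodule.smul_mem (v x) (h5 x) using 1
    funext y
    simp [Pi.single_apply, mul_sub, sum_sub_distrib, ← sum_mul, mem_permSumZero.1 hv]
  by_cases h7 : ∀ v ∈ W.toSubmodule, ∑ x, v x = 0
  · exact Or.inr (Or.inr (Or.inl (Subrepresentation.toSubmodule_injective (le_antisymm h7 h6))))
  push Not at h7
  obtain ⟨v, h8, h9⟩ := h7
  refine Or.inr (Or.inr (Or.inr (eq_top_iff.2 fun w _ => ?_)))
  have := add_mem (h6 (x := w - ((∑ x, w x) / ∑ x, v x) • v) (mem_permSumZero.2 (by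
    simp [sum_sub_distrib, ← mul_sum, h9]))) (W.toSubmodule.smul_mem ((∑ x, w x) / ∑ x, v x) h8)
  rwa [sub_add_cancel] at this

end Cfsg.Agent.S0714
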