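import Cfsg.Statements.S0716
import Cfsg.Agent.Perm.Orbital

set_option autoImplicit false
open Cfsg

namespace Cfsg.Agent.S0716

open Perm MulAction Char Finset

theorem coeff {G : Type*} [Group G] [Fintype G] {Ω : Type*} [Fintype Ω] [MulAction G Ω]
    [IsPretransitive G Ω] [DecidableEq (IrrCharacter G)] (a : Ω) : ∃ m : IrrCharacter G → ℕ,
    (∀ χ : IrrCharacter G, classInner (pch G Ω) χ = m χ) ∧ m (irrOne G) = 1 ∧
    (Nat.card Ω : ℂ) = 1 + ∑ χ ∈ univ.erase (irrOne G), m χ * χ.1 1 ∧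
    Nat.card (orbitRel.Quotient (stabilizer G a) Ω) = 1 + ∑ χ ∈ univ.erase (irrOne G), m χ ^ 2 := by
  have : Nonempty Ω := ⟨a⟩
  have hπ : IsCharacter G (pch G Ω) := isCharacter_card_fixedBy Ω
  obtain ⟨m, h1, -⟩ := hπ.exists_nat_coeff
  have h2 : m (irrOne G) = 1 := by exact_mod_cast (h1 (irrOne G)).symm.trans inner_pch_one
  refine ⟨m, h1, h2, ?_, ?_⟩
  · have := hπ.isClassFunction.apply_eq_sum_irr 1
    rw [← add_sum_erase _ _ (mem_univ (irrOne G))] at this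
    simpa [h1, h2, pch, irrOne_apply] using this
  · have := hπ.isClassFunction.classInner_eq_sum_irr (pch G Ω)
    rw [inner_pch_self a, ← add_sum_erase _ _ (mem_univ (irrOne G))] at this
    simp only [h1, h2, map_natCast, ← sq] at this
    exact_mod_cast this

theorem part_a {G : Type*} [Group G] [Fintype G] {Ω : Type*} [Fintype Ω] [MulAction G Ω]
    [IsPretransitive G Ω] (a : Ω) (f : ℕ) (h : ∀ χ, IsIrrCharacter G χ → χ ≠ (fun _ => 1) →
      classInner (pch G Ω) χ ≠ 0 → χ 1 = f) :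
    (∀ χ, IsIrrCharacter G χ → classInner (pch G Ω) χ = 0 ∨ classInner (pch G Ω) χ = 1) ∧
      ∀ b : Ω, b ≠ a → Nat.card (orbit (stabilizer G a) b) = f := by
  classical
  obtain ⟨m, h1, h2, h3, h4⟩ := coeff (G := G) a
  have h5 : ∀ χ ∈ univ.erase (irrOne G), m χ ≠ 0 → χ.1 1 = f := fun χ hχ h0 =>
    h χ χ.2 (fun e => ne_of_mem_erase hχ (Subtype.ext e)) (by rwa [h1, Nat.cast_ne_zero])
  rw [sum_congr rfl (g := fun χ => (m χ : ℂ) * f) fun χ hχ => by
    by_cases h0 : m χ = 0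
    · simp [h0]
    · rw [h5 χ hχ h0], ← sum_mul] at h3
  replace h3 : Nat.card Ω = 1 + (∑ χ ∈ univ.erase (irrOne G), m χ) * f := by exact_mod_cast h3
  have := Fintype.ofFinite (orbitRel.Quotient (stabilizer G a) Ω)
  let q₀ : orbitRel.Quotient (stabilizer G a) Ω := Quotient.mk'' a
  have h6 := Nat.card_congr (selfEquivSigmaOrbits' (stabilizer G a) Ω)
  rw [Nat.card_sigma, ← add_sum_erase _ _ (mem_univ q₀), show Nat.card q₀.orbit = 1 from
    Nat.card_eq_one_iff_unique.2 ⟨⟨fun ⟨_, g, e⟩ ⟨_, g', e'⟩ => Subtype.ext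
      ((e.symm.trans g.2).trans (e'.symm.trans g'.2).symm)⟩, ⟨⟨a, mem_orbit_self a⟩⟩⟩] at h6
  have h7 : ∀ q ∈ univ.erase q₀, f ≤ Nat.card q.orbit := fun q hq => by
    obtain ⟨b, rfl⟩ := Quotient.mk''_surjective q
    have : Nonempty (orbit (stabilizer G a) b) := ⟨⟨b, mem_orbit_self b⟩⟩
    exact Nat.le_of_dvd (Nat.card_pos (α := orbit (stabilizer G a) b)) (dvd_subdegree (fun χ h1 h2 h3 => ⟨1, by simp [h χ h1 h2 h3]⟩)
      fun e => ne_of_mem_erase hq (congrArg _ e))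
  have h8 : ∀ χ ∈ univ.erase (irrOne G), m χ * f ≤ m χ ^ 2 * f := fun χ _ =>
    Nat.mul_le_mul_right _ (Nat.le_self_pow two_ne_zero _)
  have h9 := sum_le_sum h7
  have h10 := sum_le_sum h8
  have h11 : ∑ q ∈ univ.erase q₀, f = ∑ χ ∈ univ.erase (irrOne G), m χ ^ 2 * f := by
    rw [sum_const, card_erase_of_mem (mem_univ _), card_univ, ← Nat.card_eq_fintype_card, h4, ← sum_mul]
    simp
  rw [sum_mul] at h3
  refine ⟨fun χ hχ => ?_, fun b hb => ?_⟩
  · rw [h1 ⟨χ, hχ⟩, Nat.cast_eq_zero, Nat.cast_eq_one, or_iff_not_imp_left]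
    intro h0
    by_cases e : ⟨χ, hχ⟩ = irrOne G
    · rw [e, h2]
    have h12 : f ≠ 0 := fun e' => hχ.apply_one_ne_zero (by simpa [e'] using h5 _ (by simpa) h0)
    have := Nat.eq_of_mul_eq_mul_right (Nat.pos_of_ne_zero h12)
      ((sum_eq_sum_iff_of_le h8).1 (by omega) ⟨χ, hχ⟩ (by simpa))
    exact (Nat.eq_of_mul_eq_mul_left (Nat.pos_of_ne_zero h0) (by rw [mul_one, ← sq, ← this])).symm
  · refine ((sum_eq_sum_iff_of_le h7).1 (by omega) (Quotient.mk'' b) (mem_erase.2 ⟨fun e => hb ?_,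
      mem_univ _⟩)).symm
    obtain ⟨g, e⟩ := Quotient.exact' e
    exact e.symm.trans g.2

/-- (a) If all non-principal irreducible constituents of the permutation character of a transitive group have the same degree `f`, the character is multiplicity-free and all non-trivial subdegrees equal `f`. (b) A transitive group of rank at most 5 has multiplicity-free permutation character. -/
theorem result {G : Type*} [Group G] [Fintype G] {Ω : Type*} [Fintype Ω] [MulAction G Ω] [MulAction.IsPretransitive G Ω] (a : Ω) : ((f : ℕ) → (∀ χ : G → ℂ, Cfsg.IsIrrCharacter G χ → χ ≠ (fun _ => 1) → Cfsg.classInner (fun g : G => (Nat.card (MulAction.fixedBy Ω g) : ℂ)) χ ≠ 0 → χ 1 = f) → (∀ χ : G → ℂ, Cfsg.IsIrrCharacter G χ → Cfsg.classInner (fun g : G => (Nat.card (MulAction.fixedBy Ω g) : ℂ)) χ = 0 ∨ Cfsg.classInner (fun g : G => (Nat.card (MulAction.fixedBy Ω g) : ℂ)) χ = 1) ∧ ∀ b : Ω, b ≠ a → Nat.card (MulAction.orbit (MulAction.stabilizer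 G a) b) = f) ∧ (Nat.card (MulAction.orbitRel.Quotient (MulAction.stabilizer G a) Ω) ≤ 5 → ∀ χ : G → ℂ, Cfsg.IsIrrCharacter G χ → Cfsg.classInner (fun g : G => (Nat.card (MulAction.fixedBy Ω g) : ℂ)) χ = 0 ∨ Cfsg.classInner (fun g : G => (Nat.card (MulAction.fixedBy Ω g) : ℂ)) χ = 1) := by
  classical
  refine ⟨part_a a, fun h χ hχ => ?_⟩
  obtain ⟨m, h1, h2, -, h4⟩ := coeff (G := G) a
  by_contra hc
  have h5 : 2 ≤ m ⟨χ, hχ⟩ := by
    rw [h1 ⟨χ, hχ⟩, Nat.cast_eq_zero, Nat.cast_eq_one] at hc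
    omega
  have h6 : ⟨χ, hχ⟩ ∈ univ.erase (irrOne G) := mem_erase.2 ⟨fun e => by rw [e] at h5; omega, mem_univ _⟩
  rw [← add_sum_erase _ _ h6] at h4
  have h7 := Nat.pow_le_pow_left h5 2
  obtain ⟨f, hf⟩ := hχ.isCharacter.exists_nat_apply_one
  refine hc ((part_a a f fun ψ hψ h8 h9 => ?_).1 χ hχ)
  by_contra h10
  have := sum_eq_zero_iff.1 (by omega : ∑ x ∈ (univ.erase (irrOne G)).erase ⟨χ, hχ⟩, m x ^ 2 = 0) ⟨ψ, hψ⟩
    (mem_erase.2 ⟨fun e => h10 (by rw [← hf]; exact congrFun (congrArg Subtype.val e) 1),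
      mem_erase.2 ⟨fun e => h8 (congrArg Subtype.val e), mem_univ _⟩⟩)
  exact h9 (by rw [h1 ⟨ψ, hψ⟩, pow_eq_zero_iff two_ne_zero |>.1 this, Nat.cast_zero])

end Cfsg.Agent.S0716
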