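import Cfsg.Statements.S0720
import Cfsg.Agent.Perm.TwoP2
import Cfsg.Agent.Perm.Jordan

set_option autoImplicit false
open Cfsg

namespace Cfsg.Agent.S0720

open MulAction Perm

/-- Wielandt's Theorem on primitive groups of degree `2p`: such a group is doubly transitive, or it has rank 3, `p = 2a² + 2a + 1`, and subdegrees `a(2a+1)` and `(a+1)(2a+1)`. -/
theorem result {α : Type*} [Fintype α] [DecidableEq α] {p : ℕ} (hp : p.Prime) (hα : Fintype.card α = 2 * p) (G : Subgroup (Equiv.Perm α)) (hG : MulAction.IsPreprimitive G α) (a₀ : α) : MulAction.IsMultiplyPretransitive G α 2 ∨ (Nat.card (MulAction.orbitRel.Quotient (MulAction.stabilizer G a₀) α) = 3 ∧ ∃ a : ℕ, 0 < a ∧ p = 2 * a ^ 2 + 2 * a + 1 ∧ ∀ b : α, b ≠ a₀ → Nat.card (MulAction.orbit (MulAction.stabilizer G a₀) b) = a * (2 * a + 1) ∨ Nat.card (MulAction.orbit (MulAction.stabilizer G a₀) b) = (a + 1) * (2 * a + 1)) := by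
  have : Fact p.Prime := ⟨hp⟩
  have hp2 := hp.two_le
  obtain ⟨x, hx⟩ := exists_prime_orderOf_dvd_card' (G := G) p (by
    rw [← card_mul_card_stabilizer (G := G) a₀, Nat.card_eq_fintype_card, hα]
    exact (dvd_mul_left p 2).mul_right _)
  refine or_iff_not_imp_left.2 fun h2 => wielandt_two_p hα hx (fun y hy => h2 ?_) h2 a₀
  have h1 : orderOf (x : Equiv.Perm α) = p := (Subgroup.orderOf_coe x).trans hx
  have h3 : (x : Equiv.Perm α).IsCycle := Equiv.Perm.isCycle_of_prime_order (h1 ▸ hp) (by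
    rw [h1, ← hα]
    exact Finset.card_lt_univ_of_notMem (Equiv.Perm.notMem_support.2 hy))
  have := isMultiplyPretransitive_of_isCycle G hG hp (by omega) h3 (h3.orderOf.symm.trans h1) x.2
  exact isMultiplyPretransitive_of_le (n := Fintype.card α - p + 1) (by omega) (by simp; omega)

end Cfsg.Agent.S0720
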