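import Cfsg.Statements.S0724
import Mathlib.GroupTheory.GroupAction.Quotient
import Mathlib.Algebra.Polynomial.Eval.Degree
import Mathlib.Algebra.Polynomial.BigOperators
import Mathlib.Algebra.Group.Action.Pi

set_option autoImplicit false
open Cfsg

namespace Cfsg.Agent.S0724

open MulAction Polynomial

theorem dvd_sum_pow {G α : Type*} [Group G] [Fintype G] [Finite α] [MulAction G α] (j : ℕ) :
    Nat.card G ∣ ∑ g : G, Nat.card (fixedBy α g) ^ j := by
  classical
  have := Fintype.ofFinite α
  have : Fintype (orbitRel.Quotient G (Fin j → α)) := Fintype.ofFinite _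
  have h := sum_card_fixedBy_eq_card_orbits_mul_card_group G (Fin j → α)
  have h2 : ∀ g : G, Fintype.card (fixedBy (Fin j → α) g) = Nat.card (fixedBy α g) ^ j := by
    intro g
    have e : fixedBy (Fin j → α) g ≃ (Fin j → fixedBy α g) :=
      { toFun := fun x i => ⟨x.1 i, congrFun x.2 i⟩
        invFun := fun x => ⟨fun i => x i, funext fun i => (x i).2⟩
        left_inv := fun _ => rfl
        right_inv := fun _ => rfl }
    rw [← Nat.card_eq_fintype_card, Nat.card_congr e, Nat.card_fun]
    simp
  simp only [h2] at h
  rw [h, Nat.card_eq_fintype_card]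
  exact Dvd.intro_left _ rfl

theorem dvd_sum_eval {G α : Type*} [Group G] [Fintype G] [Finite α] [MulAction G α] (P : ℤ[X]) :
    (Nat.card G : ℤ) ∣ ∑ g : G, P.eval (Nat.card (fixedBy α g) : ℤ) := by
  induction P using Polynomial.induction_on' with
  | add p q hp hq => simpa [Finset.sum_add_distrib] using dvd_add hp hq
  | monomial n a =>
    simp only [eval_monomial, ← Finset.mul_sum]
    refine Dvd.dvd.mul_left ?_ _
    exact_mod_cast dvd_sum_pow (G := G) (α := α) n

/-- Blichfeldt's Theorem: if a finite set `L` of natural numbers contains the number of fixed points of every non-identity element of a permutation group `G` of degree `n`, then the order of `G` divides `∏ (n - l)` over `l ∈ L`. -/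
theorem result {α : Type*} [Fintype α] [DecidableEq α] (G : Subgroup (Equiv.Perm α)) (L : Finset ℕ) (hL : ∀ g ∈ G, g ≠ 1 → Nat.card (MulAction.fixedBy α g) ∈ L) : Nat.card G ∣ ∏ l ∈ L, (Fintype.card α - l) := by
  classical
  by_cases h : ∃ l ∈ L, Fintype.card α ≤ l
  · obtain ⟨l, hl, hl'⟩ := h
    rw [Finset.prod_eq_zero hl (Nat.sub_eq_zero_of_le hl')]
    exact dvd_zero _
  push Not at h
  have := Fintype.ofFinite G
  have key := dvd_sum_eval (G := G) (α := α) (∏ l ∈ L, (X - C (l : ℤ)))
  rw [Finset.sum_eq_single (1 : G)] at key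
  · have h1 : Nat.card (fixedBy α (1 : G)) = Fintype.card α := by
      rw [fixedBy_one_eq_univ, Nat.card_univ, Nat.card_eq_fintype_card]
    rw [h1, eval_prod] at key
    rw [← Int.natCast_dvd_natCast, Nat.cast_prod]
    convert key using 2 with l hl
    simp [Nat.cast_sub (h l hl).le]
  · intro g _ hg
    rw [eval_prod]
    refine Finset.prod_eq_zero (hL g g.2 (fun h => hg (Subtype.ext h))) ?_
    simp only [eval_sub, eval_X, eval_C, sub_eq_zero]
    rfl
  · simp

end Cfsg.Agent.S0724
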