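import Cfsg.Statements.S0726

set_option autoImplicit false
open Cfsg

namespace Cfsg.Agent.S0726

open MulAction

/-- The left and right regular permutation representations of a group are each other's centralisers in the symmetric group: the centraliser of the left regular image is the right regular image, and a transitive subgroup centralising the left regular image is the whole right regular image. -/
theorem result {G : Type*} [Group G] : Subgroup.centralizer ((MulAction.toPermHom G G).range : Set (Equiv.Perm G)) = (MulAction.toPermHom Gᵐᵒᵖ G).range ∧ ∀ H : Subgroup (Equiv.Perm G), H ≤ Subgroup.centralizer ((MulAction.toPermHom G G).range : Set (Equiv.Perm G)) → MulAction.IsPretransitive H G → H = (MulAction.toPermHom Gᵐᵒᵖ G).range := by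
  have key : Subgroup.centralizer ((MulAction.toPermHom G G).range : Set (Equiv.Perm G)) =
      (MulAction.toPermHom Gᵐᵒᵖ G).range := by
    ext c
    constructor
    · intro hc
      refine ⟨MulOpposite.op (c 1), ?_⟩
      ext x
      have := Equiv.congr_fun (hc _ ⟨x, rfl⟩) 1
      simpa using this
    · rintro ⟨y, rfl⟩ _ ⟨x, rfl⟩
      ext z
      simp [mul_assoc]
  refine ⟨key, fun H hH ht => le_antisymm (key ▸ hH) ?_⟩
  rintro _ ⟨y, rfl⟩
  obtain ⟨h, hh⟩ := exists_smul_eq H (1 : G) y.unop
  obtain ⟨y', hy'⟩ := (key ▸ hH) h.2
  have : y' = y := by
    have h1 : (h : Equiv.Perm G) 1 = y.unop := hh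
    rw [← hy'] at h1
    apply MulOpposite.unop_injective
    simpa using h1
  rw [← this, hy']
  exact h.2

end Cfsg.Agent.S0726
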