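import Cfsg.Statements.S0727
import Cfsg.Agent.Perm.Sharp3Odd

set_option autoImplicit false
open Cfsg

namespace Cfsg.Agent.S0727

open MulAction Perm

/-- A sharply triply transitive permutation group of degree `2^f + 1` is isomorphic to the projective general linear group of degree 2 over the field with `2^f` elements. -/
theorem result {α : Type*} [Fintype α] [DecidableEq α] {f : ℕ} (hf : 1 ≤ f) (hα : Fintype.card α = 2 ^ f + 1) (G : Subgroup (Equiv.Perm α)) (h3 : MulAction.IsMultiplyPretransitive G α 3) (hsharp : ∀ x : Fin 3 ↪ α, MulAction.stabilizer G x = ⊥) : ∃ (F : Type) (_ : Field F) (_ : Fintype F), Fintype.card F = 2 ^ f ∧ Nonempty (G ≃* Matrix.ProjGenLinGroup (Fin 2) F) := by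
  have h2f : 2 ≤ 2 ^ f := Nat.le_self_pow (by omega) 2
  have h2 : 2 ∣ 2 ^ f := dvd_pow_self 2 (by omega)
  obtain ⟨K, _, _, hK, he⟩ := sharp3_equiv_PGL_of_odd h3
    (fun g x y z h1 h2 h3 => eq_one_of_sharp_three hsharp h1 h2 h3)
    (by rw [Nat.card_eq_fintype_card, Nat.odd_iff]; omega) (by rw [Nat.card_eq_fintype_card]; omega)
  refine ⟨K, inferInstance, inferInstance, ?_, he⟩
  rw [Nat.card_eq_fintype_card] at hK
  omega

end Cfsg.Agent.S0727
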