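import Cfsg.Statements.S0728
import Cfsg.Agent.Perm.Zass3

set_option autoImplicit false
open Cfsg

namespace Cfsg.Agent.S0728

open MulAction Perm

/-- In a sharply triply transitive group of even degree at least 6 (degree `q + 1`, `q` odd), a two-point stabiliser has at most one subgroup of order 3. -/
theorem result {α : Type*} [Fintype α] [DecidableEq α] (heven : Even (Fintype.card α)) (h6 : 6 ≤ Fintype.card α) (G : Subgroup (Equiv.Perm α)) (h3 : MulAction.IsMultiplyPretransitive G α 3) (hsharp : ∀ x : Fin 3 ↪ α, MulAction.stabilizer G x = ⊥) {a b : α} (hab : a ≠ b) (A B : Subgroup G) (hA : A ≤ MulAction.stabilizer G a ⊓ MulAction.stabilizer G b) (hB : B ≤ MulAction.stabilizer G a ⊓ MulAction.stabilizer G b) (hA3 : Nat.card A = 3) (hB3 : Nat.card B = 3) : A = B := by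
  obtain ⟨c, hac, hbc⟩ := exists_third_of_card (by rw [Nat.card_eq_fintype_card]; omega) hab
  haveI := Fact.mk Nat.prime_three
  have gen : ∀ A : Subgroup G, Nat.card A = 3 → ∃ x : G, x ≠ 1 ∧ x ^ 3 = 1 ∧ Subgroup.zpowers x = A :=
    fun A hA => by
      obtain ⟨x, rfl⟩ := (Subgroup.isCyclic_iff_exists_zpowers_eq_top A).mp (isCyclic_of_prime_card hA)
      rw [Nat.card_zpowers] at hA
      exact ⟨x, by rintro rfl; simp at hA, by rw [← hA, pow_orderOf_eq_one], rfl⟩
  obtain ⟨x, hx1, hx, rfl⟩ := gen A hA3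
  obtain ⟨y, hy1, hy, rfl⟩ := gen B hB3
  have h1 := hA (Subgroup.mem_zpowers x)
  have h2 := hB (Subgroup.mem_zpowers y)
  rcases Sharp3.eq_of_cube h3 (fun g x y z h1 h2 h3 => eq_one_of_sharp_three hsharp h1 h2 h3)
    hab hac hbc hx1 hx h1.1 h1.2 hy h2.1 h2.2 with rfl | rfl | rfl
  · exact absurd rfl hy1
  · rfl
  · exact Subgroup.zpowers_inv.symm

end Cfsg.Agent.S0728
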