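import Cfsg.Statements.S0729
import Cfsg.Agent.Perm.Sharp3Even

set_option autoImplicit false
open Cfsg

namespace Cfsg.Agent.S0729

open MulAction Perm

/-- In a sharply triply transitive group of even degree at least 6, the two-point stabiliser `H = G_{a,b}` has a normal subgroup of index 2 that is normalised by the element `s` interchanging `a, b` and fixing a third point `c`. -/
theorem result {α : Type*} [Fintype α] [DecidableEq α] (heven : Even (Fintype.card α)) (h6 : 6 ≤ Fintype.card α) (G : Subgroup (Equiv.Perm α)) (h3 : MulAction.IsMultiplyPretransitive G α 3) (hsharp : ∀ x : Fin 3 ↪ α, MulAction.stabilizer G x = ⊥) {a b c : α} (hab : a ≠ b) (hac : a ≠ c) (hbc : b ≠ c) (s : G) (hsa : s • a = b) (hsb : s • b = a) (hsc : s • c = c) : ∃ N : Subgroup G, N ≤ MulAction.stabilizer G a ⊓ MulAction.stabilizer G b ∧ (N.subgroupOf (MulAction.stabilizer G a ⊓ MulAction.stabilizer G b)).Normal ∧ N.relIndex (MulAction.stabilizer G a ⊓ MulAction.stabilizer G b) = 2 ∧ ∀ n ∈ N, s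 * n * s⁻¹ ∈ N := by
  obtain ⟨χ, hχ, hi⟩ := Sharp3.exists_sign h3
    (fun g x y z h1 h2 h3 => eq_one_of_sharp_three hsharp h1 h2 h3) hab hac hbc hsa hsb hsc
    (by rwa [Nat.card_eq_fintype_card])
  have e : (χ.ker.map (stabilizer G a ⊓ stabilizer G b).subtype).subgroupOf
      (stabilizer G a ⊓ stabilizer G b) = χ.ker :=
    Subgroup.comap_map_eq_self_of_injective (Subgroup.subtype_injective _) _
  refine ⟨χ.ker.map (Subgroup.subtype _), Subgroup.map_subtype_le _, by rw [e]; infer_instance,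
    by rw [Subgroup.relIndex, e, index_ker_sign hχ], ?_⟩
  rintro _ ⟨n, hn, rfl⟩
  have h1 := (Subgroup.mem_normalizer_iff.mp
    (Zass.mem_normalizer_of (Or.inr ⟨hsa, hsb⟩) : s ∈ _) n).mp n.2
  exact ⟨⟨_, h1⟩, (hi n ⟨_, h1⟩ rfl).symm.trans hn, rfl⟩

end Cfsg.Agent.S0729
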