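import Cfsg.Statements.S0733
import Mathlib.Algebra.Module.ZMod

set_option autoImplicit false
open Cfsg

namespace Cfsg.Agent.S0733

open MulAction

/-- A permutation group of affine type — generated by the translations of a finite vector space `V` over `ZMod p` together with a group `G₀` of linear automorphisms — is primitive on `V` if and only if `G₀` is irreducible on `V`. -/
theorem result {p : ℕ} [Fact p.Prime] {V : Type*} [AddCommGroup V] [Module (ZMod p) V] [Finite V] [Nontrivial V] (G₀ : Subgroup (V ≃ₗ[ZMod p] V)) (G : Subgroup (Equiv.Perm V)) (hG : ∀ σ : Equiv.Perm V, σ ∈ G ↔ ∃ g ∈ G₀, ∃ b : V, ∀ x : V, σ x = (g : V ≃ₗ[ZMod p] V) x + b) : MulAction.IsPreprimitive G V ↔ ∀ W : Submodule (ZMod p) V, (∀ g ∈ G₀, ∀ v ∈ W, (g : V ≃ₗ[ZMod p] V) v ∈ W) → W = ⊥ ∨ W = ⊤ := by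
  have htr : ∀ b : V, Equiv.addRight b ∈ G := fun b => (hG _).mpr ⟨1, G₀.one_mem, b, fun x => rfl⟩
  have hlin : ∀ g ∈ G₀, (g : V ≃ₗ[ZMod p] V).toEquiv ∈ G := fun g hg =>
    (hG _).mpr ⟨g, hg, 0, fun x => by simp⟩
  have ht : IsPretransitive G V := ⟨fun x y => ⟨⟨_, htr (y - x)⟩, by
    change x + (y - x) = y; abel⟩⟩
  constructor
  · intro h W hW
    have hB : IsBlock G (W : Set V) := by
      rw [isBlock_iff_smul_eq_of_mem]
      rintro ⟨σ, hσ⟩ x hx hσx
      obtain ⟨g, hg, b, hb⟩ := (hG σ).mp hσ
      have hbW : b ∈ W := by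
        have h1 : σ x ∈ W := hσx
        rw [hb] at h1
        exact (W.add_mem_iff_right (hW g hg x hx)).mp h1
      ext y
      constructor
      · rintro ⟨z, hz, rfl⟩
        change σ z ∈ W
        rw [hb]
        exact W.add_mem (hW g hg z hz) hbW
      · intro hy
        refine ⟨g⁻¹ (y - b), hW _ (G₀.inv_mem hg) _ (W.sub_mem hy hbW), ?_⟩
        change σ _ = y
        rw [hb]
        simp
    rcases hB.subsingleton_or_eq_univ with h1 | h1
    · left
      rw [eq_bot_iff]
      intro x hx
      exact h1 hx W.zero_mem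
    · right
      exact SetLike.coe_injective h1
  · intro h
    refine IsPreprimitive.of_isTrivialBlock_base (0 : V) fun {B} h0 hB => ?_
    rw [isBlock_iff_smul_eq_of_mem] at hB
    have key : ∀ σ ∈ G, ∀ a ∈ B, σ a ∈ B → ∀ b ∈ B, σ b ∈ B := by
      intro σ hσ a ha hσa b hb
      rw [← hB (g := ⟨σ, hσ⟩) ha hσa]
      exact Set.smul_mem_smul_set (a := (⟨σ, hσ⟩ : G)) hb
    let A : AddSubgroup V :=
      { carrier := B
        zero_mem' := h0
        add_mem' := fun {x y} hx hy => key _ (htr y) 0 h0 (by simpa using hy) x hx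
        neg_mem' := fun {x} hx => by
          simpa using key _ (htr (-x)) x hx (by simpa using h0) 0 h0 }
    rcases h (AddSubgroup.toZModSubmodule p A)
      (fun g hg v hv => key _ (hlin g hg) 0 h0 (by simpa using h0) v hv) with h1 | h1
    · left
      have : ∀ x ∈ B, x = 0 := fun x hx => by
        have : x ∈ AddSubgroup.toZModSubmodule p A := hx
        rwa [h1] at this
      intro x hx y hy
      rw [this x hx, this y hy]
    · right
      rw [Set.eq_univ_iff_forall]
      intro x
      have : x ∈ AddSubgroup.toZModSubmodule p A := h1 ▸ Submodule.mem_top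
      exact this

end Cfsg.Agent.S0733
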