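import Cfsg.Statements.S0734

set_option autoImplicit false
open Cfsg

namespace Cfsg.Agent.S0734

open MulAction

/-- Higman's criterion for primitivity: a transitive action on a finite set is primitive if and only if every non-trivial orbital graph (edges = images of a fixed pair of distinct points) is connected. -/
theorem result {G : Type*} [Group G] {Ω : Type*} [Finite Ω] [MulAction G Ω] [MulAction.IsPretransitive G Ω] [Nontrivial Ω] : MulAction.IsPreprimitive G Ω ↔ ∀ a b : Ω, a ≠ b → (SimpleGraph.fromRel fun x y : Ω => ∃ g : G, g • a = x ∧ g • b = y).Connected := by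
  constructor
  · intro h a b hab
    set Γ := SimpleGraph.fromRel fun x y : Ω => ∃ g : G, g • a = x ∧ g • b = y
    have hadj : ∀ (g : G) {x y}, Γ.Adj x y → Γ.Adj (g • x) (g • y) := by
      intro g x y hxy
      rw [SimpleGraph.fromRel_adj] at hxy ⊢
      refine ⟨fun h => hxy.1 (MulAction.injective g h), ?_⟩
      rcases hxy.2 with ⟨k, rfl, rfl⟩ | ⟨k, rfl, rfl⟩
      · exact Or.inl ⟨g * k, mul_smul _ _ _, mul_smul _ _ _⟩
      · exact Or.inr ⟨g * k, mul_smul _ _ _, mul_smul _ _ _⟩
    have hreach : ∀ (g : G) {x y}, Γ.Reachable x y → Γ.Reachable (g • x) (g • y) :=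
      fun g x y hxy => hxy.map (⟨fun x => g • x, hadj g⟩ : Γ →g Γ)
    have hB : IsBlock G {x | Γ.Reachable a x} := by
      rw [isBlock_iff_smul_eq_of_mem]
      intro g x hx hgx
      have h1 : Γ.Reachable a (g • a) := SimpleGraph.Reachable.trans hgx (hreach g hx).symm
      ext y
      rw [Set.mem_smul_set_iff_inv_smul_mem]
      constructor
      · intro hy
        have := hreach g hy
        rw [smul_inv_smul] at this
        exact h1.trans this
      · intro hy
        have := hreach g⁻¹ (h1.symm.trans hy)
        rwa [inv_smul_smul] at this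
    have hab' : Γ.Reachable a b := SimpleGraph.Adj.reachable (by
      rw [SimpleGraph.fromRel_adj]
      exact ⟨hab, Or.inl ⟨1, one_smul _ _, one_smul _ _⟩⟩)
    rcases hB.subsingleton_or_eq_univ with h1 | h1
    · exact absurd (h1 (SimpleGraph.Reachable.refl a) hab') hab
    · have h2 : ∀ x, Γ.Reachable a x := fun x => by
        have : x ∈ {x | Γ.Reachable a x} := h1 ▸ Set.mem_univ x
        exact this
      have : Nonempty Ω := ⟨a⟩
      exact ⟨fun x y => (h2 x).symm.trans (h2 y)⟩
  · intro h
    refine ⟨fun {B} hB => ?_⟩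
    rcases B.subsingleton_or_nontrivial with h1 | ⟨a, ha, b, hb, hab⟩
    · exact Or.inl h1
    right
    rw [isBlock_iff_smul_eq_of_mem] at hB
    have key : ∀ (g : G) {a b}, a ∈ B → b ∈ B → g • a ∈ B → g • b ∈ B := by
      intro g a b ha hb hga
      rw [← hB ha hga]
      exact Set.smul_mem_smul_set hb
    rw [Set.eq_univ_iff_forall]
    intro x
    obtain ⟨w⟩ := (h a b hab).preconnected a x
    have : ∀ {x y} (w : (SimpleGraph.fromRel fun x y : Ω =>
        ∃ g : G, g • a = x ∧ g • b = y).Walk x y), x ∈ B → y ∈ B := by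
      intro x y w
      induction w with
      | nil => exact id
      | cons hadj _ ih =>
        intro hx
        apply ih
        rw [SimpleGraph.fromRel_adj] at hadj
        rcases hadj.2 with ⟨k, rfl, rfl⟩ | ⟨k, rfl, rfl⟩
        · exact key k ha hb hx
        · exact key k hb ha hx
    exact this w ha

end Cfsg.Agent.S0734
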