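import Cfsg.Statements.S0735
import Cfsg.Agent.Perm.Basic
import Mathlib.GroupTheory.Perm.Cycle.Type

set_option autoImplicit false
open Cfsg

namespace Cfsg.Agent.S0735

open MulAction
open scoped Pointwise

theorem pairs {α : Type*} [DecidableEq α] {G : Type*} [Group G] [MulAction G α]
    (h2 : IsPretransitive G (Set.powersetCard α 2)) {a b c d : α} (hab : a ≠ b) (hcd : c ≠ d) :
    ∃ g : G, (g • a = c ∧ g • b = d) ∨ (g • a = d ∧ g • b = c) := by
  obtain ⟨g, hg⟩ := h2.exists_smul_eq ⟨{a, b}, Finset.card_pair hab⟩ ⟨{c, d}, Finset.card_pair hcd⟩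
  have h := congrArg Subtype.val hg
  rw [Set.powersetCard.coe_smul] at h
  simp only [Finset.smul_finset_insert, Finset.smul_finset_singleton] at h
  refine ⟨g, ?_⟩
  have h' : ({g • a, g • b} : Set α) = {c, d} := by simpa using congrArg (↑· : Finset α → Set α) h
  exact Set.pair_eq_pair_iff.mp h'

/-- A 2-homogeneous permutation group (transitive on 2-subsets) of even order is doubly transitive; a non-trivial 2-homogeneous group is primitive. -/
theorem result {α : Type*} [Fintype α] [DecidableEq α] (G : Subgroup (Equiv.Perm α)) (h2 : MulAction.IsPretransitive G (Set.powersetCard α 2)) (hα : 3 ≤ Fintype.card α) : (Even (Nat.card G) → MulAction.IsMultiplyPretransitive G α 2) ∧ (G ≠ ⊥ → MulAction.IsPreprimitive G α) := by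
  constructor
  · intro hev
    have : Fact (Nat.Prime 2) := ⟨Nat.prime_two⟩
    obtain ⟨t, ht⟩ := exists_prime_orderOf_dvd_card' (G := G) 2 hev.two_dvd
    have ht1 : t ≠ 1 := by rintro rfl; simp at ht
    have ht2 : t * t = 1 := by rw [← sq, ← ht, pow_orderOf_eq_one]
    obtain ⟨x, hx⟩ : ∃ x, t • x ≠ x := by
      by_contra! h
      exact ht1 (Subtype.ext (Equiv.ext h))
    have hx2 : t • t • x = x := by rw [← mul_smul, ht2, one_smul]
    have key : ∀ {a b : α}, a ≠ b → ∃ g : G, g • a = x ∧ g • b = t • x := by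
      intro a b hab
      obtain ⟨g, hg | hg⟩ := pairs h2 hab hx.symm
      · exact ⟨g, hg⟩
      · exact ⟨t * g, by rw [mul_smul, hg.1, hx2], by rw [mul_smul, hg.2]⟩
    rw [is_two_pretransitive_iff]
    intro a b c d hab hcd
    obtain ⟨g, hg⟩ := key hab
    obtain ⟨k, hk⟩ := key hcd
    exact ⟨k⁻¹ * g, by rw [mul_smul, hg.1, inv_smul_eq_iff, hk.1],
      by rw [mul_smul, hg.2, inv_smul_eq_iff, hk.2]⟩
  · intro hne
    obtain ⟨t, ht1⟩ : ∃ t : G, t ≠ 1 := by
      have := (Subgroup.nontrivial_iff_ne_bot G).mpr hne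
      exact exists_ne 1
    obtain ⟨x, hx⟩ : ∃ x, t • x ≠ x := by
      by_contra! h
      exact ht1 (Subtype.ext (Equiv.ext h))
    have ht : IsPretransitive G α := ⟨fun a b => by
      rcases eq_or_ne a b with rfl | hab
      · exact ⟨1, one_smul _ _⟩
      obtain ⟨g, hg | hg⟩ := pairs h2 hx.symm hab
      · exact ⟨g * t * g⁻¹, by rw [← hg.1, ← hg.2]; simp [mul_smul]⟩
      · exact ⟨g * t⁻¹ * g⁻¹, by rw [← hg.1, ← hg.2]; simp [mul_smul]⟩⟩
    refine ⟨fun {B} hB => ?_⟩
    rcases B.subsingleton_or_nontrivial with h1 | ⟨a, ha, b, hb, hab⟩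
    · exact Or.inl h1
    right
    rw [isBlock_iff_smul_eq_of_mem] at hB
    have key : ∀ (g : G) {a b}, a ∈ B → b ∈ B → g • a ∈ B → g • b ∈ B := by
      intro g a b ha hb hga
      rw [← hB ha hga]
      exact Set.smul_mem_smul_set hb
    rw [Set.eq_univ_iff_forall]
    intro c
    rcases eq_or_ne a c with rfl | hac
    · exact ha
    obtain ⟨g, hg | hg⟩ := pairs h2 hab hac
    · rw [← hg.2]; exact key g ha hb (by rw [hg.1]; exact ha)
    · rw [← hg.1]; exact key g hb ha (by rw [hg.2]; exact ha)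

end Cfsg.Agent.S0735
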