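import Cfsg.Statements.S0737
import Cfsg.Agent.Perm.Affine
import Cfsg.Agent.S0735
import Cfsg.Agent.S0205

set_option autoImplicit false
open Cfsg

namespace Cfsg.Agent.S0737

open MulAction Subgroup Cfsg.Agent.BG Cfsg.Agent.Perm

/-- A non-trivial 2-homogeneous permutation group that is not doubly transitive has odd order and degree `p^f ≡ 3 (mod 4)`, and is permutation-isomorphic to a group of semi-affine transformations `x ↦ a φ(x) + b` of the field with `p^f` elements containing all translations. -/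
theorem result {α : Type*} [Fintype α] [DecidableEq α] (G : Subgroup (Equiv.Perm α)) (hne : G ≠ ⊥) (h2 : MulAction.IsPretransitive G (Set.powersetCard α 2)) (hn2 : ¬ MulAction.IsMultiplyPretransitive G α 2) : Odd (Nat.card G) ∧ ∃ (p f : ℕ) (_ : Fact p.Prime), p ≠ 2 ∧ Fintype.card α = p ^ f ∧ p ^ f % 4 = 3 ∧ ∃ e : α ≃ GaloisField p f, (∀ g : G, e.symm.trans (((g : Equiv.Perm α)).trans e) ∈ Cfsg.semiaffineGroup (GaloisField p f)) ∧ ∀ b : GaloisField p f, ∃ g : G, ∀ x : α, e ((g : Equiv.Perm α) x) = e x + b := by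
  have h3 : 3 ≤ Fintype.card α := by
    by_contra! h3
    obtain ⟨t, ht, t1⟩ := trivgPn.1 hne
    obtain ⟨x, hx⟩ : ∃ x, t x ≠ x := by by_contra! k; exact t1 (Equiv.ext k)
    have k : ∀ a b c : α, a ≠ b → a ≠ c → b = c := fun a b c h1 h2 => by
      by_contra h4
      exact h3.not_ge (Fintype.two_lt_card_iff.2 ⟨a, b, c, h1, h2, h4⟩)
    refine hn2 (is_two_pretransitive_iff.2 fun {a b c d} hab hcd => ?_)
    have ht' : ∀ y, t y ≠ y := fun y e => by
      have := k y x (t x) (by rintro rfl; exact hx e) (fun e' => hx (by rw [← e', ← t.injective (e.trans e')]))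
      exact hx this.symm
    by_cases e : a = c
    · exact ⟨1, e, k a b d hab (e ▸ hcd)⟩
    · exact ⟨⟨t, ht⟩, k a _ _ (ht' a).symm e, k b _ _ (ht' b).symm fun e' => e (k b a c hab.symm (e' ▸ hcd.symm))⟩
  obtain ⟨r1, r2⟩ := S0735.result G h2 h3
  have hodd : Odd (Nat.card G) := Nat.not_even_iff_odd.1 fun e => hn2 (r1 e)
  haveI := r2 hne
  have sol := S0205.result hodd
  haveI : Nontrivial G := (nontrivial_iff_ne_bot G).2 hne
  obtain ⟨N, hN, -⟩ := minnormal_exists (H := (⊤ : Subgroup G)) (M := ⊤) top_ne_bot (normG _)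
  haveI hNn : N.Normal := normalizer_eq_top_iff.1 (top_le_iff.1 hN.norm)
  obtain ⟨p, hp, hV⟩ := minnormal_solvable hN le_top (isog_sol ⟨topEquiv.symm⟩ sol)
  haveI := Fact.mk hp
  have ht := isPretransitive_of_normal (α := α) N hN.ne
  obtain ⟨a⟩ : Nonempty α := Fintype.card_pos_iff.1 (by omega)
  have hr : ∀ u ∈ N, u • a = a → u = 1 := fun u hu => eq_one_of_commute ht fun v hv => hV.1.comm hv hu
  obtain ⟨f, hf⟩ := hV.pg.exists_card_eq
  have cα : Nat.card α = p ^ f := by rw [← card_eq_of_regular ht a hr, hf]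
  have cα' : Fintype.card α = p ^ f := by rw [← cα, Nat.card_eq_fintype_card]
  have m4 : p ^ f % 4 = 3 := by
    have o1 : Odd (p ^ f) := hf ▸ hodd.of_dvd_nat (card_subgroup_dvd_card N)
    obtain ⟨s⟩ : Nonempty (Set.powersetCard α 2) := by
      obtain ⟨b, hb⟩ := Fintype.exists_ne_of_one_lt_card (by omega) a
      exact ⟨⟨{b, a}, Finset.card_pair hb⟩⟩
    have o2 := hodd.of_dvd_nat (Dvd.intro _ (card_mul_card_stabilizer (G := G) s))
    rw [Set.powersetCard.card, cα, Nat.choose_two_right] at o2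
    obtain ⟨k, hk⟩ := o1
    rw [hk, Nat.add_sub_cancel, mul_comm 2 k, ← mul_assoc, Nat.mul_div_cancel _ two_pos,
      Nat.odd_mul, Nat.odd_iff, Nat.odd_iff] at o2
    omega
  refine ⟨hodd, p, f, inferInstance, by rintro rfl; rcases f with _ | _ | f <;> omega, cα', m4, ?_⟩
  let ψ := (linRep hV (stabilizer G a)).noncommCoprod (DistribMulAction.toModuleAut (ZMod p) (AbV hV) :
    ℤˣ →* _) fun g e => by ext v; simp
  haveI : Nontrivial (AbV hV) := Finite.one_lt_card_iff_nontrivial.1 (by rw [AbV.card, hf]; omega)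
  haveI : Finite ψ.range := Finite.of_surjective _ ψ.rangeRestrict_surjective
  have hψ : ∀ g e v, ψ (g, e) v = e • linRep hV _ g v := fun g e v =>
    map_zsmul_unit (linRep hV _ g) e v
  have tr : ∀ v w : AbV hV, v ≠ 0 → w ≠ 0 → ∃ g : ψ.range, ψ.range.subtype g v = w := by
    intro v w hv hw
    have n : ∀ v : AbV hV, v ≠ 0 → a ≠ v.val • a := fun v hv e =>
      hv (AbV.val_eq_one.1 (hr _ v.val_mem e.symm))
    obtain ⟨g, ⟨h1, h2⟩ | ⟨h1, h2⟩⟩ := S0735.pairs h2 (n v hv) (n w hw)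
    · refine ⟨⟨_, (⟨g, h1⟩, 1), rfl⟩, (hψ _ _ _).trans (AbV.ext (eq_of_smul_eq_of_semiregular hr
        (AbV.val_mem _) w.val_mem ?_))⟩
      simp [mul_smul, inv_smul_eq_iff.2 h1.symm, h2]
    · have h4 : (w.val⁻¹ * g) • a = a := by rw [mul_smul, h1, inv_smul_smul]
      refine ⟨⟨_, (⟨_, h4⟩, -1), rfl⟩, (hψ _ _ _).trans (neg_injective (AbV.ext
        (eq_of_smul_eq_of_semiregular hr (AbV.val_mem _) (AbV.val_mem _) ?_)))⟩
      simp [mul_smul, ← h1, h2]
  rcases huppert ψ.range.subtype (Group.isSolvable_of_surjective ψ.rangeRestrict_surjective)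
    (subtype_injective _) tr with ⟨F, _, _, e, he⟩ | k
  · obtain ⟨ε, h1, h2⟩ := exists_semiaffine hV ht a hr cα e fun g => by
      obtain ⟨c, σ, hc⟩ := he ⟨_, (g, 1), rfl⟩
      exact ⟨c, σ, fun v => by rw [← hc, ← one_smul ℤˣ (linRep hV _ g v), ← hψ]; rfl⟩
    exact ⟨ε, h1, fun b => let ⟨g, _, hg⟩ := h2 b; ⟨g, hg⟩⟩
  · rw [AbV.card, hf] at k
    simp only [Set.mem_insert_iff, Set.mem_singleton_iff] at k
    omega

end Cfsg.Agent.S0737
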