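import Cfsg.Statements.S0739
import Cfsg.Agent.Perm.Zass2

set_option autoImplicit false
open Cfsg

namespace Cfsg.Agent.S0739

open MulAction Perm

/-- In a finite Zassenhaus group whose two-point stabiliser `H = G_{a,b}` has odd order `d`, and which has no normal `q`-complement for any prime `q ∣ d`, `H` is cyclic, `C_G(H) = H`, and every element swapping `a` and `b` inverts each element of `H`. -/
theorem result {G Ω : Type*} [Group G] [Finite G] [MulAction G Ω] [Fintype Ω] (hZ : Cfsg.IsZassenhausGroup G Ω) {a b : Ω} (hab : a ≠ b) (hodd : Odd (Nat.card ↥(MulAction.stabilizer G a ⊓ MulAction.stabilizer G b))) (hnil : ∀ q : ℕ, q.Prime → q ∣ Nat.card ↥(MulAction.stabilizer G a ⊓ MulAction.stabilizer G b) → ¬ ∃ N : Subgroup G, N.Normal ∧ N.index = q ^ (Nat.card G).factorization q) : IsCyclic ↥(MulAction.stabilizer G a ⊓ MulAction.stabilizer G b) ∧ Subgroup.centralizer ((MulAction.stabilizer G a ⊓ MulAction.stabilizer G b : Subgroup G) : Set G) = MulAction.stabilizer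 G a ⊓ MulAction.stabilizer G b ∧ ∀ s : G, s • a = b → s • b = a → ∀ h ∈ MulAction.stabilizer G a ⊓ MulAction.stabilizer G b, s * h * s⁻¹ = h⁻¹ := by
  obtain ⟨h1, h2⟩ := Zass.isCyclic_and_inverted hZ hab hodd hnil
  refine ⟨h1, le_antisymm (fun g hg => ?_) (Subgroup.le_centralizer _), h2⟩
  obtain ⟨h, h3, ha, hb⟩ := Zass.exists_ne_one hZ hab
  have h4 : h * g = g * h := hg h ⟨ha, hb⟩
  have h5 : g⁻¹ * h * g = h := by rw [mul_assoc, h4, inv_mul_cancel_left]
  rcases Zass.fix_or_swap hZ hab (g := g) h3 ha hb (h5.symm ▸ ha) (h5.symm ▸ hb) with h6 | h6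
  · exact h6
  · have h7 := h2 g h6.1 h6.2 h ⟨ha, hb⟩
    rw [← h4, mul_inv_cancel_right, eq_inv_iff_mul_eq_one, ← sq] at h7
    exact (h3 (orderOf_eq_one_iff.mp (Nat.eq_one_of_dvd_coprimes (Nat.coprime_two_left.mpr hodd)
      (orderOf_dvd_of_pow_eq_one h7) (Subgroup.orderOf_dvd_natCard _ ⟨ha, hb⟩)))).elim

end Cfsg.Agent.S0739
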