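import Cfsg.Statements.S0740
import Cfsg.Agent.Perm.Zass

set_option autoImplicit false
open Cfsg

namespace Cfsg.Agent.S0740

open MulAction Perm

/-- In a finite Zassenhaus group any two points `a ≠ b` are swapped by an involution; every such involution has exactly one fixed point when the degree is odd and 0 or 2 fixed points when the degree is even; and if the two-point stabiliser has even order, some such involution has exactly 2 fixed points. -/
theorem result {G Ω : Type*} [Group G] [Finite G] [MulAction G Ω] [Fintype Ω] (hZ : Cfsg.IsZassenhausGroup G Ω) {a b : Ω} (hab : a ≠ b) : (∃ s : G, orderOf s = 2 ∧ s • a = b ∧ s • b = a) ∧ (∀ s : G, orderOf s = 2 → s • a = b → s • b = a → (Odd (Fintype.card Ω) → Nat.card (MulAction.fixedBy Ω s) = 1) ∧ (Even (Fintype.card Ω) → Nat.card (MulAction.fixedBy Ω s) = 0 ∨ Nat.card (MulAction.fixedBy Ω s) = 2)) ∧ (Even (Fintype.card Ω) → Even (Nat.card ↥(MulAction.stabilizer G a ⊓ MulAction.stabilizer G b)) → ∃ s : G, orderOf s = 2 ∧ s • a = b ∧ s •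 b = a ∧ Nat.card (MulAction.fixedBy Ω s) = 2) := by
  haveI := Fact.mk Nat.prime_two
  have ho : ∀ s : G, s * s = 1 → s • a = b → orderOf s = 2 := fun s h1 h2 =>
    orderOf_eq_prime (by rw [sq, h1]) (by rintro rfl; exact hab (by simpa using h2))
  refine ⟨?_, fun s hs h1 h2 => ?_, fun _ h => ?_⟩
  · obtain ⟨s, h1, h2, h3⟩ := Zass.exists_swap hZ hab
    exact ⟨s, ho s h1 h2, h2, h3⟩
  · have h3 := card_fixedBy_modEq_two (Ω := Ω) (s := s) (by rw [← sq, ← hs, pow_orderOf_eq_one])
    have h4 := Zass.card_fixedBy_le hZ (g := s) (by rintro rfl; simp at hs)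
    rw [Nat.card_eq_fintype_card, Nat.ModEq] at h3
    rw [Nat.odd_iff, Nat.even_iff]
    omega
  · obtain ⟨s, h1, h2, h3, x, y, hxy, hx, hy⟩ := Zass.exists_swap_of_even hZ hab h
    refine ⟨s, ho s h1 h2, h2, h3, ?_⟩
    rw [Zass.fixedBy_eq hZ (by rintro rfl; exact hab (by simpa using h2)) hxy hx hy,
      Nat.card_coe_set_eq, Set.ncard_pair hxy]

end Cfsg.Agent.S0740
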