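import Cfsg.Statements.S0742
import Cfsg.Agent.Perm.ZassPSL

set_option autoImplicit false
open Cfsg

namespace Cfsg.Agent.S0742

open MulAction Perm

/-- A finite Zassenhaus group of degree `n + 1` with two-point stabilisers of even order `d` satisfying `2d ≤ n - 1` has `n = p^f` for an odd prime `p` and is isomorphic to `PSL(2, p^f)`. -/
theorem result {G Ω : Type*} [Group G] [Finite G] [MulAction G Ω] [Fintype Ω] (hZ : Cfsg.IsZassenhausGroup G Ω) {a b : Ω} (hab : a ≠ b) (heven : Even (Nat.card ↥(MulAction.stabilizer G a ⊓ MulAction.stabilizer G b))) (hd : 2 * Nat.card ↥(MulAction.stabilizer G a ⊓ MulAction.stabilizer G b) ≤ Fintype.card Ω - 2) : ∃ (p f : ℕ) (K : Type) (_ : Field K) (_ : Fintype K), p.Prime ∧ p ≠ 2 ∧ Fintype.card K = p ^ f ∧ Fintype.card Ω = p ^ f + 1 ∧ Nonempty (G ≃* Matrix.ProjectiveSpecialLinearGroup (Fin 2) K) := by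
  obtain ⟨K, _, _, hc, hK, he⟩ := Zass.equiv_PSL_of_even hZ hab heven
    (by rwa [Nat.card_eq_fintype_card (α := Ω)])
  obtain ⟨f, hp, hf⟩ := FiniteField.card K (ringChar K)
  exact ⟨_, f, K, inferInstance, inferInstance, hp, hK, hf,
    by rw [← hf, ← hc, Nat.card_eq_fintype_card], he⟩

end Cfsg.Agent.S0742
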