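import Cfsg.Statements.S0744
import Cfsg.Agent.Perm.Gleason

set_option autoImplicit false
open Cfsg

namespace Cfsg.Agent.S0744

open MulAction

/-- If for some `k > 1` the pointwise stabilisers of all `(k-1)`-subsets have the same order `> 1` and those of all `k`-subsets have the same order, then the group is `(k-1)`-transitive. -/
theorem result {α : Type*} [Fintype α] [DecidableEq α] (G : Subgroup (Equiv.Perm α)) {k : ℕ} (hk : 1 < k) (hkn : k ≤ Fintype.card α) (l m : ℕ) (hl : 1 < l) (hkm1 : ∀ s : Finset α, s.card = k - 1 → Nat.card (fixingSubgroup G (s : Set α)) = l) (hkm : ∀ s : Finset α, s.card = k → Nat.card (fixingSubgroup G (s : Set α)) = m) : MulAction.IsMultiplyPretransitive G α (k - 1) := by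
  have key : ∀ s : Finset α, s.card = k - 1 → ∀ x ∉ s,
      Nat.card (orbit (fixingSubgroup G (s : Set α)) x) * m = l := by
    intro s hs x hx
    rw [← hkm1 s hs, ← hkm (insert x s) (by rw [Finset.card_insert_of_notMem hx, hs]; omega),
      Finset.coe_insert, Perm.card_orbit_mul_card_fixing_insert]
  obtain ⟨s₀, -, hs₀⟩ := Finset.exists_subset_card_eq (s := (Finset.univ : Finset α)) (n := k - 1)
    (by rw [Finset.card_univ]; omega)
  obtain ⟨x₀, -, hx₀⟩ := Finset.exists_mem_notMem_of_card_lt_card (s := s₀) (t := Finset.univ)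
    (by rw [Finset.card_univ]; omega)
  set r := Nat.card (orbit (fixingSubgroup G (s₀ : Set α)) x₀)
  have hr : r * m = l := key s₀ hs₀ x₀ hx₀
  have hm : 0 < m := Nat.pos_of_ne_zero (by rintro rfl; omega)
  have hr1 : r ≠ 1 := by
    intro h1
    have hbot : fixingSubgroup G (s₀ : Set α) = ⊥ := by
      rw [eq_bot_iff]
      intro g hg
      apply Subtype.ext
      ext x
      by_cases hx : x ∈ s₀
      · exact (mem_fixingSubgroup_iff G).mp hg x hx
      · have h2 := key s₀ hs₀ x hx
        rw [← hr, h1] at h2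
        have h3 := Nat.eq_of_mul_eq_mul_right hm h2
        have h4 := (Nat.card_eq_one_iff_unique.mp h3).1
        exact congrArg Subtype.val (h4.elim
          (⟨_, mem_orbit x (⟨g, hg⟩ : fixingSubgroup G (s₀ : Set α))⟩ :
            orbit (fixingSubgroup G (s₀ : Set α)) x) ⟨x, mem_orbit_self x⟩)
    have := hkm1 s₀ hs₀
    rw [hbot] at this
    simp at this
    omega
  obtain ⟨p, hp, hpr⟩ := Nat.exists_prime_and_dvd hr1
  have := Fact.mk hp
  refine Perm.gleason hp (by omega) (by rw [Nat.card_eq_fintype_card]; omega) fun s hs => ?_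
  obtain ⟨P, hPle, hP, hPc⟩ := Perm.exists_pSubgroup_le (p := p) (fixingSubgroup G (s : Set α))
  refine ⟨P, hP, fun x => ⟨fun h => ?_, fun hx g hg =>
    (mem_fixingSubgroup_iff G).mp (hPle hg) x hx⟩⟩
  by_contra hx
  have h1 : P ≤ fixingSubgroup G ((insert x s : Finset α) : Set α) := by
    rw [Finset.coe_insert, Perm.fixingSubgroup_insert_eq]
    exact le_inf hPle h
  have h2 := Subgroup.card_dvd_of_le h1
  rw [hkm _ (by rw [Finset.card_insert_of_notMem hx, hs]; omega), hPc, hkm1 s hs] at h2
  have h3 : p ^ (l.factorization p + 1) ∣ l := by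
    rw [pow_succ', ← hr]
    exact Nat.mul_dvd_mul hpr (hr ▸ h2)
  exact Nat.pow_succ_factorization_not_dvd (by omega) hp h3

end Cfsg.Agent.S0744
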