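import Cfsg.Statements.S0745
import Cfsg.Agent.Perm.LivWag
import Cfsg.Agent.S0744

set_option autoImplicit false
open Cfsg

namespace Cfsg.Agent.S0745

open MulAction Perm Finset
open scoped Pointwise

set_option synthInstance.maxSize 2000 in
set_option synthInstance.maxHeartbeats 200000 in
theorem arith {t n r s : ℕ} (hk : 3 ≤ t + 2) (hkn : t + 2 ≤ n) (hr : n - t = s * r) (hne : s ≠ n - t)
    (hodd : s % 2 = 1) (h1 : r ∣ (t + 1).factorial) (hH' : r * (n - (t + 1)) ∣ (t + 2).factorial)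
    (h2 : 2 ≤ t → 3 ∣ s → r * 3 ∣ (t + 1).factorial) (h7 : t = 3 → n = 7 → s = 1 → False)
    (h24 : t = 3 → n = 24 → s = 7 → False) (h : ¬ n = t + 2) (h4 : ¬ 4 ≤ t) :
    (n = 5 ∧ t + 2 = 4 ∧ n.descFactorial t * s = 20) ∨ (n = 6 ∧ t + 2 = 5 ∧ n.descFactorial t * s = 120) ∨
    (n = 9 ∧ t + 2 = 5 ∧ (n.descFactorial t * s = 504 ∨ n.descFactorial t * s = 1512)) := by
  obtain rfl : n = s * r + t := by omega
  have hr1 : r ≠ 1 := by rintro rfl; omega
  have hr0 : r ≠ 0 := by rintro rfl; omega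
  have h5 := Nat.le_of_dvd (Nat.factorial_pos _) h1
  have h6 := Nat.le_of_dvd (Nat.factorial_pos _) hH'
  have h8 : 2 * (s * r + t - (t + 1)) ≤ r * (s * r + t - (t + 1)) := Nat.mul_le_mul_right _ (by omega)
  have h9 : s * 2 ≤ s * r := Nat.mul_le_mul_left _ (by omega)
  have h11 : (t + 2).factorial ≤ 120 := Nat.factorial_le (n := 5) (by omega)
  have h12 : (t + 1).factorial ≤ 24 := Nat.factorial_le (n := 4) (by omega)
  exact (by decide +kernel : ∀ t < 4, ∀ r < 25, ∀ s < 31, (3 ≤ t + 2 ∧ r ≠ 1 ∧ s % 2 = 1 ∧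
    r ∣ (t + 1).factorial ∧ r * (s * r + t - (t + 1)) ∣ (t + 2).factorial ∧
    ¬ (2 ≤ t ∧ 3 ∣ s ∧ ¬ r * 3 ∣ (t + 1).factorial) ∧ ¬ (t = 3 ∧ s * r + t = 7 ∧ s = 1) ∧
    ¬ (t = 3 ∧ s * r + t = 24 ∧ s = 7) ∧ ¬ s * r + t = t + 2) →
    (s * r + t = 5 ∧ t + 2 = 4 ∧ (s * r + t).descFactorial t * s = 20) ∨
    (s * r + t = 6 ∧ t + 2 = 5 ∧ (s * r + t).descFactorial t * s = 120) ∨
    (s * r + t = 9 ∧ t + 2 = 5 ∧ ((s * r + t).descFactorial t * s = 504 ∨
      (s * r + t).descFactorial t * s = 1512))) t (by omega) r (by omega) s (by omega)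
      ⟨hk, hr1, hodd, h1, hH', fun ⟨a, b, c⟩ => c (h2 a b), fun ⟨a, b, c⟩ => h7 a b c,
        fun ⟨a, b, c⟩ => h24 a b c, h⟩

/-- Let `G` have degree `n` and `3 ≤ k ≤ n`; suppose `G` is `(k-2)`-transitive but not `(k-1)`-transitive, and is `(k-1)`-homogeneous and `k`-homogeneous. Then `k = n` and `G` is the alternating group, or `n = 5, k = 4, |G| = 20`, or `n = 6, k = 5, |G| = 120`, or `n = 9, k = 5, |G| ∈ {504, 1512}`. -/
theorem result {α : Type*} [Fintype α] [DecidableEq α] (G : Subgroup (Equiv.Perm α)) {k : ℕ} (hk : 3 ≤ k) (hkn : k ≤ Fintype.card α) (ht : MulAction.IsMultiplyPretransitive G α (k - 2)) (hnt : ¬ MulAction.IsMultiplyPretransitive G α (k - 1)) (hh1 : MulAction.IsPretransitive G (Set.powersetCard α (k - 1))) (hh : MulAction.IsPretransitive G (Set.powersetCard α k)) : (k = Fintype.card α ∧ G = alternatingGroup α) ∨ (Fintype.card α = 5 ∧ k = 4 ∧ Nat.card G = 20) ∨ (Fintype.card α = 6 ∧ k = 5 ∧ Nat.card G = 120) ∨ (Fintype.card α = 9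 ∧ k = 5 ∧ (Nat.card G = 504 ∨ Nat.card G = 1512)) := by
  obtain ⟨t, rfl⟩ : ∃ t, k = t + 2 := ⟨k - 2, by omega⟩
  simp only [Nat.add_sub_cancel, show t + 2 - 1 = t + 1 from rfl] at ht hnt
  replace hh1 : Homog G α (t + 1) := homog_iff.1 hh1
  replace hh : Homog G α (t + 2) := homog_iff.1 hh
  have hex : ∀ m ≤ t + 2, ∃ s : Finset α, s.card = m := fun m hm => by
    obtain ⟨s, -, hs⟩ := exists_subset_card_eq (s := (univ : Finset α)) (n := m) (hm.trans hkn)
    exact ⟨s, hs⟩
  obtain ⟨T, hT⟩ := hex t (by omega)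
  obtain ⟨Δ, hΔ⟩ := hex (t + 1) (by omega)
  obtain ⟨Γ, hΓ⟩ := hex (t + 2) le_rfl
  have hfix : ∀ (g : G) (s : Finset α), t + 1 ≤ s.card → (∀ a ∈ s, g • a = a) → g = 1 := by
    intro g s hs hg
    obtain ⟨s', h1, h2⟩ := exists_subset_card_eq hs
    by_contra h
    refine hnt (S0744.result G (k := t + 2) (by omega) hkn _ _ ?_
      (fun u hu => hh1.card_fixing_eq hu h2) fun u hu => hh.card_fixing_eq hu hΓ)
    exact Finite.one_lt_card_iff_nontrivial.2 ⟨⟨g, (mem_fixingSubgroup_iff G).2 fun y hy =>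
      hg y (h1 hy)⟩, 1, fun e => h (congrArg Subtype.val e)⟩
  have hsw : ∀ D : Finset α, D.card = t + 1 → ¬ ∀ a ∈ D, ∀ b ∈ D, a ≠ b → Sw G D a b :=
    fun D hD h => hnt (hh1.trans_of_full hD (exists_smul_of_sw h))
  have hN : NoInv G α t := fun z z1 s hs z2 => by
    by_contra z3
    refine hsw Δ hΔ fun a ha b hb => sw_of_even hfix (fun U hU => ?_) hΔ ha hb
    obtain ⟨s', h1, h2⟩ := exists_subset_card_eq hs
    obtain ⟨g, hg⟩ := exists_smul_finset_eq ht hU h2
    refine ⟨g⁻¹ * z * g, by simp [mul_assoc, ← mul_assoc z z, z1], fun e => z3 ?_, fun x hx => ?_⟩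
    · simpa [mul_assoc, inv_mul_eq_one, eq_comm] using e
    · rw [mul_smul, mul_smul, z2 _ (h1 ((hg x).1 hx)), inv_smul_smul]
  have hodd := Nat.odd_iff.1 (hN.odd_card hT.ge)
  have hG := card_eq_descFactorial ht hT
  have hfree : ∀ g ∈ fixingSubgroup G (T : Set α), ∀ x ∈ (T : Set α)ᶜ, g • x = x → g = 1 :=
    fun g hg x hx e => hfix g (insert x T) (by rw [card_insert_of_notMem hx, hT]) (by
      simp only [forall_mem_insert]; exact ⟨e, (mem_fixingSubgroup_iff G).1 hg⟩)
  have hinv : ∀ g ∈ fixingSubgroup G (T : Set α), ∀ x ∈ (T : Set α)ᶜ, g • x ∈ (T : Set α)ᶜ :=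
    fun g hg x hx => notMem_of_mem_orbit_fixing hx ⟨⟨g, hg⟩, rfl⟩
  have hcT : (T : Set α)ᶜ.ncard = Nat.card α - t := by rw [Set.ncard_compl, Set.ncard_coe_finset, hT]
  have hdvd := hcT ▸ FG.card_dvd_ncard _ hinv hfree
  have hn : Nat.card α = Fintype.card α := Nat.card_eq_fintype_card
  have hne : Nat.card (fixingSubgroup G (T : Set α)) ≠ Nat.card α - t := fun e =>
    hnt (isMultiplyPretransitive_succ ht T hT fun a b ha hb => by
      have h1 := card_orbit_mul_card_stabilizer (G := fixingSubgroup G (T : Set α)) a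
      rw [(stabilizer_eq_bot_iff _ a).2 fun g hg => hfree g hg a ha, Subgroup.card_bot, mul_one, e,
        ← hcT, Nat.card_coe_set_eq] at h1
      obtain ⟨g, hg⟩ : b ∈ orbit (fixingSubgroup G (T : Set α)) a :=
        Set.eq_of_subset_of_ncard_le (fun x hx => notMem_of_mem_orbit_fixing ha hx) h1.ge ▸ hb
      exact ⟨g, (mem_fixingSubgroup_iff G).1 g.2, hg⟩)
  have hpos : 0 < (Nat.card α).descFactorial t := Nat.descFactorial_pos.2 (by omega)
  have hK : ∀ D : Finset α, D.card = t + 1 → (t + 1).factorial * Nat.card (fixingSubgroup G (T : Set α)) =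
      (Nat.card α - t) * Nat.card (stabilizer G D) := fun D hD => by
    refine Nat.eq_of_mul_eq_mul_left hpos ?_
    rw [mul_left_comm, ← hG, hh1.card_eq hD, ← mul_assoc, ← Nat.descFactorial_eq_factorial_mul_choose,
      Nat.descFactorial_succ]
    ring
  have hH : (t + 2).factorial * Nat.card (fixingSubgroup G (T : Set α)) =
      (Nat.card α - t) * (Nat.card α - (t + 1)) * Nat.card (stabilizer G Γ) := by
    refine Nat.eq_of_mul_eq_mul_left hpos ?_
    rw [mul_left_comm, ← hG, hh.card_eq hΓ, ← mul_assoc, ← Nat.descFactorial_eq_factorial_mul_choose,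
      Nat.descFactorial_succ, Nat.descFactorial_succ]
    ring
  have h3 : 2 ≤ t → 3 ∣ Nat.card (fixingSubgroup G (T : Set α)) →
      (Nat.card α - t) * 3 ∣ (t + 1).factorial * Nat.card (fixingSubgroup G (T : Set α)) := fun h2 h => by
    have : Fact (Nat.Prime 3) := ⟨Nat.prime_three⟩
    obtain ⟨⟨x, x1⟩, x2⟩ := exists_prime_orderOf_dvd_card' 3 h
    rw [Subgroup.orderOf_mk] at x2
    have x3 : ∀ a : α, x • x • x • a = a := fun a => by
      have := congrArg (· • a) (x2 ▸ pow_orderOf_eq_one x)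
      simpa only [pow_succ, pow_zero, mul_smul, one_smul] using this
    obtain ⟨a, ha⟩ := exists_smul_ne (α := α) (g := x) (by rintro rfl; simp at x2)
    have aT : a ∈ (T : Set α)ᶜ := fun h => ha ((mem_fixingSubgroup_iff G).1 x1 a h)
    obtain ⟨U, U1, U2⟩ := exists_subset_card_eq (s := T) (n := t - 2) (by omega)
    have hd : Disjoint U {a, x • a, x • x • a} := by
      simp only [disjoint_insert_right, disjoint_singleton_right]
      exact ⟨fun h => aT (U1 h), fun h => hinv x x1 a aT (U1 h),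
        fun h => hinv x x1 _ (hinv x x1 a aT) (U1 h)⟩
    rw [hK (U ∪ {a, x • a, x • x • a})]
    refine Nat.mul_dvd_mul_left _ (x2 ▸ Subgroup.orderOf_dvd_natCard _ ?_)
    swap
    · rw [card_union_of_disjoint hd, card_eq_three.2 ⟨_, _, _, ha.symm, fun e => ha
        ((congrArg (x • ·) e).trans (x3 a)), fun e => ha (smul_left_cancel x e).symm, rfl⟩]
      omega
    · rw [mem_stabilizer_iff, smul_finset_union, smul_finset_insert, smul_finset_insert,
        smul_finset_singleton, x3]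
      congr 1
      · exact (image_congr fun y hy => (mem_fixingSubgroup_iff G).1 x1 y (U1 hy)).trans image_id
      · ext; simp only [mem_insert, mem_singleton]; tauto
  have h7 : t = 3 → Nat.card α = 7 → Nat.card (fixingSubgroup G (T : Set α)) = 1 → False :=
    fun e h h' => not_sharp_three_seven h (e ▸ ht) fun g s hs hg => by
      obtain ⟨s', h1, h2⟩ := exists_subset_card_eq hs
      rw [card_fixingSubgroup_eq ht hT (h2.trans e.symm), Subgroup.card_eq_one] at h'
      exact h'.le ((mem_fixingSubgroup_iff G).2 fun y hy => hg y (h1 hy))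
  have h24 : t = 3 → Nat.card α = 24 → Nat.card (fixingSubgroup G (T : Set α)) = 7 → False := by
    rintro rfl h h'
    obtain ⟨c, a, b, hca, hcb, hab, rfl⟩ := card_eq_three.1 hT
    have h1 := card_eq_descFactorial (isMultiplyPretransitive_of_le (G := G) (α := α) (m := 2) (n := 3)
      (by omega) (by omega)) (card_pair hab)
    rw [hG, h, h'] at h1
    refine not_card_154 (G := fixingSubgroup G (({a, b} : Finset α) : Set α)) (c := c)
      (by simp only [Nat.descFactorial] at h1; omega) ?_ fun g hg d hd h1 h2 => Subtype.ext ?_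
    · rw [card_stabilizer_subgroup, ← h', coe_insert c, fixingSubgroup_insert_eq]
    · have := notMem_of_mem_orbit_fixing (by simp [hca, hcb]) hd
      refine hfree g ?_ d (by simpa [h1] using this) h2
      rw [coe_insert c, fixingSubgroup_insert_eq]
      exact ⟨g.2, hg⟩
  have halt : Nat.card α = t + 2 → G = alternatingGroup α := fun h => by
    refine Equiv.Perm.eq_alternatingGroup_of_index_eq_two ?_
    have h1 := G.index_mul_card
    have h2 : Nat.card (fixingSubgroup G (T : Set α)) = 1 := by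
      rw [h, Nat.add_sub_cancel_left, Nat.dvd_prime Nat.prime_two] at hdvd
      omega
    rw [hG, h2, mul_one, Nat.card_perm, ← Nat.factorial_mul_descFactorial (k := t) (by omega)] at h1
    rw [Nat.eq_of_mul_eq_mul_right hpos h1, h, Nat.add_sub_cancel_left]
    rfl
  by_cases h4 : 4 ≤ t
  · by_cases hpar : Nat.card α % 2 = t % 2
    · have := card_le_of_noInv h4 ht hN hpar
      exact Or.inl ⟨by omega, halt (by omega)⟩
    · obtain ⟨D, h1, h2⟩ := exists_sw_of_odd h4 (by omega) ht hN hpar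
      exact (hsw D h1 h2).elim
  by_cases h : Nat.card α = t + 2
  · exact Or.inl ⟨by omega, halt h⟩
  right
  rw [← hn] at hkn ⊢
  obtain ⟨r, hr⟩ := hdvd
  have hs : 0 < Nat.card (fixingSubgroup G (T : Set α)) := by omega
  have hH' : r * (Nat.card α - (t + 1)) ∣ (t + 2).factorial :=
    ⟨Nat.card (stabilizer G Γ), Nat.eq_of_mul_eq_mul_right hs (by rw [hH, hr]; ring)⟩
  have h1 : r ∣ (t + 1).factorial :=
    ⟨Nat.card (stabilizer G Δ), Nat.eq_of_mul_eq_mul_right hs (by rw [hK Δ hΔ, hr]; ring)⟩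
  have h2 : 2 ≤ t → 3 ∣ Nat.card (fixingSubgroup G (T : Set α)) → r * 3 ∣ (t + 1).factorial :=
    fun a b => Nat.dvd_of_mul_dvd_mul_left hs (by rw [← mul_assoc, ← hr, mul_comm _ (t + 1).factorial]; exact h3 a b)
  rw [hG]
  exact arith hk hkn hr hne hodd h1 hH' h2 h7 h24 h h4

end Cfsg.Agent.S0745
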