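import Cfsg.Statements.S0746
import Cfsg.Agent.S0745

set_option autoImplicit false
open Cfsg

namespace Cfsg.Agent.S0746

open MulAction Perm

/-- The Livingstone–Wagner Theorem, first form: a `k`-homogeneous group of degree `n` with `4 ≤ 2k ≤ n` is `(k-1)`-transitive. -/
theorem result {α : Type*} [Fintype α] [DecidableEq α] (G : Subgroup (Equiv.Perm α)) {k : ℕ} (hk : 2 ≤ k) (hkn : 2 * k ≤ Fintype.card α) (hh : MulAction.IsPretransitive G (Set.powersetCard α k)) : MulAction.IsMultiplyPretransitive G α (k - 1) := by
  induction k, hk using Nat.le_induction with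
  | base =>
    have h := (homog_iff.1 hh).pred_of_two_mul_le le_rfl (by omega)
    rw [is_one_pretransitive_iff]
    refine ⟨fun a b => ?_⟩
    obtain ⟨g, hg⟩ := h {a} {b} rfl rfl
    exact ⟨g, by simpa using hg⟩
  | succ k hk ih =>
    have h := homog_iff.2 ((homog_iff.1 hh).pred_of_two_mul_le (by omega) (by omega))
    by_contra hn
    have := S0745.result G (k := k + 1) (by omega) (by omega) (ih (by omega) h) hn h hh
    omega

end Cfsg.Agent.S0746
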