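import Cfsg.Statements.S0748
import Cfsg.Agent.S0746

set_option autoImplicit false
open Cfsg

namespace Cfsg.Agent.S0748

open MulAction Perm Finset
open scoped Pointwise

/-- The Livingstone–Wagner Theorem: a `k`-homogeneous permutation group of degree `n` with `10 ≤ 2k ≤ n` is `k`-transitive. -/
theorem result {α : Type*} [Fintype α] [DecidableEq α] (G : Subgroup (Equiv.Perm α)) {k : ℕ} (hk : 5 ≤ k) (hkn : 2 * k ≤ Fintype.card α) (hh : MulAction.IsPretransitive G (Set.powersetCard α k)) : MulAction.IsMultiplyPretransitive G α k := by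
  have ht := S0746.result G (by omega) hkn hh
  replace hh : Homog G α k := homog_iff.1 hh
  obtain ⟨t, rfl⟩ : ∃ t, k = t + 1 := ⟨k - 1, by omega⟩
  rw [Nat.add_sub_cancel] at ht
  have hn : Nat.card α = Fintype.card α := Nat.card_eq_fintype_card
  by_cases hN : NoInv G α t
  · by_cases hpar : Nat.card α % 2 = t % 2
    · have := card_le_of_noInv (by omega) ht hN hpar
      omega
    · obtain ⟨D, h1, h2⟩ := exists_sw_of_odd (by omega) (by omega) ht hN hpar
      exact hh.trans_of_full h1 (exists_smul_of_sw h2)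
  obtain ⟨Δ, h1, h2⟩ := exists_alt_set (G := G) (Ω := α) (by omega) (by omega) ht
  simp only [NoInv, not_forall] at hN
  obtain ⟨z, z1, s, hs, z2, z3⟩ := hN
  obtain ⟨a, ha⟩ := exists_smul_ne (α := α) z3
  have zz : z • z • a = a := by rw [← mul_smul, z1, one_smul]
  obtain ⟨U, U1, U2⟩ := exists_subset_card_eq (s := s) (n := t - 1) (by omega)
  have ha1 : a ∉ U := fun h => ha (z2 a (U1 h))
  have ha2 : z • a ∉ U := fun h => ha (zz.symm.trans (z2 _ (U1 h))).symm
  obtain ⟨g, rfl⟩ := hh (insert a (insert (z • a) U)) Δ (by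
    rw [card_insert_of_notMem (by simp [ha1, ha.symm]), card_insert_of_notMem ha2]; omega) h1
  let τ := Equiv.swap (⟨g • a, smul_mem_smul_finset (by simp)⟩ : ↥(g • insert a (insert (z • a) U)))
    ⟨g • z • a, smul_mem_smul_finset (by simp)⟩
  have hτ : ∀ x : ↥(g • insert a (insert (z • a) U)), (g * z * g⁻¹) • (x : α) = τ x := by
    rintro ⟨_, hx⟩
    obtain ⟨x, hx', rfl⟩ := mem_smul_finset.1 hx
    simp only [mul_smul, inv_smul_smul, τ]
    rcases mem_insert.1 hx' with rfl | h
    · rw [Equiv.swap_apply_left]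
    rcases mem_insert.1 h with rfl | h
    · rw [Equiv.swap_apply_right, zz]
    · rw [Equiv.swap_apply_of_ne_of_ne, z2 x (U1 h)] <;>
        simp only [ne_eq, Subtype.mk.injEq, smul_left_cancel_iff] <;> rintro rfl <;> contradiction
  refine hh.trans_of_full h1 fun σ => ?_
  by_cases hσ : Equiv.Perm.sign σ = 1
  · exact h2 σ hσ
  obtain ⟨u, hu⟩ := h2 (σ * τ) (by
    rw [Equiv.Perm.mem_alternatingGroup, map_mul, Int.units_ne_iff_eq_neg.1 hσ, Equiv.Perm.sign_swap
      (by simpa using ha.symm)]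
    rfl)
  exact ⟨u * (g * z * g⁻¹), fun x => by rw [mul_smul, hτ, hu]; simp [τ]⟩

end Cfsg.Agent.S0748
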