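import Cfsg.Statements.S0752
import Cfsg.Agent.Geom.Bases

set_option autoImplicit false
open Cfsg

namespace Cfsg.Agent.S0752

/-- Classification of alternating forms: for an alternating bilinear form B on a finite-dimensional space over any field there is a basis indexed by (Fin m ⊕ Fin m) ⊕ Fin k such that B (e_i, f_j) = δ_ij, the e's are pairwise orthogonal, the f's are pairwise orthogonal, and the last k basis vectors are orthogonal to everything (they span the radical). -/
theorem result {F V : Type*} [Field F] [AddCommGroup V] [Module F V] [FiniteDimensional F V] (B : LinearMap.BilinForm F V) (hA : B.IsAlt) : ∃ (m k : ℕ) (b : Module.Basis ((Fin m ⊕ Fin m) ⊕ Fin k) F V), (∀ i j : Fin m, B (b (Sum.inl (Sum.inl i))) (b (Sum.inl (Sum.inr j))) = if i = j then 1 else 0) ∧ (∀ i j : Fin m, B (b (Sum.inl (Sum.inl i))) (b (Sum.inl (Sum.inl j))) = 0) ∧ (∀ i j : Fin m, B (b (Sum.inl (Sum.inr i))) (b (Sum.inl (Sum.inr j))) = 0) ∧ (∀ (j : Fin k) (v : V), B (b (Sum.inr j)) v = 0) := by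
  classical
  obtain ⟨W, hW⟩ := Submodule.exists_isCompl (LinearMap.ker B)
  let Φ := Geom.Formed.ofAlt B hA
  have hn : (Φ.restrict W).Nondeg := by
    rw [Geom.Formed.restrict_nondeg_iff']
    intro u hu h0
    refine Submodule.disjoint_def.1 hW.disjoint u ?_ hu
    rw [LinearMap.mem_ker]
    ext v
    obtain ⟨x, hx, y, hy, rfl⟩ := Submodule.mem_sup.1 (hW.sup_eq_top ▸ Submodule.mem_top : v ∈ _)
    have : B u x = 0 := Φ.B_eq_zero_symm (by simp [Φ, LinearMap.mem_ker.1 hx])
    simpa [this, Φ] using h0 y hy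
  obtain ⟨m, e, f, hef, han⟩ := hn.exists_witt_decomp
  have hp : (Φ.restrict W).perp (Submodule.span F (Set.range (Sum.elim e f))) = ⊥ := by
    rw [eq_bot_iff]; intro x hx
    exact han x hx rfl (hA _)
  have htop : Submodule.span F (Set.range (Sum.elim e f)) = ⊤ := by
    rw [← hn.perp_perp (Submodule.span F _), hp, Geom.Formed.perp_bot]
  let b₁ : Module.Basis (Fin m ⊕ Fin m) F W := Module.Basis.mk hef.linearIndependent htop.ge
  let b₂ := Module.finBasis F (LinearMap.ker B)
  refine ⟨m, _, (b₁.prod b₂).map (Submodule.prodEquivOfIsCompl _ _ hW.symm), fun i j => ?_,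
    fun i j => ?_, fun i j => ?_, fun j v => ?_⟩
  · simpa [b₁, Φ, Module.Basis.prod_apply] using hef.ef i j
  · simpa [b₁, Φ, Module.Basis.prod_apply] using hef.ee i j
  · simpa [b₁, Φ, Module.Basis.prod_apply] using hef.ff i j
  · simp [Module.Basis.prod_apply, LinearMap.mem_ker.1 (b₂ j).2]

end Cfsg.Agent.S0752
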