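import Cfsg.Statements.S0754
import Cfsg.Agent.Geom.Bases
import Cfsg.Agent.Geom.Std

set_option autoImplicit false
open Cfsg

namespace Cfsg.Agent.S0754

/-- In a field F with q^2 elements, every non-zero μ with μ^q = μ (that is, μ in the subfield of order q) has exactly q + 1 solutions λ of λ^(q+1) = μ. -/
theorem result {F : Type*} [Field F] [Fintype F] {q : ℕ} (hF : Fintype.card F = q ^ 2) (μ : F) (hμ : μ ≠ 0) (hμq : μ ^ q = μ) : Nat.card {x : F // x ^ (q + 1) = μ} = q + 1 := by
  classical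
  obtain ⟨c, hc⟩ := Geom.exists_norm_eq (Geom.frobq_ne_id hF) (Geom.frobq_frobq hF) (a := μ) hμq
  rw [Geom.frobq_apply, ← pow_succ] at hc
  have h2 := Geom.two_le_of_card_eq_sq hF
  have hc0 : c ≠ 0 := by rintro rfl; exact hμ (by simpa using hc.symm)
  have e : {x : F // x ^ (q + 1) = μ} ≃ (powMonoidHom (q + 1) : Fˣ →* Fˣ).ker :=
    { toFun := fun x => ⟨Units.mk0 (x.1 / c) (div_ne_zero (fun h0 => hμ (by simpa [h0] using x.2.symm)) hc0), by
        rw [MonoidHom.mem_ker, ← Units.val_eq_one]
        simp [div_pow, x.2, hc, hμ]⟩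
      invFun := fun u => ⟨u.1 * c, by
        have := u.2
        rw [MonoidHom.mem_ker, ← Units.val_eq_one] at this
        simp only [powMonoidHom_apply, Units.val_pow_eq_pow_val] at this
        rw [mul_pow, this, hc, one_mul]⟩
      left_inv := fun x => by simp [hc0]
      right_inv := fun u => by ext; simp [hc0] }
  rw [Nat.card_congr e, IsCyclic.card_powMonoidHom_ker, Nat.card_units, Nat.card_eq_fintype_card,
    hF]
  apply Nat.gcd_eq_right
  exact ⟨q - 1, by
    obtain ⟨r, rfl⟩ : ∃ r, q = r + 1 := ⟨q - 1, by omega⟩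
    simp only [Nat.add_sub_cancel]
    apply Nat.sub_eq_of_eq_add; ring⟩

end Cfsg.Agent.S0754
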