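import Cfsg.Statements.S0756
import Cfsg.Agent.Geom.Disc

set_option autoImplicit false
open Cfsg

namespace Cfsg.Agent.S0756

/-- Classification of symmetric bilinear forms over finite fields of odd characteristic: if B is non-degenerate symmetric on V of dimension n + 1 and α is a fixed non-square of F, there is an orthogonal basis b_0, ..., b_n with B(b_i, b_i) = 1 for i < n and B(b_n, b_n) ∈ {1, α}. -/
theorem result {F V : Type*} [Field F] [Finite F] [AddCommGroup V] [Module F V] [FiniteDimensional F V] (h2 : (2 : F) ≠ 0) (B : LinearMap.BilinForm F V) (hS : B.IsSymm) (hB : B.Nondegenerate) {n : ℕ} (hn : Module.finrank F V = n + 1) (α : F) (hα : ¬ IsSquare α) : ∃ b : Module.Basis (Fin (n + 1)) F V, (∀ i j, i ≠ j → B (b i) (b j) = 0) ∧ (∀ i, i ≠ Fin.last n → B (b i) (b i) = 1) ∧ (B (b (Fin.last n)) (b (Fin.last n)) = 1 ∨ B (b (Fin.last n)) (b (Fin.last n)) = α) := by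
  classical
  let Φ := Geom.Formed.ofSymm h2 B hS
  have h : Φ.Nondeg := hB.1
  let b := Module.finBasis F V
  have hα0 : α ≠ 0 := by rintro rfl; exact hα ⟨0, by simp⟩
  obtain ⟨d, hd, hd'⟩ : ∃ d, (d = 1 ∨ d = α) ∧ IsSquare (d * (Φ.gram b).det) := by
    by_cases hs : IsSquare (Φ.gram b).det
    · exact ⟨1, Or.inl rfl, by rwa [one_mul]⟩
    · exact ⟨α, Or.inr rfl, Geom.isSquare_mul_of_not_isSquare hα hs⟩
  obtain ⟨v, hv, hv1, hv0⟩ := h.exists_normal_family h2 rfl hn b hd'
  have nv : ∀ i, Φ.B (v i) (v i) ≠ 0 := fun i => Fin.lastCases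
    (by rw [hv0]; rcases hd with rfl | rfl; exacts [one_ne_zero, hα0])
    (fun i => by rw [hv1]; exact one_ne_zero) i
  refine ⟨Geom.Formed.basisOfOrth hv nv (by simp [hn]), ?_, ?_, ?_⟩
  · simpa [Φ] using hv
  · intro i hi
    obtain ⟨j, rfl⟩ := Fin.exists_castSucc_eq.2 hi
    simpa [Φ] using hv1 j
  · rw [← hv0] at hd
    simpa [Φ] using hd

end Cfsg.Agent.S0756
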