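import Cfsg.Statements.S0757
import Cfsg.Agent.Geom.Disc

set_option autoImplicit false
open Cfsg

namespace Cfsg.Agent.S0757

/-- The two diagonal forms Σ x_i^2 and Σ_(i<n) x_i^2 + α x_n^2 on F^(n+1), with α a non-square and 2 ≠ 0 in F, are inequivalent quadratic forms (so over a finite field of odd order there are exactly two classes of non-singular symmetric bilinear forms in each dimension). -/
theorem result {F : Type*} [Field F] (h2 : (2 : F) ≠ 0) (n : ℕ) (α : F) (hα : ¬ IsSquare α) : ¬ (QuadraticMap.weightedSumSquares F (fun _ : Fin (n + 1) => (1 : F))).Equivalent (QuadraticMap.weightedSumSquares F (fun i : Fin (n + 1) => if i = Fin.last n then α else (1 : F))) := by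
  classical
  rintro ⟨e⟩
  let Q₁ := QuadraticMap.weightedSumSquares F (fun _ : Fin (n + 1) => (1 : F))
  let Q₂ := QuadraticMap.weightedSumSquares F (fun i : Fin (n + 1) => if i = Fin.last n then α else (1 : F))
  have key : ∀ (w : Fin (n + 1) → F), ((Geom.Formed.ofQuad (QuadraticMap.weightedSumSquares F w)).gram
      (Pi.basisFun F (Fin (n + 1)))).det = ∏ i, 2 * w i := by
    intro w
    rw [Geom.Formed.det_gram_orth]
    · refine Finset.prod_congr rfl fun i _ => ?_
      simp [QuadraticMap.polar_self, QuadraticMap.weightedSumSquares_apply, Pi.single_apply]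
    · intro i j hij
      simp only [Geom.Formed.ofQuad_B, QuadraticMap.polarBilin_apply_apply, QuadraticMap.polar,
        QuadraticMap.weightedSumSquares_apply, ← Finset.sum_sub_distrib]
      refine Finset.sum_eq_zero fun k _ => ?_
      simp only [Pi.basisFun_apply, Pi.add_apply, Pi.single_apply]
      by_cases h1 : k = i <;> by_cases h2 : k = j <;> simp_all
  obtain ⟨u, hu, h⟩ := (Geom.Formed.ofQuad Q₂).det_gram_basis
    ((Pi.basisFun F (Fin (n + 1))).map e.toLinearEquiv) (Pi.basisFun F (Fin (n + 1)))
  have h' : (Geom.Formed.ofQuad Q₂).gram ((Pi.basisFun F (Fin (n + 1))).map e.toLinearEquiv)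
      = (Geom.Formed.ofQuad Q₁).gram (Pi.basisFun F (Fin (n + 1))) := by
    ext i j
    simp only [Geom.Formed.gram_apply, Geom.Formed.ofQuad_B, QuadraticMap.polarBilin_apply_apply,
      QuadraticMap.polar, Module.Basis.map_apply]
    rw [← map_add]
    exact congrArg₂ _ (congrArg₂ _ (e.map_app _) (e.map_app _)) (e.map_app _)
  rw [h', key, key, Finset.prod_mul_distrib, Finset.prod_mul_distrib, Finset.prod_ite_eq'] at h
  simp only [Finset.prod_const, Finset.mem_univ, if_true, one_pow, mul_one] at h
  apply hα
  refine ⟨u, mul_left_cancel₀ (pow_ne_zero (Finset.univ : Finset (Fin (n + 1))).card h2) ?_⟩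
  rw [h]; ring

end Cfsg.Agent.S0757
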