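import Cfsg.Statements.S0758


set_option autoImplicit false
open Cfsg

namespace Cfsg.Agent.S0758

/-- For a finite field F of odd order q and a non-square α: the form x² + y² is isotropic iff q ≡ 1 mod 4, and the form x² + α y² is isotropic iff q ≡ 3 mod 4. -/
theorem result {F : Type*} [Field F] [Fintype F] (h2 : (2 : F) ≠ 0) (α : F) (hα : ¬ IsSquare α) : ((∃ x y : F, (x ≠ 0 ∨ y ≠ 0) ∧ x ^ 2 + y ^ 2 = 0) ↔ Fintype.card F % 4 = 1) ∧ ((∃ x y : F, (x ≠ 0 ∨ y ≠ 0) ∧ x ^ 2 + α * y ^ 2 = 0) ↔ Fintype.card F % 4 = 3) := by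
  classical
  have hc : ringChar F ≠ 2 := fun h => h2 (by
    have := ringChar.spec F 2
    rw [h] at this
    exact_mod_cast this.2 dvd_rfl)
  have hodd := FiniteField.odd_card_of_char_ne_two hc
  have hsq := FiniteField.isSquare_neg_one_iff (F := F)
  have key : ∀ a : F, (∃ x y : F, (x ≠ 0 ∨ y ≠ 0) ∧ x ^ 2 + a * y ^ 2 = 0) ↔ IsSquare (-a) := by
    intro a
    constructor
    · rintro ⟨x, y, hxy, h⟩
      have hy : y ≠ 0 := by
        rintro rfl
        simp at h hxy
        exact hxy h
      exact ⟨x / y, by field_simp; linear_combination -h⟩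
    · rintro ⟨c, hc⟩
      exact ⟨c, 1, Or.inr one_ne_zero, by linear_combination -hc⟩
  constructor
  · have := key 1
    simp only [one_mul] at this
    rw [this, hsq]; omega
  · rw [key]
    have hα0 : α ≠ 0 := by rintro rfl; exact hα ⟨0, by simp⟩
    have h1 := quadraticChar_neg_one_iff_not_isSquare.2 hα
    rw [← quadraticChar_one_iff_isSquare (neg_ne_zero.2 hα0), ← neg_one_mul, map_mul, h1]
    rcases quadraticChar_dichotomy (F := F) (a := -1) (by simp) with h | h
    · have := hsq.1 ((quadraticChar_one_iff_isSquare (by simp)).1 h)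
      rw [h]; simp; omega
    · have := (quadraticChar_neg_one_iff_not_isSquare.1 h)
      rw [hsq] at this
      rw [h]; simp; omega

end Cfsg.Agent.S0758
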