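import Cfsg.Statements.S0759
import Cfsg.Agent.Geom.Disc

set_option autoImplicit false
open Cfsg

namespace Cfsg.Agent.S0759

/-- Type of the orthonormal form: over a finite field of odd order q and for m ≥ 1, the quadratic form Σ_(i<2m) x_i² on F^(2m) admits an m-dimensional subspace on which it vanishes identically if and only if it is not the case that q ≡ 3 (mod 4) and m is odd. -/
theorem result {F : Type*} [Field F] [Fintype F] (h2 : (2 : F) ≠ 0) (m : ℕ) (hm : 1 ≤ m) : (∃ W : Submodule F (Fin (2 * m) → F), Module.finrank F W = m ∧ ∀ w ∈ W, ∑ i, w i ^ 2 = 0) ↔ ¬ (Fintype.card F % 4 = 3 ∧ Odd m) := by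
  classical
  let B : LinearMap.BilinForm F (Fin (2 * m) → F) := Matrix.toBilin' 1
  have hB : ∀ x y, B x y = ∑ i, x i * y i := fun x y => by
    simp [B, Matrix.toBilin'_apply', dotProduct]
  let Φ := Geom.Formed.ofSymm h2 B ⟨fun x y => by simp [hB, mul_comm]⟩
  have hg : Φ.gram (Pi.basisFun F (Fin (2 * m))) = 1 := by
    ext i j
    simp [Φ, hB, Pi.single_apply, Matrix.one_apply, eq_comm]
  have h : Φ.Nondeg := by
    rw [Φ.nondeg_iff_det_gram (Pi.basisFun F (Fin (2 * m))), hg]; simp
  have := h.plus_iff_isSquare h2 rfl (m := m) (by simp) (Pi.basisFun F (Fin (2 * m)))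
  rw [hg, Matrix.det_one, mul_one, Geom.isSquare_neg_one_pow_iff h2] at this
  have hodd := Nat.odd_iff.1 (Geom.odd_card_of_two_ne_zero h2)
  have h4 : Fintype.card F ^ m % 4 = 1 ↔ ¬ (Fintype.card F % 4 = 3 ∧ Odd m) := by
    have h4 : Fintype.card F % 4 = 1 ∨ Fintype.card F % 4 = 3 := by omega
    rcases h4 with h4 | h4
    · rw [Nat.pow_mod, h4]; simp
    · rcases Nat.even_or_odd' m with ⟨k, rfl | rfl⟩
      · rw [Nat.pow_mod, h4, pow_mul, Nat.pow_mod]; simp
      · rw [Nat.pow_mod, h4, pow_succ, pow_mul, Nat.mul_mod, Nat.pow_mod]; simp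
  rw [← h4, ← this]
  refine exists_congr fun W => ?_
  rw [and_comm]
  refine and_congr_left' ⟨fun hW => ⟨fun x hx y hy => ?_, fun _ _ => rfl⟩, fun hW w hw => ?_⟩
  · have h1 := hW _ (W.add_mem hx hy)
    have : 2 * ∑ i, x i * y i = 0 := by
      simp only [Pi.add_apply, add_sq, Finset.sum_add_distrib, hW x hx, hW y hy, mul_assoc,
        ← Finset.mul_sum] at h1
      simpa using h1
    simpa [Φ, hB, h2] using this
  · simpa [Φ, hB, sq] using hW.1 w hw w hw

end Cfsg.Agent.S0759
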