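import Cfsg.Statements.S0761
import Cfsg.Agent.Geom.Witt

set_option autoImplicit false
open Cfsg

namespace Cfsg.Agent.S0761

/-- Hyperbolic partners: let B be a non-degenerate bilinear form on a finite-dimensional space, either alternating, or symmetric with 2 ≠ 0. If Z is a subspace on which B vanishes, x ∉ Z is isotropic and orthogonal to Z, then there is an isotropic y with B x y = 1 which is orthogonal to Z. -/
theorem result {F V : Type*} [Field F] [AddCommGroup V] [Module F V] [FiniteDimensional F V] (B : LinearMap.BilinForm F V) (hB : B.Nondegenerate) (hform : B.IsAlt ∨ (B.IsSymm ∧ (2 : F) ≠ 0)) (x : V) (Z : Submodule F V) (hxZ : x ∉ Z) (hx : B x x = 0) (hxz : ∀ z ∈ Z, B x z = 0) (hZ : ∀ z ∈ Z, ∀ z' ∈ Z, B z z' = 0) : ∃ y : V, B y y = 0 ∧ B x y = 1 ∧ ∀ z ∈ Z, B z y = 0 := by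
  rcases hform with hA | ⟨hS, h2⟩
  · obtain ⟨w, hw, -, h1, h2⟩ := Geom.Formed.Nondeg.exists_hyperbolic_partner
      (Φ := Geom.Formed.ofAlt B hA) hB.1 hxZ ((Geom.Formed.mem_perp' _).2 hxz) rfl hx
    exact ⟨w, h1, h2, hw⟩
  · obtain ⟨w, hw, -, h1, h2⟩ := Geom.Formed.Nondeg.exists_hyperbolic_partner
      (Φ := Geom.Formed.ofSymm h2 B hS) hB.1 hxZ ((Geom.Formed.mem_perp' _).2 hxz) rfl hx
    exact ⟨w, h1, h2, hw⟩

end Cfsg.Agent.S0761
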