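import Cfsg.Statements.S0763
import Cfsg.Agent.Geom.Bases

set_option autoImplicit false
open Cfsg

namespace Cfsg.Agent.S0763

/-- Binary quadratic forms in characteristic two over a finite field: if Q is a quadratic form on a 2-dimensional space whose polar form is non-degenerate, then either there are vectors v, w with Q v = Q w = 0 and polar value 1 (Q is xy in these coordinates), or there are v, w and μ with Q v = 1, Q w = μ, polar value 1 and x² + x + μ without roots in F (Q is x² + xy + μy²). -/
theorem result {F V : Type*} [Field F] [Finite F] [CharP F 2] [AddCommGroup V] [Module F V] (Q : QuadraticForm F V) (h2 : Module.finrank F V = 2) (hQ : (QuadraticMap.polarBilin Q).Nondegenerate) : (∃ v w : V, LinearIndependent F ![v, w] ∧ Q v = 0 ∧ Q w = 0 ∧ QuadraticMap.polar Q v w = 1) ∨ (∃ (v w : V) (μ : F), LinearIndependent F ![v, w] ∧ (∀ x : F, x ^ 2 + x + μ ≠ 0) ∧ Q v = 1 ∧ Q w = μ ∧ QuadraticMap.polar Q v w = 1) := by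
  have : FiniteDimensional F V := Module.finite_of_finrank_eq_succ h2
  have h : (Geom.Formed.ofQuad Q).Nondeg := hQ.1
  have h20 : (2 : F) = 0 := by exact_mod_cast CharP.cast_eq_zero F 2
  have hself : ∀ v, QuadraticMap.polar Q v v = 0 := fun v => by
    rw [QuadraticMap.polar_self, two_nsmul, ← two_mul, h20, zero_mul]
  have hli : ∀ v w, QuadraticMap.polar Q v w = 1 → LinearIndependent F ![v, w] := by
    intro v w hvw
    rw [LinearIndependent.pair_iff]
    intro s t hst
    have h1 := congrArg (QuadraticMap.polar Q v) hst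
    have h2 := congrArg (QuadraticMap.polar Q w) hst
    simp [QuadraticMap.polar_add_right, QuadraticMap.polar_smul_right, hself, hvw,
      QuadraticMap.polar_comm Q w v] at h1 h2
    exact ⟨h2, h1⟩
  by_cases hs : ∃ v, v ≠ 0 ∧ Q v = 0
  · obtain ⟨v, hv, hQv⟩ := hs
    obtain ⟨w, hw, -, hvw⟩ := h.exists_hyperbolic hv hQv (hself v)
    exact Or.inl ⟨v, w, hli v w hvw, hQv, hw, hvw⟩
  · push Not at hs
    obtain ⟨v, -, hv⟩ := Geom.exists_Q_eq Q ⊤ (by
      rw [Geom.Formed.restrict_nondeg_iff, h.perp_top]; simp) (by simp [h2]) 1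
    obtain ⟨w, hw⟩ := h.exists_eq_one (x := v) (by rintro rfl; simp at hv)
    have hw' : QuadraticMap.polar Q v w = 1 := hw
    refine Or.inr ⟨v, w, Q w, hli v w hw', fun x hx => ?_, hv, rfl, hw'⟩
    refine hs (x • v + w) (fun h0 => ?_) ?_
    · have := (LinearIndependent.pair_iff.1 (hli v w hw')) x 1 (by simpa using h0)
      exact one_ne_zero this.2
    · rw [QuadraticMap.map_add Q, QuadraticMap.map_smul, QuadraticMap.polar_smul_left, hv, hw']
      simp only [smul_eq_mul]
      linear_combination hx

end Cfsg.Agent.S0763
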