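import Cfsg.Statements.S0767
import Cfsg.Agent.Classical.SpSimple

set_option autoImplicit false
open Cfsg

namespace Cfsg.Agent.S0767

/-- The root group of a point: T_v(c) T_v(d) = T_v(c + d), and for A in the symplectic group with A v = a v, the conjugate A T_v(c) A⁻¹ is again some T_v(d). -/
theorem result {F : Type*} [Field F] (m : ℕ) (v : Fin m ⊕ Fin m → F) : (∀ c d : F, Cfsg.sympTransvection m v c * Cfsg.sympTransvection m v d = Cfsg.sympTransvection m v (c + d)) ∧ ∀ (A : Matrix (Fin m ⊕ Fin m) (Fin m ⊕ Fin m) F) (a : F), A ∈ Matrix.symplecticGroup (Fin m) F → A.mulVec v = a • v → ∀ c : F, ∃ d : F, A * Cfsg.sympTransvection m v c * A⁻¹ = Cfsg.sympTransvection m v d := by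
  refine ⟨fun c d => (congrArg Subtype.val (Classical.spT_add v c d)).symm, fun A a hA hv c => ⟨a ^ 2 * c, ?_⟩⟩
  have h := Classical.conj_spT ⟨A, hA⟩ v c
  rw [show (⟨A, hA⟩ : Matrix.symplecticGroup (Fin m) F) • v = a • v from hv,
    Classical.spT_smul_left] at h
  have h2 := congrArg Subtype.val h
  rwa [Submonoid.coe_mul, Submonoid.coe_mul, SymplecticGroup.coe_inv'] at h2

end Cfsg.Agent.S0767
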