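import Cfsg.Statements.S0770
import Cfsg.Agent.Classical.Mono

set_option autoImplicit false
open Cfsg

namespace Cfsg.Agent.S0770

open Cfsg.Agent.Classical Matrix Subgroup MulAction

/-- For a field with at least 3 elements, an invertible matrix normalises the subgroup of invertible diagonal matrices of GL_n if and only if it is monomial (exactly one non-zero entry in each row). -/
theorem result {F : Type*} [Field F] (hF : ∃ a : F, a ≠ 0 ∧ a ≠ 1) (n : ℕ) (g : Matrix.GeneralLinearGroup (Fin n) F) : g ∈ Subgroup.normalizer ((Units.map (Matrix.diagonalRingHom (Fin n) F).toMonoidHom).range : Subgroup (Matrix.GeneralLinearGroup (Fin n) F)) ↔ ∀ i : Fin n, ∃! j : Fin n, (g : Matrix (Fin n) (Fin n) F) i j ≠ 0 := by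
  obtain ⟨a, ha0, ha1⟩ := hF
  have hT : ∀ h : GL (Fin n) F, h ∈ (Units.map (Matrix.diagonalRingHom (Fin n) F).toMonoidHom).range ↔
      ∃ d, h.1 = diagonal d := fun h => by
    constructor
    · rintro ⟨d, rfl⟩
      exact ⟨d, rfl⟩
    · rintro ⟨d, hd⟩
      have h0 := h.det_ne_zero
      rw [hd, det_diagonal, Finset.prod_ne_zero_iff] at h0
      exact ⟨⟨d, fun i => (d i)⁻¹, funext fun i => mul_inv_cancel₀ (h0 i (Finset.mem_univ _)),
        funext fun i => inv_mul_cancel₀ (h0 i (Finset.mem_univ _))⟩, Units.ext hd.symm⟩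
  rw [Subgroup.mem_normalizer_iff]
  constructor
  · intro h
    refine exists_unique_of_conj_diag g fun j k hjk => ?_
    let d : Fin n → F := Function.update 1 j a
    obtain ⟨d', hd'⟩ := (hT _).1 ((h (GeneralLinearGroup.mkOfDetNeZero (diagonal d) (by
      rw [det_diagonal, Finset.prod_ne_zero_iff]
      intro i _
      by_cases hi : i = j <;> simp [d, hi, ha0]))).1 ((hT _).2 ⟨d, rfl⟩))
    refine ⟨d, d', by simpa [d, hjk.symm], ?_⟩
    rw [← hd']
    simp
  · intro h x
    obtain ⟨σ, c, -, hg⟩ := exists_mono g h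
    rw [hT, hT]
    constructor
    · rintro ⟨d, hd⟩
      refine ⟨d ∘ σ, ?_⟩
      rw [Units.val_mul, Units.mul_inv_eq_iff_eq_mul, Units.val_mul, hd, hg, mono_mul_diagonal]
    · rintro ⟨d, hd⟩
      refine ⟨d ∘ σ.symm, ?_⟩
      rw [Units.val_mul, Units.mul_inv_eq_iff_eq_mul, Units.val_mul] at hd
      rw [← Units.mul_right_inj g, hd, hg, mono_mul_diagonal]
      congr 2
      ext; simp

end Cfsg.Agent.S0770
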