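import Cfsg.Statements.S0771
import Cfsg.Agent.Classical.Parab

set_option autoImplicit false
open Cfsg

namespace Cfsg.Agent.S0771

open Cfsg.Agent.Classical Matrix Subgroup MulAction

/-- Maximal parabolic of GL_n(q): the stabiliser of the coordinate subspace spanned by the first k basis vectors has order q^(k(n-k)) · |GL_k(q)| · |GL_(n-k)(q)| (unipotent radical of order q^(k(n-k)) and Levi complement GL_k × GL_(n-k)). -/
theorem result {F : Type*} [Field F] [Fintype F] {q : ℕ} (hF : Fintype.card F = q) (n k : ℕ) (hk : k ≤ n) : Nat.card ↥(Cfsg.stabilizing (Cfsg.glToMat (Fin n) F) {v : Fin n → F | ∀ i : Fin n, k ≤ (i : ℕ) → v i = 0}) = q ^ (k * (n - k)) * (∏ i : Fin k, (q ^ k - q ^ (i : ℕ))) * ∏ i : Fin (n - k), (q ^ (n - k) - q ^ (i : ℕ)) := by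
  let b : Fin n → ℕ := fun i => if (i : ℕ) < k then 0 else 1
  have e : ↥(Cfsg.stabilizing (Cfsg.glToMat (Fin n) F) {v : Fin n → F | ∀ i : Fin n, k ≤ (i : ℕ) → v i = 0})
      ≃ {g : GL (Fin n) F // g.1.BlockTriangular b} := Equiv.subtypeEquivRight fun g => by
    rw [mem_stab_coordP]
    refine ⟨fun h i j hij => h i j ?_ ?_, fun h i j hi hj => h ?_⟩ <;>
      simp only [b] at * <;> split_ifs at * <;> omega
  have h0 : Fintype.card {i // b i = 0} = k := by
    rw [Fintype.card_congr (Equiv.subtypeEquivRight (q := fun i : Fin n => (i : ℕ) < k)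
      fun i => by simp [b])]
    simp [Fintype.card_subtype, Fin.card_filter_val_lt, hk]
  have h1 : Fintype.card {i // b i = 1} = n - k := by
    rw [Fintype.card_congr (Equiv.subtypeEquivRight (q := fun i : Fin n => ¬ b i = 0)
      fun i => by simp [b]), Fintype.card_subtype_compl, h0, Fintype.card_fin]
  have h2 : Fintype.card {p : Fin n × Fin n // b p.1 < b p.2} = k * (n - k) := by
    rw [← h1, ← h0, ← Fintype.card_prod]
    refine Fintype.card_congr ((Equiv.subtypeEquivRight fun p => ?_).trans
      (Equiv.subtypeProdEquivProd (p := fun i => b i = 0) (q := fun i => b i = 1)))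
    simp only [b]; split_ifs <;> simp
  rw [Nat.card_congr e, card_blockTri, h2, Finset.prod_subset (s₂ := {0, 1}), Finset.prod_pair zero_ne_one,
    card_GL_of_card h0, card_GL_of_card h1, Nat.card_eq_fintype_card, hF, mul_comm, mul_assoc]
  · intro c hc
    obtain ⟨i, -, rfl⟩ := Finset.mem_image.1 hc
    simp only [b]; split_ifs <;> simp
  · intro c _ hc
    have : IsEmpty {i // b i = c} := ⟨fun i => hc (Finset.mem_image.2 ⟨i.1, Finset.mem_univ _, i.2⟩)⟩
    exact Nat.card_unique

end Cfsg.Agent.S0771
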