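import Cfsg.Statements.S0772
import Cfsg.Agent.Classical.Parab
import Cfsg.Agent.Root.Max6

set_option autoImplicit false
open Cfsg

namespace Cfsg.Agent.S0772

open Cfsg.Agent.Classical Matrix Subgroup MulAction

/-- Maximal parabolics are maximal: over a finite field, for 0 < k < n the stabiliser in GL_n of the span of the first k coordinate vectors is a maximal proper subgroup. -/
theorem result {F : Type*} [Field F] [Finite F] (n k : ℕ) (hk0 : 0 < k) (hkn : k < n) : IsCoatom (Cfsg.stabilizing (Cfsg.glToMat (Fin n) F) {v : Fin n → F | ∀ i : Fin n, k ≤ (i : ℕ) → v i = 0}) := by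
  let W := coordP F fun i : Fin n => k ≤ (i : ℕ)
  have h0 : W ≠ ⊥ := fun h => by
    have : (Pi.single ⟨0, by omega⟩ 1 : Fin n → F) ∈ W := fun i hi =>
      Pi.single_eq_of_ne (by rintro rfl; simp at hi; omega) _
    rw [h] at this
    simpa using congrFun this ⟨0, by omega⟩
  have h1 : W ≠ ⊤ := fun h => by
    have : (Pi.single ⟨k, hkn⟩ 1 : Fin n → F) ∈ W := h ▸ trivial
    simpa using this ⟨k, hkn⟩ le_rfl
  obtain ⟨h2, h3⟩ := Root.Mx.isMaximalIn_inf (H := stabilizing (glToMat (Fin n) F) (W : Set (Fin n → F)))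
    (Geom.glEquiv _ F) (Root.Mx.isMaximalIn_stab_SL h0 h1) (fun g => Root.Mx.mem_specialLinear)
    fun g => Iff.rfl
  have hd : ∀ g : GL (Fin n) F, ∃ d ∈ stabilizing (glToMat (Fin n) F) (W : Set (Fin n → F)),
      d⁻¹ * g ∈ Geo.specialLinear (Fin n) F := fun g => by
    have : (diagonal (Function.update 1 ⟨k, hkn⟩ g.1.det) : Matrix (Fin n) (Fin n) F).det = g.1.det := by
      simp [Finset.prod_update_of_mem]
    refine ⟨GeneralLinearGroup.mkOfDetNeZero _ (this ▸ g.det_ne_zero),
      (mem_stab_coordP _ _ _).2 fun i j hi hj => diagonal_apply_ne _ (by rintro rfl; exact hj hi), ?_⟩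
    change GeneralLinearGroup.det _ = 1
    rw [map_mul, map_inv, inv_mul_eq_one]
    exact Units.ext this
  refine ⟨fun h => h2.ne (by rw [show stabilizing (glToMat (Fin n) F) (W : Set (Fin n → F)) = ⊤ from h,
    top_inf_eq]), fun M hM => ?_⟩
  rcases h3 (M ⊓ Geo.specialLinear (Fin n) F) (inf_le_inf_right _ hM.le) inf_le_right with h | h
  · refine absurd (fun g hg => ?_) hM.not_ge
    obtain ⟨d, h4, h5⟩ := hd g
    exact (mul_mem_cancel_left (inv_mem h4)).1 (h.le ⟨M.mul_mem (M.inv_mem (hM.le h4)) hg, h5⟩).1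
  · rw [eq_top_iff]
    intro g _
    obtain ⟨d, h4, h5⟩ := hd g
    exact (mul_mem_cancel_left (inv_mem (hM.le h4))).1 (h.ge h5).1

end Cfsg.Agent.S0772
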