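import Cfsg.Statements.S0773
import Cfsg.Agent.Classical.Parab

set_option autoImplicit false
open Cfsg

namespace Cfsg.Agent.S0773

open Cfsg.Agent.Classical Matrix Subgroup MulAction

/-- The stabilisers in GL_n(F), F finite, of the coordinate subspaces of dimensions k and n − k are isomorphic groups, but when 2k ≠ n (and 0 < k < n) no element of GL_n conjugates one onto the other. -/
theorem result {F : Type*} [Field F] [Finite F] (n k : ℕ) (hk0 : 0 < k) (hkn : k < n) (h2 : 2 * k ≠ n) : Nonempty (↥(Cfsg.stabilizing (Cfsg.glToMat (Fin n) F) {v : Fin n → F | ∀ i : Fin n, k ≤ (i : ℕ) → v i = 0}) ≃* ↥(Cfsg.stabilizing (Cfsg.glToMat (Fin n) F) {v : Fin n → F | ∀ i : Fin n, n - k ≤ (i : ℕ) → v i = 0})) ∧ ∀ g : Matrix.GeneralLinearGroup (Fin n) F, (Cfsg.stabilizing (Cfsg.glToMat (Fin n) F) {v : Fin n → F | ∀ i : Fin n, k ≤ (i : ℕ) → v i = 0}).map (MulAut.conj g).toMonoidHom ≠ Cfsg.stabilizing (Cfsg.glToMat (Fin n) F) {v : Fin n → F | ∀ i : Fin n, n - k ≤ (i : ℕ) → v i = 0} := by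
  constructor
  · let φ : GL (Fin n) F →* GL (Fin n) F :=
      { toFun := fun g => ⟨(g⁻¹).1ᵀ.submatrix Fin.revPerm Fin.revPerm, g.1ᵀ.submatrix Fin.revPerm Fin.revPerm,
          by rw [submatrix_mul_equiv, ← transpose_mul]; simp,
          by rw [submatrix_mul_equiv, ← transpose_mul]; simp⟩
        map_one' := Units.ext (by simp)
        map_mul' := fun a b => Units.ext (by
          simp only [_root_.mul_inv_rev, Units.val_mul, submatrix_mul_equiv, transpose_mul]) }
    have hφ : ∀ g, φ (φ g) = g := fun g => Units.ext (by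
      ext i j
      change g.1 i.rev.rev j.rev.rev = _
      simp)
    refine ⟨Geom.mulEquivOfMemIff (MonoidHom.toMulEquiv φ φ (MonoidHom.ext hφ) (MonoidHom.ext hφ)) _ _
      fun g => ?_⟩
    rw [← inv_mem_iff, mem_stab_coordP, mem_stab_coordP]
    refine ⟨fun h i j hi hj => h j.rev i.rev ?_ ?_, fun h i j hi hj => ?_⟩
    · simp; omega
    · simp; omega
    · simpa [φ] using h j.rev i.rev (by simp; omega) (by simp; omega)
  · intro g h
    let W := coordP F fun i : Fin n => k ≤ (i : ℕ)
    let W' := coordP F fun i : Fin n => n - k ≤ (i : ℕ)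
    have hc : ∀ l ≤ n, Module.finrank F (coordP F fun i : Fin n => l ≤ (i : ℕ)) = l := fun l hl => by
      simp [finrank_coordP, Fintype.card_subtype, Fin.card_filter_val_lt, hl]
    have h3 : Geom.stab (W.map (Geom.glEquiv _ F g).toLinearMap) = Geom.stab W' := by
      ext x
      obtain ⟨x, rfl⟩ := (Geom.glEquiv _ F).surjective x
      change _ ↔ x ∈ stabilizing (glToMat (Fin n) F) {v : Fin n → F | ∀ i : Fin n, n - k ≤ (i : ℕ) → v i = 0}
      rw [← h, mem_map_equiv]
      change _ ↔ Geom.glEquiv _ F (g⁻¹ * x * g) ∈ Geom.stab W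
      simp only [map_mul, map_inv, Geom.mem_stab, Submodule.mem_map_equiv]
      exact ⟨fun h v => by simpa [-Geom.glEquiv_apply] using h (Geom.glEquiv _ F g v),
        fun h v => by simpa using h ((Geom.glEquiv _ F g).symm v)⟩
    have h4 : Module.finrank F (W.map (Geom.glEquiv _ F g).toLinearMap) = k := by
      rw [LinearEquiv.finrank_map_eq, hc k hkn.le]
    have h5 : Module.finrank F W' = n - k := hc _ (by omega)
    have h6 := le_antisymm (le_of_stab_le h3.le fun h => by rw [h, finrank_bot] at h5; omega)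
      (le_of_stab_le h3.ge fun h => by rw [h, finrank_bot] at h4; omega)
    rw [h6] at h4
    omega

end Cfsg.Agent.S0773
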