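import Cfsg.Statements.S0774
import Cfsg.Agent.Classical.Parab

set_option autoImplicit false
open Cfsg

namespace Cfsg.Agent.S0774

open Cfsg.Agent.Classical Matrix Subgroup MulAction

/-- Borel subgroup of the symplectic group: the elements of Sp_2m(q) stabilising each of the totally isotropic coordinate subspaces ⟨e_0, ..., e_k⟩ (k < m) form a subgroup of order q^(m²) (q − 1)^m. -/
theorem result {F : Type*} [Field F] [Fintype F] {q : ℕ} (hF : Fintype.card F = q) (m : ℕ) : Nat.card ↥(⨅ k : Fin m, Cfsg.stabilizing (Cfsg.spToMat m F) {v : Fin m ⊕ Fin m → F | (∀ i : Fin m, (k : ℕ) < (i : ℕ) → v (Sum.inl i) = 0) ∧ ∀ i : Fin m, v (Sum.inr i) = 0}) = q ^ (m ^ 2) * (q - 1) ^ m := by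
  have h1 : ∀ g : symplecticGroup (Fin m) F, g ∈ (⨅ k : Fin m, Cfsg.stabilizing (Cfsg.spToMat m F)
      {v : Fin m ⊕ Fin m → F | (∀ i : Fin m, (k : ℕ) < (i : ℕ) → v (Sum.inl i) = 0) ∧
        ∀ i : Fin m, v (Sum.inr i) = 0}) ↔ (∀ i j, j < i → g.1 (.inl i) (.inl j) = 0) ∧
          ∀ i j, g.1 (.inr i) (.inl j) = 0 := fun g => by
    have := fun k : Fin m => mem_stab_coordP (spToMat m F)
      (Sum.elim (fun i : Fin m => (k : ℕ) < i) fun _ => True) g
    simp only [Sum.forall, Sum.elim_inl, Sum.elim_inr, true_imp_iff, not_true, false_imp_iff,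
      implies_true, and_true] at this
    simp only [mem_iInf, this]
    exact ⟨fun h => ⟨fun i j hij => (h j).1 i j hij (lt_irrefl _), fun i j => (h j).2 i j (lt_irrefl _)⟩,
      fun h k => ⟨fun i j hi hj => h.1 i j (Fin.lt_def.2 (by omega)), fun i j _ => h.2 i j⟩⟩
  have h2 : m ^ 2 = m * (m - 1) / 2 + (m + 1).choose 2 := by
    rw [← Nat.choose_two_right, Nat.choose_succ_succ' m 1, Nat.choose_one_right]
    have := Nat.add_one_mul_choose_eq (m - 1) 1
    rcases m with _ | m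
    · simp
    · simp only [Nat.add_sub_cancel, Nat.choose_one_right] at this
      norm_num at this ⊢
      nlinarith
  rw [h2, pow_add, mul_right_comm, ← hF, ← Nat.card_eq_fintype_card, ← card_upperTri,
    ← Fintype.card_fin m, ← card_isSymm, Fintype.card_fin, ← Nat.card_prod]
  symm
  refine Nat.card_eq_of_bijective (fun x => ⟨spLevi m F x.1.1 * spUni x.2.1 x.2.2, (h1 _).2 ?_⟩) ⟨?_, ?_⟩
  · rw [coe_levi_mul_uni]
    exact ⟨fun i j h => x.1.2 h, fun _ _ => rfl⟩
  · intro x y h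
    have := levi_mul_uni_inj (congrArg Subtype.val h)
    exact Prod.ext (Subtype.ext this.1) (Subtype.ext this.2)
  · rintro ⟨g, hg⟩
    obtain ⟨h3, h4⟩ := (h1 g).1 hg
    obtain ⟨A, S, hS, rfl⟩ := exists_levi_mul_uni g h4
    rw [coe_levi_mul_uni] at h3
    exact ⟨(⟨A, fun i j h => h3 i j h⟩, ⟨S, hS⟩), rfl⟩

end Cfsg.Agent.S0774
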