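import Cfsg.Statements.S0775
import Cfsg.Agent.Geom.Torus
import Cfsg.Agent.S0245

set_option autoImplicit false
open Cfsg

namespace Cfsg.Agent.S0775

open Cfsg.Agent.Classical Matrix Subgroup MulAction

/-- Maximal parabolics of the symplectic group: if W is a k-dimensional subspace of F^(2m) on which the symplectic form vanishes identically, its stabiliser in Sp_2m(q) has order q^(k(k+1)/2 + 2k(m−k)) · |Sp_(2m−2k)(q)| · |GL_k(q)|. -/
theorem result {F : Type*} [Field F] [Fintype F] {q : ℕ} (hF : Fintype.card F = q) (m k : ℕ) (hk : k ≤ m) (W : Submodule F (Fin m ⊕ Fin m → F)) (hWk : Module.finrank F W = k) (hW : ∀ u ∈ W, ∀ v ∈ W, Cfsg.sympForm m F u v = 0) : Nat.card ↥(Cfsg.stabilizing (Cfsg.spToMat m F) (W : Set (Fin m ⊕ Fin m → F))) = q ^ (k * (k + 1) / 2 + 2 * k * (m - k)) * (q ^ ((m - k) ^ 2) * ∏ i ∈ Finset.range (m - k), (q ^ (2 * (i + 1)) - 1)) * ∏ i : Fin k, (q ^ k - q ^ (i : ℕ)) := by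
  have h := Geom.sympFormed_nondeg m F
  have hU : (Geom.sympFormed m F).TotSing W :=
    ⟨fun x hx y hy => by simpa using hW x hx y hy, fun _ _ => rfl⟩
  rw [Nat.card_congr (Geom.subgroupEquivInf (Geom.spEquiv m F) _ (Geom.stab W)
    fun g => Iff.rfl).toEquiv, h.card_stab_totSing hU]
  obtain ⟨e, f, hef, rfl⟩ := h.exists_isHyp_of_totSing hU hWk
  have hd := hef.finrank_perp h
  simp only [Fintype.card_fin, Module.finrank_fintype_fun_eq_card, Fintype.card_sum] at hd
  obtain ⟨e₂, h₂⟩ := Geom.exists_isIso_sympFormed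
    (B := (Geom.sympB m F).restrict ((Geom.sympFormed m F).perp
      (Submodule.span F (Set.range (Sum.elim e f)))))
    (hA := fun x => Geom.sympB_isAlt m F x) (h.restrict_perp hef.nondeg_span) (m := m - k)
    (by omega)
  have h3 := h₂.card_isom
  rw [← Nat.card_congr (Geom.spEquiv (m - k) F).toEquiv, Cfsg.Agent.S0245.result hF] at h3
  have h4 : (Geom.sympFormed m F).kappa = q := by
    rw [Geom.sympFormed, Geom.Formed.kappa_ofAlt, Nat.card_eq_fintype_card, hF]
  rw [h.card_fix_totSing hef, h4, hWk, Nat.card_eq_fintype_card, hF, ← pow_add, mul_comm (∏ _, _)]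
  refine congrArg₂ (· * ·) (congrArg₂ (· * ·) ?_ h3) rfl
  congr 1
  simp only [Module.finrank_fintype_fun_eq_card, Fintype.card_fin, Fintype.card_sum]
  have key : ∀ j ≤ k, 2 * ∑ i ∈ Finset.range j, (m + m - (k + i + 1)) + j + j * (2 * k + j) =
      j * (4 * m) := by
    intro j hj
    induction j with
    | zero => simp
    | succ j ih =>
      rw [Finset.sum_range_succ]
      have := ih (by omega)
      obtain ⟨r, hr⟩ : ∃ r, m + m = r + (k + j + 1) := ⟨m + m - (k + j + 1), by omega⟩
      rw [show m + m - (k + j + 1) = r by omega]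
      nlinarith
  have h5 := key k le_rfl
  obtain ⟨r, rfl⟩ : ∃ r, m = k + r := ⟨m - k, by omega⟩
  have h6 : 2 * (k * (k + 1) / 2) = k * (k + 1) := Nat.mul_div_cancel' (Nat.even_mul_succ_self k).two_dvd
  rw [Nat.add_sub_cancel_left]
  nlinarith

end Cfsg.Agent.S0775
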