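import Cfsg.Statements.S0776
import Cfsg.Agent.Geom.Torus

set_option autoImplicit false
open Cfsg

namespace Cfsg.Agent.S0776

open Cfsg.Agent.Classical Matrix Subgroup MulAction

/-- If W ≤ F^(2m) is a 2k-dimensional subspace on which the symplectic form is non-degenerate, then the stabiliser of W in Sp_2m(F) is isomorphic to Sp_2k(F) × Sp_(2m−2k)(F). -/
theorem result {F : Type*} [Field F] (m k : ℕ) (hk : k ≤ m) (W : Submodule F (Fin m ⊕ Fin m → F)) (hWk : Module.finrank F W = 2 * k) (hW : ∀ u ∈ W, (∀ v ∈ W, Cfsg.sympForm m F u v = 0) → u = 0) : Nonempty (↥(Cfsg.stabilizing (Cfsg.spToMat m F) (W : Set (Fin m ⊕ Fin m → F))) ≃* Matrix.symplecticGroup (Fin k) F × Matrix.symplecticGroup (Fin (m - k)) F) := by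
  have h := Geom.sympFormed_nondeg m F
  have hU : ((Geom.sympFormed m F).restrict W).Nondeg := by
    rw [Geom.Formed.restrict_nondeg_iff']
    exact fun u hu h0 => hW u hu fun v hv => by simpa using h0 v hv
  obtain ⟨e₁, h₁⟩ := Geom.exists_isIso_sympFormed (B := (Geom.sympB m F).restrict W)
    (hA := fun x => Geom.sympB_isAlt m F x) hU hWk
  obtain ⟨e₂, h₂⟩ := Geom.exists_isIso_sympFormed
    (B := (Geom.sympB m F).restrict ((Geom.sympFormed m F).perp W))
    (hA := fun x => Geom.sympB_isAlt m F x) (h.restrict_perp hU) (m := m - k)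
    (by rw [h.finrank_perp, hWk]; simp; omega)
  exact ⟨((Geom.subgroupEquivInf (Geom.spEquiv m F) _ (Geom.stab W) fun g => Iff.rfl).trans
    (h.stabEquiv hU)).trans (MulEquiv.prodCongr (h₁.isomCongr.trans (Geom.spEquiv k F).symm)
      (h₂.isomCongr.trans (Geom.spEquiv (m - k) F).symm))⟩

end Cfsg.Agent.S0776
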