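import Cfsg.Statements.S0777
import Cfsg.Agent.Classical.Parab

set_option autoImplicit false
open Cfsg

namespace Cfsg.Agent.S0777

open Cfsg.Agent.Classical Matrix Subgroup MulAction

theorem card_cent (m : ℕ) : Nat.card (centralizer {(Equiv.sumComm (Fin m) (Fin m) :
    Equiv.Perm (Fin m ⊕ Fin m))}) = 2 ^ m * m.factorial := by
  set τ : Equiv.Perm (Fin m ⊕ Fin m) := Equiv.sumComm (Fin m) (Fin m)
  have h1 : τ ^ 2 = 1 := by ext x; cases x <;> rfl
  have h2 := Equiv.Perm.cycleType_of_pow_prime_eq_one h1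
  have h3 : τ.support = Finset.univ := by
    ext x; cases x <;> simp [τ]
  have h4 := Equiv.Perm.sum_cycleType τ
  rw [h3, h2] at h4
  simp only [Multiset.sum_replicate, smul_eq_mul, Finset.card_univ, Fintype.card_sum,
    Fintype.card_fin] at h4
  have h5 : τ.cycleType = Multiset.replicate m 2 := by rw [h2]; congr 1; omega
  rw [Equiv.Perm.nat_card_centralizer, h5]
  rcases Nat.eq_zero_or_pos m with rfl | hm
  · simp
  · simp [Multiset.toFinset_replicate, hm.ne', mul_two]

variable {F : Type*} [Field F] {m : ℕ}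

theorem J_ne_zero (i j : Fin m ⊕ Fin m) : J (Fin m) F i j ≠ 0 ↔ j = i.swap := by
  rcases i with i | i <;> rcases j with j | j <;> simp [J, one_apply, eq_comm]

theorem mono_mem_iff (σ : Fin m ⊕ Fin m → Fin m ⊕ Fin m) (c : Fin m ⊕ Fin m → F) :
    mono σ c ∈ symplecticGroup (Fin m) F ↔
      ∀ i j, c i * J (Fin m) F (σ i) (σ j) * c j = J (Fin m) F i j := by
  rw [SymplecticGroup.mem_iff, ← Matrix.ext_iff]
  simp only [mul_mono_transpose_apply, mono_mul_apply]

theorem J_swap (i : Fin m ⊕ Fin m) : J (Fin m) F i.swap i = - J (Fin m) F i i.swap := by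
  rcases i with i | i <;> simp [J]

theorem J_sq (i : Fin m ⊕ Fin m) : J (Fin m) F i i.swap * J (Fin m) F i i.swap = 1 := by
  rcases i with i | i <;> simp [J]

/-- The coefficient vector. -/
noncomputable def cf (σ : Fin m ⊕ Fin m → Fin m ⊕ Fin m) (c : Fin m → Fˣ) : Fin m ⊕ Fin m → F :=
  Sum.elim (fun i => c i) fun i => - J (Fin m) F (σ (.inl i)) (σ (.inl i)).swap * (c i : F)⁻¹

theorem cf_ne_zero (σ : Fin m ⊕ Fin m → Fin m ⊕ Fin m) (c : Fin m → Fˣ) (i) : cf σ c i ≠ 0 := by
  rcases i with i | i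
  · simp [cf]
  · simp [cf, J_ne_zero]

theorem mono_cf_mem {σ : Equiv.Perm (Fin m ⊕ Fin m)} (h : ∀ i, σ i.swap = (σ i).swap)
    (c : Fin m → Fˣ) : mono σ (cf σ c) ∈ symplecticGroup (Fin m) F := by
  rw [mono_mem_iff]
  intro i j
  by_cases hij : j = i.swap
  · subst hij
    rw [h]
    rcases i with i | i
    · have := J_sq (F := F) (σ (.inl i))
      simp only [cf, Sum.swap_inl, Sum.elim_inl, Sum.elim_inr]
      rw [show J (Fin m) F (.inl i) (.inr i) = -1 by simp [J]]
      field_simp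
      linear_combination -this
    · have := J_sq (F := F) (σ (.inl i))
      have h2 : σ (.inr i) = (σ (.inl i)).swap := h (.inl i)
      simp only [cf, Sum.swap_inr, Sum.elim_inl, Sum.elim_inr, h2, Sum.swap_swap, J_swap]
      rw [show J (Fin m) F (.inr i) (.inl i) = 1 by simp [J]]
      field_simp
      linear_combination this
  · have h1 := not_not.1 ((J_ne_zero (F := F) i j).not.2 hij)
    have h2 := not_not.1 ((J_ne_zero (F := F) (σ i) (σ j)).not.2 (by rwa [← h, σ.apply_eq_iff_eq]))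
    rw [h1, h2, mul_zero, zero_mul]

/-- Weyl group of type C_m: for q ≥ 4 the diagonal matrices of Sp_2m(q) form a torus T ≅ (C_(q−1))^m (the elements stabilising every coordinate axis), and the normaliser of T in Sp_2m(q) has order 2^m · m! · (q − 1)^m. -/
theorem result {F : Type*} [Field F] [Fintype F] {q : ℕ} (hF : Fintype.card F = q) (hq : 4 ≤ q) (m : ℕ) : Nat.card ↥(Subgroup.normalizer (⨅ i : Fin m ⊕ Fin m, Cfsg.stabilizing (Cfsg.spToMat m F) ((Submodule.span F {(Pi.single i (1 : F) : Fin m ⊕ Fin m → F)} : Submodule F (Fin m ⊕ Fin m → F)) : Set (Fin m ⊕ Fin m → F)) : Set (Matrix.symplecticGroup (Fin m) F))) = 2 ^ m * Nat.factorial m * (q - 1) ^ m := by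
  have hT : ∀ g : symplecticGroup (Fin m) F, g ∈ (⨅ i : Fin m ⊕ Fin m, Cfsg.stabilizing (Cfsg.spToMat m F)
      ((Submodule.span F {(Pi.single i (1 : F) : Fin m ⊕ Fin m → F)} : Submodule F (Fin m ⊕ Fin m → F)) :
        Set (Fin m ⊕ Fin m → F))) ↔ ∃ d, g.1 = diagonal d := fun g => by
    simp only [mem_iInf, mem_stabilizing_iff]
    constructor
    · intro h
      refine ⟨g.1.diag, ?_⟩
      ext i j
      obtain ⟨c, hc⟩ := Submodule.mem_span_singleton.1 (h j _ (Submodule.mem_span_singleton_self _))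
      have := congrFun hc i
      by_cases hij : i = j
      · simp [hij]
      · simpa [hij] using this.symm
    · rintro ⟨d, hd⟩ i v hv
      obtain ⟨c, rfl⟩ := Submodule.mem_span_singleton.1 hv
      refine Submodule.mem_span_singleton.2 ⟨c * d i, ?_⟩
      change _ = g.1 *ᵥ _
      ext j
      by_cases hij : j = i <;> simp [hd, mulVec_diagonal, hij, mul_comm]
  have key : ∀ g : symplecticGroup (Fin m) F, ∀ (σ : Equiv.Perm (Fin m ⊕ Fin m)) c, g.1 = mono σ c →
      g ∈ Subgroup.normalizer (⨅ i : Fin m ⊕ Fin m, Cfsg.stabilizing (Cfsg.spToMat m F)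
      ((Submodule.span F {(Pi.single i (1 : F) : Fin m ⊕ Fin m → F)} : Submodule F (Fin m ⊕ Fin m → F)) :
        Set (Fin m ⊕ Fin m → F)) : Set (Matrix.symplecticGroup (Fin m) F)) := fun g σ c hg => by
    rw [Set.iInf_eq_iInter, ← Subgroup.coe_iInf]
    refine Subgroup.mem_normalizer_fintype fun x hx => ?_
    obtain ⟨d, hd⟩ := (hT x).1 hx
    refine (hT _).2 ⟨d ∘ σ, ?_⟩
    have : g.1 * (g⁻¹).1 = 1 := by rw [← Submonoid.coe_mul, mul_inv_cancel]; rfl
    rw [Submonoid.coe_mul, Submonoid.coe_mul, hd]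
    conv_lhs => rw [hg, mono_mul_diagonal, ← hg, mul_assoc, this, mul_one]
  have hc : ∀ σ : Equiv.Perm (Fin m ⊕ Fin m), σ ∈ centralizer {(Equiv.sumComm (Fin m) (Fin m) :
      Equiv.Perm (Fin m ⊕ Fin m))} ↔ ∀ i, σ i.swap = (σ i).swap := fun σ => by
    rw [mem_centralizer_singleton_iff, Equiv.ext_iff]; rfl
  have hu : (q - 1) ^ m = Nat.card (Fin m → Fˣ) := by
    rw [Nat.card_fun, Nat.card_units, Nat.card_eq_fintype_card, hF, Nat.card_eq_fintype_card,
      Fintype.card_fin]
  rw [← card_cent, hu, ← Nat.card_prod]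
  symm
  refine Nat.card_eq_of_bijective
    (fun x => ⟨⟨_, mono_cf_mem ((hc _).1 x.1.2) x.2⟩, key _ x.1.1 _ rfl⟩) ⟨?_, ?_⟩
  · rintro ⟨σ, c⟩ ⟨τ, d⟩ h
    obtain ⟨h1, h2⟩ := mono_inj (cf_ne_zero _ _) (congrArg (fun x => x.1.1) h)
    exact Prod.ext (Subtype.ext (DFunLike.coe_injective h1))
      (funext fun i => Units.ext (congrFun h2 (.inl i)))
  · rintro ⟨g, hg⟩
    obtain ⟨a, ha⟩ : ∃ a : Fˣ, a ^ 2 ≠ 1 := by
      by_contra! h
      have := IsCyclic.exponent_eq_card (α := Fˣ) ▸ Monoid.exponent_dvd_of_forall_pow_eq_one h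
      rw [Nat.card_units, Nat.card_eq_fintype_card, hF] at this
      have := Nat.le_of_dvd two_pos this
      omega
    have ha1 : (a : F) ≠ 1 := fun h => ha (by rw [Units.val_eq_one.1 h, one_pow])
    have ha2 : (a : F) ≠ (a : F)⁻¹ := fun h => ha (Units.ext (by
      rw [Units.val_pow_eq_pow_val, sq]; exact (mul_eq_one_iff_eq_inv₀ a.ne_zero).2 h))
    have hm := exists_unique_of_conj_diag ((spToMat m F).toHomUnits g) fun j k hjk => by
      obtain ⟨l, hl⟩ : ∃ l, j = .inl l ∨ j = .inr l := by rcases j with j | j <;> simp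
      have h1 : mono (1 : Equiv.Perm (Fin m ⊕ Fin m)) (cf (1 : Equiv.Perm (Fin m ⊕ Fin m)) (Function.update 1 l a)) =
          diagonal (cf (1 : Equiv.Perm (Fin m ⊕ Fin m)) (Function.update 1 l a)) := by
        ext i j; simp [mono_apply, diagonal_apply]
      rw [Set.iInf_eq_iInter, ← Subgroup.coe_iInf] at hg
      obtain ⟨d', hd'⟩ := (hT _).1 ((mem_normalizer_iff.1 hg
        ⟨_, mono_cf_mem (σ := 1) (fun _ => rfl) (Function.update 1 l a)⟩).1 ((hT _).2 ⟨_, h1⟩))
      refine ⟨cf (1 : Equiv.Perm (Fin m ⊕ Fin m)) (Function.update 1 l a), d', ?_, ?_⟩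
      rotate_left
      · rw [← hd', ← h1]
        change g.1 * _ = (g * _ * g⁻¹ * g).1
        rw [inv_mul_cancel_right]; rfl
      · rcases k with k | k <;> by_cases hk : k = l <;> rcases hl with rfl | rfl <;>
          simp_all [cf, J, eq_comm]
    obtain ⟨σ, c, h0, h1⟩ := exists_mono _ hm
    have h2 := (mono_mem_iff σ c).1 (h1 ▸ g.2)
    have h3 : ∀ i, σ i.swap = (σ i).swap := fun i => (J_ne_zero (F := F) _ _).1 fun h =>
      (J_ne_zero (F := F) i _).2 rfl (by rw [← h2, h, mul_zero, zero_mul])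
    refine ⟨(⟨σ, (hc _).2 h3⟩, fun i => Units.mk0 _ (h0 (.inl i))), Subtype.ext (Subtype.ext ?_)⟩
    refine Eq.trans ?_ h1.symm
    change mono σ (cf σ _) = _
    congr 1
    funext i
    rcases i with i | i
    · rfl
    · have h4 := h2 (.inl i) (.inr i)
      have h5 := J_sq (F := F) (σ (.inl i))
      rw [show σ (.inr i) = _ from h3 (.inl i), show J (Fin m) F (.inl i) (.inr i) = -1 by simp [J]] at h4
      have := h0 (.inl i)
      simp only [cf, Sum.elim_inr, Units.val_mk0]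
      field_simp
      linear_combination (- J (Fin m) F (σ (.inl i)) (σ (.inl i)).swap) * h4 + (c (.inl i) * c (.inr i)) * h5

end Cfsg.Agent.S0777
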