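import Cfsg.Statements.S0778
import Cfsg.Agent.Classical.Parab

set_option autoImplicit false
open Cfsg

namespace Cfsg.Agent.S0778

open Cfsg.Agent.Classical Matrix Subgroup MulAction

/-- The elements of Sp_2m(F) stabilising both W = ⟨e_1..e_m⟩ and U = ⟨f_1..f_m⟩ form a subgroup isomorphic to GL_m(F) (block-diagonal matrices diag(X, X^(−ᵀ)) up to the sign convention of J), for m ≥ 1 or m = 0 alike. -/
theorem result {F : Type*} [Field F] (m : ℕ) : Nonempty (↥(Cfsg.stabilizing (Cfsg.spToMat m F) {v : Fin m ⊕ Fin m → F | ∀ i : Fin m, v (Sum.inr i) = 0} ⊓ Cfsg.stabilizing (Cfsg.spToMat m F) {v : Fin m ⊕ Fin m → F | ∀ i : Fin m, v (Sum.inl i) = 0}) ≃* Matrix.GeneralLinearGroup (Fin m) F) := by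
  have h1 : ∀ g : symplecticGroup (Fin m) F, g ∈ Cfsg.stabilizing (Cfsg.spToMat m F)
      {v : Fin m ⊕ Fin m → F | ∀ i : Fin m, v (Sum.inr i) = 0} ↔ ∀ i j, g.1 (.inr i) (.inl j) = 0 :=
    fun g => by simpa using mem_stab_coordP (spToMat m F) (fun i => i.isRight) g
  have h2 : ∀ g : symplecticGroup (Fin m) F, g ∈ Cfsg.stabilizing (Cfsg.spToMat m F)
      {v : Fin m ⊕ Fin m → F | ∀ i : Fin m, v (Sum.inl i) = 0} ↔ ∀ i j, g.1 (.inl i) (.inr j) = 0 :=
    fun g => by simpa using mem_stab_coordP (spToMat m F) (fun i => i.isLeft) g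
  refine ⟨((MonoidHom.ofInjective spLevi_injective).trans (MulEquiv.subgroupCongr ?_)).symm⟩
  ext g
  rw [mem_inf, h1, h2]
  constructor
  · rintro ⟨A, rfl⟩
    exact ⟨fun _ _ => rfl, fun _ _ => rfl⟩
  · rintro ⟨h3, h4⟩
    obtain ⟨A, S, hS, rfl⟩ := exists_levi_mul_uni g h3
    have : A.1 * S = 0 := by
      ext i j
      simpa [coe_levi_mul_uni, -Submonoid.coe_mul] using h4 i j
    exact ⟨A, Subtype.ext (by rw [coe_levi_mul_uni, this]; rfl)⟩

end Cfsg.Agent.S0778
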