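import Cfsg.Statements.S0779
import Cfsg.Agent.Classical.SUSimple

set_option autoImplicit false
open Cfsg

namespace Cfsg.Agent.S0779

/-- Unitary transvections: let |F| = q², h the standard Hermitian form Σ x_i y_i^q and v ≠ 0 with h(v, v) = 0. The linear map x ↦ x + c h(x, v) v is an isometry of h if and only if c = 0 or c^(q−1) = −1. -/
theorem result {F : Type*} [Field F] [Fintype F] {q : ℕ} (hF : Fintype.card F = q ^ 2) (n : ℕ) (v : Fin n → F) (hv : v ≠ 0) (hv0 : Cfsg.hermForm n F q v v = 0) (c : F) : (∀ x y : Fin n → F, Cfsg.hermForm n F q ((Cfsg.unitaryTransvection n q v c).mulVec x) ((Cfsg.unitaryTransvection n q v c).mulVec y) = Cfsg.hermForm n F q x y) ↔ (c = 0 ∨ c ^ (q - 1) = -1) := by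
  have : Fact (Fintype.card F = q ^ 2) := ⟨hF⟩
  have key : c + c ^ q = 0 ↔ c = 0 ∨ c ^ (q - 1) = -1 := by
    have h : c ^ q = c * c ^ (q - 1) := by
      rw [← pow_succ', Nat.sub_add_cancel (Nat.pos_of_ne_zero (Classical.q_ne_zero F))]
    rw [h, ← mul_one_add, mul_eq_zero, add_comm, add_eq_zero_iff_eq_neg]
  rw [← key]
  simp only [Classical.herm_unitaryTransvection, hv0, mul_zero, add_zero]
  constructor
  · intro h
    obtain ⟨x, hx⟩ := Classical.exists_herm_eq_one (q := q) hv
    simpa [hx, Classical.herm_eq_one_comm hx] using h x x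
  · intro h x y
    simp [h]

end Cfsg.Agent.S0779
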