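import Cfsg.Statements.S0782
import Cfsg.Agent.Geom.Torus

set_option autoImplicit false
open Cfsg

namespace Cfsg.Agent.S0782

/-- Maximal parabolics of SU_n(q): if W is a k-dimensional subspace of F^n (n ≥ 1, |F| = q²) on which the Hermitian form vanishes, then (q + 1) times the order of its stabiliser in SU_n(q) equals q^(k(2n−3k)) · |GL_k(q²)| · |GU_(n−2k)(q)|, where |GU_m(q)| = q^(m(m−1)/2) Π_(i=1..m) (q^i − (−1)^i). -/
theorem result {F : Type*} [Field F] [Fintype F] {q : ℕ} (hF : Fintype.card F = q ^ 2) (n k : ℕ) (hn : 1 ≤ n) (hk : 2 * k ≤ n) (W : Submodule F (Fin n → F)) (hWk : Module.finrank F W = k) (hW : ∀ u ∈ W, ∀ v ∈ W, Cfsg.hermForm n F q u v = 0) : (q + 1) * Nat.card ↥((Cfsg.stabilizing (Cfsg.slToMat n F) (W : Set (Fin n → F))).subgroupOf (Cfsg.SU n F q)) = q ^ (k * (2 * n - 3 * k)) * (∏ i : Fin k, ((q ^ 2) ^ k - (q ^ 2) ^ (i : ℕ))) * (q ^ ((n - 2 * k) * ((n - 2 * k) - 1) / 2) * ∏ i ∈ Finset.range (n - 2 * k), (if Even i then q ^ (i + 1) +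 1 else q ^ (i + 1) - 1)) := by
  haveI := Fact.mk hF
  have h := Geom.hermFormed_nondeg hF n
  have hU : (Geom.hermFormed hF n).TotSing W := ⟨fun x hx y hy => hW y hy x hx, fun _ _ => rfl⟩
  let P := (Geom.hermFormed hF n).isom ⊓ Geom.stab W
  let d : P →* Fˣ := LinearEquiv.det.comp P.subtype
  have hd' : ∀ g : P, (d g : F) = LinearMap.det (g.1 : (Fin n → F) →ₗ[F] (Fin n → F)) :=
    fun g => LinearEquiv.coe_det _
  have hr : d.range = rootsOfUnity (q + 1) F := by
    ext z
    rw [mem_rootsOfUnity, Units.ext_iff, Units.val_pow_eq_pow_val, pow_succ', Units.val_one]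
    constructor
    · rintro ⟨⟨g, hg⟩, rfl⟩
      obtain ⟨g', e⟩ := (Geom.guEquiv hF n).surjective ⟨g, hg.1⟩
      obtain rfl : Geom.glEquiv _ F g'.1 = g := congrArg Subtype.val e
      have := Classical.det_mul_det_pow g'
      rwa [hd', Geom.det_glEquiv]
    · intro hz
      obtain ⟨g, hg, e⟩ := Geom.exists_det_eq_of_totSing hF h rfl (by simpa) hU hz
      exact ⟨⟨g, hg⟩, Units.ext ((hd' _).trans e)⟩
  have hc : Nat.card ↥((Cfsg.stabilizing (Cfsg.slToMat n F) (W : Set (Fin n → F))).subgroupOf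
      (Cfsg.SU n F q)) = Nat.card d.ker := by
    refine Nat.card_congr (Equiv.ofBijective (fun g => ⟨⟨(Geom.guEquiv hF n (Classical.suToGU n F q g)).1,
      (Geom.guEquiv hF n _).2, g.2⟩, Units.ext ((hd' _).trans
        ((Geom.det_glEquiv (Classical.suToGU n F q g).1).trans g.1.1.2))⟩) ⟨?_, ?_⟩)
    · intro a b hab
      exact Subtype.ext (Classical.suToGU_injective ((Geom.guEquiv hF n).injective
        (Subtype.ext (congrArg (fun x : d.ker => x.1.1) hab))))
    · rintro ⟨⟨g, hg⟩, hd⟩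
      obtain ⟨g', e⟩ := (Geom.guEquiv hF n).surjective ⟨g, hg.1⟩
      obtain rfl : Geom.glEquiv _ F g'.1 = g := congrArg Subtype.val e
      obtain ⟨s, rfl⟩ : g' ∈ (Classical.suToGU n F q).range := by
        rw [Classical.range_suToGU]
        exact Units.ext ((Geom.det_glEquiv _).symm.trans ((hd' ⟨_, hg⟩).symm.trans (congrArg Units.val hd)))
      exact ⟨⟨s, hg.2⟩, rfl⟩
  rw [hc, ← Classical.card_rootsOfUnity_succ (F := F) (q := q), ← hr, ← Subgroup.index_ker,
    Subgroup.index_mul_card, h.card_stab_totSing hU]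
  obtain ⟨e, f, hef, rfl⟩ := h.exists_isHyp_of_totSing hU hWk
  have hd := hef.finrank_perp h
  simp only [Fintype.card_fin, Module.finrank_fintype_fun_eq_card] at hd
  rw [h.card_fix_totSing hef, Geom.card_isom_herm hF (h.restrict_perp hef.nondeg_span) rfl
    (n := n - 2 * k) (by omega), Geom.kappa_herm hF rfl, hWk, Nat.card_eq_fintype_card, hF,
    ← pow_mul q 2 (∑ _ ∈ _, _), ← pow_add, ← mul_assoc, mul_comm (∏ _, _)]
  congr 3
  simp only [Module.finrank_fintype_fun_eq_card, Fintype.card_fin]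
  have key : ∀ j ≤ k, 2 * ∑ i ∈ Finset.range j, (n - (k + i + 1)) + j + j * (2 * k + j) = j * (2 * n) := by
    intro j hj
    induction j with
    | zero => simp
    | succ j ih =>
      rw [Finset.sum_range_succ]
      have := ih (by omega)
      obtain ⟨r, hr⟩ : ∃ r, n = r + (k + j + 1) := ⟨n - (k + j + 1), by omega⟩
      rw [show n - (k + j + 1) = r by omega]
      nlinarith
  have := key k le_rfl
  rw [Nat.mul_sub, ← this]
  ring_nf
  omega

end Cfsg.Agent.S0782
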