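import Cfsg.Statements.S0783
import Cfsg.Agent.Classical.DetQuot

set_option autoImplicit false
open Cfsg

namespace Cfsg.Agent.S0783

open Cfsg.Agent.Classical Matrix Subgroup MulAction

/-- PGU_n(q)/PSU_n(q) is cyclic of order (n, q+1): for n ≥ 2 and |F| = q² there is a surjective homomorphism from GU_n(q) onto the cyclic group of order gcd(n, q + 1) whose kernel is generated by the determinant-one elements together with the centre. -/
theorem result {F : Type*} [Field F] [Fintype F] {q : ℕ} (hF : Fintype.card F = q ^ 2) (n : ℕ) (hn : 2 ≤ n) : ∃ φ : ↥(Cfsg.GU n F q) →* Multiplicative (ZMod (Nat.gcd n (q + 1))), Function.Surjective φ ∧ φ.ker = (Matrix.GeneralLinearGroup.det : Matrix.GeneralLinearGroup (Fin n) F →* Fˣ).ker.subgroupOf (Cfsg.GU n F q) ⊔ Subgroup.center ↥(Cfsg.GU n F q) := by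
  have : Fact (Fintype.card F = q ^ 2) := ⟨hF⟩
  have hr := range_guDet (F := F) (q := q) (n := n) (by omega)
  let d : GU n F q →* rootsOfUnity (q + 1) F :=
    (guDet n F q).codRestrict _ fun g => hr ▸ ⟨g, rfl⟩
  have hd : Function.Surjective d := by
    rintro ⟨x, hx⟩
    rw [← hr] at hx
    obtain ⟨g, rfl⟩ := hx
    exact ⟨g, rfl⟩
  have hZ : (Subgroup.center (GU n F q)).map d = (powMonoidHom n).range := by
    ext x
    constructor
    · rintro ⟨g, hg, rfl⟩
      obtain ⟨a, ha⟩ := (mem_center_GU_iff hn).1 hg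
      have h1 := pow_succ_of_gu_eq_smul (by omega) ha
      have ha0 : a ≠ 0 := by rintro rfl; simp at h1
      refine ⟨⟨Units.mk0 a ha0, (mem_rootsOfUnity' _ _).2 h1⟩, ?_⟩
      apply Subtype.ext; apply Units.ext
      change a ^ n = det g.1.1
      simp [ha]
    · rintro ⟨a, rfl⟩
      refine ⟨guScalar ((a : Fˣ) : F) ((mem_rootsOfUnity' _ _).1 a.2),
        (mem_center_GU_iff hn).2 ⟨_, rfl⟩, ?_⟩
      apply Subtype.ext; apply Units.ext
      change det (((a : Fˣ) : F) • (1 : Matrix (Fin n) (Fin n) F)) = ((a : Fˣ) : F) ^ n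
      simp
  obtain ⟨φ, h1, h2⟩ := exists_hom_zmod_gcd d hd _ n hZ (card_rootsOfUnity_succ F q)
  refine ⟨φ, h1, ?_⟩
  rw [h2]
  congr 1
  ext g
  simp only [MonoidHom.mem_ker, mem_subgroupOf]
  exact Subtype.ext_iff

end Cfsg.Agent.S0783
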