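import Cfsg.Statements.S0785
import Cfsg.Agent.Geom.OBridge

set_option autoImplicit false
open Cfsg

namespace Cfsg.Agent.S0785

/-- det(I) = {±1}: for a quadratic form on F^n whose polar form is non-degenerate, every element of the isometry group has determinant 1 or −1, and as soon as Q takes a non-zero value some isometry has determinant −1. -/
theorem result {F : Type*} [Field F] {n : ℕ} (Q : QuadraticForm F (Fin n → F)) (hQ : (QuadraticMap.polarBilin Q).Nondegenerate) : (∀ g : ↥(Cfsg.isometryGroup F ⇑Q), ((g : Matrix.GeneralLinearGroup (Fin n) F) : Matrix (Fin n) (Fin n) F).det = 1 ∨ ((g : Matrix.GeneralLinearGroup (Fin n) F) : Matrix (Fin n) (Fin n) F).det = -1) ∧ ((∃ v, Q v ≠ 0) → ∃ g : ↥(Cfsg.isometryGroup F ⇑Q), ((g : Matrix.GeneralLinearGroup (Fin n) F) : Matrix (Fin n) (Fin n) F).det = -1) := by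
  refine ⟨fun g => ?_, fun ⟨v, hv⟩ => ⟨(Geom.isometryEquiv Q).symm (Geom.refl Q v), ?_⟩⟩
  · have h := Geom.nondeg_of_polarBilin hQ
    have h0 := ((Geom.Formed.ofQuad Q).nondeg_iff_det_gram (Pi.basisFun F (Fin n))).1 h
    set M := ((g : Matrix.GeneralLinearGroup (Fin n) F) : Matrix (Fin n) (Fin n) F) with hM
    have key : M.transpose * (Geom.Formed.ofQuad Q).gram (Pi.basisFun F (Fin n)) * M =
        (Geom.Formed.ofQuad Q).gram (Pi.basisFun F (Fin n)) := by
      rw [Geom.Formed.gram_eq_toMatrix]
      have : M = LinearMap.toMatrix (Pi.basisFun F (Fin n)) (Pi.basisFun F (Fin n))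
          ((Geom.isometryEquiv Q g).1 : (Fin n → F) →ₗ[F] (Fin n → F)) := by
        rw [LinearMap.toMatrix_eq_toMatrix', hM, ← Geom.omat_isometryEquiv]; rfl
      rw [this, ← LinearMap.BilinForm.toMatrix_comp]
      congr 1
      exact LinearMap.ext₂ fun x y => (Geom.isometryEquiv Q g).2.1 x y
    have := congrArg Matrix.det key
    rw [Matrix.det_mul, Matrix.det_mul, Matrix.det_transpose, mul_right_comm,
      mul_left_eq_self₀] at this
    exact mul_self_eq_one_iff.1 (this.resolve_right h0)
  · rw [Geom.coe_isometryEquiv_symm, Geom.det_omat, Geom.det_refl hv]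

end Cfsg.Agent.S0785
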