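import Cfsg.Statements.S0787
import Cfsg.Agent.Geom.Family
import Cfsg.Agent.Geom.OBridge

set_option autoImplicit false
open Cfsg

namespace Cfsg.Agent.S0787

open Geom in
theorem aux {F V : Type*} [Field F] [Finite F] [AddCommGroup V] [Module F V]
    [FiniteDimensional F V] {Q : QuadraticForm F V} (h : (Formed.ofQuad Q).Nondeg) (hx : NotExc Q)
    (hn : 2 ≤ Module.finrank F V) (S : Subgroup (OG Q))
    (hS : ∀ g, g ∈ S ↔ LinearMap.det (g.1 : V →ₗ[F] V) = 1) :
    ∃! H : Subgroup S, H.index = 2 := by
  have hrr : ∀ u v, Q u ≠ 0 → Q v ≠ 0 → refl Q u * refl Q v ∈ S := fun u v hu hv => by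
    rw [hS, det_eq_dick h hx, dick_refl_mul h hu, dick_refl h hv]; simp
  have hle : commutator (OG Q) ≤ S := commutator_le_of_sq h hx fun u v hu hv =>
    S.pow_mem (hrr u v hu hv) 2
  have hi : ((commutator (OG Q)).subgroupOf S).index = 2 := by
    have h1 := Subgroup.relIndex_mul_index hle
    by_cases h2 : (2 : F) = 0
    · have : S = ⊤ := by
        rw [eq_top_iff]; intro g _; rw [hS]; exact det_eq_one_of_two_eq_zero h hx h2 g
      rw [index_commutator_even h hx h2 (by omega), this, Subgroup.index_top, mul_one] at h1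
      rw [← Subgroup.relIndex, this, h1]
    · have : S = (dickHom h hx).ker := by
        ext g; rw [hS, MonoidHom.mem_ker, dickHom_apply, dick_eq_one_iff_det h h2]
      have h3 : S.index = 2 := by rw [this, index_ker_dick h hx (by omega)]
      rw [index_commutator_odd h h2 hn, h3] at h1
      rw [← Subgroup.relIndex]; omega
  refine ⟨_, hi, fun H hH => ?_⟩
  have hle' : commutator (OG Q) ≤ H.map S.subtype := commutator_le_of_sq h hx fun u v hu hv =>
    ⟨⟨_, hrr u v hu hv⟩ ^ 2, Subgroup.sq_mem_of_index_two hH _, rfl⟩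
  have hle2 : (commutator (OG Q)).subgroupOf S ≤ H := fun g hg => by
    obtain ⟨x, hx, hxg⟩ := hle' hg
    rwa [← Subtype.ext hxg]
  have h1 := Subgroup.relIndex_mul_index hle2
  rw [hH, hi] at h1
  exact le_antisymm (Subgroup.relIndex_eq_one.1 (by omega)) hle2

/-- Existence and uniqueness of Ω: if F is finite, n ≥ 2, Q is a quadratic form on F^n with non-degenerate polar form and (|F|, n) ≠ (2, 4), then the group of isometries of determinant one has a unique subgroup of index 2. -/
theorem result {F : Type*} [Field F] [Fintype F] {n : ℕ} (hn : 2 ≤ n) (Q : QuadraticForm F (Fin n → F)) (hQ : (QuadraticMap.polarBilin Q).Nondegenerate) (h : Fintype.card F ≠ 2 ∨ n ≠ 4) : ∃! H : Subgroup ↥(Cfsg.specialIsometryGroup F ⇑Q), H.index = 2 := by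
  have hQ' := Geom.nondeg_of_polarBilin hQ
  have hx : Geom.NotExc Q := Geom.notExc_of_or (by simp) h
  set S := (Cfsg.specialIsometryGroup F ⇑Q).map (Geom.isometryEquiv Q).toMonoidHom
  obtain ⟨H, hH, hu⟩ := aux hQ' hx (by simpa) S fun g => by
    rw [Subgroup.mem_map_equiv, Geom.mem_special_iff, MulEquiv.apply_symm_apply]
  let e : Cfsg.specialIsometryGroup F ⇑Q ≃* S := (Geom.isometryEquiv Q).subgroupMap _
  refine ⟨H.comap e.toMonoidHom, (Subgroup.index_comap_of_surjective _ e.surjective).trans hH,
    fun K hK => ?_⟩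
  rw [← hu (K.map e.toMonoidHom) (by rw [← hK]; exact Subgroup.index_map_equiv K e)]
  exact (Subgroup.comap_map_eq_self_of_injective e.injective K).symm

end Cfsg.Agent.S0787
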