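import Cfsg.Statements.S0792
import Cfsg.Agent.Geom.OBridge

set_option autoImplicit false
open Cfsg

namespace Cfsg.Agent.S0792

/-- For q odd and Q with non-degenerate polar form on F^n, the determinant-one isometries form the subgroup generated by all products r_u r_v of two reflections (Q(u), Q(v) ≠ 0). -/
theorem result {F : Type*} [Field F] [Fintype F] (h2 : (2 : F) ≠ 0) {n : ℕ} (Q : QuadraticForm F (Fin n → F)) (hQ : (QuadraticMap.polarBilin Q).Nondegenerate) : Cfsg.specialIsometryGroup F ⇑Q = Subgroup.closure {g : ↥(Cfsg.isometryGroup F ⇑Q) | ∃ u v : Fin n → F, Q u ≠ 0 ∧ Q v ≠ 0 ∧ ((g : Matrix.GeneralLinearGroup (Fin n) F) : Matrix (Fin n) (Fin n) F) = Cfsg.reflectionMatrix ⇑Q u * Cfsg.reflectionMatrix ⇑Q v} := by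
  have h := Geom.nondeg_of_polarBilin hQ
  have hx : Geom.NotExc Q := Geom.notExc_of_two_ne_zero h2
  ext g
  rw [Geom.closure_comap_equiv (Geom.isometryEquiv Q) _
    {g | ∃ u v, Q u ≠ 0 ∧ Q v ≠ 0 ∧ g = Geom.refl Q u * Geom.refl Q v} (fun g => by
    simp only [Set.mem_setOf_eq, ← Geom.omat_refl, ← Geom.omat_mul, Geom.coe_eq_omat_iff]),
    Geom.mem_special_iff, ← Geom.dick_eq_one_iff_det h h2]
  refine ⟨Geom.mem_of_dick_eq_one h hx fun u v hu hv => by
      apply Subgroup.subset_closure; exact ⟨u, v, hu, hv, rfl⟩,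
    fun hg => (Subgroup.closure_le (Geom.dickHom h hx).ker).2 ?_ hg⟩
  rintro _ ⟨u, v, hu, hv, rfl⟩
  simp [Geom.dick_refl_mul h hu, Geom.dick_refl h hv]

end Cfsg.Agent.S0792
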