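import Cfsg.Statements.S0794
import Cfsg.Agent.Geom.OBridge

set_option autoImplicit false
open Cfsg

namespace Cfsg.Agent.S0794

/-- For q odd, n ≥ 5 and Q with non-degenerate polar form: an isometry whose matrix is a Siegel transformation T_(u,v)(c) (u, v singular and orthogonal) is a commutator in the isometry group, so lies in Ω. -/
theorem result {F : Type*} [Field F] [Fintype F] (h2 : (2 : F) ≠ 0) {n : ℕ} (hn : 5 ≤ n) (Q : QuadraticForm F (Fin n → F)) (hQ : (QuadraticMap.polarBilin Q).Nondegenerate) (u v : Fin n → F) (hu : Q u = 0) (hv : Q v = 0) (huv : QuadraticMap.polar ⇑Q u v = 0) (c : F) (g : ↥(Cfsg.isometryGroup F ⇑Q)) (hg : ((g : Matrix.GeneralLinearGroup (Fin n) F) : Matrix (Fin n) (Fin n) F) = Cfsg.siegelMatrix ⇑Q u v c) : g ∈ commutatorSet ↥(Cfsg.isometryGroup F ⇑Q) ∧ g ∈ Cfsg.Omega F ⇑Q := by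
  have h := Geom.nondeg_of_polarBilin hQ
  have hvu : QuadraticMap.polar Q v (c • u) = 0 := by
    simp [QuadraticMap.polar_comm Q v u, huv]
  have hQa : Q (c • u) = 0 := by simp [Geom.quad_smul, hu]
  rw [← Geom.omat_eich hu hv huv, Geom.coe_eq_omat_iff] at hg
  have key : g ∈ commutatorSet ↥(Cfsg.isometryGroup F ⇑Q) := by
    by_cases hli : LinearIndependent F ![v, c • u]
    · obtain ⟨y, b, e⟩ := Geom.siegel_eq_commutator h (Or.inl (by simp; omega)) hv hQa hvu hli
      refine ⟨(Geom.isometryEquiv Q).symm (Geom.eich Q (c • u) y),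
        (Geom.isometryEquiv Q).symm (Geom.eich Q v b), (Geom.isometryEquiv Q).injective ?_⟩
      rw [hg, e, map_commutatorElement]; simp
    · have : g = 1 := (Geom.isometryEquiv Q).injective (by
        rw [hg, map_one]
        by_cases hv0 : v = 0
        · rw [hv0, Geom.eich_zero_left]
        · rw [LinearIndependent.pair_iff' hv0] at hli
          push Not at hli
          obtain ⟨t, ht⟩ := hli
          rw [← ht, Geom.eich_smul_self hv])
      rw [this]; exact one_mem_commutatorSet _
  exact ⟨key, by rw [Cfsg.Omega, commutator_eq_closure]; exact Subgroup.subset_closure key⟩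

end Cfsg.Agent.S0794
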