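import Cfsg.Statements.S0795
import Cfsg.Agent.Geom.OBridge

set_option autoImplicit false
open Cfsg

namespace Cfsg.Agent.S0795

/-- Generation of Ω by root elements: for q odd, n ≥ 5 and Q with non-degenerate polar form on F^n, the commutator subgroup of the isometry group equals the subgroup generated by the isometries whose matrices are Siegel transformations T_(u,v)(c) with u, v singular and orthogonal. -/
theorem result {F : Type*} [Field F] [Fintype F] (h2 : (2 : F) ≠ 0) {n : ℕ} (hn : 5 ≤ n) (Q : QuadraticForm F (Fin n → F)) (hQ : (QuadraticMap.polarBilin Q).Nondegenerate) : Cfsg.Omega F ⇑Q = Subgroup.closure {g : ↥(Cfsg.isometryGroup F ⇑Q) | ∃ (u v : Fin n → F) (c : F), Q u = 0 ∧ Q v = 0 ∧ QuadraticMap.polar ⇑Q u v = 0 ∧ ((g : Matrix.GeneralLinearGroup (Fin n) F) : Matrix (Fin n) (Fin n) F) = Cfsg.siegelMatrix ⇑Q u v c} := by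
  have h := Geom.nondeg_of_polarBilin hQ
  have hx : Geom.NotExc Q := Geom.notExc_of_two_ne_zero h2
  ext g
  rw [Geom.closure_comap_equiv (Geom.isometryEquiv Q) _
    {g | ∃ (u v : Fin n → F) (c : F), Q u = 0 ∧ Q v = 0 ∧ QuadraticMap.polar Q u v = 0 ∧
      g = Geom.eich Q v (c • u)} (fun g => by
    simp only [Set.mem_setOf_eq]
    refine exists₃_congr fun u v c => and_congr_right fun hu => and_congr_right fun hv =>
      and_congr_right fun huv => ?_
    rw [← Geom.omat_eich hu hv huv, Geom.coe_eq_omat_iff]),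
    Geom.mem_Omega_iff, ← Geom.eichGroup_eq_commutator' h hx (by simp; omega)]
  refine ⟨fun hg => Geom.eichGroup_le ?_ hg, fun hg => (Subgroup.closure_le _).2 ?_ hg⟩
  · refine Geom.eich_mem_of_siegel h (by simpa) fun p a hp ha hpa _ =>
      Subgroup.subset_closure ⟨a, p, 1, ha, hp, by rwa [QuadraticMap.polar_comm], by simp⟩
  · rintro _ ⟨u, v, c, -, -, -, rfl⟩
    exact Geom.eich_mem_eichGroup _ _

end Cfsg.Agent.S0795
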