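import Cfsg.Statements.S0796


set_option autoImplicit false
open Cfsg

namespace Cfsg.Agent.S0796

/-- If G is finite and acts faithfully and primitively on X, H is the stabiliser of a point, A is a normal subgroup of H whose normal closure in G is G, then for every non-trivial normal subgroup K of G the quotient G ⧸ K is isomorphic to A ⧸ B for some normal subgroup B of A. -/
theorem result {G X : Type*} [Group G] [Finite G] [MulAction G X] [FaithfulSMul G X] (hprim : MulAction.IsPreprimitive G X) (x : X) (A : Subgroup G) (hA : A ≤ MulAction.stabilizer G x) (hAn : (A.subgroupOf (MulAction.stabilizer G x)).Normal) (hgen : Subgroup.normalClosure (A : Set G) = ⊤) (K : Subgroup G) [K.Normal] (hK : K ≠ ⊥) : ∃ (B : Subgroup A) (_ : B.Normal), Nonempty (G ⧸ K ≃* A ⧸ B) := by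
  haveI := hprim
  have htr : MulAction.IsPretransitive K X := by
    refine MulAction.IsQuasiPreprimitive.isPretransitive_of_normal fun h => hK ?_
    rw [eq_bot_iff]
    intro k hk
    exact FaithfulSMul.eq_of_smul_eq_smul (α := X) fun y => by
      rw [one_smul]; exact Set.eq_univ_iff_forall.1 h y ⟨k, hk⟩
  have hsurj : Function.Surjective ((QuotientGroup.mk' K).comp A.subtype) := by
    rw [← MonoidHom.range_eq_top]
    have hn : ((QuotientGroup.mk' K).comp A.subtype).range.Normal := ⟨by
      rintro _ ⟨a, rfl⟩ g
      obtain ⟨g, rfl⟩ := QuotientGroup.mk'_surjective K g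
      obtain ⟨k, hk⟩ := htr.exists_smul_eq (g • x) x
      have hs : (k : G) * g ∈ MulAction.stabilizer G x := by
        rw [MulAction.mem_stabilizer_iff, mul_smul]; exact hk
      have := hAn.conj_mem ⟨a, hA a.2⟩ a.2 ⟨_, hs⟩
      refine ⟨⟨_, this⟩, ?_⟩
      have hk1 : QuotientGroup.mk' K (k : G) = 1 := (QuotientGroup.eq_one_iff _).2 k.2
      simp only [MonoidHom.comp_apply, Subgroup.coe_subtype, Subgroup.coe_mul, Subgroup.coe_inv,
        map_mul, map_inv, hk1, one_mul]⟩
    rw [eq_top_iff]
    intro y _
    obtain ⟨g, rfl⟩ := QuotientGroup.mk'_surjective K y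
    have : Subgroup.normalClosure (A : Set G) ≤
        ((QuotientGroup.mk' K).comp A.subtype).range.comap (QuotientGroup.mk' K) :=
      Subgroup.normalClosure_le_normal fun a ha => ⟨⟨a, ha⟩, rfl⟩
    exact this (hgen ▸ Subgroup.mem_top g)
  exact ⟨_, inferInstance, ⟨(QuotientGroup.quotientKerEquivOfSurjective _ hsurj).symm⟩⟩

end Cfsg.Agent.S0796
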