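import Cfsg.Statements.S0797
import Cfsg.Agent.Geom.Family
import Cfsg.Agent.Geom.OBridge

set_option autoImplicit false
open Cfsg

namespace Cfsg.Agent.S0797

theorem aux : Nat.card {H : Subgroup (ℤˣ × ℤˣ) // H.index = 2} = 3 := by
  have key : ∀ H : Subgroup (ℤˣ × ℤˣ), H.index = 2 →
      ∃ a : ℤˣ × ℤˣ, a ≠ 1 ∧ H = Subgroup.zpowers a := fun H hH => by
    have h1 := H.index_mul_card
    rw [hH] at h1
    have h2 : Nat.card (ℤˣ × ℤˣ) = 4 := by simp
    have h3 : Nat.card H = 2 := by omega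
    haveI : Fact (Nat.Prime 2) := ⟨Nat.prime_two⟩
    haveI : IsCyclic H := isCyclic_of_prime_card h3
    obtain ⟨a, ha⟩ := (Subgroup.isCyclic_iff_exists_zpowers_eq_top H).1 this
    refine ⟨a, ?_, ha.symm⟩
    rintro rfl
    rw [← ha] at h3; simp at h3
  have hc : ∀ a : ℤˣ × ℤˣ, a ≠ 1 → Nat.card (Subgroup.zpowers a) = 2 := fun a ha => by
    rw [Nat.card_zpowers]
    haveI : Fact (Nat.Prime 2) := ⟨Nat.prime_two⟩
    exact orderOf_eq_prime (by ext <;> simp [sq]) ha
  have e : {a : ℤˣ × ℤˣ // a ≠ 1} ≃ {H : Subgroup (ℤˣ × ℤˣ) // H.index = 2} := by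
    refine Equiv.ofBijective (fun a => ⟨Subgroup.zpowers a.1, ?_⟩) ⟨fun a b hab => ?_, fun H => ?_⟩
    · have h1 := (Subgroup.zpowers a.1).index_mul_card
      have h2 : Nat.card (ℤˣ × ℤˣ) = 4 := by simp
      rw [hc _ a.2, h2] at h1; omega
    · have h1 : a.1 ∈ Subgroup.zpowers b.1 := by
        rw [← Subtype.mk.inj hab]; exact Subgroup.mem_zpowers _
      obtain ⟨k, hk⟩ := h1
      have hb : b.1 ^ (2 : ℤ) = 1 := by ext <;> simp [zpow_two]
      rcases Int.even_or_odd' k with ⟨j, rfl | rfl⟩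
      · exact absurd (by rw [← hk]; simp only; rw [zpow_mul, hb, one_zpow]) a.2
      · ext1; rw [← hk]; simp only; rw [zpow_add, zpow_mul, hb, one_zpow, one_mul, zpow_one]
    · obtain ⟨a, ha, h⟩ := key H.1 H.2
      exact ⟨⟨a, ha⟩, Subtype.ext h.symm⟩
  rw [← Nat.card_congr e, Nat.card_eq_fintype_card]
  decide

/-- O^ε_2m(q) ≅ Ω.2² for q odd: if F is finite of odd characteristic, n ≥ 2 is even and Q has non-degenerate polar form on F^n, the isometry group of Q has exactly three subgroups of index 2. -/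
theorem result {F : Type*} [Field F] [Fintype F] (h2 : (2 : F) ≠ 0) {n : ℕ} (hn : 2 ≤ n) (heven : Even n) (Q : QuadraticForm F (Fin n → F)) (hQ : (QuadraticMap.polarBilin Q).Nondegenerate) : Nat.card {H : Subgroup ↥(Cfsg.isometryGroup F ⇑Q) // H.index = 2} = 3 := by
  have h := Geom.nondeg_of_polarBilin hQ
  have hx : Geom.NotExc Q := Geom.notExc_of_two_ne_zero h2
  let f := ((Geom.dickHom h hx).prod (Geom.spinHom h hx)).comp (Geom.isometryEquiv Q).toMonoidHom
  have hf : Function.Surjective f :=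
    (Geom.dick_spin_surjective h h2 (by simpa)).comp (Geom.isometryEquiv Q).surjective
  have hk : f.ker = commutator _ := by
    ext g
    rw [← Geom.mem_commutator_equiv (Geom.isometryEquiv Q), Geom.commutator_eq_ker h hx]; rfl
  rw [← aux]
  refine (Nat.card_congr (Equiv.ofBijective (fun H => ⟨H.1.comap f,
    (Subgroup.index_comap_of_surjective _ hf).trans H.2⟩) ⟨fun H K hHK => ?_, fun H => ?_⟩)).symm
  · exact Subtype.ext (Subgroup.comap_injective hf (Subtype.mk.inj hHK))
  · have hle : f.ker ≤ H.1 := by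
      rw [hk]
      haveI := Subgroup.normal_of_index_eq_two H.2
      haveI : Fact (Nat.Prime 2) := ⟨Nat.prime_two⟩
      haveI : IsCyclic (_ ⧸ H.1) := isCyclic_of_prime_card H.2
      letI := IsCyclic.commGroup (α := _ ⧸ H.1)
      have := Abelianization.commutator_subset_ker (QuotientGroup.mk' H.1)
      rwa [QuotientGroup.ker_mk'] at this
    have hm : (H.1.map f).comap f = H.1 := Subgroup.comap_map_eq_self hle
    refine ⟨⟨H.1.map f, ?_⟩, Subtype.ext hm⟩
    rw [← Subgroup.index_comap_of_surjective _ hf, hm, H.2]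

end Cfsg.Agent.S0797
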