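import Cfsg.Statements.S0798
import Cfsg.Agent.Geom.Family
import Cfsg.Agent.Geom.OBridge

set_option autoImplicit false
open Cfsg

namespace Cfsg.Agent.S0798

open Geom Module QuadraticMap in
theorem aux {F V : Type*} [Field F] [Fintype F] [AddCommGroup V] [Module F V]
    [FiniteDimensional F V] {Q : QuadraticForm F V} (h : (Formed.ofQuad Q).Nondeg)
    (h2 : (2 : F) ≠ 0) (hn : 2 ≤ finrank F V) (heven : Even (finrank F V))
    (h43 : ¬ (finrank F V = 4 ∧ Fintype.card F = 3)) (c : F) (hc : c ≠ 0) :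
    (Subgroup.closure {g : OG Q | ∃ v t, t ≠ 0 ∧ Q v = c * t ^ 2 ∧ g = refl Q v}).index = 2 := by
  have hx : NotExc Q := notExc_of_two_ne_zero h2
  set N := Subgroup.closure {g : OG Q | ∃ v t, t ≠ 0 ∧ Q v = c * t ^ 2 ∧ g = refl Q v}
  have hN : ∀ v t, t ≠ 0 → Q v = c * t ^ 2 → refl Q v ∈ N := fun v t ht hv =>
    Subgroup.subset_closure ⟨v, t, ht, hv, rfl⟩
  have hT : ((Formed.ofQuad Q).restrict ⊤).Nondeg := Formed.isIso_top.symm.nondeg h
  obtain ⟨v₀, -, hv₀⟩ := exists_Q_eq Q ⊤ hT (by simpa) c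
  have hr₀ : refl Q v₀ ∈ N := hN v₀ 1 one_ne_zero (by simpa)
  have hle : commutator (OG Q) ≤ N := by
    by_cases hd : finrank F V = 2
    · intro g hg
      have hg1 := ((mem_commutator_iff h hx g).1 hg)
      -- `g r` is a reflection of the class of `c`
      obtain ⟨v, hv, hgv⟩ := exists_refl_of_finrank_mov h (refl Q v₀ * g) (by
        have h1 : dick (refl Q v₀ * g) ≠ 1 := by
          rw [dick_refl_mul h (hv₀ ▸ hc), hg1.1]; decide
        rw [Ne, dick_eq_one_iff, Nat.even_iff] at h1
        have := Submodule.finrank_le (mov (refl Q v₀ * g).1)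
        omega)
      have h1 := spin_refl_mul h (hv₀ ▸ hc) g
      rw [hgv, spin_refl h hv, hg1.2, mul_one, hv₀] at h1
      obtain ⟨t, ht, hvt⟩ := exists_sq_mul_of_sqSign_eq hv hc h1
      rw [← refl_mul_cancel Q v₀ g, hgv]
      exact N.mul_mem hr₀ (hN v t ht (by rw [hvt, mul_comm]))
    · have h4 : 4 ≤ finrank F V := by obtain ⟨k, hk⟩ := heven; omega
      rw [← eichGroup_eq_commutator' h hx (by omega)]
      refine eichGroup_le (eich_mem_of_pairPerp h fun p w hp a ha => ?_)
      have hU := hp.nondeg_pairPerp h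
      have hd' := hp.finrank_pairPerp h
      obtain ⟨v, hv, hvc⟩ := exists_Q_eq Q _ hU (by omega) c
      have hs : (∃ s : F, s ≠ 0 ∧ s ^ 2 ≠ 1) ∨ finrank F ((Formed.ofQuad Q).pairPerp p w) ≠ 2 := by
        by_contra! hcon
        refine h43 ⟨by omega, ?_⟩
        classical
        have h3 : (Finset.univ : Finset F) = {0, 1, -1} := by
          ext x; simp only [Finset.mem_univ, Finset.mem_insert, Finset.mem_singleton, true_iff]
          by_cases hx0 : x = 0
          · exact .inl hx0
          · exact .inr (sq_eq_one_iff.1 (hcon.1 x hx0))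
        rw [← Finset.card_univ, h3, Finset.card_eq_three]
        exact ⟨0, 1, -1, zero_ne_one, by simp, fun h => h2 (by linear_combination h), rfl⟩
      have ha' := le_span_class h2 hU hv (hvc ▸ hc) hs ha
      have key : ∀ a ∈ Submodule.span F {x | x ∈ (Formed.ofQuad Q).pairPerp p w ∧ Q x = Q v},
          ∀ t : F, eich Q p (t • a) ∈ N ∧ polar Q p a = 0 := by
        intro a ha
        induction ha using Submodule.span_induction with
        | mem x hx =>
          intro t
          have hpx := (mem_pairPerp_quad.1 hx.1).1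
          refine ⟨?_, hpx⟩
          by_cases ht : t = 0
          · simp [ht]
          have h1 : polar Q p (t • x) = 0 := by simp [hpx]
          have h3 : Q (t • x) = c * t ^ 2 := by rw [quad_smul, hx.2, hvc, mul_comm]
          rw [eich_eq_refl_mul hp.Q_left h1 (h3 ▸ mul_ne_zero hc (pow_ne_zero 2 ht))]
          exact N.mul_mem (hN _ t ht (by rw [quad_add_smul_of_perp hp.Q_left h1, h3])) (hN _ t ht h3)
        | zero => simp
        | add x y _ _ hx hy =>
          intro t
          refine ⟨?_, by simp [(hx 1).2, (hy 1).2]⟩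
          rw [smul_add, eich_add hp.Q_left (by simp [(hx 1).2]) (by simp [(hy 1).2])]
          exact N.mul_mem (hx t).1 (hy t).1
        | smul s x _ hx =>
          intro t
          exact ⟨by rw [smul_smul]; exact (hx _).1, by simp [(hx 1).2]⟩
      simpa using (key a ha' 1).1
  -- `N` is the preimage of a subgroup of order two
  let f := (dickHom h hx).prod (spinHom h hx)
  have hf : Function.Surjective f := dick_spin_surjective h h2 hn
  have hN' : N = (Subgroup.zpowers ((-1 : ℤˣ), sqSign c)).comap f := by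
    rw [← Subgroup.comap_map_eq_self (f := f) (H := N) (by rwa [← commutator_eq_ker h hx])]
    congr 1
    rw [MonoidHom.map_closure, Subgroup.zpowers_eq_closure]
    congr 1
    ext x
    simp only [Set.mem_image, Set.mem_setOf_eq, Set.mem_singleton_iff]
    have key : ∀ v t, t ≠ 0 → Q v = c * t ^ 2 → f (refl Q v) = (-1, sqSign c) := fun v t ht hv => by
      have : Q v ≠ 0 := hv ▸ mul_ne_zero hc (pow_ne_zero 2 ht)
      simp only [f, MonoidHom.prod_apply, dickHom_apply, spinHom_apply, dick_refl h this,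
        spin_refl h this]
      rw [hv, mul_comm, sqSign_sq_mul ht]
    exact ⟨fun ⟨_, ⟨v, t, ht, hv, rfl⟩, h⟩ => h ▸ key v t ht hv,
      fun h => ⟨_, ⟨v₀, 1, one_ne_zero, by simpa, rfl⟩, h ▸ key v₀ 1 one_ne_zero (by simpa)⟩⟩
  rw [hN', Subgroup.index_comap_of_surjective _ hf]
  have h1 := (Subgroup.zpowers ((-1 : ℤˣ), sqSign c)).index_mul_card
  haveI : Fact (Nat.Prime 2) := ⟨Nat.prime_two⟩
  rw [Nat.card_zpowers, orderOf_eq_prime (p := 2) (by ext <;> simp [pow_two]) (by simp),
    show Nat.card (ℤˣ × ℤˣ) = 4 by simp] at h1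
  omega

/-- For q odd, n ≥ 2 even, Q with non-degenerate polar form (n, |F|) ≠ (4, 3), and a fixed c ≠ 0: the subgroup of the isometry group generated by the reflections r_v with Q(v) ∈ c·(F^×)² has index 2. -/
theorem result {F : Type*} [Field F] [Fintype F] (h2 : (2 : F) ≠ 0) {n : ℕ} (hn : 2 ≤ n) (heven : Even n) (Q : QuadraticForm F (Fin n → F)) (hQ : (QuadraticMap.polarBilin Q).Nondegenerate) (h43 : ¬ (n = 4 ∧ Fintype.card F = 3)) (c : F) (hc : c ≠ 0) : (Subgroup.closure {g : ↥(Cfsg.isometryGroup F ⇑Q) | ∃ (v : Fin n → F) (t : F), t ≠ 0 ∧ Q v = c * t ^ 2 ∧ ((g : Matrix.GeneralLinearGroup (Fin n) F) : Matrix (Fin n) (Fin n) F) = Cfsg.reflectionMatrix ⇑Q v}).index = 2 := by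
  refine (Geom.index_eq_of_mem_iff (Geom.isometryEquiv Q) (Geom.closure_comap_equiv _ _ _ fun g => ?_)).trans
    (aux (Geom.nondeg_of_polarBilin hQ) h2 (by simpa) (by simpa) (by simpa using h43) c hc)
  simp only [Set.mem_setOf_eq, ← Geom.omat_refl, Geom.coe_eq_omat_iff]

end Cfsg.Agent.S0798
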