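import Cfsg.Statements.S0800
import Cfsg.Agent.Classical.SL2Unip

set_option autoImplicit false
open Cfsg

namespace Cfsg.Agent.S0800

open Cfsg.Agent.Classical

/-- Tori of SL_2(q): if g ∈ SL_2(q) has order coprime to the characteristic p, then the order of g divides q − 1 or q + 1. -/
theorem result {F : Type*} [Field F] [Fintype F] {q : ℕ} (hF : Fintype.card F = q) (p : ℕ) [Fact p.Prime] [CharP F p] (g : Matrix.SpecialLinearGroup (Fin 2) F) (hg : Nat.Coprime (orderOf g) p) : orderOf g ∣ q - 1 ∨ orderOf g ∣ q + 1 := by
  rw [← hF, ← Nat.card_eq_fintype_card]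
  have hp : p.Prime := Fact.out
  simp only [orderOf_dvd_iff_pow_eq_one]
  by_cases h : IsScal g.1
  · rcases sl_isScal_iff.1 h with rfl | rfl
    · simp
    · by_cases h2 : (2 : F) = 0
      · simp [sl_neg_one_eq_one h2]
      · right
        have : Odd (Nat.card F) := by
          rw [Nat.card_eq_fintype_card, Nat.odd_iff]
          exact FiniteField.odd_card_of_char_ne_two fun h => h2 (by
            have := ringChar.spec F 2; rw [h] at this; exact_mod_cast this.2 dvd_rfl)
        exact this.add_one.neg_one_pow
  have hd := sl_disc_ne_zero_of_coprime p h (hp.coprime_iff_not_dvd.1 hg.symm)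
    (by rw [pow_orderOf_eq_one]; exact isScal_one)
  by_cases h' : NoEig g.1
  · exact Or.inr (sl_pow_eq_one_noEig h')
  · exact Or.inl (sl_pow_eq_one_split hd h')

end Cfsg.Agent.S0800
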