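import Cfsg.Statements.S0802
import Cfsg.Agent.Classical.PSL2Max

set_option autoImplicit false
open Cfsg

namespace Cfsg.Agent.S0802

open Cfsg.Agent.Classical Matrix Subgroup MulAction

/-- PSL_2(p^n) has a subgroup isomorphic to A_4 if and only if it is not the case that p = 2 and n is odd. -/
theorem result {F : Type*} [Field F] [Fintype F] (p n : ℕ) [Fact p.Prime] [CharP F p] (hF : Fintype.card F = p ^ n) : (∃ H : Subgroup (Matrix.ProjectiveSpecialLinearGroup (Fin 2) F), Nonempty (H ≃* alternatingGroup (Fin 4))) ↔ ¬ (p = 2 ∧ Odd n) := by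
  rw [← Nat.card_eq_fintype_card] at hF
  have h3 : ∀ s, 2 ^ (2 * s + 1) % 3 = 2 := fun s => by
    induction s with
    | zero => simp
    | succ s ih => rw [show 2 * (s + 1) + 1 = 2 * s + 1 + 2 by ring, pow_add]; omega
  constructor
  · rintro ⟨H, ⟨e⟩⟩ ⟨rfl, s, rfl⟩
    let f : alternatingGroup (Fin 4) →* Matrix.ProjectiveSpecialLinearGroup (Fin 2) F :=
      H.subtype.comp e.symm.toMonoidHom
    have hf : Function.Injective f := H.subtype_injective.comp e.symm.injective
    have h1 : ∀ a, a ≠ 1 → f a ≠ 1 := fun a ha h => ha (hf (by simpa using h))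
    have h2 : ∀ a : alternatingGroup (Fin 4), a ^ 2 = 1 → f a ^ 2 = 1 := fun a ha => by
      rw [← map_pow, ha, map_one]
    obtain ⟨z, hz⟩ := (unipAct_PSL (F := F) 2).exists_le_U (not_char_dvd_card_P1 F 2)
      (P := zpowers (f (a4X * a4Y))) (IsPGroup.of_card (n := 1) (by
        rw [Nat.card_zpowers, orderOf_eq_prime (h2 _ (by decide)) (h1 _ (by decide)), pow_one]))
    replace hz := (hz (mem_zpowers _)).2
    have e1 : f (a4X * (a4X * a4Y) * a4X⁻¹) • z = z :=
      psl_unique_fixed 2 (h1 (a4X * a4Y) (by decide)) (h2 _ (by decide)) (by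
        rw [← mul_smul, ← map_mul, show a4X * a4Y * (a4X * (a4X * a4Y) * a4X⁻¹) =
          a4X * (a4X * a4Y) * a4X⁻¹ * (a4X * a4Y) by decide, map_mul, mul_smul, hz]) hz
    have e2 : f a4X • z = z :=
      psl_unique_fixed 2 (h1 (a4X * (a4X * a4Y) * a4X⁻¹) (by decide)) (h2 _ (by decide)) (by
        rw [← mul_smul, ← map_mul, inv_mul_cancel_right, map_mul, mul_smul, hz]) e1
    have := Fact.mk Nat.prime_three
    have e3 : 3 ∣ Nat.card (stabilizer (Matrix.ProjectiveSpecialLinearGroup (Fin 2) F) z) := by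
      rw [← orderOf_eq_prime (x := f a4X) (p := 3) (by rw [← map_pow, tri_a4.1, map_one])
        (h1 _ (by decide))]
      exact orderOf_dvd_natCard _ e2
    have e4 := e3.mul_left (Nat.gcd 2 (Nat.card F - 1))
    rw [card_stabilizer_PSL, Nat.prime_three.dvd_mul, hF] at e4
    have := h3 s
    generalize 2 ^ (2 * s + 1) = t at this e4
    clear e3
    omega
  · intro h
    by_cases h2 : p = 2
    · subst h2
      obtain ⟨s, rfl⟩ := Nat.not_odd_iff_even.1 (not_and.1 h rfl)
      have h5 : ∀ s, 2 ^ (s + s) % 5 = 1 ∨ 2 ^ (s + s) % 5 = 4 := fun s => by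
        induction s with
        | zero => simp
        | succ s ih => rw [show s + 1 + (s + 1) = s + s + 2 by ring, pow_add]; omega
      obtain ⟨H, ⟨e⟩⟩ := exists_alt5_PSL (F := F) (Or.inr (hF ▸ h5 s))
      obtain ⟨K, -, h⟩ := (hasA4_of_alt5 e).exists_equiv
      exact ⟨K, h⟩
    · exact exists_alt4_PSL (two_ne_zero_of_char F p h2)

end Cfsg.Agent.S0802
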