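import Cfsg.Statements.S0803
import Cfsg.Agent.Classical.PSL2Max

set_option autoImplicit false
open Cfsg

namespace Cfsg.Agent.S0803

open Cfsg.Agent.Classical Matrix Subgroup MulAction

/-- PSL_2(q) has a subgroup isomorphic to S_4 iff q² ≡ 1 (mod 16). -/
theorem result {F : Type*} [Field F] [Fintype F] {q : ℕ} (hF : Fintype.card F = q) : (∃ H : Subgroup (Matrix.ProjectiveSpecialLinearGroup (Fin 2) F), Nonempty (H ≃* Equiv.Perm (Fin 4))) ↔ q ^ 2 % 16 = 1 := by
  rw [← Nat.card_eq_fintype_card] at hF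
  subst hF
  have h : Nat.card F ^ 2 % 16 = 1 ↔ Nat.card F % 8 = 1 ∨ Nat.card F % 8 = 7 := by
    rw [Nat.pow_mod, ← Nat.mod_mod_of_dvd (Nat.card F) (show 8 ∣ 16 by norm_num)]
    have := Nat.mod_lt (Nat.card F) (show 0 < 16 by norm_num)
    generalize Nat.card F % 16 = r at *
    interval_cases r <;> simp
  rw [h]
  exact ⟨fun ⟨_, ⟨e⟩⟩ => dvd_of_perm4 e, exists_perm4_PSL⟩

end Cfsg.Agent.S0803
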