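import Cfsg.Statements.S0804
import Cfsg.Agent.Classical.PSL2Max

set_option autoImplicit false
open Cfsg

namespace Cfsg.Agent.S0804

open Cfsg.Agent.Classical Matrix Subgroup MulAction

/-- PSL_2(q) has a subgroup isomorphic to A_5 iff 5 ∣ q(q² − 1). -/
theorem result {F : Type*} [Field F] [Fintype F] {q : ℕ} (hF : Fintype.card F = q) : (∃ H : Subgroup (Matrix.ProjectiveSpecialLinearGroup (Fin 2) F), Nonempty (H ≃* alternatingGroup (Fin 5))) ↔ 5 ∣ q * (q ^ 2 - 1) := by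
  rw [← Nat.card_eq_fintype_card] at hF
  subst hF
  exact ⟨fun ⟨_, ⟨e⟩⟩ => dvd_of_alt5 e, fun h => exists_sub_PSL (exists_alt5_LP h)⟩

end Cfsg.Agent.S0804
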