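import Cfsg.Statements.S0805
import Cfsg.Agent.Classical.PSL2Max

set_option autoImplicit false
open Cfsg

namespace Cfsg.Agent.S0805

open Cfsg.Agent.Classical Matrix Subgroup MulAction

/-- Subfield subgroups: let F be a finite field of odd order q and K a finite field with |K|^m = q, m ≥ 1. Then PSL_2(F) has a subgroup isomorphic to PSL_2(K), and has a subgroup isomorphic to PGL_2(K) if and only if m is even. -/
theorem result {F K : Type*} [Field F] [Fintype F] [Field K] [Fintype K] {q : ℕ} (hF : Fintype.card F = q) (hodd : Odd q) (m : ℕ) (hm : 1 ≤ m) (hK : Fintype.card K ^ m = q) : (∃ H : Subgroup (Matrix.ProjectiveSpecialLinearGroup (Fin 2) F), Nonempty (H ≃* Matrix.ProjectiveSpecialLinearGroup (Fin 2) K)) ∧ ((∃ H : Subgroup (Matrix.ProjectiveSpecialLinearGroup (Fin 2) F), Nonempty (H ≃* Matrix.ProjGenLinGroup (Fin 2) K)) ↔ Even m) := by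
  rw [← Nat.card_eq_fintype_card] at hF hK
  subst hF
  have h2 := two_ne_zero_iff_odd.2 hodd
  obtain ⟨f⟩ := nonempty_ringHom_of_card_pow hK
  refine ⟨exists_sub_PSL ⟨_, LK_le_LP f, ⟨LKEquiv f⟩⟩, fun ⟨H, ⟨e⟩⟩ => ?_, fun h =>
    ⟨_, nonempty_SK_equiv_PGL fun a => (isSquare_map_iff h2 f hK a).2 (Or.inl h)⟩⟩
  by_contra hm
  have h1 := Nat.mul_dvd_mul_left 2 (card_subgroup_dvd_card H)
  have h3 := card_PSL2_mul (F := F)
  rw [gcd_two_pred_of_odd hodd] at h3
  rw [h3, Nat.card_congr e.toEquiv, card_PGL2, mul_assoc, mul_assoc, mul_comm (_ - 1),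
    mul_comm (_ - 1), ← Nat.sq_sub_sq, ← Nat.sq_sub_sq, ← hK, one_pow] at h1
  have hK1 := one_lt_card_field (F := K)
  have hodd' : Odd (Nat.card K) := Odd.of_dvd_nat hodd (hK ▸ dvd_pow_self _ (by omega))
  have h4 : 1 < Nat.card K ^ 2 := Nat.one_lt_pow two_ne_zero hK1
  have e1 := geom_sum_mul_add (Nat.card K ^ 2 - 1) m
  rw [Nat.sub_add_cancel h4.le, ← pow_mul, mul_comm 2, pow_mul] at e1
  have e2 : Odd (∑ i ∈ Finset.range m, (Nat.card K ^ 2) ^ i) := by
    rw [Nat.odd_iff, Finset.sum_nat_mod, Finset.sum_congr rfl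
      fun i _ => Nat.odd_iff.1 (hodd'.pow.pow (n := i))]
    simpa using Nat.odd_iff.1 (Nat.not_even_iff_odd.1 hm)
  rw [← e1, Nat.add_sub_cancel, ← mul_assoc, ← mul_assoc,
    Nat.mul_dvd_mul_iff_right (by omega)] at h1
  exact (Nat.not_even_iff_odd.2 (hodd'.pow.mul e2)) (even_iff_two_dvd.2 ((dvd_mul_right _ _).trans h1))

end Cfsg.Agent.S0805
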