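import Cfsg.Statements.S0806
import Cfsg.Agent.Classical.PSL2Max

set_option autoImplicit false
open Cfsg

namespace Cfsg.Agent.S0806

open Cfsg.Agent.Classical Matrix Subgroup MulAction

/-- Minimal index (Galois): if q ∉ {2, 3, 5, 7, 9, 11} then every proper subgroup of PSL_2(q) has index ≥ q + 1, and some subgroup has index exactly q + 1. -/
theorem result {F : Type*} [Field F] [Fintype F] {q : ℕ} (hF : Fintype.card F = q) (hq : q ∉ ({2, 3, 5, 7, 9, 11} : Finset ℕ)) : (∀ H : Subgroup (Matrix.ProjectiveSpecialLinearGroup (Fin 2) F), H ≠ ⊤ → q + 1 ≤ H.index) ∧ ∃ H : Subgroup (Matrix.ProjectiveSpecialLinearGroup (Fin 2) F), H.index = q + 1 := by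
  rw [← Nat.card_eq_fintype_card] at hF
  subst hF
  refine ⟨fun H hH => ?_, stabilizer _ (inf : P1 F), by
    rw [index_stabilizer_of_transitive, card_P1]⟩
  obtain ⟨M, hM, hle⟩ := (eq_top_or_exists_le_coatom H).resolve_left hH
  refine le_trans ?_ (index_antitone hle)
  have := Fact.mk (CharP.char_is_prime F (ringChar F))
  have hq1 := one_lt_card_field (F := F)
  simp only [Finset.mem_insert, Finset.mem_singleton, not_or] at hq
  suffices h : Nat.gcd 2 (Nat.card F - 1) * Nat.card M ≤ Nat.card F * (Nat.card F - 1) by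
    by_contra! h1
    have := Nat.mul_lt_mul_of_le_of_lt h h1 (Nat.mul_pos (by omega) (by omega))
    rw [mul_assoc, M.card_mul_index, card_PSL2_mul] at this
    omega
  have small : ringChar F ≠ 2 → Nat.card M ≤ 60 →
      Nat.gcd 2 (Nat.card F - 1) * Nat.card M ≤ Nat.card F * (Nat.card F - 1) := fun h2 h => by
    rcases gcd_two_cases F with ⟨a, -, -⟩ | ⟨-, a, b⟩
    · exact absurd a (two_ne_zero_of_char F _ h2)
    · have : 13 * (13 - 1) ≤ Nat.card F * (Nat.card F - 1) := by gcongr <;> omega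
      rw [b]
      omega
  rcases psl_coatom_cases (ringChar F) (by omega) hM with ⟨z, rfl⟩ | ⟨r, hr, rfl⟩ | ⟨a, ⟨f⟩⟩ |
    ⟨a, ⟨f⟩⟩ | ⟨a, b, ⟨f⟩⟩ | ⟨g, K, _, _, f, r, hr, a, b⟩
  · exact (card_stabilizer_PSL z).le
  · obtain ⟨k, hk⟩ : ∃ k, Nat.card F = k + 4 := ⟨Nat.card F - 4, by omega⟩
    rcases card_extC_PSL hr with a | a <;> rw [a, hk, show k + 4 - 1 = k + 3 from rfl] <;> nlinarith
  · exact small (by omega) (by rw [Nat.card_congr f.toEquiv, card_alt4]; norm_num)
  · exact small (by omega) (by rw [Nat.card_congr f.toEquiv, card_perm4]; norm_num)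
  · exact small a (by rw [Nat.card_congr f.toEquiv, card_alt5])
  · have h1 := card_SK_le (f := f)
    have hK := one_lt_card_field (F := K)
    have h2 := a ▸ Nat.pow_le_pow_right (by omega) hr.two_le
    rw [← b, card_map_pslCj, mul_assoc, mul_comm (_ - 1), ← Nat.sq_sub_sq, one_pow] at h1
    calc _ ≤ 2 * (Nat.card K * (Nat.card K ^ 2 - 1)) := by gcongr; exact Nat.gcd_le_left _ two_pos
      _ ≤ Nat.card K ^ 2 * (Nat.card K ^ 2 - 1) := by rw [← mul_assoc, sq]; gcongr; omega
      _ ≤ _ := by gcongr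

end Cfsg.Agent.S0806
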