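import Cfsg.Statements.S0807
import Cfsg.Agent.Classical.PSL2Four

set_option autoImplicit false
open Cfsg

namespace Cfsg.Agent.S0807

open Cfsg.Agent.Classical Matrix Subgroup MulAction

/-- For q odd, twelve times the number of Klein four-subgroups of PSL_2(q) equals the order of PSL_2(q). -/
theorem result {F : Type*} [Field F] [Fintype F] {q : ℕ} (hF : Fintype.card F = q) (hodd : Odd q) : 12 * Nat.card {V : Subgroup (Matrix.ProjectiveSpecialLinearGroup (Fin 2) F) // IsKleinFour V} = Nat.card (Matrix.ProjectiveSpecialLinearGroup (Fin 2) F) := by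
  rw [← Nat.card_eq_fintype_card] at hF
  subst hF
  have h2 := two_ne_zero_iff_odd.2 hodd
  obtain ⟨S, -, ⟨e⟩⟩ := exists_perm4_PGL h2
  obtain ⟨V, hV, h⟩ := exists_four_of_perm4 h2 e
  have h1 := S.card_mul_index
  have h3 := (LP F).card_mul_index
  rw [Nat.card_congr e.toEquiv, card_perm4] at h1
  rw [card_LP, index_LP h2] at h3
  rw [card_class_eq_index (isKleinFour_iff_conj h2 hV), h]
  omega

end Cfsg.Agent.S0807
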