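import Cfsg.Statements.S0808
import Cfsg.Agent.Classical.PSL2Four

set_option autoImplicit false
open Cfsg

namespace Cfsg.Agent.S0808

open Cfsg.Agent.Classical Matrix Subgroup MulAction

/-- Conjugacy classes of four-groups in PSL_2(q), q odd: if q ≡ 3 or 5 (mod 8) all Klein four-subgroups are conjugate; if q ≡ 1 or 7 (mod 8) there are two Klein four-subgroups which are not conjugate, and every Klein four-subgroup is conjugate to one of them. -/
theorem result {F : Type*} [Field F] [Fintype F] {q : ℕ} (hF : Fintype.card F = q) (hodd : Odd q) : ((q % 8 = 3 ∨ q % 8 = 5) → ∀ V W : Subgroup (Matrix.ProjectiveSpecialLinearGroup (Fin 2) F), IsKleinFour V → IsKleinFour W → ∃ g : Matrix.ProjectiveSpecialLinearGroup (Fin 2) F, W = V.map (MulAut.conj g).toMonoidHom) ∧ ((q % 8 = 1 ∨ q % 8 = 7) → ∃ V₁ V₂ : Subgroup (Matrix.ProjectiveSpecialLinearGroup (Fin 2) F), IsKleinFour V₁ ∧ IsKleinFour V₂ ∧ (¬ ∃ g : Matrix.ProjectiveSpecialLinearGroup (Fin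 2) F, V₂ = V₁.map (MulAut.conj g).toMonoidHom) ∧ ∀ W : Subgroup (Matrix.ProjectiveSpecialLinearGroup (Fin 2) F), IsKleinFour W → (∃ g : Matrix.ProjectiveSpecialLinearGroup (Fin 2) F, W = V₁.map (MulAut.conj g).toMonoidHom) ∨ (∃ g : Matrix.ProjectiveSpecialLinearGroup (Fin 2) F, W = V₂.map (MulAut.conj g).toMonoidHom)) := by
  rw [← Nat.card_eq_fintype_card] at hF
  subst hF
  have h2 := two_ne_zero_iff_odd.2 hodd
  obtain ⟨S, hS, ⟨e⟩⟩ := exists_perm4_PGL h2
  obtain ⟨V, hV, h⟩ := exists_four_of_perm4 h2 e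
  refine ⟨fun h8 U W hU hW => ?_, fun h8 => ?_⟩
  · have : ¬ normalizer (V.map (pslι F) : Set (ProjGenLinGroup (Fin 2) F)) ≤ LP F := fun h' => by
      have := dvd_of_perm4 ((comapEquivOfLe pslInj (h ▸ h')).trans e)
      omega
    obtain ⟨a, rfl⟩ := one_class (isKleinFour_iff_conj h2 hV) h2 this hU
    obtain ⟨b, rfl⟩ := one_class (isKleinFour_iff_conj h2 hV) h2 this hW
    exact ⟨b * a⁻¹, by rw [map_conj_map_conj, inv_mul_cancel_right]⟩
  · obtain ⟨W, h⟩ := two_classes (isKleinFour_iff_conj h2 hV) h2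
      (h ▸ hS ((isSquare_two_iff_card h2).2 h8))
    exact ⟨V, W, hV, h⟩

end Cfsg.Agent.S0808
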