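import Cfsg.Statements.S0809
import Cfsg.Agent.Classical.PSL2Four

set_option autoImplicit false
open Cfsg

namespace Cfsg.Agent.S0809

open Cfsg.Agent.Classical Matrix Subgroup MulAction

/-- In SL_2(q), q odd: any two subgroups of order 4 are conjugate, and the normaliser of a subgroup of order 4 has order 2(q − 1) if q ≡ 1 (mod 4) and 2(q + 1) if q ≡ 3 (mod 4); consequently all involutions of PSL_2(q) are conjugate. -/
theorem result {F : Type*} [Field F] [Fintype F] {q : ℕ} (hF : Fintype.card F = q) (hodd : Odd q) (A : Subgroup (Matrix.SpecialLinearGroup (Fin 2) F)) (hA : Nat.card A = 4) : (∀ B : Subgroup (Matrix.SpecialLinearGroup (Fin 2) F), Nat.card B = 4 → ∃ g : Matrix.SpecialLinearGroup (Fin 2) F, B = A.map (MulAut.conj g).toMonoidHom) ∧ (q % 4 = 1 → Nat.card ↥(Subgroup.normalizer (A : Set (Matrix.SpecialLinearGroup (Fin 2) F))) = 2 * (q - 1)) ∧ (q % 4 = 3 → Nat.card ↥(Subgroup.normalizer (A : Set (Matrix.SpecialLinearGroup (Fin 2) F))) = 2 * (q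 + 1)) ∧ (∀ x y : Matrix.ProjectiveSpecialLinearGroup (Fin 2) F, orderOf x = 2 → orderOf y = 2 → IsConj x y) := by
  rw [← Nat.card_eq_fintype_card] at hF
  subst hF
  have h2 := two_ne_zero_iff_odd.2 hodd
  have hd : ∀ g : Matrix.SpecialLinearGroup (Fin 2) F, g.1.trace = 0 → disc g.1 ≠ 0 := fun g h => by
    rw [sl_disc, h]; convert neg_ne_zero.2 (mul_ne_zero h2 h2); ring
  have key : ∀ B : Subgroup (Matrix.SpecialLinearGroup (Fin 2) F), Nat.card B = 4 →
      ∃ g, g.1.trace = 0 ∧ B = zpowers g := fun B hB => by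
    rcases sl_isCyclic_or_quaternion h2 B.subtype B.subtype_injective
      (IsPGroup.of_card (n := 2) hB) with h | ⟨k, hk, ⟨e⟩⟩
    · obtain ⟨g, rfl⟩ := (Subgroup.isCyclic_iff_exists_zpowers_eq_top _).1 h
      rw [Nat.card_zpowers] at hB
      refine ⟨g, sl_trace_eq_zero_of_isScal_sq (sl_isScal_iff.2 (sl_eq_of_mul_self_eq_one h2 ?_))
        fun h => ?_, rfl⟩
      · rw [← sq, ← sq, ← pow_mul]; exact orderOf_dvd_iff_pow_eq_one.1 hB.dvd
      · have := orderOf_le_of_pow_eq_one (x := g) two_pos (by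
          rcases sl_isScal_iff.1 h with rfl | rfl <;> simp)
        omega
    · rw [Nat.card_congr e.toEquiv, Nat.card_eq_fintype_card, QuaternionGroup.card] at hB
      have := Nat.pow_le_pow_right two_pos hk
      omega
  obtain ⟨g, hg, rfl⟩ := key A hA
  have hN := sl_card_normalizer (hd g hg) (mem_zpowers g)
    (zpowers_le.2 (sl_self_mem_centralizer g))
  refine ⟨fun B hB => ?_, fun h => ?_, fun h => ?_, fun x y hx hy => ?_⟩
  · obtain ⟨g', hg', rfl⟩ := key B hB
    obtain ⟨x, rfl⟩ := sl_isConj_of_trace (hd g hg) (hg.trans hg'.symm)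
    exact ⟨x, by rw [MonoidHom.map_zpowers]; rfl⟩
  · rw [hN, sl_card_centralizer_split (hd g hg) (by rw [noEig_iff_of_trace_zero hg]; omega)]
  · rw [hN, sl_card_centralizer_noEig ((noEig_iff_of_trace_zero hg).2 h)]
  · obtain ⟨a, rfl, ha⟩ := exists_lift_invol (a := x) (by rw [← sq]; exact orderOf_dvd_iff_pow_eq_one.1 hx.dvd)
      (by rintro rfl; simp at hx)
    obtain ⟨b, rfl, hb⟩ := exists_lift_invol (a := y) (by rw [← sq]; exact orderOf_dvd_iff_pow_eq_one.1 hy.dvd)
      (by rintro rfl; simp at hy)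
    obtain ⟨x, rfl⟩ := sl_isConj_of_trace (hd a ha) (ha.trans hb.symm)
    exact (pslMk F).map_isConj (isConj_iff.2 ⟨x, rfl⟩)

end Cfsg.Agent.S0809
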