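import Cfsg.Statements.S0812
import Cfsg.Agent.Classical.PSL2Max

set_option autoImplicit false
open Cfsg

namespace Cfsg.Agent.S0812

open Cfsg.Agent.Classical Matrix Subgroup MulAction

/-- For q ∉ {2, 3, 5, 7, 9, 11}, PSL_2(q) has a maximal subgroup isomorphic to the dihedral group of order 2(q − 1)/d, d = gcd(2, q − 1). -/
theorem result {F : Type*} [Field F] [Fintype F] {q : ℕ} (hF : Fintype.card F = q) (hq : q ∉ ({2, 3, 5, 7, 9, 11} : Finset ℕ)) : ∃ H : Subgroup (Matrix.ProjectiveSpecialLinearGroup (Fin 2) F), IsCoatom H ∧ Nonempty (H ≃* DihedralGroup ((q - 1) / Nat.gcd 2 (q - 1))) := by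
  rw [← Nat.card_eq_fintype_card] at hF
  subst hF
  obtain ⟨a, ha, -⟩ := exists_dSL_generator (F := F)
  have ha2 : (a : F) ^ 2 ≠ 1 := fun h => by
    have : dSL a ^ 2 = 1 := by
      rw [sq, ← dSL_mul, show a * a = 1 from Units.ext (by simpa [sq] using h)]
      exact map_one (dSLHom F)
    have := orderOf_le_of_pow_eq_one two_pos this
    have := one_lt_card_field (F := F)
    simp only [Finset.mem_insert, Finset.mem_singleton, not_or] at hq
    omega
  have hd := (disc_dSL a).2 ha2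
  obtain ⟨e⟩ := extC_pslMk_equiv hd
  rw [sl_card_centralizer_split hd (not_noEig_dSL a)] at e
  refine ⟨_, isCoatom_dihedral_pred hq e fun z => ?_, ⟨e⟩⟩
  by_contra! h
  have h1 := h _ (self_mem_extC _)
  have h2 := h (pslMk F wSL) (Or.inr (by rw [← map_inv, ← map_mul, ← map_mul, wSL_conj_dSL, map_inv]))
  rw [pslMk_smul, sl_smul_eq] at h1 h2
  rcases eq_inf_or_eq_pt z with rfl | ⟨x, rfl⟩
  · simp [gl_smul_inf_eq_inf] at h2
  · rw [gl_smul_pt_eq_pt] at h1 h2
    simp at h1 h2
    have hx : x ≠ 0 := by rintro rfl; simp at h2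
    refine ha2 (mul_left_cancel₀ hx ?_)
    field_simp at h1
    rw [h1]

end Cfsg.Agent.S0812
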