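import Cfsg.Statements.S0819
import Cfsg.Agent.Classical.L34

set_option autoImplicit false
open Cfsg

namespace Cfsg.Agent.S0819

open Cfsg.Agent.Classical Matrix
open scoped MatrixGroups

/-- No element of PSL_3(4) has order 15. -/
theorem result {F : Type*} [Field F] [Fintype F] (hF : Fintype.card F = 4) (g : Matrix.ProjectiveSpecialLinearGroup (Fin 3) F) : orderOf g ≠ 15 := by
  intro h
  obtain ⟨A, rfl⟩ := QuotientGroup.mk_surjective g
  have h1 : ∀ k, A ^ k ∈ Subgroup.center _ → 15 ∣ k := fun k hk => h ▸ orderOf_dvd_of_pow_eq_one (by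
    rwa [← QuotientGroup.mk_pow, QuotientGroup.eq_one_iff])
  rcases sl34_tri hF A with h | h | h
  · exact absurd (h1 21 (h ▸ one_mem _)) (by decide)
  · exact absurd (h1 12 (h ▸ one_mem _)) (by decide)
  · exact absurd (h1 5 h) (by decide)

end Cfsg.Agent.S0819
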