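import Cfsg.Statements.S2362
import Cfsg.Agent.Classical.Eig5

set_option autoImplicit false
open Cfsg

namespace Cfsg.Agent.S2362

open Cfsg.Agent.Classical Cfsg.Agent.Classical.Eig Cfsg.Agent.Elu Cfsg.Agent.Geom

/-- Let F be a finite field of odd order and n ≥ 3. The simple orthogonal group PΩ(2n+1, F) (type B_n) and the projective symplectic group PSp(2n, F) (type C_n), which have the same order, do not have the same set of element orders. -/
theorem result {F : Type*} [Field F] [Fintype F] (hodd : Odd (Fintype.card F)) (n : ℕ) (hn : 3 ≤ n) :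
    Set.range (orderOf : Cfsg.POmega F (Cfsg.quadFormOdd n F) → ℕ) ≠ Set.range (orderOf : Cfsg.PSp n F → ℕ) := by
  classical
  obtain ⟨p, hp⟩ := CharP.exists F
  have hp' := Fact.mk (CharP.char_is_prime F p)
  have h2 := two_ne_of_odd hodd
  obtain ⟨n, rfl⟩ := Nat.exists_eq_add_of_le' (show 1 ≤ n by omega)
  have hq := three_le_card h2
  have hq2 : 3 ≤ Nat.card F ^ n := hq.trans (Nat.le_self_pow (by omega) _)
  have hN : ((Nat.card F ^ n + 1 : ℕ) : ℤ) ∣ qz F ^ n + 1 := by simp [qz]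
  have hN' := not_dvd_of_dvd_pm (p := p) (by omega) (.inr hN)
  have hc := (Nat.Prime.coprime_iff_not_dvd hp'.out).2 hN'
  intro h
  have h1 : p * (Nat.card F ^ n + 1) ∈ Set.range (orderOf : PSp (n + 1) F → ℕ) := by
    obtain ⟨ζ, hζ⟩ := exists_ord (F := F) hN'
    have h1 := sq_ne_one_of_dvd (ζ := ζ) (by omega) hζ.symm.dvd
    have h3 := eta_dvd_iff'.2 (.inr (hζ ▸ hN))
    refine ((SpR.of_ne (pos_eb ζ n) (ne_eb h1 n)).add (SpR.unip one_pos)).mem_pad (p := p) (by
      rw [bdim_add, bdim_of_ne (ne_eb h1 n), edim_eb h3]; simp [bdim_of_sq, mul_add])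
      (.inr ⟨2, by simp⟩) fun k => ?_
    simp only [kil_add, kil_eb h3 (by omega), hζ, kil_singleton, orderOf_one, one_dvd, true_and,
      mul_one, up_two hp'.out.one_lt]
    exact ⟨fun h => hc.mul_dvd_of_dvd_of_dvd h.2 h.1, fun h =>
      ⟨dvd_of_mul_left_dvd h, dvd_of_mul_right_dvd h⟩⟩
  obtain ⟨f, A, h3, h4, h5, h6⟩ := exists_of_mem_odd (p := p) h2 (by omega) (h ▸ h1)
  have key : ∀ D, 0 < D → (∀ z ∈ A, z.1 ^ D = 1) → Nat.card F ^ n + 1 ≤ D := fun D h0 H =>
    Nat.le_of_dvd h0 (Nat.dvd_of_mul_dvd_mul_left hp'.out.pos ((h6 _).1 fun z hz =>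
      ⟨by rw [pow_mul', H z hz, one_pow], (((h6 _).2 dvd_rfl z hz).2.of_mul hc).mono
        (dvd_mul_right _ _) le_rfl⟩))
  obtain ⟨z, hz, h7⟩ := exists_two_le (p := p) (fun k h => (h6 k).1 h) (dvd_mul_right _ _)
  have h8 := edim_ss_add_le h4.pos hz h7
  have h9 : ∀ D, 2 ∣ D → (∀ z ∈ ss A, z.1 ^ D = 1) → ∀ z ∈ A, z.1 ^ D = 1 := by
    rintro _ ⟨D, rfl⟩ H z hz
    by_cases h : z.1 ^ 2 = 1
    · rw [pow_mul, h, one_pow]
    · exact forall_ss.1 H z hz h
  by_cases h10 : ss A = 0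
  · have := key 2 two_pos (h9 2 dvd_rfl (by simp [h10]))
    omega
  obtain ⟨D, h11, h12, h13, h14, h15⟩ := exists_lcm_bound h2 h10 pos_ss
  have h16 := key D h11 (h9 D h12 h13)
  have h17 : Nat.card F ^ edim (ss A) ≤ Nat.card F ^ n := Nat.pow_le_pow_right (by omega) (by omega)
  have h18 : edim (ss A) = n := Nat.pow_right_injective (a := Nat.card F) (by omega) (by
    dsimp only; omega)
  obtain ⟨w, B, rfl, h19, hB, h20⟩ := exists_cons_of_card_ss (L := A) (by
    have := Multiset.card_pos.2 h10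
    omega)
  rw [h20, edim_singleton, mul_one] at h18
  obtain ⟨ζ, e⟩ := w
  have h21 := pos_cons.1 h4.pos
  rw [bdim_cons_ne h19, h18] at h5
  obtain rfl : e = 1 := by
    have := h21.1
    dsimp only at this h5
    nlinarith
  replace hz : z ∈ B := (Multiset.mem_cons.1 hz).resolve_left (by rintro rfl; simp at h7)
  obtain ⟨B, rfl⟩ := Multiset.exists_cons_of_mem hz
  rw [bdim_cons_sq (hB z hz)] at h5
  have h22 : z.2 ≠ 2 := fun h => by
    have := h4.even_count (quadOdd_nondeg F _ h2) h2 h3.iso (hB z hz)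
      (((orth_quad _).par h2 _).2 (by simp [h]))
    rw [Multiset.count_cons_of_ne (by rintro rfl; simp at h), Multiset.count_cons_self] at this
    obtain ⟨B, rfl⟩ := Multiset.exists_cons_of_mem (Multiset.count_pos.1 (Nat.pos_of_ne_zero
      fun h => by simp [h] at this) : z ∈ B)
    rw [bdim_cons_sq (hB z hz)] at h5
    omega
  obtain rfl := eq_zero_of_bdim (pos_cons.1 h21.2).2 (by omega)
  obtain ⟨h23, t, h24, h25⟩ := om_single (quadOdd_nondeg F _ h2) h2 h3 h4 h19 (hB z hz)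
    ⟨1, by simp at h5; omega⟩
  rw [h18] at h25
  have := key t (by omega) (by simp [h23, h24])
  omega

end Cfsg.Agent.S2362
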