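import Cfsg.Statements.S0823
import Cfsg.Agent.Classical.Heart
import Cfsg.Agent.Fischer.Small

set_option autoImplicit false
open Cfsg

namespace Cfsg.Agent.S0823

open Cfsg.Agent.Classical Cfsg.Agent.Geom Cfsg.Agent.Geom.Formed Module QuadraticMap

/-- SO_3(3) ≅ S_4: the determinant-one isometries of the form x_0² + x_1y_1 over the field with 3 elements form a group isomorphic to the symmetric group on 4 letters. -/
theorem result {F : Type*} [Field F] [Fintype F] (hF : Fintype.card F = 3) : Nonempty (↥(Cfsg.specialIsometryGroup F (Cfsg.quadFormOdd 1 F)) ≃* Equiv.Perm (Fin 4)) := by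
  have h3 : (3 : F) = 0 := by simpa [hF] using FiniteField.cast_card_eq_zero F
  have h2 : (2 : F) ≠ 0 := fun h => one_ne_zero (by linear_combination h3 - h : (1 : F) = 0)
  have hn := quadOdd_nondeg F 1 h2
  have hx : NotExc (quadOdd F 1) := notExc_of_two_ne_zero h2
  rw [← coe_quadOdd]
  let r : F → F → F → Unit ⊕ (Fin 1 ⊕ Fin 1) → F := fun a b c =>
    Sum.elim (fun _ => a) (Sum.elim (fun _ => b) fun _ => c)
  let t := fun v => negOne (quadOdd F 1) * refl (quadOdd F 1) v
  have ht : ∀ v x, quadOdd F 1 v = 1 → (t v).1 x = polar (quadOdd F 1) v x • v - x := fun v x hv => by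
    simp [t, refl_apply, hv]
  have h1 : quadOdd F 1 (r 1 0 0) = 1 := by simp [r, quadOdd_apply]
  have h4 : quadOdd F 1 (r 1 (-1) 0) = 1 := by simp [r, quadOdd_apply]
  have h5 : quadOdd F 1 (r 0 1 1) = 1 := by simp [r, quadOdd_apply]
  obtain ⟨φ, h6, h7, h8⟩ : ∃ φ : Equiv.Perm (Fin 4) →* _, φ (.swap 0 1) = t (r 1 0 0) ∧
      φ (.swap 1 2) = t (r 1 (-1) 0) ∧ φ (.swap 2 3) = t (r 0 1 1) := by
    apply Fischer.hom_S4
    all_goals
      refine OG.ext fun x => ?_
      simp only [OG.mul_apply, ht _ _ h1, ht _ _ h4, ht _ _ h5, polar_quadOdd]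
      ext (_ | i | i) <;> (try fin_cases i) <;> simp [r] <;> grind
  have h9 := Fischer.hom_S4_injective (φ := φ) (by
    rw [h6, h8]
    intro h
    have := congrFun (congrArg (fun g : OG (quadOdd F 1) => g.1 (r 1 0 0)) h) (.inl ())
    simp only [ht _ _ h1, ht _ _ h5, polar_quadOdd] at this
    simp [r] at this
    exact h2 (by linear_combination this))
  have h10 : φ.range ≤ (dickHom hn hx).ker := by
    have : ∀ v, quadOdd F 1 v = 1 → t v ∈ (dickHom hn hx).ker := fun v hv => by
      have : dick (negOne (quadOdd F 1)) = -1 := (Int.units_eq_one_or _).resolve_left fun h => by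
        have := det_eq_dick hn hx (negOne _)
        rw [h, ← det_omat, omat_negOne, Matrix.det_neg] at this
        simp [show (-1 : F) ^ 3 = -1 by ring] at this
        exact h2 (by linear_combination -this)
      simp [t, dick_mul hn hx, dick_refl hn (hv ▸ one_ne_zero), this]
    rw [Fischer.range_hom_S4, h6, h7, h8, Subgroup.closure_le]
    rintro _ (rfl | rfl | rfl)
    exacts [this _ h1, this _ h4, this _ h5]
  have h11 := (dickHom hn hx).ker.index_mul_card
  rw [index_ker_dick hn hx (by simp), card_isom_odd 1 hn (by simp)] at h11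
  simp [hF] at h11
  have : Finite (dickHom hn hx).ker := Nat.finite_of_card_ne_zero (by simp; omega)
  obtain ⟨e⟩ := equiv_of_injective (φ.codRestrict _ fun g => h10 ⟨g, rfl⟩)
    (fun a b h => h9 (congrArg Subtype.val h)) (by simp [Fintype.card_perm, Nat.factorial]; omega)
  refine ⟨(mulEquivOfMemIff (isometryEquiv _) _ _ fun g => ?_).trans e⟩
  rw [mem_special_iff, det_eq_dick hn hx, MonoidHom.mem_ker, dickHom_apply]
  rcases Int.units_eq_one_or (dick (isometryEquiv _ g)) with h | h <;> simp [h]
  exact fun h => h2 (by linear_combination -h)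

end Cfsg.Agent.S0823
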