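import Cfsg.Statements.S0825
import Cfsg.Agent.Classical.Heart

set_option autoImplicit false
open Cfsg

namespace Cfsg.Agent.S0825

open Cfsg.Agent.Classical Cfsg.Agent.Geom Cfsg.Agent.Geom.Formed Module

/-- O⁺_6(2) ≅ S_8: the isometry group of the hyperbolic form x_1y_1 + x_2y_2 + x_3y_3 over the field with 2 elements is isomorphic to the symmetric group on 8 letters. -/
theorem result {F : Type*} [Field F] [Fintype F] (hF : Fintype.card F = 2) : Nonempty (↥(Cfsg.isometryGroup F (Cfsg.quadFormPlus 3 F)) ≃* Equiv.Perm (Fin 8)) := by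
  have := charP_two_of_card hF
  rw [← coe_quadPlus]
  exact (O6p_two hF).map fun e => (isometryEquiv _).trans e

end Cfsg.Agent.S0825
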