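import Cfsg.Statements.S0828
import Cfsg.Agent.Geom.Classify

set_option autoImplicit false
open Cfsg

namespace Cfsg.Agent.S0828

/-- The symplectic generalised quadrangle over a field with q elements: the number of 2-dimensional subspaces of F^4 on which the symplectic form vanishes is (q + 1)(q² + 1), and every non-zero vector lies in exactly q + 1 of them. -/
theorem result {F : Type*} [Field F] [Fintype F] {q : ℕ} (hF : Fintype.card F = q) : Nat.card {W : Submodule F (Fin 2 ⊕ Fin 2 → F) // Module.finrank F W = 2 ∧ ∀ u ∈ W, ∀ v ∈ W, Cfsg.sympForm 2 F u v = 0} = (q + 1) * (q ^ 2 + 1) ∧ ∀ v : Fin 2 ⊕ Fin 2 → F, v ≠ 0 → Nat.card {W : Submodule F (Fin 2 ⊕ Fin 2 → F) // Module.finrank F W = 2 ∧ v ∈ W ∧ ∀ u ∈ W, ∀ w ∈ W, Cfsg.sympForm 2 F u w = 0} = q + 1 := by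
  subst hF
  have h := Geom.sympFormed_nondeg 2 F
  have hq : 1 < Fintype.card F := Fintype.one_lt_card
  have hns : ∀ U : Submodule F (Fin 2 ⊕ Fin 2 → F), ((Geom.sympFormed 2 F).restrict U).nsing =
      Fintype.card F ^ Module.finrank F U := fun U => by
    rw [Geom.Formed.nsing, Nat.card_congr (Equiv.subtypeUnivEquiv fun x =>
      ⟨rfl, Geom.sympB_isAlt 2 F x⟩), Module.natCard_eq_pow_finrank (K := F), Nat.card_eq_fintype_card]
  have hts : ∀ W : Submodule F (Fin 2 ⊕ Fin 2 → F), (Geom.sympFormed 2 F).TotSing W ↔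
      ∀ u ∈ W, ∀ w ∈ W, Cfsg.sympForm 2 F u w = 0 := fun W => by
    simp [Geom.Formed.TotSing]
  have key : ∀ v, v ≠ 0 → Nat.card {X : Submodule F (Fin 2 ⊕ Fin 2 → F) // Module.finrank F X = 2 ∧
      (Geom.sympFormed 2 F).TotSing X ∧ v ∈ X} = Fintype.card F + 1 := fun v hv => by
    obtain ⟨w, hw⟩ := h.exists_isPair hv ⟨rfl, Geom.sympB_isAlt 2 F v⟩
    have h1 := hw.card_totSing_two_mem h
    have h2 := hw.finrank_pairPerp h
    rw [hns, show Module.finrank F ((Geom.sympFormed 2 F).pairPerp v w) = 2 by simpa using h2,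
      Nat.card_eq_fintype_card (α := F)] at h1
    apply Nat.eq_of_mul_eq_mul_right (show 0 < Fintype.card F - 1 by omega)
    zify [hq.le] at h1 ⊢
    linear_combination h1
  refine ⟨?_, fun v hv => ?_⟩
  · have h1 := Geom.Formed.card_totSing_two (Φ := Geom.sympFormed 2 F) _ fun e he _ => key e he
    rw [← Geom.Formed.isIso_top.nsing_eq, hns, Nat.card_eq_fintype_card (α := F)] at h1
    simp only [hts, finrank_top, Module.finrank_fintype_fun_eq_card, Fintype.card_sum,
      Fintype.card_fin] at h1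
    have h2 : 1 < Fintype.card F ^ 2 := Nat.one_lt_pow two_ne_zero hq
    have h3 : 1 ≤ Fintype.card F ^ (2 + 2) := Nat.one_le_pow _ _ (by omega)
    apply Nat.eq_of_mul_eq_mul_right (show 0 < Fintype.card F ^ 2 - 1 by omega)
    rw [h1]
    zify [h2.le, h3]
    ring
  · rw [← key v hv]
    exact Nat.card_congr (Equiv.subtypeEquivRight fun W => by rw [hts]; tauto)

end Cfsg.Agent.S0828
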