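import Cfsg.Statements.S0830
import Cfsg.Agent.Geom.Classify

set_option autoImplicit false
open Cfsg

namespace Cfsg.Agent.S0830

/-- The unitary quadrangle of PSU_5(q): with |F| = q², the number of 2-dimensional subspaces of F^5 on which the Hermitian form vanishes is (q³ + 1)(q⁵ + 1). -/
theorem result {F : Type*} [Field F] [Fintype F] {q : ℕ} (hF : Fintype.card F = q ^ 2) : Nat.card {W : Submodule F (Fin 5 → F) // Module.finrank F W = 2 ∧ ∀ u ∈ W, ∀ v ∈ W, Cfsg.hermForm 5 F q u v = 0} = (q ^ 3 + 1) * (q ^ 5 + 1) := by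
  have h := Geom.hermFormed_nondeg hF 5
  have hq := Geom.two_le_of_card_eq_sq hF
  have h2 : 1 < q ^ 2 := Nat.one_lt_pow two_ne_zero hq
  have hts : ∀ W : Submodule F (Fin 5 → F), (Geom.hermFormed hF 5).TotSing W ↔
      ∀ u ∈ W, ∀ w ∈ W, Cfsg.hermForm 5 F q u w = 0 := fun W => by
    simp only [Geom.Formed.TotSing, Geom.hermFormed_B, Geom.hermFormed_Q, implies_true, and_true]
    exact ⟨fun h u hu w hw => h w hw u hu, fun h u hu w hw => h w hw u hu⟩
  have hns : ∀ {e f}, (Geom.hermFormed hF 5).IsPair e f →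
      ((Geom.hermFormed hF 5).restrict ((Geom.hermFormed hF 5).pairPerp e f)).nsing =
        (q ^ 2 - 1) * (q ^ 3 + 1) + 1 := fun {e f} hp => by
    have hd : Module.finrank F ((Geom.hermFormed hF 5).pairPerp e f) = 1 + 2 := by
      simpa using hp.finrank_pairPerp h
    have h' := hp.nondeg_pairPerp h
    obtain ⟨v, hv0, hv⟩ := Geom.exists_sing_herm hF h' rfl (by omega)
    obtain ⟨w, hw⟩ := h'.exists_isPair hv0 hv
    rw [Geom.nsing_herm_step hF h' rfl hd hw, Geom.nsing_herm_of_le_one hF (hw.nondeg_pairPerp h')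
      (by have := hw.finrank_pairPerp h'; omega)]
    zify [h2.le]; ring
  have key : ∀ v, v ≠ 0 → (Geom.hermFormed hF 5).Sing v → Nat.card {X : Submodule F (Fin 5 → F) //
      Module.finrank F X = 2 ∧ (Geom.hermFormed hF 5).TotSing X ∧ v ∈ X} = q ^ 3 + 1 :=
      fun v hv hs => by
    obtain ⟨w, hw⟩ := h.exists_isPair hv hs
    have h1 := hw.card_totSing_two_mem h
    rw [hns hw, Nat.card_eq_fintype_card (α := F), hF, add_left_inj, mul_comm] at h1
    exact Nat.eq_of_mul_eq_mul_left (by omega) h1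
  have h1 := Geom.Formed.card_totSing_two (Φ := Geom.hermFormed hF 5) _ key
  obtain ⟨v, hv0, hv⟩ := Geom.exists_sing_herm hF h rfl (by simp)
  obtain ⟨w, hw⟩ := h.exists_isPair hv0 hv
  rw [Geom.nsing_herm_step hF h rfl (n := 3) (by simp) hw, hns hw, Nat.card_eq_fintype_card (α := F),
    hF] at h1
  simp only [hts] at h1
  have h4 : 1 < (q ^ 2) ^ 2 := Nat.one_lt_pow two_ne_zero h2
  apply Nat.eq_of_mul_eq_mul_right (show 0 < (q ^ 2) ^ 2 - 1 by omega)
  rw [h1]
  have h3 : 1 ≤ (q ^ 2 - 1) * q ^ (2 * 3 + 1) + q ^ 2 * ((q ^ 2 - 1) * (q ^ 3 + 1) + 1) :=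
    le_add_left (Nat.mul_pos (by omega) (by omega))
  zify [h2.le, h3, h4.le]
  ring

end Cfsg.Agent.S0830
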