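import Cfsg.Statements.S0831
import Cfsg.Agent.Geom.Family

set_option autoImplicit false
open Cfsg

namespace Cfsg.Agent.S0831

/-- The two families of maximal totally singular subspaces of the hyperbolic quadric: for the form Σ x_i y_i on F^(2m), m ≥ 1, and m-dimensional subspaces U, W, X on which it vanishes, the parities of m − dim(U ∩ W), m − dim(W ∩ X) and m − dim(U ∩ X) sum to an even number (so 'even codimension of the intersection' is an equivalence relation), and there exist two such subspaces meeting in codimension 1 (so there are exactly two classes). -/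
theorem result {F : Type*} [Field F] (m : ℕ) (hm : 1 ≤ m) : (∀ U W X : Submodule F (Fin m ⊕ Fin m → F), (Module.finrank F U = m ∧ ∀ w ∈ U, Cfsg.quadFormPlus m F w = 0) → (Module.finrank F W = m ∧ ∀ w ∈ W, Cfsg.quadFormPlus m F w = 0) → (Module.finrank F X = m ∧ ∀ w ∈ X, Cfsg.quadFormPlus m F w = 0) → Even ((m - Module.finrank F ↥(U ⊓ W)) + (m - Module.finrank F ↥(W ⊓ X)) + (m - Module.finrank F ↥(U ⊓ X)))) ∧ ∃ U W : Submodule F (Fin m ⊕ Fin m → F), (Module.finrank F U = m ∧ ∀ w ∈ U, Cfsg.quadFormPlus m F w = 0) ∧ (Module.finrank F W = m ∧ ∀ w ∈ W, Cfsg.quadFormPlus m F w = 0) ∧ Module.finrank F ↥(U ⊓ W) + 1 = m := by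
  have h := Geom.quadPlus_nondeg F m
  have hd : Module.finrank F (Fin m ⊕ Fin m → F) = 2 * m := by simp [two_mul]
  simp only [← Geom.coe_quadPlus]
  refine ⟨fun U W X hU hW hX => Geom.codim_parity h hd hU hW hX, ?_⟩
  obtain ⟨⟨U, hU, hUm⟩, -⟩ := Geom.quadPlus_wittIndex F m
  have hU' : Geom.MaxTS (Geom.quadPlus F m) m U := ⟨hUm, hU.2⟩
  obtain ⟨c, -, hc⟩ := Geom.exists_nonsing (Q := Geom.quadPlus F m) (U := ⊤)
    (Geom.Formed.isIso_top.symm.nondeg h) (by
      intro h0
      have := finrank_top F (Fin m ⊕ Fin m → F)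
      rw [h0, finrank_bot, hd] at this; omega)
  exact ⟨U, _, hU', hU'.map (Geom.refl _ c), hU'.finrank_inf_refl h hd hc⟩

end Cfsg.Agent.S0831
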