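import Cfsg.Statements.S0832
import Cfsg.Agent.Geom.OrthCard

set_option autoImplicit false
open Cfsg

namespace Cfsg.Agent.S0832

/-- For the form Σ x_i y_i on F^(2m) over a finite field, m ≥ 1: an (m−1)-dimensional subspace on which the form vanishes is contained in exactly two m-dimensional subspaces on which it vanishes. -/
theorem result {F : Type*} [Field F] [Finite F] (m : ℕ) (hm : 1 ≤ m) (U : Submodule F (Fin m ⊕ Fin m → F)) (hU : Module.finrank F U + 1 = m ∧ ∀ u ∈ U, Cfsg.quadFormPlus m F u = 0) : Nat.card {W : Submodule F (Fin m ⊕ Fin m → F) // Module.finrank F W = m ∧ (∀ w ∈ W, Cfsg.quadFormPlus m F w = 0) ∧ U ≤ W} = 2 := by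
  obtain ⟨k, hk⟩ : ∃ k, Module.finrank F U = k := ⟨_, rfl⟩
  obtain ⟨hU1, hU2⟩ := hU
  rw [hk] at hU1
  subst hU1
  have h := Geom.quadPlus_nondeg F (k + 1)
  rw [← Geom.coe_quadPlus] at hU2 ⊢
  obtain ⟨e, f, hef, rfl⟩ := h.exists_isHyp_of_totSing (Geom.Formed.totSing_ofQuad.2 hU2) hk
  have h1 := h.card_totSing_over hef
  have hn := h.restrict_perp hef.nondeg_span
  have hd := h.finrank_add_finrank_perp (Submodule.span F (Set.range (Sum.elim e f)))
  rw [hef.finrank_span] at hd
  simp only [Fintype.card_fin, Module.finrank_fintype_fun_eq_card, Fintype.card_sum] at hd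
  simp only [Geom.Formed.totSing_ofQuad] at h1
  obtain ⟨M, hM1, hM2, hM3⟩ := h.exists_totSing_ge hef.totSing_left
    (Geom.quadPlus_isHyp F (k + 1)).totSing_left (by
      rw [hk, finrank_span_eq_card (Geom.quadPlus_isHyp F (k + 1)).linearIndependent_left]; simp)
  rw [finrank_span_eq_card (Geom.quadPlus_isHyp F (k + 1)).linearIndependent_left,
    Fintype.card_fin] at hM3
  have hpos : 0 < Nat.card {W : Submodule F (Fin (k + 1) ⊕ Fin (k + 1) → F) //
      Module.finrank F W = k + 1 ∧ (∀ w ∈ W, Geom.quadPlus F (k + 1) w = 0) ∧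
      Submodule.span F (Set.range e) ≤ W} :=
    Nat.card_pos_iff.2 ⟨⟨⟨M, hM3, hM2.2, hM1⟩⟩, inferInstance⟩
  have hq : 1 < Nat.card F := Finite.one_lt_card
  obtain ⟨l, hl⟩ := hn.exists_wittIndex
  have hl2 := hl.two_mul_le hn
  rw [Geom.Formed.restrict_ofQuad] at hn hl h1
  have hl1 : l = 0 ∨ l = 1 := by omega
  rcases hl1 with rfl | rfl
  · rw [Geom.Formed.nsing_of_aniso _ (Geom.Formed.wittIndex_zero_iff.1 hl)] at h1
    have := Nat.mul_pos hpos (show 0 < Nat.card F - 1 by omega)
    omega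
  · have h2 := Geom.nsing_plus (k := 0) hn hl (by omega)
    rw [← h1] at h2
    apply Nat.eq_of_mul_eq_mul_right (show 0 < Nat.card F - 1 by omega)
    simp only [pow_zero, mul_zero, zero_add, pow_one] at h2
    omega

end Cfsg.Agent.S0832
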