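import Cfsg.Statements.S0833
import Cfsg.Agent.Geom.Tensor

set_option autoImplicit false
open Cfsg

namespace Cfsg.Agent.S0833

/-- If B₁, B₂ are non-degenerate alternating forms on U (dim 2k) and W (dim 2l), then B₁ ⊗ B₂ on U ⊗ W is symmetric, non-degenerate, and vanishes identically on some subspace of dimension 2kl (half of dim U ⊗ W). -/
theorem result {F U W : Type*} [Field F] [Fintype F] [AddCommGroup U] [Module F U] [FiniteDimensional F U] [AddCommGroup W] [Module F W] [FiniteDimensional F W] (B₁ : LinearMap.BilinForm F U) (B₂ : LinearMap.BilinForm F W) (h₁ : B₁.Nondegenerate) (h₂ : B₂.Nondegenerate) (hA₁ : B₁.IsAlt) (hA₂ : B₂.IsAlt) (k l : ℕ) (hU : Module.finrank F U = 2 * k) (hW : Module.finrank F W = 2 * l) : (B₁.tmul B₂).IsSymm ∧ (B₁.tmul B₂).Nondegenerate ∧ (∃ X : Submodule F (TensorProduct F U W), Module.finrank F X = 2 * k * l ∧ ∀ x ∈ X, ∀ y ∈ X, (B₁.tmul B₂) x y = 0) := by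
  classical
  refine ⟨?_, Geom.tmul_nondegenerate h₁ h₂, ?_⟩
  · rw [LinearMap.isSymm_iff_eq_flip]
    ext x₁ x₂ y₁ y₂
    simp only [TensorProduct.AlgebraTensorModule.curry_apply, LinearMap.restrictScalars_self,
      TensorProduct.curry_apply, LinearMap.compr₂_apply, LinearMap.flip_apply,
      TensorProduct.mk_apply, LinearMap.BilinForm.tensorDistrib_tmul, smul_eq_mul]
    rw [← LinearMap.IsAlt.neg hA₁ x₁, ← LinearMap.IsAlt.neg hA₂ x₂]; ring
  · have h : (Geom.Formed.ofAlt B₁ hA₁).Nondeg := h₁.1
    obtain ⟨k', e, f, hef, hk, htop⟩ := h.exists_isHyp_top (fun _ => rfl) hA₁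
    obtain rfl : k' = k := by omega
    let b₁ : Module.Basis (Fin k' ⊕ Fin k') F U := Module.Basis.mk hef.linearIndependent htop.ge
    let b₂ := Module.finBasisOfFinrankEq F W hW
    let v : Fin k' × Fin (2 * l) → TensorProduct F U W :=
      (b₁.tensorProduct b₂) ∘ fun p => (Sum.inl p.1, p.2)
    have hv : LinearIndependent F v := (b₁.tensorProduct b₂).linearIndependent.comp _
      (fun p q hpq => by simpa [Prod.ext_iff] using hpq)
    refine ⟨Submodule.span F (Set.range v), ?_, fun x hx y hy => ?_⟩
    · rw [finrank_span_eq_card hv]; simp; ring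
    · induction hx using Submodule.span_induction with
      | mem x hx =>
        obtain ⟨p, rfl⟩ := hx
        induction hy using Submodule.span_induction with
        | mem y hy =>
          obtain ⟨q, rfl⟩ := hy
          have := hef.ee p.1 q.1
          simp only [Geom.Formed.ofAlt_B] at this
          simp [v, b₁, this]
        | zero => simp
        | add y z _ _ hy hz => rw [map_add, hy, hz, add_zero]
        | smul a y _ hy => rw [map_smul, hy, smul_zero]
      | zero => simp
      | add x z _ _ hx hz => rw [map_add, LinearMap.add_apply, hx, hz, add_zero]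
      | smul a x _ hx => rw [map_smul, LinearMap.smul_apply, hx, smul_zero]

end Cfsg.Agent.S0833
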