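import Cfsg.Statements.S0835
import Cfsg.Agent.Geom.Tensor

set_option autoImplicit false
open Cfsg

namespace Cfsg.Agent.S0835

/-- Over a finite field with 2 ≠ 0: if B₁ on U (dim 2k, k ≥ 1) is non-degenerate symmetric of minus type (no totally isotropic k-subspace) and B₂ on W (dim 2l + 1) is non-degenerate symmetric, then B₁ ⊗ B₂ (dimension 2k(2l+1)) admits no totally isotropic subspace of dimension k(2l+1) (minus type). -/
theorem result {F U W : Type*} [Field F] [Fintype F] [AddCommGroup U] [Module F U] [FiniteDimensional F U] [AddCommGroup W] [Module F W] [FiniteDimensional F W] (h2 : (2 : F) ≠ 0) (B₁ : LinearMap.BilinForm F U) (B₂ : LinearMap.BilinForm F W) (h₁ : B₁.Nondegenerate) (h₂ : B₂.Nondegenerate) (hS₁ : B₁.IsSymm) (hS₂ : B₂.IsSymm) (k l : ℕ) (hk : 1 ≤ k) (hU : Module.finrank F U = 2 * k) (hW : Module.finrank F W = 2 * l + 1) (hm₁ : ¬ (∃ X : Submodule F (U), Module.finrank F X = k ∧ ∀ x ∈ X, ∀ y ∈ X,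 (B₁) x y = 0)) : ¬ (∃ X : Submodule F (TensorProduct F U W), Module.finrank F X = k * (2 * l + 1) ∧ ∀ x ∈ X, ∀ y ∈ X, (B₁.tmul B₂) x y = 0) := by
  classical
  let b₁ := Module.finBasisOfFinrankEq F U hU
  let b₂ := Module.finBasisOfFinrankEq F W hW
  rw [Geom.plus_iff_isSquare_bilin h2 B₁ hS₁ h₁ hU b₁] at hm₁
  rw [Geom.plus_iff_isSquare_bilin h2 (B₁.tmul B₂) ⟨(LinearMap.IsSymm.tmul ⟨hS₁.eq⟩ ⟨hS₂.eq⟩).eq⟩
    (Geom.tmul_nondegenerate h₁ h₂) (by rw [Module.finrank_tensorProduct, hU, hW]; ring)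
    (b₁.tensorProduct b₂), Geom.det_toMatrix_tmul]
  rw [LinearMap.BilinForm.nondegenerate_iff_det_ne_zero b₁] at h₁
  rw [LinearMap.BilinForm.nondegenerate_iff_det_ne_zero b₂] at h₂
  rw [← Geom.isSquare_sq_mul_iff (u := (-1) ^ (k * l) * ((LinearMap.BilinForm.toMatrix b₁ B₁).det ^ l *
    (LinearMap.BilinForm.toMatrix b₂ B₂).det ^ k)) (by simp [h₁, h₂])] at hm₁
  convert hm₁ using 2
  simp only [Fintype.card_fin]
  ring

end Cfsg.Agent.S0835
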