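import Cfsg.Statements.S0836
import Cfsg.Agent.Classical.SLGen

set_option autoImplicit false
open Cfsg

namespace Cfsg.Agent.S0836

/-- For i ≠ j and any scalar c, the elementary transvection 1 + c E_ij is a commutator ⁅g, h⁆ of two elements of SL_n(F) provided n ≥ 3, or n = 2 and F contains x ≠ 0 with x² ≠ 1. -/
theorem result {F : Type*} [Field F] (n : ℕ) (hn : 3 ≤ n ∨ (n = 2 ∧ ∃ x : F, x ≠ 0 ∧ x ^ 2 ≠ 1)) (i j : Fin n) (hij : i ≠ j) (c : F) (t : Matrix.SpecialLinearGroup (Fin n) F) (ht : (t : Matrix (Fin n) (Fin n) F) = Matrix.transvection i j c) : t ∈ commutatorSet (Matrix.SpecialLinearGroup (Fin n) F) := by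
  have ht' : t = Matrix.SpecialLinearGroup.transvection hij c := Subtype.ext ht
  subst ht'
  rcases hn with hn | ⟨rfl, a, ha, hasq⟩
  · obtain ⟨k, hik, hkj⟩ := Classical.exists_ne_ne_of_three_le (by simpa using hn) i j
    rw [← mul_one c, ← Classical.commutator_transvection hij hik hkj]
    exact commutator_mem_commutatorSet _ _
  · refine ⟨Matrix.SpecialLinearGroup.diag2n hij a ha,
      Matrix.SpecialLinearGroup.transvection hij (c / (a ^ 2 - 1)), ?_⟩
    rw [commutatorElement_def, mul_inv_eq_iff_eq_mul, mul_inv_eq_iff_eq_mul]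
    apply Subtype.ext
    have h1 : a ^ 2 - 1 ≠ 0 := sub_ne_zero.2 hasq
    simp only [Matrix.SpecialLinearGroup.coe_mul, Classical.transvection_eq_emb2 hij,
      Classical.diag2n_eq_emb2, Classical.emb2_mul hij]
    congr 1 <;> field_simp <;> ring

end Cfsg.Agent.S0836
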