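import Cfsg.Statements.S0837
import Cfsg.Agent.Geom.Torus

set_option autoImplicit false
open Cfsg

namespace Cfsg.Agent.S0837

/-- If W ≤ F^n (|F| = q²) is a k-dimensional subspace on which the Hermitian form Σ x_i y_i^q is non-degenerate, then the stabiliser of W in GU_n(q) is isomorphic to GU_k(q) × GU_(n−k)(q). -/
theorem result {F : Type*} [Field F] [Fintype F] {q : ℕ} (hF : Fintype.card F = q ^ 2) (n k : ℕ) (hk : k ≤ n) (W : Submodule F (Fin n → F)) (hWk : Module.finrank F W = k) (hW : ∀ u ∈ W, (∀ v ∈ W, Cfsg.hermForm n F q u v = 0) → u = 0) : Nonempty (↥((Cfsg.stabilizing (Cfsg.glToMat (Fin n) F) (W : Set (Fin n → F))).subgroupOf (Cfsg.GU n F q)) ≃* ↥(Cfsg.GU k F q) × ↥(Cfsg.GU (n - k) F q)) := by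
  have h := Geom.hermFormed_nondeg hF n
  have hU : ((Geom.hermFormed hF n).restrict W).Nondeg := by
    rw [Geom.Formed.restrict_nondeg_iff']
    exact fun u hu h0 => hW u hu fun v hv => (Geom.hermFormed hF n).B_eq_zero_symm (h0 v hv)
  obtain ⟨e₁, h₁⟩ := Geom.exists_isIso_hermFormed hF hU rfl hWk
  obtain ⟨e₂, h₂⟩ := Geom.exists_isIso_hermFormed hF (h.restrict_perp hU) rfl (n := n - k)
    (by rw [h.finrank_perp, hWk]; simp)
  exact ⟨((Geom.subgroupEquivInf (Geom.guEquiv hF n) _ (Geom.stab W) fun g => Iff.rfl).trans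
    (h.stabEquiv hU)).trans (MulEquiv.prodCongr (h₁.isomCongr.trans (Geom.guEquiv hF k).symm)
      (h₂.isomCongr.trans (Geom.guEquiv hF (n - k)).symm))⟩

end Cfsg.Agent.S0837
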