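import Cfsg.Statements.S0838
import Cfsg.Agent.Geom.Disc

set_option autoImplicit false
open Cfsg

namespace Cfsg.Agent.S0838

/-- Over a finite field with 2 ≠ 0 and n odd: two quadratic forms Q₁, Q₂ on F^n with non-degenerate polar forms are similar — there are an invertible linear map g and a scalar c ≠ 0 with Q₂ (g v) = c · Q₁ v for all v. -/
theorem result {F : Type*} [Field F] [Fintype F] (h2 : (2 : F) ≠ 0) {n : ℕ} (hn : Odd n) (Q₁ Q₂ : QuadraticForm F (Fin n → F)) (h₁ : (QuadraticMap.polarBilin Q₁).Nondegenerate) (h₂ : (QuadraticMap.polarBilin Q₂).Nondegenerate) : ∃ (g : (Fin n → F) ≃ₗ[F] (Fin n → F)) (c : F), c ≠ 0 ∧ ∀ v, Q₂ (g v) = c * Q₁ v := by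
  classical
  let b := Pi.basisFun F (Fin n)
  let Φ₁ := Geom.Formed.ofQuad Q₁
  let Φ₂ := Geom.Formed.ofQuad Q₂
  have n₁ : Φ₁.Nondeg := h₁.1
  have n₂ : Φ₂.Nondeg := h₂.1
  have d₁ := (Φ₁.nondeg_iff_det_gram b).1 n₁
  have d₂ := (Φ₂.nondeg_iff_det_gram b).1 n₂
  let c := (Φ₁.gram b).det * (Φ₂.gram b).det
  have hc : c ≠ 0 := mul_ne_zero d₁ d₂
  let Φ := Geom.Formed.ofQuad (c • Q₁)
  have hg : Φ.gram b = c • Φ₁.gram b := by
    ext i j
    simp [Φ, Φ₁, QuadraticMap.polar]; ring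
  have hdet : (Φ.gram b).det = c ^ n * (Φ₁.gram b).det := by
    rw [hg, Matrix.det_smul, Fintype.card_fin]
  have h : Φ.Nondeg := by
    rw [Φ.nondeg_iff_det_gram b, hdet]; exact mul_ne_zero (pow_ne_zero _ hc) d₁
  obtain ⟨k, rfl⟩ := hn
  obtain ⟨e, he⟩ := h.exists_equiv_of_disc n₂ h2 rfl rfl rfl b b
    ⟨c ^ (k + 1), by rw [hdet, mul_assoc]; change _ * c = _; ring⟩
  refine ⟨e, c, hc, fun v => ?_⟩
  have := he v v
  simp only [Φ, Φ₂, Geom.Formed.ofQuad_B, QuadraticMap.polarBilin_apply_apply,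
    QuadraticMap.polar_self, two_nsmul, ← two_mul] at this
  simpa using mul_left_cancel₀ h2 this

end Cfsg.Agent.S0838
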