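import Cfsg.Statements.S0839
import Cfsg.Agent.Classical.SLClass

set_option autoImplicit false
open Cfsg

namespace Cfsg.Agent.S0839

open Cfsg.Agent.Classical Matrix Subgroup MulAction Polynomial

/-- Every transvection t ∈ SL_(n+2)(F) (rank(t − 1) = 1, (t − 1)² = 0) is conjugate in SL_(n+2)(F) to 1 + v·e_0ᵀ for some column vector v with v_0 = 0 (the group A of matrices that are the identity except in the first column below the diagonal); the dimension is written n + 2 ≥ 2. -/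
theorem result {F : Type*} [Field F] (n : ℕ) (t : Matrix.SpecialLinearGroup (Fin (n + 2)) F) (ht : Cfsg.IsTransvection (t : Matrix (Fin (n + 2)) (Fin (n + 2)) F)) : ∃ (g : Matrix.SpecialLinearGroup (Fin (n + 2)) F) (v : Fin (n + 2) → F), v 0 = 0 ∧ ((g⁻¹ * t * g : Matrix.SpecialLinearGroup (Fin (n + 2)) F) : Matrix (Fin (n + 2)) (Fin (n + 2)) F) = 1 + Matrix.vecMulVec v (Pi.single 0 1) := by
  obtain ⟨a, b, ha, hb, h⟩ := exists_vecMulVec_of_rank_one ht.1
  have h0 : b ⬝ᵥ a = 0 := by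
    have := ht.2
    rw [h, vecMulVec_mul_vecMulVec, vecMulVec_eq_zero] at this
    simpa [ha, hb] using this
  have he : (Pi.single 0 1 : Fin (n + 2) → F) ≠ 0 := by simp
  obtain ⟨s, hs⟩ := exists_smul_eq (Matrix.SpecialLinearGroup (Fin (n + 2)) F)
    (Projectivization.mk F b hb) (Projectivization.mk F _ he)
  rw [Projectivization.smul_mk, Projectivization.mk_eq_mk_iff'] at hs
  obtain ⟨c, hc⟩ := hs
  change _ = s.1 *ᵥ b at hc
  let g : Matrix.SpecialLinearGroup (Fin (n + 2)) F := ⟨s.1ᵀ, by simp⟩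
  have h1 : (g⁻¹).1 * g.1 = 1 := by rw [← Matrix.SpecialLinearGroup.coe_mul, inv_mul_cancel]; rfl
  have h2 : b ᵥ* g.1 = c • Pi.single 0 1 := by rw [hc]; exact vecMul_transpose _ _
  refine ⟨g, c • (g⁻¹).1 *ᵥ a, ?_, ?_⟩
  · have : (b ᵥ* g.1) ⬝ᵥ ((g⁻¹).1 *ᵥ a) = 0 := by
      rw [← dotProduct_mulVec, mulVec_mulVec, mul_eq_one_comm.1 h1, one_mulVec, h0]
    simpa [h2, -Matrix.SpecialLinearGroup.coe_inv] using this
  · rw [Matrix.SpecialLinearGroup.coe_mul, Matrix.SpecialLinearGroup.coe_mul, ← sub_add_cancel t.1 1, h,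
      mul_add, add_mul, mul_one, h1, mul_vecMulVec, vecMulVec_mul, h2, add_comm _ (1 : Matrix _ _ F)]
    simp [-Matrix.SpecialLinearGroup.coe_inv]

end Cfsg.Agent.S0839
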