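import Cfsg.Statements.S0840
import Cfsg.Agent.Char.Misc

set_option autoImplicit false
open scoped ComplexConjugate
open Cfsg

namespace Cfsg.Agent.S0840

open Cfsg.Agent.Char

/-- Class multiplication coefficients from the character table: for elements a, b, c of a finite group G, the number of ordered pairs (x, y) with x conjugate to a, y conjugate to b and x * y = c equals the product of the sizes of the conjugacy classes of a and b, divided by the order of G, times the sum over the irreducible characters χ of χ a * χ b * conj (χ c) / χ 1. -/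
theorem result {G : Type*} [Group G] [Finite G] (a b c : G) : (Nat.card {p : G × G // IsConj a p.1 ∧ IsConj b p.2 ∧ p.1 * p.2 = c} : ℂ) = (Nat.card {x : G // IsConj a x} : ℂ) * (Nat.card {x : G // IsConj b x} : ℂ) / (Nat.card G : ℂ) * ∑ᶠ χ : Cfsg.IrrCharacter G, (χ : G → ℂ) a * (χ : G → ℂ) b * conj ((χ : G → ℂ) c) / (χ : G → ℂ) 1 := by
  classical
  have := Fintype.ofFinite G
  have h := card_mul_conj_pairs a b c
  have h2 : (Nat.card {x : G × G // x.1 * a * x.1⁻¹ * (x.2 * b * x.2⁻¹) = c} : ℂ) =
      Nat.card (Subgroup.centralizer ({a} : Set G)) * Nat.card (Subgroup.centralizer ({b} : Set G)) *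
        (Nat.card {p : G × G // IsConj a p.1 ∧ IsConj b p.2 ∧ p.1 * p.2 = c} : ℂ) := by
    simp only [Nat.card_eq_fintype_card (α := {_x : G × G // _}), Fintype.card_subtype,
      Finset.card_filter, Fintype.sum_prod_type]
    push_cast
    have e1 : ∀ u : G, ∑ v : G, (if u * (v * b * v⁻¹) = c then (1 : ℂ) else 0) =
        Nat.card (Subgroup.centralizer ({b} : Set G)) *
          ∑ y : G, if IsConj b y ∧ u * y = c then (1 : ℂ) else 0 := fun u => by
      rw [sum_conj_eq (fun y => if u * y = c then (1 : ℂ) else 0) b, nsmul_eq_mul,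
        Finset.sum_filter]
      simp only [ite_and]
    simp only [e1]
    rw [← Finset.mul_sum, sum_conj_eq (fun u => ∑ y : G,
      if IsConj b y ∧ u * y = c then (1 : ℂ) else 0) a, nsmul_eq_mul, Finset.sum_filter]
    rw [mul_left_comm, ← mul_assoc]
    congr 1
    refine Finset.sum_congr rfl fun x _ => ?_
    by_cases hx : IsConj a x <;>
      simp only [hx, true_and, false_and, if_true, if_false, Finset.sum_const_zero]
  have ha := card_centralizer_mul_card_isConj a
  have hb := card_centralizer_mul_card_isConj b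
  have ha' : (Nat.card (Subgroup.centralizer ({a} : Set G)) : ℂ) * Nat.card {y : G // IsConj a y} =
    Nat.card G := by exact_mod_cast ha
  have hb' : (Nat.card (Subgroup.centralizer ({b} : Set G)) : ℂ) * Nat.card {y : G // IsConj b y} =
    Nat.card G := by exact_mod_cast hb
  have hG : (Nat.card G : ℂ) ≠ 0 := natCard_cast_ne_zero
  have h1 : (Nat.card (Subgroup.centralizer ({a} : Set G)) : ℂ) ≠ 0 := natCard_cast_ne_zero
  have h3 : (Nat.card (Subgroup.centralizer ({b} : Set G)) : ℂ) ≠ 0 := natCard_cast_ne_zero
  rw [finsum_eq_sum_of_fintype]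
  apply mul_left_cancel₀ (mul_ne_zero h1 h3)
  rw [← h2, h]
  field_simp
  linear_combination (-(∑ χ : IrrCharacter G, χ.1 a * χ.1 b * conj (χ.1 c) / χ.1 1)) *
    (((Nat.card (Subgroup.centralizer ({b} : Set G)) : ℂ) * Nat.card {y : G // IsConj b y}) * ha' +
      (Nat.card G : ℂ) * hb')

end Cfsg.Agent.S0840
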