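import Cfsg.Statements.S0842
import Cfsg.Agent.Block.Q16

set_option autoImplicit false
open Cfsg

namespace Cfsg.Agent.S0842

open Cfsg.Agent.Block Cfsg.Agent.BMod Cfsg.Agent.Char MonoidAlgebra


/-- Suppose a Sylow 2-subgroup S of the finite group G is generalized quaternion of order at least 16, and let D be the commutator subgroup of S, C its centralizer and N its normalizer in G. Then there is a subgroup K of odd order, contained in C and normalized by N, with K ⊔ S = N and K ⊔ (S ⊓ C) = C, and C has index 2 in N. -/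
theorem result {G : Type*} [Group G] [Finite G] (S : Sylow 2 G) (n : ℕ) (e : (S : Subgroup G) ≃* QuaternionGroup (2 ^ (n + 2))) (D : Subgroup G) (hD : D = ⁅(S : Subgroup G), (S : Subgroup G)⁆) : ∃ K : Subgroup G, Odd (Nat.card K) ∧ K ≤ Subgroup.centralizer (D : Set G) ∧ Subgroup.normalizer (D : Set G) ≤ Subgroup.normalizer (K : Set G) ∧ K ⊔ (S : Subgroup G) = Subgroup.normalizer (D : Set G) ∧ K ⊔ ((S : Subgroup G) ⊓ Subgroup.centralizer (D : Set G)) = Subgroup.centralizer (D : Set G) ∧ ((Subgroup.centralizer (D : Set G)).subgroupOf (Subgroup.normalizer (D : Set G))).index = 2 := by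
  obtain ⟨t, r, h⟩ := exists_gq e
  rw [h.commutator_eq] at hD
  subst hD
  rw [centralizer_zpowers]
  have hK : centralizerPPrimeCore 2 (r ^ 2) ≤ Subgroup.centralizer {r ^ 2} :=
    fun y hy => (h.mem_K.1 hy).1
  refine ⟨centralizerPPrimeCore 2 (r ^ 2), Nat.coprime_two_right.1
    (Solv.coprime_card_map_pPrimeCore _), hK, fun g hg => Subgroup.mem_normalizer_fintype
      fun y hy => h.mem_K.2 ⟨GQ.conj_mem_C hg (hK hy), by
        rw [orderOf_conj']; exact (h.mem_K.1 hy).2⟩,
    le_antisymm (sup_le (hK.trans (GQ.C_le_N _)) h.le_normalizer) fun y hy => ?_,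
    le_antisymm (sup_le hK inf_le_right) fun y hy => ?_, ?_⟩
  · obtain ⟨s, hs, c, hc, rfl⟩ := h.exists_mul_N hy
    exact mul_mem (Subgroup.mem_sup_right hs) (Subgroup.mem_sup_left hc)
  · obtain ⟨k, c, hc, rfl⟩ := h.exists_mul_C hy
    rw [h.inf_C]
    exact mul_mem (Subgroup.mem_sup_right (Subgroup.zpow_mem_zpowers r k)) (Subgroup.mem_sup_left hc)
  · refine Subgroup.index_eq_two_iff'.2 ⟨⟨t⁻¹, inv_mem (h.le_normalizer h.t_mem)⟩, fun y => ?_⟩
    rcases h.mem_or_mem y.2 with h1 | h1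
    · exact Or.inr ⟨h1, fun h2 => h.t_notMem_C
        (inv_mem_iff.1 ((Subgroup.mul_mem_cancel_right _ h1).1 h2))⟩
    · exact Or.inl ⟨h1, fun h2 => h.t_notMem_C
        (inv_mem_iff.1 ((Subgroup.mul_mem_cancel_right _ (Subgroup.mem_subgroupOf.1 h2)).1 h1))⟩

end Cfsg.Agent.S0842
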