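import Cfsg.Statements.S0846
import Cfsg.Agent.Block.ZStar

set_option autoImplicit false
open Cfsg

namespace Cfsg.Agent.S0846

open Cfsg.Agent.Block Cfsg.Agent.BMod Cfsg.Agent.Char MonoidAlgebra


/-- Suppose a Sylow 2-subgroup S of the finite group G is generalized quaternion of order at least 16. Then every Sylow 2-subgroup of the subgroup generated by the involutions of G is cyclic. -/
theorem result {G : Type*} [Group G] [Finite G] (S : Sylow 2 G) (n : ℕ) (e : (S : Subgroup G) ≃* QuaternionGroup (2 ^ (n + 2))) (Q : Sylow 2 ↥(Subgroup.closure {g : G | orderOf g = 2})) : IsCyclic Q := by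
  obtain ⟨t, r, h⟩ := exists_gq e
  have hu := h.uniqInv
  generalize r ^ 2 ^ (n + 2) = u at hu
  have h1 : Subgroup.closure {g : G | orderOf g = 2} ≤
      (Subgroup.zpowers (QuotientGroup.mk' (pPrimeCore 2 G) u)).comap
        (QuotientGroup.mk' (pPrimeCore 2 G)) := by
    refine (Subgroup.closure_le _).2 fun x hx => ?_
    obtain ⟨g, hg⟩ := Invol.exists_conj_invol_mem_sylow (Invol.mul_self_of hx) S
    have h2 : orderOf (g * x * g⁻¹) = 2 := by rw [orderOf_conj', hx]
    have h3 := (hu.uniq _ hg (Invol.mul_self_of h2)).resolve_left (Invol.ne_one_of h2)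
    have h4 : QuotientGroup.mk' (pPrimeCore 2 G) x = QuotientGroup.mk' (pPrimeCore 2 G) u := by
      rw [eq_comm, ← mul_inv_eq_one, ← map_inv, ← map_mul, QuotientGroup.mk'_apply,
        QuotientGroup.eq_one_iff]
      convert zstar hu.isolated g⁻¹ using 1
      rw [← h3]
      group
    refine Subgroup.mem_comap.2 ?_
    rw [h4]
    exact Subgroup.mem_zpowers _
  refine isCyclic_of_injective (G' := Subgroup.zpowers (QuotientGroup.mk' (pPrimeCore 2 G) u))
    (((QuotientGroup.mk' (pPrimeCore 2 G)).comp ((Subgroup.subtype _).comp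
      (Q : Subgroup _).subtype)).codRestrict _ fun x => h1 x.1.2) ?_
  rw [injective_iff_map_eq_one]
  intro x hx
  have h2 : ((x.1 : G)) ∈ pPrimeCore 2 G :=
    (QuotientGroup.eq_one_iff _).1 (congrArg Subtype.val hx)
  have h3 := not_dvd_orderOf_of_not_dvd_card (Solv.not_dvd_card_pPrimeCore 2 G) h2
  rw [Subgroup.orderOf_coe] at h3
  exact Subtype.ext (eq_one_of_orderOf_pow_of_not_dvd (orderOf_eq_pow_of_mem Q.isPGroup' x.2) h3)

end Cfsg.Agent.S0846
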