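import Cfsg.Statements.S0848
import Cfsg.Agent.GW.D8
import Mathlib.Tactic.Group

set_option autoImplicit false
open Cfsg

namespace Cfsg.Agent.S0848
open scoped commutatorElement

open Cfsg.Agent.GW

/-- If a finite group equals its own commutator subgroup and contains an involution whose centralizer is isomorphic to the dihedral group of order 8, then the group has order 168 or 360. -/
theorem result {G : Type*} [Group G] [Finite G] (hperf : commutator G = ⊤) (t : G) (ht : orderOf t = 2) (e : Subgroup.centralizer ({t} : Set G) ≃* DihedralGroup 4) : Nat.card G = 168 ∨ Nat.card G = 360 := by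
  obtain ⟨φ, h, -⟩ := exists_isD8 ht e
  have hG : ∀ H : Subgroup G, H.index ≠ 2 := fun H hH => by
    have := H.normal_of_index_eq_two hH
    have h1 : commutator G ≤ H := by
      rw [commutator_def, Subgroup.commutator_le]
      intro a _ b _
      rw [commutatorElement_def]
      simp only [Subgroup.mul_mem_iff_of_index_two hH, inv_mem_iff]
      tauto
    rw [hperf, top_le_iff] at h1
    rw [h1, Subgroup.index_top] at hH
    omega
  exact h.card_of_conj (h.conj_of_no_index_two hG 0) (h.conj_of_no_index_two hG 1)

end Cfsg.Agent.S0848
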