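import Cfsg.Statements.S0849
import Cfsg.Agent.CharDeep.Ind

set_option autoImplicit false
open Cfsg

namespace Cfsg.Agent.S0849

open Cfsg.Agent.CharDeep

/-- Let H be a subgroup of a finite group G and S a subset of H that is mapped to itself under conjugation by H, is disjoint from its conjugate by any element outside H, and is closed under inverses. Let φ be a class function of H vanishing on H away from S, and let u, v be involutions of G. Then the sum of the induced function of φ over all products a * b with a conjugate to u and b conjugate to v equals the index of H times the sum of φ (a * b) over such pairs with a and b in H. -/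
theorem result {G : Type*} [Group G] [Fintype G] (H : Subgroup G) (S : Set G) (hSH : S ⊆ H) (hHS : ∀ h ∈ H, ∀ s ∈ S, h * s * h⁻¹ ∈ S) (hTI : ∀ g : G, g ∉ H → ∀ s ∈ S, g * s * g⁻¹ ∉ S) (hinv : ∀ s ∈ S, s⁻¹ ∈ S) (φ : H → ℂ) (hφ : Cfsg.IsClassFunction H φ) (hφS : ∀ x : H, (x : G) ∉ S → φ x = 0) (u v : G) (hu : orderOf u = 2) (hv : orderOf v = 2) : ∑ᶠ p ∈ {p : G × G | IsConj u p.1 ∧ IsConj v p.2}, Cfsg.indFun H φ (p.1 * p.2) = (H.index : ℂ) * ∑ᶠ p ∈ {p : H × H | IsConj u (p.1 : G) ∧ IsConj v (p.2 : G)}, φ (p.1 * p.2) := by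
  classical
  have o : ∀ {u a : G}, orderOf u = 2 → IsConj u a → a * a = 1 := fun {u a} hu h => by
    obtain ⟨c, rfl⟩ := isConj_iff.1 h
    rw [← pow_two, conj_pow, ← hu, pow_orderOf_eq_one, mul_one, mul_inv_cancel]
  have c : ∀ {u a : G} (x : G), IsConj u (x * a * x⁻¹) ↔ IsConj u a := fun {u a} x =>
    ⟨fun h => h.trans (isConj_iff.2 ⟨x, rfl⟩).symm, fun h => h.trans (isConj_iff.2 ⟨x, rfl⟩)⟩
  have e1 : ∀ x : G, ∑ p ∈ Finset.univ.filter (fun p : G × G => IsConj u p.1 ∧ IsConj v p.2),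
      extendByZero H φ (x * (p.1 * p.2) * x⁻¹) = ∑ᶠ p ∈ {p : H × H | IsConj u (p.1 : G) ∧ IsConj v (p.2 : G)}, φ (p.1 * p.2) := by
    intro x
    rw [finsum_mem_eq_finite_toFinset_sum _ (Set.toFinite _)]
    refine (Finset.sum_bij_ne_zero (fun p _ _ => (x⁻¹ * p.1 * x, x⁻¹ * p.2 * x)) (fun p hp _ => ?_) (fun p _ _ q _ _ e => ?_)
      (fun p hp h0 => ?_) fun p _ _ => ?_).symm
    · rw [Set.Finite.mem_toFinset] at hp
      exact Finset.mem_filter.2 ⟨Finset.mem_univ _, (c x).1 (by simpa only [mul_assoc, mul_inv_cancel_left, mul_inv_cancel,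
        mul_one] using hp.1), (c x).1 (by simpa only [mul_assoc, mul_inv_cancel_left, mul_inv_cancel, mul_one] using hp.2)⟩
    · simpa [Prod.ext_iff] using e
    · simp only [Finset.mem_filter, Finset.mem_univ, true_and] at hp
      have hH : x * (p.1 * p.2) * x⁻¹ ∈ H := by_contra fun e => h0 (extendByZero_of_not_mem _ _ e)
      rw [extendByZero_of_mem _ _ hH] at h0
      have hS : x * (p.1 * p.2) * x⁻¹ ∈ S := by_contra fun e => h0 (hφS _ e)
      have h1 : x * p.1 * x⁻¹ ∈ H := by_contra fun e => hTI _ e _ hS (by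
        convert hinv _ hS using 1
        rw [mul_inv_rev, mul_inv_rev, mul_inv_rev, mul_inv_rev, mul_inv_rev, inv_eq_of_mul_eq_one_right (o hv hp.2)]
        calc _ = x * (p.1 * p.1) * p.2 * p.1⁻¹ * x⁻¹ := by group
          _ = _ := by rw [o hu hp.1]; group)
      have h2 : x * p.2 * x⁻¹ ∈ H := (mul_mem_cancel_left h1).1 (by simpa [mul_assoc] using hH)
      exact ⟨(⟨_, h1⟩, ⟨_, h2⟩), (Set.Finite.mem_toFinset _).2 ⟨(c x).2 hp.1, (c x).2 hp.2⟩, by convert h0 using 2; ext; simp [mul_assoc], by simp [mul_assoc]⟩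
    · rw [← extendByZero_coe H φ]; simp [mul_assoc]
  rw [finsum_mem_eq_finite_toFinset_sum _ (Set.toFinite _)]
  simp only [indFun_apply', Set.Finite.toFinset_ofPred]
  rw [← Finset.mul_sum, Finset.sum_comm, Finset.sum_congr rfl fun x _ => e1 x, Finset.sum_const, nsmul_eq_mul, ← mul_assoc,
    Finset.card_univ, ← Nat.card_eq_fintype_card, ← H.card_mul_index, Nat.cast_mul, inv_mul_cancel_left₀ (card_ne_zero' H)]

end Cfsg.Agent.S0849
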