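import Cfsg.Statements.S0851
import Cfsg.Agent.CharDeep.Exc

set_option autoImplicit false
open Cfsg

namespace Cfsg.Agent.S0851

open Cfsg.Agent.PF Cfsg.Agent.BG

theorem aux {G : Type*} [Group G] [Finite G] {K : Subgroup G} (h0 : K ≠ ⊥) (hTI : IsTISubset (K : Set G)) (hlt : K < N[K])
    (hC : ∀ k ∈ K, k ≠ 1 → C1[k] ≤ K) (hab : K ≤ C[K]) {ι : Type*} [Fintype ι] (h1 : 1 < Fintype.card ι)
    (χ : ι → G → ℂ) (hi : ∀ i, χ i ∈ Irr N[K] ∧ ¬ K ≤ cfker (χ i)) (hj : Function.Injective χ) :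
    ∃ μ : ι → G → ℂ, (∀ i, μ i ∈ Irr ⊤) ∧ Function.Injective μ ∧ ∃ ε : ℤ, (ε = 1 ∨ ε = -1) ∧
      ∀ i j, Ind N[K] ⊤ (χ i - χ j) = (ε : ℂ) • (μ i - μ j) := by
  classical
  obtain ⟨i0⟩ : Nonempty ι := Fintype.card_pos_iff.1 (by omega)
  have F := Perm.frobKer_normalizer h0 hlt hC
  have hd : ∀ i : ι, χ i 1 = K.relIndex N[K] := fun i => by
    obtain ⟨θ, hθ, -, e⟩ := Frobenius_Ind_irrP F (hi i).1 (hi i).2
    rw [e, Ind_apply_one hlt.le, Irr_apply_one_of_comm hθ (abelian_of_cent hab), mul_one]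
  obtain ⟨t1, t2⟩ := Perm.TI_isoOn F ((normedTI_sharp_iff h0).2 ⟨hTI, rfl⟩)
  have hs : ZS1 (Finset.univ.image χ) ≤ ZS1 (seqIndD K N[K] K ⊥) :=
    ZS1_mono (Finset.image_subset_iff.2 fun i _ => (Perm.mem_seqIndD_Frob F).2 (hi i))
  obtain ⟨μ, h2, h3, ε, h4, h5⟩ := vchar_isometry_base i0 h1 χ (fun i => (hi i).1) hj
    (fun i => (hd i).trans (hd i0).symm) (Ind N[K] ⊤) (t1.mono hs) fun φ hφ => t2 φ (hs hφ)
  refine ⟨μ, h2, h3, ε, h4, fun i j => ?_⟩
  rw [← sub_sub_sub_cancel_right _ _ (χ i0), map_sub, h5, h5, ← smul_sub, sub_sub_sub_cancel_right]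

/-- Let K be a subgroup of the finite group G that meets each conjugate by an element outside its normalizer N trivially, is properly contained in N, and contains the centralizer of each of its non-identity elements (a T.I. subgroup with Frobenius normalizer). Suppose K is abelian, let e be the index of K in N, and call an irreducible character of N relevant when it takes at some element of K a value different from its degree. Then either there is exactly one relevant character and K is an elementary abelian p-group of order e + 1 for some prime p, or there are a sign ε and an injective map f from the relevant characters to the irreducible characters of G such that inducing χ - ξ to G gives ε (f χ - f ξ) for all relevant χ and ξ. -/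
theorem result {G : Type*} [Group G] [Fintype G] (K : Subgroup G) (hTI : ∀ g : G, g ∉ Subgroup.normalizer (K : Set G) → ∀ k ∈ K, g * k * g⁻¹ ∈ K → k = 1) (hlt : K < Subgroup.normalizer (K : Set G)) (hC : ∀ k ∈ K, k ≠ 1 → Subgroup.centralizer ({k} : Set G) ≤ K) (hab : ∀ a ∈ K, ∀ b ∈ K, a * b = b * a) : (Nat.card {χ : Cfsg.IrrCharacter (Subgroup.normalizer (K : Set G)) // ∃ k : Subgroup.normalizer (K : Set G), (k : G) ∈ K ∧ (χ : ↥(Subgroup.normalizer (K : Set G)) → ℂ) k ≠ (χ : ↥(Subgroup.normalizer (K : Set G)) → ℂ) 1} = 1 ∧ ∃ p : ℕ, p.Prime ∧ Cfsg.IsElementaryAbelian p K ∧ Nat.card K = (K.subgroupOf (Subgroup.normalizer (K : Set G))).index + 1) ∨ ∃ (ε : ℂ) (f : {χ : Cfsg.IrrCharacter (Subgroup.normalizer (K : Set G)) // ∃ k : Subgroup.normalizer (K : Set G), (k : G) ∈ K ∧ (χ : ↥(Subgroup.normalizer (K : Set G)) → ℂ) k ≠ (χ : ↥(Subgroup.normalizer (K : Set G)) → ℂ) 1} → Cfsg.IrrCharacter G), (ε = 1 ∨ ε = -1) ∧ Function.Injective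 f ∧ ∀ χ ξ, Cfsg.indFun (Subgroup.normalizer (K : Set G)) ((χ.1 : ↥(Subgroup.normalizer (K : Set G)) → ℂ) - (ξ.1 : ↥(Subgroup.normalizer (K : Set G)) → ℂ)) = ε • ((f χ : G → ℂ) - (f ξ : G → ℂ)) := by
  right
  have := Fintype.ofFinite {χ : Cfsg.IrrCharacter N[K] // ∃ k : N[K], (k : G) ∈ K ∧ χ.1 k ≠ χ.1 1}
  by_cases h1 : Fintype.card {χ : Cfsg.IrrCharacter N[K] // ∃ k : N[K], (k : G) ∈ K ∧ χ.1 k ≠ χ.1 1} ≤ 1
  · have := Fintype.card_le_one_iff_subsingleton.1 h1
    exact ⟨1, fun _ => Char.irrOne G, .inl rfl, Function.injective_of_subsingleton _, fun χ ξ => by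
      obtain rfl := Subsingleton.elim χ ξ
      rw [sub_self, sub_self, smul_zero, CharDeep.indFun_zero]⟩
  obtain ⟨⟨_, k, hk, e⟩⟩ := Fintype.card_pos_iff.1 (zero_lt_one.trans (not_le.1 h1))
  obtain ⟨μ, h2, h3, ε, h4, h5⟩ := aux (fun e' => e (congrArg _ (Subtype.ext (Subgroup.mem_bot.1 (e'.le hk))))) hTI hlt hC
    (le_cent_iff.2 hab) (not_le.1 h1) (fun i => ext N[K] i.1.1) (fun i => ⟨ext_mem_Irr.2 i.1.2,
      (not_le_cfker_Irr (ext_mem_Irr.2 i.1.2)).2 (by
        obtain ⟨k, hk, e⟩ := i.2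
        exact ⟨k, hk, by rwa [ext_coe, ext_one]⟩)⟩) fun i j e => Subtype.ext (Subtype.ext (ext_injective _ e))
  exact ⟨ε, fun i => ⟨μ i, mem_Irr_top.1 (h2 i)⟩, by exact_mod_cast h4, fun i j e => h3 (congrArg Subtype.val e),
    fun i j => by rw [← Ind_ext, map_sub]; exact h5 i j⟩

end Cfsg.Agent.S0851
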