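import Cfsg.Statements.S0855
import Cfsg.Agent.Isa.I2

set_option autoImplicit false
open Cfsg

namespace Cfsg.Agent.S0855

open Cfsg.Agent.PF Cfsg.Agent.PF.CH Cfsg.Agent.BG


/-- For a finite group G and a prime p: every irreducible character of G has degree a power of p if and only if G has an abelian normal subgroup whose order is prime to p and whose index is a power of p. -/
theorem result {G : Type*} [Group G] [Finite G] (p : ℕ) (hp : p.Prime) : (∀ χ : Cfsg.IrrCharacter G, ∃ k : ℕ, (χ : G → ℂ) 1 = (p : ℂ) ^ k) ↔ ∃ A : Subgroup G, A.Normal ∧ (∀ a ∈ A, ∀ b ∈ A, a * b = b * a) ∧ Nat.Coprime (Nat.card A) p ∧ ∃ k : ℕ, A.index = p ^ k := by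
  have := Fact.mk hp
  constructor
  · intro h
    have h0 {χ} (hχ : χ ∈ Irr (⊤ : Subgroup G)) : PiNat {p} (deg χ) := by
      obtain ⟨k, hk⟩ := h ⟨χ, mem_Irr_top.1 hχ⟩
      exact (p_natP hp).2 ⟨k, deg_eq_of (by rw [Nat.cast_pow]; exact hk)⟩
    have h1 := thompson (X := G) hp fun χ hχ h1 =>
      by_contra fun h2 => h1 (pnat_1 (h0 hχ) ((p'natE hp).2 h2))
    refine ⟨pResidual p G, inferInstance, fun a ha b hb => congrArg Subtype.val
      (Char.comm_iff_forall_irr_apply_one.2 (fun θ => ?_) (⟨a, ha⟩ : pResidual p G) ⟨b, hb⟩),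
      (hp.coprime_iff_not_dvd.2 h1).symm, Transfer.exists_index_pResidual⟩
    obtain ⟨χ, hχ, hd⟩ := exists_constt_Ind le_top (ez_irr θ)
    obtain ⟨e, -, he⟩ := deg_dvd (normal_top _) (ez_irr θ) hχ hd
    have := pnat_1 ((h0 hχ).of_dvd (he ▸ dvd_mul_left _ _))
      (((p'natE hp).2 h1).of_dvd (dvd_irr1_cardG (ez_irr θ)))
    rw [θ.2.apply_one_eq_charDegree, ← deg_ez, this, Nat.cast_one]
  · rintro ⟨A, hA, h1, -, k, hk⟩ χ
    obtain ⟨j, -, hj⟩ := (Nat.dvd_prime_pow hp).1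
      (hk ▸ CharDeep.charDegree_dvd_index_of_abelian A h1 χ.2)
    exact ⟨j, by rw [χ.2.apply_one_eq_charDegree, hj, Nat.cast_pow]⟩

end Cfsg.Agent.S0855
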