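import Cfsg.Statements.S0857
import Cfsg.Agent.Isa.I1

set_option autoImplicit false
open Cfsg

namespace Cfsg.Agent.S0857

open Cfsg.Agent.PF Cfsg.Agent.PF.CH Cfsg.Agent.BG


/-- Let L < K be normal subgroups of the finite group G with no normal subgroup of G strictly between them and with K / L abelian (the commutator subgroup of K lies in L). Let ϑ be an irreducible character of K invariant under conjugation by G. Then the restriction of ϑ to L is irreducible; or it equals e times an irreducible character of L with e ^ 2 equal to the index of L in K; or it is the sum of a family of pairwise distinct irreducible characters of L indexed by a set whose size is the index of L in K. -/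
theorem result {G : Type*} [Group G] [Fintype G] (K L : Subgroup G) [hK : K.Normal] [L.Normal] (hLK : L < K) (hchief : ∀ M : Subgroup G, M.Normal → L ≤ M → M ≤ K → M = L ∨ M = K) (hab : ⁅K, K⁆ ≤ L) (ϑ : K → ℂ) (hϑ : Cfsg.IsIrrCharacter K ϑ) (hinv : ∀ (g : G) (n : K), ϑ ⟨g * n * g⁻¹, hK.conj_mem (n : G) n.2 g⟩ = ϑ n) : Cfsg.IsIrrCharacter L (fun x : L => ϑ ⟨(x : G), hLK.le x.2⟩) ∨ (∃ (φ : L → ℂ) (e : ℕ), Cfsg.IsIrrCharacter L φ ∧ (fun x : L => ϑ ⟨(x : G), hLK.le x.2⟩) = (e : ℂ) • φ ∧ e ^ 2 = L.relIndex K) ∨ (∃ F : Finset (L → ℂ), (∀ φ ∈ F, Cfsg.IsIrrCharacter L φ) ∧ F.card = L.relIndex K ∧ (fun x : L => ϑ ⟨(x : G), hLK.le x.2⟩) = ∑ φ ∈ F, φ) := by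
  classical
  have hc : ChiefF ⊤ L K := ⟨hLK, le_top, norm_of_normal L ⊤, norm_of_normal K ⊤,
    fun M h1 h2 h3 => hchief M (NormalIn.normal ⟨le_top, h3⟩) h1 h2⟩
  have hθ := ext_mem_Irr.2 hϑ
  have e0 : (fun x : L => ϑ ⟨(x : G), hLK.le x.2⟩) = fun x : L => ext K ϑ x :=
    funext fun x => (ext_of_mem ϑ (hLK.le x.2)).symm
  rw [e0]
  rcases going_down hc hab hθ (fun g _ => (mem_inertia_ext ϑ g).2 (hinv g)) with
    h | ⟨φ, e, h, h1⟩ | ⟨φ, hφ, h, h1⟩
  · exact .inl (by simpa using (mem_Irr.1 h).2)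
  · exact .inr (.inl ⟨fun x => φ x, e, (mem_Irr.1 h.irr).2, by rw [h1]; rfl, h.sq⟩)
  · have h2 : K ⊓ inertia φ = L := le_antisymm h (le_inf_inertia hLK.le (Irr_CF hφ))
    have h3 := cfclass_subset_Irr hc.normal.norm hφ
    have h4 : Set.InjOn (fun (ψ : G → ℂ) (x : L) => ψ x) (cfclass K φ) := fun a ha b hb e =>
      CF_ext (Irr_CF (h3 ha)) (Irr_CF (h3 hb)) fun g hg => congrFun e ⟨g, hg⟩
    refine .inr (.inr ⟨(cfclass K φ).image fun ψ (x : L) => ψ x, fun ψ hψ => ?_, ?_, ?_⟩)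
    · obtain ⟨a, ha, rfl⟩ := Finset.mem_image.1 hψ
      exact (mem_Irr.1 (h3 ha)).2
    · rw [Finset.card_image_of_injOn h4, card_cfclass, ← Subgroup.inf_relIndex_right, inf_comm, h2]
    · rw [Finset.sum_image h4, h1, Ind_eq_sum_cfclass hc.normal (Irr_CF hφ), h2,
        Subgroup.relIndex_self, Nat.cast_one, one_smul]
      ext x; simp

end Cfsg.Agent.S0857
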