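import Cfsg.Statements.S0859
import Cfsg.Agent.Isa.I1

set_option autoImplicit false
open Cfsg

namespace Cfsg.Agent.S0859

open Cfsg.Agent.PF Cfsg.Agent.PF.CH Cfsg.Agent.BG


/-- Let G be a finite solvable group and N a normal subgroup such that for every prime p every Sylow p-subgroup of N is abelian. Suppose every irreducible character of G is induced from an irreducible character of some subgroup containing N whose restriction to N is irreducible. Then every irreducible character of G is induced from a character of degree 1 of some subgroup. -/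
theorem result {G : Type*} [Group G] [Fintype G] [Group.IsSolvable G] (N : Subgroup G) [N.Normal] (hab : ∀ (p : ℕ) [Fact p.Prime] (P : Sylow p N), ∀ a ∈ P, ∀ b ∈ P, a * b = b * a) (hrel : ∀ χ : G → ℂ, Cfsg.IsIrrCharacter G χ → ∃ (H : Subgroup G) (hNH : N ≤ H) (ψ : H → ℂ), Cfsg.IsIrrCharacter H ψ ∧ Cfsg.indFun H ψ = χ ∧ Cfsg.IsIrrCharacter N (fun n : N => ψ ⟨(n : G), hNH n.2⟩)) (χ : G → ℂ) (hχ : Cfsg.IsIrrCharacter G χ) : ∃ (U : Subgroup G) (lam : U → ℂ), Cfsg.IsCharacter U lam ∧ lam 1 = 1 ∧ Cfsg.indFun U lam = χ := by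
  obtain ⟨H, h1, ψ, hψ, rfl, h2⟩ := hrel χ hχ
  obtain ⟨U, h3, l, e⟩ := monomial_of (solvable_of H) ⟨h1, norm_of_normal N H⟩ (fun p hp P hP h => by
    have := Fact.mk hp
    obtain ⟨S, hS, h4⟩ := Sylow_superset hP h
    obtain ⟨Q, rfl⟩ := sylow_of_sylowIn hS
    refine abelianS h4 (abelian_of_cent (le_cent_iff.2 ?_))
    rintro _ ⟨a, ha, rfl⟩ _ ⟨b, hb, rfl⟩
    exact congrArg Subtype.val (hab p Q a ha b hb)) (ext_mem_Irr.2 hψ)
    (mem_Irr.2 ⟨fun g => Res_of_not_mem _, by
      convert h2 using 2 with n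
      rw [Res_coe, ext_of_mem]⟩)
  refine ⟨U, fun u => l u, Char.isCharacter_hom l, by simp, ?_⟩
  rw [← Ind_ext, ← Ind_ext, ← e, Ind_Ind h3 le_top]
  rfl

end Cfsg.Agent.S0859
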