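import Cfsg.Statements.S0860
import Cfsg.Agent.Char.FS

set_option autoImplicit false
open Cfsg

namespace Cfsg.Agent.S0860

/-- Let a group A act on the set of irreducible characters and on the set of conjugacy classes of a finite group G in such a way that (a • χ) evaluated on the class a • C equals χ evaluated on C, for all a, χ and C. Then every element of A fixes exactly as many irreducible characters as it fixes conjugacy classes. -/
theorem result {G : Type*} [Group G] [Finite G] {A : Type*} [Group A] [MulAction A (Cfsg.IrrCharacter G)] [MulAction A (ConjClasses G)] (hcompat : ∀ (a : A) (χ : Cfsg.IrrCharacter G) (g g' : G), ConjClasses.mk g' = a • ConjClasses.mk g → ((a • χ : Cfsg.IrrCharacter G) : G → ℂ) g' = (χ : G → ℂ) g) (a : A) : Nat.card {χ : Cfsg.IrrCharacter G // a • χ = χ} = Nat.card {C : ConjClasses G // a • C = C} := by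
  have hα : ∀ g : G, ConjClasses.mk (a⁻¹ • ConjClasses.mk g : ConjClasses G).out =
      a⁻¹ • ConjClasses.mk g := fun g => Quotient.out_eq _
  have key : ∀ (χ : IrrCharacter G) (g : G), ((a • χ : IrrCharacter G) : G → ℂ) g =
      (χ : G → ℂ) (a⁻¹ • ConjClasses.mk g : ConjClasses G).out := fun χ g =>
    hcompat a χ _ g (by rw [hα, smul_inv_smul])
  have := Char.card_irr_fixed_eq_card_classes (G := G)
    (fun g => (a⁻¹ • ConjClasses.mk g : ConjClasses G).out) (fun χ hχ => by
      have := (a • (⟨χ, hχ⟩ : IrrCharacter G)).2
      rwa [show ((a • (⟨χ, hχ⟩ : IrrCharacter G)).1) = _ from funext (key ⟨χ, hχ⟩)] at this)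
  refine (Nat.card_congr (Equiv.subtypeEquivRight fun χ => ?_)).trans
    (this.trans (Nat.card_congr (Equiv.subtypeEquivRight fun C => ?_)))
  · rw [Subtype.ext_iff, funext_iff]
    exact forall_congr' fun g => by rw [← key]
  · obtain ⟨g, rfl⟩ := ConjClasses.mk_surjective C
    constructor
    · intro h
      have := ConjClasses.mk_eq_mk_iff_isConj.2 (h g rfl)
      rw [hα] at this
      conv_lhs => rw [this]
      rw [smul_inv_smul]
    · intro h x hx
      rw [← ConjClasses.mk_eq_mk_iff_isConj, hα, hx, eq_inv_smul_iff, h]

end Cfsg.Agent.S0860
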