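import Cfsg.Statements.S0861
import Cfsg.Agent.Block.Galois
import Cfsg.Agent.Block.Q8
import Cfsg.Agent.CharDeep.Extend

set_option autoImplicit false
open Cfsg

namespace Cfsg.Agent.S0861

open Cfsg.Agent.Char Cfsg.Agent.CharDeep Cfsg.Agent.Block Finset

/-- Let P be a normal abelian Sylow p-subgroup of the finite group G and suppose some element g of P has centralizer exactly P. Then the number of irreducible characters of G is at most the order of P, and if equality holds then G / P is abelian (the commutator subgroup lies in P). -/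
theorem result {G : Type*} [Group G] [Finite G] (p : ℕ) [Fact p.Prime] (P : Sylow p G) [(P : Subgroup G).Normal] (hab : ∀ a ∈ P, ∀ b ∈ P, a * b = b * a) (g : G) (hg : g ∈ P) (hC : Subgroup.centralizer ({g} : Set G) = P) : Nat.card (Cfsg.IrrCharacter G) ≤ Nat.card P ∧ (Nat.card (Cfsg.IrrCharacter G) = Nat.card P → commutator G ≤ P) := by
  classical
  obtain ⟨M, _⟩ := exists_pMod p
  have n0 : ∀ χ : IrrCharacter G, χ.1 g ≠ 0 := fun χ => ne_zero_of_red_ne_zero (M := M) (by
    rw [red_apply_pElt χ.2.isCharacter (orderOf_eq_pow_of_mem P.2 hg), χ.2.apply_one_eq_charDegree]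
    exact red_natCast_ne_zero fun h => P.not_dvd_index (h.trans (charDegree_dvd_index_of_abelian _ hab χ.2)))
  obtain ⟨m, hm⟩ := exists_int_of_fixed (IsIntegral.prod (fun χ : IrrCharacter G => χ.1 g) fun χ (_ : χ ∈ univ) =>
    χ.2.isCharacter.isIntegral g) fun σ => by
      rw [map_prod]; exact (galIrr_bijective (σ : ℂ →+* ℂ)).prod_comp fun χ => χ.1 g
  have l : 0 ≤ ∑ χ : IrrCharacter G, Real.log (‖χ.1 g‖ ^ 2) := by
    rw [← Real.log_prod fun χ _ => by simp [n0], prod_pow, ← norm_prod, hm]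
    refine Real.log_nonneg (one_le_pow₀ ?_)
    exact_mod_cast Int.one_le_abs (Int.cast_ne_zero.1 (hm ▸ prod_ne_zero_iff.2 fun χ _ => n0 χ))
  have s : ∑ χ : IrrCharacter G, (‖χ.1 g‖ ^ 2 - 1) = (Nat.card P : ℝ) - Nat.card (IrrCharacter G) := by
    rw [sum_sub_distrib, sum_irr_norm_sq, hC]; simp
  have h : ∀ χ ∈ (univ : Finset (IrrCharacter G)), Real.log (‖χ.1 g‖ ^ 2) ≤ ‖χ.1 g‖ ^ 2 - 1 := fun χ _ =>
    Real.log_le_sub_one_of_pos (by simp [n0, sq_pos_iff])
  refine ⟨by exact_mod_cast sub_nonneg.1 (s ▸ l.trans (sum_le_sum h)), fun e x hx => by_contra fun hn => ?_⟩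
  obtain ⟨χ, h1, h2, h3⟩ := exists_irr_apply_ne_of_not_mem (P : Subgroup G) hn
  have := (sum_eq_sum_iff_of_le h).1 ((sum_le_sum h).antisymm (by rwa [s, e, sub_self])) ⟨χ, h1⟩ (mem_univ _)
  have := by_contra fun h => (Real.log_lt_sub_one_of_pos (by simp [n0 ⟨χ, h1⟩, sq_pos_iff]) h).ne this
  obtain ⟨d, hd⟩ := h1.isCharacter.exists_nat_apply_one
  rw [show (⟨χ, h1⟩ : IrrCharacter G).1 g = d from (h2 g hg).trans hd, Complex.norm_natCast] at this
  exact h3 (h1.apply_one_eq_one_iff.1 (hd.trans (by exact_mod_cast (pow_eq_one_iff.1 (by exact_mod_cast this)).resolve_right two_ne_zero)) x hx)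

end Cfsg.Agent.S0861
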