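import Cfsg.Statements.S0865
import Cfsg.Agent.CharDeep.Det

set_option autoImplicit false
set_option maxSynthPendingDepth 3
open Cfsg

namespace Cfsg.Agent.S0865

/-- Let N be a normal subgroup of the finite group G and λ a character of N of degree 1, invariant under conjugation by G, whose order (under pointwise multiplication) is coprime to the index of N. Then there is a character μ of G of degree 1 restricting to λ with the same order as λ, and μ is the only degree-1 character of G restricting to λ whose order is coprime to the index of N. -/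
theorem result {G : Type*} [Group G] [Finite G] (N : Subgroup G) [hN : N.Normal] (lam : N → ℂ) (hlam : Cfsg.IsCharacter N lam ∧ lam 1 = 1) (hinv : ∀ (g : G) (n : N), lam ⟨g * n * g⁻¹, hN.conj_mem (n : G) n.2 g⟩ = lam n) (hcop : Nat.Coprime N.index (orderOf lam)) : ∃ μ : G → ℂ, (Cfsg.IsCharacter G μ ∧ μ 1 = 1 ∧ (∀ n : N, μ n = lam n) ∧ orderOf μ = orderOf lam) ∧ ∀ μ' : G → ℂ, Cfsg.IsCharacter G μ' ∧ μ' 1 = 1 → (∀ n : N, μ' n = lam n) → Nat.Coprime N.index (orderOf μ') → μ' = μ := by
  obtain ⟨l, rfl⟩ := hlam.1.exists_hom_of_apply_one hlam.2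
  rw [CharDeep.orderOf_coe_hom] at hcop
  obtain ⟨μ, hμ, ho⟩ :=
    CharDeep.exists_hom_extend_of_coprime N l (fun g n => Units.ext (hinv g n)) hcop
  refine ⟨fun g => μ g, ⟨Char.isCharacter_hom μ, by simp, fun n => by simp [hμ], ?_⟩, ?_⟩
  · rw [CharDeep.orderOf_coe_hom, CharDeep.orderOf_coe_hom, ho]
  · rintro μ' ⟨h1, h2⟩ h3 h4
    obtain ⟨ν, rfl⟩ := h1.exists_hom_of_apply_one h2
    rw [CharDeep.orderOf_coe_hom] at h4
    have h7 : ν * μ⁻¹ = 1 := by
      refine CharDeep.hom_eq_one_of_coprime N _ (fun n hn => ?_) ?_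
      · have : ν n = μ n := Units.ext (by rw [hμ ⟨n, hn⟩]; exact h3 ⟨n, hn⟩)
        simp [this]
      · refine Nat.Coprime.coprime_dvd_right (Commute.all _ _).orderOf_mul_dvd_mul_orderOf ?_
        rw [orderOf_inv, ho]
        exact h4.mul_right hcop
    rw [mul_inv_eq_one.1 h7]

end Cfsg.Agent.S0865
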