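import Cfsg.Statements.S0872
import Cfsg.Agent.CharDeep.PermChar

set_option autoImplicit false
open Cfsg

namespace Cfsg.Agent.S0872

/-- For a finite group G and a prime p there are an integer m not divisible by p and a ℤ-linear combination of functions induced from the constant function 1 on subgroups H, each having a cyclic normal subgroup of order prime to p and p-power index in H, that equals the constant function m. -/
theorem result {G : Type*} [Group G] [Fintype G] (p : ℕ) (hp : p.Prime) : ∃ (m : ℤ) (a : Subgroup G → ℤ), ¬ (p : ℤ) ∣ m ∧ (∀ H, a H ≠ 0 → (∃ C : Subgroup G, C ≤ H ∧ H ≤ Subgroup.normalizer (C : Set G) ∧ IsCyclic C ∧ Nat.Coprime (Nat.card C) p ∧ ∃ k : ℕ, C.relIndex H = p ^ k)) ∧ (fun _ : G => (m : ℂ)) = ∑ H : Subgroup G, (a H : ℂ) • Cfsg.indFun H (fun _ => 1) := by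
  classical
  obtain ⟨m, hm, h⟩ := CharDeep.solomon_local (G := G) p hp
  suffices hs : ∀ f ∈ CharDeep.quasiElemSpan G p, ∃ a : Subgroup G → ℤ,
      (∀ H, a H ≠ 0 → CharDeep.IsQuasiElem p H) ∧
        f = ∑ H : Subgroup G, (a H : ℂ) • Cfsg.indFun H (fun _ => 1) by
    obtain ⟨a, ha, h'⟩ := hs _ h
    exact ⟨m, a, hm, ha, by convert h'⟩
  intro f hf
  induction hf using Submodule.span_induction with
  | zero => exact ⟨0, by simp, by simp⟩
  | add _ _ _ _ h1 h2 =>
    obtain ⟨a, ha, rfl⟩ := h1
    obtain ⟨b, hb, rfl⟩ := h2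
    refine ⟨a + b, fun H hH => ?_, by simp [add_smul, Finset.sum_add_distrib]⟩
    by_cases h : a H = 0
    · exact hb H (by simpa [h] using hH)
    · exact ha H h
  | smul c _ _ h1 =>
    obtain ⟨a, ha, rfl⟩ := h1
    refine ⟨c • a, fun H hH => ha H (fun h => hH (by simp [h])), ?_⟩
    rw [Finset.smul_sum]
    refine Finset.sum_congr rfl fun H _ => ?_
    simp [mul_smul, Int.cast_smul_eq_zsmul]
  | mem f hf =>
    obtain ⟨H, hH, rfl⟩ := hf
    refine ⟨Pi.single H 1, fun U hU => ?_, ?_⟩
    · by_cases h : U = H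
      · exact h ▸ hH
      · simp [h] at hU
    · rw [Finset.sum_eq_single H] <;> simp +contextual [Pi.single_apply]

end Cfsg.Agent.S0872
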