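import Cfsg.Statements.S0874
import Cfsg.Agent.CharDeep.Brauer

set_option autoImplicit false
open Cfsg

namespace Cfsg.Agent.S0874

/-- For a finite group G and a prime p there are an integer m not divisible by p and a list of triples (E, φ, c), with E a p-elementary subgroup, φ a character of E and c an integer, such that the constant function m on G equals the sum of the c • (function induced from φ). -/
theorem result {G : Type*} [Group G] [Fintype G] (p : ℕ) (hp : p.Prime) : ∃ (m : ℤ) (l : List ((E : Subgroup G) × ((E → ℂ) × ℤ))), ¬ (p : ℤ) ∣ m ∧ (∀ t ∈ l, Cfsg.IsElementary p t.1 ∧ Cfsg.IsCharacter t.1 t.2.1) ∧ (fun _ : G => (m : ℂ)) = (l.map fun t => (t.2.2 : ℂ) • Cfsg.indFun t.1 t.2.1).sum := by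
  obtain ⟨m, hm, h⟩ := CharDeep.brauer_local G hp
  suffices hs : ∀ f ∈ CharDeep.elemSpan G (· = p),
      ∃ l : List ((E : Subgroup G) × ((E → ℂ) × ℤ)),
        (∀ t ∈ l, Cfsg.IsElementary p t.1 ∧ Cfsg.IsCharacter t.1 t.2.1) ∧
          f = (l.map fun t => (t.2.2 : ℂ) • Cfsg.indFun t.1 t.2.1).sum by
    obtain ⟨l, hl, h'⟩ := hs _ h
    exact ⟨m, l, hm, hl, h'⟩
  intro f hf
  induction hf using Submodule.span_induction with
  | zero => exact ⟨[], by simp, by simp⟩
  | add _ _ _ _ h1 h2 =>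
    obtain ⟨a, ha, rfl⟩ := h1
    obtain ⟨b, hb, rfl⟩ := h2
    exact ⟨a ++ b, fun t ht => (List.mem_append.1 ht).elim (ha t) (hb t), by simp⟩
  | smul c _ _ h1 =>
    obtain ⟨a, ha, rfl⟩ := h1
    refine ⟨a.map fun t => ⟨t.1, t.2.1, c * t.2.2⟩, fun t ht => ?_, ?_⟩
    · obtain ⟨s, hs, rfl⟩ := List.mem_map.1 ht
      exact ha s hs
    · rw [List.smul_sum, List.map_map, List.map_map]
      congr 1
      refine List.map_congr_left fun t _ => ?_
      simp [mul_smul, Int.cast_smul_eq_zsmul, mul_assoc]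
  | mem f hf =>
    obtain ⟨q, E, ψ, -, rfl, hE, hψ, rfl⟩ := hf
    exact ⟨[⟨E, ψ, 1⟩], by simp [hE, hψ], by simp⟩

end Cfsg.Agent.S0874
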