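import Cfsg.Statements.S0875
import Cfsg.Agent.Isa.I2

set_option autoImplicit false
open Cfsg

namespace Cfsg.Agent.S0875

open Cfsg.Agent.PF Cfsg.Agent.PF.CH Cfsg.Agent.BG


/-- Let G be a finite group of order m * n with m and n coprime, and g an element whose order is coprime to m. Every x in G factors uniquely as x = u * v with u, v commuting, the order of u coprime to n and the order of v coprime to m; let ϑ be the function on G equal to n at those x whose factor v is conjugate to g and equal to 0 elsewhere. Then ϑ is a linear combination of the irreducible characters of G with algebraic-integer coefficients. -/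
theorem result {G : Type*} [Group G] [Fintype G] (m n : ℕ) (hmn : Nat.card G = m * n) (hcop : Nat.Coprime m n) (g : G) (hg : Nat.Coprime (orderOf g) m) (ϑ : G → ℂ) (hϑ1 : ∀ x : G, (∃ v : G, IsConj v g ∧ (∃ u : G, x = u * v ∧ Commute u v ∧ Nat.Coprime (orderOf u) n ∧ Nat.Coprime (orderOf v) m)) → ϑ x = n) (hϑ0 : ∀ x : G, (¬ ∃ v : G, IsConj v g ∧ (∃ u : G, x = u * v ∧ Commute u v ∧ Nat.Coprime (orderOf u) n ∧ Nat.Coprime (orderOf v) m)) → ϑ x = 0) : ∃ c : Cfsg.IrrCharacter G → ℂ, (∀ χ, c χ ∈ Cfsg.AlgInt) ∧ ϑ = ∑ᶠ χ : Cfsg.IrrCharacter G, c χ • (χ : G → ℂ) := by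
  have hc : ∀ a : G, (orderOf a).Coprime n → PiElt (primesOf m) a := fun a h =>
    (pnat_pi m).of_dvd (h.dvd_of_dvd_mul_right (hmn ▸ orderOf_dvd_natCard a))
  have hn : partn (primesOf m)ᶜ (Nat.card G) = n := partn_eq Nat.card_pos.ne' (hmn.trans (mul_comm _ _))
    (coprime_pi'.1 hcop) (by rw [compl_compl]; exact pnat_pi m)
  have e : ϑ = secF (primesOf m) g := funext fun x => by
    unfold secF
    split_ifs with h
    · rw [hn]
      refine hϑ1 x ⟨_, h, _, (consttC _ x).symm, commute_constt_constt _ _ (Commute.refl x), ?_,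
        (coprime_pi'.2 (p_elt_constt _ x)).symm⟩
      exact pnat_coprime (p_elt_constt _ x) (coprime_pi'.1 hcop)
    · refine hϑ0 x ?_
      rintro ⟨v, h1, u, rfl, h2, h3, h4⟩
      exact h (by rwa [(constt_eq h2 (hc u h3) (coprime_pi'.1 h4.symm)).2])
  refine ⟨fun χ => classInner ϑ χ, fun χ => ?_, ?_⟩
  · show IsIntegral ℤ (classInner ϑ χ)
    rw [e, ← dot_top]
    exact int_dot_secF (Irr_ZIrr (mem_Irr_top.2 χ.2))
  · rw [finsum_eq_sum_of_fintype]
    exact Char.IsClassFunction.eq_sum_irr (e ▸ fun a x => secF_inv x trivial a)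

end Cfsg.Agent.S0875
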