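import Cfsg.Statements.S0876
import Cfsg.Agent.Isa.I2
import Cfsg.Agent.Block.Vanish

set_option autoImplicit false
open Cfsg

namespace Cfsg.Agent.S0876

open Cfsg.Agent.PF Cfsg.Agent.PF.CH Cfsg.Agent.BG


/-- Let G be a finite group, p a prime and M a maximal ideal of the ring of algebraic integers containing p. Let x, y be elements with p-parts a and b (so a⁻¹ * x and b⁻¹ * y are their p-regular parts). Then a⁻¹ * x and b⁻¹ * y are conjugate in G if and only if, for every irreducible character χ, the difference χ x - χ y lies in the local ideal at M. -/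
theorem result {G : Type*} [Group G] [Finite G] (p : ℕ) (M : Ideal Cfsg.AlgInt) (hM : Cfsg.IsPModular p M) (x y a b : G) (ha : Cfsg.IsPPart p x a) (hb : Cfsg.IsPPart p y b) : IsConj (a⁻¹ * x) (b⁻¹ * y) ↔ ∀ χ : Cfsg.IrrCharacter G, Cfsg.MemLocalIdeal M ((χ : G → ℂ) x - (χ : G → ℂ) y) := by
  have : Block.PMod p M := ⟨hM⟩
  have hp := hM.1
  have := Fact.mk hp
  have := Fintype.ofFinite G
  have hc : ∀ {x a : G}, IsPPart p x a → constt {p}ᶜ x = a⁻¹ * x := by
    rintro _ a ⟨y, rfl, h1, h2, h3⟩
    rw [(constt_eq h1 ((p_natP hp).2 h2) ((p'natE hp).2 h3)).2, inv_mul_cancel_left]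
  simp only [fun χ : IrrCharacter G =>
    Block.memLocalIdeal_sub_iff (Block.irr_mem_O (M := M) χ x) (Block.irr_mem_O χ y)]
  refine ⟨fun h χ => ?_, fun h => by_contra fun h1 => ?_⟩
  · rw [Block.red_apply_eq_of_isPPart χ.2.isCharacter ha, Block.red_apply_eq_of_isPPart
      χ.2.isCharacter hb, χ.2.isClassFunction.apply_eq_of_isConj h]
  · have key (z : G) : Block.red M (secF {p} (b⁻¹ * y) z) = ∑ χ : IrrCharacter G,
        Block.red M (dot ⊤ (secF {p} (b⁻¹ * y)) χ) * Block.red M (χ.1 z) := by
      have h2 (χ : IrrCharacter G) := Block.mem_O_of_isIntegral (M := M)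
        (int_dot_secF (π := {p}) (g := b⁻¹ * y) (Irr_ZIrr (mem_Irr_top.2 χ.2)))
      rw [Char.IsClassFunction.apply_eq_sum_irr (fun a x => secF_inv x trivial a), Block.red_sum _
        fun χ _ => mul_mem (by rw [← dot_top]; exact h2 χ) (Block.irr_mem_O χ z)]
      exact Finset.sum_congr rfl fun χ _ => by
        rw [← dot_top, Block.red_mul (h2 χ) (Block.irr_mem_O χ z)]
    have h3 := key x
    simp only [h] at h3
    rw [← key, secF, secF, hc ha, hc hb, if_neg h1, if_pos (IsConj.refl _), Block.red_zero] at h3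
    exact Block.red_natCast_ne_zero ((p'natE hp).1 (partn_pnat _ _)) h3.symm

end Cfsg.Agent.S0876
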