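import Cfsg.Statements.S0878
import Cfsg.Agent.Perm.ZassInv

set_option autoImplicit false
open Cfsg

namespace Cfsg.Agent.S0878

open MulAction Perm

/-- Let G be a Zassenhaus group on the finite set Ω, a a point, and let H be the subgroup of the stabilizer of a consisting of the identity and the elements fixing no point other than a (given here as a subgroup of the stabilizer of order one less than the number of points whose non-identity elements fix only a; it is the Frobenius kernel of the stabilizer). Then an element outside the stabilizer of a conjugates no non-identity element of H into H, and the normalizer of H is exactly the stabilizer of a. -/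
theorem result {G Ω : Type*} [Group G] [Finite G] [MulAction G Ω] [Fintype Ω] (hZ : Cfsg.IsZassenhausGroup G Ω) (a : Ω) (H : Subgroup G) (hHa : H ≤ MulAction.stabilizer G a) (hHcard : Nat.card H + 1 = Fintype.card Ω) (hHfix : ∀ u ∈ H, u ≠ 1 → ∀ c : Ω, u • c = c → c = a) : (∀ g : G, g ∉ MulAction.stabilizer G a → ∀ u ∈ H, g * u * g⁻¹ ∈ H → u = 1) ∧ Subgroup.normalizer (H : Set G) = MulAction.stabilizer G a := by
  haveI := Fintype.ofFinite G
  obtain ⟨b, hab⟩ : ∃ b, a ≠ b := by
    obtain ⟨-, -, x, y, hxy, -⟩ := hZ.2.2.2.1
    by_contra! h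
    exact hxy ((h x).symm.trans (h y))
  have hF := Zass.mem_kernel_iff_of_card hZ hab hHa hHcard hHfix
  have key : ∀ g : G, g ∉ stabilizer G a → ∀ u ∈ H, g * u * g⁻¹ ∈ H → u = 1 := fun g hg u hu h =>
    by_contra fun h1 => hg (hHfix _ h (by simpa using h1) (g • a)
      (by simp [mul_smul, show u • a = a from hHa hu]))
  obtain ⟨F, hF', ht, hn⟩ := Zass.exists_kernel hZ a
  obtain rfl : H = F := Subgroup.ext fun u => (hF u).trans (hF' u).symm
  refine ⟨key, le_antisymm (fun g hg => by_contra fun h => ?_) fun g hg =>
    Subgroup.mem_normalizer_iff.2 fun u => ⟨hn g hg u, fun h => by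
      simpa [mul_assoc] using hn g⁻¹ (inv_mem hg) _ h⟩⟩
  obtain ⟨c, hca, hcb⟩ := Zass.exists_third hZ hab
  obtain ⟨u, hu, e⟩ := ht b c hab.symm hca
  rw [key g h u hu ((Subgroup.mem_normalizer_iff.1 hg u).1 hu), one_smul] at e
  exact hcb e.symm

end Cfsg.Agent.S0878
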