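import Cfsg.Statements.S0880
import Cfsg.Agent.Perm.ZassInv

set_option autoImplicit false
open Cfsg

namespace Cfsg.Agent.S0880

open MulAction Perm Finset

/-- Let G be a finite simple Zassenhaus group on Ω with n points whose two-point stabilizer E has odd order less than n - 2. Then there are two elements of G, each fixing no point of Ω, that are not conjugate. -/
theorem result {G Ω : Type*} [Group G] [Finite G] [MulAction G Ω] [Fintype Ω] (hZ : Cfsg.IsZassenhausGroup G Ω) {a b : Ω} (hab : a ≠ b) [IsSimpleGroup G] (hodd : Odd (Nat.card ↥(MulAction.stabilizer G a ⊓ MulAction.stabilizer G b : Subgroup G))) (hlt : Nat.card ↥(MulAction.stabilizer G a ⊓ MulAction.stabilizer G b : Subgroup G) < Fintype.card Ω - 2) : ∃ x y : G, (∀ c : Ω, x • c ≠ c) ∧ (∀ c : Ω, y • c ≠ c) ∧ ¬ IsConj x y := by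
  classical
  haveI := Fintype.ofFinite G
  have h1 := Zass.card_fpf hZ hab
  have h2 := Zass.card_eq hZ hab
  have h3 := (Zass.card_dvd hZ hab).2
  have h4 := (Subgroup.one_lt_card_iff_ne_bot _).2 (Zass.stab_ne_bot hZ hab)
  rw [← Nat.card_eq_fintype_card] at hlt
  obtain ⟨j, hj⟩ := hodd
  obtain ⟨m, hm⟩ := Nat.exists_eq_add_of_le' h3
  rw [hm, hj] at h2
  rw [hm, h2] at h1
  simp only [Nat.add_succ_sub_one] at h1 h2
  have h5 : #{g : G | ∀ x : Ω, g • x ≠ x} = (m + 2) * ((m + 3) * j + 1) := by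
    have : m + 3 - 2 = m + 1 := rfl
    rw [this] at h1
    nlinarith
  obtain ⟨x, hx⟩ := card_pos.1 (h5 ▸ by positivity : 0 < #{g : G | ∀ x : Ω, g • x ≠ x})
  by_contra! hc
  have h6 := Invol.card_class_mul_card_centralizer x
  rw [Nat.card_eq_fintype_card (α := {y // IsConj x y}), Fintype.card_subtype,
    filter_congr (q := fun g : G => ∀ x : Ω, g • x ≠ x) fun y _ =>
      ⟨fun h c e => by
        obtain ⟨k, rfl⟩ := isConj_iff.1 h
        exact (mem_filter.1 hx).2 (k⁻¹ • c) (by simpa [mul_smul, smul_eq_iff_eq_inv_smul k] using e),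
      hc x y (mem_filter.1 hx).2⟩, h5, h2, mul_comm (m + 3) (m + 2), mul_assoc, mul_assoc,
    Nat.mul_right_inj (by omega)] at h6
  have h7 := Nat.le_of_dvd (by omega) (Nat.Coprime.dvd_of_dvd_mul_left (by simp) (Dvd.intro _ h6))
  have : 1 ≤ j := by omega
  nlinarith

end Cfsg.Agent.S0880
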