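import Cfsg.Statements.S0882
import Cfsg.Agent.Perm.ZassInv

set_option autoImplicit false
open Cfsg

namespace Cfsg.Agent.S0882

open MulAction Perm Finset

/-- Let G be a finite simple Zassenhaus group on Ω with n = h + 1 points whose two-point stabilizer E has odd order e with 2e < h - 1. Then any two involutions of G are conjugate, and the number of involutions is e * (h + 1) if h is even and e * h if h is odd. -/
theorem result {G Ω : Type*} [Group G] [Finite G] [MulAction G Ω] [Fintype Ω] (hZ : Cfsg.IsZassenhausGroup G Ω) {a b : Ω} (hab : a ≠ b) [IsSimpleGroup G] (h e : ℕ) (hh : Fintype.card Ω = h + 1) (he : Nat.card ↥(MulAction.stabilizer G a ⊓ MulAction.stabilizer G b : Subgroup G) = e) (hodd : Odd e) (hlt : 2 * e < h - 1) : (∀ x y : G, orderOf x = 2 → orderOf y = 2 → IsConj x y) ∧ Nat.card {x : G // orderOf x = 2} = (if Even h then e * (h + 1) else e * h) := by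
  classical
  haveI := Fintype.ofFinite G
  haveI := Fact.mk Nat.prime_two
  subst he
  have e : ∀ x : G, orderOf x = 2 ↔ x * x = 1 ∧ x ≠ 1 := fun x => by rw [orderOf_eq_prime_iff, sq]
  refine ⟨fun x y hx hy => Zass.isConj_of_invol hZ hab hodd ((e x).1 hx).1 ((e x).1 hx).2
    ((e y).1 hy).1 ((e y).1 hy).2, ?_⟩
  have := Zass.card_invol hZ hab hodd
  rw [Nat.card_eq_fintype_card (α := Ω), hh] at this
  rw [Nat.card_eq_fintype_card, Fintype.card_subtype, filter_congr fun x _ => e x]
  refine Eq.trans (by congr) (this.trans ?_)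
  by_cases h2 : Even h <;> simp [h2, mul_comm, Nat.even_add_one]

end Cfsg.Agent.S0882
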