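import Cfsg.Statements.S0892
import Cfsg.Agent.Schur.Alt

set_option autoImplicit false
open Cfsg

namespace Cfsg.Agent.S0892

/-- Let n ≥ 4 with n ≠ 6 and n ≠ 7, and let Γ be a finite group with a subgroup Z contained in both the centre and the commutator subgroup of Γ such that Γ / Z is isomorphic to the alternating group on n letters. Then Z has order at most 2. -/
theorem result (n : ℕ) (hn : 4 ≤ n) (h6 : n ≠ 6) (h7 : n ≠ 7) {Γ : Type*} [Group Γ] [Finite Γ] (Z : Subgroup Γ) [Z.Normal] (hZc : Z ≤ Subgroup.center Γ) (hZd : Z ≤ commutator Γ) (e : Γ ⧸ Z ≃* alternatingGroup (Fin n)) : Nat.card Z ≤ 2 := by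
  have k : ((alternatingGroup (Fin n)).subtype.comp (e.toMonoidHom.comp (QuotientGroup.mk' Z))).ker = Z := by
    ext g; simp [MonoidHom.mem_ker]
  rw [← k] at hZc hZd ⊢
  refine Schur.alt_ker_le_two hZc ?_ hZd (by simp; omega)
  rw [MonoidHom.range_comp, MonoidHom.range_eq_top.2 (e.surjective.comp (QuotientGroup.mk'_surjective Z)),
    ← MonoidHom.range_eq_map, Subgroup.range_subtype]

end Cfsg.Agent.S0892
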