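import Cfsg.Statements.S0893
import Cfsg.Agent.CharDeep.Clifford

set_option autoImplicit false
open Cfsg

namespace Cfsg.Agent.S0893

open Cfsg.Agent.Char Cfsg.Agent.CharDeep Subgroup
open scoped commutatorElement

theorem conj_mul {P : Type*} [Group P] {p : ℕ} [Fact p.Prime] (hP : IsExtraspecial p P) {x z : P} (hx : x ∉ center P)
    (hz : z ∈ center P) : IsConj x (z * x) := by
  obtain ⟨y, hy⟩ := not_forall.1 (mt mem_center_iff.2 hx)
  have hc : ⁅y, x⁆ ∈ center P := hP.1.2.2 ▸ commutator_mem_commutator (mem_top _) (mem_top _)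
  obtain ⟨k, hk⟩ := mem_powers_of_prime_card hP.2 (g := ⟨_, hc⟩) (g' := ⟨z, hz⟩)
    (fun e => hy (commutatorElement_eq_one_iff_mul_comm.1 (congrArg Subtype.val e)))
  obtain rfl : ⁅y, x⁆ ^ k = z := congrArg Subtype.val hk
  clear hk hz
  induction k with
  | zero => rw [pow_zero, one_mul]
  | succ k ih =>
    refine ih.trans (isConj_iff.2 ⟨y, ?_⟩)
    rw [← mul_assoc, mem_center_iff.1 (pow_mem hc k) y, pow_succ, commutatorElement_def]
    group

theorem inner_eq {P : Type*} [Group P] [Fintype P] {θ : P → ℂ} (h : ∀ x ∉ center P, θ x = 0) {c : ℝ} (h' : ∀ x ∈ center P, ‖θ x‖ = c) :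
    Nat.card P * classInner θ θ = Nat.card (center P) * c ^ 2 := by
  classical
  rw [card_mul_classInner, ← Finset.sum_subset (Finset.filter_subset (· ∈ center P) _) (by simp +contextual [h]),
    Finset.sum_congr rfl fun x hx => (Complex.mul_conj' _).trans (by rw [h' x (Finset.mem_filter.1 hx).2])]
  simp [Fintype.card_subtype]

/-- Let P be an extraspecial p-group of order p ^ (2 * n + 1), A an abelian subgroup of order p ^ (n + 1), and λ a character of A of degree 1 that is not identically 1 on the elements of A lying in the centre of P. Then the function induced from λ to P is an irreducible character of P and vanishes at every element outside the centre. -/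
theorem result {P : Type*} [Group P] [Fintype P] (p n : ℕ) [Fact p.Prime] (hP : Cfsg.IsExtraspecial p P) (hcard : Nat.card P = p ^ (2 * n + 1)) (A : Subgroup P) (hab : ∀ a ∈ A, ∀ b ∈ A, a * b = b * a) (hA : Nat.card A = p ^ (n + 1)) (lam : A → ℂ) (hlam : Cfsg.IsCharacter A lam ∧ lam 1 = 1) (hZ : ∃ a : A, (a : P) ∈ Subgroup.center P ∧ lam a ≠ 1) : Cfsg.IsIrrCharacter P (Cfsg.indFun A lam) ∧ ∀ x : P, x ∉ Subgroup.center P → Cfsg.indFun A lam x = 0 := by
  classical
  obtain ⟨a, ha, h1⟩ := hZ
  have m := hlam.1.map_mul_of_apply_one hlam.2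
  have z : ∀ x : P, x ∉ center P → indFun A lam x = 0 := fun x hx => by
    have : indFun A lam (a * x) = lam a * indFun A lam x := by
      rw [indFun_apply, indFun_apply, mul_left_comm, Finset.mul_sum _ _ (lam a)]
      refine congrArg _ (Finset.sum_congr rfl fun y _ => ?_)
      rw [← mul_assoc, mem_center_iff.1 ha, mul_assoc, mul_assoc, ← mul_assoc y⁻¹, extendByZero_apply, extendByZero_apply]
      by_cases h : y⁻¹ * x * y ∈ A
      · rw [dif_pos h, dif_pos (mul_mem a.2 h), ← m]; rfl
      · rw [dif_neg h, dif_neg (mt (mul_mem_cancel_left a.2).1 h), mul_zero]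
    rw [← (indFun_isClassFunction A lam).apply_eq_of_isConj (conj_mul hP hx ha), ← sub_eq_zero, ← one_sub_mul] at this
    exact (mul_eq_zero.1 this).resolve_left (sub_ne_zero.2 (Ne.symm h1))
  refine ⟨(isCharacter_indFun A hlam.1).isIrrCharacter_of_classInner_self ?_, z⟩
  have hp := (Fact.out : p.Prime).pos
  have i : A.index = p ^ n := Nat.eq_of_mul_eq_mul_left (pow_pos hp (n + 1)) (by rw [← hA, card_mul_index, hcard, hA]; ring)
  have := inner_eq z (c := p ^ n) fun x hx => by
    have : x ∈ A := by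
      obtain ⟨k, hk⟩ := mem_powers_of_prime_card hP.2 (g := ⟨_, ha⟩) (g' := ⟨x, hx⟩)
        (fun e => h1 (by rw [← hlam.2]; exact congrArg _ (Subtype.ext (congrArg Subtype.val e :))))
      exact (show a.1 ^ k = x from congrArg Subtype.val hk) ▸ pow_mem a.2 k
    obtain ⟨l, rfl⟩ := hlam.1.exists_hom_of_apply_one hlam.2
    have n1 : ‖(l ⟨x, this⟩ : ℂ)‖ = 1 := Complex.norm_eq_one_of_pow_eq_one (by rw [← Units.val_pow_eq_pow_val, ← map_pow,
      pow_card_eq_one', map_one, Units.val_one]) Nat.card_pos.ne'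
    simp [indFun_apply, mul_assoc, ← mem_center_iff.1 hx, extendByZero_of_mem _ _ this, n1, Fintype.card_eq_nat_card,
      ← A.card_mul_index, i, -Nat.card_eq_fintype_card, Nat.card_pos.ne']
  rw [hcard, hP.2] at this
  exact mul_left_cancel₀ (by simp [hp.ne']) (this.trans (by push_cast; ring))

end Cfsg.Agent.S0893
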