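import Cfsg.Statements.S0894
import Cfsg.Agent.S0893
import Cfsg.Agent.PGrp.ES
import Cfsg.Agent.Char.Misc
import Cfsg.Agent.Char.Second

set_option autoImplicit false
open Cfsg

namespace Cfsg.Agent.S0894

open Cfsg.Agent.Char Subgroup

/-- Let P be an extraspecial p-group of order p ^ (2 * n + 1). Then every irreducible character of P has degree 1 or p ^ n, and exactly p - 1 of them have degree p ^ n. -/
theorem result {P : Type*} [Group P] [Finite P] (p n : ℕ) [Fact p.Prime] (hP : Cfsg.IsExtraspecial p P) (hcard : Nat.card P = p ^ (2 * n + 1)) : (∀ χ : Cfsg.IrrCharacter P, (χ : P → ℂ) 1 = 1 ∨ (χ : P → ℂ) 1 = (p : ℂ) ^ n) ∧ Nat.card {χ : Cfsg.IrrCharacter P // (χ : P → ℂ) 1 = (p : ℂ) ^ n} = p - 1 := by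
  classical
  have := Fintype.ofFinite P
  have hp := (Fact.out : p.Prime)
  have a : ∀ χ : IrrCharacter P, χ.1 1 = 1 ∨ χ.1 1 = (p : ℂ) ^ n := fun χ => or_iff_not_imp_left.2 fun h => by
    obtain ⟨d, hd⟩ := χ.2.isCharacter.exists_nat_apply_one
    have := S0893.inner_eq (θ := χ.1) (c := d) (fun x hx => χ.2.apply_eq_zero_of_coset_conj (center P)
      (by simpa [χ.2.apply_one_eq_one_iff, hP.1.2.2] using h) fun z hz => mem_center_iff.1 hz x ▸ S0893.conj_mul hP hx hz)
      fun x hx => by rw [χ.2.isCharacter.mem_charCenter.1 (χ.2.center_le_charCenter hx), hd, Complex.norm_natCast]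
    rw [χ.2.classInner_self, hcard, hP.2, mul_one] at this
    have : p * (p ^ n) ^ 2 = p * d ^ 2 := by rw [← pow_mul, ← pow_succ', mul_comm n]; exact_mod_cast this
    rw [hd, ← Nat.pow_left_injective two_ne_zero (Nat.eq_of_mul_eq_mul_left hp.pos this), Nat.cast_pow]
  refine ⟨a, ?_⟩
  have i : (commutator P).index = p ^ (2 * n) := Nat.eq_of_mul_eq_mul_left hp.pos (by
    rw [← pow_succ', ← hcard, ← (commutator P).card_mul_index, hP.1.2.2, hP.2])
  have n1 : (p : ℂ) ^ n ≠ 1 := by
    obtain ⟨m, hm⟩ := PGrp.ES_card hP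
    have := Nat.pow_right_injective hp.two_le (hm.symm.trans hcard)
    exact_mod_cast (Nat.one_lt_pow (by omega) hp.one_lt).ne'
  have s := sum_irr_degree_sq (G := P)
  rw [← Finset.sum_filter_add_sum_filter_not _ fun χ : IrrCharacter P => χ.1 1 = 1, Finset.sum_congr rfl fun χ h => by
    rw [(Finset.mem_filter.1 h).2], Finset.sum_const, Finset.sum_congr rfl fun χ h => by
    rw [(a χ).resolve_left (Finset.mem_filter.1 h).2], Finset.sum_const, ← Nat.subtype_card (p := fun χ : IrrCharacter P => χ.1 1 = 1) _ (by simp),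
    card_linear_irr, i, hcard, ← Nat.subtype_card (p := fun χ : IrrCharacter P => χ.1 1 = (p : ℂ) ^ n) _ fun χ => by
      have := a χ; grind] at s
  refine Nat.eq_sub_of_add_eq (Nat.eq_of_mul_eq_mul_left (pow_pos hp.pos (2 * n)) (Nat.cast_injective (R := ℂ) ?_))
  rw [← pow_succ, ← s]
  simp; ring

end Cfsg.Agent.S0894
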