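import Cfsg.Statements.S0897
import Cfsg.Agent.Isa.I1

set_option autoImplicit false
open Cfsg

namespace Cfsg.Agent.S0897

open Cfsg.Agent.PF Cfsg.Agent.PF.CH Cfsg.Agent.BG


/-- Let N be a normal subgroup of the finite group G with the index of N a power of the prime p, and P a Sylow p-subgroup of G such that P ⊓ N lies in the centre of P and every character of degree 1 of P ⊓ N is the restriction of a character of degree 1 of P. Then every irreducible character of N invariant under conjugation by G is the restriction of an irreducible character of G. -/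
theorem result {G : Type*} [Group G] [Fintype G] (p : ℕ) [Fact p.Prime] (N : Subgroup G) [hN : N.Normal] (hind : ∃ k : ℕ, N.index = p ^ k) (P : Sylow p G) (hcent : ∀ x ∈ (P : Subgroup G) ⊓ N, ∀ y ∈ (P : Subgroup G), x * y = y * x) (hlin : ∀ lam : ↥((P : Subgroup G) ⊓ N) → ℂ, Cfsg.IsCharacter ↥((P : Subgroup G) ⊓ N) lam → lam 1 = 1 → ∃ μ : ↥(P : Subgroup G) → ℂ, Cfsg.IsCharacter ↥(P : Subgroup G) μ ∧ μ 1 = 1 ∧ ∀ x : ↥((P : Subgroup G) ⊓ N), μ ⟨(x : G), x.2.1⟩ = lam x) (ϑ : N → ℂ) (hϑ : Cfsg.IsIrrCharacter N ϑ) (hinv : ∀ (g : G) (n : N), ϑ ⟨g * n * g⁻¹, hN.conj_mem (n : G) n.2 g⟩ = ϑ n) : ∃ χ : G → ℂ, Cfsg.IsIrrCharacter G χ ∧ ∀ n : N, χ n = ϑ n := by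
  have hp : p.Prime := Fact.out
  have hab : IsMulCommutative ↥((P : Subgroup G) ⊓ N) :=
    abelian_of_cent (le_cent_iff.2 fun a ha b hb => hcent a ha b hb.1)
  obtain ⟨χ, hχ, e⟩ := exts_of_dade hp ((p_natP hp).2 hind) (sylowIn_top P) hab (fun l hl => by
    obtain ⟨μ, h1, h2, h3⟩ := hlin (fun x => l x) (Irr_isChar hl).2 (Irr_apply_one_of_comm hl hab)
    refine ⟨ext _ μ, ext_mem_Irr.2 (Char.IsCharacter.isIrrCharacter_of_apply_one h1 h2),
      CF_ext (Res_mem_CF_of_le inf_le_left (isChar_extendByZero.2 h1).mem_CF) (Irr_CF hl)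
        fun g hg => ?_⟩
    rw [Res_of_mem _ hg, ext_of_mem _ hg.1]
    exact h3 ⟨g, hg⟩) (mem_IrrFix.2
    ⟨ext_mem_Irr.2 hϑ, fun g _ => (mem_inertia_ext ϑ g).2 (hinv g)⟩)
  exact ⟨χ, mem_Irr_top.1 hχ, fun n => by simpa using congrFun e n⟩

end Cfsg.Agent.S0897
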