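import Cfsg.Statements.S0898
import Cfsg.Agent.CharDeep.FTI

set_option autoImplicit false
open Cfsg

namespace Cfsg.Agent.S0898

/-- Let H be an abelian subgroup of the finite group G meeting the centre of G trivially, such that for every non-central g the centralizer of g has nontrivial intersection with at most one conjugate of H. Let χ be an irreducible character of G with χ h ≠ χ 1 for some h in H, and let c be the inner product of the restriction of χ to H with the principal character. Then χ(1)² > (order of H)·c²; and if in addition χ 1 ≠ 1 and no proper normal subgroup of G contains H, then (1 + χ 1)² > order of H (both sides read as real numbers). -/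
theorem result {G : Type*} [Group G] [Fintype G] (H : Subgroup G) [Fintype H] (hab : ∀ a ∈ H, ∀ b ∈ H, a * b = b * a) (hZ : H ⊓ Subgroup.center G = ⊥) (hone : ∀ g : G, g ∉ Subgroup.center G → ∀ a b : G, Subgroup.centralizer ({g} : Set G) ⊓ H.map (MulAut.conj a).toMonoidHom ≠ ⊥ → Subgroup.centralizer ({g} : Set G) ⊓ H.map (MulAut.conj b).toMonoidHom ≠ ⊥ → H.map (MulAut.conj a).toMonoidHom = H.map (MulAut.conj b).toMonoidHom) (χ : G → ℂ) (hχ : Cfsg.IsIrrCharacter G χ) (hker : ∃ h ∈ H, χ h ≠ χ 1) : (χ 1).re ^ 2 > (Nat.card H : ℝ) * (Cfsg.classInner (fun h : H => χ h) (fun _ => 1)).re ^ 2 ∧ (χ 1 ≠ 1 → (∀ M : Subgroup G, M.Normal → H ≤ M → M = ⊤) → (1 + (χ 1).re) ^ 2 > (Nat.card H : ℝ)) := by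
  have hH : CharDeep.FTI H := ⟨hab, fun h hh hz => Subgroup.mem_bot.1 (hZ ▸ ⟨hh, hz⟩),
    fun g hg a h hh h1 k hk k1 e e' => by
      have := hone g hg 1 a (fun hb => h1 (Subgroup.mem_bot.1 (hb ▸
        ⟨Subgroup.mem_centralizer_singleton_iff.2 e, h, hh, by simp⟩)))
        fun hb => k1 (by
          simpa using (Subgroup.eq_bot_iff_forall _).1 hb (a * k * a⁻¹)
            ⟨Subgroup.mem_centralizer_singleton_iff.2 e', k, hk, rfl⟩)
      refine Subgroup.mem_normalizer_iff_map_conj_eq.2 (this.symm.trans ?_)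
      ext x
      simp⟩
  exact ⟨CharDeep.fti_a hH hχ hker, CharDeep.fti_b hH hχ⟩

end Cfsg.Agent.S0898
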