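import Cfsg.Statements.S0899
import Cfsg.Agent.CH.FTB

set_option autoImplicit false
open Cfsg

namespace Cfsg.Agent.S0899

open Cfsg.Agent.BG Cfsg.Agent.Char

/-- Let G be a finite group with a faithful complex representation of degree n (on Fin n → ℂ) and p a prime. Suppose either that (n + 1) ^ 2 ≤ p, or that n + 1 < p and every subgroup of G whose order is not divisible by p ^ 2 has a normal Sylow p-subgroup. Then every Sylow p-subgroup of G is normal. -/
theorem result {G : Type*} [Group G] [Finite G] (n : ℕ) (ρ : Representation ℂ G (Fin n → ℂ)) (hρ : Function.Injective ρ) (p : ℕ) [Fact p.Prime] (h : (n + 1) ^ 2 ≤ p ∨ (n + 1 < p ∧ ∀ K : Subgroup G, ¬ p ^ 2 ∣ Nat.card K → ∀ Q : Sylow p K, (Q : Subgroup K).Normal)) (P : Sylow p G) : (P : Subgroup G).Normal := by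
  have hp : p.Prime := Fact.out
  have hd : charDegree ρ.character = n := by simp [charDegree_character]
  have h2 := hp.two_le
  have h1 : n + 1 < p := h.elim (fun h => by nlinarith) And.left
  refine CH.ftb (isCharacter_character ρ) (fun g hg => ?_) (by rwa [hd]) (fun K Q hQ hc => ?_)
    (sylowIn_top P)
  · exact hρ (((character_eq_char_one_iff ρ g).1 hg).trans (map_one ρ).symm)
  rw [hd, card_Sylow hQ] at hc
  rcases h with h | ⟨-, h⟩
  · have := card_Sylow hQ
    rw [show (#K).factorization p = 0 from Nat.lt_one_iff.1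
      ((Nat.pow_lt_pow_iff_right h2).1 (by simpa using hc.trans_le h)), pow_zero] at this
    exact Subgroup.card_eq_one.1 this ▸ normal_bot K
  · obtain ⟨R, rfl⟩ := sylow_of_sylowIn hQ
    refine normal_map_subtype (h K (fun e => ?_) R)
    have := Nat.pow_le_pow_right hp.pos ((hp.pow_dvd_iff_le_factorization Nat.card_pos.ne').1 e)
    nlinarith

end Cfsg.Agent.S0899
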