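import Cfsg.Statements.S0900
import Cfsg.Agent.Isa.I1

set_option autoImplicit false
open Cfsg

namespace Cfsg.Agent.S0900

open Cfsg.Agent.PF Cfsg.Agent.PF.CH Cfsg.Agent.BG


/-- Let N be a normal subgroup of the finite group G, χ an irreducible character of G and ϑ an irreducible character of N having nonzero inner product with the restriction of χ. Consider: (a) the restriction of χ to N is e • ϑ for a natural number e with e ^ 2 equal to the index of N; (b) χ vanishes outside N and ϑ is invariant under conjugation by G; (c) ϑ is invariant and every irreducible character of G having nonzero inner product with the function induced from ϑ equals χ. Then (a) ↔ (b) and (a) ↔ (c). -/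
theorem result {G : Type*} [Group G] [Fintype G] (N : Subgroup G) [hN : N.Normal] [Fintype N] (χ : G → ℂ) (hχ : Cfsg.IsIrrCharacter G χ) (ϑ : N → ℂ) (hϑ : Cfsg.IsIrrCharacter N ϑ) (hcon : Cfsg.classInner (fun n : N => χ n) ϑ ≠ 0) : ((∃ e : ℕ, (fun n : N => χ n) = (e : ℂ) • ϑ ∧ e ^ 2 = N.index) ↔ ((∀ g : G, g ∉ N → χ g = 0) ∧ ∀ (g : G) (n : N), ϑ ⟨g * n * g⁻¹, hN.conj_mem (n : G) n.2 g⟩ = ϑ n)) ∧ ((∃ e : ℕ, (fun n : N => χ n) = (e : ℂ) • ϑ ∧ e ^ 2 = N.index) ↔ (∀ (g : G) (n : N), ϑ ⟨g * n * g⁻¹, hN.conj_mem (n : G) n.2 g⟩ = ϑ n ∧ ∀ ψ : G → ℂ, Cfsg.IsIrrCharacter G ψ → Cfsg.classInner (Cfsg.indFun N ϑ) ψ ≠ 0 → ψ = χ)) := by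
  have hθ := ext_mem_Irr.2 hϑ
  have hχ' := mem_Irr_top.2 hχ
  have hd : dot N χ (ext N ϑ) ≠ 0 := by rw [dot_eq_classInner]; simpa using hcon
  have ha : (∃ e : ℕ, (fun n : N => χ n) = (e : ℂ) • ϑ ∧ e ^ 2 = N.index) ↔
      ∃ e : ℕ, FR N ⊤ (ext N ϑ) e := by
    constructor
    · rintro ⟨e, h1, h2⟩
      exact ⟨e, (sq_le_of_res le_top hθ hχ' (by
        rw [Res_eq_extendByZero, h1, ← map_smul]; rfl)).2 (by rwa [Subgroup.relIndex_top_right])⟩
    · rintro ⟨e, h⟩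
      exact ⟨e, by rw [h.uniq hχ' hd]; ext n; simp, by rw [h.sq, Subgroup.relIndex_top_right]⟩
  rw [ha]
  refine ⟨⟨fun ⟨e, h⟩ => ⟨fun g hg => by rw [h.uniq hχ' hd]; simp [ext_of_not_mem _ hg],
    fun g => (mem_inertia_ext ϑ g).1 (h.inv trivial)⟩, fun ⟨h1, h2⟩ => ?_⟩,
    fun ⟨e, h⟩ g n => ⟨(mem_inertia_ext ϑ g).1 (h.inv trivial) n, fun ψ hψ h1 => ?_⟩, fun h => ?_⟩
  · obtain ⟨e, h, -⟩ := fr_of_vo (normal_top N) hχ' (vo_le h1) hθ hd
      fun g _ => (mem_inertia_ext ϑ g).2 (h2 g)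
    exact ⟨e, h⟩
  · rw [← Ind_ext, ← dot_top, dot_Ind_ne_zero le_top (CF_inv (Irr_CF (mem_Irr_top.2 hψ)))] at h1
    rw [h.uniq hχ' hd, h.uniq (mem_Irr_top.2 hψ) h1]
  · have hi : ⊤ ≤ inertia (ext N ϑ) := fun g _ => (mem_inertia_ext ϑ g).2 fun n => (h g n).1
    obtain ⟨e, h0, h1, h2⟩ := res_eq_smul (normal_top N) hθ hi hχ' hd
    have h3 := CF_eq_sum_of_subset (Ind_mem_CF (φ := ext N ϑ) le_top) (s := {χ}) (by simpa)
      fun ψ hψ h3 => by_contra fun h4 => h3 (Finset.mem_singleton.2 ((h 1 1).2 ψ (mem_Irr_top.1 hψ)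
        (by rwa [← Ind_ext, ← dot_top])))
    refine ⟨e, (sq_le_of_res le_top hθ hχ' h2).2 ?_⟩
    have h4 := congrFun h3 1
    have h5 := congrFun h2 1
    rw [Res_one_apply] at h5
    rw [Finset.sum_singleton, Ind_apply_one le_top, Pi.smul_apply, dot_Ind_left le_top
      (CF_inv (Irr_CF hχ')), ← conj_dot, h1, h5, map_natCast, Pi.smul_apply, smul_eq_mul,
      smul_eq_mul, ← mul_assoc] at h4
    rw [sq]
    exact_mod_cast (mul_right_cancel₀ (Irr_apply_one_ne_zero hθ) h4).symm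

end Cfsg.Agent.S0900
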