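import Cfsg.Statements.S0901
import Cfsg.Agent.Block.Count

set_option autoImplicit false
open Cfsg

namespace Cfsg.Agent.S0901

open Cfsg.Agent.Block Cfsg.Agent.BMod Cfsg.Agent.Char MonoidAlgebra


/-- Let M be a maximal ideal of the ring of algebraic integers containing the prime p, and let U be the set of complex roots of unity of order prime to p. Then reduction modulo M is injective on U, and every algebraic integer not in M is congruent modulo M to an element of U (so U maps bijectively onto the nonzero residues). -/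
theorem result (p : ℕ) [Fact p.Prime] (M : Ideal Cfsg.AlgInt) (hM : Cfsg.IsPModular p M) : (∀ ε₁ ε₂ : Cfsg.AlgInt, (∃ m : ℕ, ¬ p ∣ m ∧ (ε₁ : ℂ) ^ m = 1) → (∃ m : ℕ, ¬ p ∣ m ∧ (ε₂ : ℂ) ^ m = 1) → ε₁ - ε₂ ∈ M → ε₁ = ε₂) ∧ (∀ a : Cfsg.AlgInt, a ∉ M → ∃ ε : Cfsg.AlgInt, (∃ m : ℕ, ¬ p ∣ m ∧ (ε : ℂ) ^ m = 1) ∧ a - ε ∈ M) := by
  have : PMod p M := ⟨hM⟩
  have key : ∀ a b : AlgInt, a - b ∈ M ↔ red M (a : ℂ) = red M (b : ℂ) := fun a b => by
    rw [← memLocalIdeal_algInt_iff, ← memLocalIdeal_sub_iff (algInt_mem_O M a) (algInt_mem_O M b)]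
    rfl
  refine ⟨?_, fun a ha => ?_⟩
  · rintro e f ⟨m, hm, he⟩ ⟨n, hn, hf⟩ h
    refine Subtype.ext (eq_of_red_eq_of_pow (M := M) (m := m * n) (fun h' => ?_) ?_ ?_ ((key _ _).1 h))
    · exact ((Fact.out : p.Prime).dvd_mul.1 h').elim hm hn
    · rw [pow_mul, he, one_pow]
    · rw [mul_comm, pow_mul, hf, one_pow]
  · have h0 : red M (a : ℂ) ≠ 0 := by
      rwa [Ne, red_eq_zero_iff (algInt_mem_O M a), memLocalIdeal_algInt_iff]
    obtain ⟨m, hm, h⟩ := exists_pow_eq_one_F h0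
    have hm0 : m ≠ 0 := by rintro rfl; exact hm (dvd_zero p)
    obtain ⟨z, hz, h'⟩ := exists_root_red_eq hm0 h
    exact ⟨⟨z, IsIntegral.of_pow (Nat.pos_of_ne_zero hm0) (hz ▸ isIntegral_one)⟩, ⟨m, hm, hz⟩,
      (key _ _).2 h'.symm⟩

end Cfsg.Agent.S0901
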