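import Cfsg.Statements.S0903
import Cfsg.Agent.Block.Galois

set_option autoImplicit false
open Cfsg

namespace Cfsg.Agent.S0903

open Cfsg.Agent.Block Cfsg.Agent.BMod Cfsg.Agent.Char MonoidAlgebra


/-- Let P be a p-subgroup of the finite group G, let c centralize P and let g, h ∈ G. The number of pairs (x, y) with x conjugate to g, y conjugate to h and x * y = c is congruent modulo p to the number of such pairs in which x and y both centralize P. (This is why the Brauer map on class sums is multiplicative.) -/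
theorem result {G : Type*} [Group G] [Finite G] (p : ℕ) [Fact p.Prime] (P : Subgroup G) (hP : IsPGroup p P) (c : G) (hc : c ∈ Subgroup.centralizer (P : Set G)) (g h : G) : Nat.card {xy : G × G // IsConj g xy.1 ∧ IsConj h xy.2 ∧ xy.1 * xy.2 = c} ≡ Nat.card {xy : G × G // IsConj g xy.1 ∧ IsConj h xy.2 ∧ xy.1 * xy.2 = c ∧ xy.1 ∈ Subgroup.centralizer (P : Set G) ∧ xy.2 ∈ Subgroup.centralizer (P : Set G)} [MOD p] := by
  classical
  have := Fintype.ofFinite G
  rw [← ZMod.natCast_eq_natCast_iff]
  have key : ∀ Q : G × G → Prop, (∀ xy, Q xy → xy.1 * xy.2 = c) →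
      (Nat.card {xy : G × G // Q xy} : ZMod p) = ∑ x, if Q (x, x⁻¹ * c) then 1 else 0 :=
    fun Q hQ => by
    rw [Nat.card_eq_fintype_card, Fintype.card_subtype, ← Finset.sum_boole, Fintype.sum_prod_type]
    refine Finset.sum_congr rfl fun x _ => Finset.sum_eq_single _ (fun y _ hy => if_neg fun h => ?_)
      (by simp)
    exact hy (by rw [← hQ _ h, inv_mul_cancel_left])
  rw [key _ fun _ h => h.2.2, key _ fun _ h => h.2.2.1,
    sum_conj_eq_sum_centralizer hP _ fun u hu x => ?_]
  · refine Finset.sum_congr rfl fun x _ => ?_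
    by_cases hx : x ∈ Subgroup.centralizer (P : Set G)
    · simp [hx, mul_mem (inv_mem hx) hc]
    · simp [hx]
  · have h1 : (u * x * u⁻¹)⁻¹ * c = u * (x⁻¹ * c) * u⁻¹ := by
      conv_lhs => rw [← mem_centralizer_iff'.1 hc u hu]
      group
    have h2 : ∀ a b : G, IsConj a (u * b * u⁻¹) ↔ IsConj a b := fun a b =>
      ⟨fun h => h.trans (isConj_iff.2 ⟨u, rfl⟩).symm, fun h => h.trans (isConj_iff.2 ⟨u, rfl⟩)⟩
    simp only [mul_inv_cancel_left]
    rw [h1]
    simp only [h2]

end Cfsg.Agent.S0903
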