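import Cfsg.Statements.S0905
import Cfsg.Agent.Block.Induce
import Cfsg.Agent.Solv.Core

set_option autoImplicit false
open Cfsg

namespace Cfsg.Agent.S0905

open Cfsg.Agent.Block Cfsg.Agent.BMod Cfsg.Agent.Char MonoidAlgebra


/-- Let F be a field of characteristic p and let g be an element of the finite group G no conjugate of which centralizes O_p(G). Then the class sum of g is a nilpotent element of the group algebra F[G]. -/
theorem result {G : Type*} [Group G] [Finite G] (p : ℕ) [Fact p.Prime] (F : Type*) [Field F] [CharP F p] (g : G) (hg : ∀ x : G, IsConj g x → x ∉ Subgroup.centralizer (Cfsg.pCore p G : Set G)) : IsNilpotent (∑ᶠ x ∈ ConjClasses.carrier (ConjClasses.mk g), MonoidAlgebra.single x (1 : F) : MonoidAlgebra F G) := by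
  classical
  have := Fintype.ofFinite G
  have h : (∑ᶠ x ∈ ConjClasses.carrier (ConjClasses.mk g), MonoidAlgebra.single x (1 : F) :
      MonoidAlgebra F G) = classSum F ⊤ g := by
    rw [finsum_mem_eq_toFinset_sum]
    ext h
    simp only [coeff_sum, Finsupp.finsetSum_apply, coeff_single, Finsupp.single_apply,
      coeff_classSum_top, Finset.sum_ite_eq', Set.mem_toFinset, ConjClasses.mem_carrier_iff_mk_eq,
      ConjClasses.mk_eq_mk_iff_isConj, isConj_comm]
    congr
  rw [h]
  refine isNilpotent_of_br (Solv.isPGroup_pCore p G) (center_mem_fix (classSum_mem_center g) _)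
    (supp_mono (Subgroup.normalizer_eq_top _).ge (mem_supp_top _)) (br_eq_zero_iff.2 fun x hx => ?_)
  rw [coeff_classSum_top, if_neg fun h => hg x h hx]

end Cfsg.Agent.S0905
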