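import Cfsg.Statements.S0911
import Cfsg.Agent.Block.Induce

set_option autoImplicit false
open Cfsg

namespace Cfsg.Agent.S0911

open Cfsg.Agent.Block Cfsg.Agent.BMod Cfsg.Agent.Char MonoidAlgebra


/-- The min–max Theorem for defect classes. Let B be a block of the finite group G relative to a maximal ideal M of the algebraic integers containing the prime p, let g represent a defect class of B and let D be a Sylow p-subgroup of the centralizer of g (viewed in G). For any h: (a) if the idempotent coefficient of B at h is a local integer outside the local ideal, then some conjugate of D contains a Sylow p-subgroup of the centralizer of h; (b) if the central character of some member of B at h is outside the local ideal, then some conjugate of D is contained in a Sylow p-subgroup of the centralizer of h. -/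
theorem result {G : Type*} [Group G] [Finite G] (p : ℕ) [Fact p.Prime] (M : Ideal Cfsg.AlgInt) (hM : Cfsg.IsPModular p M) (B : Set (Cfsg.IrrCharacter G)) (hB : Cfsg.IsPBlock M B) (g : G) (hg : Cfsg.IsDefectClass M B g) (D : Sylow p (Subgroup.centralizer ({g} : Set G))) (h : G) : (Cfsg.MemLocalRing M (Cfsg.blockCoeff B h) → ¬ Cfsg.MemLocalIdeal M (Cfsg.blockCoeff B h) → ∃ (x : G) (Q : Sylow p (Subgroup.centralizer ({h} : Set G))), (Q : Subgroup (Subgroup.centralizer ({h} : Set G))).map (Subgroup.centralizer ({h} : Set G)).subtype ≤ ((D : Subgroup (Subgroup.centralizer ({g} : Set G))).map (Subgroup.centralizer ({g} : Set G)).subtype).map (MulAut.conj x).toMonoidHom) ∧ ((∃ χ ∈ B, ¬ Cfsg.MemLocalIdeal M (Cfsg.centralChar (χ : G → ℂ) h)) → ∃ (x : G) (Q : Sylow p (Subgroup.centralizer ({h} : Set G))), ((D : Subgroup (Subgroup.centralizer ({g} : Set G))).map (Subgroup.centralizer ({g} : Set G)).subtype).map (MulAut.conj x).toMonoidHom ≤ (Q : Subgroup (Subgroup.centralizer ({h} : Set G))).map (Subgroup.centralizer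 ({h} : Set G)).subtype) := by
  classical
  have : PMod p M := ⟨hM⟩
  have hD := (isDefectGroup_iff_isDef hB).1 ⟨g, hg, D, rfl⟩
  refine ⟨fun h1 h2 => ?_, ?_⟩
  · obtain ⟨Q⟩ := (inferInstance : Nonempty (Sylow p (Subgroup.centralizer ({h} : Set G))))
    obtain ⟨k, -, hk⟩ := inI_iff.1 hD.inI h (by rw [coeff_eB]; exact red_ne_zero_iff.2 ⟨h1, h2⟩)
      ((Q : Subgroup _).map (Subgroup.subtype _)) (le_inf le_top (Subgroup.map_subtype_le _))
      (Q.isPGroup'.map _)
    exact ⟨k⁻¹, Q, sc_le_iff.1 hk⟩
  · rintro ⟨χ, hχ, h1⟩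
    have h2 := br_ne_zero_of_lam hB hχ hD.br_ne hD.pgroup (classSum_mem_center h)
      (by rw [lam_classSum χ.2]; exact red_ne_zero_iff.2 ⟨centralChar_mem_O χ.2 h, h1⟩)
    obtain ⟨c, hc, h3⟩ := br_ne_zero_iff.1 h2
    rw [coeff_classSum_top] at h3
    obtain ⟨k, rfl⟩ := isConj_iff.1 (by by_contra h4; exact h3 (if_neg h4) : IsConj h c)
    rw [← le_centralizer_singleton_iff, centralizer_singleton_conj, ← sc_le_sc_iff k⁻¹,
      sc_inv_sc] at hc
    obtain ⟨T, hT, hle⟩ := Transfer.exists_isSylowIn_ge (isPGroup_sc k⁻¹ hD.pgroup) hc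
    obtain ⟨Q, rfl⟩ := Transfer.isSylowIn_iff_exists_sylow.1 hT
    exact ⟨k⁻¹, Q, hle⟩

end Cfsg.Agent.S0911
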