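import Cfsg.Statements.S0914
import Cfsg.Agent.Block.Section

set_option autoImplicit false
open Cfsg

namespace Cfsg.Agent.S0914

open Cfsg.Agent.Block Cfsg.Agent.BMod Cfsg.Agent.Char MonoidAlgebra


/-- Let χ be an irreducible character of the finite group G, p a prime and M a maximal ideal of the algebraic integers containing p. Then p does not divide the integer (Nat.card G) / χ(1) if and only if the block of χ relative to M consists of χ alone. -/
theorem result {G : Type*} [Group G] [Finite G] (p : ℕ) [Fact p.Prime] (M : Ideal Cfsg.AlgInt) (hM : Cfsg.IsPModular p M) (χ : Cfsg.IrrCharacter G) : ¬ p ∣ Nat.card G / Cfsg.charDegree (χ : G → ℂ) ↔ Cfsg.blockOf M (χ : G → ℂ) = {χ} := by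
  have : PMod p M := ⟨hM⟩
  rw [blockOf_eq_singleton_iff (p := p)]
  obtain ⟨k, hk⟩ : charDegree (χ : G → ℂ) ∣ Nat.card G := χ.2.charDegree_dvd_card
  have h0 : charDegree (χ : G → ℂ) ≠ 0 := fun h => by
    rw [h, zero_mul] at hk; exact Nat.card_pos.ne' hk
  have h1 : k ≠ 0 := fun h => by
    rw [h, mul_zero] at hk; exact Nat.card_pos.ne' hk
  rw [hk, Nat.mul_div_cancel_left _ (Nat.pos_of_ne_zero h0), Nat.factorization_mul h0 h1,
    Finsupp.add_apply, left_eq_add, Nat.factorization_eq_zero_iff]
  have hp : p.Prime := Fact.out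
  simp [hp, h1]

end Cfsg.Agent.S0914
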