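import Cfsg.Statements.S0916
import Cfsg.Agent.Block.Galois

set_option autoImplicit false
open Cfsg

namespace Cfsg.Agent.S0916

open Cfsg.Agent.Block Cfsg.Agent.BMod Cfsg.Agent.Char MonoidAlgebra

lemma isSylowIn_iff {G : Type*} [Group G] [Finite G] {p : ℕ} [Fact p.Prime] {P H : Subgroup G} :
    (∃ S : Sylow p H, (S : Subgroup H).map H.subtype = P) ↔ Transfer.IsSylowIn p P H := by
  constructor
  · rintro ⟨S, rfl⟩
    refine ⟨Subgroup.map_subtype_le _, S.isPGroup'.map _, ?_⟩
    rw [Subgroup.relIndex, Subgroup.subgroupOf, Subgroup.comap_map_eq_self_of_injective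
      H.subtype_injective]
    exact S.not_dvd_index
  · exact fun h => ⟨h.toSylow, h.map_toSylow⟩

/-- Let P be a p-subgroup of the finite group G, C its centralizer and N its normalizer. Say that a conjugacy class (of G, or of N) has defect group P when P is a Sylow p-subgroup of the centralizer (in G, respectively in N) of some element of the class. Then: (i) if the class of g in G has defect group P, the elements of that class lying in C form a single N-class, again with defect group P; (ii) every N-class with defect group P arises this way from exactly one G-class with defect group P. -/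
theorem result {G : Type*} [Group G] [Finite G] (p : ℕ) [Fact p.Prime] (P : Subgroup G) (hP : IsPGroup p P) : (∀ g : G, (∃ S : Sylow p (Subgroup.centralizer ({g} : Set G)), (S : Subgroup (Subgroup.centralizer ({g} : Set G))).map (Subgroup.centralizer ({g} : Set G)).subtype = P) → (∃ c : G, IsConj g c ∧ c ∈ Subgroup.centralizer (P : Set G)) ∧ (∀ c₁ c₂ : G, IsConj g c₁ → IsConj g c₂ → c₁ ∈ Subgroup.centralizer (P : Set G) → c₂ ∈ Subgroup.centralizer (P : Set G) → ∃ n ∈ Subgroup.normalizer (P : Set G), n * c₁ * n⁻¹ = c₂)) ∧ (∀ c : G, c ∈ Subgroup.centralizer (P : Set G) → (∃ S : Sylow p (Subgroup.centralizer ({c} : Set G) ⊓ Subgroup.normalizer (P : Set G) : Subgroup G), (S : Subgroup ↥(Subgroup.centralizer ({c} : Set G) ⊓ Subgroup.normalizer (P : Set G))).map (Subgroup.centralizer ({c} : Set G) ⊓ Subgroup.normalizer (P : Set G)).subtype = P) → ∃ S : Sylow p (Subgroup.centralizer ({c} : Set G)), (S : Subgroup (Subgroup.centralizer ({c} : Set G))).map (Subgroup.centralizer ({c} : Set G)).subtype = P) := by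
  refine ⟨fun g hg => ?_, fun c hc h => ?_⟩
  · rw [isSylowIn_iff] at hg
    refine ⟨⟨g, IsConj.refl g, le_centralizer_singleton_iff.1 hg.le⟩, fun c₁ c₂ h1 h2 h3 h4 => ?_⟩
    have key : ∀ c, IsConj g c → c ∈ Subgroup.centralizer (P : Set G) →
        c ∈ cls (⊤ ⊓ Subgroup.normalizer (P : Set G)) g := fun c h h' =>
      mem_cls_normalizer (by rwa [top_inf_eq]) (mem_cls_top.2 h) h'
    have := key c₂ h2 h4
    rw [← cls_eq_of_mem (key c₁ h1 h3), top_inf_eq] at this
    exact this
  · rw [isSylowIn_iff] at h ⊢
    exact isSylowIn_of_normalizer (le_centralizer_singleton_iff.2 hc) h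

end Cfsg.Agent.S0916
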