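import Cfsg.Statements.S0923
import Cfsg.Agent.Block.Induce

set_option autoImplicit false
open Cfsg

namespace Cfsg.Agent.S0923

open Cfsg.Agent.Block Cfsg.Agent.BMod Cfsg.Agent.Char MonoidAlgebra


/-- Brauer's Second Main Theorem, in terms of ordinary characters. Let x be a p-element of the finite group G with centralizer C, let χ lie in the block B of G and let b be a block of C that does not induce B (relative to a maximal ideal M of the algebraic integers containing p). Form the class function ϑ(c) = χ(x c) on C and its b-part (the sum over ψ ∈ b of the inner product of ϑ with ψ, times ψ). Then the b-part of ϑ vanishes at every p-regular element of C. (Equivalently, the generalized decomposition numbers of χ with respect to b are zero.) -/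
theorem result {G : Type*} [Group G] [Finite G] (p : ℕ) [Fact p.Prime] (M : Ideal Cfsg.AlgInt) (hM : Cfsg.IsPModular p M) (x : G) (hx : ∃ k : ℕ, orderOf x = p ^ k) (B : Set (Cfsg.IrrCharacter G)) (hB : Cfsg.IsPBlock M B) (χ : Cfsg.IrrCharacter G) (hχ : χ ∈ B) (b : Set (Cfsg.IrrCharacter (Subgroup.centralizer ({x} : Set G)))) (hb : Cfsg.IsPBlock M b) (hnot : ¬ Cfsg.IsInducedBlock M (Subgroup.centralizer ({x} : Set G)) b B) (y : Subgroup.centralizer ({x} : Set G)) (hy : ¬ p ∣ orderOf y) : Cfsg.blockPart b (fun c : Subgroup.centralizer ({x} : Set G) => (χ : G → ℂ) (x * (c : G))) y = 0 := by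
  have : PMod p M := ⟨hM⟩
  have := Fintype.ofFinite (Subgroup.centralizer ({x} : Set G))
  obtain ⟨B', hB'⟩ := inducedBlockDefined_centralizer hx hb
  have hχ' : χ ∉ B' := fun h => hnot (IsPBlock.eq_of_mem hB'.2.1 hB h hχ ▸ hB')
  have hc : ∀ c : Subgroup.centralizer ({x} : Set G), Commute x (c : G) := fun c =>
    c.2 x rfl
  have hxC : x ∈ Subgroup.centralizer ({x} : Set G) := by simp [Subgroup.mem_centralizer_iff]
  have key := blockPart_res_eq_zero hB' (h := ⟨x, hxC⟩ * y) (x := x)
    (isPPart_mul hx (by simpa using hy) (hc y)) le_rfl hχ'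
  rw [blockPart_apply (CharDeep.isClassFunction_res χ.2.isClassFunction _), ev_mul_single] at key
  rw [blockPart_apply, ev_mul_single, ← key]
  · refine Finset.sum_congr rfl fun c _ => ?_
    simp only [Subgroup.coe_mul, ← mul_assoc, (hc c).eq]
  · intro c d
    simp only [Subgroup.coe_mul, Subgroup.coe_inv]
    rw [← χ.2.isClassFunction (x * c) d, ← mul_assoc, ← mul_assoc, (hc d).eq, ← mul_assoc]

end Cfsg.Agent.S0923
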