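import Cfsg.Statements.S0926
import Cfsg.Agent.Block.Height

set_option autoImplicit false
open Cfsg

namespace Cfsg.Agent.S0926

open Cfsg.Agent.Block Cfsg.Agent.BMod Cfsg.Agent.Char MonoidAlgebra


/-- Let B be a block of the finite group G with defect group D (relative to a maximal ideal M of the algebraic integers containing p), let χ ∈ B have height zero, and let x be a p-element. Then some conjugate of x lies in D if and only if χ does not vanish on the whole p-section of x (the elements whose p-part is conjugate to x). -/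
theorem result {G : Type*} [Group G] [Finite G] (p : ℕ) [Fact p.Prime] (M : Ideal Cfsg.AlgInt) (hM : Cfsg.IsPModular p M) (B : Set (Cfsg.IrrCharacter G)) (hB : Cfsg.IsPBlock M B) (D : Subgroup G) (hD : Cfsg.IsDefectGroup p M B D) (χ : Cfsg.IrrCharacter G) (hχ : χ ∈ B) (h0 : Cfsg.blockHeight p B (χ : G → ℂ) = 0) (x : G) (hx : ∃ k : ℕ, orderOf x = p ^ k) : (∃ g : G, g * x * g⁻¹ ∈ D) ↔ ∃ u : G, (∃ z : G, Cfsg.IsPPart p u z ∧ IsConj x z) ∧ (χ : G → ℂ) u ≠ 0 := by
  have : PMod p M := ⟨hM⟩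
  constructor
  · rintro ⟨k, hk⟩
    obtain ⟨g, hg, P, rfl⟩ := hD
    have hc : Commute (k * x * k⁻¹) g := (Subgroup.map_subtype_le _ hk g rfl).symm
    have hx' : ∃ n : ℕ, orderOf (k * x * k⁻¹) = p ^ n := by rwa [orderOf_conj']
    refine ⟨k * x * k⁻¹ * g, ⟨_, isPPart_mul hx' (IsDefectClass.not_dvd hB hg) hc,
      isConj_iff.2 ⟨k, rfl⟩⟩, ne_zero_of_red_ne_zero (M := M) ?_⟩
    rw [red_apply_mul_eq χ.2.isCharacter hx' hc]
    exact (IsDefectClass.height_eq_zero_iff hB hg hχ).1 h0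
  · rintro ⟨u, ⟨z, hz, hxz⟩, hu⟩
    obtain ⟨k, hk⟩ := exists_conj_mem_defectGroup hB hD hχ hz hu
    obtain ⟨c, rfl⟩ := isConj_iff.1 hxz
    exact ⟨k * c, by simpa [mul_assoc] using hk⟩

end Cfsg.Agent.S0926
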