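import Cfsg.Statements.S0928
import Cfsg.Agent.Block.Galois
import Cfsg.Agent.Block.Section
import Mathlib.GroupTheory.Perm.Fin

set_option autoImplicit false
open Cfsg

namespace Cfsg.Agent.S0928

open Cfsg.Agent.Block Cfsg.Agent.BMod Cfsg.Agent.Char MonoidAlgebra

lemma sum_pow_eq {A ι : Type*} [Semiring A] [Fintype ι] (f : ι → A) (n : ℕ) :
    (∑ i, f i) ^ n = ∑ t : Fin n → ι, (List.ofFn fun k => f (t k)).prod := by
  induction n with
  | zero => simp
  | succ n ih =>
    rw [pow_succ', ih, Finset.sum_mul_sum, ← Fintype.sum_prod_type']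
    exact Fintype.sum_equiv (Fin.consEquiv fun _ => ι) _ _ fun x => by
      simp [List.ofFn_succ, Fin.consEquiv]

lemma trace_sum_pow {p : ℕ} [hp : Fact p.Prime] {F A ι : Type*} [Field F] [CharP F p] [Ring A]
    [Fintype ι] (τ : A →+ F) (hτ : ∀ a b, τ (a * b) = τ (b * a)) (f : ι → A) :
    τ ((∑ i, f i) ^ p) = ∑ i, τ (f i ^ p) := by
  classical
  obtain ⟨n, rfl⟩ : ∃ n, p = n + 2 := ⟨p - 2, by have := hp.out.two_le; omega⟩
  let σ : Equiv.Perm (Fin (n + 2) → ι) := Equiv.arrowCongr (finRotate (n + 2)).symm (Equiv.refl ι)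
  have hσ : ∀ t k, σ t k = t (k + 1) := fun t k => by simp [σ]
  have hσm : ∀ (m : ℕ) t k, (σ ^ m) t k = t ((finRotate (n + 2) ^ m) k) := fun m => by
    induction m with
    | zero => simp
    | succ m ih => intro t k; rw [pow_succ, Equiv.Perm.mul_apply, ih, hσ, pow_succ']; simp
  have h1 : σ ^ (n + 2) = 1 := by
    ext t k
    have : finRotate (n + 2) ^ (n + 2) = 1 := by
      have := isCycle_finRotate (n := n) |>.orderOf
      rw [support_finRotate, Finset.card_univ, Fintype.card_fin] at this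
      exact orderOf_dvd_iff_pow_eq_one.1 this.dvd
    rw [hσm, this]; rfl
  have hP : IsPGroup (n + 2) (Subgroup.zpowers σ) := isPGroup_zpowers_of_orderOf
    ((Nat.dvd_prime_pow hp.out (m := 1)).1 (by
      rw [pow_one]; exact orderOf_dvd_iff_pow_eq_one.2 h1)|>.imp fun _ h => h.2)
  let φ : (Fin (n + 2) → ι) → F := fun t => τ (List.ofFn fun k => f (t k)).prod
  have hφ : ∀ t, φ (σ t) = φ t := fun t => by
    simp only [φ, hσ]
    rw [List.ofFn_succ', List.ofFn_succ (f := fun k => f (t k)), List.prod_concat, List.prod_cons,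
      hτ]
    simp
  have hφ' : ∀ (u : Subgroup.zpowers σ) t, φ (u • t) = φ t := by
    rintro ⟨u, hu⟩ t
    obtain ⟨m, rfl⟩ := (mem_powers_iff_mem_zpowers.2 hu)
    change φ ((σ ^ m) t) = φ t
    induction m with
    | zero => rfl
    | succ m ih => rw [pow_succ', Equiv.Perm.mul_apply, hφ, ih (Subgroup.npow_mem_zpowers σ m)]
  rw [sum_pow_eq, map_sum, sum_eq_sum_fixedPoints hP φ hφ', ← Finset.sum_filter]
  symm
  refine Finset.sum_bij (fun i _ => fun _ => i) (fun i _ => ?_) (fun i _ j _ h => congrFun h 0)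
    (fun t ht => ⟨t 0, Finset.mem_univ _, funext fun k => ?_⟩) fun i _ => by
      simp only [φ, List.ofFn_const, List.prod_replicate]
  · simp only [Finset.mem_filter, Finset.mem_univ, true_and, MulAction.mem_fixedPoints]
    rintro ⟨u, hu⟩
    obtain ⟨m, rfl⟩ := (mem_powers_iff_mem_zpowers.2 hu)
    exact funext fun k => hσm m _ k
  · have h2 : σ t = t := (Finset.mem_filter.1 ht).2 ⟨σ, Subgroup.mem_zpowers σ⟩
    induction k using Fin.induction with
    | zero => rfl
    | succ k ih => rw [ih, ← Fin.coeSucc_eq_succ, ← hσ t, h2]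

open Classical in
lemma coeff_one_pow {p : ℕ} [hp : Fact p.Prime] {F G : Type*} [Field F] [CharP F p] [Group G]
    [Fintype G] (b : F[G]) :
    (b ^ p).coeff 1 = (∑ g, if g ^ p = 1 then b.coeff g else 0) ^ p := by
  let τ : F[G] →+ F := ⟨⟨fun a => a.coeff 1, rfl⟩, fun _ _ => rfl⟩
  have h := trace_sum_pow τ (fun a b => by
    change (a * b).coeff 1 = (b * a).coeff 1
    rw [coeff_mul_sum, coeff_mul_sum, ← Equiv.sum_comp (Equiv.inv G)]
    simp [mul_comm]) fun g => single g (b.coeff g)
  rw [← eq_sum_single] at h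
  rw [sum_pow_char]
  refine h.trans (Finset.sum_congr rfl fun g _ => ?_)
  change (single g (b.coeff g) ^ p).coeff 1 = _
  rw [single_pow]
  split_ifs with hg
  · simp [hg]
  · simp [hg, hp.out.ne_zero]

/-- Let χ be an irreducible character of the finite group G and p a prime. If χ g = 0 for every element g of order p, then the exponent of p in the degree χ(1) equals the exponent of p in the order of G (χ has p-defect zero). -/
theorem result {G : Type*} [Group G] [Finite G] (p : ℕ) [Fact p.Prime] (χ : Cfsg.IrrCharacter G) (hvan : ∀ g : G, orderOf g = p → (χ : G → ℂ) g = 0) : (Cfsg.charDegree (χ : G → ℂ)).factorization p = (Nat.card G).factorization p := by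
  classical
  obtain ⟨M, hM⟩ := exists_pmod' p
  have := Fintype.ofFinite G
  have hp : p.Prime := Fact.out
  have hB := isPBlock_blockOf (M := M) χ
  rw [← blockDefect_eq_zero_iff hB (mem_blockOf_self χ)]
  by_contra hd
  obtain ⟨D, hD⟩ := exists_isDefectGroup (p := p) hB
  obtain ⟨u, hu⟩ := exists_prime_orderOf_dvd_card' (G := D) p (by
    rw [hD.card_eq hB]; exact dvd_pow_self p hd)
  obtain ⟨x, hx, Q, rfl⟩ := hD
  have hux : Commute (u : G) x := by
    obtain ⟨v, -, hv⟩ := u.2
    rw [← hv]; exact Subgroup.mem_centralizer_singleton_iff.1 v.2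
  rw [← Subgroup.orderOf_coe] at hu
  let f : G → ℂ := fun g => if g ^ p = 1 then 1 else 0
  have hf : IsClassFunction G f := fun a b => by simp [f, mul_inv_eq_one]
  have hfO : ofFun f ∈ OG M G := ofFun_mem_OG fun x => by
    simp only [f]; split_ifs; exacts [one_mem _, zero_mem _]
  have hv : ofFun f ∈ Cen ℂ G := ofFun_mem_center hf
  have h1 : lam M χ (redA M (ofFun f)) ≠ 0 := by
    rw [lam_redA χ.2 hv hfO, om_apply, ev_ofFun, Finset.sum_eq_single 1 (fun g _ hg => by
      simp only [f]
      split_ifs with h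
      · rw [hvan g (orderOf_eq_prime h hg), mul_zero]
      · rw [zero_mul]) (by simp)]
    simp [f, χ.2.apply_one_ne_zero]
  obtain ⟨y, hy, h2⟩ := exists_eB_eq_mul hB (mem_blockOf_self χ) (redA_mem_center hv) h1
  let a : (F M)[G] := single x⁻¹ 1 - single (u * x)⁻¹ 1
  have ha : a ^ p = 0 := by
    have : Commute (single x⁻¹ (1 : F M)) (single (u * x : G)⁻¹ 1) := by
      refine (Commute.map ?_ (MonoidAlgebra.of (F M) G))
      exact ((hux.symm.mul_right (Commute.refl x)).inv_inv)
    have _ : CharP (F M)[G] p := charP_of_injective_algebraMap (algebraMap (F M) _).injective p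
    rw [sub_pow_char_of_commute p this, single_pow, single_pow, inv_pow, inv_pow, hux.mul_pow,
      orderOf_dvd_iff_pow_eq_one.1 hu.dvd, one_mul, sub_self]
  have h3 := coeff_one_pow (p := p) (y * a)
  rw [Commute.mul_pow (center_comm hy a), ha, mul_zero, eq_comm] at h3
  have h4 := pow_eq_zero_iff hp.ne_zero |>.1 h3
  have h5 : (eB M (blockOf M (χ : G → ℂ)) * a).coeff 1 = 0 := by
    rw [h2, mul_assoc, center_comm (redA_mem_center hv), coeff_mul_sum, ← h4]
    refine Finset.sum_congr rfl fun g _ => ?_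
    by_cases h : g ^ p = 1 <;> simp [f, h]
  have h6 := hx.red_coeff
  rw [mul_sub] at h5
  simp only [coeff_sub, coeff_mul_single_apply, inv_inv, one_mul, mul_one, Finsupp.sub_apply,
    coeff_eB] at h5
  rw [blockCoeff_eq_zero_of_dvd hB.isBlockUnion (dvd_orderOf_mul ⟨1, by simp [hu]⟩ (fun h => by
    rw [h, orderOf_one] at hu; exact hp.ne_one hu.symm) (hx.not_dvd hB) hux), red_zero,
    sub_zero] at h5
  exact h6 h5

end Cfsg.Agent.S0928
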