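import Cfsg.Statements.S0929
import Cfsg.Agent.Block.Induce

set_option autoImplicit false
open Cfsg

namespace Cfsg.Agent.S0929

open Cfsg.Agent.Block Cfsg.Agent.BMod Cfsg.Agent.Char MonoidAlgebra


/-- Let B be a block of the finite group G with defect group P (relative to a maximal ideal M of the algebraic integers containing p), and let g be an element at which the central character of some member of B is not in the local ideal at M. Then some conjugate x of g centralizes P and has its p-part in the centre of P. -/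
theorem result {G : Type*} [Group G] [Finite G] (p : ℕ) [Fact p.Prime] (M : Ideal Cfsg.AlgInt) (hM : Cfsg.IsPModular p M) (B : Set (Cfsg.IrrCharacter G)) (hB : Cfsg.IsPBlock M B) (P : Subgroup G) (hP : Cfsg.IsDefectGroup p M B P) (g : G) (hg : ∃ χ ∈ B, ¬ Cfsg.MemLocalIdeal M (Cfsg.centralChar (χ : G → ℂ) g)) : ∃ x : G, IsConj g x ∧ x ∈ Subgroup.centralizer (P : Set G) ∧ ∀ z : G, Cfsg.IsPPart p x z → z ∈ P ∧ ∀ w ∈ P, z * w = w * z := by
  classical
  have : PMod p M := ⟨hM⟩
  obtain ⟨χ, hχ, h1⟩ := hg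
  obtain ⟨b, hb, -, hD, hind⟩ := exists_eS_eq_br hB hP
  obtain ⟨ξ, hξ⟩ := IsPBlock.nonempty hb
  have hPp := IsDefectGroup.isPGroup hP
  have h2 : lamS M (Subgroup.normalizer (P : Set G)) ξ (br P (classSum (F M) ⊤ g)) ≠ 0 := by
    rw [lamS_br hPp Subgroup.le_normalizer (centralizer_le_normalizer' P) le_rfl ξ
      (center_mem_fix (classSum_mem_center g) _), IsInducedBlock.lamS_eq hind hξ hχ
      (classSum_mem_center g), lam_classSum χ.2]
    exact red_ne_zero_iff.2 ⟨centralChar_mem_O χ.2 g, h1⟩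
  have := Fintype.ofFinite (ConjClasses (Subgroup.normalizer (P : Set G)))
  rw [lamS_apply, lam_apply] at h2
  obtain ⟨K, -, hK⟩ := Finset.exists_ne_zero_of_sum_ne_zero h2
  have h3 := left_ne_zero_of_mul hK
  have h4 : (ξ : _ → ℂ) K.out ≠ 0 := fun h0 => right_ne_zero_of_mul hK (by
    rw [centralChar, h0, mul_zero, zero_div, red_zero])
  rw [coeff_resA, coeff_br, ite_ne_right_iff, coeff_classSum_top, ite_ne_right_iff] at h3
  refine ⟨K.out, h3.2.1, h3.1, fun z hz => ?_⟩
  have hzN : z ∈ Subgroup.normalizer (P : Set G) := IsPPart.mem hz K.out.2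
  refine ⟨mem_of_normal_defectGroup hb
    ((isDefectGroup_subgroupOf_iff hb Subgroup.le_normalizer).2 hD) hξ (x := ⟨z, hzN⟩)
    (IsPPart.of_coe hz) h4, fun w hw => ?_⟩
  exact (IsPPart.mem hz h3.1 w hw).symm

end Cfsg.Agent.S0929
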