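import Cfsg.Statements.S0931
import Cfsg.Agent.BMod.Misc
-- import your own Cfsg.Agent.* helpers here

set_option autoImplicit false
open Cfsg

namespace Cfsg.Agent.S0931

open Cfsg.Agent.BMod Cfsg.Agent.Block Cfsg.Agent.Transfer Cfsg.Agent.Char Cfsg.Agent.CharDeep

/-- Let H be a subgroup of the finite group G and fix a maximal ideal M of the algebraic integers containing the prime p. If the block b of H induces the block B of G, then b has defect 0 if and only if B has defect 0. -/
theorem result {G : Type*} [Group G] [Finite G] (p : ℕ) [Fact p.Prime] (M : Ideal Cfsg.AlgInt) (hM : Cfsg.IsPModular p M) (H : Subgroup G) (b : Set (Cfsg.IrrCharacter H)) (B : Set (Cfsg.IrrCharacter G)) (hind : Cfsg.IsInducedBlock M H b B) : Cfsg.blockDefect p b = 0 ↔ Cfsg.blockDefect p B = 0 := by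
  haveI : PMod p M := ⟨hM⟩
  obtain ⟨D, hD⟩ := exists_isDefectGroup hind.1
  obtain ⟨P, hP, hDP⟩ := IsInducedBlock.exists_defect_ge hind hD
  have h1 := IsDefectGroup.card_eq hind.1 hD
  have h2 := IsDefectGroup.card_eq hind.2.1 hP
  have hp : ∀ n, n = 0 ↔ p ^ n = 1 := fun n => by simp [(Fact.out : p.Prime).ne_one]
  rw [hp, hp (blockDefect p B), ← h1, ← h2,
    Subgroup.card_eq_one, Subgroup.card_eq_one]
  refine ⟨fun h => ?_, fun h => (Subgroup.map_eq_bot_iff_of_injective _ H.subtype_injective).1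
    (le_bot_iff.1 (h ▸ hDP))⟩
  by_contra h0
  have : Nontrivial P := (Subgroup.nontrivial_iff_ne_bot P).2 h0
  have := (IsDefectGroup.isPGroup hP).center_nontrivial
  obtain ⟨z, hz⟩ := exists_ne (1 : Subgroup.center P)
  obtain ⟨g, h3, -⟩ := IsInducedBlock.exists_conj_center hind hD hP (x := z.1.1) ⟨z.1.2, fun w hw =>
    congrArg Subtype.val (Subgroup.mem_center_iff.1 z.2 ⟨w, hw⟩)⟩
  rw [h, Subgroup.map_bot] at h3
  exact hz (by simpa using h3)

end Cfsg.Agent.S0931
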