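import Cfsg.Statements.S0940
import Cfsg.Agent.Block.Galois

set_option autoImplicit false
open Cfsg

namespace Cfsg.Agent.S0940

open Cfsg.Agent.Block Cfsg.Agent.BMod Cfsg.Agent.Char MonoidAlgebra


/-- Let G be a finite group and M a maximal ideal of the algebraic integers containing the prime p. For every p-regular g, the idempotent coefficient of the principal block at g (the inverse of the group order times the sum over χ in the principal block of χ 1 * conj (χ g)) is congruent modulo the local ideal at M to N / R, where N is the number of pairs (x, y) with x of p-power order, y of order prime to p and x * y = g, and R is the number of elements of G of order prime to p. -/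
theorem result {G : Type*} [Group G] [Finite G] (p : ℕ) [Fact p.Prime] (M : Ideal Cfsg.AlgInt) (hM : Cfsg.IsPModular p M) (g : G) (hg : ¬ p ∣ orderOf g) : Cfsg.MemLocalIdeal M (Cfsg.blockCoeff (Cfsg.principalBlock M G) g - (Nat.card {xy : G × G // (∃ k : ℕ, orderOf xy.1 = p ^ k) ∧ ¬ p ∣ orderOf xy.2 ∧ xy.1 * xy.2 = g} : ℂ) / (Nat.card {y : G // ¬ p ∣ orderOf y} : ℂ)) := by
  classical
  have : PMod p M := ⟨hM⟩
  have := Fintype.ofFinite G
  have hp1 : ¬ p ∣ orderOf (1 : G) := by simpa using (Fact.out : p.Prime).ne_one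
  let δ : G → ℂ := fun x => if x = 1 then 1 else 0
  have hδ : IsClassFunction G δ := fun a b => by simp [δ, mul_inv_eq_one]
  obtain ⟨c, hc, h1⟩ := exists_rho_eq_sum' (p := p) (M := M) hδ fun x _ => by
    simp only [δ]; split_ifs; exacts [one_mem _, zero_mem _]
  rw [rho_eq_self (θ := δ) fun x hx => if_neg fun h : x = 1 => hp1 (h ▸ hx)] at h1
  have hB := (isPBlock_principalBlock (M := M) (G := G)).isBlockUnion
  have hu : ∀ x : G, red M (∑ χ : IrrCharacter G, c χ * (χ : G → ℂ) x) =
      if ∃ k, orderOf x = p ^ k then 1 else 0 := fun x => by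
    obtain ⟨y, hy⟩ := exists_isPPart p x
    have h2 := congrFun h1 (y⁻¹ * x)
    simp only [Finset.sum_apply, Pi.smul_apply, smul_eq_mul, rho_apply_of_not_dvd _ hy.not_dvd] at h2
    rw [red_sum _ fun χ _ => mul_mem (hc χ) (irr_mem_O χ x), Finset.sum_congr rfl fun χ _ => by
      rw [red_mul (hc χ) (irr_mem_O χ x), red_apply_eq_of_isPPart χ.2.isCharacter hy,
        ← red_mul (hc χ) (irr_mem_O χ _)], ← red_sum _ fun χ _ => mul_mem (hc χ) (irr_mem_O χ _),
      ← h2]
    by_cases h : y = x
    · rw [if_pos (h ▸ hy.orderOf_eq)]; simp [δ, h]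
    · rw [if_neg fun h' => h (IsPPart.unique hy (isPPart_self h'))]
      simp [δ, inv_mul_eq_one, h]
  have h3 : ∑ χ : IrrCharacter G, (if χ ∈ principalBlock M G then c χ * (χ : G → ℂ) g⁻¹ else 0) =
      blockCoeff (principalBlock M G) g := by
    have h4 := congrFun (congrArg (blockPart (principalBlock M G)) h1) g⁻¹
    rw [blockPart_sum, blockPart_apply_sum] at h4
    simp only [blockPart_smul, blockPart_rho hB, Finset.sum_apply, Pi.smul_apply, smul_eq_mul,
      rho_apply_of_not_dvd _ (show ¬ p ∣ orderOf g⁻¹ by rwa [orderOf_inv])] at h4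
    rw [blockCoeff_eq, Finset.mul_sum]
    refine Eq.trans (Finset.sum_congr rfl fun χ _ => ?_) (h4.symm.trans
      (Finset.sum_congr rfl fun χ _ => ?_))
    · split_ifs with h
      · rw [blockPart_irr_of_mem h]
      · simp [blockPart_irr_of_notMem h]
    · split_ifs
      · simp [classInner_eq_sum_inv _ (irr_gen χ), δ, mul_assoc]
      · simp
  let f : G → ℂ := fun x => if p ∣ orderOf x then 0 else 1
  have hf : IsClassFunction G f := fun a b => by simp only [f, orderOf_conj']
  have hfO : ∀ x, f x ∈ O M := fun x => by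
    simp only [f]; split_ifs; exacts [zero_mem _, one_mem _]
  have hv : ofFun f ∈ Cen ℂ G := ofFun_mem_center hf
  have hom : ∀ χ : IrrCharacter G, om χ (ofFun f) = (∑ x, f x * (χ : G → ℂ) x) / (χ : G → ℂ) 1 :=
    fun χ => by rw [om_apply, ev_ofFun]
  set R := Nat.card {y : G // ¬ p ∣ orderOf y} with hR
  have hR1 : om (irrOne G : G → ℂ) (ofFun f) = R := by
    rw [hom, hR, Nat.card_eq_fintype_card, Fintype.card_subtype, Finset.card_filter]
    simp [f]
  have hR0 : red M (R : ℂ) ≠ 0 := by
    have h5 := (lam_zc_ne_zero_iff (M := M) isPBlock_principalBlock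
      (irrOne_mem_principalBlock (G := G))).2 ⟨irrOne_mem_principalBlock, height_one _⟩
    have h6 : zc p (irrOne G : G → ℂ) = ((ordCompl[p] (Nat.card G) : ℕ) : ℂ)⁻¹ • ofFun f := by
      ext x; rw [coeff_zc]; simp [f]
    rw [lam_zc, h6, map_smul, hR1, smul_eq_mul, red_mul (inv_mem_O (red_ordCompl_ne_zero G))
      (natCast_mem _ _)] at h5
    exact right_ne_zero_of_mul h5
  have h7 : ∀ χ : IrrCharacter G, red M (om χ (ofFun f)) =
      if χ ∈ principalBlock M G then (R : F M) else 0 := fun χ => by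
    split_ifs with h
    · rw [← lam_redA χ.2 hv (ofFun_mem_OG hfO), isPBlock_principalBlock.lam_eq h
        irrOne_mem_principalBlock, lam_redA (irrOne G).2 hv (ofFun_mem_OG hfO), hR1, red_natCast]
    · rw [mem_principal_iff_sum, not_not] at h
      rw [hom, show ∑ x, f x * (χ : G → ℂ) x = 0 by rw [← h]; simp [f], zero_div, red_zero]
  have h8 : (Nat.card {xy : G × G // (∃ k : ℕ, orderOf xy.1 = p ^ k) ∧ ¬ p ∣ orderOf xy.2 ∧
      xy.1 * xy.2 = g} : F M) = R * red M (blockCoeff (principalBlock M G) g) := by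
    have e : {xy : G × G // (∃ k : ℕ, orderOf xy.1 = p ^ k) ∧ ¬ p ∣ orderOf xy.2 ∧
        xy.1 * xy.2 = g} ≃ {y : G // ¬ p ∣ orderOf y ∧ ∃ k : ℕ, orderOf (y * g⁻¹) = p ^ k} :=
      ⟨fun x => ⟨x.1.2, x.2.2.1, by
          obtain ⟨⟨a, b⟩, h1, -, rfl⟩ := x
          rwa [mul_inv_rev, mul_inv_cancel_left, orderOf_inv]⟩,
        fun y => ⟨(g * y.1⁻¹, y.1), by
          rw [← orderOf_inv, mul_inv_rev, inv_inv]; exact y.2.2, y.2.1, by simp⟩,
        fun x => Subtype.ext (Prod.ext (mul_inv_eq_of_eq_mul x.2.2.2.symm) rfl), fun y => rfl⟩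
    have hO : ∀ y, ∑ χ : IrrCharacter G, c χ * (χ : G → ℂ) y ∈ O M := fun y =>
      sum_mem fun χ _ => mul_mem (hc χ) (irr_mem_O χ y)
    have h9 : ∑ y, f y * ∑ χ : IrrCharacter G, c χ * (χ : G → ℂ) (y * g⁻¹) =
        ∑ χ : IrrCharacter G, om χ (ofFun f) * (c χ * (χ : G → ℂ) g⁻¹) := by
      simp only [Finset.mul_sum]
      rw [Finset.sum_comm]
      refine Finset.sum_congr rfl fun χ _ => ?_
      simp only [mul_left_comm _ (c χ)]
      rw [← Finset.mul_sum, IsIrrCharacter.sum_mul_apply_mul χ.2 hf, hom]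
      ring
    have h10 := congrArg (red M) h9
    rw [red_sum _ fun y _ => mul_mem (hfO y) (hO _), red_sum _ fun χ _ => mul_mem
      (om_mem_O χ.2 hv (ofFun_mem_OG hfO)) (mul_mem (hc χ) (irr_mem_O χ _))] at h10
    rw [Nat.card_congr e, Nat.card_eq_fintype_card, Fintype.card_subtype, Finset.card_filter,
      ← h3, red_sum _ fun χ _ => by
        split_ifs; exacts [mul_mem (hc χ) (irr_mem_O χ _), zero_mem _], Finset.mul_sum]
    push_cast
    refine Eq.trans (Finset.sum_congr rfl fun y _ => ?_) (h10.trans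
      (Finset.sum_congr rfl fun χ _ => ?_))
    · rw [red_mul (hfO y) (hO _), hu]
      by_cases h : p ∣ orderOf y <;> simp [f, h]
    · rw [red_mul (om_mem_O χ.2 hv (ofFun_mem_OG hfO)) (mul_mem (hc χ) (irr_mem_O χ _)), h7]
      split_ifs <;> simp
  rw [memLocalIdeal_sub_iff (isPBlock_principalBlock.blockCoeff_mem_O g)
    (div_mem_O (natCast_mem _ _) hR0), red_div (natCast_mem _ _) hR0, red_natCast, h8, red_natCast,
    mul_div_cancel_left₀ _ (by rwa [red_natCast] at hR0)]

end Cfsg.Agent.S0940
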