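import Cfsg.Statements.S0948
import Cfsg.Agent.Block.Klein

set_option autoImplicit false
open Cfsg

namespace Cfsg.Agent.S0948

open Cfsg.Agent.Block Cfsg.Agent.BMod Cfsg.Agent.Char MonoidAlgebra


/-- Let the finite group G have a Sylow 2-subgroup P that is a Klein four-group, suppose all involutions of G are conjugate, and fix a maximal ideal M of the algebraic integers containing 2. Then the principal block consists of exactly four irreducible characters, the principal character and ζ₂, ζ₃, ζ₄, and there is a sign ε such that for every involution z: ζ₂ z = 1, ζ₃ z = ε, ζ₄ z = -1; moreover ζ₂ 1 ≡ 1, ζ₃ 1 ≡ ε, ζ₄ 1 ≡ -1 (mod 4), and 1 + ζ₂ y + ε ζ₃ y - ζ₄ y = 0 for every y of odd order. -/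
theorem result {G : Type*} [Group G] [Finite G] (M : Ideal Cfsg.AlgInt) (hM : Cfsg.IsPModular 2 M) (P : Sylow 2 G) (hP : IsKleinFour (P : Subgroup G)) (hone : ∀ s t : G, orderOf s = 2 → orderOf t = 2 → IsConj s t) : ∃ ζ₂ ζ₃ ζ₄ : Cfsg.IrrCharacter G, ∃ ε : ℤ, (ε = 1 ∨ ε = -1) ∧ (ζ₂ : G → ℂ) ≠ (fun _ => 1) ∧ (ζ₃ : G → ℂ) ≠ (fun _ => 1) ∧ ζ₂ ≠ ζ₃ ∧ ζ₂ ≠ ζ₄ ∧ ζ₃ ≠ ζ₄ ∧ Cfsg.principalBlock M G = {χ : Cfsg.IrrCharacter G | (χ : G → ℂ) = (fun _ => 1) ∨ χ = ζ₂ ∨ χ = ζ₃ ∨ χ = ζ₄} ∧ (∀ z : G, orderOf z = 2 → (ζ₂ : G → ℂ) z = 1 ∧ (ζ₃ : G → ℂ) z = (ε : ℂ) ∧ (ζ₄ : G → ℂ) z = -1) ∧ (4 : ℤ) ∣ (Cfsg.charDegree (ζ₂ : G → ℂ) : ℤ) - 1 ∧ (4 : ℤ) ∣ (Cfsg.charDegree (ζ₃ : G → ℂ) : ℤ) - ε ∧ (4 : ℤ) ∣ (Cfsg.charDegree (ζ₄ : G → ℂ) : ℤ) + 1 ∧ ∀ y : G, Odd (orderOf y) → 1 + (ζ₂ : G → ℂ) y + (ε : ℂ) * (ζ₃ : G → ℂ) y - (ζ₄ : G → ℂ) y = 0 := by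
  have : PMod 2 M := ⟨hM⟩
  obtain ⟨a, b, c, δ, ha, hb, hc, hab, hac, hbc, hB, h1, h2⟩ := klein_block3 (M := M) hP hone
  have key : ∀ a b c : IrrCharacter G, a ≠ irrOne G → b ≠ irrOne G → a ≠ b → a ≠ c → b ≠ c →
      principalBlock M G = {irrOne G, a, b, c} → δ a = 1 → δ c = -1 →
      (∀ y, ¬ 2 ∣ orderOf y → 1 + (δ a : ℂ) * (a : G → ℂ) y + (δ b : ℂ) * (b : G → ℂ) y +
        (δ c : ℂ) * (c : G → ℂ) y = 0) → ∃ ζ₂ ζ₃ ζ₄ : Cfsg.IrrCharacter G, ∃ ε : ℤ, (ε = 1 ∨ ε = -1) ∧ (ζ₂ : G → ℂ) ≠ (fun _ => 1) ∧ (ζ₃ : G → ℂ) ≠ (fun _ => 1) ∧ ζ₂ ≠ ζ₃ ∧ ζ₂ ≠ ζ₄ ∧ ζ₃ ≠ ζ₄ ∧ Cfsg.principalBlock M G = {χ : Cfsg.IrrCharacter G | (χ : G → ℂ) = (fun _ => 1) ∨ χ = ζ₂ ∨ χ = ζ₃ ∨ χ = ζ₄} ∧ (∀ z : G, orderOf z = 2 → (ζ₂ : G → ℂ) z = 1 ∧ (ζ₃ : G → ℂ) z = (ε : ℂ) ∧ (ζ₄ : G → ℂ) z = -1) ∧ (4 : ℤ) ∣ (Cfsg.charDegree (ζ₂ : G → ℂ) : ℤ) - 1 ∧ (4 : ℤ) ∣ (Cfsg.charDegree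 (ζ₃ : G → ℂ) : ℤ) - ε ∧ (4 : ℤ) ∣ (Cfsg.charDegree (ζ₄ : G → ℂ) : ℤ) + 1 ∧ ∀ y : G, Odd (orderOf y) → 1 + (ζ₂ : G → ℂ) y + (ε : ℂ) * (ζ₃ : G → ℂ) y - (ζ₄ : G → ℂ) y = 0 := by
    intro a b c ha hb hab hac hbc hB hδa hδc h2
    have ha' := h1 a (by simp [hB])
    have hb' := h1 b (by simp [hB])
    have hc' := h1 c (by simp [hB])
    refine ⟨a, b, c, δ b, hb'.1, fun h => ha (Subtype.ext h), fun h => hb (Subtype.ext h), hab, hac,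
      hbc, ?_, fun z hz => ⟨?_, hb'.2.2 z (by simp [hz]), ?_⟩, hδa ▸ ha'.2.1, hb'.2.1,
      by simpa [hδc] using hc'.2.1, fun y hy => ?_⟩
    · rw [hB]
      ext χ
      simp [Subtype.ext_iff, irrOne]
    · rw [ha'.2.2 z (by simp [hz]), hδa, Int.cast_one]
    · rw [hc'.2.2 z (by simp [hz]), hδc]; simp
    · have := h2 y hy.not_two_dvd_nat
      rw [hδa, hδc] at this
      push_cast at this
      linear_combination this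
  have h3 := h2 1 (by simp)
  simp only [← deg_cast_irr] at h3
  have h4 : 1 + δ a * charDegree (a : G → ℂ) + δ b * charDegree (b : G → ℂ) +
    δ c * charDegree (c : G → ℂ) = 0 := by exact_mod_cast h3
  have := deg_pos a.2
  have := deg_pos b.2
  have := deg_pos c.2
  rcases (h1 a (by simp [hB])).1 with h5 | h5 <;> rcases (h1 b (by simp [hB])).1 with h6 | h6 <;>
    rcases (h1 c (by simp [hB])).1 with h7 | h7
  · rw [h5, h6, h7] at h4; omega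
  · exact key a b c ha hb hab hac hbc hB h5 h7 h2
  · exact key a c b ha hc hac hab hbc.symm (by rw [hB, Set.pair_comm b]) h5 h6
      fun y hy => by linear_combination h2 y hy
  · exact key a b c ha hb hab hac hbc hB h5 h7 h2
  · exact key b c a hb hc hbc hab.symm hac.symm (by rw [hB]; ext; simp; tauto) h6 h5
      fun y hy => by linear_combination h2 y hy
  · exact key b c a hb hc hbc hab.symm hac.symm (by rw [hB]; ext; simp; tauto) h6 h5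
      fun y hy => by linear_combination h2 y hy
  · exact key c b a hc hb hbc.symm hac.symm hab.symm (by rw [hB]; ext; simp; tauto) h7 h5
      fun y hy => by linear_combination h2 y hy
  · rw [h5, h6, h7] at h4; omega

end Cfsg.Agent.S0948
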