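import Cfsg.Statements.S0950
import Cfsg.Agent.Block.Q8

set_option autoImplicit false
open Cfsg

namespace Cfsg.Agent.S0950

open Cfsg.Agent.Block Cfsg.Agent.BMod Cfsg.Agent.Char MonoidAlgebra


/-- Let S be a Sylow 2-subgroup of the finite group G that is isomorphic to the quaternion group of order 8, and suppose S has no normal complement in G. Then any two subgroups of order 4 of S are conjugate by an element of the normalizer of S. -/
theorem result {G : Type*} [Group G] [Finite G] (S : Sylow 2 G) (e : (S : Subgroup G) ≃* QuaternionGroup 2) (hnc : ∀ N : Subgroup G, N.Normal → ¬ Subgroup.IsComplement' N (S : Subgroup G)) (A B : Subgroup G) (hA : A ≤ S) (hB : B ≤ S) (hA4 : Nat.card A = 4) (hB4 : Nat.card B = 4) : ∃ n ∈ Subgroup.normalizer ((S : Subgroup G) : Set G), B = A.map (MulAut.conj n).toMonoidHom := by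
  have := Fintype.ofFinite G
  obtain ⟨u, h⟩ := exists_q8Syl e
  have hn : ¬ HasNormalPComplement 2 G := fun h1 => by
    obtain ⟨N, h2, h3⟩ := (Transfer.hasNormalPComplement_iff_sylow S).1 h1
    exact hnc N h2 h3
  have key : ∀ C : Subgroup G, C ≤ S → Nat.card C = 4 → ∃ c ∈ (S : Subgroup G), c * c = u ∧
      C = Subgroup.zpowers c := fun C hC hC4 => by
    obtain ⟨c, hc, hc2⟩ : ∃ c ∈ C, c * c = u := by
      by_contra! h1
      have h2 : C ≤ Subgroup.zpowers u := fun x hx =>
        (Invol.mem_zpowers_invol (Invol.mul_self_of h.ord)).2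
          (h.uniq x (hC hx) ((h.sq x (hC hx)).resolve_right (h1 x hx)))
      have := Subgroup.card_dvd_of_le h2
      rw [hC4, Nat.card_zpowers, h.ord] at this
      omega
    exact ⟨c, hC hc, hc2, (Subgroup.eq_of_le_of_card_ge (Subgroup.zpowers_le.2 hc)
      (by rw [hC4, Nat.card_zpowers, orderOf_eq_four h.ord hc2])).symm⟩
  obtain ⟨a, ha, ha2, rfl⟩ := key A hA hA4
  obtain ⟨b, hb, hb2, rfl⟩ := key B hB hB4
  obtain ⟨n, hn1, hn2⟩ := h.exists_conj hn ha hb ha2 hb2
  refine ⟨n, hn1, ?_⟩
  rw [MonoidHom.map_zpowers]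
  change _ = Subgroup.zpowers (n * a * n⁻¹)
  rcases hn2 with h2 | h2 <;> rw [h2]
  rw [Subgroup.zpowers_inv]

end Cfsg.Agent.S0950
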