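import Cfsg.Statements.S0951
import Cfsg.Agent.Block.Q8

set_option autoImplicit false
open Cfsg

namespace Cfsg.Agent.S0951

open Cfsg.Agent.Block Cfsg.Agent.BMod Cfsg.Agent.Char MonoidAlgebra


/-- Let S be a Sylow 2-subgroup of the finite group G isomorphic to the quaternion group of order 8. Suppose G has no nontrivial normal subgroup of odd order and G ≠ S. Then, relative to any maximal ideal M of the algebraic integers containing 2, the principal block of G consists of exactly 7 irreducible characters. -/
theorem result {G : Type*} [Group G] [Finite G] (M : Ideal Cfsg.AlgInt) (hM : Cfsg.IsPModular 2 M) (S : Sylow 2 G) (e : (S : Subgroup G) ≃* QuaternionGroup 2) (hO : ∀ N : Subgroup G, N.Normal → Odd (Nat.card N) → N = ⊥) (hG : (S : Subgroup G) ≠ ⊤) : Nat.card (Cfsg.principalBlock M G) = 7 := by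
  have : PMod 2 M := ⟨hM⟩
  obtain ⟨u, h⟩ := exists_q8Syl e
  refine h.ncard_principalBlock M fun h1 => hG ?_
  obtain ⟨N, h2, h3⟩ := (Transfer.hasNormalPComplement_iff_sylow S).1 h1
  rw [hO N h2 (Nat.coprime_two_right.1 (Transfer.coprime_card_of_isComplement'_sylow h3))] at h3
  exact Subgroup.isComplement'_bot_left.1 h3

end Cfsg.Agent.S0951
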