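import Cfsg.Statements.S0957
import Cfsg.Agent.Block.Count
import Cfsg.Agent.BMod.Rank2

set_option autoImplicit false
open Cfsg

namespace Cfsg.Agent.S0957

open Cfsg.Agent.Block Cfsg.Agent.BMod Cfsg.Agent.Char MonoidAlgebra


/-- Let P be a Sylow p-subgroup of the finite group G, let g, h ∈ G and let p ^ d be the order of a Sylow p-subgroup of the centralizer of g. Then the number of pairs (y, z) with y conjugate to g, z conjugate to h and z * y⁻¹ ∈ P is divisible by the order of P divided by p ^ d. -/
theorem result {G : Type*} [Group G] [Finite G] (p : ℕ) [Fact p.Prime] (P : Sylow p G) (g h : G) (S : Sylow p (Subgroup.centralizer ({g} : Set G))) : Nat.card P / Nat.card S ∣ Nat.card {yz : G × G // IsConj g yz.1 ∧ IsConj h yz.2 ∧ yz.2 * yz.1⁻¹ ∈ (P : Subgroup G)} := by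
  classical
  obtain ⟨M, _⟩ := exists_pmod' p
  have := Fintype.ofFinite P
  have h1 := card_pairs_eq g h (P : Subgroup G)
  set n := Nat.card {yz : G × G // IsConj g yz.1 ∧ IsConj h yz.2 ∧ yz.2 * yz.1⁻¹ ∈ (P : Subgroup G)}
  rcases eq_or_ne n 0 with h0 | h0
  · rw [h0]; exact dvd_zero _
  have hC : (Subgroup.centralizer ({g} : Set G)).index ≠ 0 := index_centralizer_ne_zero g
  have h2 : (n : ℂ) / (Subgroup.centralizer ({g} : Set G)).index ∈ O M := by
    have : (n : ℂ) / (Subgroup.centralizer ({g} : Set G)).index = (Nat.card P : ℂ) / Nat.card G *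
        ∑ χ : IrrCharacter G, centralChar (χ : G → ℂ) h * (χ : G → ℂ) g⁻¹ *
          classInner (fun s : (P : Subgroup G) => (χ : G → ℂ) s) fun _ => 1 := by
      rw [h1, mul_div_assoc, Finset.sum_div]
      congr 1
      refine Finset.sum_congr rfl fun χ _ => ?_
      have := χ.2.apply_one_ne_zero
      have : ((Subgroup.centralizer ({g} : Set G)).index : ℂ) ≠ 0 := Nat.cast_ne_zero.2 hC
      rw [centralChar.eq_1 _ g⁻¹, index_centralizer_inv]
      field_simp
    rw [this]
    refine mul_mem (natCast_div_mem_O Nat.card_pos.ne' ?_) (sum_mem fun χ _ =>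
      mul_mem (mul_mem (centralChar_mem_O χ.2 h) (irr_mem_O _ _)) (inner_res_one_mem_O χ _))
    rw [P.card_eq_multiplicity, Nat.factorization_pow_self Fact.out]
  have h3 := factorization_le_of_div_mem_O h0 hC h2
  have h4 := factorization_card_add_index p (Subgroup.centralizer ({g} : Set G))
  rw [P.card_eq_multiplicity, S.card_eq_multiplicity, Nat.pow_div (by omega) (Fact.out : p.Prime).pos,
    (Fact.out : p.Prime).pow_dvd_iff_le_factorization h0]
  omega

end Cfsg.Agent.S0957
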