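import Cfsg.Statements.S0958
import Cfsg.Agent.Block.Induce

set_option autoImplicit false
open Cfsg

namespace Cfsg.Agent.S0958

open Cfsg.Agent.Block Cfsg.Agent.BMod Cfsg.Agent.Char MonoidAlgebra


/-- Let P be a p-subgroup of the finite group G and H a subgroup with P ⊔ C_G(P) ≤ H ≤ N_G(P); fix a maximal ideal M of the algebraic integers containing p. Then a block B of G is induced by some block of H if and only if some conjugate of P is contained in a defect group of B. -/
theorem result {G : Type*} [Group G] [Finite G] (p : ℕ) [Fact p.Prime] (M : Ideal Cfsg.AlgInt) (hM : Cfsg.IsPModular p M) (P H : Subgroup G) (hP : IsPGroup p P) (hPH : P ⊔ Subgroup.centralizer (P : Set G) ≤ H) (hHN : H ≤ Subgroup.normalizer (P : Set G)) (B : Set (Cfsg.IrrCharacter G)) (hB : Cfsg.IsPBlock M B) : (∃ b : Set (Cfsg.IrrCharacter H), Cfsg.IsInducedBlock M H b B) ↔ ∃ D : Subgroup G, Cfsg.IsDefectGroup p M B D ∧ ∃ x : G, P.map (MulAut.conj x).toMonoidHom ≤ D := by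
  have : PMod p M := ⟨hM⟩
  have hPH' : P ≤ H := le_sup_left.trans hPH
  have hCH : Subgroup.centralizer (P : Set G) ≤ H := le_sup_right.trans hPH
  constructor
  · rintro ⟨b, hb⟩
    have h := (isInducedBlock_iff_eS_ne_zero hP hPH' hCH hHN hb.1 hB).1 hb
    obtain ⟨D, hD, hle⟩ := exists_isDefectGroup_ge hB hP fun h0 => h (by rw [h0, mul_zero])
    exact ⟨D, hD, 1, (sc_one P).le.trans hle⟩
  · rintro ⟨D, hD, x, hx⟩
    exact exists_isInducedBlock_of_br hP hPH' hCH hHN hB
      ((IsDefectGroup.br_ne_zero_iff hB hD hP).2 ⟨x, hx⟩)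

end Cfsg.Agent.S0958
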