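import Cfsg.Statements.S4441
import Cfsg.Agent.Small.DefBlock

set_option autoImplicit false
open Cfsg

namespace Cfsg.Agent.S4441

open Cfsg.Agent.Small Cfsg.Agent.Char Cfsg.Agent.Block

/-- Let p be an odd prime and G a finite group whose Sylow p-subgroup P has order p; let C = C_G(P), N = N_G(P), e the index of C in N and t = (p − 1)/e; fix a maximal ideal M of the algebraic integers containing p and let B₀ be the principal block. Then B₀ is the disjoint union of a set X of e characters and a set Y of t characters such that: each χ ∈ X has a sign ε_χ with χ(1) ≡ ε_χ (mod p) and χ(x y) = ε_χ for every non-identity x ∈ P and every p-regular y ∈ C; all members of Y agree on the p-regular elements of G; there is one sign ε with θ(1) ≡ ε e (mod p) for every θ ∈ Y; and for every θ ∈ Y and every p-regular g, ε θ(g) = Σ_{χ ∈ X} ε_χ χ(g). -/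
theorem result {G : Type*} [Group G] [Fintype G] (p : ℕ) [Fact p.Prime] (M : Ideal Cfsg.AlgInt) (hM : Cfsg.IsPModular p M) (hodd : p ≠ 2) (P : Sylow p G) (hP : Nat.card P = p) (e : ℕ) (he : (Subgroup.centralizer ((P : Subgroup G) : Set G)).relIndex (Subgroup.normalizer ((P : Subgroup G) : Set G)) = e) : ∃ X Y : Set (Cfsg.IrrCharacter G), Cfsg.principalBlock M G = X ∪ Y ∧ Disjoint X Y ∧ Nat.card X = e ∧ Nat.card Y = (p - 1) / e ∧ ∃ (εX : Cfsg.IrrCharacter G → ℤ) (ε : ℤ), (∀ χ ∈ X, (εX χ = 1 ∨ εX χ = -1) ∧ (Cfsg.charDegree (χ : G → ℂ) : ℤ) ≡ εX χ [ZMOD p] ∧ ∀ x : G, x ∈ (P : Subgroup G) → x ≠ 1 → ∀ y : G, y ∈ Subgroup.centralizer ((P : Subgroup G) : Set G) → ¬ p ∣ orderOf y → (χ : G → ℂ) (x * y) = (εX χ : ℂ)) ∧ (ε = 1 ∨ ε = -1) ∧ (∀ θ ∈ Y, (Cfsg.charDegree (θ : G → ℂ) : ℤ) ≡ ε * (e : ℤ) [ZMOD p]) ∧ (∀ θ ∈ Y, ∀ θ' ∈ Y, ∀ g : G, ¬ p ∣ orderOf g → (θ : G → ℂ) g = (θ' : G → ℂ) g) ∧ ∀ θ ∈ Y,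 ∀ g : G, ¬ p ∣ orderOf g → (ε : ℂ) * (θ : G → ℂ) g = ∑ᶠ χ ∈ X, (εX χ : ℂ) * (χ : G → ℂ) g := by
  classical
  have : PMod p M := ⟨hM⟩
  obtain ⟨x, K, hx, h⟩ := exists_defOne_of_sylow P hP
  rw [← hx] at he ⊢
  rw [h.relIndex_eq] at he
  obtain ⟨X, φ, δ, ε, s⟩ := h.exists_shape (irrOne K)
  have hE : Nat.card (h.EE (irrOne K)) = e := by rw [h.EE_irrOne, he]
  have hd : charDegree (irrOne K).1 = 1 := charDegree_eq_of_apply_one (by simp)
  refine ⟨X, Set.range φ, (h.principalBlock_eq M).trans s.blk_eq, s.disjoint,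
    by rw [← hE, ← s.card_X]; simp, by rw [s.card_range, index_EE, hE], δ, ε, fun χ hχ =>
      ⟨s.δ_sign χ hχ, ?_, fun u hu hu1 y hy hy' => ?_⟩, s.ε_sign, ?_, ?_, ?_⟩
  · simpa [h.inert_irrOne, hd] using s.modEq_X hχ
  · obtain ⟨j, rfl⟩ := (mem_zpowers_iff_xp h.ord).1 hu
    have hj : j ≠ 0 := by rintro rfl; simp at hu1
    have hyK : y ∈ K := (h.mem y).2 ⟨hy x (Subgroup.mem_zpowers x), hy'⟩
    rw [h.apply_eq_of_invariant (s.X_mem hχ) (fun _ => rfl) hj ⟨y, hyK⟩, s.uu_X hχ hj]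
    simp
  · rintro _ ⟨a, rfl⟩
    have := s.modEq_φ a
    rwa [he, hd, Nat.cast_one, mul_one] at this
  · rintro _ ⟨a, rfl⟩ _ ⟨b, rfl⟩ g hg
    exact s.φ_regular hg a b
  · rintro _ ⟨a, rfl⟩ g hg
    rw [s.regular hg a, finsum_mem_coe_finset]

end Cfsg.Agent.S4441
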