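import Cfsg.Statements.S0970
import Cfsg.Agent.Block.Cover

set_option autoImplicit false
open Cfsg

namespace Cfsg.Agent.S0970

open Cfsg.Agent.Block Cfsg.Agent.BMod Cfsg.Agent.Char MonoidAlgebra


/-- Let N be a normal subgroup of the finite group G and fix a maximal ideal M of the algebraic integers containing the prime p. Let b be a block of N that is invariant under conjugation by G, and B a block of G covering b (some χ ∈ B has a constituent in b) whose defect is at least that of every block covering b. If P is a defect group of B, then p does not divide the index of P ⊔ N, the subgroup P ∩ N of N is a defect group of b, and the defect of B equals the defect of b plus the exponent of p in the index of N. -/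
theorem result {G : Type*} [Group G] [Fintype G] (p : ℕ) [Fact p.Prime] (M : Ideal Cfsg.AlgInt) (hM : Cfsg.IsPModular p M) (N : Subgroup G) [hN : N.Normal] [Fintype N] (b : Set (Cfsg.IrrCharacter N)) (hb : Cfsg.IsPBlock M b) (hinv : ∀ g : G, ∀ θ ∈ b, ∀ θ' : Cfsg.IrrCharacter N, (∀ n : N, (θ' : N → ℂ) n = (θ : N → ℂ) ⟨g * n * g⁻¹, hN.conj_mem n n.2 g⟩) → θ' ∈ b) (B : Set (Cfsg.IrrCharacter G)) (hB : Cfsg.IsPBlock M B) (hcov : ∃ χ ∈ B, ∃ θ ∈ b, Cfsg.classInner (fun n : N => (χ : G → ℂ) n) (θ : N → ℂ) ≠ 0) (hmax : ∀ B' : Set (Cfsg.IrrCharacter G), Cfsg.IsPBlock M B' → (∃ χ ∈ B', ∃ θ ∈ b, Cfsg.classInner (fun n : N => (χ : G → ℂ) n) (θ : N → ℂ) ≠ 0) → Cfsg.blockDefect p B' ≤ Cfsg.blockDefect p B) (P : Subgroup G) (hP : Cfsg.IsDefectGroup p M B P) : ¬ p ∣ (P ⊔ N).index ∧ Cfsg.IsDefectGroup p M b ((P ⊓ N).subgroupOf N) ∧ Cfsg.blockDefect p B = Cfsg.blockDefect p b + N.index.factorization p := by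
  have : PMod p M := ⟨hM⟩
  simp only [← covers_iff] at hcov hmax
  have hinv' : IsInv N b := fun g θ hθ => hinv g θ hθ _ fun _ => rfl
  have hD := isDef_of_covers_max hb hinv' hB hcov hmax hP
  have hc : eS M N b ∈ fix (F M) (⊤ : Subgroup G) := center_mem_fix hinv'.eS_mem_center _
  have hN' : (⊤ : Subgroup G) ≤ Subgroup.normalizer (N : Set G) := (Subgroup.normalizer_eq_top N).ge
  have h1 := hD.not_dvd_relIndex le_top hN' (isPrim_eS hb) hc
  rw [Subgroup.relIndex_top_right] at h1
  have h2 := (isDefectGroup_subgroupOf_iff hb inf_le_right).2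
    (hD.inf_of_stable le_top hN' (isPrim_eS hb) hc)
  refine ⟨h1, h2, ?_⟩
  rw [← IsDefectGroup.factorization_card hB hP, ← IsDefectGroup.factorization_card hb h2,
    ← Subgroup.relIndex_mul_index (le_sup_right : N ≤ P ⊔ N), Subgroup.relIndex_sup_right,
    Nat.factorization_mul (a := N.relIndex P) Subgroup.index_ne_zero_of_finite
      Subgroup.index_ne_zero_of_finite,
    Finsupp.add_apply, Nat.factorization_eq_zero_of_not_dvd h1, add_zero,
    ← factorization_card_add_index p (N.subgroupOf P),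
    Nat.card_congr (Subgroup.subgroupOfEquivOfLe (inf_le_right : P ⊓ N ≤ N)).toEquiv,
    ← Nat.card_congr (Subgroup.subgroupOfEquivOfLe (inf_le_left : P ⊓ N ≤ P)).toEquiv,
    Subgroup.inf_subgroupOf_left]
  rfl

end Cfsg.Agent.S0970
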