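import Cfsg.Statements.S0972
import Cfsg.Agent.BMod.Central2
-- import your own Cfsg.Agent.* helpers here

set_option autoImplicit false
open Cfsg

namespace Cfsg.Agent.S0972

open Cfsg.Agent.BMod Cfsg.Agent.Block Cfsg.Agent.Transfer Cfsg.Agent.Char Cfsg.Agent.CharDeep

/-- Let B be a block of the finite group G (relative to a maximal ideal M of the algebraic integers containing the prime p) with a defect group P that is normal in G. Then P is commutative if and only if every member of B has height zero. -/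
theorem result {G : Type*} [Group G] [Finite G] (p : ℕ) [Fact p.Prime] (M : Ideal Cfsg.AlgInt) (hM : Cfsg.IsPModular p M) (B : Set (Cfsg.IrrCharacter G)) (hB : Cfsg.IsPBlock M B) (P : Subgroup G) [P.Normal] (hP : Cfsg.IsDefectGroup p M B P) : (∀ a ∈ P, ∀ c ∈ P, a * c = c * a) ↔ ∀ χ ∈ B, Cfsg.blockHeight p B (χ : G → ℂ) = 0 := by
  haveI : PMod p M := ⟨hM⟩
  have hP' := IsDefectGroup.isPGroup hP
  obtain ⟨H, hH⟩ : ∃ H, H = P ⊔ Subgroup.centralizer (P : Set G) := ⟨_, rfl⟩
  obtain ⟨b, hb⟩ : ∃ b, IsInducedBlock M H b B := hH ▸ exists_induced_sup hB hP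
  haveI : H.Normal := hH ▸ inferInstance
  have hPH : P ≤ H := hH ▸ le_sup_left
  have hm := isMax_of_induced_sup hP hH hb
  have hd := isDefectGroup_of_induced_sup hP hH hb
  have hsup := subgroupOf_sup_centralizer hH
  have hcov := IsInducedBlock.covers hb
  have h1 := factorization_index_subgroupOf (p := p) hPH
  have h2 := factorization_card_add_index p P
  rw [IsDefectGroup.factorization_card hB hP] at h2
  have hc : (∀ a ∈ P, ∀ c ∈ P, a * c = c * a) ↔
      ∀ ζ : IrrCharacter (P.subgroupOf H), (ζ : P.subgroupOf H → ℂ) 1 = 1 := by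
    rw [← comm_iff_forall_irr_apply_one]
    exact ⟨fun h a c => Subtype.ext (Subtype.ext (h _ a.2 _ c.2)), fun h a ha c hc =>
      congrArg (fun x : P.subgroupOf H => ((x : H) : G))
        (h ⟨⟨a, hPH ha⟩, ha⟩ ⟨⟨c, hPH hc⟩, hc⟩)⟩
  rw [hc]
  refine ⟨fun h χ hχ => ?_, fun h ζ => ?_⟩
  · obtain ⟨ξ, hξ, ho⟩ := Covers.subset_overSet hcov hB (IsPBlock.isBlockUnion hb.1) hχ
    obtain ⟨ζ, hζ⟩ := exists_liesOver_under (N := P.subgroupOf H) ξ
    have h3 := factorization_deg_of_liesOver hsup hb.1 hd hξ hζ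
    rw [deg_eq_of_eq (n := 1) ((h ζ).trans Nat.cast_one.symm), Nat.factorization_one,
      Finsupp.coe_zero, Pi.zero_apply] at h3
    have h4 := LiesOver.factorization_le (p := p) ho
    have h5 := deg_add_defect p hχ
    omega
  · have := normal_of_sup_centralizer hsup
    obtain ⟨ξ, hξ, hζ⟩ := exists_liesOver_of_pgroup (IsDefectGroup.isPGroup hd) hb.1 ζ
    obtain ⟨χ, hχ, ho⟩ := Covers.exists_liesOver hcov hB hb.1 hξ
    have h3 := factorization_deg_of_liesOver hsup hb.1 hd hξ hζ
    have h4 := LiesOver.le_factorization (p := p) ho (T := NP P (eS M H b))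
      fun g hg => mem_NP.2 ⟨by rw [Subgroup.normalizer_eq_top]; trivial,
        inertia_le_stab hb.1 hξ hg⟩
    rw [factorization_index_eq (sup_le hm.pair.le_NP hm.pair.centralizer_le_NP)
      hm.not_dvd_inertial, ← hH] at h4
    have h5 := deg_add_defect p hχ
    rw [h χ hχ] at h5
    have h6 : (charDegree (ζ : P.subgroupOf H → ℂ)).factorization p = 0 := by omega
    obtain ⟨n, hn⟩ := (IsDefectGroup.isPGroup hd).exists_card_eq
    obtain ⟨j, -, hj⟩ := (Nat.dvd_prime_pow (Fact.out : p.Prime)).1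
      (hn ▸ IsIrrCharacter.charDegree_dvd_card ζ.2)
    rw [hj, (Fact.out : p.Prime).factorization_pow, Finsupp.single_eq_same] at h6
    rw [← deg_cast_irr, hj, h6, pow_zero, Nat.cast_one]

end Cfsg.Agent.S0972
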