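import Cfsg.Statements.S0973
import Cfsg.Agent.BMod.Central2
-- import your own Cfsg.Agent.* helpers here

set_option autoImplicit false
open Cfsg

namespace Cfsg.Agent.S0973

open Cfsg.Agent.BMod Cfsg.Agent.Block Cfsg.Agent.Transfer Cfsg.Agent.Char Cfsg.Agent.CharDeep

/-- Let B be a block of the finite group G with defect group P (relative to a maximal ideal M of the algebraic integers containing p), and let L = P ⊔ C_G(P). Then (i) some block b of L with defect group P (viewed in L) induces B, and (ii) if b and b' are blocks of L both inducing B, there is n ∈ N_G(P) carrying b to b': for every θ ∈ b there is θ' ∈ b' with θ' x = θ (n x n⁻¹) for all x ∈ L. -/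
theorem result {G : Type*} [Group G] [Finite G] (p : ℕ) [Fact p.Prime] (M : Ideal Cfsg.AlgInt) (hM : Cfsg.IsPModular p M) (B : Set (Cfsg.IrrCharacter G)) (hB : Cfsg.IsPBlock M B) (P : Subgroup G) (hP : Cfsg.IsDefectGroup p M B P) : (∃ b : Set (Cfsg.IrrCharacter ↥(P ⊔ Subgroup.centralizer (P : Set G))), Cfsg.IsDefectGroup p M b (P.subgroupOf (P ⊔ Subgroup.centralizer (P : Set G))) ∧ Cfsg.IsInducedBlock M (P ⊔ Subgroup.centralizer (P : Set G)) b B) ∧ ∀ b b' : Set (Cfsg.IrrCharacter ↥(P ⊔ Subgroup.centralizer (P : Set G))), Cfsg.IsInducedBlock M (P ⊔ Subgroup.centralizer (P : Set G)) b B → Cfsg.IsInducedBlock M (P ⊔ Subgroup.centralizer (P : Set G)) b' B → ∃ n ∈ Subgroup.normalizer (P : Set G), ∀ θ ∈ b, ∃ θ' ∈ b', ∀ x : ↥(P ⊔ Subgroup.centralizer (P : Set G)), ∀ hx : n * (x : G) * n⁻¹ ∈ P ⊔ Subgroup.centralizer (P : Set G), (θ' : ↥(P ⊔ Subgroup.centralizer (P : Set G)) → ℂ) x = (θ : ↥(P ⊔ Subgroup.centralizer (P : Set G)) → ℂ) ⟨n * (x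 : G) * n⁻¹, hx⟩ := by
  haveI : PMod p M := ⟨hM⟩
  obtain ⟨b, hb⟩ := exists_induced_sup hB hP
  refine ⟨⟨b, isDefectGroup_of_induced_sup hP rfl hb, hb⟩, fun b b' hb hb' => ?_⟩
  have hm := isMax_of_induced_sup hP rfl hb
  have hm' := isMax_of_induced_sup hP rfl hb'
  obtain ⟨k, -, hk, hk'⟩ := exists_conj_of_isDef le_rfl top_le_normalizer_top hm.prim hm.isDef
    hm.pair hm.mul_br hm.isDef le_top hm'.pair hm'.mul_br
  have hkN := mem_normalizer_iff_sc.2 hk
  have hH : sc k (P ⊔ Subgroup.centralizer (P : Set G)) = P ⊔ Subgroup.centralizer (P : Set G) := by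
    rw [sc_sup, ← centralizer_sc, hk]
  rw [← eS_conjSet hH] at hk'
  have := eS_inj (isPBlock_conjSet hH hb.1) hb'.1 hk'
  refine ⟨k⁻¹, inv_mem hkN, fun θ hθ => ⟨mapIrr (conjEquiv hH) θ, ?_, fun x hx => ?_⟩⟩
  · rw [← this, conjSet_eq_image hH]; exact ⟨θ, hθ, rfl⟩
  · rw [mapIrr_apply]
    exact congrArg _ (Subtype.ext ((coe_conjEquiv_symm hH x).trans (by simp)))

end Cfsg.Agent.S0973
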