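import Cfsg.Statements.S0987
import Cfsg.Agent.Small.PermP
import Cfsg.Agent.SolvStr.Huppert
import Cfsg.Agent.Classical.DicksonAbs

set_option autoImplicit false
open Cfsg

namespace Cfsg.Agent.S0987

open Subgroup

/-- If a finite group has order pqr for primes p < q < r, then its Sylow r-subgroups are normal. -/
theorem result {G : Type*} [Group G] [Finite G] (p q r : ℕ) (hp : p.Prime) (hq : q.Prime) [Fact r.Prime] (hpq : p < q) (hqr : q < r) (hG : Nat.card G = p * q * r) (R : Sylow r G) : (R : Subgroup G).Normal := by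
  have hr : r.Prime := Fact.out
  have := Fact.mk hp
  obtain ⟨P⟩ : Nonempty (Sylow p G) := inferInstance
  have hpq' : ¬ p ∣ q * r := fun h => by
    rcases (hp.dvd_mul).1 h with h | h
    · exact hpq.ne ((Nat.prime_dvd_prime_iff_eq hp hq).1 h)
    · exact (hpq.trans hqr).ne ((Nat.prime_dvd_prime_iff_eq hp hr).1 h)
  have hP : Nat.card P = p ^ 1 :=
    Classical.card_sylow_of_card P (by rw [hG, pow_one, mul_assoc]) hpq'
  rw [pow_one] at hP
  have hm : (Nat.card G).minFac = p := by
    have h1 : Nat.card G ≠ 1 := by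
      rw [hG, mul_assoc]
      exact fun h => hp.one_lt.ne' (Nat.eq_one_of_mul_eq_one_right h)
    have h2 := Nat.minFac_prime h1
    refine le_antisymm (Nat.minFac_le_of_dvd hp.two_le (by rw [hG, mul_assoc]; simp)) ?_
    have h3 := Nat.minFac_dvd (Nat.card G)
    generalize (Nat.card G).minFac = s at *
    rw [hG] at h3
    rcases (h2.dvd_mul).1 h3 with h | h
    · rcases (h2.dvd_mul).1 h with h | h
      · exact ((Nat.prime_dvd_prime_iff_eq h2 hp).1 h).ge
      · have := (Nat.prime_dvd_prime_iff_eq h2 hq).1 h; omega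
    · have := (Nat.prime_dvd_prime_iff_eq h2 hr).1 h; omega
  have hc := (isCyclic_of_prime_card hP).isComplement' hm
  generalize hN : (MonoidHom.transferSylow P _).ker = N at hc
  have : N.Normal := hN ▸ inferInstance
  have hi : N.index = p := hc.symm.index_eq_card.trans hP
  have hcard : Nat.card N = q * r := by
    have := N.index_mul_card
    rw [hi, hG, mul_assoc] at this
    exact Nat.eq_of_mul_eq_mul_left hp.pos this
  have hR : (R : Subgroup G) ≤ N := by
    rw [← relIndex_eq_one]
    obtain ⟨k, hk⟩ := (IsPGroup.iff_card.1 R.isPGroup')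
    have h1 : N.relIndex R ∣ r ^ k := hk ▸ relIndex_dvd_card _ _
    have h2 : N.relIndex R ∣ p := hi ▸ relIndex_dvd_index_of_normal _ _
    exact Nat.eq_one_of_dvd_coprimes (Nat.Coprime.pow_left k
      ((Nat.coprime_primes hr hp).2 (hpq.trans hqr).ne')) h1 h2
  refine SolvStr.normal_sylow_of_le_normal R hR (Small.normal_of_card_sylow_eq_one ?_ _)
  have h1 : Nat.card (Sylow r N) ∣ q :=
    ((Nat.Prime.coprime_iff_not_dvd hr).2 (not_dvd_card_sylow r N)).symm.dvd_of_dvd_mul_right
      (hcard ▸ ((R.subtype hR).card_dvd_index.trans (index_dvd_card _)))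
  have h2 := card_sylow_modEq_one r N
  rcases (Nat.dvd_prime hq).1 h1 with h | h
  · exact h
  · rw [h] at h2
    have := Nat.le_of_dvd (by have := hq.two_le; omega) ((Nat.modEq_iff_dvd' hq.pos).1 h2.symm)
    omega

end Cfsg.Agent.S0987
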