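import Cfsg.Statements.S0988
import Cfsg.Agent.Small.Data
import Cfsg.Agent.S0499
import Cfsg.Agent.S0496
import Cfsg.Agent.S0144

set_option autoImplicit false
open Cfsg

namespace Cfsg.Agent.S0988

open Cfsg.Agent.Small Subgroup

theorem twelve {G : Type*} [Group G] [Finite G] [IsSimpleGroup G] (hc : ¬ IsCyclic G)
    (hn : ¬ IsMulCommutative G) {r : ℕ} (hr : r.Prime) (h2 : r ≠ 2) (h3 : r ≠ 3)
    (hG : Nat.card G = 12 * r) : Nat.card G = 60 := by
  have := Fact.mk hr
  obtain ⟨P⟩ : Nonempty (Sylow r G) := inferInstance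
  have hd : ¬ r ∣ 12 := fun h => by
    have h : r ∣ 2 ^ 2 * 3 := h
    rcases (hr.dvd_mul).1 h with h | h
    · exact h2 ((Nat.prime_dvd_prime_iff_eq hr Nat.prime_two).1 (hr.dvd_of_dvd_pow h))
    · exact h3 ((Nat.prime_dvd_prime_iff_eq hr Nat.prime_three).1 h)
  have h1 : Nat.card (Sylow r G) ∣ 12 :=
    ((Nat.Coprime.symm ((Nat.Prime.coprime_iff_not_dvd hr).2 (not_dvd_card_sylow r G)))).dvd_of_dvd_mul_right
      (hG ▸ (P.card_dvd_index.trans (index_dvd_card _)))
  have h4 := card_sylow_dvd_factorial hc (p := r) (hG ▸ Dvd.intro_left _ rfl)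
  have h5 := card_sylow_modEq_one r G
  have h6 : Nat.card (Sylow r G) ≠ 1 := fun h => by
    rw [h, hG] at h4
    have := Nat.le_of_dvd (by decide) h4
    have := hr.pos
    simp at *
  have h7 := Nat.le_of_dvd (by decide) h1
  have h8 : r ≤ 11 := by
    have h0 : 1 ≤ Nat.card (Sylow r G) := Nat.card_pos
    have := Nat.le_of_dvd (by omega) ((Nat.modEq_iff_dvd' h0).1 h5.symm)
    omega
  have := S0496.result hn (by omega)
  omega

/-- If a finite simple group has order p^2 * q * r with p, q and r prime, then its order is 60. -/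
theorem result {G : Type*} [Group G] [Finite G] [IsSimpleGroup G] (p q r : ℕ) (hp : p.Prime) (hq : q.Prime) (hr : r.Prime) (hG : Nat.card G = p ^ 2 * q * r) : Nat.card G = 60 := by
  have hc : ¬ IsCyclic G := not_isCyclic_of_card fun h => by
    rw [hG, mul_assoc, pow_two, mul_assoc] at h
    have := hq.one_lt
    have := hr.one_lt
    have := hp.one_lt
    exact Nat.not_prime_mul hp.one_lt.ne' (by nlinarith [Nat.mul_lt_mul'' hq.one_lt hr.one_lt]) h
  have hn : ¬ IsMulCommutative G := fun h => by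
    obtain ⟨x, y, hxy⟩ := exists_not_comm hc
    exact hxy (h.is_comm.comm x y)
  have hs := not_solvable hc
  have hpq : p ≠ q := fun h => hs (S0144.result p r 3 1 hp hr (by rw [hG, ← h]; ring))
  have hpr : p ≠ r := fun h => hs (S0144.result p q 3 1 hp hq (by rw [hG, ← h]; ring))
  have hqr : q ≠ r := fun h => hs (S0144.result p q 2 2 hp hq (by rw [hG, ← h]; ring))
  have h4 := four_dvd_card hc
  have hp2 : p = 2 := by
    by_contra h
    have h1 : Nat.Coprime 4 (p ^ 2) :=
      Nat.Coprime.pow 2 2 ((Nat.coprime_primes Nat.prime_two hp).2 (Ne.symm h))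
    rw [hG, mul_assoc] at h4
    have h2 := h1.dvd_of_dvd_mul_left h4
    rcases hq.eq_two_or_odd' with rfl | ⟨k, hk⟩
    · have : 2 ∣ r := by omega
      exact hqr ((Nat.prime_dvd_prime_iff_eq Nat.prime_two hr).1 this)
    · have h3 : Nat.Coprime 4 q := Nat.Coprime.pow_left 2
        ((Nat.coprime_primes Nat.prime_two hq).2 (by omega))
      have := h3.dvd_of_dvd_mul_left h2
      have := (Nat.dvd_prime hr).1 this
      rcases this with h | h
      · omega
      · rw [← h] at hr; norm_num at hr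
  subst hp2
  have ho : Odd (q * r) := (hq.odd_of_ne_two hpq.symm).mul (hr.odd_of_ne_two hpr.symm)
  have h12 : 12 ∣ Nat.card G := by
    have := S0499.result hn (even_iff_two_dvd.2 (even_card hc))
    obtain ⟨k, hk⟩ := ho
    rw [hG, mul_assoc, hk] at this ⊢
    omega
  have h3 : 3 ∣ q * r := by
    rw [hG, mul_assoc] at h12
    omega
  rcases (Nat.prime_three.dvd_mul).1 h3 with h | h
  · obtain rfl := (Nat.prime_dvd_prime_iff_eq Nat.prime_three hq).1 h
    exact twelve hc hn hr hpr.symm hqr.symm (by rw [hG]; ring)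
  · obtain rfl := (Nat.prime_dvd_prime_iff_eq Nat.prime_three hr).1 h
    exact twelve hc hn hq hpq.symm hqr (by rw [hG]; ring)

end Cfsg.Agent.S0988
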