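import Cfsg.Statements.S0989
import Cfsg.Agent.Small.SelfCent
import Mathlib.GroupTheory.Perm.Centralizer

set_option autoImplicit false
open Cfsg

namespace Cfsg.Agent.S0989

open Subgroup Equiv.Perm Cfsg.Agent.Small

/-- In the symmetric group on p or p + 1 letters, p a prime, the normalizer of a Sylow p-subgroup has order p * (p - 1). -/
theorem result {α : Type*} [Fintype α] [DecidableEq α] (p : ℕ) [Fact p.Prime] (hα : Fintype.card α = p ∨ Fintype.card α = p + 1) (P : Sylow p (Equiv.Perm α)) : Nat.card ↥(Subgroup.normalizer ((P : Subgroup (Equiv.Perm α)) : Set (Equiv.Perm α))) = p * (p - 1) := by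
  have hp : p.Prime := Fact.out
  have h2 := hp.two_le
  have hty : ∀ y : Equiv.Perm α, orderOf y = p → y.cycleType = {p} := fun y hy => by
    have h := isCycle_of_prime_order' (σ := y) (hy ▸ hp) (by omega)
    rw [h.cycleType, ← h.orderOf, hy]
  obtain ⟨x, hx⟩ := exists_prime_orderOf_dvd_card' (G := Equiv.Perm α) p (by
    rw [Nat.card_eq_fintype_card, Fintype.card_perm]
    exact Nat.dvd_factorial hp.pos (by omega))
  have hC : centralizer ({x} : Set (Equiv.Perm α)) = zpowers x := by
    refine (eq_of_le_of_card_ge (zpowers_le.2 (mem_centralizer_singleton_iff.2 rfl)) ?_).symm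
    rw [nat_card_centralizer, hty x hx, Nat.card_zpowers, hx]
    rcases hα with h | h <;> simp [h]
  have h := defOne_bot hx hC
  have hE : (expo h.ord).range = ⊤ := by
    refine eq_top_iff.2 fun b _ => ?_
    have := (h.isConj_xp_iff 1 b).1 (isConj_iff_cycleType_eq.2 (by
      rw [hty _ (orderOf_xp hx (Units.ne_zero _)), hty _ (orderOf_xp hx (Units.ne_zero _))]))
    simpa using this
  have h3 := h.card_eq_bot
  rw [hE, card_top, Nat.card_eq_fintype_card (α := (ZMod p)ˣ), ZMod.card_units,
    P.card_eq_index_normalizer, ← index_mul_card (normalizer ((P : Subgroup (Equiv.Perm α)) : Set _))] at h3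
  rw [Nat.eq_of_mul_eq_mul_left (Nat.pos_of_ne_zero index_ne_zero_of_finite) h3, mul_comm]

end Cfsg.Agent.S0989
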