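import Cfsg.Statements.S0990
import Mathlib.GroupTheory.Sylow
import Mathlib.GroupTheory.SpecificGroups.Alternating

set_option autoImplicit false
open Cfsg

namespace Cfsg.Agent.S0990

open Subgroup

/-- Let p be an odd prime and P a Sylow p-subgroup of the symmetric group on a finite set with at least two elements. Then P is contained in the alternating group, and twice the order of the normalizer of P inside the alternating group equals the order of the normalizer of P in the symmetric group. -/
theorem result {α : Type*} [Fintype α] [DecidableEq α] (hα : 2 ≤ Fintype.card α) (p : ℕ) [Fact p.Prime] (hp : p ≠ 2) (P : Sylow p (Equiv.Perm α)) : (P : Subgroup (Equiv.Perm α)) ≤ alternatingGroup α ∧ 2 * Nat.card ↥(Subgroup.normalizer ((((P : Subgroup (Equiv.Perm α)).subgroupOf (alternatingGroup α) : Subgroup ↥(alternatingGroup α)) : Set ↥(alternatingGroup α)))) = Nat.card ↥(Subgroup.normalizer ((P : Subgroup (Equiv.Perm α)) : Set (Equiv.Perm α))) := by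
  have hpp : p.Prime := Fact.out
  have hP : (P : Subgroup (Equiv.Perm α)) ≤ alternatingGroup α := fun x hx => by
    obtain ⟨k, hk⟩ := P.isPGroup' ⟨x, hx⟩
    have h1 := congrArg (fun y : P => Equiv.Perm.sign (y : Equiv.Perm α)) hk
    simp only [SubgroupClass.coe_pow, map_pow, OneMemClass.coe_one, map_one] at h1
    rw [Equiv.Perm.mem_alternatingGroup]
    rcases Int.units_eq_one_or (Equiv.Perm.sign x) with h | h
    · exact h
    · rw [h, ((hpp.odd_of_ne_two hp).pow).neg_one_pow] at h1
      exact absurd h1 (by decide)
  refine ⟨hP, ?_⟩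
  have : Nontrivial α := Fintype.one_lt_card_iff_nontrivial.1 hα
  rw [← subgroupOf_normalizer_eq hP]
  set N := normalizer ((P : Subgroup (Equiv.Perm α)) : Set (Equiv.Perm α))
  have h1 : N ⊔ alternatingGroup α = ⊤ := P.normalizer_sup_eq_top' hP
  have h2 : (alternatingGroup α).relIndex N = 2 := by
    rw [← relIndex_sup_right, h1, relIndex_top_right, alternatingGroup.index_eq_two]
  rw [← ((alternatingGroup α).subgroupOf N).index_mul_card, ← h2, ← card_subtype,
    ← card_subtype N, subgroupOf_map_subtype, subgroupOf_map_subtype, inf_comm]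
  rfl

end Cfsg.Agent.S0990
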