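import Cfsg.Statements.S0992
import Cfsg.Agent.Small.Data
import Cfsg.Agent.BG.S1

set_option autoImplicit false
open Cfsg

namespace Cfsg.Agent.S0992

open Cfsg.Agent.Small Subgroup

/-- Let G be a non-abelian finite simple group of even order not divisible by 8, and T a Sylow 2-subgroup. Then T is a Klein four-group and the centralizer of T has index 3 in the normalizer of T. -/
theorem result {G : Type*} [Group G] [Finite G] [IsSimpleGroup G] (hG : ¬ IsMulCommutative G) (h2 : Even (Nat.card G)) (h8 : ¬ 8 ∣ Nat.card G) (T : Sylow 2 G) : IsKleinFour ↥(T : Subgroup G) ∧ (Subgroup.centralizer ((T : Subgroup G) : Set G)).relIndex (Subgroup.normalizer ((T : Subgroup G) : Set G)) = 3 := by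
  have hG := not_isCyclic_of_not_comm hG
  have := Fact.mk Nat.prime_two
  have hT : Nat.card T = 2 ^ 2 := by
    have h1 := (Nat.prime_two.pow_dvd_iff_le_factorization (k := 2) Nat.card_pos.ne').1
      (four_dvd_card hG)
    have h2 := mt (Nat.prime_two.pow_dvd_iff_le_factorization (k := 3) Nat.card_pos.ne').2 h8
    rw [T.card_eq_multiplicity, show (Nat.card G).factorization 2 = 2 by omega]
  have hn := not_le_centralizer hG h2.two_dvd T
  have hc : ¬ IsCyclic T := fun h =>
    hn (h.normalizer_le_centralizer ((Nat.minFac_eq_two_iff _).2 h2.two_dvd))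
  have h3 : ∀ t : T, t ^ 2 = 1 := fun t => by
    obtain ⟨k, hk, e⟩ := (Nat.dvd_prime_pow Nat.prime_two).1 (hT ▸ orderOf_dvd_natCard t)
    rw [← orderOf_dvd_iff_pow_eq_one, e]
    interval_cases k
    · decide
    · decide
    · exact absurd (isCyclic_of_orderOf_eq_card t (e.trans hT.symm)) hc
  have : Nontrivial T := Finite.one_lt_card_iff_nontrivial.1 (by omega)
  have hab := IsPGroup.isMulCommutative_of_card_eq_prime_sq hT
  refine ⟨⟨hT, (Monoid.exponent_eq_prime_iff Nat.prime_two).2 fun t h1 =>
    orderOf_eq_prime (h3 t) h1⟩, ?_⟩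
  have h4 := BG.relIndex_cent_p2Elem_dvd (p := 2) (B := ⊤) (E := T)
    ⟨le_top, ⟨hab, fun t ht => congrArg Subtype.val (h3 ⟨t, ht⟩)⟩, hT⟩ le_rfl
  have h5 := mt relIndex_eq_one.1 hn
  have h6 : ¬ 2 ∣ _ := fun h => T.not_dvd_index (h.trans ((relIndex_dvd_of_le_left _
    T.1.le_centralizer).trans (relIndex_dvd_index_of_le le_normalizer)))
  have := Nat.le_of_dvd (by omega) h4
  generalize (centralizer ((T : Subgroup G) : Set G)).relIndex _ = n at *
  interval_cases n <;> omega

end Cfsg.Agent.S0992
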