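import Cfsg.Statements.S0998
import Cfsg.Agent.S0997
import Cfsg.Agent.S0992
import Cfsg.Agent.S0494
import Cfsg.Agent.S0495

set_option autoImplicit false
open Cfsg

namespace Cfsg.Agent.S0998

open Cfsg.Agent.Small

theorem aux {G : Type*} [Group G] [Finite G] [IsSimpleGroup G] (hG : ¬ IsCyclic G) (p r b : ℕ) (hp : p.Prime)
    (hr : r.Prime) (h2 : r ≠ 2) (hpr : r < p) (hG' : Nat.card G = p * r * 2 ^ b) :
    Nat.card G = 60 ∨ Nat.card G = 168 := by
  have hr2 := hr.eq_two_or_odd.resolve_left h2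
  have hr3 := hr.two_le
  have hp2 := hp.eq_two_or_odd.resolve_left (by omega)
  have h3 : ∀ n, n ∣ r * 2 ^ b * 2 → n % 2 = 1 → n = 1 ∨ n = r := fun n hn h => by
    rw [mul_assoc, ← pow_succ] at hn
    exact (Nat.dvd_prime hr).1 (((Nat.coprime_two_right.2 (Nat.odd_iff.2 h)).pow_right _).dvd_of_dvd_mul_right hn)
  have h4 : ∀ n, n ∣ r * 2 ^ b * 2 → 3 ∣ n → r = 3 := fun n hn h =>
    ((h3 3 (h.trans hn) rfl).resolve_left (by omega)).symm
  rcases S0997.result hG p 2 b r hp Nat.prime_two (by omega) (by rw [hG']; ring) (by omega) with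
    ⟨m, F, _, _, e, -, ⟨f⟩⟩ | ⟨m, F, _, _, e, e', h5, ⟨f⟩⟩
  · have h5 := Classical.card_PSL2_mul (F := F)
    rw [Nat.card_eq_fintype_card (α := F), e, ← Nat.card_congr f.toEquiv, Nat.gcd_eq_left (by omega)] at h5
    have h6 : (p - 1) * (p + 1) = r * 2 ^ b * 2 :=
      Nat.eq_of_mul_eq_mul_left hp.pos (by rw [← mul_assoc, ← h5, hG']; ring)
    have h7 : ¬ 3 ∣ p := fun e => by have := (Nat.prime_dvd_prime_iff_eq Nat.prime_three hp).1 e; omega
    have h8 : p - 1 ∣ r * 2 ^ b * 2 := Dvd.intro _ h6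
    have h9 : p + 1 ∣ r * 2 ^ b * 2 := Dvd.intro_left _ h6
    obtain rfl : r = 3 := by
      rcases (show 3 ∣ p - 1 ∨ 3 ∣ p + 1 by clear hp2 hr2; omega) with h | h
      exacts [h4 _ h8 h, h4 _ h9 h]
    have : p = 5 ∨ p = 7 := by
      rcases (show p % 4 = 1 ∨ p % 4 = 3 by omega) with h | h
      · have := h3 ((p + 1) / 2) ((Nat.div_dvd_of_dvd (by omega)).trans h9) (by omega); omega
      · have := h3 ((p - 1) / 2) ((Nat.div_dvd_of_dvd (by omega)).trans h8) (by omega); omega
    rcases this with rfl | rfl <;> omega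
  · have h6 := Classical.card_PSL2_mul (F := F)
    have hm : 2 ∣ 2 ^ m := by omega
    rw [Nat.card_eq_fintype_card (α := F), e, ← Nat.card_congr f.toEquiv, ← e',
      Nat.coprime_two_left.2 (Nat.odd_iff.2 (by omega)), one_mul] at h6
    have h7 : 2 ^ m * (2 ^ m - 1) = r * 2 ^ b := Nat.eq_of_mul_eq_mul_right hp.pos (by rw [← h6, hG']; ring)
    have h8 : 2 ^ m - 1 ∣ r * 2 ^ b * 2 := (Dvd.intro_left _ h7).mul_right _
    have h9 : ¬ 3 ∣ p := fun e => by have := (Nat.prime_dvd_prime_iff_eq Nat.prime_three hp).1 e; omega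
    have h10 : ¬ 3 ∣ 2 ^ m := fun e => absurd (Nat.prime_three.dvd_of_dvd_pow e) (by decide)
    have h11 := h4 _ h8 (by clear hp2 hr2 hm; omega)
    have h12 := h3 _ h8 (by omega)
    have h13 : 2 ^ m = 4 := by omega
    rw [h13, e', h13] at h6
    exact Or.inl h6

/-- A non-cyclic finite simple group whose order has the form p * r * q^b for distinct primes p, q, r is isomorphic to the projective special linear group of dimension 2 over the field with 5 or with 7 elements. -/
theorem result {G : Type*} [Group G] [Finite G] [IsSimpleGroup G] (hG : ¬ IsCyclic G) (p q r b : ℕ) (hp : p.Prime) (hq : q.Prime) (hr : r.Prime) (hpq : p ≠ q) (hpr : p ≠ r) (hqr : q ≠ r) (hG' : Nat.card G = p * r * q ^ b) : (∃ (F : Type) (_ : Field F) (_ : Fintype F), Fintype.card F = 5 ∧ Nonempty (G ≃* Matrix.ProjectiveSpecialLinearGroup (Fin 2) F)) ∨ (∃ (F : Type) (_ : Field F) (_ : Fintype F), Fintype.card F = 7 ∧ Nonempty (G ≃* Matrix.ProjectiveSpecialLinearGroup (Fin 2) F))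 := by
  obtain ⟨T⟩ : Nonempty (Sylow 2 G) := inferInstance
  have h4 : 4 ∣ Nat.card G := by
    by_contra h
    have := (S0992.result (fun e => not_solvable hG (isSolvable_of_comm e.is_comm.comm)) (even_iff_two_dvd.2 (even_card hG))
      (fun e => h ((by decide : 4 ∣ 8).trans e)) T).1.card_four
    exact h (this ▸ Subgroup.card_subgroup_dvd_card _)
  obtain rfl : q = 2 := by
    by_contra h
    rw [hG'] at h4
    have h5 := (Nat.Coprime.pow 2 b ((Nat.coprime_primes Nat.prime_two hq).2 (Ne.symm h))).dvd_of_dvd_mul_right h4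
    have h6 : ∀ s t : ℕ, t.Prime → 2 ^ 2 ∣ s * t → t ≠ 2 → 2 ^ 2 ∣ s := fun s t ht h e =>
      (((Nat.coprime_primes Nat.prime_two ht).2 e.symm).pow_left 2).dvd_of_dvd_mul_right h
    by_cases e : r = 2
    · have := h6 r p hp (mul_comm p r ▸ h5) (e ▸ hpr); omega
    · exact absurd ((Nat.dvd_prime hp).1 (h6 p r hr h5 e)) (by rintro (h | h) <;> [omega; exact absurd (h ▸ hp) (by decide)])
  have : Nat.card G = 60 ∨ Nat.card G = 168 := by
    rcases hpr.lt_or_gt with h | h
    · exact aux hG r p b hr hp hpq h (by rw [hG']; ring)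
    · exact aux hG p r b hp hr hqr.symm h hG'
  rcases this with h | h
  · haveI : Fact (Nat.Prime 5) := ⟨by decide⟩
    haveI : IsSimpleGroup (Matrix.ProjectiveSpecialLinearGroup (Fin 2) (ZMod 5)) :=
      Matrix.ProjectiveSpecialLinearGroup.rank_two_simple (by simp)
    have h5 := Classical.card_PSL2_mul (F := ZMod 5)
    rw [Nat.card_zmod] at h5
    obtain ⟨f⟩ := S0494.result h
    obtain ⟨g⟩ := S0494.result (G := Matrix.ProjectiveSpecialLinearGroup (Fin 2) (ZMod 5)) (by
      rw [show Nat.gcd 2 (5 - 1) = 2 by decide] at h5; omega)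
    exact Or.inl ⟨ZMod 5, inferInstance, inferInstance, ZMod.card 5, ⟨f.trans g.symm⟩⟩
  · haveI : Fact (Nat.Prime 7) := ⟨by decide⟩
    exact Or.inr ⟨ZMod 7, inferInstance, inferInstance, ZMod.card 7, S0495.result h (ZMod.card 7)⟩

end Cfsg.Agent.S0998
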