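import Cfsg.Statements.S1001
import Cfsg.Agent.Small.Simp
import Cfsg.Agent.S0904
import Cfsg.Agent.S0144

set_option autoImplicit false
open Cfsg

namespace Cfsg.Agent.S1001

open Cfsg.Agent.Small Subgroup

/-- In a finite simple group whose order has the form p * 3^a * 2^b with p prime, the centralizer of any element of order p is the cyclic group it generates. -/
theorem result {G : Type*} [Group G] [Finite G] [IsSimpleGroup G] (p a b : ℕ) (hp : p.Prime) (hG : Nat.card G = p * 3 ^ a * 2 ^ b) (x : G) (hx : orderOf x = p) : Subgroup.centralizer ({x} : Set G) = Subgroup.zpowers x := by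
  have := Fact.mk hp
  by_cases hc : IsCyclic G
  · have h1 : zpowers x = ⊤ := by
      obtain ⟨g, hg⟩ := hc.exists_generator
      refine (IsSimpleGroup.eq_bot_or_eq_top_of_normal _ ⟨fun a ha b => ?_⟩).resolve_left fun e => ?_
      · obtain ⟨i, rfl⟩ := hg a
        obtain ⟨j, rfl⟩ := hg b
        rwa [(Commute.zpow_zpow_self g j i).eq, mul_inv_cancel_right]
      · rw [zpowers_eq_bot.1 e, orderOf_one] at hx
        exact hp.one_lt.ne hx
    refine le_antisymm (h1 ▸ le_top) (zpowers_le.2 (mem_centralizer_singleton_iff.2 rfl))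
  have hs := not_solvable hc
  have h2 : p ≠ 2 := fun h => hs (S0144.result 3 2 a (b + 1) Nat.prime_three Nat.prime_two
    (by rw [hG, h]; ring))
  have h3 : p ≠ 3 := fun h => hs (S0144.result 3 2 (a + 1) b Nat.prime_three Nat.prime_two
    (by rw [hG, h]; ring))
  obtain ⟨K, h⟩ := exists_defOne hx (by
    have := (zpowers x).index_mul_card
    rw [Nat.card_zpowers, hx, hG, mul_assoc, mul_comm p] at this
    rw [Nat.eq_of_mul_eq_mul_right hp.pos this]
    intro e
    rcases hp.dvd_mul.1 e with e | e
    · exact h3 ((Nat.prime_dvd_prime_iff_eq hp Nat.prime_three).1 (hp.dvd_of_dvd_pow e))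
    · exact h2 ((Nat.prime_dvd_prime_iff_eq hp Nat.prime_two).1 (hp.dvd_of_dvd_pow e)))
  rw [← h.centralizer_eq]
  exact S0904.result 3 2 p a b Nat.prime_three Nat.prime_two (by decide) h3.symm h2.symm
    (by rw [hG]; ring) h.sylow

end Cfsg.Agent.S1001
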