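import Cfsg.Statements.S1006
import Cfsg.Agent.Small.G168

set_option autoImplicit false
open Cfsg

namespace Cfsg.Agent.S1006

open Cfsg.Agent.Small Cfsg.Agent.Small.G168 Subgroup DihedralGroup

local instance fact2 : Fact (Nat.Prime 2) := ⟨Nat.prime_two⟩
local instance fact3 : Fact (Nat.Prime 3) := ⟨Nat.prime_three⟩
local instance fact7 : Fact (Nat.Prime 7) := ⟨by norm_num⟩

/-- In a simple group of order 168 there are 56 elements of order 3, all conjugate; 42 elements of order 4, all conjugate; and 48 elements of order 7 falling into two conjugacy classes of size 24, an element of order 7 not being conjugate to its inverse. -/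
theorem result {G : Type*} [Group G] [Finite G] [IsSimpleGroup G] (h : Nat.card G = 168) : Nat.card {g : G // orderOf g = 3} = 56 ∧ (∀ s t : G, orderOf s = 3 → orderOf t = 3 → IsConj s t) ∧ Nat.card {g : G // orderOf g = 4} = 42 ∧ (∀ s t : G, orderOf s = 4 → orderOf t = 4 → IsConj s t) ∧ Nat.card {g : G // orderOf g = 7} = 48 ∧ ∀ x : G, orderOf x = 7 → Nat.card {g : G // IsConj x g} = 24 ∧ ¬ IsConj x x⁻¹ := by
  classical
  have := Fintype.ofFinite G
  have c3 : ∀ s t : G, orderOf s = 3 → orderOf t = 3 → IsConj s t := fun s t hs ht => by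
    have d := defOne h (by decide) hs
    obtain ⟨j, ⟨y, hy⟩, hj, e⟩ := d.exists_conj_of_dvd ht.symm.dvd
    obtain rfl := mem_bot.1 hy
    have hE : E[d] = ⊤ := eq_top_of_card_eq _ (by
      rw [(card_E3 h d).1, Nat.card_eq_fintype_card, ZMod.card_units])
    have := (d.isConj_xp_iff 1 (Units.mk0 j hj)).2 (hE ▸ mem_top _)
    rw [Units.val_one, xp_one hs] at this
    exact this.trans (by simpa using e.symm)
  obtain ⟨φ, hφ⟩ := exists_isD8 h
  have c4 : ∀ s : G, orderOf s = 4 → IsConj (φ (r 1)) s := fun s hs => by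
    obtain ⟨T, hT⟩ := (IsPGroup.of_card (p := 2) (n := 2)
      ((Nat.card_zpowers s).trans hs)).exists_le_sylow
    obtain ⟨g, hg⟩ := D8.exists_range_eq hφ T
    obtain ⟨d, rfl⟩ := hg.ge (hT (mem_zpowers s))
    rw [(hφ.map_conj g).orderOf_eq] at hs
    have key : ∀ d : DihedralGroup 4, d ^ 2 ≠ 1 → ∃ c : DihedralGroup 4, c * r 1 * c⁻¹ = d := by
      decide
    obtain ⟨c, rfl⟩ := key d (pow_ne_one_of_lt_orderOf (by decide) (by omega))
    exact isConj_iff.2 ⟨g * φ c, by simp [mul_assoc]⟩
  obtain ⟨x, hx⟩ := exists_prime_orderOf_dvd_card' (G := G) 3 (by rw [h]; decide)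
  have n3 := card_orderOf h hx (fun b => c3 x b hx) (by
    rw [(defOne h (by decide) hx).centralizer_bot, Nat.card_zpowers, hx])
  have n4 := card_orderOf h ((hφ.orderOf_eq (r 1)).trans orderOf_r_one) c4 hφ.card_cent_r
  have n2 := card_two h
  have n1 := card_orderOf h (orderOf_one (G := G)) (fun b hb => by
    rw [orderOf_eq_one_iff.1 hb]) (c := 168) (by
      rw [← h, (eq_top_iff.2 fun g _ => mem_centralizer_singleton_iff.2 (by simp) :
        centralizer ({1} : Set G) = ⊤), card_top])
  have tot := Finset.card_eq_sum_card_fiberwise (s := Finset.univ) (f := fun g : G => orderOf g)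
    (t := {1, 2, 3, 4, 7}) fun g _ => by simpa using orderOf_cases h g
  rw [Finset.card_univ, ← Nat.card_eq_fintype_card, h] at tot
  simp only [Nat.card_eq_fintype_card, Fintype.card_subtype] at n1 n2 n3 n4 ⊢
  rw [Finset.sum_insert (by decide), Finset.sum_insert (by decide), Finset.sum_insert (by decide),
    Finset.sum_pair (by decide)] at tot
  refine ⟨by omega, c3, by omega, fun s t hs ht => (c4 s hs).symm.trans (c4 t ht), by omega,
    fun y hy => ⟨?_, fun e => ?_⟩⟩
  · have := Invol.card_class_mul_card_centralizer y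
    rw [(defOne h (by decide) hy).centralizer_bot, Nat.card_zpowers, hy, h,
      Nat.card_eq_fintype_card, Fintype.card_subtype] at this
    omega
  · have d := defOne h (by decide) hy
    have := (d.isConj_xp_iff 1 (-1)).1 (by
      rwa [Units.val_neg, Units.val_one, xp_neg hy, xp_one hy])
    have := pow_card_eq_one' (x := (⟨_, this⟩ : E[d]))
    rw [(card_E7 h d).1] at this
    have h7 : (1⁻¹ * -1 : (ZMod 7)ˣ) ^ 3 = 1 := congrArg Subtype.val this
    exact absurd h7 (by decide)

end Cfsg.Agent.S1006
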