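import Cfsg.Statements.S1007
import Cfsg.Agent.Small.G168

set_option autoImplicit false
open Cfsg

namespace Cfsg.Agent.S1007

open Cfsg.Agent.Small Subgroup

/-- Let G be a simple group of order 168 and T a Sylow 2-subgroup. Then T contains exactly two subgroups that are Klein four-groups; they are not conjugate in G; and the normalizer of every Klein four-subgroup of G is isomorphic to the symmetric group of degree 4. -/
theorem result {G : Type*} [Group G] [Finite G] [IsSimpleGroup G] (h : Nat.card G = 168) (T : Sylow 2 G) : Nat.card {U : Subgroup G // U ≤ (T : Subgroup G) ∧ IsKleinFour ↥U} = 2 ∧ (∀ U W : Subgroup G, U ≤ (T : Subgroup G) → W ≤ (T : Subgroup G) → IsKleinFour ↥U → IsKleinFour ↥W → U ≠ W → ∀ g : G, U.map (MulAut.conj g).toMonoidHom ≠ W) ∧ ∀ U : Subgroup G, IsKleinFour ↥U → Nonempty (↥(Subgroup.normalizer (U : Set G)) ≃* Equiv.Perm (Fin 4)) := by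
  obtain ⟨φ, hφ, hT⟩ := G168.exists_isD8_sylow h T
  rw [← hT]
  refine ⟨Nat.card_eq_two_iff.2 ⟨⟨_, D8.four_le hφ 0, D8.klein_four hφ 0⟩,
    ⟨_, D8.four_le hφ 1, D8.klein_four hφ 1⟩, fun e => D8.four_ne hφ (congrArg Subtype.val e), ?_⟩,
    fun U W hU hW kU kW hne g e => ?_, fun U kU => ?_⟩
  · refine Set.eq_univ_of_forall fun U => ?_
    exact (D8.eq_four hφ U.2.1 U.2.2).imp Subtype.ext Subtype.ext
  · rcases D8.eq_four hφ hU kU with rfl | rfl <;> rcases D8.eq_four hφ hW kW with rfl | rfl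
    · exact hne rfl
    · exact D8.not_conj_four hφ g e
    · refine D8.not_conj_four hφ g⁻¹ ?_
      rw [← e, map_map]
      ext x
      simp [mul_assoc]
    · exact hne rfl
  · obtain ⟨ψ, hψ, rfl⟩ := D8.exists_eq_four hφ kU
    exact G168.equiv_N h hψ

end Cfsg.Agent.S1007
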