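import Cfsg.Statements.S1008
import Cfsg.Agent.Small.G168

set_option autoImplicit false
open Cfsg

namespace Cfsg.Agent.S1008

open Cfsg.Agent.Small Cfsg.Agent.Small.G168 Cfsg.Agent.GW Subgroup DihedralGroup
open Cfsg.Agent.GW.IsD8 (four)

local instance fact2 : Fact (Nat.Prime 2) := ⟨Nat.prime_two⟩
local instance fact7 : Fact (Nat.Prime 7) := ⟨by norm_num⟩

/-- In a simple group of order 168 every maximal subgroup is either isomorphic to the symmetric group of degree 4 or non-abelian of order 21; the maximal subgroups of order 21 form one conjugacy class and those isomorphic to the symmetric group of degree 4 form exactly two conjugacy classes. -/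
theorem result {G : Type*} [Group G] [Finite G] [IsSimpleGroup G] (h : Nat.card G = 168) : (∀ M : Subgroup G, IsCoatom M → Nonempty (↥M ≃* Equiv.Perm (Fin 4)) ∨ (Nat.card ↥M = 21 ∧ ¬ IsMulCommutative ↥M)) ∧ (∀ M M' : Subgroup G, IsCoatom M → IsCoatom M' → Nat.card ↥M = 21 → Nat.card ↥M' = 21 → ∃ g : G, M' = M.map (MulAut.conj g).toMonoidHom) ∧ ∃ M₁ M₂ : Subgroup G, IsCoatom M₁ ∧ IsCoatom M₂ ∧ Nonempty (↥M₁ ≃* Equiv.Perm (Fin 4)) ∧ Nonempty (↥M₂ ≃* Equiv.Perm (Fin 4)) ∧ (∀ g : G, M₂ ≠ M₁.map (MulAut.conj g).toMonoidHom) ∧ ∀ M : Subgroup G, IsCoatom M → Nonempty (↥M ≃* Equiv.Perm (Fin 4)) → ∃ g : G, M = M₁.map (MulAut.conj g).toMonoidHom ∨ M = M₂.map (MulAut.conj g).toMonoidHom := by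
  have c7 : ∀ P : Sylow 7 G, Nat.card (normalizer ((P : Subgroup G) : Set G)) = 21 := fun P => by
    have := card_normalizer h (card_sylow h).2.2 P
    omega
  have co : ∀ ψ : DihedralGroup 4 →* G, IsD8 ψ → IsCoatom (normalizer (four ψ 0 : Set G)) :=
    fun ψ hψ => ⟨N_ne_top h hψ, fun K hK => by
      have h1 := (normalizer (four ψ 0 : Set G)).index_mul_card
      rw [card_N h hψ, h] at h1
      have h2 := relIndex_mul_index hK.le
      rw [show (normalizer (four ψ 0 : Set G)).index = 7 by omega] at h2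
      rcases (Nat.dvd_prime (by norm_num)).1 (Dvd.intro _ h2) with e | e
      · exact absurd (relIndex_eq_one.1 e) hK.not_ge
      · rw [e] at h2
        exact index_eq_one.1 (by omega)⟩
  obtain ⟨φ, hφ⟩ := exists_isD8 h
  refine ⟨fun M hM => ?_, fun M M' hM hM' e e' => ?_, _, _, co φ hφ, co _ hφ.swap, equiv_N h hφ,
    equiv_N h hφ.swap, fun g e => ?_, fun M hM ⟨e⟩ => ?_⟩
  · rcases coatom_cases h hM with ⟨ψ, hψ, rfl⟩ | ⟨P, rfl⟩
    · exact Or.inl (equiv_N h hψ)
    · exact Or.inr ⟨c7 P, fun hc => not_le_centralizer (not_cyclic h) (by rw [h]; decide) P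
        fun a ha b hb => congrArg Subtype.val (hc.is_comm.comm
          (⟨b, le_normalizer hb⟩ : normalizer ((P : Subgroup G) : Set G)) ⟨a, ha⟩)⟩
  · rcases coatom_cases h hM with ⟨ψ, hψ, rfl⟩ | ⟨P, rfl⟩
    · rw [card_N h hψ] at e; omega
    rcases coatom_cases h hM' with ⟨ψ, hψ, rfl⟩ | ⟨Q, rfl⟩
    · rw [card_N h hψ] at e'; omega
    obtain ⟨g, rfl⟩ := MulAction.exists_smul_eq G P Q
    exact ⟨g, (map_equiv_normalizer_eq _ _).symm⟩
  · rw [D8.four_swap, zero_add, map_equiv_normalizer_eq, ← D8.four_conj] at e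
    obtain ⟨P, hP⟩ := hφ.exists_sylow
    have k := D8.klein_four (hφ.map_conj g) 0
    have h1 := P.is_maximal' (P.isPGroup'.to_sup_of_normal_right'
      (IsPGroup.of_card (p := 2) (n := 2) k.card_four) (by
        rw [← e, hP]; exact hφ.range_le_normalizer 1)) le_sup_left
    rcases D8.eq_four hφ (hP ▸ sup_eq_left.1 h1) k with e' | e'
    · rw [e'] at e
      have h2 : normalizer (four φ 0 : Set G) ≤ φ.range := fun a ha => by
        have a1 := (mem_normalizer_iff.1 ha _).1 (hφ.mem_four_zero.2 (Or.inr (Or.inl rfl)))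
        have a2 := (mem_normalizer_iff.1 (e.ge ha) _).1 (hφ.mem_four.2 ⟨r 2, by decide, rfl⟩)
        obtain ⟨d, hd, a3⟩ := hφ.mem_four.1 a1
        obtain ⟨d', hd', a4⟩ := hφ.mem_four.1 a2
        obtain rfl := hφ.inj (a3.trans a4.symm)
        have key : ∀ d : DihedralGroup 4, d * sr 0 = sr 0 * d → d * sr 1 = sr 1 * d →
          d = 1 ∨ d = r 2 := by decide
        rcases key d hd hd' with rfl | rfl
        · exact absurd (by simpa using a3.symm) (Invol.ne_one_of hφ.invol_t)
        · exact hφ.cent a (eq_mul_inv_iff_mul_eq.1 a3).symm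
      have := card_le_of_le h2
      rw [card_N h hφ, hφ.card_range] at this
      omega
    · exact D8.not_conj_four hφ g (D8.four_conj g 0 ▸ e')
  · rcases coatom_cases h hM with ⟨ψ, hψ, rfl⟩ | ⟨P, rfl⟩
    · obtain ⟨g, e'⟩ := D8.exists_conj_four hφ (D8.klein_four hψ 0)
      refine ⟨g, e'.imp (fun e' => ?_) fun e' => ?_⟩
      · rw [e', map_equiv_normalizer_eq]
      · rw [e', map_equiv_normalizer_eq, D8.four_swap, zero_add]
    · have := Nat.card_congr e.toEquiv
      rw [c7, Nat.card_perm, Nat.card_fin] at this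
      exact absurd this (by decide)

end Cfsg.Agent.S1008
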