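import Cfsg.Statements.S1009
import Mathlib.GroupTheory.Sylow

set_option autoImplicit false
open Cfsg

namespace Cfsg.Agent.S1009

/-- Brodkey's Theorem: if a finite group has abelian Sylow p-subgroups, then there are two Sylow p-subgroups whose intersection equals the intersection of all Sylow p-subgroups. -/
theorem result {G : Type*} [Group G] [Finite G] (p : ℕ) [Fact p.Prime] (hab : ∀ P : Sylow p G, IsMulCommutative ↥(P : Subgroup G)) : ∃ P Q : Sylow p G, (P : Subgroup G) ⊓ (Q : Subgroup G) = ⨅ R : Sylow p G, (R : Subgroup G) := by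
  classical
  obtain ⟨S⟩ : Nonempty (Sylow p G) := inferInstance
  obtain ⟨T, hT⟩ := exists_minimalFor_of_wellFoundedLT (fun _ : Sylow p G => True)
    (fun T : Sylow p G => (S : Subgroup G) ⊓ T) ⟨S, trivial⟩
  have hS := hab S
  have hTc := hab T
  set D : Subgroup G := (S : Subgroup G) ⊓ T with hD
  set N : Subgroup G := Subgroup.centralizer (D : Set G) with hN
  have hSN : (S : Subgroup G) ≤ N :=
    (S : Subgroup G).le_centralizer.trans (Subgroup.centralizer_le (fun x hx => hx.1))
  have hTN : (T : Subgroup G) ≤ N :=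
    (T : Subgroup G).le_centralizer.trans (Subgroup.centralizer_le (fun x hx => hx.2))
  have key : ∀ U : Sylow p G, D ≤ U := by
    intro U
    have h1 : IsPGroup p ((U : Subgroup G).subgroupOf N) := U.2.comap_subtype
    obtain ⟨R, hR⟩ := h1.exists_le_sylow
    obtain ⟨n, hn⟩ := MulAction.exists_smul_eq N R (T.subtype hTN)
    have h2 : (S : Subgroup G) ⊓ ((n : G) • U : Sylow p G) ≤ D := by
      intro x hx
      refine Subgroup.mem_inf.mpr ⟨hx.1, ?_⟩
      have hx2 : x ∈ (((n : G) • U : Sylow p G) : Subgroup G) := hx.2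
      rw [Sylow.coe_subgroup_smul, Subgroup.mem_pointwise_smul_iff_inv_smul_mem] at hx2
      have h3 : (⟨x, hSN hx.1⟩ : N) ∈ ((n • R : Sylow p N) : Subgroup N) := by
        rw [Sylow.coe_subgroup_smul, Subgroup.mem_pointwise_smul_iff_inv_smul_mem]
        apply hR
        rw [Subgroup.mem_subgroupOf]
        simpa using hx2
      rw [hn] at h3
      exact h3
    have h4 : D ≤ (S : Subgroup G) ⊓ ((n : G) • U : Sylow p G) := hT.2 trivial h2
    intro x hx
    have h5 : x ∈ (((n : G) • U : Sylow p G) : Subgroup G) := (h4 hx).2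
    rw [Sylow.coe_subgroup_smul, Subgroup.mem_pointwise_smul_iff_inv_smul_mem] at h5
    have h6 : x * n = n * x := n.2 x hx
    have h7 : (MulAut.conj (n : G))⁻¹ • x = x := by
      simp [mul_assoc, h6]
    rwa [h7] at h5
  exact ⟨S, T, le_antisymm (le_iInf key) (le_inf (iInf_le _ S) (iInf_le _ T))⟩

end Cfsg.Agent.S1009
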