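import Cfsg.Statements.S1010
import Cfsg.Agent.S1009
import Cfsg.Agent.S0496
import Cfsg.Agent.Gen2.SylowNum

set_option autoImplicit false
open Cfsg

namespace Cfsg.Agent.S1010

open Cfsg.Agent.Small MulAction
open scoped commutatorElement Pointwise

/-- In a simple group with fewer than `p²` Sylow `p`-subgroups these have order at most `p`. -/
theorem not_sq_dvd {G : Type*} [Group G] [Finite G] [IsSimpleGroup G] {p : ℕ} [hp : Fact p.Prime]
    (h1 : Nat.card (Sylow p G) ≠ 1) (h2 : Nat.card (Sylow p G) ≤ p ^ 2) :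
    ¬ p ^ 2 ∣ Nat.card G := by
  have hi : ∀ P R : Sylow p G, (R : Subgroup G).relIndex P ∣ p := fun P R => by
    by_cases e : R = P
    · simp [e]
    have e1 : (orbit (P : Subgroup G) R).ncard = (R : Subgroup G).relIndex P := by
      rw [← index_stabilizer, Subgroup.relIndex]
      congr 1
      ext g
      exact Sylow.smul_eq_iff_mem_normalizer.trans ⟨fun h =>
        ((P.2.inf_normalizer_sylow R).le ⟨g.2, h⟩).2, fun h => Subgroup.le_normalizer h⟩
    have e2 : (orbit (P : Subgroup G) R).ncard < Nat.card (Sylow p G) :=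
      Set.ncard_lt_card fun h => by
        obtain ⟨u, hu⟩ : P ∈ orbit (P : Subgroup G) R := h ▸ Set.mem_univ P
        exact e (smul_left_cancel (u : G) (hu.trans
          (Sylow.smul_eq_iff_mem_normalizer.2 (Subgroup.le_normalizer u.2)).symm))
    obtain ⟨j, hj⟩ := P.2.index ((R : Subgroup G).subgroupOf P)
    rw [e1, Subgroup.relIndex, hj] at e2
    have := (Nat.pow_lt_pow_iff_right hp.out.one_lt).1 (e2.trans_le h2)
    rw [Subgroup.relIndex, hj]
    exact (pow_dvd_pow p (by omega : j ≤ 1)).trans (pow_one p).dvd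
  have hb : ⨅ R : Sylow p G, (R : Subgroup G) = ⊥ := by
    obtain ⟨P⟩ : Nonempty (Sylow p G) := inferInstance
    have hn : (⨅ R : Sylow p G, (R : Subgroup G)).Normal := ⟨fun x hx g => Subgroup.mem_iInf.2
      fun R => by
        have := Subgroup.mem_iInf.1 hx (g⁻¹ • R)
        rw [Sylow.coe_subgroup_smul, Subgroup.mem_pointwise_smul_iff_inv_smul_mem] at this
        simpa using this⟩
    refine (hn.eq_bot_or_eq_top).resolve_right fun e => h1 (Nat.card_eq_one_iff_unique.2
      ⟨⟨fun Q R => Sylow.ext ?_⟩, inferInstance⟩)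
    rw [eq_top_iff.2 (e.ge.trans (iInf_le _ Q)), eq_top_iff.2 (e.ge.trans (iInf_le _ R))]
  obtain ⟨P, R, e⟩ := S1009.result p (G := G) fun P => ⟨⟨fun a b => by
    have : (⁅a, b⁆ : P).1 ∈ ⨅ R : Sylow p G, (R : Subgroup G) := Subgroup.mem_iInf.2 fun R => by
      rcases (Nat.dvd_prime hp.out).1 (hi P R) with h | h
      · exact Subgroup.relIndex_eq_one.1 h (⁅a, b⁆ : P).2
      · have := (Subgroup.normal_subgroupOf_iff_le_normalizer inf_le_left).2
          (le_normalizer_of_relIndex P.2 inf_le_left ((Subgroup.inf_relIndex_left _ _).trans h))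
        rw [Subgroup.inf_subgroupOf_left] at this
        have hc := isCyclic_of_prime_card (α := P ⧸ (R : Subgroup G).subgroupOf P) h
        have : QuotientGroup.mk' ((R : Subgroup G).subgroupOf P) ⁅a, b⁆ = 1 := by
          rw [map_commutatorElement, commutatorElement_eq_one_iff_mul_comm]
          exact hc.isMulCommutative.is_comm.comm _ _
        exact (QuotientGroup.eq_one_iff (N := (R : Subgroup G).subgroupOf P) _).1 this
    rw [hb, Subgroup.mem_bot] at this
    exact commutatorElement_eq_one_iff_mul_comm.1 (Subtype.ext this)⟩⟩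
  have := hi P R
  rw [← Subgroup.inf_relIndex_left, e, hb, Subgroup.relIndex_bot_left, P.card_eq_multiplicity]
    at this
  have := (Nat.pow_dvd_pow_iff_le_right hp.out.one_lt).1 (this.trans (pow_one p).symm.dvd)
  rw [hp.out.pow_dvd_iff_le_factorization Nat.card_pos.ne']
  omega

/-- No finite group has exactly twenty-one Sylow 5-subgroups. -/
theorem result {G : Type*} [Group G] [Finite G] : Nat.card (Sylow 5 G) ≠ 21 := by
  intro hn
  have := Fact.mk Nat.prime_five
  obtain ⟨S, _, _, _, hS, hn⟩ := Gen2.exists_simple_of_card_sylow 5 G hn (by omega)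
    (by
      rw [isPrimePow_iff_unique_prime_dvd]
      rintro ⟨p, -, h⟩
      have := (h 3 ⟨Nat.prime_three, by decide⟩).trans (h 7 ⟨Nat.prime_seven, by decide⟩).symm
      omega)
    (fun d hd h => by
      have := Nat.le_of_dvd (by omega) hd
      interval_cases d <;> omega)
  have hG := not_isCyclic_of_not_comm hS
  have h5 : 5 ∣ Nat.card S := by
    by_contra h
    have : Subsingleton (Sylow 5 S) := ⟨fun P Q => Sylow.ext (by
      have e : ∀ P : Sylow 5 S, (P : Subgroup S) = ⊥ := fun P => Subgroup.card_eq_one.1 (by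
        rw [P.card_eq_multiplicity, Nat.factorization_eq_zero_of_not_dvd h, pow_zero])
      rw [e, e])⟩
    have := Nat.card_of_subsingleton (α := Sylow 5 S) (Classical.arbitrary _)
    omega
  obtain ⟨x, K, h⟩ := exists_defOne_of_dvd h5 (not_sq_dvd (by omega) (by omega))
  have := Fintype.ofFinite K
  obtain ⟨X, φ, δ, ε, s⟩ := h.exists_pshape
  have d := s.pdata hG
  rw [hn] at d
  generalize Nat.card E[h] = e at d
  generalize Nat.card K = k at d
  generalize sdeg X δ = M at d
  generalize ε * charDegree (φ 1).1 = a at d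
  have he := Nat.le_of_dvd (by omega) d.edvd
  have he1 := d.e1
  have he2 := d.edvd
  by_cases hk : k = 1
  · have h1 := d.card
    have := S0496.result hS (by rw [h1, hk]; omega)
    interval_cases e <;> omega
  have key : ∀ z ∈ a ::ₘ M, 7 ∣ z.natAbs ∨ z.natAbs = 12 := fun z hz => by
    obtain ⟨h1, -, h2⟩ := d.deg z hz
    have h3 : z.natAbs ∣ 84 := h1.trans (by interval_cases e <;> omega)
    have := Nat.le_of_dvd (by omega) h3
    have := h2 hk
    generalize z.natAbs = m at *
    interval_cases m <;> omega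
  have h7 : (7 : ℤ) ∣ M.sum := Multiset.dvd_sum fun z hz => by
    have := d.mod z hz
    have := key z (Multiset.mem_cons_of_mem hz)
    omega
  have h10 := d.sum
  have := key a (Multiset.mem_cons_self _ _)
  omega

end Cfsg.Agent.S1010
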