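import Cfsg.Statements.S1018
import Mathlib.GroupTheory.Sylow

set_option autoImplicit false
open Cfsg

namespace Cfsg.Agent.S1018

open Subgroup

theorem eq_zpowers {G : Type*} [Group G] [Finite G] {p : ℕ} (hp : p.Prime) {P : Subgroup G}
    (hP : Nat.card P = p) {w : G} (hw : w ∈ P) (h1 : w ≠ 1) : zpowers w = P := by
  refine eq_of_le_of_card_ge (zpowers_le.2 hw) ?_
  rcases (Nat.dvd_prime hp).1 (hP ▸ card_dvd_of_le (zpowers_le.2 hw)) with h | h
  · exact absurd (zpowers_eq_bot.1 (card_eq_one.1 h)) h1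
  · rw [h, hP]

/-- Let P be a Sylow p-subgroup of order p of a finite group G, and consider the action of G on the left cosets of the normalizer N of P. Then every element of order p fixes exactly one coset, and an element of N that does not centralize P fixes at most as many cosets as there are orbits of P. -/
theorem result {G : Type*} [Group G] [Finite G] (p : ℕ) [Fact p.Prime] (P : Sylow p G) (hP : Nat.card ↥(P : Subgroup G) = p) : (∀ y : G, orderOf y = p → Nat.card (MulAction.fixedBy (G ⧸ Subgroup.normalizer ((P : Subgroup G) : Set G)) y) = 1) ∧ ∀ x : G, x ∈ Subgroup.normalizer ((P : Subgroup G) : Set G) → x ∉ Subgroup.centralizer ((P : Subgroup G) : Set G) → Nat.card (MulAction.fixedBy (G ⧸ Subgroup.normalizer ((P : Subgroup G) : Set G)) x) ≤ Nat.card (MulAction.orbitRel.Quotient ↥(P : Subgroup G) (G ⧸ Subgroup.normalizer ((P : Subgroup G) : Set G))) := by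
  have hp : p.Prime := Fact.out
  have sm : ∀ (Q : Sylow p G) (g : G), g ∈ normalizer ((Q : Subgroup G) : Set G) ↔ g • Q = Q :=
    fun Q g => Sylow.smul_eq_iff_mem_normalizer.symm
  refine ⟨fun y hy => ?_, fun x hx hx' => ?_⟩
  · have y1 : y ≠ 1 := fun h => hp.one_lt.ne (by rw [← hy, h, orderOf_one])
    have hy' : IsPGroup p (zpowers y) := IsPGroup.of_card (n := 1) (by rw [Nat.card_zpowers, hy, pow_one])
    have key : ∀ g : G, (g : G ⧸ normalizer ((P : Subgroup G) : Set G)) ∈
        MulAction.fixedBy _ y ↔ y ∈ ((g • P : Sylow p G) : Subgroup G) := fun g => by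
      rw [MulAction.mem_fixedBy, MulAction.Quotient.smul_mk, eq_comm, QuotientGroup.eq,
        sm, smul_eq_mul, mul_smul, inv_smul_eq_iff, mul_smul, ← sm]
      have : zpowers y ⊓ normalizer (((g • P : Sylow p G) : Subgroup G) : Set G) = _ :=
        hy'.inf_normalizer_sylow (g • P)
      rw [← zpowers_le, ← zpowers_le, ← inf_eq_left, this, inf_eq_left]
    obtain ⟨Q, hQ⟩ := hy'.exists_le_sylow
    obtain ⟨g, rfl⟩ := MulAction.exists_smul_eq G P Q
    refine Nat.card_eq_one_iff_exists.2 ⟨⟨g, (key g).2 (hQ (mem_zpowers y))⟩, ?_⟩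
    rintro ⟨q, hq⟩
    obtain ⟨h, rfl⟩ := QuotientGroup.mk_surjective q
    have e : ∀ a : G, y ∈ ((a • P : Sylow p G) : Subgroup G) →
        zpowers y = (a • P : Sylow p G) := fun a ha => eq_zpowers hp (by
      rw [Sylow.card_eq_multiplicity, ← P.card_eq_multiplicity, hP]) ha y1
    have := Sylow.ext ((e h ((key h).1 hq)).symm.trans (e g (hQ (mem_zpowers y))))
    rw [Subtype.mk_eq_mk, QuotientGroup.eq, sm, mul_smul,
      inv_smul_eq_iff, this]
  · refine Nat.card_le_card_of_injective (fun q => Quotient.mk'' q.1) ?_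
    rintro ⟨q, hq⟩ ⟨r, hr⟩ h
    obtain ⟨⟨u, hu⟩, rfl⟩ := MulAction.orbitRel_apply.1 (Quotient.eq''.1 h)
    rw [Subtype.mk_eq_mk]
    change u • r = r
    change x • u • r = u • r at hq
    change x • r = r at hr
    by_cases u1 : u = 1
    · rw [u1, one_smul]
    by_cases hw : u⁻¹ * (x * u * x⁻¹) = 1
    · refine absurd (mem_centralizer_iff.2 fun a ha => ?_) hx'
      obtain ⟨k, rfl⟩ := (eq_zpowers hp hP hu u1).ge ha
      have : Commute u x := by
        rw [inv_mul_eq_one, eq_mul_inv_iff_mul_eq] at hw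
        exact hw
      exact this.zpow_left k
    · have h1 := eq_zpowers hp hP (mul_mem (inv_mem hu) ((mem_normalizer_iff.1 hx u).1 hu)) hw
      have h2 : u⁻¹ * (x * u * x⁻¹) ∈ MulAction.stabilizer G r := by
        rw [MulAction.mem_stabilizer_iff, mul_smul, mul_smul, mul_smul, inv_smul_eq_iff,
          inv_smul_eq_iff.2 hr.symm, hq]
      exact (h1.ge.trans (zpowers_le.2 h2)) hu

end Cfsg.Agent.S1018
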