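import Cfsg.Statements.S1019
import Cfsg.Agent.Char.Second
import Mathlib.GroupTheory.Sylow

set_option autoImplicit false
open Cfsg

namespace Cfsg.Agent.S1019

open Subgroup

/-- Let H be a subgroup of a finite group G and x an element of H. In the action of G on the left cosets of H, the number of cosets fixed by x, multiplied by the size of the conjugacy class of x, equals the index of H multiplied by the number of conjugates of x that lie in H. -/
theorem result {G : Type*} [Group G] [Finite G] (H : Subgroup G) (x : G) (hx : x ∈ H) : Nat.card (MulAction.fixedBy (G ⧸ H) x) * Nat.card {g : G // IsConj x g} = H.index * Nat.card {g : G // IsConj x g ∧ g ∈ H} := by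
  classical
  have := Fintype.ofFinite G
  have h1 := QuotientGroup.card_preimage_mk H (MulAction.fixedBy (G ⧸ H) x)
  have h2 := Char.sum_conj_eq (fun g => if g ∈ H then 1 else 0) x
  have h3 : Nat.card (QuotientGroup.mk ⁻¹' MulAction.fixedBy (G ⧸ H) x : Set G) =
      ∑ c : G, if c * x * c⁻¹ ∈ H then 1 else 0 := by
    rw [← Equiv.sum_comp (Equiv.inv G), Finset.sum_boole, Nat.cast_id, Nat.card_eq_fintype_card,
      Fintype.card_subtype]
    congr 1
    ext c
    simp only [Set.mem_preimage, MulAction.mem_fixedBy, Finset.mem_filter, Finset.mem_univ,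
      true_and, Equiv.inv_apply, inv_inv, MulAction.Quotient.smul_mk, smul_eq_mul]
    rw [eq_comm, QuotientGroup.eq, mul_assoc]
  have h4 : ∑ y ∈ Finset.univ.filter (fun y => IsConj x y), (if y ∈ H then 1 else 0) =
      Nat.card {g : G // IsConj x g ∧ g ∈ H} := by
    rw [Finset.sum_boole, Nat.cast_id, Finset.filter_filter, Nat.card_eq_fintype_card,
      Fintype.card_subtype]
  have h5 := Char.card_centralizer_mul_card_isConj x
  rw [← h3, h1, smul_eq_mul] at h2
  have h6 := H.index_mul_card
  have h7 : 0 < Nat.card H := Nat.card_pos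
  refine Nat.eq_of_mul_eq_mul_left h7 ?_
  rw [← mul_assoc, h2, ← h4, ← mul_assoc, mul_comm (Nat.card H), h6, ← h5]
  convert mul_right_comm _ _ _

end Cfsg.Agent.S1019
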