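import Cfsg.Statements.S1026
import Cfsg.Agent.Chev.AllC
import Cfsg.Agent.Chev.Bruhat

set_option autoImplicit false
open Cfsg

namespace Cfsg.Agent.S1026

open Cfsg.Agent.Chev Cfsg.Lie

/-- Every element of `U` has a unique expression `∏_{r ∈ Φ⁺} x_r(t_r)`, the product over the positive roots in increasing index order (the coefficient family `t`, supported on the positive roots, exists and is unique); and conversely every such ordered product is the matrix of an element of `U`. -/
theorem result {F : Type*} [Field F] (D : Cfsg.Lie.ChevalleyDatum) (hD : D ∈ [Cfsg.Lie.chevG2, Cfsg.Lie.chevB2, Cfsg.Lie.chevD4, Cfsg.Lie.chevF4, Cfsg.Lie.chevE6, Cfsg.Lie.chevE7, Cfsg.Lie.chevE8]) :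
    (∀ g : GL D.Idx F, g ∈ D.posUnipotent F →
      ∃! t : ℕ → F, (∀ r, ¬ D.IsPosRoot r → t r = 0) ∧
        (g : Matrix D.Idx D.Idx F) = D.wordMat F (D.posRoots.map fun r => (r, t r))) ∧
    (∀ t : ℕ → F, ∃ g : GL D.Idx F, g ∈ D.posUnipotent F ∧
      (g : Matrix D.Idx D.Idx F) = D.wordMat F (D.posRoots.map fun r => (r, t r))) := by
  obtain ⟨⟨g⟩, -⟩ := conn_of_mem hD
  let L : List (Rt D) := (List.finRange D.nroots).filter fun r => decide (Pos r)
  have hL : ∀ k, k ∈ L ↔ k ∈ {r : Rt D | Pos r} := by simp [L]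
  have hn : L.Nodup := (List.nodup_finRange _).filter _
  have h1 : D.posRoots = L.map Fin.val := by
    rw [ChevalleyDatum.posRoots, ← List.map_coe_finRange_eq_range, List.filter_map]
    congr 2
    funext r
    simp [isPosRoot_iff]
  have h2 : ∀ t : ℕ → F, gword (adS D F).x (D.posRoots.map fun r => (r, t r)) =
      (adS D F).prod L fun k => t k := fun t => by
    simp [h1, gword, Sys.prod, Function.comp_def]
  simp only [coe_eq_gword, h2, posUnipotent_eq]
  refine ⟨fun y hy => ?_, fun t => ⟨_, Sys.prod_mem (fun k => (hL k).mp) _, rfl⟩⟩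
  obtain ⟨t, rfl⟩ := Sys.exists_prod nilp_Pos hL hn hy
  refine ⟨fun r => if h : D.IsPosRoot r then t ⟨r, h.1⟩ else 0, ⟨fun r hr => dif_neg hr,
    Sys.prod_congr fun k hk => by simp [isPosRoot_iff, show Pos k from (hL k).mp hk]⟩, ?_⟩
  rintro t' ⟨h3, h4⟩
  funext r
  split_ifs with hr
  · exact (adS_prod_inj nilp_Pos (fun k => (hL k).mp) hn h4 ⟨r, hr.1⟩
      ((hL _).mpr ((isPosRoot_iff ⟨r, hr.1⟩).mp hr))).symm
  · exact h3 r hr

end Cfsg.Agent.S1026
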