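import Cfsg.Statements.S1027
import Cfsg.Agent.Chev.AllC
import Cfsg.Agent.Chev.Bruhat

set_option autoImplicit false
open Cfsg

namespace Cfsg.Agent.S1027

open Cfsg.Agent.Chev Cfsg.Lie

/-- For the subgroup `U` generated by the root elements `x_r(t)` of the positive roots `r`: `|U| = q^N` over a field with `q` elements, where `N` is the number of positive roots (half the number of roots). -/
theorem result {F : Type*} [Field F] [Fintype F] (D : Cfsg.Lie.ChevalleyDatum) (hD : D ∈ [Cfsg.Lie.chevG2, Cfsg.Lie.chevB2, Cfsg.Lie.chevD4, Cfsg.Lie.chevF4, Cfsg.Lie.chevE6, Cfsg.Lie.chevE7, Cfsg.Lie.chevE8]) :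
    Nat.card (D.posUnipotent F) = Fintype.card F ^ (D.nroots / 2) := by
  obtain ⟨⟨g⟩, -⟩ := conn_of_mem hD
  rw [posUnipotent_eq, (Sys.adCover D F).card_U nilp_Pos, Nat.card_eq_fintype_card]
  congr 1
  have h1 : {r : Rt D | Pos r}ᶜ = ng '' {r : Rt D | Pos r} := by
    ext r
    exact ⟨fun h => ⟨ng r, pos_ng_iff.mpr h, ng_ng r⟩, by rintro ⟨s, hs, rfl⟩; exact Pos.not_ng hs⟩
  have h2 := Set.ncard_add_ncard_compl {r : Rt D | Pos r}
  rw [h1, Set.ncard_image_of_injective _ ng_injective, Nat.card_eq_fintype_card, Fintype.card_fin] at h2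
  omega

end Cfsg.Agent.S1027
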