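import Cfsg.Statements.S1031
import Cfsg.Agent.Chev.All
import Cfsg.Agent.Chev.Mat

set_option autoImplicit false
open Cfsg

namespace Cfsg.Agent.S1031

open Cfsg.Agent.Chev Cfsg.Lie

/-- For a fundamental root `p = p_{i+1}` and any root `s`: `n_p x_s(t) n_p⁻¹ = x_{w_p(s)}(η t)` with a sign `η = ±1` independent of `t`, where `w_p(s)` is the reflected root (`reflectRoot`). Stated as `n_p x_s(t) = x_{w_p(s)}(η t) n_p`. -/
theorem result {F : Type*} [Field F] (D : Cfsg.Lie.ChevalleyDatum) (hD : D ∈ [Cfsg.Lie.chevG2, Cfsg.Lie.chevB2, Cfsg.Lie.chevD4, Cfsg.Lie.chevF4, Cfsg.Lie.chevE6, Cfsg.Lie.chevE7, Cfsg.Lie.chevE8]) (i s : ℕ) (hi : i < D.rank) (hs : s < D.nroots) :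
    ∃ η : ℤ, (η = 1 ∨ η = -1) ∧
      ∀ t : F, D.nMat F (D.simple i) 1 * D.x F s t = D.x F (D.reflectRoot i s) ((η : F) * t) * D.nMat F (D.simple i) 1 := by
  obtain ⟨g⟩ := good_of_mem hD
  refine ⟨eta (sm ⟨i, hi⟩) ⟨s, hs⟩, eta_eq _ _, fun t => ?_⟩
  have h := PreRep.nF_mul_y adj_isRep (sm ⟨i, hi⟩) ⟨s, hs⟩ (one_ne_zero (α := F)) t
  rw [← nMat_eq, ← x_eq_y, ← x_eq_y, refl_sm_val] at h
  simpa using h

end Cfsg.Agent.S1031
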