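import Cfsg.Statements.S1037
import Cfsg.Agent.Chev.AllC
import Cfsg.Agent.Chev.Bruhat

set_option autoImplicit false
open Cfsg

namespace Cfsg.Agent.S1037

open Cfsg.Agent.Chev Cfsg.Lie

/-- `UH ∩ V = 1` and `UH ∩ VH = H`. -/
theorem result {F : Type*} [Field F] (D : Cfsg.Lie.ChevalleyDatum) (hD : D ∈ [Cfsg.Lie.chevG2, Cfsg.Lie.chevB2, Cfsg.Lie.chevD4, Cfsg.Lie.chevF4, Cfsg.Lie.chevE6, Cfsg.Lie.chevE7, Cfsg.Lie.chevE8]) :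
    D.borelSubgroup F ⊓ D.negUnipotent F = ⊥ ∧
      D.borelSubgroup F ⊓ (D.negUnipotent F ⊔ D.diagonalSubgroup F) = D.diagonalSubgroup F := by
  obtain ⟨⟨g⟩, c⟩ := conn_of_mem hD
  rw [negUnipotent_eq, diagonal_eq, borel_eq]
  refine ⟨eq_bot_iff.mpr fun y hy => (Sys.adCover D F).eq_one_of_B_UN hy.1 hy.2,
    le_antisymm (fun y hy => ?_) (le_inf (Sys.H_le_B _) le_sup_right)⟩
  obtain ⟨u, hu, z, hz, e⟩ := Sys.mem_B_iff.mp hy.1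
  obtain ⟨v, hv, z', hz', e'⟩ := (Sys.mem_sup_of_norm (Sys.H_le_normalizer_U _ _)).mp hy.2
  rwa [e, ((Sys.adCover D F).eq_of_UP_UN hu hv hz hz' (e.symm.trans e')).1, one_mul]

end Cfsg.Agent.S1037
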