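import Cfsg.Statements.S1039
import Cfsg.Agent.Chev.AllC
import Cfsg.Agent.Chev.CoxB2
import Cfsg.Agent.Chev.CoxG2
import Cfsg.Agent.Chev.CoxD4
import Cfsg.Agent.Chev.CoxF4
import Cfsg.Agent.Chev.CoxE6
import Cfsg.Agent.Chev.CoxE7
import Cfsg.Agent.Chev.CoxE8

set_option autoImplicit false
open Cfsg

namespace Cfsg.Agent.S1039

open Cfsg.Agent.Chev Cfsg.Lie

theorem aux {F : Type*} [Field F] {D : ChevalleyDatum} [Good D] [Conn D] {M : CoxeterMatrix (Sm D)}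
    (he : ∃ e : WG D ≃* M.Group, ∀ i, e (sr i) = M.simple i) :
    ∃ φ : ↥(D.monomialSubgroup F) →* M.Group, Function.Surjective φ ∧
      φ.ker = (D.diagonalSubgroup F).subgroupOf (D.monomialSubgroup F) ∧
      ∀ (i : Sm D) (g : ↥(D.monomialSubgroup F)),
        ((g : GL D.Idx F) : Matrix D.Idx D.Idx F) = D.nMat F (D.simple i) 1 → φ g = M.simple i := by
  rw [monomial_eq, diagonal_eq]
  obtain ⟨φ, h1, h2, h3⟩ := (Sys.adCover D F).exists_cox he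
  exact ⟨φ, h1, h2, fun i y hy => h3 i y ((coe_eq_n (sm i)).mp hy)⟩

/-- `N/H ≅ W`: there is a surjective homomorphism from `N` onto the Coxeter group of the type (Mathlib's Coxeter matrix G₂, B₂, F₄, E₆, E₇, E₈, nodes numbered as the fundamental roots) with kernel `H`, mapping each `n_{p_i}` to the `i`-th simple reflection. -/
theorem result {F : Type*} [Field F]
    (p : Cfsg.Lie.ChevalleyDatum × (Σ n : ℕ, CoxeterMatrix (Fin n)))
    (hp : p ∈ [(Cfsg.Lie.chevG2, ⟨2, CoxeterMatrix.G₂⟩), (Cfsg.Lie.chevB2, ⟨2, CoxeterMatrix.B 2⟩), (Cfsg.Lie.chevD4, ⟨4, Cfsg.Lie.coxeterD4⟩), (Cfsg.Lie.chevF4, ⟨4, CoxeterMatrix.F₄⟩),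
      (Cfsg.Lie.chevE6, ⟨6, CoxeterMatrix.E₆⟩), (Cfsg.Lie.chevE7, ⟨7, CoxeterMatrix.E₇⟩), (Cfsg.Lie.chevE8, ⟨8, CoxeterMatrix.E₈⟩)]) :
    ∃ φ : ↥(p.1.monomialSubgroup F) →* p.2.2.Group, Function.Surjective φ ∧
      φ.ker = (p.1.diagonalSubgroup F).subgroupOf (p.1.monomialSubgroup F) ∧
      ∀ (i : Fin p.2.1) (g : ↥(p.1.monomialSubgroup F)),
        ((g : GL p.1.Idx F) : Matrix p.1.Idx p.1.Idx F) = p.1.nMat F (p.1.simple i) 1 → φ g = p.2.2.simple i := by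
  simp only [List.mem_cons, List.not_mem_nil, or_false] at hp
  rcases hp with rfl | rfl | rfl | rfl | rfl | rfl | rfl
  exacts [aux coxG2, aux coxB2, aux coxD4, aux coxF4, aux coxE6, aux coxE7, aux coxE8]

end Cfsg.Agent.S1039
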