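import Cfsg.Statements.S1040
import Cfsg.Agent.Chev.AllC
import Cfsg.Agent.Chev.Bruhat

set_option autoImplicit false
open Cfsg

namespace Cfsg.Agent.S1040

open Cfsg.Agent.Chev Cfsg.Lie

/-- `U ∩ N = 1` and `B ∩ N = UH ∩ N = H`. -/
theorem result {F : Type*} [Field F] (D : Cfsg.Lie.ChevalleyDatum) (hD : D ∈ [Cfsg.Lie.chevG2, Cfsg.Lie.chevB2, Cfsg.Lie.chevD4, Cfsg.Lie.chevF4, Cfsg.Lie.chevE6, Cfsg.Lie.chevE7, Cfsg.Lie.chevE8]) :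
    D.posUnipotent F ⊓ D.monomialSubgroup F = ⊥ ∧ D.borelSubgroup F ⊓ D.monomialSubgroup F = D.diagonalSubgroup F := by
  obtain ⟨⟨g⟩, c⟩ := conn_of_mem hD
  rw [monomial_eq, diagonal_eq, borel_eq, posUnipotent_eq]
  exact ⟨eq_bot_iff.mpr fun y hy => (Sys.adCover D F).eq_one_of_UP_H hy.1
    ((Sys.adCover D F).mem_H_of_B_N (Sys.UP_le_B _ hy.1) hy.2), (Sys.adCover D F).B_inf_N⟩

end Cfsg.Agent.S1040
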