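import Cfsg.Statements.S1044
import Cfsg.Agent.Chev.AllC
import Cfsg.Agent.Chev.Bruhat

set_option autoImplicit false
open Cfsg

namespace Cfsg.Agent.S1044

open Cfsg.Agent.Chev Cfsg.Lie

/-- For a fundamental root `p` the set `B ∪ B n_p B` is (the carrier of) a subgroup of the general linear group. -/
theorem result {F : Type*} [Field F] (D : Cfsg.Lie.ChevalleyDatum) (hD : D ∈ [Cfsg.Lie.chevG2, Cfsg.Lie.chevB2, Cfsg.Lie.chevD4, Cfsg.Lie.chevF4, Cfsg.Lie.chevE6, Cfsg.Lie.chevE7, Cfsg.Lie.chevE8]) (i : ℕ) (hi : i < D.rank) (n : GL D.Idx F)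
    (hn : (n : Matrix D.Idx D.Idx F) = D.nMat F (D.simple i) 1) :
    ∃ P : Subgroup (GL D.Idx F), (P : Set (GL D.Idx F)) =
      (D.borelSubgroup F : Set (GL D.Idx F)) ∪ DoubleCoset.doubleCoset n (D.borelSubgroup F : Set (GL D.Idx F)) (D.borelSubgroup F) := by
  obtain ⟨⟨g⟩, c⟩ := conn_of_mem hD
  obtain rfl := (coe_eq_n (sm ⟨i, hi⟩)).mp hn
  refine ⟨(adS D F).P {⟨i, hi⟩}, Set.ext fun y => ?_⟩
  rw [borel_eq, Set.mem_union, DoubleCoset.mem_doubleCoset]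
  have h1 := (Sys.adCover D F).cell_iff (y := y) ((adS D F).n_mem_N (sm ⟨i, hi⟩) one_ne_zero)
    ((adS D F).mon_sm _ one_ne_zero)
  refine ⟨fun h => ?_, fun h => h.elim (fun h => Sys.B_le_P _ _ h) fun h =>
    ((Sys.adCover D F).mem_P_iff (h1.mpr h)).mpr (sr_mem_WJ rfl)⟩
  obtain ⟨v, hv, h2⟩ := Sys.exists_cell_of_mem_P h
  have h3 : v = 1 ∨ v = sr ⟨i, hi⟩ := by
    refine WJ_induction (P := fun v => v = 1 ∨ v = sr ⟨i, hi⟩) (Or.inl rfl) ?_ hv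
    rintro _ rfl w - (rfl | rfl) <;> simp
  rcases h3 with rfl | rfl
  · exact Or.inl ((Sys.adCover D F).mem_B_of_cell h2)
  · exact Or.inr (h1.mp h2)

end Cfsg.Agent.S1044
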