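import Cfsg.Statements.S1045
import Cfsg.Agent.Chev.AllC
import Cfsg.Agent.Chev.Bruhat

set_option autoImplicit false
open Cfsg

namespace Cfsg.Agent.S1045

open Cfsg.Agent.Chev Cfsg.Lie

/-- For a fundamental root `p`, the subgroup `U_p` generated by the `X_s`, `s` positive and `s ≠ p`, is normalised by `X_p` and `X_{-p}`, and `U = U_p ⊔ X_p`. -/
theorem result {F : Type*} [Field F] (D : Cfsg.Lie.ChevalleyDatum) (hD : D ∈ [Cfsg.Lie.chevG2, Cfsg.Lie.chevB2, Cfsg.Lie.chevD4, Cfsg.Lie.chevF4, Cfsg.Lie.chevE6, Cfsg.Lie.chevE7, Cfsg.Lie.chevE8]) (i : ℕ) (hi : i < D.rank) :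
    D.rootSubgroup F (D.simple i) ⊔ D.rootSubgroup F (D.neg (D.simple i)) ≤
        Subgroup.normalizer (Subgroup.closure {g : GL D.Idx F | ∃ (s : ℕ) (t : F), D.IsPosRoot s ∧ s ≠ D.simple i ∧
          (g : Matrix D.Idx D.Idx F) = D.x F s t} : Set (GL D.Idx F)) ∧
      Subgroup.closure {g : GL D.Idx F | ∃ (s : ℕ) (t : F), D.IsPosRoot s ∧ s ≠ D.simple i ∧
          (g : Matrix D.Idx D.Idx F) = D.x F s t} ⊔ D.rootSubgroup F (D.simple i) = D.posUnipotent F := by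
  obtain ⟨⟨g⟩, c⟩ := conn_of_mem hD
  have h1 : Subgroup.closure {g : GL D.Idx F | ∃ (s : ℕ) (t : F), D.IsPosRoot s ∧ s ≠ D.simple i ∧
      (g : Matrix D.Idx D.Idx F) = D.x F s t} = (adS D F).U {r | Pos r ∧ r ≠ sm ⟨i, hi⟩} :=
    closure_x (p := fun s => D.IsPosRoot s ∧ s ≠ D.simple i) (fun _ => by simp [and_assoc])
      fun r => by simp [isPosRoot_iff, Fin.ext_iff]
  have h2 := rootSubgroup_eq F (sm ⟨i, hi⟩)
  have h3 := rootSubgroup_eq F (ng (sm ⟨i, hi⟩))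
  simp only [sm_val, ng_val] at h2 h3
  rw [h1, h2, h3, posUnipotent_eq, ← Sys.U_union, ← Sys.U_union]
  refine ⟨Sys.U_pm_le_normalizer _ _, ?_⟩
  congr 1
  ext r
  exact ⟨fun h => h.elim And.left fun e => e ▸ pos_sm _, fun h => (em (r = _)).symm.imp (And.intro h) id⟩

end Cfsg.Agent.S1045
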