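import Cfsg.Statements.S1046
import Cfsg.Agent.Chev.AllC
import Cfsg.Agent.Chev.Bruhat

set_option autoImplicit false
open Cfsg

namespace Cfsg.Agent.S1046

open Cfsg.Agent.Chev Cfsg.Lie

/-- Two elements of `H` conjugate in the Chevalley group are conjugate by an element of `N`. -/
theorem result {F : Type*} [Field F] (D : Cfsg.Lie.ChevalleyDatum) (hD : D ∈ [Cfsg.Lie.chevG2, Cfsg.Lie.chevB2, Cfsg.Lie.chevD4, Cfsg.Lie.chevF4, Cfsg.Lie.chevE6, Cfsg.Lie.chevE7, Cfsg.Lie.chevE8]) (h₁ h₂ g : GL D.Idx F) (h1 : h₁ ∈ D.diagonalSubgroup F) (h2 : h₂ ∈ D.diagonalSubgroup F)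
    (hg : g ∈ D.group F) (hc : g * h₁ * g⁻¹ = h₂) :
    ∃ n ∈ D.monomialSubgroup F, n * h₁ * n⁻¹ = h₂ := by
  obtain ⟨⟨_⟩, c⟩ := conn_of_mem hD
  rw [diagonal_eq] at h1 h2
  rw [group_eq] at hg
  rw [monomial_eq]
  obtain ⟨w, hw⟩ := Sys.exists_cell hg
  obtain ⟨n, hn, hw'⟩ := (adS D F).exists_mem_N w
  obtain ⟨b, hb, u, hu, rfl⟩ := (Sys.adCover D F).exists_canon hw hn hw'
  obtain ⟨v, hv, z, hz, rfl⟩ := Sys.mem_B_iff.mp hb
  have h3 := Sys.conj_mem_H hn h1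
  have h4 := ((Sys.adCover D F).canon_unique hw' (mul_mem hb (Sys.H_le_B _ h3)) (mul_mem (Sys.H_le_B _ h2) hb)
    (Sys.conj_mem_of_norm' (Sys.H_le_normalizer_U _ _ h1) hu) hu (by rw [← hc]; group)).1
  have h5 := ((Sys.adCover D F).eq_of_UP_H hv (Sys.conj_mem_of_norm (Sys.H_le_normalizer_U _ _ h2) hv)
    (mul_mem hz h3) (mul_mem h2 hz) (by rw [← mul_assoc, h4]; group)).2
  exact ⟨z * n, mul_mem (Sys.H_le_N _ hz) hn, by rw [← mul_inv_eq_iff_eq_mul] at h5; rw [← h5]; group⟩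

end Cfsg.Agent.S1046
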