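import Cfsg.Statements.S1053
import Cfsg.Agent.Chev.AllC
import Cfsg.Agent.Chev.Bruhat

set_option autoImplicit false
open Cfsg

namespace Cfsg.Agent.S1053

open Cfsg.Agent.Chev Cfsg.Lie

/-- There is `n₀ ∈ N` with `n₀ U n₀⁻¹ = V` (a representative of the longest element of the Weyl group). -/
theorem result {F : Type*} [Field F] (D : Cfsg.Lie.ChevalleyDatum) (hD : D ∈ [Cfsg.Lie.chevG2, Cfsg.Lie.chevB2, Cfsg.Lie.chevD4, Cfsg.Lie.chevF4, Cfsg.Lie.chevE6, Cfsg.Lie.chevE7, Cfsg.Lie.chevE8]) :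
    ∃ n ∈ D.monomialSubgroup F, (D.posUnipotent F).map (MulAut.conj n).toMonoidHom = D.negUnipotent F := by
  obtain ⟨⟨g⟩, c⟩ := conn_of_mem hD
  rw [monomial_eq, negUnipotent_eq, posUnipotent_eq]
  obtain ⟨n, hn, h⟩ := (adS D F).exists_mem_N (w0 Set.univ)
  have h1 : ∀ r : Rt D, Pos r → ¬ Pos (w0 Set.univ • r) := fun r hr => not_pos_w0 hr (by simp [InJ])
  refine ⟨n, hn, le_antisymm ?_ fun y hy => ⟨n⁻¹ * y * n⁻¹⁻¹, h.inv.conj_mem_U (fun r hr => ?_) hy, by simp [mul_assoc]⟩⟩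
  · rintro _ ⟨y, hy, rfl⟩; exact h.conj_mem_U h1 hy
  · have := h1 _ (pos_ng_iff.mpr hr)
    rwa [smul_ng, not_pos_ng_iff, ← w0_inv] at this

end Cfsg.Agent.S1053
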