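import Cfsg.Statements.S1058
import Cfsg.Agent.ChAut.Sp4
import Cfsg.Agent.S0247

set_option autoImplicit false
open Cfsg

namespace Cfsg.Agent.S1058

open Cfsg.Agent.Chev Cfsg.Lie

/-- B₂(2) ≅ S₆. -/
theorem result {F : Type*} [Field F] [Fintype F] (hF : Fintype.card F = 2) :
    Nonempty (↥(Cfsg.Lie.chevB2.group F) ≃* Equiv.Perm (Fin 6)) := by
  obtain ⟨e⟩ := ChAut.equivSp4 (F := F)
  obtain ⟨f⟩ := S0247.result hF
  have h : Subgroup.center (Matrix.symplecticGroup (Fin 2) F) = ⊥ := by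
    refine eq_bot_iff.mpr fun z hz => ?_
    have h1 : ∀ y : Equiv.Perm (Fin 6), y * f z = f z * y := fun y => by
      obtain ⟨y, rfl⟩ := f.surjective y
      rw [← map_mul, ← map_mul, Subgroup.mem_center_iff.mp hz y]
    have h2 : f z = 1 := (by decide +kernel : ∀ w : Equiv.Perm (Fin 6), Equiv.swap 0 1 * w = w * Equiv.swap 0 1 →
      finRotate 6 * w = w * finRotate 6 → w = 1) _ (h1 _) (h1 _)
    exact f.injective (h2.trans (map_one f).symm)
  exact ⟨e.trans (((QuotientGroup.quotientMulEquivOfEq h).trans QuotientGroup.quotientBot).trans f)⟩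

end Cfsg.Agent.S1058
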