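import Cfsg.Statements.S1077
import Cfsg.Agent.Chev.AllC
import Cfsg.Agent.Chev.Tor

set_option autoImplicit false
open Cfsg

namespace Cfsg.Agent.S1077

open Cfsg.Agent.Chev Cfsg.Lie

/-- Steinberg's Theorem: there is a homomorphism `x̄_r(t) ↦ x_r(t)` from the presented group onto the Chevalley group whose kernel is precisely the centre; hence `L(K) ≅ Ḡ/Z(Ḡ)`. -/
theorem result {K : Type*} [Field K] (D : Cfsg.Lie.ChevalleyDatum) (hD : D ∈ [Cfsg.Lie.chevG2, Cfsg.Lie.chevB2, Cfsg.Lie.chevD4, Cfsg.Lie.chevF4, Cfsg.Lie.chevE6, Cfsg.Lie.chevE7, Cfsg.Lie.chevE8]) :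
    ∃ θ : D.SteinbergGroup K →* ↥(D.group K), Function.Surjective θ ∧ θ.ker = Subgroup.center (D.SteinbergGroup K) ∧
      ∀ (r : ℕ) (t : K), r < D.nroots → ((θ (D.stGen K r t) : GL D.Idx K) : Matrix D.Idx D.Idx K) = D.x K r t := by
  obtain ⟨⟨_⟩, c⟩ := conn_of_mem hD
  refine ⟨(grS_mult D K).lift, Sys.surjective_of_map (X := stS D K) (grS_U_univ D K) (grS_mult D K).lift_stGen,
    Subgroup.ext fun y => ?_, fun r t hr => (coe_eq_grS_x ⟨r, hr⟩).mpr ((grS_mult D K).lift_stGen ⟨r, hr⟩ t)⟩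
  rw [Sys.Cover.mem_center_iff (X := stS D K) ⟨(D.group K).subtype.comp (grS_mult D K).lift, fun r t =>
    congrArg Subtype.val ((grS_mult D K).lift_stGen r t)⟩ (stS_U_univ D K)]
  exact Subtype.ext_iff

end Cfsg.Agent.S1077
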