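import Cfsg.Statements.S1081
import Cfsg.Agent.Chev.SymE6
import Cfsg.Agent.Chev.SymD4
import Cfsg.Agent.Chev.AllC

set_option autoImplicit false
open Cfsg

namespace Cfsg.Agent.S1081

open Cfsg.Agent.Chev Cfsg.Lie

theorem aux {F : Type*} [Field F] {D : ChevalleyDatum} [Good D] [Conn D] {T : TwD} (h : T.Ok D D) (S : Sym D)
    (hS : ∀ r, (S.ρ r : ℕ) = T.ι r) (hp : T.p = 0) (hq : ∀ r, T.q r = 1) (L : List ℕ)
    (hL : ∀ i < D.rank, D.simple i < D.nroots ∧ D.neg (D.simple i) < D.nroots ∧ T.ε (D.simple i) = 1 ∧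
      T.ε (D.neg (D.simple i)) = 1 ∧ T.ι (D.simple i) = D.simple (L.getD i 0) ∧
      T.ι (D.neg (D.simple i)) = D.neg (D.simple (L.getD i 0))) :
    ∃ α : ↥(D.group F) ≃* ↥(D.group F), ∀ (g : ↥(D.group F)) (i : ℕ) (t : F), i < D.rank →
      (((g : GL D.Idx F) : Matrix D.Idx D.Idx F) = D.x F (D.simple i) t →
        ((α g : GL D.Idx F) : Matrix D.Idx D.Idx F) = D.x F (D.simple (L.getD i 0)) t) ∧
      (((g : GL D.Idx F) : Matrix D.Idx D.Idx F) = D.x F (D.neg (D.simple i)) t →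
        ((α g : GL D.Idx F) : Matrix D.Idx D.Idx F) = D.x F (D.neg (D.simple (L.getD i 0))) t) := by
  obtain ⟨α, hα⟩ := h.exists_equiv S hS (by simp [hp]) (RingHom.id F) fun r u => ⟨u, by simp [hq]⟩
  refine ⟨α, fun g i t hi => ?_⟩
  obtain ⟨h1, h2, h3, h4, h5, h6⟩ := hL i hi
  exact ⟨fun e => by simpa [h3, h5, hq] using hα g _ t h1 e, fun e => by simpa [h4, h6, hq] using hα g _ t h2 e⟩

/-- Graph automorphisms: for E₆ with ρ = (p₁ p₆)(p₃ p₅) and for D₄ with ρ the 3-cycle on the outer nodes there is a group automorphism sending `x_p(t) ↦ x_{ρ(p)}(t)` and `x_{-p}(t) ↦ x_{-ρ(p)}(t)` for every fundamental root `p`. -/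
theorem result {F : Type*} [Field F] (p : Cfsg.Lie.ChevalleyDatum × List ℕ)
    (hp : p ∈ [(Cfsg.Lie.chevE6, [5, 1, 4, 3, 2, 0]), (Cfsg.Lie.chevD4, [2, 1, 3, 0]), (Cfsg.Lie.chevD4, [3, 1, 0, 2])]) :
    ∃ α : ↥(p.1.group F) ≃* ↥(p.1.group F), ∀ (g : ↥(p.1.group F)) (i : ℕ) (t : F), i < p.1.rank →
      (((g : GL p.1.Idx F) : Matrix p.1.Idx p.1.Idx F) = p.1.x F (p.1.simple i) t →
        ((α g : GL p.1.Idx F) : Matrix p.1.Idx p.1.Idx F) = p.1.x F (p.1.simple (p.2.getD i 0)) t) ∧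
      (((g : GL p.1.Idx F) : Matrix p.1.Idx p.1.Idx F) = p.1.x F (p.1.neg (p.1.simple i)) t →
        ((α g : GL p.1.Idx F) : Matrix p.1.Idx p.1.Idx F) = p.1.x F (p.1.neg (p.1.simple (p.2.getD i 0))) t) := by
  simp only [List.mem_cons, List.not_mem_nil, or_false] at hp
  rcases hp with rfl | rfl | rfl
  · exact aux twE6_ok symE6 symE6_ρ rfl (fun _ => rfl) _ (by decide +kernel)
  · exact aux twD4_ok symD4 symD4_ρ rfl (fun _ => rfl) _ (by decide +kernel)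
  · exact aux twD4'_ok symD4' symD4'_ρ rfl (fun _ => rfl) _ (by decide +kernel)

end Cfsg.Agent.S1081
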