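import Cfsg.Statements.S1084
import Cfsg.Agent.E27.Iso

set_option autoImplicit false
open Cfsg

namespace Cfsg.Agent.S1084

open Cfsg.Agent.Chev Cfsg.Lie


/-- E₆ via the 27-dimensional cubic form: for a finite field with at least three elements, (isometries of the cubic form) / centre ≅ the Chevalley group E₆(F). -/
theorem result {F : Type*} [Field F] [Fintype F] (hF : 3 ≤ Fintype.card F) : Nonempty (Cfsg.Lie.E6 F ≃* ↥(Cfsg.Lie.chevE6.group F)) := by
  classical
  refine E27.equivE6 ?_
  by_contra! h
  have : (Finset.univ : Finset F) ⊆ {0, 1} := fun t _ => by simpa [or_iff_not_imp_left] using h t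
  have := (Finset.card_le_card this).trans Finset.card_le_two
  simp only [Finset.card_univ] at this
  omega

end Cfsg.Agent.S1084
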