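import Cfsg.Statements.S1095
import Cfsg.Agent.Chev.All
import Cfsg.Agent.Chev.Mat

set_option autoImplicit false
open Cfsg

namespace Cfsg.Agent.S1095

open Cfsg.Agent.Chev Cfsg.Lie

/-- `n_p` (p = p_{i+1} fundamental) is the signed monomial matrix `h_{p_j} ↦ h_{p_j} - A_{p_j,p} h_p`, `e_s ↦ η_s e_{w_p(s)}`, with `η_s = ±1`, `η_p = η_{-p} = -1`, `η_s η_{w_p(s)} = (-1)^{A_{p,s}}`, `η_s η_{-s} = 1`. -/
theorem result {F : Type*} [Field F] (D : Cfsg.Lie.ChevalleyDatum) (hD : D ∈ [Cfsg.Lie.chevG2, Cfsg.Lie.chevB2, Cfsg.Lie.chevD4, Cfsg.Lie.chevF4, Cfsg.Lie.chevE6, Cfsg.Lie.chevE7, Cfsg.Lie.chevE8]) (i : ℕ) (hi : i < D.rank) :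
    ∃ η : ℕ → ℤ, (∀ s < D.nroots, η s = 1 ∨ η s = -1) ∧ η (D.simple i) = -1 ∧ η (D.neg (D.simple i)) = -1 ∧
      (∀ s < D.nroots, η s * η (D.reflectRoot i s) = (-1) ^ (D.cartan i s).natAbs ∧ η s * η (D.neg s) = 1) ∧
      D.nMat F (D.simple i) 1 = Matrix.of (fun (row col : D.Idx) =>
        Sum.elim
          (fun j' : Fin D.rank => Sum.elim
            (fun j : Fin D.rank => (if j' = j then (1 : F) else 0) - (if (j' : ℕ) = i then ((D.cartan j (D.simple i) : ℤ) : F) else 0))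
            (fun _ => (0 : F)) col)
          (fun s' : Fin D.nroots => Sum.elim
            (fun _ => (0 : F))
            (fun s : Fin D.nroots => if (s' : ℕ) = D.reflectRoot i s then ((η s : ℤ) : F) else 0) col)
          row) := by
  obtain ⟨g⟩ := good_of_mem hD
  set p : Rt D := sm ⟨i, hi⟩ with hp
  let η : ℕ → ℤ := fun s => if h : s < D.nroots then eta p ⟨s, h⟩ else 0
  have hη : ∀ s : Rt D, η s = eta p s := fun s => dif_pos s.2
  refine ⟨η, fun s hs => ?_, ?_, ?_, fun s hs => ⟨?_, ?_⟩, ?_⟩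
  · rw [hη ⟨s, hs⟩]; exact eta_eq _ _
  · exact (hη p).trans (eta_self p)
  · exact (hη (ng p)).trans (eta_ng_self p)
  · rw [hη ⟨s, hs⟩, ← refl_sm_val ⟨i, hi⟩ ⟨s, hs⟩, hη, eta_mul_eta_refl, A_sm]; rfl
  · rw [hη ⟨s, hs⟩, ← ng_val ⟨s, hs⟩, hη, eta_mul_eta_ng]
  · refine (nMat_eq p 1).trans (mul_col fun b => ?_)
    rcases b with j | s
    · have h1 : (Pi.single (Sum.inl j) 1 : D.Idx → F) = hv (Pi.single j 1) := by
        funext a; rcases a with j' | u <;> simp [hv, Pi.single_apply]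
      rw [Matrix.mulVec_single_one (M := Matrix.of _), h1, adj_nF_hv p one_ne_zero]
      funext a
      rcases a with j' | u
      · simp [hv, hp, cov_sm, Pi.single_apply, Fin.ext_iff (a := j'), car]
      · simp [hv]
    · rw [adj_nF_one_ev, Matrix.mulVec_single_one]
      funext a
      rcases a with j' | u
      · simp
      · simp [Pi.single_apply, hη, ← refl_sm_val ⟨i, hi⟩ s, Fin.ext_iff, hp]

end Cfsg.Agent.S1095
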