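import Cfsg.Statements.S1097
import Cfsg.Agent.Chev.AllC
import Cfsg.Agent.Chev.Tor

set_option autoImplicit false
open Cfsg

namespace Cfsg.Agent.S1097

open Cfsg.Agent.Chev Cfsg.Lie

/-- Any homomorphism from the presented group to the Chevalley group with `x̄_r(t) ↦ x_r(t)` has kernel contained in `H̄ = ⟨h̄_p(t) : p fundamental, t ≠ 0⟩`. -/
theorem result {K : Type*} [Field K] (D : Cfsg.Lie.ChevalleyDatum) (hD : D ∈ [Cfsg.Lie.chevG2, Cfsg.Lie.chevB2, Cfsg.Lie.chevD4, Cfsg.Lie.chevF4, Cfsg.Lie.chevE6, Cfsg.Lie.chevE7, Cfsg.Lie.chevE8]) (θ : D.SteinbergGroup K →* ↥(D.group K))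
    (hθ : ∀ (r : ℕ) (t : K), r < D.nroots → ((θ (D.stGen K r t) : GL D.Idx K) : Matrix D.Idx D.Idx K) = D.x K r t) :
    θ.ker ≤ Subgroup.closure {h | ∃ (i : ℕ) (t : K), i < D.rank ∧ t ≠ 0 ∧ h = PresentedGroup.mk (D.steinbergRels K) (D.stH (D.simple i) t)} := by
  obtain ⟨⟨_⟩, c⟩ := conn_of_mem hD
  intro y hy
  let c : (stS D K).Cover := ⟨(D.group K).subtype.comp θ, fun r t => (coe_eq_x r).mp (hθ r t r.2)⟩
  obtain ⟨a, rfl⟩ := (stS_mult D K).exists_tor (c.mem_H_of_mem_center (stS_U_univ D K)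
    ((c.mem_center_iff (stS_U_univ D K)).mpr (congrArg Subtype.val hy)))
  exact (stS_mult D K).tor_mem fun i => Subgroup.subset_closure ⟨i, a i, i.2, (a i).ne_zero, stS_h _ _⟩

end Cfsg.Agent.S1097
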