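import Cfsg.Statements.S1098
import Cfsg.Agent.Chev.SymB2
import Cfsg.Agent.Chev.SymF4
import Cfsg.Agent.Chev.AllC

set_option autoImplicit false
open Cfsg

namespace Cfsg.Agent.S1098

open Cfsg.Agent.Chev Cfsg.Lie

theorem aux {F : Type*} [Field F] [CharP F 2] (hperf : ∀ x : F, ∃ y : F, y ^ 2 = x) {D : ChevalleyDatum} [Good D]
    [Conn D] {T : TwD} (h : T.Ok D D) (S : Sym D)
    (hS : ∀ r, (S.ρ r : ℕ) = T.ι r) (hp : T.p = 2) (hε : ∀ r, T.ε r = 1) (L : List (ℕ × ℕ))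
    (hL : ∀ i < D.rank, D.simple i < D.nroots ∧ D.neg (D.simple i) < D.nroots ∧
      T.q (D.simple i) = (L.getD i (0, 1)).2 ∧ T.q (D.neg (D.simple i)) = (L.getD i (0, 1)).2 ∧
      T.ι (D.simple i) = D.simple (L.getD i (0, 1)).1 ∧
      T.ι (D.neg (D.simple i)) = D.neg (D.simple (L.getD i (0, 1)).1)) :
    ∃ α : ↥(D.group F) ≃* ↥(D.group F), ∀ (g : ↥(D.group F)) (i : ℕ) (t : F), i < D.rank →
      (((g : GL D.Idx F) : Matrix D.Idx D.Idx F) = D.x F (D.simple i) t →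
        ((α g : GL D.Idx F) : Matrix D.Idx D.Idx F) = D.x F (D.simple (L.getD i (0, 1)).1) (t ^ (L.getD i (0, 1)).2)) ∧
      (((g : GL D.Idx F) : Matrix D.Idx D.Idx F) = D.x F (D.neg (D.simple i)) t →
        ((α g : GL D.Idx F) : Matrix D.Idx D.Idx F) =
          D.x F (D.neg (D.simple (L.getD i (0, 1)).1)) (t ^ (L.getD i (0, 1)).2)) := by
  obtain ⟨α, hα⟩ := h.exists_equiv S hS (hp ▸ CharP.cast_eq_zero F 2) (RingHom.id F) fun r u => by
    rcases (h.base.1 r r.2).2.2.2.2.2 with e | ⟨e, -⟩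
    exacts [⟨u, by simp [e]⟩, by simpa [e, hp] using hperf u]
  refine ⟨α, fun g i t hi => ?_⟩
  obtain ⟨h1, h2, h3, h4, h5, h6⟩ := hL i hi
  exact ⟨fun e => by simpa only [h3, h5, hε, Int.cast_one, one_mul, RingHom.id_apply] using hα g _ t h1 e,
    fun e => by simpa only [h4, h6, hε, Int.cast_one, one_mul, RingHom.id_apply] using hα g _ t h2 e⟩

/-- Graph automorphisms in characteristic 2 (K perfect): for B₂ (a short, b long) `x_a(t) ↦ x_b(t²)`, `x_b(t) ↦ x_a(t)`, and for F₄ (p₁, p₂ short, p₃, p₄ long) `x_{p₁}(t) ↦ x_{p₄}(t²)`, `x_{p₂}(t) ↦ x_{p₃}(t²)`, `x_{p₃}(t) ↦ x_{p₂}(t)`, `x_{p₄}(t) ↦ x_{p₁}(t)`, likewise on the negatives, extend to an automorphism of the group. -/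
theorem result {K : Type*} [Field K] [CharP K 2] (hperf : ∀ x : K, ∃ y : K, y ^ 2 = x)
    (p : Cfsg.Lie.ChevalleyDatum × List (ℕ × ℕ))
    (hp : p ∈ [(Cfsg.Lie.chevB2, [(1, 2), (0, 1)]), (Cfsg.Lie.chevF4, [(3, 2), (2, 2), (1, 1), (0, 1)])]) :
    ∃ α : ↥(p.1.group K) ≃* ↥(p.1.group K), ∀ (g : ↥(p.1.group K)) (i : ℕ) (t : K), i < p.1.rank →
      (((g : GL p.1.Idx K) : Matrix p.1.Idx p.1.Idx K) = p.1.x K (p.1.simple i) t →
        ((α g : GL p.1.Idx K) : Matrix p.1.Idx p.1.Idx K) = p.1.x K (p.1.simple (p.2.getD i (0, 1)).1) (t ^ (p.2.getD i (0, 1)).2)) ∧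
      (((g : GL p.1.Idx K) : Matrix p.1.Idx p.1.Idx K) = p.1.x K (p.1.neg (p.1.simple i)) t →
        ((α g : GL p.1.Idx K) : Matrix p.1.Idx p.1.Idx K) = p.1.x K (p.1.neg (p.1.simple (p.2.getD i (0, 1)).1)) (t ^ (p.2.getD i (0, 1)).2)) := by
  simp only [List.mem_cons, List.not_mem_nil, or_false] at hp
  rcases hp with rfl | rfl
  · exact aux hperf twB2_ok symB2 symB2_ρ rfl (fun _ => rfl) _ (by decide +kernel)
  · exact aux hperf twF4_ok symF4 symF4_ρ rfl (fun _ => rfl) _ (by decide +kernel)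

end Cfsg.Agent.S1098
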