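import Cfsg.Statements.S1100
import Cfsg.Agent.Chev.AllC
import Cfsg.Agent.Chev.Bruhat

set_option autoImplicit false
open Cfsg

namespace Cfsg.Agent.S1100

open Cfsg.Agent.Chev Cfsg.Lie

/-- Canonical form `g = b n_w u` (`b ∈ B`, `u ∈ U_w⁻ = ⟨X_r : r > 0, n_w X_r n_w⁻¹ ≤ V⟩`): such a decomposition exists for every element of the group; the coset `n_w H` is determined by `g`; and for a fixed representative `n_w` the factors `b`, `u` are unique. -/
theorem result {F : Type*} [Field F] (D : Cfsg.Lie.ChevalleyDatum) (hD : D ∈ [Cfsg.Lie.chevG2, Cfsg.Lie.chevB2, Cfsg.Lie.chevD4, Cfsg.Lie.chevF4, Cfsg.Lie.chevE6, Cfsg.Lie.chevE7, Cfsg.Lie.chevE8]) :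
    (∀ g ∈ D.group F, ∃ b ∈ D.borelSubgroup F, ∃ n ∈ D.monomialSubgroup F,
      ∃ u ∈ Subgroup.closure {x : GL D.Idx F | ∃ (r : ℕ) (t : F), D.IsPosRoot r ∧
            (D.rootSubgroup F r).map (MulAut.conj n).toMonoidHom ≤ D.negUnipotent F ∧ (x : Matrix D.Idx D.Idx F) = D.x F r t},
        g = b * n * u) ∧
    (∀ (b b' n n' u u' : GL D.Idx F), b ∈ D.borelSubgroup F → b' ∈ D.borelSubgroup F →
      n ∈ D.monomialSubgroup F → n' ∈ D.monomialSubgroup F →
      u ∈ Subgroup.closure {x : GL D.Idx F | ∃ (r : ℕ) (t : F), D.IsPosRoot r ∧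
            (D.rootSubgroup F r).map (MulAut.conj n).toMonoidHom ≤ D.negUnipotent F ∧ (x : Matrix D.Idx D.Idx F) = D.x F r t} →
      u' ∈ Subgroup.closure {x : GL D.Idx F | ∃ (r : ℕ) (t : F), D.IsPosRoot r ∧
            (D.rootSubgroup F r).map (MulAut.conj n').toMonoidHom ≤ D.negUnipotent F ∧ (x : Matrix D.Idx D.Idx F) = D.x F r t} →
      b * n * u = b' * n' * u' → n⁻¹ * n' ∈ D.diagonalSubgroup F ∧ (n = n' → b = b' ∧ u = u')) := by
  obtain ⟨⟨_⟩, c⟩ := conn_of_mem hD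
  have key : ∀ {n : GL D.Idx F} {w : WG D}, (adS D F).Mon n w →
      Subgroup.closure {x : GL D.Idx F | ∃ (r : ℕ) (t : F), D.IsPosRoot r ∧
        (D.rootSubgroup F r).map (MulAut.conj n).toMonoidHom ≤ D.negUnipotent F ∧
        (x : Matrix D.Idx D.Idx F) = D.x F r t} = (adS D F).U {r | Pos r ∧ ¬ Pos (w • r)} := fun {n w} hw => by
    refine closure_x (p := fun r => D.IsPosRoot r ∧ (D.rootSubgroup F r).map (MulAut.conj n).toMonoidHom ≤
      D.negUnipotent F) (fun _ => by simp only [Set.mem_ofPred_eq, and_assoc]) fun r => ?_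
    rw [isPosRoot_iff, rootSubgroup_eq, negUnipotent_eq]
    refine and_congr_right fun _ => ⟨fun h hp => ?_, fun h => ?_⟩
    · obtain ⟨a, -, ha⟩ := hw
      have h1 : n * (adS D F).x r 1 * n⁻¹ ∈ _ := h ⟨_, Sys.x_mem_single _ r 1, rfl⟩
      rw [ha] at h1
      simpa using (Sys.adCover D F).x_eq_one
        ((Sys.adCover D F).eq_one_of_B_UN (Sys.UP_le_B _ (Sys.x_mem_U _ hp _)) h1)
    · rintro _ ⟨y, hy, rfl⟩
      exact hw.conj_mem_U (by simpa) hy
  rw [group_eq, borel_eq, monomial_eq, diagonal_eq]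
  refine ⟨fun y hy => ?_, fun b b' n n' u u' hb hb' hn hn' hu hu' e => ?_⟩
  · obtain ⟨w, hw⟩ := Sys.exists_cell hy
    obtain ⟨n, hn, hw'⟩ := (adS D F).exists_mem_N w
    obtain ⟨b, hb, u, hu, e⟩ := (Sys.adCover D F).exists_canon hw hn hw'
    exact ⟨b, hb, n, hn, u, key hw' ▸ hu, e⟩
  · obtain ⟨w, hw⟩ := Sys.exists_mon hn
    obtain ⟨w', hw'⟩ := Sys.exists_mon hn'
    rw [key hw] at hu
    rw [key hw'] at hu'
    have h1 : ∀ w : WG D, (adS D F).U {r | Pos r ∧ ¬ Pos (w • r)} ≤ (adS D F).B := fun w =>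
      (Sys.U_mono _ fun _ h => h.1).trans (Sys.UP_le_B _)
    obtain rfl := (Sys.adCover D F).cell_unique ⟨b, hb, n, hn, hw, u, h1 _ hu, rfl⟩ ⟨b', hb', n', hn', hw', u', h1 _ hu', e⟩
    refine ⟨(Sys.adCover D F).inv_mul_mem_H hn hn' hw hw', ?_⟩
    rintro rfl
    exact (Sys.adCover D F).canon_unique hw hb hb' hu hu' e

end Cfsg.Agent.S1100
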