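import Cfsg.Statements.S1102
import Cfsg.Agent.Chev.TwE6

set_option autoImplicit false
open Cfsg

namespace Cfsg.Agent.S1102

open Cfsg.Agent.Chev Cfsg.Lie

/-- `|H¹| = |G¹ ∩ H|`: `Nat.gcd 3 (q + 1) * |H¹| = (q - 1) ^ 4 * (q + 1) ^ 2` for ²E₆(q). -/
theorem result {K : Type*} [Field K] [Fintype K] {q : ℕ} (hq : IsPrimePow q) (hK : Fintype.card K = q ^ 2) :
    Nat.gcd 3 (q + 1) * Nat.card ↥(Cfsg.Lie.chevE6.diagonalSubgroup K ⊓ Cfsg.Lie.twistedE6 K q) = (q - 1) ^ 4 * (q + 1) ^ 2 := by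
  rw [← Nat.card_eq_fintype_card] at hK
  obtain ⟨φ, hφ, h2⟩ := exists_φE6 hq hK
  exact diagonal_eq chevE6 K ▸ card_HE6 hφ h2 hq.one_lt hK

end Cfsg.Agent.S1102
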