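import Cfsg.Statements.S1118
import Cfsg.Agent.Rank1.Basic

set_option autoImplicit false
open Cfsg

namespace Cfsg.Agent.S1118

/-- In the rank-one set-up (`G` finite and doubly transitive on `Ω`, `t` an involution moving `a`, `Q` normal in `G_a` with `G_a = Q D`, `Q ⊓ D = 1` for the two-point stabiliser `D = G_a ⊓ G_{t • a}`, `|Q|` even, `|D|` odd), the normaliser of a subset of `Q` containing a non-identity element lies in `G_a`; consequently `N_G(Q) = N_G(G_a) = G_a`. -/
theorem result {G Ω : Type*} [Group G] [Finite G] [MulAction G Ω] {a : Ω} {t : G} {Q : Subgroup G}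
    (hS : Cfsg.IsRankOneSetup G Ω a t Q) :
    (∀ X : Set G, X ⊆ (Q : Set G) → (∃ x ∈ X, x ≠ 1) → Subgroup.normalizer X ≤ MulAction.stabilizer G a) ∧
      Subgroup.normalizer (Q : Set G) = MulAction.stabilizer G a ∧
      Subgroup.normalizer (MulAction.stabilizer G a : Set G) = MulAction.stabilizer G a := by
  open Cfsg.Agent.Invol Cfsg.Agent.Rank1 in
  have h1 : ∀ X : Set G, X ⊆ (Q : Set G) → (∃ x ∈ X, x ≠ 1) →
      Subgroup.normalizer X ≤ MulAction.stabilizer G a := by
    rintro X hX ⟨x, hx, hx1⟩ g hg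
    exact Setup.mem_H_of_conj hS (hX hx) hx1
      (Setup.smul_a hS (hX ((Subgroup.mem_set_normalizer_iff.1 hg x).1 hx)))
  obtain ⟨s, hs, h2⟩ := Setup.exists_invol_Q hS
  refine ⟨h1, le_antisymm (h1 _ le_rfl ⟨s, hs, ne_one_of h2⟩) fun g hg => ?_,
    le_antisymm (fun g hg => ?_) Subgroup.le_normalizer⟩
  · exact mem_normalizer_of_conj_mem fun x hx => Setup.conj_mem_Q hS hg hx
  · exact Setup.mem_H_of_conj hS hs (ne_one_of h2)
      ((Subgroup.mem_normalizer_iff.1 hg s).1 (hS.le hs))

end Cfsg.Agent.S1118
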