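import Cfsg.Statements.S1119
import Cfsg.Agent.Rank1.Basic

set_option autoImplicit false
open Cfsg

namespace Cfsg.Agent.S1119

/-- In the rank-one set-up (`G` finite and doubly transitive on `Ω`, `t` an involution moving `a`, `Q` normal in `G_a` with `G_a = Q D`, `Q ⊓ D = 1` for the two-point stabiliser `D = G_a ⊓ G_{t • a}`, `|Q|` even, `|D|` odd): `Q` acts regularly on `Ω` minus `a`; hence `|Ω| = |Q| + 1`, `|G| = |Q| |D| (|Q| + 1)`, some Sylow 2-subgroup of `G` lies in `Q`, and each `g ∉ G_a` is uniquely `x t y` with `x ∈ G_a`, `y ∈ Q` (canonical form). -/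
theorem result {G Ω : Type*} [Group G] [Finite G] [MulAction G Ω] {a : Ω} {t : G} {Q : Subgroup G}
    (hS : Cfsg.IsRankOneSetup G Ω a t Q) :
    (∀ b c : Ω, b ≠ a → c ≠ a → ∃! x : Q, (x : G) • b = c) ∧
      Nat.card Ω = Nat.card Q + 1 ∧
      Nat.card G = Nat.card Q * Nat.card ↥(MulAction.stabilizer G a ⊓ MulAction.stabilizer G (t • a)) * (Nat.card Q + 1) ∧
      (∃ P : Sylow 2 G, (P : Subgroup G) ≤ Q) ∧
      ∀ g : G, g ∉ MulAction.stabilizer G a → ∃! p : G × G, p.1 ∈ MulAction.stabilizer G a ∧ p.2 ∈ Q ∧ g = p.1 * t * p.2 := by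
  open Cfsg.Agent.Invol Cfsg.Agent.Rank1 in
  refine ⟨fun b c hb hc => ?_, Setup.card_Ω hS, Setup.card_G hS, Setup.exists_sylow_le hS,
    fun g hg => ?_⟩
  · obtain ⟨q, hq, h⟩ := Setup.exists_Q hS hb hc
    exact ⟨⟨q, hq⟩, h, fun y hy => Subtype.ext (Setup.eq_of_smul hS y.2 hq hb (hy.trans h.symm))⟩
  · obtain ⟨q, hq, d, hd, y, hy, h⟩ := Setup.exists_canon hS hg
    have hx : q * d ∈ MulAction.stabilizer G a := mul_mem (hS.le hq) hd.1
    refine ⟨(q * d, y), ⟨hx, hy, h⟩, ?_⟩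
    rintro ⟨x', y'⟩ ⟨h1, h2, h3⟩
    obtain ⟨h4, h5⟩ := Setup.canon_unique' hS h1 hx h2 hy (h3.symm.trans h)
    exact Prod.ext h4 h5

end Cfsg.Agent.S1119
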