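import Cfsg.Statements.S1120
import Cfsg.Agent.Rank1.Basic
import Cfsg.Agent.Solv.Core

set_option autoImplicit false
open Cfsg

namespace Cfsg.Agent.S1120

/-- In the rank-one set-up (`G` finite and doubly transitive on `Ω`, `t` an involution moving `a`, `Q` normal in `G_a` with `G_a = Q D`, `Q ⊓ D = 1` for the two-point stabiliser `D = G_a ⊓ G_{t • a}`, `|Q|` even, `|D|` odd), if `G` has 2-rank at least 2 then `O_{2'}(G)` equals the normal core of `G_a`. -/
theorem result {G Ω : Type*} [Group G] [Finite G] [MulAction G Ω] {a : Ω} {t : G} {Q : Subgroup G}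
    (hS : Cfsg.IsRankOneSetup G Ω a t Q)
    (h2 : ∃ x y : G, x ≠ 1 ∧ y ≠ 1 ∧ x ≠ y ∧ x * x = 1 ∧ y * y = 1 ∧ x * y = y * x) :
    Cfsg.pPrimeCore 2 G = (MulAction.stabilizer G a).normalCore := by
  open Cfsg.Agent.Invol Cfsg.Agent.Rank1 Cfsg.Agent.Solv in
  apply le_antisymm
  · rw [Subgroup.normal_le_normalCore]
    intro g hg
    by_contra hgH
    obtain ⟨x, hx, y, hy, h1, h3, h4, h5⟩ := Setup.exists_two_invol hS h2
    have hu : g * x * g⁻¹ ∉ MulAction.stabilizer G a := fun h =>
      hgH (Setup.mem_H_of_conj hS hx (ne_one_of h1) h)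
    obtain ⟨d, hd, k1, k2⟩ := SE.exists_conj_inverted (Setup.se hS) hu
      (by rw [orderOf_conj', h1]) (hS.le hx) h1 (hS.le hy) h3
    have hdo : Odd (orderOf d) := SE.odd_orderOf_of_mem_inter (Setup.se hS) hu hd
      (k1 ▸ inv_mem hd)
    let f := QuotientGroup.mk' (pPrimeCore 2 G)
    have hfg : f g = 1 := (QuotientGroup.eq_one_iff g).2 hg
    have e1 : f x * f d * (f x)⁻¹ = (f d)⁻¹ := by
      have := congrArg f k1
      simpa only [map_mul, map_inv, hfg, one_mul, inv_one, mul_one] using this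
    have e2 : f d * f x * (f d)⁻¹ = f y := by rw [← k2]; simp only [map_mul, map_inv]
    have e3 : f d * f d = f (y * x) := by
      have hx2 : f x * f x = 1 := by rw [← map_mul, mul_self_of h1, map_one]
      rw [map_mul, ← e2, ← e1, inv_eq_of_mul_self hx2]
      calc f d * f d = f d * (f x * f x) * f d * (f x * f x) := by rw [hx2]; group
        _ = _ := by group
    have hyx : orderOf (y * x) = 2 :=
      orderOf_mul_of_commute (mul_self_of h3) (mul_self_of h1) h5.symm h4.symm
    have hfd : Odd (orderOf (f d)) := Odd.of_dvd_nat hdo (orderOf_map_dvd f d)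
    have e4 : f d = 1 := eq_one_of_odd_of_pow_two_pow hfd (n := 2) (by
      rw [show 2 ^ 2 = 2 * 2 from rfl, pow_mul, pow_two (f d), e3, pow_two, ← map_mul,
        mul_self_of hyx, map_one])
    have e5 : y * x ∈ pPrimeCore 2 G := by
      rw [← QuotientGroup.eq_one_iff]
      show f (y * x) = 1
      rw [← e3, e4, one_mul]
    have := even_card_of_invol e5 hyx
    exact (Nat.not_even_iff_odd.2 (Nat.coprime_two_right.1 (coprime_card_pPrimeCore 2 G))) this
  · apply le_pPrimeCore
    rw [Nat.coprime_two_right]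
    refine Odd.of_dvd_nat hS.odd_card (Subgroup.card_dvd_of_le fun x hx => ⟨Subgroup.normalCore_le _ hx, ?_⟩)
    have := hx t⁻¹
    rw [MulAction.mem_stabilizer_iff, inv_inv, mul_smul, mul_smul, inv_smul_eq_iff] at this
    exact this

end Cfsg.Agent.S1120
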