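import Cfsg.Statements.S1122
import Cfsg.Agent.Rank1.Basic

set_option autoImplicit false
open Cfsg

namespace Cfsg.Agent.S1122

/-- In the rank-one set-up (`G` finite and doubly transitive on `Ω`, `t` an involution moving `a`, `Q` normal in `G_a` with `G_a = Q D`, `Q ⊓ D = 1` for the two-point stabiliser `D = G_a ⊓ G_{t • a}`, `|Q|` even, `|D|` odd), with `K` the set of elements of `D` inverted by `t`: `|K|` is the number of involutions of `G_a`, and for each involution `s` of `G_a` the `K`-conjugates of `s` are all the involutions of `G_a`. -/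
theorem result {G Ω : Type*} [Group G] [Finite G] [MulAction G Ω] {a : Ω} {t : G} {Q : Subgroup G}
    (hS : Cfsg.IsRankOneSetup G Ω a t Q) :
    Nat.card (Cfsg.invertedBy (MulAction.stabilizer G a ⊓ MulAction.stabilizer G (t • a)) t) = Nat.card (Cfsg.involutionsIn (MulAction.stabilizer G a : Set G)) ∧
      ∀ s ∈ Cfsg.involutionsIn (MulAction.stabilizer G a : Set G), ∀ s' ∈ Cfsg.involutionsIn (MulAction.stabilizer G a : Set G),
        ∃ k ∈ Cfsg.invertedBy (MulAction.stabilizer G a ⊓ MulAction.stabilizer G (t • a)) t, k⁻¹ * s * k = s' := by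
  open Cfsg.Agent.Invol Cfsg.Agent.Rank1 in
  constructor
  · obtain ⟨s, hs, h2⟩ := Setup.exists_invol_Q hS
    refine Nat.card_congr (Equiv.ofBijective (fun k => ⟨k.1 * s * k.1⁻¹,
      hS.le (Setup.conj_mem_Q hS k.2.1.1 hs), ne_one_of (by rw [orderOf_conj', h2]),
      mul_self_of (by rw [orderOf_conj', h2])⟩) ⟨fun k k' h => Subtype.ext ?_, fun s' => ?_⟩)
    · exact Setup.K_inj hS (Setup.smul_a hS hs) h2 k'.2.1.1 k.2.2 k'.2.2 (congrArg Subtype.val h)
    · obtain ⟨k, hk, h3, h4⟩ := Setup.exists_K_conj hS (Setup.smul_a hS hs) h2 s'.2.1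
        (orderOf_two_iff.2 ⟨s'.2.2.2, s'.2.2.1⟩)
      exact ⟨⟨k, hk, h3⟩, Subtype.ext h4⟩
  · intro s hs s' hs'
    obtain ⟨k, hk, h3, h4⟩ := Setup.exists_K_conj hS hs'.1 (orderOf_two_iff.2 ⟨hs'.2.2, hs'.2.1⟩)
      hs.1 (orderOf_two_iff.2 ⟨hs.2.2, hs.2.1⟩)
    exact ⟨k, ⟨hk, h3⟩, by rw [← h4]; group⟩

end Cfsg.Agent.S1122
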