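import Cfsg.Statements.S1124
import Cfsg.Agent.Rank1.Basic

set_option autoImplicit false
open scoped Pointwise
open Cfsg

namespace Cfsg.Agent.S1124

/-- Let `t` be an element of order 2 of a finite group normalising a subgroup `X` of odd order, `Y = C_X(t)` and `Z` the set of elements of `X` inverted by `t`. Then `(y, z) ↦ y z` is a bijection `Y × Z → X`, so `|X| = |Y| |Z|`, and the subgroup generated by `Z` is normal in `X`. -/
theorem result {M : Type*} [Group M] [Finite M]
    (t : M) (ht : orderOf t = 2) (X : Subgroup M) (hodd : Odd (Nat.card X))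
    (hnorm : ∀ x ∈ X, t * x * t⁻¹ ∈ X) :
    (∀ x ∈ X, ∃! p : M × M, p.1 ∈ X ⊓ Subgroup.centralizer {t} ∧ p.2 ∈ Cfsg.invertedBy X t ∧ x = p.1 * p.2) ∧
      Nat.card X = Nat.card ↥(X ⊓ Subgroup.centralizer {t}) * Nat.card (Cfsg.invertedBy X t) ∧
      ∀ x ∈ X, MulAut.conj x • Subgroup.closure (Cfsg.invertedBy X t) = Subgroup.closure (Cfsg.invertedBy X t) := by
  open Cfsg.Agent.Invol Cfsg.Agent.Rank1 in
  have huniq : ∀ y z y' z' : M, y ∈ X ⊓ Subgroup.centralizer {t} → z ∈ Cfsg.invertedBy X t →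
      y' ∈ X ⊓ Subgroup.centralizer {t} → z' ∈ Cfsg.invertedBy X t → y * z = y' * z' →
      y = y' ∧ z = z' := fun y z y' z' h1 h2 h3 h4 h5 =>
    factor_unique (mem_centralizer_singleton.1 h1.2) (mem_centralizer_singleton.1 h3.2) h2.2 h4.2
      (odd_orderOf_of_mem hodd h2.1) (odd_orderOf_of_mem hodd h4.1) h5
  refine ⟨fun x hx => ?_, ?_, fun x hx => ?_⟩
  · obtain ⟨y, hy, z, hz, h1, h2, h3⟩ := exists_factor (mul_self_of ht) hodd hnorm hx
    refine ⟨(y, z), ⟨⟨hy, mem_centralizer_singleton.2 h1⟩, ⟨hz, h2⟩, h3⟩, ?_⟩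
    rintro ⟨y', z'⟩ ⟨k1, k2, k3⟩
    obtain ⟨h4, h5⟩ := huniq _ _ _ _ k1 k2 ⟨hy, mem_centralizer_singleton.2 h1⟩ ⟨hz, h2⟩
      (k3.symm.trans h3)
    exact Prod.ext h4 h5
  · rw [← Nat.card_prod]
    symm
    refine Nat.card_congr (Equiv.ofBijective (fun p => ⟨(p.1 : M) * p.2,
      mul_mem p.1.2.1 p.2.2.1⟩) ⟨fun p p' h => ?_, fun x => ?_⟩)
    · obtain ⟨h1, h2⟩ := huniq _ _ _ _ p.1.2 p.2.2 p'.1.2 p'.2.2 (congrArg Subtype.val h)
      exact Prod.ext (Subtype.ext h1) (Subtype.ext h2)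
    · obtain ⟨y, hy, z, hz, h1, h2, h3⟩ := exists_factor (mul_self_of ht) hodd hnorm x.2
      exact ⟨(⟨y, hy, mem_centralizer_singleton.2 h1⟩, ⟨z, hz, h2⟩), Subtype.ext h3.symm⟩
  · have key : ∀ x ∈ X, ∀ w ∈ Subgroup.closure (Cfsg.invertedBy X t),
        x * w * x⁻¹ ∈ Subgroup.closure (Cfsg.invertedBy X t) := by
      intro x hx w hw
      obtain ⟨y, hy, z, hz, h1, h2, rfl⟩ := exists_factor (mul_self_of ht) hodd hnorm hx
      have hz' : z ∈ Subgroup.closure (Cfsg.invertedBy X t) := Subgroup.subset_closure ⟨hz, h2⟩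
      have h3 : ∀ w ∈ Subgroup.closure (Cfsg.invertedBy X t),
          y * w * y⁻¹ ∈ Subgroup.closure (Cfsg.invertedBy X t) := by
        intro w hw
        induction hw using Subgroup.closure_induction with
        | mem w hw =>
          refine Subgroup.subset_closure ⟨mul_mem (mul_mem hy hw.1) (inv_mem hy), ?_⟩
          calc t * (y * w * y⁻¹) * t⁻¹ = (t * y) * w * (t * y)⁻¹ := by group
            _ = y * (t * w * t⁻¹) * y⁻¹ := by rw [← h1.eq]; group
            _ = _ := by rw [hw.2]; group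
        | one => simp
        | mul u v _ _ hu hv => convert mul_mem hu hv using 1; group
        | inv u _ hu => convert inv_mem hu using 1; group
      convert h3 _ (mul_mem (mul_mem hz' hw) (inv_mem hz')) using 1; group
    ext w
    rw [Subgroup.mem_pointwise_smul_iff_inv_smul_mem]
    constructor
    · intro h
      have := key x hx _ h
      simpa [mul_assoc] using this
    · intro h
      simpa using key x⁻¹ (inv_mem hx) w h

end Cfsg.Agent.S1124
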