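import Cfsg.Statements.S1125
import Cfsg.Agent.Rank1.Basic

set_option autoImplicit false
open Cfsg

namespace Cfsg.Agent.S1125

/-- In the rank-one set-up (`G` finite and doubly transitive on `Ω`, `t` an involution moving `a`, `Q` normal in `G_a` with `G_a = Q D`, `Q ⊓ D = 1` for the two-point stabiliser `D = G_a ⊓ G_{t • a}`, `|Q|` even, `|D|` odd), let `X ⊆ D` fix at least three points of `Ω`. Then `C_G(X)` is doubly transitive on the fixed-point set of `X`, `|C_Q(X)|` is even, and `C_{G_a}(X) = C_Q(X) C_D(X)`. -/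
theorem result {G Ω : Type*} [Group G] [Finite G] [MulAction G Ω] {a : Ω} {t : G} {Q : Subgroup G}
    (hS : Cfsg.IsRankOneSetup G Ω a t Q)
    (X : Set G) (hX : X ⊆ ((MulAction.stabilizer G a ⊓ MulAction.stabilizer G (t • a)) : Set G))
    (h3 : ∃ b c d : Ω, b ≠ c ∧ b ≠ d ∧ c ≠ d ∧ ∀ x ∈ X, x • b = b ∧ x • c = c ∧ x • d = d) :
    (∀ b₁ b₂ c₁ c₂ : Ω, (∀ x ∈ X, x • b₁ = b₁ ∧ x • b₂ = b₂ ∧ x • c₁ = c₁ ∧ x • c₂ = c₂) →
        b₁ ≠ b₂ → c₁ ≠ c₂ → ∃ g ∈ Subgroup.centralizer X, g • b₁ = c₁ ∧ g • b₂ = c₂) ∧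
      Even (Nat.card ↥(Subgroup.centralizer X ⊓ Q)) ∧
      (Subgroup.centralizer X ⊓ Q) ⊔ (Subgroup.centralizer X ⊓ (MulAction.stabilizer G a ⊓ MulAction.stabilizer G (t • a))) = Subgroup.centralizer X ⊓ MulAction.stabilizer G a := by
  open Cfsg.Agent.Invol Cfsg.Agent.Rank1 in
  refine ⟨fun b₁ b₂ c₁ c₂ h1 h2 h4 => Setup.two_trans_fix hS h3 h1 h2 h4, ?_, ?_⟩
  · obtain ⟨s, hs, h1, h2⟩ := Setup.exists_invol_CQ hS (fun x hx => (hX hx).1) h3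
    exact even_card_of_invol (t := s) ⟨h1, hs⟩ h2
  · refine le_antisymm (sup_le (inf_le_inf_left _ hS.le) (inf_le_inf_left _ inf_le_left)) ?_
    rintro h ⟨h1, h2⟩
    obtain ⟨q, hq, h4, h5⟩ := Setup.exists_CQ hS (X := X) (Setup.t_smul_ne hS)
      (Setup.smul_ne_a hS h2 (Setup.t_smul_ne hS)) fun x hx => ⟨(hX hx).1, (hX hx).2,
        Setup.fixed_smul h1 (fun x hx => (hX hx).2) x hx⟩
    rw [show h = q * (q⁻¹ * h) by group]
    refine mul_mem (Subgroup.mem_sup_left ⟨h4, hq⟩) (Subgroup.mem_sup_right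
      (Subgroup.mem_inf.2 ⟨mul_mem (inv_mem h4) h1,
        Subgroup.mem_inf.2 ⟨mul_mem (inv_mem (hS.le hq)) h2, ?_⟩⟩))
    show (q⁻¹ * h) • t • a = t • a
    rw [mul_smul, ← h5, inv_smul_smul]

end Cfsg.Agent.S1125
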