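import Cfsg.Statements.S1127
import Cfsg.Agent.Rank1.Basic

set_option autoImplicit false
open Cfsg

namespace Cfsg.Agent.S1127

/-- In the rank-one set-up (`G` finite and doubly transitive on `Ω`, `t` an involution moving `a`, `Q` normal in `G_a` with `G_a = Q D`, `Q ⊓ D = 1` for the two-point stabiliser `D = G_a ⊓ G_{t • a}`, `|Q|` even, `|D|` odd): if `s` is an involution of `G_a` and `r ∈ Q` satisfy `t s t = r⁻¹ t r`, then `C_D(t) = C_D(s)`; moreover `C_D(t) ⊓ C_D(K) = C_D(I ∩ G_a)`, where `K` is the set of elements of `D` inverted by `t` and `I ∩ G_a` the set of involutions of `G_a`. -/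
theorem result {G Ω : Type*} [Group G] [Finite G] [MulAction G Ω] {a : Ω} {t : G} {Q : Subgroup G}
    (hS : Cfsg.IsRankOneSetup G Ω a t Q) :
    (∀ s r : G, s ∈ Cfsg.involutionsIn (MulAction.stabilizer G a : Set G) → r ∈ Q → t * s * t = r⁻¹ * t * r →
        (MulAction.stabilizer G a ⊓ MulAction.stabilizer G (t • a)) ⊓ Subgroup.centralizer {t} = (MulAction.stabilizer G a ⊓ MulAction.stabilizer G (t • a)) ⊓ Subgroup.centralizer {s}) ∧
      (MulAction.stabilizer G a ⊓ MulAction.stabilizer G (t • a)) ⊓ Subgroup.centralizer {t} ⊓ Subgroup.centralizer (Cfsg.invertedBy (MulAction.stabilizer G a ⊓ MulAction.stabilizer G (t • a)) t) =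
        (MulAction.stabilizer G a ⊓ MulAction.stabilizer G (t • a)) ⊓ Subgroup.centralizer (Cfsg.involutionsIn (MulAction.stabilizer G a : Set G)) := by
  open Cfsg.Agent.Invol Cfsg.Agent.Rank1 in
  constructor
  · intro s r hs hr h
    have h2 := orderOf_two_iff.2 ⟨hs.2.2, hs.2.1⟩
    ext d
    rw [Subgroup.mem_inf (p := D2 G a t), Subgroup.mem_inf (p := D2 G a t), mem_centralizer_singleton, mem_centralizer_singleton]
    exact ⟨fun hd => ⟨hd.1, (Setup.commute_struct hS hs.1 h2 hr h hd.1.1 hd.2).1⟩,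
      fun hd => ⟨hd.1, Setup.commute_t_of_commute_s hS hs.1 h2 hr h hd.1 hd.2⟩⟩
  · ext d
    constructor
    · rintro ⟨⟨h1, h2⟩, h3⟩
      refine ⟨h1, fun s hs => ?_⟩
      exact ((Setup.W_iff hS h1).1 ⟨mem_centralizer_singleton.1 h2, fun k hk hk2 =>
        (h3 k ⟨hk, hk2⟩).symm⟩ s hs.1 (orderOf_two_iff.2 ⟨hs.2.2, hs.2.1⟩)).symm
    · rintro ⟨h1, h2⟩
      obtain ⟨h3, h4⟩ := (Setup.W_iff hS h1).2 fun s hs hs2 =>
        (h2 s ⟨hs, ne_one_of hs2, mul_self_of hs2⟩).symm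
      exact ⟨⟨h1, mem_centralizer_singleton.2 h3⟩, fun k hk => (h4 k hk.1 hk.2).symm⟩

end Cfsg.Agent.S1127
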