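import Cfsg.Statements.S1132
import Cfsg.Agent.Suz.Syl

set_option autoImplicit false
open Cfsg

namespace Cfsg.Agent.S1132

/-- In the rank-one set-up (`G` finite and doubly transitive on `Ω`, `t` an involution moving `a`, `Q` normal in `G_a` with `G_a = Q D`, `Q ⊓ D = 1` for the two-point stabiliser `D = G_a ⊓ G_{t • a}`, `|Q|` even, `|D|` odd), with the action faithful and `G` containing two distinct commuting involutions: a Sylow 2-subgroup of `Q` is abelian or a Suzuki 2-group. -/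
theorem result {G Ω : Type*} [Group G] [Finite G] [MulAction G Ω] [FaithfulSMul G Ω] {a : Ω} {t : G} {Q : Subgroup G}
    (hS : Cfsg.IsRankOneSetup G Ω a t Q)
    (h2 : ∃ x y : G, x ≠ 1 ∧ y ≠ 1 ∧ x ≠ y ∧ x * x = 1 ∧ y * y = 1 ∧ x * y = y * x)
    (S : Sylow 2 ↥Q) : IsMulCommutative (S : Subgroup ↥Q) ∨ Cfsg.IsSuzukiTwoGroup ↥(S : Subgroup ↥Q) := by
  open Cfsg.Agent.Suz Cfsg.Agent.Rank1 in
  have h : Hyp G Ω a t Q := ⟨hS, h2⟩
  have := h.nil
  have hn : (S : Subgroup Q).Normal := inferInstance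
  have hch := Sylow.characteristic_of_normal S hn
  let e := (S : Subgroup Q).equivMapOfInjective Q.subtype Q.subtype_injective
  refine (em (Comm ((S : Subgroup Q).map Q.subtype))).imp (fun H => ⟨⟨fun x y => Subtype.ext (Subtype.ext
    (H _ ⟨x, x.2, rfl⟩ _ ⟨y, y.2, rfl⟩))⟩⟩) fun H => isSuzukiTwoGroup_of_equiv e.symm
      (h.isSuzukiTwoGroup (Subgroup.map_subtype_le _) (S.isPGroup'.map _) ?_ H)
  rintro k hk _ ⟨x, hx, rfl⟩
  let φ := Q.normalizerMonoidHom ⟨k, Subgroup.mem_normalizer_fintype (h.K_conj_Q k hk)⟩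
  exact ⟨φ x, (Subgroup.characteristic_iff_le_comap.1 hch φ) hx, rfl⟩

end Cfsg.Agent.S1132
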