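import Cfsg.Statements.S1133
import Cfsg.Agent.SZ.Ch1
import Cfsg.Agent.AutCl.FieldAut

set_option autoImplicit false
open Cfsg

namespace Cfsg.Agent.S1133

/-- In the rank-one set-up (`G` finite and doubly transitive on `Ω`, `t` an involution moving `a`, `Q` normal in `G_a` with `G_a = Q D`, `Q ⊓ D = 1` for the two-point stabiliser `D = G_a ⊓ G_{t • a}`, `|Q|` even, `|D|` odd), with the action faithful and `G` containing two distinct commuting involutions, with `V = C_D(t)`, `K` the elements of `D` inverted by `t` and `W = C_V(K)`: `V/W` is cyclic, i.e. `V = W ⟨v⟩` for some `v ∈ V`. -/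
theorem result {G Ω : Type*} [Group G] [Finite G] [MulAction G Ω] [FaithfulSMul G Ω] {a : Ω} {t : G} {Q : Subgroup G}
    (hS : Cfsg.IsRankOneSetup G Ω a t Q)
    (h2 : ∃ x y : G, x ≠ 1 ∧ y ≠ 1 ∧ x ≠ y ∧ x * x = 1 ∧ y * y = 1 ∧ x * y = y * x) :
    ∃ v ∈ (MulAction.stabilizer G a ⊓ MulAction.stabilizer G (t • a)) ⊓ Subgroup.centralizer {t},
      ((MulAction.stabilizer G a ⊓ MulAction.stabilizer G (t • a)) ⊓ Subgroup.centralizer {t} ⊓ Subgroup.centralizer (Cfsg.invertedBy (MulAction.stabilizer G a ⊓ MulAction.stabilizer G (t • a)) t)) ⊔ Subgroup.closure {v} =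
        (MulAction.stabilizer G a ⊓ MulAction.stabilizer G (t • a)) ⊓ Subgroup.centralizer {t} := by
  open Cfsg.Agent.Suz Cfsg.Agent.Rank1 Subgroup in
  have h : Hyp G Ω a t Q := ⟨hS, h2⟩
  obtain ⟨s, r, hs⟩ := h.exists_SR
  obtain ⟨F, _, _, _, e, k, hF, c⟩ := h.exists_FC hs
  choose σ hσ hσ' using fun v : Vg a t => c.gal v v.2
  let φ : Vg a t →* (F ≃+* F) := MonoidHom.mk' σ fun v w => RingEquiv.ext fun x => c.inj (by
    rw [RingAut.mul_apply, ← hσ, ← hσ, ← hσ, coe_mul]; group)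
  have := AutCl.isCyclic_ringAut (F := F)
  obtain ⟨⟨_, v, rfl⟩, hv⟩ := IsCyclic.exists_generator (α := φ.range)
  refine ⟨v, v.2, le_antisymm (sup_le inf_le_left ((closure_le _).2 (Set.singleton_subset_iff.2 v.2))) fun x hx => ?_⟩
  obtain ⟨i, hi⟩ := mem_powers_iff_mem_zpowers.2 (hv ⟨_, ⟨x, hx⟩, rfl⟩)
  have hi : φ v ^ i = φ ⟨x, hx⟩ := congrArg Subtype.val hi
  have hw := h.mem_W_iff.1 (c.mem_W (v := x * (v.1 ^ i)⁻¹) (Vg_le a t (mul_mem hx (inv_mem (pow_mem v.2 i)))) fun y => by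
    have e1 : φ (⟨x, hx⟩ * (v ^ i)⁻¹) = 1 := by rw [map_mul, map_inv, map_pow, hi, mul_inv_cancel]
    exact (hσ (⟨x, hx⟩ * (v ^ i)⁻¹) y).trans (congrArg e (show σ (⟨x, hx⟩ * (v ^ i)⁻¹) y = y from DFunLike.congr_fun e1 y)))
  rw [← inv_mul_cancel_right x (v.1 ^ i)]
  exact mul_mem (mem_sup_left (mem_inf.2 ⟨mem_inf.2 ⟨hw.1, mem_centralizer_singleton_iff.2 hw.2.1⟩,
    mem_centralizer_iff.2 fun l hl => (hw.2.2 l hl.1 hl.2).symm⟩))
    (mem_sup_right (pow_mem (subset_closure (Set.mem_singleton _)) i))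

end Cfsg.Agent.S1133
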