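import Cfsg.Statements.S1134
import Cfsg.Agent.Rank1.Basic

set_option autoImplicit false
open Cfsg

namespace Cfsg.Agent.S1134

/-- In the rank-one set-up (`G` finite and doubly transitive on `Ω`, `t` an involution moving `a`, `Q` normal in `G_a` with `G_a = Q D`, `Q ⊓ D = 1` for the two-point stabiliser `D = G_a ⊓ G_{t • a}`, `|Q|` even, `|D|` odd), with the action faithful and `G` containing two distinct commuting involutions, with `V = C_D(t)`: subsets of `V` conjugate in `G` are conjugate in `V`. -/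
theorem result {G Ω : Type*} [Group G] [Finite G] [MulAction G Ω] [FaithfulSMul G Ω] {a : Ω} {t : G} {Q : Subgroup G}
    (hS : Cfsg.IsRankOneSetup G Ω a t Q)
    (h2 : ∃ x y : G, x ≠ 1 ∧ y ≠ 1 ∧ x ≠ y ∧ x * x = 1 ∧ y * y = 1 ∧ x * y = y * x)
    (X : Set G) (hX : X ⊆ (((MulAction.stabilizer G a ⊓ MulAction.stabilizer G (t • a)) ⊓ Subgroup.centralizer {t} : Subgroup G) : Set G)) (g : G)
    (hY : (fun x => g * x * g⁻¹) '' X ⊆ (((MulAction.stabilizer G a ⊓ MulAction.stabilizer G (t • a)) ⊓ Subgroup.centralizer {t} : Subgroup G) : Set G)) :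
    ∃ v ∈ (MulAction.stabilizer G a ⊓ MulAction.stabilizer G (t • a)) ⊓ Subgroup.centralizer {t}, (fun x => v * x * v⁻¹) '' X = (fun x => g * x * g⁻¹) '' X := by
  open Cfsg.Agent.Invol Cfsg.Agent.Rank1 in
  obtain ⟨s, r, hs, hs2, hr, h⟩ := Setup.exists_struct hS
  set Y := (fun x => g * x * g⁻¹) '' X with hYdef
  have hYs : s ∈ Subgroup.centralizer Y := fun y hy =>
    (Setup.commute_struct hS (Setup.smul_a hS hs) hs2 hr h (hY hy).1.1
      (mem_centralizer_singleton.1 (hY hy).2)).1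
  have h3 := Setup.three_of_commute hS (X := Y) (fun y hy => (hY hy).1) hs (ne_one_of hs2) hYs
  have hfix : ∀ b : Ω, (∀ x ∈ X, x • b = b) → ∀ y ∈ Y, y • g • b = g • b := by
    rintro b hb _ ⟨x, hx, rfl⟩
    simp only [mul_smul, inv_smul_smul, hb x hx]
  obtain ⟨c, hc, k1, k2⟩ := Setup.two_trans_fix hS h3 (b₁ := g • a) (b₂ := g • t • a) (c₁ := a)
    (c₂ := t • a) (fun y hy => ⟨hfix a (fun x hx => (hX hx).1.1) y hy,
      hfix _ (fun x hx => (hX hx).1.2) y hy, (hY hy).1.1, (hY hy).1.2⟩)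
    (fun h => Setup.t_smul_ne hS (smul_left_cancel g h).symm) (Setup.t_smul_ne hS).symm
  obtain ⟨v, hv, k, hk, h4, h5, h6⟩ := Setup.exists_VK hS (d := c * g)
    ⟨by show (c * g) • a = a; rw [mul_smul, k1], by show (c * g) • t • a = t • a; rw [mul_smul, k2]⟩
  refine ⟨v, ⟨hv, mem_centralizer_singleton.2 h4⟩, Set.image_congr fun x hx => ?_⟩
  have hy : g * x * g⁻¹ ∈ Y := ⟨x, hx, rfl⟩
  have e1 : g * x * g⁻¹ = v * (k * x * k⁻¹) * v⁻¹ := by
    calc g * x * g⁻¹ = c * (g * x * g⁻¹) * c⁻¹ := by rw [← hc _ hy]; group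
      _ = (c * g) * x * (c * g)⁻¹ := by group
      _ = _ := by rw [h6]; group
  have e2 : Commute (k * x * k⁻¹) t := by
    have := (h4.inv_left.mul_left (mem_centralizer_singleton.1 (hY hy).2)).mul_left h4
    rwa [e1, show v⁻¹ * (v * (k * x * k⁻¹) * v⁻¹) * v = k * x * k⁻¹ by group] at this
  have e3 : Commute x t := mem_centralizer_singleton.1 (hX hx).2
  have e4 : Commute k x := by
    apply commute_of_commute_mul_self (Setup.odd_orderOf hS hk)
    have e5 : k * x * k⁻¹ = k⁻¹ * x * k := by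
      calc k * x * k⁻¹ = t * (k * x * k⁻¹) * t⁻¹ := by rw [← e2.eq]; group
        _ = (t * k * t⁻¹) * (t * x * t⁻¹) * (t * k * t⁻¹)⁻¹ := by group
        _ = _ := by rw [h5, ← e3.eq]; group
    show k * k * x = x * (k * k)
    calc k * k * x = k * (k * x * k⁻¹) * k := by group
      _ = _ := by rw [e5]; group
  rw [e1, e4.eq]; group

end Cfsg.Agent.S1134
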