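import Cfsg.Statements.S1142
import Cfsg.Agent.BN.Hecke

set_option autoImplicit false
open Cfsg

namespace Cfsg.Agent.S1142

/-- Feit–Higman: if a finite group has a (B,N)-pair of rank 2, its Weyl group `N/(B ⊓ N)` has order 4, 6, 8, 12 or 16. -/
theorem result {G : Type*} [Group G] [Finite G] (P : Cfsg.BNPair G)
    (h2 : P.rank = 2) :
    ((P.B ⊓ P.N).subgroupOf P.N).index ∈ ({4, 6, 8, 12, 16} : Set ℕ) := by
  obtain ⟨s, t, hst, h⟩ := Nat.card_eq_two_iff.1 h2
  have hS : ∀ i, i = s ∨ i = t := fun i => by simpa using (h ▸ Set.mem_univ i : i ∈ ({s, t} : Set P.S))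
  have h1 := BN.InvGen.card_eq_two_mul hS (BN.gens_s_ne_one P s) (BN.gens_s_ne_one P t)
  have h3 := BN.feit_higman hst hS
  change Nat.card (BN.Weyl P) ∈ _
  simp only [Set.mem_insert_iff, Set.mem_singleton_iff] at h3 ⊢
  omega

end Cfsg.Agent.S1142
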