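import Cfsg.Statements.S1151
import Cfsg.Agent.Ree.Inst

set_option autoImplicit false
open Cfsg

namespace Cfsg.Agent.S1151

open Cfsg.Agent.Ree Subgroup

/-- In the small Ree group ²G₂(q), q = 3^(2m+1), realised as G¹ inside the Chevalley group G₂ over the field with q elements (θ the 3^m-th power map), with H¹ = G¹ ∩ H and U¹ = G¹ ∩ U the intersections with the ambient diagonal and positive unipotent subgroups: `H¹` has exactly `(q - 1)/2` elements of odd order, and each non-identity one centralises no non-identity element of `U¹`. -/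
theorem result {K : Type*} [Field K] [Fintype K] {m : ℕ} (hK : Fintype.card K = 3 ^ (2 * m + 1)) :
    2 * Nat.card {h : ↥(Cfsg.Lie.chevG2.diagonalSubgroup K ⊓ Cfsg.Lie.twistedG2 K (3 ^ m)) // Odd (orderOf h)} = 3 ^ (2 * m + 1) - 1 ∧
      ∀ h ∈ (Cfsg.Lie.chevG2.diagonalSubgroup K ⊓ Cfsg.Lie.twistedG2 K (3 ^ m)), h ≠ 1 → Odd (orderOf h) →
        (Cfsg.Lie.chevG2.posUnipotent K ⊓ Cfsg.Lie.twistedG2 K (3 ^ m)) ⊓ Subgroup.centralizer {h} = ⊥ := by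
  obtain ⟨R, -, h1, h2, -⟩ := exists_RC (Nat.card_eq_fintype_card.trans hK)
  refine ⟨?_, fun h hh h3 h4 => (eq_bot_iff_forall _).2 fun u hu => ?_⟩
  · obtain ⟨k, -, e, -⟩ := R.exists_q'
    have e1 := R.card_H0
    rw [← hK, ← Nat.card_eq_fintype_card, e, ← Nat.mul_div_cancel_left (12 * k + 1) two_pos, ← e, ← e1]
    congr 1
    refine Nat.card_congr ⟨fun x => ⟨⟨x.1.1, x.1.2.2⟩, RD.mem_H0.2 ⟨h2 ▸ x.1.2.1, ?_⟩⟩,
      fun x => ⟨⟨x.1.1, (h2 ▸ (RD.mem_H0.1 x.2).1 : _ ∈ subgroupOf _ _), x.1.2⟩, ?_⟩, fun _ => rfl, fun _ => rfl⟩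
    · rw [orderOf_mk, orderOf_coe]; exact x.2
    · exact ((orderOf_mk _ _).trans (orderOf_coe x.1)).symm ▸ (RD.mem_H0.1 x.2).2
  · obtain ⟨a, ha, e⟩ := RD.exists_h_of_mem_H0 (R := R.toRD) (g := ⟨h, hh.2⟩)
      (RD.mem_H0.2 ⟨h2 ▸ hh.1, by rwa [orderOf_mk]⟩) fun e => h3 (congrArg Subtype.val e)
    exact congrArg Subtype.val (R.fpf a ha ⟨u, hu.1.2⟩ (h1 ▸ hu.1.1)
      (Subtype.ext (by rw [e]; exact (mem_centralizer_singleton_iff.1 hu.2).symm)))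

end Cfsg.Agent.S1151
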