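import Cfsg.Statements.S1152
import Cfsg.Agent.Ree.Inst

set_option autoImplicit false
open Cfsg

namespace Cfsg.Agent.S1152

open Cfsg.Agent.Ree Subgroup

/-- In the small Ree group ²G₂(q), q = 3^(2m+1), realised as G¹ inside the Chevalley group G₂ over the field with q elements (θ the 3^m-th power map), with H¹ = G¹ ∩ H and U¹ = G¹ ∩ U the intersections with the ambient diagonal and positive unipotent subgroups: for an involution `a ∈ H¹`, the centraliser of `a` in `G¹` is isomorphic to `Z₂ × PSL₂(q)`; and the Sylow 2-subgroups of `G¹` are elementary abelian of order 8. -/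
theorem result {K : Type*} [Field K] [Fintype K] {m : ℕ} (hK : Fintype.card K = 3 ^ (2 * m + 1))
    (a : ↥(Cfsg.Lie.twistedG2 K (3 ^ m))) (haH : (a : GL Cfsg.Lie.chevG2.Idx K) ∈ Cfsg.Lie.chevG2.diagonalSubgroup K) (ha1 : a ≠ 1) (ha2 : a * a = 1) :
    Nonempty (↥(Subgroup.centralizer {a}) ≃* Multiplicative (ZMod 2) × Matrix.ProjectiveSpecialLinearGroup (Fin 2) K) ∧
      ∀ S : Sylow 2 ↥(Cfsg.Lie.twistedG2 K (3 ^ m)), Nat.card S = 8 ∧ ∀ x ∈ S, x * x = 1 := by
  obtain ⟨R, -⟩ := exists_RC (Nat.card_eq_fintype_card.trans hK)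
  refine ⟨?_, fun S => ?_⟩
  · obtain ⟨g, rfl⟩ := RD.exists_conj_invol (R := R.toRD) ha1 ha2
    rw [Sz.centralizer_conj]
    exact ⟨(Sz.cjEquiv g _).symm.trans R.centralizerEquiv⟩
  · obtain ⟨x, hx⟩ := R.exists_sylow_two S
    refine ⟨by rw [hx, Sz.card_cj, RD.card_S], fun y hy => ?_⟩
    rw [← sq, ← conj_pow_eq_one (x := x), sq]
    exact RD.sq_of_mem_S (Sz.mem_cj.1 (hx ▸ hy : y ∈ Sz.cj x R.S))

end Cfsg.Agent.S1152
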