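import Cfsg.Statements.S1167
import Cfsg.Agent.Perm.ZassSuz2
import Cfsg.Agent.Perm.ZassAb
import Cfsg.Agent.Rank1.Basic

set_option autoImplicit false
open Cfsg

namespace Cfsg.Agent.S1167

open MulAction Perm

/-- Let `G` be a finite simple Zassenhaus group on `Ω`, `U` a normal subgroup of `G_a` regular on `Ω` minus `a` which is an abelian 2-group, and `v` an involution with `v • a ≠ a`. Then there is a unique `u₀ ∈ U`, `u₀ ≠ 1`, with `v u₀ v = u₀ v u₀`. -/
theorem result {G Ω : Type*} [Group G] [Finite G] [MulAction G Ω] [Finite Ω]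
    (hZ : Cfsg.IsZassenhausGroup G Ω) [IsSimpleGroup G] {a : Ω}
    (U : Subgroup G) (hUle : U ≤ MulAction.stabilizer G a)
    (hUn : ∀ h ∈ MulAction.stabilizer G a, ∀ u ∈ U, h * u * h⁻¹ ∈ U)
    (hreg : ∀ c d : Ω, c ≠ a → d ≠ a → ∃! u : U, (u : G) • c = d)
    (hU2 : IsPGroup 2 U) (hUab : ∀ u ∈ U, ∀ u' ∈ U, u * u' = u' * u)
    (v : G) (hv1 : v ≠ 1) (hv2 : v * v = 1) (hva : v • a ≠ a) :
    ∃! u₀ : G, u₀ ∈ U ∧ u₀ ≠ 1 ∧ v * u₀ * v = u₀ * v * u₀ := by
  classical
  have := Fintype.ofFinite G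
  have := Fintype.ofFinite Ω
  have hab := hva.symm
  have hF := Zass.mem_kernel_iff hZ hab (F := U) hUle hreg
  have ht : ∀ y z : Ω, y ≠ a → z ≠ a → ∃ u ∈ U, u • y = z := fun y z hy hz =>
    (hreg y z hy hz).exists.elim fun u hu => ⟨u, u.2, hu⟩
  have hn := Zass.odd_of_two hZ hab hF hU2
  have hd := Zass.odd_of_odd hZ hn hab
  have hc := Zass.card_kernel hab hF ht
  have hS : Cfsg.IsRankOneSetup G Ω a v U := by
    refine ⟨hZ.2.1, hv2, hv1, hva, hUle, hUn, eq_bot_iff.2 fun u hu => Zass.kernel_eq_one hF hu.1 hva hu.2,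
      le_antisymm (sup_le hUle inf_le_left) fun g hg => ?_, ?_, hd⟩
    · obtain ⟨u, hu, e⟩ := ht (v • a) (g • v • a) hva fun e => hva (smul_left_cancel g (e.trans hg.symm))
      rw [← mul_inv_cancel_left u g]
      exact Subgroup.mul_mem_sup hu (Subgroup.mem_inf.2 ⟨mul_mem (inv_mem (hUle hu)) hg, by
        rw [mem_stabilizer_iff, mul_smul, inv_smul_eq_iff, e]⟩)
    · rw [← hc] at hn; exact Nat.not_odd_iff_even.1 (Nat.odd_add_one.1 hn)
  have hsq : ∀ u ∈ U, u * u = 1 := fun u hu => by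
    rcases Zass.classify_of_comm hZ hab hF
      (Subgroup.commutator_eq_bot_iff_le_centralizer.2 fun x hx y hy => hUab y hy x hx) with h | h
    · by_contra h2
      have h3 := Zass.card_invol_fix hZ hab hd hn a
      have h4 := Finset.card_lt_card (s := {t : G | (t * t = 1 ∧ t ≠ 1) ∧ t • a = a})
        (t := (Finset.univ.filter (· ∈ U)).erase 1) ⟨fun t ht => by
          simp only [Finset.mem_filter, Finset.mem_univ, true_and, Finset.mem_erase] at ht ⊢
          exact ⟨ht.1.2, Zass.invol_mem_kernel hZ hab hd hF ht.1.1 ht.2⟩, fun e => by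
          have := e (show u ∈ _ by simpa [hu] using fun e => h2 (by simp [e]))
          simp [h2] at this⟩
      rw [Finset.card_erase_of_mem (by simp), h3, ← Fintype.card_subtype,
        ← Nat.card_eq_fintype_card] at h4
      change Nat.card _ = _ at h
      omega
    · rw [h.1] at hn; exact absurd hn (by simp [parity_simps])
  have hinv : ∀ u ∈ U, u⁻¹ = u := fun u hu => inv_eq_of_mul_eq_one_right (hsq u hu)
  obtain ⟨s, r, hs, h2, hr, e⟩ := Rank1.Setup.exists_struct hS
  have hs1 : s ≠ 1 := by rintro rfl; simp at h2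
  have e1 : v * r * v = s * v * r := by
    rw [hinv r hr] at e
    calc v * r * v = v * (r * v * r) * r := by rw [mul_assoc v _ r, mul_assoc _ r r, hsq r hr]; group
      _ = _ := by rw [← e]; simp only [← mul_assoc, hv2, one_mul]
  have e2 : s * v * r = r * v * s := by
    rw [← e1, ← inv_inj, mul_inv_rev, mul_inv_rev, mul_inv_rev, mul_inv_rev, hinv r hr, hinv s hs,
      Rank1.Setup.inv_t hS, ← mul_assoc, e1, mul_assoc]
  obtain rfl := (Rank1.Setup.canon_unique' hS (hUle hs) (hUle hr) hr hs e2).1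
  refine ⟨s, ⟨hs, hs1, e1⟩, fun u ⟨hu, h1, e'⟩ => ?_⟩
  exact (Rank1.Setup.struct_unique hS (hUle hu) (orderOf_eq_prime (by rw [sq, hsq u hu]) h1) hu
    (by rw [hinv u hu, e']) (hUle hs) h2 hs e).1

end Cfsg.Agent.S1167
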