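import Cfsg.Statements.S1176
import Cfsg.Agent.Invol.Basic

set_option autoImplicit false
open Cfsg

namespace Cfsg.Agent.S1176

/-- Let x₀ be an involution of the finite group G and D its conjugacy class. Assume (a) for each x ∈ D the subgroup W(x) generated by the members of D commuting with x is a 2-group of nilpotency class at most 2, and (b) the product of two distinct commuting members of D again lies in D. Then for all x, y ∈ D, if xy has even order greater than 2, its order is 4. -/
theorem result {G : Type*} [Group G] [Finite G] (x₀ : G) (hx₀ : orderOf x₀ = 2) (ha : ∀ x : G, IsConj x₀ x → IsPGroup 2 ↥(Subgroup.closure {y : G | IsConj x₀ y ∧ Commute y x}) ∧ ⁅⁅Subgroup.closure {y : G | IsConj x₀ y ∧ Commute y x}, Subgroup.closure {y : G | IsConj x₀ y ∧ Commute y x}⁆, Subgroup.closure {y : G | IsConj x₀ y ∧ Commute y x}⁆ = ⊥) (hb : ∀ x y : G, IsConj x₀ x → IsConj x₀ y → x ≠ y → Commute x y → IsConj x₀ (x * y)) (x y : G) (hx : IsConj x₀ x) (hy : IsConj x₀ y) (heven : Even (orderOf (x * y))) (hgt : 2 < orderOf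 (x * y)) : orderOf (x * y) = 4 := by
  open Cfsg.Agent.Invol in
  have hx2 := mul_self_of ((orderOf_of_isConj hx).symm.trans hx₀)
  have hy2 := mul_self_of ((orderOf_of_isConj hy).symm.trans hx₀)
  obtain ⟨h1, h2, h3⟩ := half_pow_spec hx2 hy2 heven
  set k := orderOf (x * y) / 2
  have h4 : IsConj x₀ (x * (x * y) ^ k) := by
    rcases Nat.even_or_odd k with h | h
    · exact hx.trans (isConj_left_of_even hx2 hy2 h)
    · exact hy.trans (isConj_right_of_odd hx2 hy2 h)
  have h5 := hb x _ hx h4 (by simpa using ne_one_of h1) ((Commute.refl x).mul_right h2.symm)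
  rw [mul_self_cancel hx2] at h5
  obtain ⟨hp, hc⟩ := ha _ h5
  set W := Subgroup.closure {w : G | IsConj x₀ w ∧ Commute w ((x * y) ^ k)}
  have hxW : x ∈ W := Subgroup.subset_closure ⟨hx, h2.symm⟩
  have hyW : y ∈ W := Subgroup.subset_closure ⟨hy, h3.symm⟩
  have h6 := Subgroup.commutator_mem_commutator (Subgroup.commutator_mem_commutator hxW hyW) hxW
  rw [hc, Subgroup.mem_bot, commutatorElement_eq_one_iff_commute, commutatorElement_def,
    inv_eq_of_mul_self hx2, inv_eq_of_mul_self hy2] at h6
  have h7 := conj_pow_of_inverts (conj_prod_left hx2 hy2) 2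
  have h8 : (x * y) ^ 2 = x * y * x * y := by rw [pow_two, ← mul_assoc]
  rw [← h8] at h6
  rw [← h6.eq, mul_inv_cancel_right] at h7
  have h9 : (x * y) ^ 4 = 1 := by
    rw [show 4 = 2 + 2 from rfl, pow_add]
    nth_rewrite 1 [h7]
    exact inv_mul_cancel _
  have h10 := orderOf_dvd_of_pow_eq_one h9
  have := Nat.le_of_dvd (by norm_num) h10
  interval_cases h : orderOf (x * y)
  · simp at h10
  · rfl

end Cfsg.Agent.S1176
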