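import Cfsg.Statements.S1177
import Cfsg.Agent.Invol.StrongEmb

set_option autoImplicit false
open Cfsg

namespace Cfsg.Agent.S1177

/-- Let A be a nontrivial elementary abelian 2-subgroup of a finite group G which is a T.I. set (each conjugate of A meets A trivially or equals A) and which does not commute elementwise with any conjugate of A other than A itself. Then for every a ∈ A, a ≠ 1, every conjugate of A contained in C_G(a) is equal to A (A is weakly closed in C_G(a)). -/
theorem result {G : Type*} [Group G] [Finite G] (A : Subgroup G) (hA : Cfsg.IsElementaryAbelian 2 A) (hA1 : A ≠ ⊥) (hTI : ∀ g : G, A.map (MulAut.conj g).toMonoidHom ⊓ A = ⊥ ∨ A.map (MulAut.conj g).toMonoidHom = A) (hb : ∀ g : G, (∀ a ∈ A, ∀ b ∈ A.map (MulAut.conj g).toMonoidHom, a * b = b * a) → A.map (MulAut.conj g).toMonoidHom = A) (a : G) (ha : a ∈ A) (ha1 : a ≠ 1) (g : G) (hg : A.map (MulAut.conj g).toMonoidHom ≤ Subgroup.centralizer ({a} : Set G)) : A.map (MulAut.conj g).toMonoidHom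 = A := by
  open Cfsg.Agent.Invol in
  by_contra hne
  set B := A.map (MulAut.conj g).toMonoidHom with hB
  have hdisj : B ⊓ A = ⊥ := (hTI g).resolve_right hne
  have hAc : ∀ a ∈ A, ∀ b ∈ A, Commute a b := fun a ha b hb =>
    congrArg Subtype.val (hA.1.is_comm.comm (⟨a, ha⟩ : A) ⟨b, hb⟩)
  have hA2 : ∀ a ∈ A, a * a = 1 := fun a ha => by rw [← pow_two]; exact hA.2 a ha
  have hB2 : ∀ b ∈ B, b * b = 1 := by
    rintro _ ⟨a, ha, rfl⟩
    rw [← map_mul, hA2 a ha, map_one]
  have hTI' : ∀ x : G, ∀ c ∈ A, c ≠ 1 → Commute x c → ∀ y ∈ A, x * y * x⁻¹ ∈ A := by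
    intro x c hc hc1 hx y hy
    rcases hTI x with h | h
    · exfalso
      have : c ∈ A.map (MulAut.conj x).toMonoidHom ⊓ A :=
        ⟨⟨c, hc, by simp [hx.eq]⟩, hc⟩
      rw [h] at this
      exact hc1 this
    · exact h ▸ conj_mem_map_conj x hy
  have hBN : ∀ b ∈ B, ∀ y ∈ A, b * y * b⁻¹ ∈ A := fun b hb =>
    hTI' b a ha ha1 (mem_centralizer_singleton.1 (hg hb))
  -- an element of `A` commuting with a nontrivial element of `B` centralizes `B`
  have key : ∀ c ∈ A, ∀ b ∈ B, b ≠ 1 → Commute c b → ∀ b' ∈ B, Commute c b' := by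
    intro c hc b hb hb1 hcb b' hb'
    have h1 : c * b' * c⁻¹ ∈ B := by
      rw [hB, mem_map_conj_iff] at hb hb' ⊢
      have := hTI' (g⁻¹ * c * g) _ hb (fun h => hb1 (by
        rw [← orderOf_eq_one_iff, orderOf_conj'', orderOf_eq_one_iff] at h; exact h))
        (by simpa using hcb.conj g⁻¹) _ hb'
      convert this using 1; group
    have h2 : c * b' * c⁻¹ * b'⁻¹ ∈ B ⊓ A := Subgroup.mem_inf.2 ⟨mul_mem h1 (inv_mem hb'), by
      have := mul_mem hc (hBN b' hb' _ (inv_mem hc))
      convert this using 1; group⟩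
    rw [hdisj] at h2
    exact commutatorElement_eq_one_iff_commute.1 h2
  have key2 : ∀ y ∈ A, ∀ b ∈ B, ∀ b' ∈ B, Commute (y * (b * y * b⁻¹)) b' := by
    intro y hy b hb b' hb'
    by_cases hb1 : b = 1
    · subst hb1; simp [hA2 y hy]
    · refine key _ (mul_mem hy (hBN b hb y hy)) b hb hb1 ?_ b' hb'
      show y * (b * y * b⁻¹) * b = b * (y * (b * y * b⁻¹))
      rw [(hAc y hy _ (hBN b hb y hy)).eq, inv_eq_of_mul_self (hB2 b hb)]
      have := (hAc y hy _ (hBN b hb y hy)).eq
      rw [inv_eq_of_mul_self (hB2 b hb)] at this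
      calc b * y * b * y * b = b * (y * (b * y * b)) := by group
        _ = _ := by rw [this]
  apply hne
  apply hb g
  intro y hy b hbB
  by_contra hnc
  have hb1 : ∀ b' ∈ B, Commute y b' → b' = 1 := by
    intro b' hb' h
    by_contra h1
    exact hnc (key y hy b' hb' h1 h b hbB)
  let f : B → A := fun b => ⟨y * (b * y * (b : G)⁻¹), mul_mem hy (hBN b b.2 y hy)⟩
  have hf : Function.Injective f := by
    intro b₁ b₂ h
    have h : y * (b₁ * y * (b₁ : G)⁻¹) = y * (b₂ * y * (b₂ : G)⁻¹) := congrArg Subtype.val h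
    have h := mul_left_cancel h
    have := hb1 ((b₂ : G)⁻¹ * b₁) (mul_mem (inv_mem b₂.2) b₁.2) (by
      show y * ((b₂ : G)⁻¹ * b₁) = (b₂ : G)⁻¹ * b₁ * y
      calc y * ((b₂ : G)⁻¹ * b₁) = (b₂ : G)⁻¹ * (b₂ * y * (b₂ : G)⁻¹) * b₁ := by group
        _ = _ := by rw [← h]; group)
    exact Subtype.ext (inv_mul_eq_one.1 this).symm
  have hs : Function.Surjective f :=
    (hf.bijective_of_nat_card_le (by rw [hB, card_map_conj])).2
  obtain ⟨b', hb'⟩ := hs ⟨y, hy⟩
  have h3 : y * (b' * y * (b' : G)⁻¹) = y := congrArg Subtype.val hb'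
  have h4 : y = 1 := by simpa using h3
  exact hnc (by rw [h4]; simp)

end Cfsg.Agent.S1177
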