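import Cfsg.Statements.S1178
import Cfsg.Agent.Invol.StrongEmb

set_option autoImplicit false
open Cfsg

namespace Cfsg.Agent.S1178

/-- Let A be a subgroup of a Sylow 2-subgroup S of the finite group G which is weakly closed in S. If a conjugate g A g⁻¹ commutes elementwise with A, then g A g⁻¹ = A. -/
theorem result {G : Type*} [Group G] [Finite G] (S : Sylow 2 G) (A : Subgroup G) (hW : Cfsg.IsWeaklyClosed A (S : Subgroup G)) (g : G) (hc : ∀ a ∈ A, ∀ b ∈ A.map (MulAut.conj g).toMonoidHom, a * b = b * a) : A.map (MulAut.conj g).toMonoidHom = A := by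
  open Cfsg.Agent.Invol in
  have : Fact (Nat.Prime 2) := ⟨Nat.prime_two⟩
  have hA : IsPGroup 2 A := S.isPGroup'.to_le hW.1
  have hp : IsPGroup 2 ↥(A.map (MulAut.conj g).toMonoidHom ⊔ A) := by
    refine (hA.map _).to_sup_of_normal_right' hA ?_
    exact fun b hb => Subgroup.centralizer_le_normalizer (A : Set G) (fun a ha => hc a ha b hb)
  obtain ⟨h, hh⟩ := exists_conj_into_sylow hp S
  have h1 := hW.2 h (by rintro _ ⟨a, ha, rfl⟩; exact hh a (Subgroup.mem_sup_right ha))
  have h2 := hW.2 (h * g) (by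
    rw [← map_conj_map_conj]
    rintro _ ⟨a, ha, rfl⟩; exact hh a (Subgroup.mem_sup_left ha))
  rw [← map_conj_map_conj] at h2
  exact Subgroup.map_injective (MulAut.conj h).injective (h2.trans h1.symm)

end Cfsg.Agent.S1178
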