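import Cfsg.Statements.S1181
import Cfsg.Agent.Invol.Isolated

set_option autoImplicit false
open Cfsg

namespace Cfsg.Agent.S1181

/-- Let z be an isolated involution of the finite group G and N a normal subgroup with z ∉ N. Then the centralizer of zN in G/N is the image of C_G(z), and zN is an isolated involution of G/N. -/
theorem result {G : Type*} [Group G] [Finite G] (z : G) (hz : Cfsg.IsIsolatedInvolution z) (N : Subgroup G) [N.Normal] (hzN : z ∉ N) : Subgroup.centralizer ({(QuotientGroup.mk z : G ⧸ N)} : Set (G ⧸ N)) = (Subgroup.centralizer ({z} : Set G)).map (QuotientGroup.mk' N) ∧ Cfsg.IsIsolatedInvolution (QuotientGroup.mk z : G ⧸ N) := by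
  open Cfsg.Agent.Invol in
  refine ⟨le_antisymm ?_ ?_, Isolated.map hz (QuotientGroup.mk' N) (QuotientGroup.mk'_surjective N)
    (by simpa using hzN)⟩
  · intro q hq
    obtain ⟨g, rfl⟩ := QuotientGroup.mk_surjective q
    obtain ⟨k, hk⟩ := Isolated.exists_factor hz g
    have hq := mem_centralizer_singleton.1 hq
    have h1 : (QuotientGroup.mk (z * (g * z * g⁻¹)) : G ⧸ N) = 1 := by
      rw [QuotientGroup.mk_mul, QuotientGroup.mk_mul, QuotientGroup.mk_mul, hq.eq,
        QuotientGroup.mk_inv, mul_inv_cancel_right, ← QuotientGroup.mk_mul, mul_self_of hz.1,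
        QuotientGroup.mk_one]
    refine ⟨_, mem_centralizer_singleton.2 hk.inv_left, ?_⟩
    rw [map_inv, map_mul, map_inv, map_zpow, QuotientGroup.mk'_apply, QuotientGroup.mk'_apply, h1]
    simp
  · rintro _ ⟨g, hg, rfl⟩
    exact mem_centralizer_singleton.2 ((mem_centralizer_singleton.1 hg).map (QuotientGroup.mk' N))

end Cfsg.Agent.S1181
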