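import Cfsg.Statements.S1182
import Cfsg.Agent.Invol.Isolated

set_option autoImplicit false
open Cfsg

namespace Cfsg.Agent.S1182

/-- Let z be an isolated involution of the finite group G and H a subgroup normalized by z. If x, y ∈ H both commute with z and y = h x h⁻¹ for some h ∈ H, then y = c x c⁻¹ for some c ∈ H commuting with z. -/
theorem result {G : Type*} [Group G] [Finite G] (z : G) (hz : Cfsg.IsIsolatedInvolution z) (H : Subgroup G) (hzH : z ∈ Subgroup.normalizer (H : Set G)) (x y : G) (hx : x ∈ H) (hy : y ∈ H) (hxz : Commute x z) (hyz : Commute y z) (h : G) (hh : h ∈ H) (hconj : h * x * h⁻¹ = y) : ∃ c ∈ H, Commute c z ∧ c * x * c⁻¹ = y := by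
  open Cfsg.Agent.Invol in
  obtain ⟨k, hk⟩ := Isolated.exists_factor hz h
  have h1 : z * (h * z * h⁻¹) ∈ H := by
    have : z * h * z⁻¹ ∈ H := (Subgroup.mem_normalizer_iff.1 hzH h).1 hh
    rw [inv_eq_of hz.1] at this
    have := mul_mem this (inv_mem hh)
    convert this using 1; group
  have h2 : Commute (z * (h * z * h⁻¹)) y := by
    refine hyz.symm.mul_left ?_
    rw [← hconj]
    exact hxz.symm.conj h
  set w := (z * (h * z * h⁻¹)) ^ k
  have hw : Commute w⁻¹ y := (h2.zpow_left k).inv_left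
  refine ⟨(h⁻¹ * w)⁻¹, inv_mem (mul_mem (inv_mem hh) (zpow_mem h1 k)), hk.inv_left, ?_⟩
  calc (h⁻¹ * w)⁻¹ * x * (h⁻¹ * w)⁻¹⁻¹ = w⁻¹ * (h * x * h⁻¹) * w := by group
    _ = y := by rw [hconj, hw.eq]; group

end Cfsg.Agent.S1182
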