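import Cfsg.Statements.S1242
import Cfsg.Agent.Invol.Transfer

set_option autoImplicit false
open Cfsg

namespace Cfsg.Agent.S1242

/-- Let G be a finite group, p a prime and H a subgroup of index prime to p such that any two elements of H of p-power order that are conjugate in G are conjugate in H. Then (O^p(G)·G') ∩ H = O^p(H)·H', where O^p denotes the subgroup generated by the elements of order prime to p. -/
theorem result {G : Type*} [Group G] [Finite G] {p : ℕ} [Fact p.Prime] (H : Subgroup G) (hidx : Nat.Coprime p H.index) (hfus : ∀ g ∈ H, (∃ k : ℕ, orderOf g = p ^ k) → ∀ a : G, a * g * a⁻¹ ∈ H → ∃ h ∈ H, h * g * h⁻¹ = a * g * a⁻¹) : (Cfsg.pResidual p G ⊔ commutator G) ⊓ H = (Cfsg.pResidual p ↥H ⊔ commutator ↥H).map H.subtype := by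
  set K := (Cfsg.pResidual p ↥H ⊔ commutator ↥H).map H.subtype with hK
  have hKH : K.subgroupOf H = Cfsg.pResidual p ↥H ⊔ commutator ↥H :=
    Subgroup.comap_map_eq_self_of_injective H.subtype_injective _
  have hcomm : ∀ x ∈ H, ∀ y ∈ H, x * y * x⁻¹ * y⁻¹ ∈ K := fun x hx y hy =>
    ⟨(⟨x, hx⟩ : H) * ⟨y, hy⟩ * (⟨x, hx⟩ : H)⁻¹ * (⟨y, hy⟩ : H)⁻¹, Subgroup.mem_sup_right
      (Subgroup.commutator_mem_commutator (Subgroup.mem_top _) (Subgroup.mem_top _)), rfl⟩
  apply le_antisymm
  · have hKn : (K.subgroupOf H).Normal := by rw [hKH]; infer_instance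
    obtain ⟨hc, f, hf⟩ := Invol.exists_hom_of_control H K hKn hcomm
    have hp : IsPGroup p (H ⧸ K.subgroupOf H) :=
      Transfer.isPGroup_quotient_of_pResidual_le _ (by rw [hKH]; exact le_sup_left)
    have hker : Cfsg.pResidual p G ⊔ commutator G ≤ f.ker := by
      open scoped IsMulCommutative in
      exact sup_le (Transfer.pResidual_le_ker hp f) (Abelianization.commutator_subset_ker f)
    rintro g ⟨hg1, hg2⟩
    obtain ⟨a, b, ha, hb, ⟨k, hk⟩, hb2, rfl⟩ := Transfer.exists_pPart_mul_pPrimePart (p := p) g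
    have haH : a ∈ H := Subgroup.zpowers_le.2 hg2 ha
    have hbH : b ∈ H := Subgroup.zpowers_le.2 hg2 hb
    have hbK : b ∈ K := ⟨⟨b, hbH⟩, Subgroup.mem_sup_left (Transfer.mem_pResidual_of_coprime
      (by rwa [← Subgroup.orderOf_coe])), rfl⟩
    refine mul_mem ?_ hbK
    have h1 : f a = 1 := Subgroup.zpowers_le.2 (hker hg1) ha
    rw [hf a haH] at h1
    · have h2 : (QuotientGroup.mk (⟨a, haH⟩ : H) : H ⧸ K.subgroupOf H) ^ p ^ k = 1 := by
        rw [← QuotientGroup.mk_pow]
        have : (⟨a, haH⟩ : H) ^ p ^ k = 1 := Subtype.ext hk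
        rw [this, QuotientGroup.mk_one]
      have h3 := (pow_eq_one_iff_of_coprime (hidx.pow_left k)).1 ⟨h2, h1⟩
      exact (QuotientGroup.eq_one_iff (⟨a, haH⟩ : H)).1 h3
    · intro m c hc
      obtain ⟨j, -, hj⟩ := (Nat.dvd_prime_pow (Fact.out : p.Prime)).1 (orderOf_dvd_of_pow_eq_one
        (show (a ^ m) ^ p ^ k = 1 by rw [← pow_mul, mul_comm, pow_mul, hk, one_pow]))
      obtain ⟨h, hh, he⟩ := hfus _ (pow_mem haH m) ⟨j, hj⟩ c hc
      rw [← he]
      exact hcomm h hh _ (pow_mem haH m)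
  · refine le_inf ?_ (Subgroup.map_subtype_le _)
    rw [hK, Subgroup.map_sup]
    refine sup_le_sup (Transfer.map_subtype_pResidual_le H) ?_
    rw [Subgroup.map_subtype_commutator]
    exact Subgroup.commutator_mono le_top le_top

end Cfsg.Agent.S1242
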