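import Cfsg.Statements.S1183
import Cfsg.Agent.Invol.Transfer
import Cfsg.Agent.Invol.Isolated
import Cfsg.Agent.S1242
import Cfsg.Agent.S1182

set_option autoImplicit false
open Cfsg

namespace Cfsg.Agent.S1183

/-- Let z be an isolated involution of the finite group G and C = C_G(z). Then the subgroup of G generated by its elements of odd order is all of G if and only if the subgroup of C generated by its elements of odd order is all of C. -/
theorem result {G : Type*} [Group G] [Finite G] (z : G) (hz : Cfsg.IsIsolatedInvolution z) : Cfsg.pResidual 2 G = ⊤ ↔ Cfsg.pResidual 2 ↥(Subgroup.centralizer ({z} : Set G)) = ⊤ := by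
  open Cfsg.Agent.Invol in
  have : Fact (Nat.Prime 2) := ⟨Nat.prime_two⟩
  set C := Subgroup.centralizer ({z} : Set G)
  obtain ⟨P, hP⟩ := (isPGroup_zpowers (p := 2) (x := z) (n := 1)
    (by rw [pow_one, pow_two, mul_self_of hz.1])).exists_le_sylow
  have hPC : (P : Subgroup G) ≤ C := fun s hs => mem_centralizer_singleton.2
    (Isolated.commute_of_mem_isPGroup hz P.isPGroup' (hP (Subgroup.mem_zpowers z)) hs)
  constructor
  · intro h
    have h1 := S1242.result (p := 2) C ((Nat.Prime.coprime_iff_not_dvd Nat.prime_two).2
      fun h => P.not_dvd_index (h.trans (Subgroup.index_dvd_of_le hPC))) (by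
        intro g hg _ a ha
        obtain ⟨c, -, h1, h2⟩ := S1182.result z hz ⊤ (Subgroup.le_normalizer (Subgroup.mem_top z)) g _ trivial trivial
          (mem_centralizer_singleton.1 hg) (mem_centralizer_singleton.1 ha) a trivial rfl
        exact ⟨c, mem_centralizer_singleton.2 h1, h2⟩)
    rw [h, top_sup_eq, top_inf_eq] at h1
    have h2 : Cfsg.pResidual 2 C ⊔ commutator C = ⊤ := by
      apply Subgroup.map_injective C.subtype_injective
      rw [← h1, ← MonoidHom.range_eq_map, Subgroup.range_subtype]
    by_contra h3
    obtain ⟨M, hM, hMi, hle⟩ := Transfer.exists_normal_index_eq_of_pResidual_le le_rfl h3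
    have h4 : commutator C ≤ M := by
      rw [← Subgroup.Normal.quotient_commutative_iff_commutator_le]
      have := isCyclic_of_prime_card (α := C ⧸ M) (p := 2) hMi
      infer_instance
    have : M = ⊤ := top_le_iff.1 (h2 ▸ sup_le hle h4)
    rw [this] at hMi
    simp at hMi
  · intro h
    have h1 := Transfer.map_subtype_pResidual_le (p := 2) C
    rw [h, ← MonoidHom.range_eq_map, Subgroup.range_subtype] at h1
    rw [← Transfer.pResidual_sup_sylow P, sup_eq_left.2 (hPC.trans h1)]

end Cfsg.Agent.S1183
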