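import Cfsg.Statements.S1184
import Cfsg.Agent.Invol.Isolated

set_option autoImplicit false
open Cfsg

namespace Cfsg.Agent.S1184

/-- Let z be an isolated involution of the finite group G. If s and t are distinct conjugates of z, then st does not commute with z. -/
theorem result {G : Type*} [Group G] [Finite G] (z : G) (hz : Cfsg.IsIsolatedInvolution z) (g h : G) (hne : g * z * g⁻¹ ≠ h * z * h⁻¹) : ¬ Commute (g * z * g⁻¹ * (h * z * h⁻¹)) z := by
  open Cfsg.Agent.Invol in
  intro hc
  have hs : IsConj z (g * z * g⁻¹) := isConj_iff.2 ⟨g, rfl⟩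
  have ht : IsConj z (h * z * h⁻¹) := isConj_iff.2 ⟨h, rfl⟩
  have hs2 := mul_self_of (Isolated.of_isConj hz hs).1
  have ht2 := mul_self_of (Isolated.of_isConj hz ht).1
  have h1 := inverts_commute_mul (conj_prod_left hs2 ht2) hc.symm
  have h2 := mul_self_eq_one_of_odd_inverts h1 (Isolated.odd_orderOf_mul hz (IsConj.refl z) hs)
  have h3 := eq_one_of_odd_of_mul_self (Isolated.odd_orderOf_mul hz hs ht) h2
  apply hne
  rw [← inv_eq_of_mul_self ht2]
  exact eq_inv_of_mul_eq_one_left h3

end Cfsg.Agent.S1184
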