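import Cfsg.Statements.S1185
import Cfsg.Agent.Invol.Isolated

set_option autoImplicit false
open Cfsg

namespace Cfsg.Agent.S1185

/-- Let z be an isolated involution of the finite group G with centralizer C. Then for every g ∈ G there is exactly one element k in the coset gC that has odd order and is inverted by z. -/
theorem result {G : Type*} [Group G] [Finite G] (z : G) (hz : Cfsg.IsIsolatedInvolution z) (g : G) : ∃! k : G, (Odd (orderOf k) ∧ z * k * z⁻¹ = k⁻¹) ∧ g⁻¹ * k ∈ Subgroup.centralizer ({z} : Set G) := by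
  open Cfsg.Agent.Invol in
  obtain ⟨k, hk⟩ := Isolated.exists_factor hz g
  have hs : IsConj z (g * z * g⁻¹) := isConj_iff.2 ⟨g, rfl⟩
  have hz2 := mul_self_of hz.1
  have key : ∀ k : G, z * k * z⁻¹ = k⁻¹ → Commute (g⁻¹ * k) z → k * k = g * z * g⁻¹ * z := by
    intro k h1 h2
    have h3 : k * z * k⁻¹ = g * z * g⁻¹ := by
      calc k * z * k⁻¹ = g * (g⁻¹ * k * z) * k⁻¹ := by group
        _ = _ := by rw [h2.eq]; group
    rw [← h3, ← h1]
    calc k * k = k * (z * z) * k := by rw [hz2, mul_one]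
      _ = _ := by group
  have h1 := odd_orderOf_zpow (Isolated.odd_orderOf_mul hz (IsConj.refl z) hs) k
  have h2 := conj_zpow_of_inverts (conj_prod_left hz2 (mul_self_of (Isolated.of_isConj hz hs).1)) k
  refine ⟨_, ⟨⟨h1, h2⟩, mem_centralizer_singleton.2 hk⟩, ?_⟩
  rintro k' ⟨⟨h3, h4⟩, h5⟩
  exact eq_of_mul_self_eq_of_odd h3 h1
    ((key _ h4 (mem_centralizer_singleton.1 h5)).trans (key _ h2 hk).symm)

end Cfsg.Agent.S1185
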