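import Cfsg.Statements.S1186
import Cfsg.Agent.Invol.Isolated

set_option autoImplicit false
open Cfsg

namespace Cfsg.Agent.S1186

/-- Let z be an isolated involution of the finite group G, C = C_G(z), K the set of elements of odd order inverted by z, and s an involution of C. Then |G| = |C| · |C_K(sz)| · |C_K(s)|. -/
theorem result {G : Type*} [Group G] [Finite G] (z : G) (hz : Cfsg.IsIsolatedInvolution z) (s : G) (hs : orderOf s = 2) (hsz : Commute s z) : Nat.card G = Nat.card (Subgroup.centralizer ({z} : Set G)) * Nat.card {k : G // Odd (orderOf k) ∧ z * k * z⁻¹ = k⁻¹ ∧ Commute k (s * z)} * Nat.card {k : G // Odd (orderOf k) ∧ z * k * z⁻¹ = k⁻¹ ∧ Commute k s} := by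
  open Cfsg.Agent.Invol in
  classical
  have := Fintype.ofFinite G
  have hz2 := mul_self_of hz.1
  have hs2 := mul_self_of hs
  rw [← Isolated.card_conj_eq hz hsz, ← Isolated.card_conj_eq hz (hsz.mul_left (Commute.refl z)),
    ← card_class_mul_card_centralizer z, mul_comm, mul_assoc]
  congr 1
  obtain ⟨M, hMo, hM⟩ : ∃ M : ℕ, Odd M ∧ ∀ g : G, Odd (orderOf g) → g ^ M = 1 := by
    obtain ⟨k, M, hM, h⟩ := Nat.exists_eq_two_pow_mul_odd (Nat.card_pos (α := G)).ne'
    refine ⟨M, hM, fun g hg => orderOf_dvd_iff_pow_eq_one.1 ?_⟩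
    exact (Nat.Coprime.pow_right k hg.coprime_two_right).dvd_of_dvd_mul_left
      (h ▸ orderOf_dvd_natCard g)
  have key : ∀ t t' : G, IsConj z t → IsConj z t' → Commute t' s → Commute t (s * t') →
      s * (s * t) ^ M = t' := by
    intro t t' ht ht' h1 h2
    have ht'2 := mul_self_of (Isolated.of_isConj hz ht').1
    have h3 : Commute (s * t') (t' * t) := (h1.symm.mul_left (Commute.refl t')).mul_right h2.symm
    have h4 : s * t = (s * t') * (t' * t) := by rw [mul_assoc, mul_self_cancel ht'2]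
    have h5 : (s * t') * (s * t') = 1 := by rw [h1.mul_mul_mul_comm, hs2, ht'2, one_mul]
    obtain ⟨m, rfl⟩ := hMo
    rw [h4, h3.mul_pow, hM _ (Isolated.odd_orderOf_mul hz ht' ht), mul_one, pow_succ, pow_mul,
      pow_two, h5, one_pow, one_mul, mul_self_cancel hs2]
  have hex : ∀ t : G, IsConj z t → ∃ t', IsConj z t' ∧ Commute t' s ∧ Commute t (s * t') := by
    intro t ht
    have htI := Isolated.of_isConj hz ht
    rcases Nat.even_or_odd (orderOf (s * t)) with h | h
    · obtain ⟨h1, h2, h3⟩ := half_pow_spec hs2 (mul_self_of htI.1) h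
      refine ⟨_, ht.trans (isConj_right_of_odd hs2 (mul_self_of htI.1)
        (Isolated.odd_half htI hs2 h).1), (Commute.refl s).mul_left h2, ?_⟩
      rw [mul_self_cancel hs2]
      exact h3.symm
    · refine ⟨s, ht.trans (isConj_of_odd hs2 (mul_self_of htI.1) h).symm, Commute.refl s, ?_⟩
      rw [hs2]
      exact Commute.one_right t
  rw [card_subtype_eq_filter, card_subtype_eq_filter, card_subtype_eq_filter,
    Finset.card_eq_sum_card_fiberwise (f := fun t => s * (s * t) ^ M)
      (t := Finset.univ.filter fun t' => IsConj z t' ∧ Commute t' s), mul_comm, ← smul_eq_mul,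
      ← Finset.sum_const]
  · refine Finset.sum_congr rfl fun t' ht' => ?_
    obtain ⟨h1, h2⟩ := (Finset.mem_filter.1 ht').2
    obtain ⟨k, hk⟩ := Isolated.exists_conj hz (IsConj.refl z) h1
    set w := (z * t') ^ k
    have hw : Commute w s := (hsz.symm.mul_left h2).zpow_left k
    have hw2 : w * (s * z) * w⁻¹ = s * t' := by
      rw [← hk, ← mul_assoc, hw.eq]; group
    symm
    refine Finset.card_bij (fun t _ => w * t * w⁻¹) ?_ ?_ ?_
    · intro t ht
      simp only [Finset.mem_filter, Finset.mem_univ, true_and] at ht ⊢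
      have h3 : IsConj z (w * t * w⁻¹) := ht.1.trans (isConj_iff.2 ⟨w, rfl⟩)
      exact ⟨h3, key _ _ h3 h1 h2 (hw2 ▸ ht.2.conj w)⟩
    · intro a _ b _ h
      simpa using h
    · intro t ht
      simp only [Finset.mem_filter, Finset.mem_univ, true_and] at ht ⊢
      refine ⟨w⁻¹ * t * w, ⟨ht.1.trans (isConj_iff.2 ⟨w⁻¹, by simp⟩), ?_⟩, by group⟩
      obtain ⟨t'', h3, h4, h5⟩ := hex t ht.1
      rw [← key _ _ ht.1 h3 h4 h5, ht.2, ← hw2] at h5
      have := h5.conj w⁻¹
      convert this using 1 <;> group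
  · intro t ht
    simp only [Finset.coe_filter, Finset.mem_univ, true_and, Set.mem_ofPred_eq] at ht ⊢
    obtain ⟨t'', h3, h4, h5⟩ := hex t ht
    rw [key _ _ ht h3 h4 h5]
    exact ⟨h3, h4⟩

end Cfsg.Agent.S1186
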