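import Cfsg.Statements.S1187
import Cfsg.Agent.Invol.ZS

set_option autoImplicit false
open Cfsg

namespace Cfsg.Agent.S1187

/-- Let z be an isolated involution of the finite group G and p a prime. If Q is a p-subgroup normalized by z that is maximal among p-subgroups normalized by z, then Q is a Sylow p-subgroup of G. -/
theorem result {G : Type*} [Group G] [Finite G] (z : G) (hz : Cfsg.IsIsolatedInvolution z) {p : ℕ} [Fact p.Prime] (Q : Subgroup G) (hQ : IsPGroup p Q) (hzQ : z ∈ Subgroup.normalizer (Q : Set G)) (hmax : ∀ R : Subgroup G, IsPGroup p R → z ∈ Subgroup.normalizer (R : Set G) → Q ≤ R → R = Q) : ∃ P : Sylow p G, (P : Subgroup G) = Q := by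
  open Cfsg.Agent.Invol in
  by_cases hp : p = 2
  · subst hp
    have h1 : IsPGroup 2 (Q ⊔ Subgroup.zpowers z : Subgroup G) :=
      IsPGroup.to_sup_of_normal_left' hQ (isPGroup_zpowers (n := 1) (by simpa [pow_two] using mul_self_of hz.1))
        (Subgroup.zpowers_le_of_mem hzQ)
    obtain ⟨S, hS⟩ := h1.exists_le_sylow
    exact ⟨S, hmax S S.isPGroup' (Subgroup.le_normalizer (hS (Subgroup.mem_sup_right (Subgroup.mem_zpowers z))))
      (le_sup_left.trans hS)⟩
  obtain ⟨P, hP⟩ := hQ.exists_le_sylow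
  have hL := odd_card_sup (odd_card_of_isPGroup hp P.isPGroup') (odd_oddCore (G := G))
  obtain ⟨R, hR, hQR, hzR⟩ := Solv.exists_invariant_sylIn_ge (A := Subgroup.zpowers z)
    (Subgroup.zpowers_le_of_mem (Isolated.mem_normalizer hz le_sup_right))
    (coprime_card_zpowers_of_odd (n := 1) (by simpa [pow_two] using mul_self_of hz.1) hL)
    (Or.inl (isSolvable_zpowers z)) (hP.trans le_sup_left) hQ (Subgroup.zpowers_le_of_mem hzQ)
  have h1 := hmax R hR.pg (hzR (Subgroup.mem_zpowers z)) hQR
  refine ⟨P, (Subgroup.eq_of_le_of_card_ge hP ?_).symm⟩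
  rw [← h1]
  exact Loc.card_le_of_isPGroup hR le_sup_left P.isPGroup'

end Cfsg.Agent.S1187
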