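import Cfsg.Statements.S1224
import Cfsg.Agent.Invol.StrongEmb

set_option autoImplicit false
open Cfsg

namespace Cfsg.Agent.S1224

/-- Let H be a strongly embedded subgroup of the finite group G and x ≠ y two cosets in G/H. Then the number of involutions i of G with i • x = y equals the number of involutions lying in H. -/
theorem result {G : Type*} [Group G] [Finite G] (H : Subgroup G) (hH : Cfsg.IsStronglyEmbedded H) (x y : G ⧸ H) (hxy : x ≠ y) : Nat.card {i : G // orderOf i = 2 ∧ i • x = y} = Nat.card {t : G // orderOf t = 2 ∧ t ∈ H} := by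
  open Cfsg.Agent.Invol in
  obtain ⟨a, rfl⟩ := QuotientGroup.mk_surjective x
  obtain ⟨b, rfl⟩ := QuotientGroup.mk_surjective y
  have hab : a⁻¹ * b ∉ H := fun h => hxy (QuotientGroup.eq.2 h)
  have key : ∀ i : G, i • (QuotientGroup.mk a : G ⧸ H) = QuotientGroup.mk b ↔ b⁻¹ * i * a ∈ H := by
    intro i
    rw [MulAction.Quotient.smul_mk, eq_comm, QuotientGroup.eq, smul_eq_mul, mul_assoc]
  obtain ⟨s, hsH, hs⟩ := SE.exists_invol_mem hH
  refine Nat.card_congr (Equiv.ofBijective (fun i => ⟨(b⁻¹ * i.1 * a) * s * (b⁻¹ * i.1 * a)⁻¹,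
    by rw [orderOf_conj', hs], mul_mem (mul_mem ((key _).1 i.2.2) hsH) (inv_mem ((key _).1 i.2.2))⟩)
    ⟨?_, ?_⟩)
  · rintro ⟨i, hi, hi2⟩ ⟨j, hj, hj2⟩ h
    have h : (b⁻¹ * i * a) * s * (b⁻¹ * i * a)⁻¹ = (b⁻¹ * j * a) * s * (b⁻¹ * j * a)⁻¹ :=
      congrArg Subtype.val h
    have hi' : orderOf (a⁻¹ * i * a) = 2 := by rw [orderOf_conj'', hi]
    have hj' : orderOf (a⁻¹ * j * a) = 2 := by rw [orderOf_conj'', hj]
    have hiH : a⁻¹ * i * a ∉ H := by
      intro h1
      apply hab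
      have := mul_mem h1 (inv_mem ((key _).1 hi2))
      convert this using 1; group
    have h1 := SE.eq_one_of_inverts_of_commute hH hiH hi' hsH hs
      (conj_prod_right (mul_self_of hj') (mul_self_of hi')) (by
        show a⁻¹ * j * a * (a⁻¹ * i * a) * s = s * (a⁻¹ * j * a * (a⁻¹ * i * a))
        conv_lhs => rw [← inv_eq_of hj]
        conv_rhs => rw [← inv_eq_of hj]
        calc a⁻¹ * j⁻¹ * a * (a⁻¹ * i * a) * s
            = a⁻¹ * j⁻¹ * b * ((b⁻¹ * i * a) * s * (b⁻¹ * i * a)⁻¹) * b⁻¹ * i * a := by group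
          _ = _ := by rw [h]; group)
    refine Subtype.ext ?_
    show i = j
    have h2 : j * i = 1 := by
      calc j * i = a * (a⁻¹ * j * a * (a⁻¹ * i * a)) * a⁻¹ := by group
        _ = 1 := by rw [h1]; group
    rw [← inv_eq_of hj]
    exact eq_inv_of_mul_eq_one_right h2
  · rintro ⟨t, ht, htH⟩
    obtain ⟨w, hw, h1, -⟩ := SE.exists_invol_conj hH hsH hs
      (fun h => hab (SE.mem_of_conj hH htH ht h)) (by rw [orderOf_conj', ht])
    have h2 : (b⁻¹ * (a * w * a⁻¹) * a) * s * (b⁻¹ * (a * w * a⁻¹) * a)⁻¹ = t := by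
      calc (b⁻¹ * (a * w * a⁻¹) * a) * s * (b⁻¹ * (a * w * a⁻¹) * a)⁻¹
          = b⁻¹ * a * (w * s * w⁻¹) * a⁻¹ * b := by group
        _ = t := by rw [h1]; group
    exact ⟨⟨a * w * a⁻¹, by rw [orderOf_conj', hw],
      (key _).2 (SE.mem_of_conj hH hsH hs (h2 ▸ htH))⟩, Subtype.ext h2⟩

end Cfsg.Agent.S1224
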