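import Cfsg.Statements.S1231
import Cfsg.Agent.Invol.StrongEmb

set_option autoImplicit false
open Cfsg

namespace Cfsg.Agent.S1231

theorem rank_mono {G : Type*} [Group G] {p k : ℕ} {X Y : Subgroup G} (h : X ≤ Y)
    (hY : Cfsg.PRankLE p k Y) : Cfsg.PRankLE p k X := by
  intro A hA hAp
  have := hY (A.map (Subgroup.inclusion h)) inferInstance (by
    rintro _ ⟨a, ha, rfl⟩
    rw [← map_pow, hAp a ha, map_one])
  rwa [Subgroup.card_map_of_injective (Subgroup.inclusion_injective h)] at this

theorem rank_equiv {G G' : Type*} [Group G] [Group G'] {p k : ℕ} (e : G ≃* G')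
    (hY : Cfsg.PRankLE p k G') : Cfsg.PRankLE p k G := by
  intro A hA hAp
  have := hY (A.map e.toMonoidHom) inferInstance (by
    rintro _ ⟨a, ha, rfl⟩
    rw [← map_pow, hAp a ha, map_one])
  rwa [Subgroup.card_map_of_injective e.injective] at this

/-- Let H be a subgroup of the finite group G, p a prime, k ≥ 1, and P a Sylow p-subgroup of H whose p-rank is at least k. Then N_G(X) ≤ H for every subgroup X of P of p-rank at least k if and only if H ∩ gHg⁻¹ has p-rank less than k for every g ∉ H. -/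
theorem result {G : Type*} [Group G] [Finite G] {p : ℕ} [Fact p.Prime] (k : ℕ) (hk : 1 ≤ k) (H : Subgroup G) (P : Sylow p ↥H) (hP : ¬ Cfsg.PRankLE p (k - 1) ↥(P : Subgroup ↥H)) : (∀ X : Subgroup G, X ≤ (P : Subgroup ↥H).map H.subtype → ¬ Cfsg.PRankLE p (k - 1) ↥X → Subgroup.normalizer (X : Set G) ≤ H) ↔ (∀ g : G, g ∉ H → Cfsg.PRankLE p (k - 1) ↥(H ⊓ H.map (MulAut.conj g).toMonoidHom)) := by
  open Cfsg.Agent.Invol in
  have hconj : ∀ (X : Subgroup G) (g : G), ¬ Cfsg.PRankLE p (k - 1) X →
      ¬ Cfsg.PRankLE p (k - 1) (X.map (MulAut.conj g).toMonoidHom) :=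
    fun X g hX h => hX (rank_equiv (X.equivMapOfInjective _ (MulAut.conj g).injective) h)
  constructor
  · intro h g hg
    by_contra hr
    apply hg
    unfold Cfsg.PRankLE at hr
    push Not at hr
    obtain ⟨A, hA, hAp, hAc⟩ := hr
    set B := A.map (H ⊓ H.map (MulAut.conj g).toMonoidHom).subtype
    have hB : B ≤ H ⊓ H.map (MulAut.conj g).toMonoidHom := Subgroup.map_subtype_le _
    have hBp : ∀ b ∈ B, b ^ p = 1 := by
      rintro _ ⟨a, ha, rfl⟩
      rw [← map_pow, hAp a ha, map_one]
    rw [← inv_mem_iff]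
    refine mem_of_normalizer_le (p := p) (fun X => ¬ Cfsg.PRankLE p (k - 1) X)
      (fun X Y hXY hX hY => hX (rank_mono hXY hY))
      hconj (normalizer_le_of_sylow _ hconj P h) g⁻¹ B (fun b => ⟨1, Subtype.ext (by simpa using hBp b b.2)⟩)
      ?_ (hB.trans inf_le_left) ?_
    · intro hr
      have := hr ⊤ inferInstance (fun b _ => Subtype.ext (hBp b b.2))
      rw [Subgroup.card_top, Subgroup.card_map_of_injective (Subgroup.subtype_injective _)] at this
      exact absurd this (not_le.2 hAc)
    · rintro _ ⟨b, hb, rfl⟩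
      have := mem_map_conj_iff.1 (hB hb).2
      simpa using this
  · intro h X hXP hX n hn
    by_contra hnH
    have hXH : X ≤ H := hXP.trans (Subgroup.map_subtype_le _)
    refine hX (rank_mono (le_inf hXH ?_) (h n hnH))
    rw [← map_conj_eq_of_mem_normalizer hn]
    exact Subgroup.map_mono hXH

end Cfsg.Agent.S1231
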