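import Cfsg.Statements.S1236
import Cfsg.Agent.Invol.ZS
import Cfsg.Agent.Invol.DihSyl
import Cfsg.Agent.Invol.More

set_option autoImplicit false
open Cfsg

namespace Cfsg.Agent.S1236

/-- Let R be a finite group, t a central involution of R such that R ⧸ ⟨t⟩ is dihedral (of order ≥ 4) or quasi-dihedral, and A ≤ R an elementary abelian subgroup of order 8 containing t. Then C_R(A) = A. -/
theorem result {R : Type*} [Group R] [Finite R] (t : R) (ht : orderOf t = 2) (htz : t ∈ Subgroup.center R) [(Subgroup.zpowers t).Normal] (hq : (∃ m : ℕ, 2 ≤ m ∧ Nonempty (R ⧸ Subgroup.zpowers t ≃* DihedralGroup m)) ∨ Cfsg.IsQuasiDihedral (R ⧸ Subgroup.zpowers t)) (A : Subgroup R) (hA : Cfsg.IsElementaryAbelian 2 A) (hA8 : Nat.card A = 8) (htA : t ∈ A) : Subgroup.centralizer (A : Set R) = A := by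
  open Cfsg.Agent.Invol in
  rw [elemAb_two_iff] at hA
  set f := QuotientGroup.mk' (Subgroup.zpowers t)
  have hk : f.ker ≤ A := by rw [QuotientGroup.ker_mk']; exact Subgroup.zpowers_le_of_mem htA
  have hc : Nat.card (A.map f) = 4 := by
    have := Transfer.card_eq_card_map_mul_card_inf_ker f A
    rw [inf_eq_right.2 hk, QuotientGroup.ker_mk', Nat.card_zpowers, ht, hA8] at this
    omega
  have h4 : IsKleinFour (A.map f) := by
    refine ⟨hc, ?_⟩
    have : Nontrivial (A.map f) := Finite.one_lt_card_iff_nontrivial.1 (by omega)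
    have : Fact (Nat.Prime 2) := ⟨Nat.prime_two⟩
    rw [Monoid.exponent_eq_prime_iff Nat.prime_two]
    rintro ⟨_, a, ha, rfl⟩ h1
    refine orderOf_two_iff.2 ⟨Subtype.ext ?_, h1⟩
    change f a * f a = 1
    rw [← map_mul, hA a ha, map_one]
  have key : ⊤ ⊓ Subgroup.centralizer (A.map f : Set (R ⧸ Subgroup.zpowers t)) ≤ A.map f := by
    rcases hq with ⟨m, -, ⟨e⟩⟩ | hq
    · obtain ⟨r, s, T⟩ := exists_tab_dihedral (Subgroup.topEquiv.trans e)
      exact T.inf_centralizer_four Dih.fix h4 le_top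
    · obtain ⟨n, r, s, h⟩ := exists_qd (isQuasiDihedral_top hq)
      exact h.T.inf_centralizer_four h.fix h4 le_top
  refine le_antisymm (fun c hc => ?_) fun a ha b hb => commute_of_mul_sq (hA b hb) (hA a ha) (hA _ (mul_mem hb ha))
  rw [← Subgroup.comap_map_eq_self hk]
  refine key ⟨trivial, ?_⟩
  rintro _ ⟨a, ha, rfl⟩
  rw [← map_mul, ← map_mul, hc a ha]

end Cfsg.Agent.S1236
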