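import Cfsg.Statements.S1244
import Cfsg.Agent.Invol.Transfer

set_option autoImplicit false
open Cfsg

namespace Cfsg.Agent.S1244

/-- Let G be a finite group with no subgroup of index 2 whose Sylow 2-subgroup S is commutative, and let R ≤ S be a subgroup whose 2-rank is exactly one less than the 2-rank r of S. Then every involution of S is conjugate, by an element of N_G(S), to an element of R. -/
theorem result {G : Type*} [Group G] [Finite G] (hG : ∀ H : Subgroup G, H.index ≠ 2) (S : Sylow 2 G) (hS : IsMulCommutative (S : Subgroup G)) (r : ℕ) (hr1 : 1 ≤ r) (hSr : Cfsg.PRankLE 2 r (S : Subgroup G) ∧ ¬ Cfsg.PRankLE 2 (r - 1) (S : Subgroup G)) (R : Subgroup G) (hRS : R ≤ S) (hRr : Cfsg.PRankLE 2 (r - 1) R ∧ (r = 1 ∨ ¬ Cfsg.PRankLE 2 (r - 2) R)) (t : G) (ht : orderOf t = 2) (htS : t ∈ S) : ∃ n ∈ Subgroup.normalizer ((S : Subgroup G) : Set G), n * t * n⁻¹ ∈ R := by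
  open Cfsg.Agent.Invol in
  have : Fact (Nat.Prime 2) := ⟨Nat.prime_two⟩
  have hcomm : ∀ a ∈ (S : Subgroup G), ∀ b ∈ (S : Subgroup G), Commute a b := fun a ha b hb =>
    congrArg Subtype.val (hS.is_comm.comm (⟨a, ha⟩ : (S : Subgroup G)) ⟨b, hb⟩)
  -- the subgroup of elements squaring to one
  let E : Subgroup G :=
    { carrier := {x | x ∈ (S : Subgroup G) ∧ x * x = 1}
      mul_mem' := fun {a b} ha hb => ⟨mul_mem ha.1 hb.1, by
        rw [(hcomm b hb.1 a ha.1).mul_mul_mul_comm, ha.2, hb.2, one_mul]⟩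
      one_mem' := ⟨one_mem _, one_mul _⟩
      inv_mem' := fun {a} ha => ⟨inv_mem ha.1, by rw [← mul_inv_rev, ha.2, inv_one]⟩ }
  have hES : E ≤ S := fun x hx => hx.1
  have hE : Nat.card E ≤ 2 ^ r := by
    have := hSr.1 (E.subgroupOf S) inferInstance (fun a ha => Subtype.ext (by
      simpa [pow_two] using ha.2))
    rwa [Nat.card_congr (Subgroup.subgroupOfEquivOfLe hES).toEquiv] at this
  have hR : 2 ^ (r - 1) ≤ Nat.card (R ⊓ E : Subgroup G) := by
    rcases hRr.2 with h | h
    · subst h; exact Nat.card_pos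
    · unfold Cfsg.PRankLE at h
      push Not at h
      obtain ⟨A, hA, hA2, hAc⟩ := h
      have hAp : IsPGroup 2 A := fun a => ⟨1, Subtype.ext (by simpa using hA2 a a.2)⟩
      obtain ⟨k, hk⟩ := hAp.exists_card_eq
      have h1 : A.map R.subtype ≤ R ⊓ E := by
        rintro _ ⟨a, ha, rfl⟩
        exact ⟨a.2, hRS a.2, by simpa [pow_two] using congrArg Subtype.val (hA2 a ha)⟩
      have h2 := Subgroup.card_le_of_le h1
      rw [Subgroup.card_map_of_injective R.subtype_injective, hk] at h2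
      rw [hk] at hAc
      have := (Nat.pow_lt_pow_iff_right (by norm_num)).1 hAc
      exact (Nat.pow_le_pow_right (by norm_num) (by omega)).trans h2
  have hidx : (R ⊓ E).relIndex E ≤ 2 := by
    have h1 := ((R ⊓ E).subgroupOf E).card_mul_index
    rw [Nat.card_congr (Subgroup.subgroupOfEquivOfLe inf_le_right).toEquiv] at h1
    have h2 : 2 ^ r = 2 ^ (r - 1) * 2 := by rw [← pow_succ]; congr 1; omega
    by_contra h3
    push Not at h3
    have : 2 ^ (r - 1) * 2 < Nat.card (R ⊓ E : Subgroup G) * ((R ⊓ E).subgroupOf E).index :=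
      Nat.mul_lt_mul_of_le_of_lt hR h3 Nat.card_pos
    omega
  by_contra hcon
  push Not at hcon
  have hcon' : ∀ g : G, g * t * g⁻¹ ∈ (S : Subgroup G) → g * t * g⁻¹ ∉ R := by
    intro g hg
    obtain ⟨n, hn, he⟩ := S.conj_eq_normalizer_conj_of_mem t g⁻¹ htS (by rw [inv_inv]; exact hg)
    rw [inv_inv] at he
    have := hcon n⁻¹ (inv_mem hn)
    rwa [inv_inv, ← he] at this
  have htR : t ∉ R := by simpa using hcon 1 (one_mem _)
  have htE : t ∈ E := ⟨htS, mul_self_of ht⟩
  have hidx2 : (R ⊓ E).relIndex E = 2 := by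
    have h0 : (R ⊓ E).relIndex E ≠ 0 := Subgroup.index_ne_zero_of_finite
    have h1 : (R ⊓ E).relIndex E ≠ 1 := fun h => htR (Subgroup.relIndex_eq_one.1 h htE).1
    omega
  have hu' : t ^ 2 ^ 1 = 1 := by rw [pow_one, pow_two, mul_self_of ht]
  refine not_mem_commutator_of_control (p := 2) (S : Subgroup G) (R ⊓ E) inferInstance ?_
    ((Nat.Prime.coprime_iff_not_dvd Nat.prime_two).2 S.not_dvd_index) t htS (fun h => htR h.1) hu' ?_
    (mem_commutator_of_no_index_two hG hu')
  · intro x hx y hy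
    rw [(hcomm x hx y hy).eq]
    simp
  · intro m a ha
    rcases zpow_invol (mul_self_of ht) m with h | h <;> rw [zpow_natCast] at h <;> rw [h] at ha ⊢
    · simp
    · have h2 : a * t * a⁻¹ ∈ E := ⟨ha, mul_self_of (by rw [orderOf_conj', ht])⟩
      rw [mul_mem_iff_of_relIndex_two hidx2 h2 (inv_mem htE), inv_mem_iff]
      exact iff_of_false (fun h => hcon' a ha h.1) (fun h => htR h.1)

end Cfsg.Agent.S1244
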