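import Cfsg.Statements.S1246
import Cfsg.Agent.Loc.SE
import Cfsg.Agent.Gen.Primitive

set_option autoImplicit false
open Cfsg

namespace Cfsg.Agent.S1246

open Cfsg.Agent.Loc Subgroup

theorem aux {G : Type*} [Group G] [Finite G] {p : ℕ} [Fact p.Prime] {U V : Subgroup G} (h : Sig.SubnIn V U)
    (hU : IsPGroup p U) : ChP p (centralizer (V : Set G)) → ChP p (centralizer (U : Set G)) :=
  h.induction (P := fun A => ChP p (centralizer (A : Set G)) → ChP p (centralizer (U : Set G))) id
    fun A B hle hn hB ih hA => ih (by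
      have := hA.inf_centralizer (hU.to_le hB.le) (hn.trans (normalizer_le_normalizer_centralizer A))
      rwa [inf_eq_right.2 (centralizer_anti hle)] at this)

/-- Let V ≤ U be p-subgroups of the finite group G. If the generalized Fitting subgroup of C_G(V) is a p-group, then so is that of C_G(U). -/
theorem result {G : Type*} [Group G] [Finite G] {p : ℕ} [Fact p.Prime] (U V : Subgroup G) (hVU : V ≤ U) (hU : IsPGroup p U) (hV : IsPGroup p ↥(Cfsg.generalizedFittingSubgroup ↥(Subgroup.centralizer (V : Set G)))) : IsPGroup p ↥(Cfsg.generalizedFittingSubgroup ↥(Subgroup.centralizer (U : Set G))) := by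
  have k : ∀ K : Subgroup G, ChP p K ↔ IsPGroup p (generalizedFittingSubgroup K) := fun K => by
    rw [chP_iff_sub, ← Sig.fstarIn_eq_pcIn_iff_sub, Sig.fstarIn_eq_pcIn_iff_isPGroup]
    exact ⟨fun h => h.of_equiv (equivMapOfInjective _ _ K.subtype_injective).symm, fun h => h.map _⟩
  exact (k _).1 (aux (Gen.subnIn_of_isNilpotent hU.isNilpotent hVU) hU ((k _).2 hV))

end Cfsg.Agent.S1246
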