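import Cfsg.Statements.S1247
import Cfsg.Agent.Loc.Bender
import Cfsg.Agent.Loc.CharP

set_option autoImplicit false
open Cfsg

namespace Cfsg.Agent.S1247

open Cfsg.Agent.Loc Subgroup
open Cfsg.Agent.Sig (SubnIn fstarIn fitIn layerIn ppIn pcIn CompIn)

variable {G : Type*} [Group G] [Finite G] {A B S : Subgroup G} {p q : ℕ}

theorem layer_le (hS : SubnIn S (fstarIn A)) (hC : fstarIn A ⊓ centralizer (S : Set G) ≤ S) : layerIn A ≤ S :=
  Sig.layerIn_le_iff.2 fun L hL => (hL.le_or_commutator (hS.trans Sig.subnIn_fstarIn)).elim id fun r =>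
    (le_inf (hL.le_layerIn.trans Sig.layerIn_le_fstarIn) (commutator_eq_bot_iff_le_centralizer.1 r)).trans hC

theorem cent_le [Fact p.Prime] (hS : SubnIn S (fstarIn A)) (hC : fstarIn A ⊓ centralizer (S : Set G) ≤ S) :
    pcIn p A ⊓ centralizer ((pcIn p A ⊓ S : Subgroup G) : Set G) ≤ pcIn p A ⊓ S := by
  have hS' := hS.trans Sig.subnIn_fstarIn
  refine le_inf inf_le_left ((le_inf (inf_le_left.trans (Sig.pcIn_le_fitIn.trans Sig.fitIn_le_fstarIn)) ?_).trans hC)
  have n : Group.IsNilpotent (fitIn A ⊓ S : Subgroup G) :=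
    haveI := Sig.isNilpotent_fitIn (K := A); Solv.isNilpotent_of_le inf_le_left
  refine le_trans ?_ (centralizer_anti ((Sig.le_layerIn_sup_of_subnIn hS' hS.le).trans (sup_le_sup
    (Sig.layerIn_mono hS') ((Sig.fitIn_eq_self n).ge.trans (Sig.fitIn_le_pcIn_sup_ppIn (p := p))))))
  rw [centralizer_sup', centralizer_sup']
  exact le_inf (inf_le_left.trans (Sig.commutator_eq_bot_iff_le_centralizer'.1 Sig.commutator_layerIn_pcIn))
    (le_inf (inf_le_right.trans (centralizer_anti (le_inf (le_pcIn_of_le_fitIn Sig.isPGroup_pcIn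
    (Sig.pcIn_le.trans inf_le_left)) (Sig.pcIn_le.trans inf_le_right)))) (inf_le_left.trans
    ((commutator_eq_bot_iff_le_centralizer.1 Sig.commutator_pcIn_ppIn).trans
      (centralizer_anti (le_ppIn_of_le_fitIn Sig.coprime_ppIn (Sig.ppIn_le.trans inf_le_left))))))

theorem inf_cent [Fact q.Prime] (hl : layerIn A ≤ B)
    (hc : ∀ p : ℕ, p.Prime → ∃ X, X ≤ pcIn p A ∧ X ≤ B ∧ pcIn p A ⊓ centralizer (X : Set G) ≤ X) :
    layerIn A ≤ centralizer ((pcIn q B ⊓ A : Subgroup G) : Set G) ∧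
      ∀ p : ℕ, p.Prime → p ≠ q → pcIn p A ≤ centralizer ((pcIn q B ⊓ A : Subgroup G) : Set G) := by
  have hD : IsPGroup q (pcIn q B ⊓ A : Subgroup G) := Sig.isPGroup_pcIn.to_inf_left
  have hn : ∀ X, X ≤ B → X ≤ A → X ≤ normalizer ((pcIn q B ⊓ A : Subgroup G) : Set G) := fun X h1 h2 =>
    le_normalizer_inf (Sig.le_normalizer_pcIn (h1.trans le_normalizer)) (h2.trans le_normalizer)
  refine ⟨commutator_eq_bot_iff_le_centralizer.1 (Sig.layerIn_commutator_eq_bot_of_isSolvable inf_le_right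
      (Sig.isSolvable_of_isPGroup hD) (hn _ hl (Sig.layerIn_le A))), fun p hp hpq => ?_⟩
  haveI : Fact p.Prime := ⟨hp⟩
  obtain ⟨X, h1, h2, h3⟩ := hc p hp
  have hM : pcIn q B ⊓ A ≤ normalizer (pcIn p A : Set G) := Sig.le_normalizer_pcIn (inf_le_right.trans le_normalizer)
  have h4 : X ≤ centralizer ((pcIn q B ⊓ A : Subgroup G) : Set G) := by
    refine commutator_eq_bot_iff_le_centralizer.1 (eq_bot_iff.2 ((le_inf (commutator_le_right_of_le_normalizer
      (hn X h2 (h1.trans Sig.pcIn_le))) ((commutator_mono h1 le_rfl).trans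
        (commutator_le_left_of_le_normalizer hM))).trans (inf_eq_bot_of_isPGroup_of_coprime hD
          (Sig.coprime_of_isPGroup_of_ne hpq Sig.isPGroup_pcIn)).le))
  exact le_centralizer_iff.1 (Solv.thompson_PxQ (Sig.isPGroup_pcIn.to_le h1) (Sig.coprime_of_isPGroup_of_ne hpq.symm hD)
    Sig.isPGroup_pcIn h4 (h1.trans le_normalizer) hM (h3.trans h4))

/-- Let G be a non-abelian finite simple group, A a maximal subgroup, F = F*(A) its generalized Fitting subgroup (viewed in G), and S ≤ F a subgroup subnormal in F with C_F(S) ≤ S. Let B be any subgroup of G containing S. Then (a) for every prime q not dividing |F(A)|, O_q(B) ∩ A = 1; and (b) for every prime p dividing |F(A)|, O_p(B) commutes elementwise with the subgroup of F generated by its elements of order prime to p. -/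
theorem result {G : Type*} [Group G] [Finite G] [IsSimpleGroup G] (hna : ¬ IsMulCommutative G) (A : Subgroup G) (hA : IsCoatom A) (S : Subgroup G) (hSF : S ≤ (Cfsg.generalizedFittingSubgroup ↥A).map A.subtype) (hSsn : (S.subgroupOf ((Cfsg.generalizedFittingSubgroup ↥A).map A.subtype)).IsSubnormal) (hSC : (Cfsg.generalizedFittingSubgroup ↥A).map A.subtype ⊓ Subgroup.centralizer (S : Set G) ≤ S) (B : Subgroup G) (hSB : S ≤ B) : (∀ q : ℕ, q.Prime → ¬ q ∣ Nat.card (Cfsg.fittingSubgroup ↥A) → (Cfsg.pCore q ↥B).map B.subtype ⊓ A = ⊥) ∧ (∀ p : ℕ, p.Prime → p ∣ Nat.card (Cfsg.fittingSubgroup ↥A) → ∀ x ∈ (Cfsg.pCore p ↥B).map B.subtype, ∀ y ∈ (Cfsg.pResidual p ↥(Cfsg.generalizedFittingSubgroup ↥A)).map ((Cfsg.generalizedFittingSubgroup ↥A).subtype) , x * (A.subtype y) = (A.subtype y) * x) := by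
  have hS : SubnIn S (fstarIn A) := ⟨hSF, hSsn⟩
  have hl := (layer_le hS hSC).trans hSB
  have hc : ∀ p : ℕ, p.Prime → ∃ X, X ≤ pcIn p A ∧ X ≤ B ∧ pcIn p A ⊓ centralizer (X : Set G) ≤ X := fun p hp =>
    haveI := Fact.mk hp; ⟨_, inf_le_left, inf_le_right.trans hSB, cent_le hS hSC⟩
  have hM := prim_of_isCoatom hA
  refine ⟨fun q hq h0 => ?_, fun p hp h0 x hx y hy => ?_⟩
  · haveI := Fact.mk hq
    have hb : pcIn q A = ⊥ := by_contra fun r => h0 (pcIn_ne_bot_iff.1 r)
    obtain ⟨h1, h2⟩ := inf_cent (q := q) hl hc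
    refine eq_bot_iff.2 (hb ▸ le_pcIn_of_le_fitIn (Sig.isPGroup_pcIn (p := q) (K := B)).to_inf_left
      (Sig.le_fitIn_of_commutator_eq_bot inf_le_right (Sig.commutator_eq_bot_iff_le_centralizer'.2 h1)
        (Sig.commutator_eq_bot_iff_le_centralizer'.2 (Sig.fitIn_le_iff.2 fun p hp => ?_))))
    by_cases e : p = q
    · rw [e, hb]; exact bot_le
    exact h2 p hp e
  haveI := Fact.mk hp
  have hb := pcIn_ne_bot_iff.2 h0
  have L : Leads A B := ⟨fun r => hb (eq_bot_iff.2 (r ▸ Sig.pcIn_le_fitIn)), hl, hc⟩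
  obtain ⟨h1, h2⟩ := inf_cent (q := p) hl hc
  have hZ : IsPGroup p (pcIn p A ⊓ centralizer (pcIn p A : Set G) : Subgroup G) := Sig.isPGroup_pcIn.to_inf_left
  have k1 : layerIn A ≤ centralizer (pcIn p B : Set G) := by
    rw [← pResidualOf_eq_of_perfect (p := p) (Sig.layerIn_perfect A)]
    refine pxq Sig.isPGroup_pcIn (Sig.le_normalizer_pcIn ((L.center_le hp).trans le_normalizer))
      (Sig.le_normalizer_pcIn (hl.trans le_normalizer)) (by rw [pResidualOf_eq_bot_of_isPGroup hZ]; exact bot_le)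
      ((commutator_mono inf_le_left le_rfl).trans (by
        rw [Sig.commutator_eq_bot_comm.1 Sig.commutator_layerIn_pcIn]; exact bot_le))
      (h1.trans (centralizer_anti (inf_le_inf_left _ (hM.le_of_le_centralizer (inf_le_left.trans Sig.pcIn_le)
        ((Sig.le_normalizer_pcIn le_normalizer).trans (normalizer_le_normalizer_center _))
        (center_ne_bot Sig.isPGroup_pcIn hb) le_rfl))))
  have k2 : ppIn p (fitIn A) ≤ centralizer (pcIn p B : Set G) := by
    have n : Group.IsNilpotent (ppIn p (fitIn A)) :=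
      haveI := Sig.isNilpotent_fitIn (K := A); Solv.isNilpotent_of_le Sig.ppIn_le
    refine (Sig.fitIn_eq_self n).ge.trans (Sig.fitIn_le_iff.2 fun r hr => ?_)
    haveI := Fact.mk hr
    by_cases e : pcIn r (ppIn p (fitIn A)) = ⊥
    · rw [e]; exact bot_le
    have l := le_pcIn_of_le_fitIn Sig.isPGroup_pcIn ((Sig.pcIn_le (p := r)).trans (Sig.ppIn_le (p := p) (K := fitIn A)))
    have rp : r ≠ p := by
      rintro rfl
      exact e (eq_bot_iff.2 ((le_inf le_rfl Sig.pcIn_le).trans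
        (inf_eq_bot_of_isPGroup_of_coprime Sig.isPGroup_pcIn Sig.coprime_ppIn).le))
    have := h2 r hr rp
    rw [inf_eq_left.2 (L.pcIn_le hM rp (fun r' => e (eq_bot_iff.2 (r' ▸ l))) hb)] at this
    exact l.trans this
  have k3 : pResidualOf p (fstarIn A) ≤ layerIn A ⊔ ppIn p (fitIn A) :=
    pResidualOf_le_of_le_sup (T := pcIn p (fitIn A)) Sig.isPGroup_pcIn (Sig.pcIn_le.trans (Sig.fitIn_le.trans
      (le_normalizer_sup (Sig.le_normalizer_layerIn le_normalizer)
        (Sig.le_normalizer_ppIn (Sig.le_normalizer_fitIn le_normalizer))))) (by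
      rw [Sig.fstarIn_eq, sup_assoc, sup_comm (ppIn _ _)]
      haveI := Sig.isNilpotent_fitIn (K := A)
      exact sup_le_sup_left ((Sig.fitIn_eq_self this).ge.trans Sig.fitIn_le_pcIn_sup_ppIn) _)
  exact (k3.trans (sup_le k1 k2)) (map_pResidualOf_of_injective A.subtype_injective _ ▸ mem_map_of_mem _ hy) x hx

end Cfsg.Agent.S1247
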