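import Cfsg.Statements.S1253
import Cfsg.Agent.Invol.ZS
import Cfsg.Agent.SolvStr.Product

set_option autoImplicit false
open Cfsg

namespace Cfsg.Agent.S1253

/-- Let z be an isolated involution of the finite group G with centralizer C, p an odd prime and P a Sylow p-subgroup of G normalized by z. Then P ∩ C has p-power-free index in C (it is a Sylow p-subgroup of C), and |P : C_P(z)| equals the number of elements x ∈ P with z x z⁻¹ = x⁻¹. -/
theorem result {G : Type*} [Group G] [Finite G] (z : G) (hz : Cfsg.IsIsolatedInvolution z) {p : ℕ} [Fact p.Prime] (hp : p ≠ 2) (P : Sylow p G) (hzP : z ∈ Subgroup.normalizer ((P : Subgroup G) : Set G)) : ¬ p ∣ ((P : Subgroup G) ⊓ Subgroup.centralizer ({z} : Set G)).relIndex (Subgroup.centralizer ({z} : Set G)) ∧ ((P : Subgroup G) ⊓ Subgroup.centralizer ({z} : Set G)).relIndex (P : Subgroup G) = Nat.card {x : G // x ∈ P ∧ z * x * z⁻¹ = x⁻¹} := by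
  open Cfsg.Agent.Invol in
  have hPo := odd_card_of_isPGroup hp P.isPGroup'
  have hL := odd_card_sup hPo (odd_oddCore (G := G))
  have hz2 := mul_self_of hz.1
  constructor
  · have h1 := Solv.sylIn_inf_centralizer (A := Subgroup.zpowers z)
      (Subgroup.zpowers_le_of_mem (Isolated.mem_normalizer hz le_sup_right))
      (coprime_card_zpowers_of_odd (n := 1) (by simpa [pow_two] using hz2) hL)
      (Or.inl (isSolvable_zpowers z)) (Loc.sylIn_of_sylow_le P le_sup_left) (Subgroup.zpowers_le_of_mem hzP)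
    rw [centralizer_zpowers'] at h1
    set C := Subgroup.centralizer ({z} : Set G)
    set L := (P : Subgroup G) ⊔ pPrimeCore 2 G
    have h2 : (L ⊓ C).relIndex C = L.index := by
      rw [Subgroup.inf_relIndex_right]
      apply SolvStr.IsProd.relIndex_eq_index
      refine ⟨le_top, le_top, fun g _ => ?_⟩
      obtain ⟨o, ho, c, hc, e⟩ := Isolated.factor hz g⁻¹
      exact ⟨c⁻¹, inv_mem (mem_centralizer_singleton.2 hc), o⁻¹, inv_mem (Subgroup.mem_sup_right ho), by
        rw [← mul_inv_rev, ← e, inv_inv]⟩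
    rw [← Subgroup.relIndex_mul_relIndex _ (L ⊓ C) _ (inf_le_inf_right _ le_sup_left) inf_le_right, h2]
    intro h
    rcases (Nat.Prime.dvd_mul Fact.out).1 h with h | h
    · exact h1.not_dvd_relIndex h
    · exact P.not_dvd_index (h.trans (Subgroup.index_dvd_of_le le_sup_left))
  · rw [Subgroup.inf_relIndex_left]
    have hzi := inv_eq_of hz.1
    let f : ↥(P : Subgroup G) → {x : G // x ∈ P ∧ z * x * z⁻¹ = x⁻¹} := fun g =>
      ⟨g * (z * (g : G)⁻¹ * z⁻¹), mul_mem g.2 ((Subgroup.mem_normalizer_iff.1 hzP _).1 (inv_mem g.2)), by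
        rw [hzi]; simp only [mul_inv_rev, inv_inv, hzi, mul_assoc, hz2, mul_one]⟩
    have hf : ∀ a b : ↥(P : Subgroup G), f a = f b ↔ a⁻¹ * b ∈ (Subgroup.centralizer ({z} : Set G)).subgroupOf P := by
      intro a b
      rw [Subgroup.mem_subgroupOf, mem_centralizer_singleton, Subtype.ext_iff]
      change (a : G) * (z * (a : G)⁻¹ * z⁻¹) = b * (z * (b : G)⁻¹ * z⁻¹) ↔ (a : G)⁻¹ * b * z = z * ((a : G)⁻¹ * b)
      constructor
      · intro h
        calc (a : G)⁻¹ * b * z = (a : G)⁻¹ * (b * (z * (b : G)⁻¹ * z⁻¹)) * z * b := by group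
          _ = _ := by rw [← h]; group
      · intro h
        calc (a : G) * (z * (a : G)⁻¹ * z⁻¹) = a * (z * ((a : G)⁻¹ * b)) * (b : G)⁻¹ * z⁻¹ := by group
          _ = _ := by rw [← h]; group
    refine Nat.card_eq_of_bijective (Quotient.lift f fun a b h => (hf a b).2 (QuotientGroup.leftRel_apply.1 h)) ⟨?_, ?_⟩
    · rintro ⟨a⟩ ⟨b⟩ h
      exact Quotient.sound (QuotientGroup.leftRel_apply.2 ((hf a b).1 h))
    · rintro ⟨x, hx, hi⟩
      obtain ⟨k, hk⟩ := exists_sq_pow_eq_of_odd (odd_orderOf_of_mem hPo hx)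
      refine ⟨Quotient.mk _ ⟨x ^ k, pow_mem hx k⟩, Subtype.ext ?_⟩
      change x ^ k * (z * (x ^ k)⁻¹ * z⁻¹) = x
      have h1 := conj_pow_of_inverts hi k
      have h2 : z * (x ^ k)⁻¹ * z⁻¹ = x ^ k := by rw [← conj_inv, h1, inv_inv]
      rw [h2, ← Commute.mul_pow (Commute.refl x), hk]

end Cfsg.Agent.S1253
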