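import Cfsg.Statements.S1254
import Cfsg.Agent.Invol.ZS
import Cfsg.Agent.Invol.DihSyl

set_option autoImplicit false
open Cfsg

namespace Cfsg.Agent.S1254

/-- Let X be a finite group whose Sylow 2-subgroup S is dihedral (of order at least 4). Then X has a normal 2-complement if and only if, for every Klein four-subgroup U ≤ S, the normalizer N_X(U) is generated by C_X(U) and N_S(U). -/
theorem result {X : Type*} [Group X] [Finite X] (S : Sylow 2 X) (m : ℕ) (hm : 2 ≤ m) (eS : (S : Subgroup X) ≃* DihedralGroup m) : Cfsg.HasNormalPComplement 2 X ↔ ∀ U : Subgroup X, U ≤ S → IsKleinFour U → Subgroup.normalizer (U : Set X) = Subgroup.centralizer (U : Set X) ⊔ ((S : Subgroup X) ⊓ Subgroup.normalizer (U : Set X)) := by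
  open Cfsg.Agent.Invol in
  have : Fact (Nat.Prime 2) := ⟨Nat.prime_two⟩
  obtain ⟨n, rfl⟩ := exists_eq_two_pow_of_dihedral S.isPGroup' hm eS
  obtain ⟨r, s, D⟩ := exists_dih eS
  constructor
  · intro h U hU _
    refine le_antisymm (fun g hg => ?_) (sup_le (Subgroup.centralizer_le_normalizer _) inf_le_right)
    obtain ⟨z, hz, e⟩ := Transfer.exists_sylow_conj_eq_of_hasNormalPComplement h S g
    have e' : ∀ x ∈ U, g * x * g⁻¹ = z * x * z⁻¹ := fun x hx =>
      e x (hU hx) (hU ((Subgroup.mem_normalizer_iff.1 hg x).1 hx))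
    have h1 : z⁻¹ * g ∈ Subgroup.centralizer (U : Set X) := fun x hx => by
      calc x * (z⁻¹ * g) = z⁻¹ * (z * x * z⁻¹) * g := by group
        _ = _ := by rw [← e' x hx]; group
    have h2 : z ∈ Subgroup.normalizer (U : Set X) := by
      have := mul_mem hg (inv_mem (Subgroup.centralizer_le_normalizer _ h1))
      simpa using this
    have := mul_mem (Subgroup.mem_sup_right (S := Subgroup.centralizer (U : Set X)) (Subgroup.mem_inf.2 ⟨hz, h2⟩))
      (Subgroup.mem_sup_left h1)
    simpa using this
  · intro h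
    refine complement_of_triv S fun U hU _ => by_contra fun ht => ht fun g hg ho => ⟨1, one_mem _, fun a ha => ?_⟩
    have h4 := D.four_of_not_triv S.isPGroup' hU ht
    have h5 := h U hU h4
    obtain ⟨b, rfl⟩ := D.four_eq h4 hU
    have h6 : Subgroup.normalizer (sub r s (2 ^ n) b : Set X) ≤ Subgroup.centralizer {r (2 ^ n)} := by
      rw [h5]
      exact sup_le (Subgroup.centralizer_le (Set.singleton_subset_iff.2 (Tab.r_mem_sub_self _ _)))
        fun y hy => mem_centralizer_singleton.2 (D.commute_z hy.1)
    have h7 := D.odd_centralizes hg ho (by rw [(mem_centralizer_singleton.1 (h6 hg)).eq, mul_inv_cancel_right])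
    rw [← h7 a ha]; group

end Cfsg.Agent.S1254
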