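import Cfsg.Statements.S1255
import Cfsg.Agent.Invol.ZS
import Cfsg.Agent.Invol.DihSyl

set_option autoImplicit false
open Cfsg

namespace Cfsg.Agent.S1255

/-- Let X be a finite group whose Sylow 2-subgroup S is dihedral of order 2m ≥ 4. Then X has no subgroup of index 2 and no isolated involution if and only if either all involutions of X are conjugate, or for every Klein four-subgroup U ≤ S the index |N_X(U) : C_X(U)| equals 3 when |S| = 4 and equals 6 when |S| > 4. -/
theorem result {X : Type*} [Group X] [Finite X] (S : Sylow 2 X) (m : ℕ) (hm : 2 ≤ m) (eS : (S : Subgroup X) ≃* DihedralGroup m) : ((∀ H : Subgroup X, H.index ≠ 2) ∧ (∀ z : X, ¬ Cfsg.IsIsolatedInvolution z)) ↔ ((∀ a b : X, orderOf a = 2 → orderOf b = 2 → IsConj a b) ∨ (∀ U : Subgroup X, U ≤ S → IsKleinFour U → (Subgroup.centralizer (U : Set X)).relIndex (Subgroup.normalizer (U : Set X)) = (if Nat.card S = 4 then 3 else 6))) := by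
  open Cfsg.Agent.Invol in
  have : Fact (Nat.Prime 2) := ⟨Nat.prime_two⟩
  obtain ⟨n, rfl⟩ := exists_eq_two_pow_of_dihedral S.isPGroup' hm eS
  obtain ⟨r, s, D⟩ := exists_dih eS
  have key : (∀ t ∈ (S : Subgroup X), orderOf t = 2 → IsConj (r (2 ^ n)) t) →
      ∀ a b : X, orderOf a = 2 → orderOf b = 2 → IsConj a b := by
    intro h
    have h1 : ∀ a : X, orderOf a = 2 → IsConj (r (2 ^ n)) a := fun a ha => by
      obtain ⟨g, hg⟩ := exists_conj_invol_mem_sylow (mul_self_of ha) S
      exact (h _ hg (by rw [orderOf_conj', ha])).trans (isConj_conj g a).symm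
    exact fun a b ha hb => (h1 a ha).symm.trans (h1 b hb)
  constructor
  · rintro ⟨h1, -⟩
    refine Or.inl (key fun t ht h2 => ?_)
    obtain ⟨g, -, hg⟩ := thompson_transfer h1 S D.T.relIndex_zpowers (mul_self_of h2) ht
    obtain ⟨k, hk⟩ := D.T.mem_zpowers_r.1 hg
    have h3 : orderOf (r (k * 1)) = 2 := by rw [← hk, orderOf_conj', h2]
    rw [← D.invol_r.1 h3, ← hk]
    exact (isConj_conj g t).symm
  · intro h
    refine D.fusion_simple_of_conj (h.elim id fun h => key fun t ht h2 => ?_) (not_sylow_le_of_index_two S)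
    obtain ⟨i, rfl | rfl⟩ := (D.T.mem t).1 ht
    · rw [D.invol_r.1 h2]
    · obtain ⟨g, -, hg, -⟩ := (D.threePt i).exists_cycle (by
        rw [h _ (D.T.sub_le _ _) (D.four_sub i)]; split_ifs <;> norm_num)
      exact isConj_iff.2 ⟨g, hg⟩

end Cfsg.Agent.S1255
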