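import Cfsg.Statements.S1256
import Cfsg.Agent.Invol.ZS
import Cfsg.Agent.Invol.DihSyl

set_option autoImplicit false
open Cfsg

namespace Cfsg.Agent.S1256

/-- Let X be a finite group whose Sylow 2-subgroup S is dihedral of order 2m ≥ 4. If |S| = 4, any two Klein four-subgroups of X are conjugate; if |S| > 4, there are Klein four-subgroups U₁, U₂ of X that are not conjugate, and every Klein four-subgroup of X is conjugate to U₁ or to U₂. -/
theorem result {X : Type*} [Group X] [Finite X] (S : Sylow 2 X) (m : ℕ) (hm : 2 ≤ m) (eS : (S : Subgroup X) ≃* DihedralGroup m) : (Nat.card S = 4 → ∀ U V : Subgroup X, IsKleinFour U → IsKleinFour V → (∃ x : X, U.map (MulAut.conj x).toMonoidHom = V)) ∧ (4 < Nat.card S → ∃ U₁ U₂ : Subgroup X, IsKleinFour U₁ ∧ IsKleinFour U₂ ∧ ¬ (∃ x : X, U₁.map (MulAut.conj x).toMonoidHom = U₂) ∧ ∀ V : Subgroup X, IsKleinFour V → (∃ x : X, V.map (MulAut.conj x).toMonoidHom = U₁) ∨ (∃ x : X, V.map (MulAut.conj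 x).toMonoidHom = U₂)) := by
  open Cfsg.Agent.Invol in
  have : Fact (Nat.Prime 2) := ⟨Nat.prime_two⟩
  obtain ⟨n, rfl⟩ := exists_eq_two_pow_of_dihedral S.isPGroup' hm eS
  obtain ⟨r, s, D⟩ := exists_dih eS
  have key : ∀ V : Subgroup X, IsKleinFour V → ∃ x : X, V.map (MulAut.conj x).toMonoidHom ≤ S := fun V hV =>
    Transfer.exists_conj_le_sylow S (isPGroup_of_isKleinFour hV)
  constructor
  · intro h4 U V hU hV
    have k2 : ∀ V : Subgroup X, IsKleinFour V → ∃ x : X, V.map (MulAut.conj x).toMonoidHom = S := fun V hV => by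
      obtain ⟨x, hx⟩ := key V hV
      exact ⟨x, Subgroup.eq_of_le_of_card_ge hx (by rw [card_map_conj, hV.card_four]; exact h4.le)⟩
    obtain ⟨x, hx⟩ := k2 U hU
    obtain ⟨y, hy⟩ := k2 V hV
    refine ⟨y⁻¹ * x, ?_⟩
    rw [← map_conj_map_conj, hx, ← hy, map_conj_map_conj]
    ext; simp
  · intro h4
    have h5 := D.T.card
    rcases n with _ | n
    · change 4 < Nat.card (S : Subgroup X) at h4
      omega
    refine ⟨_, _, D.four_sub 0, D.four_sub 1, D.not_conj ⟨2 ^ n, by ring⟩, fun V hV => ?_⟩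
    obtain ⟨x, hx⟩ := key V hV
    obtain ⟨b, hb⟩ := D.four_eq (IsKleinFour.map_conj hV x) hx
    rcases D.H.par b with ⟨k, rfl⟩ | ⟨k, rfl⟩
    · obtain ⟨g, -, hg⟩ := D.conj_sub (2 ^ (n + 1)) (2 * k) (-k)
      exact Or.inl ⟨g * x, by rw [← map_conj_map_conj, hb, hg]; congr 1; ring⟩
    · obtain ⟨g, -, hg⟩ := D.conj_sub (2 ^ (n + 1)) (2 * k + 1) (-k)
      exact Or.inr ⟨g * x, by rw [← map_conj_map_conj, hb, hg]; congr 1; ring⟩

end Cfsg.Agent.S1256
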