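import Cfsg.Statements.S1259
import Cfsg.Agent.Sig.Quasi

set_option autoImplicit false
open Cfsg

namespace Cfsg.Agent.S1259

open Subgroup Cfsg.Agent.Solv Cfsg.Agent.Sig

/-- In a quasisimple group, every subnormal subgroup is either the whole group or central. -/
theorem result {X : Type*} [Group X] [Finite X] (hX : Cfsg.IsQuasisimple X) (H : Subgroup X) (hH : H.IsSubnormal) : H = ⊤ ∨ H ≤ Subgroup.center X := by
  have := qs_subnIn (qs_top_iff.2 hX) (SubnIn.top_iff.2 hH)
  rwa [coe_top, centralizer_univ] at this

end Cfsg.Agent.S1259
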