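import Cfsg.Statements.S1267
import Cfsg.Agent.Sig.Local

set_option autoImplicit false
open Cfsg

namespace Cfsg.Agent.S1267

open Subgroup Cfsg.Agent.Solv Cfsg.Agent.Sig

/-- Let G be finite and P ≤ O_p(G). Then E(N_G(P)) = E(G). -/
theorem result {G : Type*} [Group G] [Finite G] (p : ℕ) [Fact p.Prime] (P : Subgroup G) (hP : P ≤ Cfsg.pCore p G) : (Cfsg.layer ↥(Subgroup.normalizer ((P : Subgroup G) : Set G))).map (Subgroup.normalizer ((P : Subgroup G) : Set G)).subtype = Cfsg.layer G := by
  have hp : IsPGroup p P := (Loc.isPGroup_pCore p G).to_le hP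
  have h1 : centralizer (pCore p G : Set G) ≤ normalizer (P : Set G) :=
    (Loc.centralizer_anti hP).trans (centralizer_le_normalizer _)
  have := Loc.pCore_normal' p G
  change layerIn _ = _
  refine le_antisymm ?_ ?_
  · have h2 : layerIn (normalizer (P : Set G)) ≤ centralizer (pCore p G : Set G) := by
      refine (layerIn_le_xeIn (p := p)).trans ?_
      rw [xeIn_normalizer_top hp]
      have := xeIn_centralizer_le_centralizer_pcIn (K := ⊤) hp le_normalizer_of_normal
      rwa [top_inf_eq, pcIn_top] at this
    exact (layerIn_le_layerIn_of_le h2 h1).trans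
      (layerIn_le_layer (Subgroup.Normal.isSubnormal inferInstance))
  · rw [← layerIn_top]
    refine layerIn_le_layerIn_of_le (le_trans ?_ h1) le_top
    rw [← commutator_eq_bot_iff_le_centralizer, ← pcIn_top]
    exact commutator_layerIn_pcIn

end Cfsg.Agent.S1267
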