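import Cfsg.Statements.S1268
import Cfsg.Agent.Sig.Local

set_option autoImplicit false
open Cfsg

namespace Cfsg.Agent.S1268

open Subgroup Cfsg.Agent.Solv Cfsg.Agent.Sig

/-- Let G be finite with F*(G) = O_p(G). Then F*(N) = O_p(N) for N the normalizer of any p-subgroup P of G. -/
theorem result {G : Type*} [Group G] [Finite G] (p : ℕ) [Fact p.Prime] (h : Cfsg.generalizedFittingSubgroup G = Cfsg.pCore p G) (P : Subgroup G) (hP : IsPGroup p ↥P) : Cfsg.generalizedFittingSubgroup ↥(Subgroup.normalizer ((P : Subgroup G) : Set G)) = Cfsg.pCore p ↥(Subgroup.normalizer ((P : Subgroup G) : Set G)) := by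
  rw [← fstarIn_eq_pcIn_iff_sub, fstarIn_eq_pcIn_iff_xeIn, xeIn_normalizer_top hP]
  rw [← fstarIn_top, ← pcIn_top, fstarIn_eq_pcIn_iff_xeIn] at h
  have := xeIn_centralizer_eq_bot h hP le_normalizer_of_normal
  rwa [top_inf_eq] at this

end Cfsg.Agent.S1268
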