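import Cfsg.Statements.S1271
import Cfsg.Agent.Sig.LocBal

set_option autoImplicit false
open Cfsg

namespace Cfsg.Agent.S1271

open Subgroup Cfsg.Agent.BG Cfsg.Agent.Sig

/-- Let G be finite with O_{p'}(G) = 1. Suppose that for every component L of G and every subgroup H ≥ L in which L is normal, the quotient H / C_H(L) is balanced for the prime p. Then G is balanced for p. -/
theorem result {G : Type*} [Group G] [Finite G] (p : ℕ) [Fact p.Prime] (hO : Cfsg.pPrimeCore p G = ⊥) (h : ∀ L : Subgroup G, Cfsg.IsComponent L → ∀ H : Subgroup G, L ≤ H → (L.subgroupOf H).Normal → ∀ [((Subgroup.centralizer (L : Set G)).subgroupOf H).Normal], Cfsg.IsBalancedFor p (↥H ⧸ (Subgroup.centralizer (L : Set G)).subgroupOf H)) : Cfsg.IsBalancedFor p G := by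
  intro x hx
  rw [← Op'_top] at hO
  have x1 : x ^ p = 1 := hx ▸ pow_orderOf_eq_one x
  have xn : x ∈ N[(⊤ : Subgroup G)] := by rw [norm_top]; trivial
  rw [cpc_eq, ← top_inf_eq C1[x]]
  refine (eq_bot_of_cent_comps hO (pcore_pgroup _ _) le_top (Op'_C1_le_cent_Op x1 xn) fun L hL => ?_).le.trans bot_le
  by_cases c : ⁅L, zpowers x⁆ = L
  swap
  · exact Op'_C1_le_cent hO hL x1 xn c
  have n1 := Op'_C1_le_norm hO hL x1 xn
  have n2 := norm_of_commg_subl c.le
  have n3 : zpowers x ≤ N[Op' p (⊤ ⊓ C1[x])] :=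
    cents_norm (zpowers_le.2 (le_cent1_iff.1 ((pcore_sub _ _).trans inf_le_right)))
  set D := Op' p (⊤ ⊓ C1[x]) with hD
  set H := L ⊔ (zpowers x ⊔ D) with hH
  have nL : L ⊴ H := normalYl (sup_le n2 n1)
  haveI : (C[L].subgroupOf H).Normal := (normal_subgroupOf_iff_le_normalizer_inf).2
    (normsI (norms_cent nL.2) (normG H))
  set f := QuotientGroup.mk' (C[L].subgroupOf H) with hf
  have kf : mker f = C[L] ⊓ H := by rw [mker, QuotientGroup.ker_mk', subgroupOf_map_subtype]
  have xH : x ∈ H := mem_sup_right (mem_sup_left (mem_zpowers x))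
  have h1 := mim_le_Op'_cent hO hL f (kf.le.trans inf_le_left |>.trans' inf_le_left) (le_inf le_top le_rfl) n2
    (zpowers_le.2 (cent1_self x)) n3 (mem_zpowers x) x1 le_rfl xH
  have o : orderOf (f ⟨x, xH⟩) = p := orderOf_eq_prime
    (by rw [← map_pow, show (⟨x, xH⟩ : H) ^ p = 1 from Subtype.ext x1, map_one]) fun e => hL.ne_bot (by
      rw [← c]; exact commG1'.2 (zpowers_le.2 (kf.le (mem_mker.2 ⟨xH, e⟩)).1))
  have h2 := h L (compIn_top_iff.1 hL) H nL.1 nL.subgroupOf _ o
  rw [← hH, morphim_dom, MonoidHom.range_eq_top.2 (QuotientGroup.mk'_surjective _), top_inf_eq, ← cpc_eq] at h1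
  have h3 := (sub_morphim_pre (le_sup_right.trans le_sup_right)).1 (h1.trans h2)
  rw [← Op'_top] at h3
  set W := mpre f (Op' p ⊤) with hW
  have nW : H ≤ N[W] := norms_morphpre le_rfl (le_top.trans (pcore_normal _ _).2)
  refine h3.trans ?_
  rcases qs_normal hL.qs (inf_le_right (a := W)) (normsI (nL.1.trans nW) (normG L)) with e | e
  · obtain ⟨T, hT⟩ := Sylow_exists p L
    refine absurd ?_ (hL.not_sylIn_le_centralizer (p := p) (by rwa [ppIn, ← Op'_eq]) (sylIn_iff.2 hT))
    have l := hT.le.trans nL.1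
    refine ((morphim_eq_bot l).1 ?_).trans (kf.le.trans inf_le_left)
    have := (sub_morphim_pre l).2 (hT.le.trans (inf_eq_right.1 e))
    exact inf_eq_left.2 this ▸ pgroup_p'_TI (hT.pg.mim f) (pcore_pgroup _ _)
  · exact commG1.1 (commutator_eq_bot_of_perfect hL.perfect (commG1.2
      ((commg_subI ((morphpre_sub _ _).trans nL.2) (nL.1.trans nW)).trans e)))

end Cfsg.Agent.S1271
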