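import Cfsg.Statements.S1272
import Cfsg.Agent.Sig.PComp

set_option autoImplicit false
open Cfsg

namespace Cfsg.Agent.S1272

open Subgroup Cfsg.Agent.Solv Cfsg.Agent.Sig

/-- Let X be finite and Q = X / O_{p'}(X). For every component Kbar of Q there is a unique p-component K of X whose image in Q is Kbar; and the image of the p-layer L_{p'}(X) in Q is E(Q). -/
theorem result {X : Type*} [Group X] [Finite X] (p : ℕ) [Fact p.Prime] : (∀ Kbar : Subgroup (X ⧸ Cfsg.pPrimeCore p X), Cfsg.IsComponent Kbar → ∃! K : Subgroup X, Cfsg.IsPComponent p K ∧ K.map (QuotientGroup.mk' (Cfsg.pPrimeCore p X)) = Kbar) ∧ (Cfsg.pLayer p X).map (QuotientGroup.mk' (Cfsg.pPrimeCore p X)) = Cfsg.layer (X ⧸ Cfsg.pPrimeCore p X) := by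
  refine ⟨fun Kbar hK => ?_, map_pLayer_mk'⟩
  have h1 := (compIn_top_iff.2 hK).pCompIn (ppIn_top_quotient (p := p))
  rw [← map_top_of_surjective _ (QuotientGroup.mk'_surjective _)] at h1
  obtain ⟨L, hL, rfl⟩ := exists_pCompIn_map_eq _ coprime_ker_mk' h1
  exact ⟨L, ⟨isPComponent_iff.2 hL, rfl⟩, fun M hM =>
    PCompIn.eq_of_map_eq _ coprime_ker_mk' (isPComponent_iff.1 hM.1) hL hM.2⟩

end Cfsg.Agent.S1272
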