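import Cfsg.Statements.S1273
import Cfsg.Agent.Sig.PComp

set_option autoImplicit false
open Cfsg

namespace Cfsg.Agent.S1273

open Subgroup Cfsg.Agent.Solv Cfsg.Agent.Sig

/-- Let K be a p-component of the finite group X and N a normal subgroup of K whose index in K is prime to p. Then N = K. -/
theorem result {X : Type*} [Group X] [Finite X] (p : ℕ) [Fact p.Prime] (K : Subgroup X) (hK : Cfsg.IsPComponent p K) (N : Subgroup ↥K) [N.Normal] (hidx : (N.index).Coprime p) : N = ⊤ := by
  obtain ⟨T, hT⟩ := Loc.exists_sylIn p K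
  have h1 : T.subgroupOf K ≤ N := le_of_coprime_index
    (coprime_card_of_isPGroup (Loc.isPGroup_subgroupOf hT.pg K) hidx)
  have h2 := (isPComponent_iff.1 hK).2.eq_of_sylIn_le
    (SubnIn.map_subtype_iff.2 (Normal.isSubnormal ‹N.Normal›)) hT
    (by rw [← map_subgroupOf_eq_of_le hT.le]; exact map_mono h1)
  apply map_injective K.subtype_injective
  rw [h2, top_map_subtype]

end Cfsg.Agent.S1273
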