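import Cfsg.Statements.S1275
import Cfsg.Agent.Sig.PComp

set_option autoImplicit false
open Cfsg

namespace Cfsg.Agent.S1275

open Subgroup Cfsg.Agent.Solv Cfsg.Agent.Sig

/-- For a 2-component K of a finite group X, the quotient of K by its core O(K) is quasisimple. -/
theorem result {X : Type*} [Group X] [Finite X] (K : Subgroup X) (hK : Cfsg.IsPComponent 2 K) : Cfsg.IsQuasisimple (↥K ⧸ Cfsg.oddCore ↥K) := by
  have h := (isPComponent_iff.1 hK).2
  have h1 : PQS 2 (⊤ : Subgroup K) :=
    PQS.of_map_of_injective K.subtype_injective (by rwa [top_map_subtype])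
  have h2 := h1.qs_map (QuotientGroup.mk' (pPrimeCore 2 K))
    (by rw [QuotientGroup.ker_mk', inf_top_eq, ppIn_top])
  rwa [map_top_of_surjective _ (QuotientGroup.mk'_surjective _), qs_top_iff] at h2

end Cfsg.Agent.S1275
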