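import Cfsg.Statements.S1277
import Cfsg.Agent.Sig.PComp

set_option autoImplicit false
open Cfsg

namespace Cfsg.Agent.S1277

open Subgroup Cfsg.Agent.Solv Cfsg.Agent.Sig

/-- For a finite group X with core O(X): the image of E(X) in X / O(X) is all of E(X / O(X)) if and only if every 2-component of X is a component, i.e. L_{2'}(X) ≤ E(X). -/
theorem result {X : Type*} [Group X] [Finite X] : (Cfsg.layer X).map (QuotientGroup.mk' (Cfsg.oddCore X)) = Cfsg.layer (X ⧸ Cfsg.oddCore X) ↔ Cfsg.pLayer 2 X ≤ Cfsg.layer X := by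
  constructor
  · intro h
    rw [← pLayerIn_top, pLayerIn_le_iff]
    intro L hL
    refine hL.le_of_le_sup (SubnIn.of_isSubnormal (Normal.isSubnormal inferInstance) le_top) ?_
    rw [ppIn_top, sup_comm, ← comap_map_mk', h, ← map_le_iff_le_comap, ← map_pLayer_mk']
    exact map_mono (pLayerIn_top (G := X) ▸ hL.le_pLayerIn)
  · intro h
    refine le_antisymm (map_layer_le_of_surjective (QuotientGroup.mk'_surjective _)) ?_
    rw [← map_pLayer_mk']
    exact map_mono h

end Cfsg.Agent.S1277
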