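import Cfsg.Statements.S1278
import Cfsg.Agent.Sig.PComp

set_option autoImplicit false
open Cfsg

namespace Cfsg.Agent.S1278

open Subgroup Cfsg.Agent.Solv Cfsg.Agent.Sig

/-- Let K ≠ L be 2-components of the finite group X. Then ⁅K, L⁆ ≤ O(K) ⊓ O(L), and if K is quasisimple then ⁅K, L⁆ = 1. -/
theorem result {X : Type*} [Group X] [Finite X] (K L : Subgroup X) (hK : Cfsg.IsPComponent 2 K) (hL : Cfsg.IsPComponent 2 L) (hne : K ≠ L) : ⁅K, L⁆ ≤ ((Cfsg.oddCore ↥K).map K.subtype) ⊓ ((Cfsg.oddCore ↥L).map L.subtype) ∧ (Cfsg.IsQuasisimple ↥K → ⁅K, L⁆ = ⊥) := by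
  have h1 := isPComponent_iff.1 hK
  have h2 := isPComponent_iff.1 hL
  have h3 := h1.commutator_le_of_ne h2 hne
  have h4 : ⁅K, L⁆ ≤ ppIn 2 K :=
    h1.ppIn_eq ▸ le_inf h3 (commutator_le_of_le_normalizer_left (h1.le_normalizer h2))
  have h5 : ⁅K, L⁆ ≤ ppIn 2 L :=
    h2.ppIn_eq ▸ le_inf h3 (commutator_le_of_le_normalizer_right (h2.le_normalizer h1))
  refine ⟨le_inf h4 h5, fun hq => ?_⟩
  rw [commutator_eq_bot_comm]
  apply commutator_eq_bot_of_perfect h1.perfect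
  rw [Subgroup.commutator_comm L, commutator_eq_bot_iff_le_centralizer]
  exact h4.trans (h1.2.ppIn_le_centralizer hq)

end Cfsg.Agent.S1278
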