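import Cfsg.Statements.S1286
import Cfsg.Agent.Sig.Sf1

set_option autoImplicit false
open Cfsg

namespace Cfsg.Agent.S1286

open Subgroup Cfsg.Agent.Solv Cfsg.Agent.Sig

abbrev X5 := Equiv.Perm (Fin 5)
def a5 : X5 := Equiv.swap 3 4
def b5 : X5 := Equiv.swap 0 1
def x5 : X5 := Equiv.swap 0 1 * Equiv.swap 1 2
def y5 : X5 := Equiv.swap 2 3 * Equiv.swap 3 4
def V5 : Subgroup X5 where
  carrier := {g | g ∈ ({1, a5, b5, a5 * b5} : Finset X5)}
  one_mem' := by simp
  mul_mem' := by
    intro g h hg hh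
    simp only [Set.mem_ofPred_eq, Finset.mem_insert, Finset.mem_singleton] at *
    rcases hg with rfl | rfl | rfl | rfl <;> rcases hh with rfl | rfl | rfl | rfl <;> decide
  inv_mem' := by
    intro g hg
    simp only [Set.mem_ofPred_eq, Finset.mem_insert, Finset.mem_singleton] at *
    rcases hg with rfl | rfl | rfl | rfl <;> decide
theorem memV {g : X5} : g ∈ V5 ↔ g = 1 ∨ g = a5 ∨ g = b5 ∨ g = a5 * b5 := by
  change g ∈ ({1, a5, b5, a5 * b5} : Finset X5) ↔ _
  simp
def T5 (x : X5) (h : x * x * x = 1) : Subgroup X5 where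
  carrier := {g | g = 1 ∨ g = x ∨ g = x * x}
  one_mem' := by simp
  mul_mem' := by
    rintro g k (rfl | rfl | rfl) (rfl | rfl | rfl) <;> simp [h, ← mul_assoc]
  inv_mem' := by
    rintro g (rfl | rfl | rfl)
    · simp
    · right; right; rw [inv_eq_iff_mul_eq_one, ← mul_assoc, h]
    · right; left; rw [inv_eq_iff_mul_eq_one, h]
theorem memT {x g : X5} {h} : g ∈ T5 x h ↔ g = 1 ∨ g = x ∨ g = x * x := Iff.rfl
theorem pgT {x : X5} {h} : IsPGroup 3 (T5 x h) := by
  rintro ⟨g, rfl | rfl | rfl⟩ <;> refine ⟨1, Subtype.ext ?_⟩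
  · simp
  · simpa [pow_succ] using h
  · simp [pow_succ, ← mul_assoc, h]
def th5 (g : X5) : Subgroup X5 :=
  if g = a5 then T5 x5 (by decide) else if g = b5 then T5 y5 (by decide) else ⊥
theorem tha : th5 a5 = T5 x5 (by decide) := if_pos rfl
theorem thb : th5 b5 = T5 y5 (by decide) := by rw [th5, if_neg (by decide), if_pos rfl]
theorem thc : th5 (a5 * b5) = ⊥ := by rw [th5, if_neg (by decide), if_neg (by decide)]
theorem pg5 (g : X5) : IsPGroup 3 (th5 g) := by
  by_cases h : g = a5
  · rw [h, tha]; exact pgT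
  by_cases h' : g = b5
  · rw [h', thb]; exact pgT
  rw [th5, if_neg h, if_neg h']; exact IsPGroup.of_bot

/-- There exist a finite group X, an elementary abelian subgroup A of order 4 and a solvable A-signalizer functor θ on X for the prime 2 which is not complete. -/
theorem result : ∃ (X : Type) (_ : Group X) (_ : Finite X) (A : Subgroup X) (θ : X → Subgroup X), Cfsg.IsElementaryAbelian 2 A ∧ Nat.card ↥A = 4 ∧ Cfsg.IsSolvableSignalizerFunctor 2 A θ ∧ ¬ Cfsg.IsCompleteSignalizerFunctor 2 A θ := by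
  haveI : Fact (Nat.Prime 3) := ⟨by norm_num⟩
  have hA : IsElementaryAbelian 2 V5 := by
    refine BG.abelemP.2 ⟨BG.abelian_of_cent (BG.le_cent_iff.2 fun g hg h hh => ?_), fun g hg => ?_⟩
    · rcases memV.1 hg with rfl | rfl | rfl | rfl <;> rcases memV.1 hh with rfl | rfl | rfl | rfl <;> decide
    · rcases memV.1 hg with rfl | rfl | rfl | rfl <;> decide
  refine ⟨X5, inferInstance, inferInstance, V5, th5, hA, ?_, (sf_iff hA).1 ⟨hA, ?_, fun g _ _ =>
    BG.p'group_of_ne (pg5 g) (by norm_num), ?_, ?_, fun g _ _ => BG.pgroup_sol (pg5 g)⟩, ?_⟩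
  · change Nat.card ({1, a5, b5, a5 * b5} : Finset X5) = 4
    rw [Nat.card_eq_fintype_card, Fintype.card_coe]; decide
  · intro g hg h1 k hk
    rw [BG.mem_cent1]
    rcases memV.1 hg with rfl | rfl | rfl | rfl
    · exact absurd rfl h1
    · rw [tha] at hk; rcases memT.1 hk with rfl | rfl | rfl <;> decide
    · rw [thb] at hk; rcases memT.1 hk with rfl | rfl | rfl <;> decide
    · rw [thc, mem_bot] at hk; simp [hk]
  · intro g hg h1
    refine BG.le_norm_iff.2 fun h hh k hk => ?_
    rcases memV.1 hg with rfl | rfl | rfl | rfl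
    · exact absurd rfl h1
    · rw [tha] at hk ⊢; rw [memT]
      rcases memT.1 hk with rfl | rfl | rfl <;> rcases memV.1 hh with rfl | rfl | rfl | rfl <;> decide
    · rw [thb] at hk ⊢; rw [memT]
      rcases memT.1 hk with rfl | rfl | rfl <;> rcases memV.1 hh with rfl | rfl | rfl | rfl <;> decide
    · rw [thc, mem_bot] at hk ⊢; simp [hk]
  · intro g hg h1 h hh h2 k hk
    by_cases e : g = h
    · exact e ▸ hk.1
    have hc := BG.mem_cent1.1 hk.2
    have hk := hk.1
    suffices k = 1 from this ▸ one_mem _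
    rcases memV.1 hg with rfl | rfl | rfl | rfl
    · exact absurd rfl h1
    · rw [tha] at hk
      rcases memT.1 hk with rfl | rfl | rfl <;> rcases memV.1 hh with rfl | rfl | rfl | rfl <;>
        revert h2 e hc <;> decide
    · rw [thb] at hk
      rcases memT.1 hk with rfl | rfl | rfl <;> rcases memV.1 hh with rfl | rfl | rfl | rfl <;>
        revert h2 e hc <;> decide
    · rwa [thc] at hk
  · rintro ⟨-, Y, -, h2, h⟩
    have hx : x5 ∈ Y := ((h a5 (by simp [memV]) (by decide)).ge (by rw [tha]; simp [memT])).1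
    have hy : y5 ∈ Y := ((h b5 (by simp [memV]) (by decide)).ge (by rw [thb]; simp [memT])).1
    have := BG.orderOf_dvd_cardG (mul_mem (mul_mem (mul_mem (mul_mem hx hy) hx) hy) hy)
    rw [orderOf_eq_prime (p := 2) (by decide) (by decide)] at this
    exact h2 this

end Cfsg.Agent.S1286
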