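import Cfsg.Statements.S1289
import Cfsg.Agent.Sig.PComp

set_option autoImplicit false
open Cfsg

namespace Cfsg.Agent.S1289

open Subgroup Cfsg.Agent.Solv Cfsg.Agent.Sig

/-- A p-component K of the finite group X is subnormal, perfect, of order divisible by p, and minimal among the subnormal perfect subgroups of X of order divisible by p. -/
theorem result {X : Type*} [Group X] [Finite X] (p : ℕ) [Fact p.Prime] (K : Subgroup X) (hK : Cfsg.IsPComponent p K) : K.IsSubnormal ∧ ⁅K, K⁆ = K ∧ p ∣ Nat.card ↥K ∧ ∀ H : Subgroup X, H ≤ K → H.IsSubnormal → ⁅H, H⁆ = H → p ∣ Nat.card ↥H → H = K := by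
  have h := isPComponent_iff.1 hK
  have hp : p.Prime := Fact.out
  refine ⟨hK.1, h.perfect, ?_, fun H hle hH hperf hd => ?_⟩
  · by_contra hd
    exact h.2.not_coprime ((Nat.Prime.coprime_iff_not_dvd hp).2 hd).symm
  · refine (h.2.subnIn (SubnIn.of_isSubnormal hH hle)).resolve_right fun h1 => ?_
    exact (Nat.Prime.coprime_iff_not_dvd hp).1 (coprime_card_of_le
      (hperf.ge.trans ((commutator_mono le_rfl hle).trans h1)) coprime_ppIn).symm hd

end Cfsg.Agent.S1289
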