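import Cfsg.Statements.S1300
import Cfsg.Agent.Sig.LocBal

set_option autoImplicit false
open Cfsg

namespace Cfsg.Agent.S1300

open Subgroup Cfsg.Agent.BG Cfsg.Agent.Sig

/-- For a finite group G, balance in the sense of commuting involutions is the same as 1-balance for the prime 2. -/
theorem result {G : Type*} [Group G] [Finite G] : Cfsg.IsBalanced G ↔ Cfsg.IsKBalanced 2 1 G := by
  refine ⟨fun h A hA hc b hb hcomm => ?_, fun h => ?_⟩
  · obtain ⟨a, ha, a1⟩ := trivgPn.1 (ne_bot_of_prime (A := A) (by rw [hc]; norm_num))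
    refine (inf_le_inf_right _ (Delta_le ha a1)).trans ?_
    rw [← cpc_eq, h a b (abelem_order_p hA ha a1) hb (hcomm a ha)]
    exact inf_le_left
  · have k : ∀ x y : G, orderOf x = 2 → orderOf y = 2 → x * y = y * x →
        centralizerPPrimeCore 2 x ⊓ C1[y] ≤ centralizerPPrimeCore 2 y ⊓ C1[x] := fun x y hx hy e => by
      have := h (zpowers x) (cycle_abelem (hx ▸ pow_orderOf_eq_one x)) (by rw [Nat.card_zpowers, hx]; rfl) y hy
        fun a ha => mem_cent1.1 (zpowers_le.2 (mem_cent1.2 e) ha)
      rw [Delta_zpowers hx, ← cpc_eq] at this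
      exact le_inf this (inf_le_left.trans (by rw [cpc_eq]; exact pcore_sub _ _))
    exact fun x y hx hy e => le_antisymm (k x y hx hy e) (k y x hy hx e.symm)

end Cfsg.Agent.S1300
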