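import Cfsg.Statements.S1299
import Cfsg.Agent.Sig.Sf2

set_option autoImplicit false
open Cfsg

namespace Cfsg.Agent.S1299

open Subgroup Cfsg.Agent.BG Cfsg.Agent.Sig

/-- Let G be finite and k-balanced for the prime p (k ≥ 1), A an elementary abelian p-subgroup of order at least p^(k+2) such that O_{p'}(C_G(a)) is solvable for every non-identity a ∈ A. For a ∈ A put θ a = the subgroup generated by the Δ_G(D) ∩ C_G(a) over the subgroups D ≤ A of order p^k. Then θ is an A-signalizer functor. -/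
theorem result {G : Type*} [Group G] [Finite G] (p k : ℕ) [Fact p.Prime] (hk : 1 ≤ k) (hbal : Cfsg.IsKBalanced p k G) (A : Subgroup G) (hA : Cfsg.IsElementaryAbelian p A) (hAk : p ^ (k + 2) ≤ Nat.card ↥A) (hsolv : ∀ a ∈ A, a ≠ 1 → Group.IsSolvable ↥(Cfsg.centralizerPPrimeCore p a)) : Cfsg.IsSignalizerFunctor p A (fun a => ⨆ D : {D : Subgroup G // D ≤ A ∧ Nat.card ↥D = p ^ k}, Cfsg.signalizerDelta p (D : Subgroup G) ⊓ Subgroup.centralizer {a}) := by
  refine ((sf_iff hA).1 (kbalanced_functor hk hA hAk (fun D hD hc b hb h1 => ?_) fun a ha h1 => ?_)).1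
  · rw [← cpc_eq]
    exact hbal D (abelemS hD hA) hc b (abelem_order_p hA hb h1) fun a ha => hA.abelian.comm (hD ha) hb
  · rw [← cpc_eq]; exact hsolv a ha h1

end Cfsg.Agent.S1299
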