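import Cfsg.Statements.S1303
import Cfsg.Agent.Sig.PComp
import Cfsg.Agent.BG.Base5
import Cfsg.Agent.Char.Burnside

set_option autoImplicit false
open Cfsg

namespace Cfsg.Agent.S1303

open Subgroup Cfsg.Agent.BG Cfsg.Agent.Sig

open scoped MatrixGroups

theorem card24 : Nat.card SL(2, ZMod 3) = 2 ^ 3 * 3 ^ 1 := by
  rw [Nat.card_eq_fintype_card]; decide +kernel

theorem odd_elt : ∀ x : SL(2, ZMod 3), x ^ 3 = 1 → x = 1 ∨ ∃ g, (g * x * g⁻¹ * x⁻¹) ^ 3 ≠ 1 := by decide +kernel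

theorem core : pPrimeCore 2 SL(2, ZMod 3) = ⊥ := by
  have := Fact.mk Nat.prime_two
  have h : #(pPrimeCore 2 SL(2, ZMod 3)) ∣ 3 := by
    have := card24 ▸ card_subgroup_dvd_card (pPrimeCore 2 SL(2, ZMod 3))
    exact (Nat.Coprime.pow_right 3 coprime_pPrimeCore).dvd_of_dvd_mul_left this
  have k : ∀ x ∈ pPrimeCore 2 SL(2, ZMod 3), x ^ 3 = 1 := fun x hx =>
    orderOf_dvd_iff_pow_eq_one.1 ((orderOf_dvd_cardG hx).trans h)
  refine eq_bot_iff.2 fun x hx => (odd_elt x (k x hx)).resolve_right ?_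
  rintro ⟨g, hg⟩
  exact hg (k _ (mul_mem (Normal.conj_mem inferInstance x hx g) (inv_mem hx)))

theorem invol : ∀ t : SL(2, ZMod 3), t ^ 2 = 1 → ∀ g, g * t = t * g := by decide +kernel

/-- The group X = SL(2, 3): it is 2-constrained, O_{2'}(X) = 1, its centre A = Z(X) contains every involution of X = C_X(A), and X has a subgroup of order 3 (normalized by A) not contained in O_{2'}(X). -/
theorem result : Cfsg.IsPConstrained 2 (Matrix.SpecialLinearGroup (Fin 2) (ZMod 3)) ∧ Cfsg.pPrimeCore 2 (Matrix.SpecialLinearGroup (Fin 2) (ZMod 3)) = ⊥ ∧ (∀ t : Matrix.SpecialLinearGroup (Fin 2) (ZMod 3), orderOf t = 2 → t ∈ Subgroup.center (Matrix.SpecialLinearGroup (Fin 2) (ZMod 3))) ∧ ∃ Q : Subgroup (Matrix.SpecialLinearGroup (Fin 2) (ZMod 3)), Nat.card ↥Q = 3 ∧ ¬ (Q ≤ Cfsg.pPrimeCore 2 (Matrix.SpecialLinearGroup (Fin 2) (ZMod 3))) := by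
  have := Fact.mk Nat.prime_two
  have hs := Char.isSolvable_of_card_eq_prime_pow_mul Nat.prime_two Nat.prime_three card24
  refine ⟨isPConstrained_iff_pLayer.2 ?_, core, fun t ht => mem_center_iff.2 (invol t (orderOf_dvd_iff_pow_eq_one.1 ht.dvd)), ?_⟩
  · rw [← pLayerIn_top]; exact pLayerIn_eq_bot_of_isSolvable inferInstance
  · obtain ⟨Q, -, h⟩ := Cauchy_sub (A := (⊤ : Subgroup SL(2, ZMod 3))) Nat.prime_three (by rw [card_top, card24]; decide)
    exact ⟨Q, h, fun e => by rw [core, le_bot_iff] at e; simp [e] at h⟩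

end Cfsg.Agent.S1303
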