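import Cfsg.Statements.S1304
import Cfsg.Agent.Sig.Quasi

set_option autoImplicit false
open Cfsg

namespace Cfsg.Agent.S1304

open Subgroup Cfsg.Agent.Solv Cfsg.Agent.Sig

/-- Let X be a perfect group and α an automorphism of X with α(x) x⁻¹ central for every x. Then α is the identity. -/
theorem result {X : Type*} [Group X] (hperf : commutator X = ⊤) (α : X ≃* X) (h : ∀ x : X, α x * x⁻¹ ∈ Subgroup.center X) : ∀ x : X, α x = x := by
  intro x
  have key : commutator X ≤ MonoidHom.eqLocus α.toMonoidHom (MonoidHom.id X) := by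
    rw [commutator_def, commutator_le]
    intro a _ b _
    have ha := mem_center_iff.1 (h a)
    have hb := mem_center_iff.1 (h b)
    show α _ = _
    simp only [commutatorElement_def, map_mul, map_inv, MonoidHom.id_apply]
    have ea : α a = (α a * a⁻¹) * a := by group
    have eb : α b = (α b * b⁻¹) * b := by group
    rw [ea, eb]
    generalize α a * a⁻¹ = z at ha
    generalize α b * b⁻¹ = w at hb
    calc z * a * (w * b) * (z * a)⁻¹ * (w * b)⁻¹
        = z * (a * (w * b) * a⁻¹) * z⁻¹ * (w * b)⁻¹ := by group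
      _ = (a * (w * b) * a⁻¹) * z * z⁻¹ * (w * b)⁻¹ := by rw [ha]
      _ = (a * w) * (b * a⁻¹ * b⁻¹) * w⁻¹ := by group
      _ = w * (a * (b * a⁻¹ * b⁻¹)) * w⁻¹ := by rw [hb a]; group
      _ = (a * (b * a⁻¹ * b⁻¹)) * w * w⁻¹ := by rw [hb]
      _ = a * b * a⁻¹ * b⁻¹ := by group
  exact key (hperf ▸ mem_top x)

end Cfsg.Agent.S1304
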