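import Cfsg.Statements.S1305
import Cfsg.Agent.Sig.Pump

set_option autoImplicit false
open Cfsg

namespace Cfsg.Agent.S1305

open Subgroup Cfsg.Agent.BG Cfsg.Agent.Sig

/-- Let G be a finite group of component type with the B-property and no nontrivial normal subgroup of odd order. Let a be an involution and K a component of C_G(a) such that (a) |K| is maximal among the orders of components of centralizers of involutions of G, (b) subject to (a) the 2-rank of the centralizer of K in C_G(a) is as large as possible, and (c) K has 2-rank at least 2. If B is an elementary abelian 2-subgroup of that centralizer of the largest possible order, then K is a component of C_G(b) for every non-identity b ∈ B. -/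
theorem result {G : Type*} [Group G] [Finite G] (hO : Cfsg.oddCore G = ⊥) (hB : Cfsg.HasBProperty G) (hct : Cfsg.IsComponentType G) (a : G) (ha : orderOf a = 2) (K : Subgroup G) (hKa : K ≤ Subgroup.centralizer ({a} : Set G)) (hK : Cfsg.IsComponent (K.subgroupOf (Subgroup.centralizer ({a} : Set G)))) (hmax : ∀ y : G, orderOf y = 2 → ∀ K' : Subgroup G, K' ≤ Subgroup.centralizer ({y} : Set G) → Cfsg.IsComponent (K'.subgroupOf (Subgroup.centralizer ({y} : Set G))) → Nat.card ↥K' ≤ Nat.card ↥K ∧ (Nat.card ↥K' = Nat.card ↥K → ∀ k : ℕ, Cfsg.PRankLE 2 k ↥(Subgroup.centralizer ({a} : Set G) ⊓ Subgroup.centralizer (K : Set G)) → Cfsg.PRankLE 2 k ↥(Subgroup.centralizer ({y} : Set G) ⊓ Subgroup.centralizer (K' : Set G)))) (hrk : ¬ Cfsg.PRankLE 2 1 ↥K) (B : Subgroup G) (hBle : B ≤ Subgroup.centralizer ({a} : Set G) ⊓ Subgroup.centralizer (K : Set G)) (hBel : Cfsg.IsElementaryAbelian 2 B) (hBmax : ∀ B' : Subgroup G, B' ≤ Subgroup.centralizer ({a} : Set G) ⊓ Subgroup.centralizer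 (K : Set G) → Cfsg.IsElementaryAbelian 2 B' → Nat.card ↥B' ≤ Nat.card ↥B) (b : G) (hb : b ∈ B) (hb1 : b ≠ 1) : K ≤ Subgroup.centralizer ({b} : Set G) ∧ Cfsg.IsComponent (K.subgroupOf (Subgroup.centralizer ({b} : Set G))) := by
  have := Fact.mk Nat.prime_two
  have hK' := (isComponent_subgroupOf_iff hKa).1 hK
  have a2 := mul_self_of_two ha
  have hBa : B ≤ C1[a] := hBle.trans inf_le_left
  have hBK : B ≤ C[K] := hBle.trans inf_le_right
  have hb2 : orderOf b = 2 := abelem_order_p hBel hb hb1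
  have hKb : K ≤ C1[b] := le_cent1_iff.2 (hBK hb)
  have hab : a ∈ C1[b] := mem_cent1_comm.1 (hBa hb)
  have hBb : B ≤ C1[b] := hBel.cent.trans (cent_le_cent1 hb)
  have hn : a ∈ N[C1[b]] := normG _ hab
  have h1 : CompIn K (C1[b] ⊓ C1[a]) := hK'.restrict (le_inf hKb hKa) inf_le_right
  have h2 : pLayerIn 2 C1[b] ≤ layerIn C1[b] := pLayerIn_le_layerIn (by
    have := hB b hb2
    rwa [hO, le_bot_iff, map_commutator] at this)
  obtain ⟨D, hD, h⟩ := pumpup a2 hn h1 ((h1.le_pLayerIn2' a2 hn).trans h2)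
  obtain ⟨m1, m2⟩ := hmax b hb2 D hD.le ((isComponent_subgroupOf_iff hD.le).2 hD)
  rcases h with rfl | h | ⟨e, -, π, p1, p2, p3⟩
  · exact compIn_iff.1 hD
  · exact absurd (proper_card h.1) (not_lt.2 m1)
  exfalso
  have hs : Function.Surjective π.rangeRestrict := π.rangeRestrict_surjective
  have hbij : Function.Bijective π.rangeRestrict := hs.bijective_of_nat_card_le (p3.symm ▸ m1)
  have hiso : Nonempty (D ≃* K) := p3 ▸ ⟨MulEquiv.ofBijective _ hbij⟩
  have hD' := hD.cjn hn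
  have hc := hD.cent_of_ne hD' (Ne.symm e)
  have hKD : K ≤ D ⊔ cj a D := by
    rw [← p3]; rintro _ ⟨l, rfl⟩; rw [p1]; exact mul_mem_sup l.2 (conj_mem_cj a l.2)
  have hDK : ¬ D ≤ C[K] := fun h => by
    have h' := cj_mono a h
    rw [← C_cj, cj_of_cent (le_cent1_iff.1 hKa)] at h'
    exact hK'.not_cent le_rfl (hKD.trans (sup_le h h'))
  have hp : ∀ g ∈ B, g ∈ N[D] ∨ a * g ∈ N[D] := fun g hg => by
    by_contra! h
    have h3 := hD.cjn (normG _ (hBb hg))
    have h4 : cj g D ≤ C[K] := centsS hKD (le_cent_sup (h3.cent_of_ne hD fun e => h.1 (mem_norm.2 e))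
      (h3.cent_of_ne hD' fun e => h.2 (by rw [mem_norm, cj_mul, e, cj_cj_invol a2])))
    rw [← cj_of_cent (hBK hg), C_cj, cj_le_cj] at h4
    exact hDK h4
  have hinj : Function.Injective π := fun x y h => hbij.1 (Subtype.ext h)
  have hB0 : B ⊓ N[D] ≤ C[D] := fun g hg => mem_cent.2 fun l hl => by
    have h3 := conj_eq_of_cent (hBK hg.1) (p3 ▸ ⟨⟨l, hl⟩, rfl⟩ : π ⟨l, hl⟩ ∈ K)
    have h4 := mem_cent1.1 (hBa hg.1)
    have h5 : π ⟨_, conj_mem_of_norm hg.2 hl⟩ = π ⟨l, hl⟩ := by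
      rw [← h3, p1, p1]
      calc _ = g * l * g⁻¹ * ((a * g) * l * (a * g)⁻¹) := by group
        _ = _ := by rw [← h4]; group
    rw [← mul_inv_eq_iff_eq_mul.1 (congrArg Subtype.val (hinj h5))]
  have hB1 : B ⊓ N[D] ≤ C[cj a D] := by
    rw [C_cj, ← cj_of_cent (le_cent1_iff.1 (inf_le_left.trans hBa) : a ∈ C[B ⊓ N[D]])]
    exact cj_mono a hB0
  have az := cycle_abelem (p := 2) (sq a ▸ a2)
  have haB : a ∈ B := by
    have h3 : B ⊔ zpowers a ≤ C1[a] ⊓ C[K] := sup_le hBle (zpowers_le.2 ⟨cent1_self a, le_cent1_iff.1 hKa⟩)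
    rw [eq_of_card_le le_sup_left (hBmax _ h3 (abelemY hBel az (C_zpowers a ▸ hBa)))]
    exact mem_sup_right (mem_zpowers a)
  have hc1 : #B ≤ #(B ⊓ N[D] : Subgroup G) * 2 := by
    have : B ≤ B ⊓ N[D] ⊔ zpowers a := fun g hg => by
      rcases hp g hg with h | h
      · exact mem_sup_left ⟨hg, h⟩
      · rw [← inv_mul_cancel_left a g]
        exact mul_mem (mem_sup_right (inv_mem (mem_zpowers a))) (mem_sup_left ⟨mul_mem haB hg, h⟩)
    refine (card_le_card this).trans (Nat.le_of_dvd (Nat.mul_pos (cardG_pos _) two_pos) ?_)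
    rw [← ha, ← Nat.card_zpowers]
    exact card_sup_dvd (.inl (cents_norm (C_zpowers a ▸ inf_le_left.trans hBa)))
  rw [pRankLE_iff Nat.prime_two, ← isog_p_rank hiso, ← p_rankJ 2 a, not_le] at hrk
  obtain ⟨V, hV⟩ := (p_rank_geP Nat.prime_two).1 (Nat.succ_le_of_lt hrk)
  have hi : B ⊓ N[D] ⊓ V = ⊥ := eq_bot_iff.2 fun z hz => by
    have h3 := conj_eq_of_cent (le_cent1_iff.1 (zpowers_le.2 (hBa hz.1.1))) (mem_zpowers z)
    have h4 : z ∈ D := by
      have := hV.le hz.2
      rwa [← h3, conj_mem_cj_iff] at this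
    have h5 : π ⟨z, h4⟩ = π 1 := by rw [p1, h3, map_one, ← sq]; exact hBel.pow hz.1.1
    exact congrArg Subtype.val (hinj h5)
  obtain ⟨k, hk⟩ := abelem_card hBel
  have h3 := m2 (card_isog hiso) k fun A hA hA2 => by
    rw [← hk.card, ← card_map_subtype]
    exact hBmax _ (map_subtype_le _) (abelem_map _ (abelemP.2 ⟨hA, hA2⟩))
  have hcv := centsS hV.le hB1
  have h4 := abelem_card_le Nat.prime_two (abelemY (abelemS inf_le_left hBel) hV.abelem hcv)
    (sup_le (le_inf (inf_le_left.trans hBb) hB0) (hV.le.trans (le_inf hD'.le (cents_symm hc))))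
  have h5 := h4.trans (Nat.pow_le_pow_right two_pos ((pRankLE_iff Nat.prime_two).1 h3))
  rw [card_sup_TI (.inl (cents_norm hcv)) hi, hV.card, ← hk.card] at h5
  have := cardG_pos (B ⊓ N[D])
  omega

end Cfsg.Agent.S1305
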