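import Cfsg.Statements.S1306
import Cfsg.Agent.Sig.Pump

set_option autoImplicit false
open Cfsg

namespace Cfsg.Agent.S1306

open Subgroup Cfsg.Agent.BG Cfsg.Agent.Sig

/-- Let G be finite, x an involution and L ≤ C_G(x) a component of C_G(x). Suppose L is a component of C_G(y) for every involution y ∈ C_G(L), and ⁅L, g L g⁻¹⁆ ≠ 1 whenever g L g⁻¹ ≠ L. Then L is a standard subgroup of G. -/
theorem result {G : Type*} [Group G] [Finite G] (x : G) (hx : orderOf x = 2) (L : Subgroup G) (hLx : L ≤ Subgroup.centralizer ({x} : Set G)) (hL : Cfsg.IsComponent (L.subgroupOf (Subgroup.centralizer ({x} : Set G)))) (hne : ∀ y : G, orderOf y = 2 → y ∈ Subgroup.centralizer (L : Set G) → L ≤ Subgroup.centralizer ({y} : Set G) ∧ Cfsg.IsComponent (L.subgroupOf (Subgroup.centralizer ({y} : Set G)))) (hnc : ∀ g : G, L.map (MulAut.conj g).toMonoidHom ≠ L → ⁅L, L.map (MulAut.conj g).toMonoidHom⁆ ≠ ⊥) : Cfsg.IsStandardSubgroup L := by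
  have hL' := (isComponent_subgroupOf_iff hLx).1 hL
  have k : ∀ g y, orderOf y = 2 → y ∈ C[L] → y ∈ C[cj g L] → g ∈ N[L] := fun g y hy h1 h2 => by
    have h3 := hne _ ((orderOf_conj' g⁻¹ y).trans hy) (by rw [C_cj] at h2; simpa using mem_cj.1 h2)
    have h4 := ((isComponent_subgroupOf_iff h3.1).1 h3.2).cj g
    rw [C1_conj, cj_cj_inv] at h4
    by_contra h
    exact hnc g (fun e => h (mem_norm.2 e)) (((isComponent_subgroupOf_iff (hne y hy h1).1).1 (hne y hy h1).2).commutator_eq_bot_of_ne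
      h4 fun e => h (mem_norm.2 e.symm))
  have hxL : x ∈ C[L] := le_cent1_iff.1 hLx
  refine ⟨hL'.qs, ⟨even_iff_two_dvd.2 (hx ▸ orderOf_dvd_cardG hxL), fun g hg => ?_⟩, hnc,
    le_antisymm (cent_norm L) fun g hg => k g x hx hxL ?_⟩
  · rw [← Nat.not_even_iff_odd, even_iff_two_dvd]
    intro h
    obtain ⟨y, hy, h2⟩ := Cauchy Nat.prime_two h
    exact hg (cent_norm L (k g y h2 hy.1 (by rw [C_cj]; exact hy.2)))
  · rw [C_cj, mem_norm.1 hg]; exact hxL

end Cfsg.Agent.S1306
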