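import Cfsg.Statements.S1307
import Cfsg.Agent.Sig.Pump
import Cfsg.Agent.S0215
import Cfsg.Agent.PGrp.Cyclic

set_option autoImplicit false
open Cfsg

namespace Cfsg.Agent.S1307

open Subgroup Cfsg.Agent.BG Cfsg.Agent.Sig

theorem aux {X : Type*} [Group X] [Finite X] (hq : IsQuasisimple X) (heven : Even (Nat.card X)) (hrk : PRankLE 2 1 X) :
    ∃ u ∈ center X, orderOf u = 2 ∧ ∃ S : Sylow 2 X, ∃ n : ℕ, Nonempty (S ≃* QuaternionGroup (2 ^ (n + 1))) := by
  have := Fact.mk Nat.prime_two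
  obtain ⟨S⟩ : Nonempty (Sylow 2 X) := inferInstance
  have hS := sylowIn_top S
  have hd : 2 ∣ #(⊤ : Subgroup X) := by rw [card_top]; exact even_iff_two_dvd.1 heven
  have hr : BG.pRank 2 (S : Subgroup X) ≤ 1 := (p_rankS 2 le_top).trans ((pRankLE_top Nat.prime_two).1 hrk)
  have hq' := qs_top_iff.2 hq
  have hO : ∀ N : Subgroup X, N.Normal → Odd #N → N ≤ C[⊤] := fun N hN h => (qs_normal hq' le_top (norm_of_normal _ _)).resolve_left
    fun e => by rw [e, ← Nat.not_even_iff_odd, even_iff_two_dvd] at h; exact h hd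
  obtain ⟨u, hu, h2⟩ := Cauchy Nat.prime_two (pgroup_pdiv hS.pg (Sylow_ne_bot hS hd))
  obtain ⟨N, hN, hodd, h⟩ := S0215.result S u h2 hu fun g hg => by
    have e := pgroup_uniq_p1Elem hS.pg hr (p1Elem_zpowers Nat.prime_two hg ((orderOf_conj' g u).trans h2))
      (p1Elem_zpowers Nat.prime_two hu h2)
    exact (mem_zpowers_invol (mul_self_of_two h2) (e ▸ mem_zpowers _)).resolve_left
      (ne_one_of_two ((orderOf_conj' g u).trans h2))
  refine ⟨u, ?_, h2, S, ?_⟩
  · rw [← cent_top, ← zpowers_le, ← commG1]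
    refine commutator_eq_bot_of_perfect (qs_perfect hq') (commG1.2 (le_trans ?_ (hO N hN hodd)))
    exact (le_centMod_iff.1 (zpowers_le.2 (⟨norm_of_normal N ⊤ trivial, fun g _ => h g⟩ : u ∈ centMod ⊤ N))).2
  rcases PGrp.isCyclic_or_quaternion S.2 (fun H K hH hK => map_injective (subtype_injective _) (pgroup_uniq_p1Elem hS.pg hr
    ((pnElem1 Nat.prime_two).2 ⟨map_subtype_le _, (card_map_subtype _).trans hH⟩)
    ((pnElem1 Nat.prime_two).2 ⟨map_subtype_le _, (card_map_subtype _).trans hK⟩))) with hc | ⟨-, n, hn, e⟩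
  · have hd' := cyclic_pdiv_normal_complement hS (fun q hq _ => hq.two_le) hc
    exact (qs_not_isSolvable hq' (hd'.sup ▸ solvableY (.inr hd'.norm) (odd_sol (pcore_pgroup _ _)) (pgroup_sol hS.pg))).elim
  · obtain ⟨n, rfl⟩ := Nat.exists_eq_add_of_le' hn
    exact ⟨n, e⟩

/-- Let G be finite, x an involution and L ≤ C_G(x) a component of C_G(x) of even order and 2-rank 1, such that L is a component of C_G(y) for every involution y ∈ C_G(L). Then some involution of L is a classical involution of G. -/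
theorem result {G : Type*} [Group G] [Finite G] (x : G) (hx : orderOf x = 2) (L : Subgroup G) (hLx : L ≤ Subgroup.centralizer ({x} : Set G)) (hL : Cfsg.IsComponent (L.subgroupOf (Subgroup.centralizer ({x} : Set G)))) (heven : Even (Nat.card ↥L)) (hrk : Cfsg.PRankLE 2 1 ↥L) (hne : ∀ y : G, orderOf y = 2 → y ∈ Subgroup.centralizer (L : Set G) → L ≤ Subgroup.centralizer ({y} : Set G) ∧ Cfsg.IsComponent (L.subgroupOf (Subgroup.centralizer ({y} : Set G)))) : ∃ t ∈ L, Cfsg.IsClassicalInvolution t := by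
  have hL' := (isComponent_subgroupOf_iff hLx).1 hL
  obtain ⟨u, hu, h2, h⟩ := aux hL'.qs heven hrk
  have h3 : orderOf (u : G) = 2 := by rwa [orderOf_coe]
  have h4 : (u : G) ∈ C[L] := (map_subtype_center L ▸ mem_map_of_mem L.subtype hu).2
  obtain ⟨h5, h6⟩ := hne u h3 h4
  exact ⟨u, u.2, h3, L, h5, u.2, h6.1, h⟩

end Cfsg.Agent.S1307
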