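import Cfsg.Statements.S1314
import Cfsg.Agent.Sig.Pump

set_option autoImplicit false
open Cfsg

namespace Cfsg.Agent.S1314

open Subgroup Cfsg.Agent.BG Cfsg.Agent.Sig

/-- Let x be an involution of a group G and L a perfect subgroup with ⁅L, x L x⁻¹⁆ = 1. Then l ↦ l (x l x⁻¹) is a group homomorphism π from L to G whose kernel is central in L and whose image lies in C_G(x); and the commutator subgroup of C_{L ⊔ xLx⁻¹}(x) equals the image of π. -/
theorem result {G : Type*} [Group G] [Finite G] (x : G) (hx : orderOf x = 2) (L : Subgroup G) (hperf : ⁅L, L⁆ = L) (hcomm : ⁅L, L.map (MulAut.conj x).toMonoidHom⁆ = ⊥) : ∃ π : ↥L →* G, (∀ l : ↥L, π l = (l : G) * (x * (l : G) * x⁻¹)) ∧ π.ker ≤ Subgroup.center ↥L ∧ π.range ≤ Subgroup.centralizer ({x} : Set G) ∧ ⁅(L ⊔ L.map (MulAut.conj x).toMonoidHom) ⊓ Subgroup.centralizer ({x} : Set G), (L ⊔ L.map (MulAut.conj x).toMonoidHom) ⊓ Subgroup.centralizer ({x} : Set G)⁆ = π.range := by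
  have ht := mul_self_of_two hx
  obtain ⟨π, h1, h2, h3, h4⟩ := exists_diag ht hperf (commG1.1 hcomm)
  refine ⟨π, h1, fun l hl => mem_center_iff.2 fun m => Subtype.ext ?_, h3.trans inf_le_right, h4⟩
  exact le_cent_iff.1 (commG1.1 hcomm) m m.2 l (h2 (mem_mker.2 ⟨l.2, hl⟩)).2

end Cfsg.Agent.S1314
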