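import Cfsg.Statements.S1316
import Cfsg.Agent.Sig.FStar

set_option autoImplicit false
open Cfsg

namespace Cfsg.Agent.S1316

open Subgroup Cfsg.Agent.Solv Cfsg.Agent.Sig

/-- For a finite group X, E(X) equals the intersection of the derived series of F*(X) (its last term). -/
theorem result {X : Type*} [Group X] [Finite X] : (⨅ n : ℕ, (derivedSeries ↥(Cfsg.generalizedFittingSubgroup X) n).map (Cfsg.generalizedFittingSubgroup X).subtype) = Cfsg.layer X := by
  set F := generalizedFittingSubgroup X with hF
  have hEF : layer X ≤ F := le_sup_left
  apply le_antisymm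
  · have h1 : (layer X).map (QuotientGroup.mk' (layer X)) = ⊥ := by
      rw [Subgroup.map_eq_bot_iff, QuotientGroup.ker_mk']
    have h2 : F.map (QuotientGroup.mk' (layer X)) = (fittingSubgroup X).map (QuotientGroup.mk' (layer X)) := by
      rw [hF, generalizedFittingSubgroup, Subgroup.map_sup, h1, bot_sup_eq]
    have h3 : Group.IsSolvable (F.map (QuotientGroup.mk' (layer X))) := by
      rw [h2]
      have := isSolvable_fitting (G := X)
      exact isSolvable_map _ _
    obtain ⟨n, hn⟩ := h3
    refine (iInf_le _ n).trans ?_
    have h4 := map_derivedSeries_le_derivedSeries ((QuotientGroup.mk' (layer X)).subgroupMap F) n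
    rw [hn, le_bot_iff, Subgroup.map_eq_bot_iff] at h4
    rintro _ ⟨x, hx, rfl⟩
    exact (QuotientGroup.eq_one_iff _).1 (congrArg Subtype.val (h4 hx))
  · refine le_iInf fun n => ?_
    induction n with
    | zero => rw [derivedSeries_zero, top_map_subtype]; exact hEF
    | succ n ih =>
      rw [derivedSeries_succ, map_commutator, ← layer_perfect]
      exact commutator_mono ih ih

end Cfsg.Agent.S1316
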