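import Cfsg.Statements.S1319
import Cfsg.Agent.Sig.Comp

set_option autoImplicit false
open Cfsg

namespace Cfsg.Agent.S1319

open Subgroup Cfsg.Agent.Solv Cfsg.Agent.Sig

/-- Let A be a subnormal subgroup of the finite group X with E(A) = A. Then A ≤ E(X) and A is normal in E(X). -/
theorem result {X : Type*} [Group X] [Finite X] (A : Subgroup X) (hsn : A.IsSubnormal) (hA : Cfsg.layer ↥A = ⊤) : A ≤ Cfsg.layer X ∧ (A.subgroupOf (Cfsg.layer X)).Normal := by
  have h1 : layerIn A = A := by
    rw [layerIn, hA, ← MonoidHom.range_eq_map, range_subtype]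
  have h2 : A ≤ layer X := h1 ▸ layerIn_le_layer hsn
  refine ⟨h2, (normal_subgroupOf_iff_le_normalizer h2).2 ?_⟩
  rw [← layerIn_top]
  exact layerIn_le_normalizer_of_subnIn (SubnIn.top_iff.2 hsn)

end Cfsg.Agent.S1319
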