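import Cfsg.Statements.S1320
import Cfsg.Agent.Sig.FStar

set_option autoImplicit false
open Cfsg

namespace Cfsg.Agent.S1320

open Subgroup Cfsg.Agent.Solv Cfsg.Agent.Sig

/-- Let B be a normal subgroup of the finite group A. Then F*(A) ∩ B = F*(B). -/
theorem result {A : Type*} [Group A] [Finite A] (B : Subgroup A) [B.Normal] : Cfsg.generalizedFittingSubgroup A ⊓ B = (Cfsg.generalizedFittingSubgroup ↥B).map B.subtype := by
  rw [← fstarIn_top]
  exact (fstarIn_eq_inf (SubnIn.of_isSubnormal (Normal.isSubnormal inferInstance) le_top)).symm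

end Cfsg.Agent.S1320
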