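import Cfsg.Statements.S1326
import Cfsg.Agent.Sig.FStar

set_option autoImplicit false
open Cfsg

namespace Cfsg.Agent.S1326

open Subgroup Cfsg.Agent.Solv Cfsg.Agent.Sig

/-- For a finite group X: the Fitting subgroup contains its centralizer if and only if the layer of X is trivial. -/
theorem result {X : Type*} [Group X] [Finite X] : Subgroup.centralizer (Cfsg.fittingSubgroup X : Set X) ≤ Cfsg.fittingSubgroup X ↔ Cfsg.layer X = ⊥ := by
  constructor
  · intro h
    have h1 := commutator_layerIn_fitIn (K := (⊤ : Subgroup X))
    rw [layerIn_top, fitIn_top, commutator_eq_bot_iff_le_centralizer] at h1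
    exact eq_bot_of_perfect_of_le_solvable layer_perfect isSolvable_fitting (h1.trans h)
  · intro h
    have := centralizer_fstar_le (G := X)
    rwa [generalizedFittingSubgroup, h, bot_sup_eq] at this

end Cfsg.Agent.S1326
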