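import Cfsg.Statements.S1328
import Cfsg.Agent.Sig.Pump

set_option autoImplicit false
open Cfsg

namespace Cfsg.Agent.S1328

open Subgroup Cfsg.Agent.BG Cfsg.Agent.Sig

/-- Let G be finite, H ≤ G with O(H) = 1, t an involution of G normalizing H, and Y a nontrivial subgroup of O(C_H(t)). Then some component E of H is normalized by t and by Y and centralized by neither t nor Y. -/
theorem result {G : Type*} [Group G] [Finite G] (H : Subgroup G) (hO : Cfsg.oddCore ↥H = ⊥) (t : G) (ht : orderOf t = 2) (htH : t ∈ Subgroup.normalizer (H : Set G)) (Y : Subgroup G) (hY1 : Y ≠ ⊥) (hY : Y ≤ (Cfsg.oddCore ↥(H ⊓ Subgroup.centralizer ({t} : Set G))).map (H ⊓ Subgroup.centralizer ({t} : Set G)).subtype) : ∃ E : Subgroup ↥H, Cfsg.IsComponent E ∧ (E.map H.subtype).map (MulAut.conj t).toMonoidHom = E.map H.subtype ∧ Y ≤ Subgroup.normalizer ((E.map H.subtype : Subgroup G) : Set G) ∧ ¬ (t ∈ Subgroup.centralizer ((E.map H.subtype : Subgroup G) : Set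 G)) ∧ ¬ (Y ≤ Subgroup.centralizer ((E.map H.subtype : Subgroup G) : Set G)) := by
  have := Fact.mk Nat.prime_two
  have hO' : Op' 2 H = ⊥ := by rw [Op'_eq, show pPrimeCore 2 H = ⊥ from hO, Subgroup.map_bot]
  have h2 : t ^ 2 = 1 := by rw [← ht, pow_orderOf_eq_one]
  rw [← Op'_eq] at hY
  obtain ⟨L, hL, hc⟩ : ∃ L, CompIn L H ∧ ¬ Y ≤ C[L] := by
    by_contra! h
    exact hY1 (eq_bot_of_cent_comps hO' (pgroupS hY (pcore_pgroup _ _)) (hY.trans ((pcore_sub _ _).trans inf_le_left))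
      (hY.trans (Op'_C1_le_cent_Op h2 htH)) h)
  have e : ⁅L, zpowers t⁆ = L := by_contra fun h => hc (hY.trans (Op'_C1_le_cent hO' hL h2 htH h))
  obtain ⟨E, rfl⟩ := lift_le hL.le
  refine ⟨E, compIn_map_subtype_iff.1 hL, mem_norm.1 (e ▸ commg_normr _ _ (mem_zpowers t)),
    hY.trans (Op'_C1_le_norm hO' hL h2 htH), fun h => hL.ne_bot ?_, hc⟩
  rw [← e, commG1', zpowers_le]; exact h

end Cfsg.Agent.S1328
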