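import Cfsg.Statements.S1329
import Cfsg.Agent.Sig.Odd2

set_option autoImplicit false
open Cfsg

namespace Cfsg.Agent.S1329

open Subgroup Cfsg.Agent.BG Cfsg.Agent.Sig

/-- Let A be an abelian 2-subgroup of the finite group G, B ≤ A, and Y a subgroup of odd order normalized by A with ⁅Y, A⁆ = Y. Then Y ∩ C_G(B) is generated by the subgroups Y ∩ C_G(B) ∩ ⁅Y ∩ C_G(B₀), A⁆, B₀ ranging over the subgroups of B with B / B₀ cyclic. -/
theorem result {G : Type*} [Group G] [Finite G] (A B Y : Subgroup G) (hA2 : IsPGroup 2 ↥A) (hAc : IsMulCommutative ↥A) (hB : B ≤ A) (hYodd : Odd (Nat.card ↥Y)) (hAY : A ≤ Subgroup.normalizer (Y : Set G)) (hYA : ⁅Y, A⁆ = Y) : Y ⊓ Subgroup.centralizer (B : Set G) = ⨆ B₀ : {B₀ : Subgroup G // B₀ ≤ B ∧ ∀ [(B₀.subgroupOf B).Normal], IsCyclic (↥B ⧸ B₀.subgroupOf B)}, Y ⊓ Subgroup.centralizer (B : Set G) ⊓ ⁅Y ⊓ Subgroup.centralizer ((B₀ : Subgroup G) : Set G), A⁆ := by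
  have := Fact.mk Nat.prime_two
  have hY := pnat_odd.2 hYodd
  have aB := abelianS hB hAc
  have k : ∀ D ≤ B, ∀ [(D.subgroupOf B).Normal], Nonempty (B ⧸ D.subgroupOf B ≃* B /ᵍ D) := fun D hD _ => by
    have := quotient_isog_mathlib (D.subgroupOf B)
    rwa [subgroupOf_map_subtype, inf_eq_left.2 hD] at this
  refine le_antisymm ((gold_gen hAc hB hAY (cop_of_pp hY hA2) (odd_sol hY) hYA).le.trans (iSup_le fun D =>
    le_iSup_of_le ⟨D.1, D.2.1, isog_cyclic (isog_symm (k D.1 D.2.1)) D.2.2⟩ le_rfl)) (iSup_le fun D => inf_le_left)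

end Cfsg.Agent.S1329
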