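import Cfsg.Statements.S1330
import Cfsg.Agent.Sig.ModCore

set_option autoImplicit false
open Cfsg

namespace Cfsg.Agent.S1330

open Subgroup Cfsg.Agent.BG Cfsg.Agent.Sig

/-- Let A₁, A₂ be core-separated four-subgroups of the finite group G and A = A₁A₂. For a ∈ G put O_a = O(C_G(a)) and θ a = ⋂_{i=1,2} ( ⁅O_a, A_i⁆ · (O_a ∩ O(C_G(A_i))) ). Then θ is an A-signalizer functor for the prime 2. -/
theorem result {G : Type*} [Group G] [Finite G] (A₁ A₂ : Subgroup G) (hcs : Cfsg.IsCoreSeparated A₁ A₂) : Cfsg.IsSignalizerFunctor 2 (A₁ ⊔ A₂) (fun a => (⁅Cfsg.centralizerPPrimeCore 2 a, A₁⁆ ⊔ (Cfsg.centralizerPPrimeCore 2 a ⊓ ((Cfsg.oddCore ↥(Subgroup.centralizer ((A₁ : Subgroup G) : Set G))).map (Subgroup.centralizer ((A₁ : Subgroup G) : Set G)).subtype))) ⊓ (⁅Cfsg.centralizerPPrimeCore 2 a, A₂⁆ ⊔ (Cfsg.centralizerPPrimeCore 2 a ⊓ ((Cfsg.oddCore ↥(Subgroup.centralizer ((A₂ : Subgroup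 G) : Set G))).map (Subgroup.centralizer ((A₂ : Subgroup G) : Set G)).subtype)))) := by
  have := Fact.mk Nat.prime_two
  obtain ⟨h1, h2, c1, c2, -, -, hc, hs⟩ := hcs
  have hA := abelemY h1 h2 (le_cent_iff.2 hc)
  simp only [cpc_eq, ← Op'_eq]
  have hs' : ∀ c ∈ A₁ ⊔ A₂, c ≠ 1 → ∀ E, PCompIn 2 E C1[c] → ⁅E, A₁⁆ ≤ Op' 2 C1[c] ∨ ⁅E, A₂⁆ ≤ Op' 2 C1[c] := fun c h h' E hE => by
    obtain ⟨E, rfl⟩ := lift_le hE.le
    simpa only [cpc_eq] using hs c h h' E (pCompIn_map_subtype_iff.1 hE)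
  refine ⟨fun a ha _ => inf_le_left.trans ((goldF_le hA le_sup_left ha).trans (pcore_sub _ _)), fun a ha _ =>
    (p'natE Nat.prime_two).1 (pgroupS (inf_le_left.trans (goldF_le hA le_sup_left ha)) (pcore_pgroup _ _)),
    fun a ha _ b hb x hx => conj_mem_of_norm (normsI (norms_goldF hA le_sup_left ha) (norms_goldF hA le_sup_right ha) hb) hx,
    fun a ha _ b hb b1 => gold_bal hA rfl (abelem_not_cyclic h1 c1.ge) (abelem_not_cyclic h2 c2.ge) hs' ha hb b1⟩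

end Cfsg.Agent.S1330
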