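import Cfsg.Statements.S1336
import Cfsg.Agent.Sig.Pump

set_option autoImplicit false
open Cfsg

namespace Cfsg.Agent.S1336

open Subgroup Cfsg.Agent.BG Cfsg.Agent.Sig

/-- Let G be finite and p prime. Then G has a proper subgroup H with p ∣ |H| and p ∤ |H ∩ gHg⁻¹| for every g ∉ H (a strongly p-embedded subgroup) if and only if G is not 1-connected for p. -/
theorem result {G : Type*} [Group G] [Finite G] (p : ℕ) [Fact p.Prime] : (∃ H : Subgroup G, H ≠ ⊤ ∧ p ∣ Nat.card ↥H ∧ ∀ g : G, g ∉ H → ¬ p ∣ Nat.card ↥(H ⊓ H.map (MulAut.conj g).toMonoidHom)) ↔ ¬ Cfsg.IsKConnected p 1 G := by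
  have hp : p.Prime := Fact.out
  have ne : ∀ E : Subgroup G, Abelem p E → (p ^ 1 ≤ #E ↔ E ≠ ⊥) := fun E hE =>
    ⟨fun h e => by rw [e, card_bot, pow_one] at h; exact hp.one_lt.not_ge h,
      fun h => by rw [pow_one]; exact Nat.le_of_dvd (cardG_pos _) (pgroup_pdiv hE.pg h)⟩
  set r := fun A B : Subgroup G => IsElementaryAbelian p A ∧ p ^ 1 ≤ Nat.card ↥A ∧ IsElementaryAbelian p B ∧
        p ^ 1 ≤ Nat.card ↥B ∧ ∀ a ∈ A, ∀ b ∈ B, a * b = b * a with hr
  constructor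
  · rintro ⟨H, h1, h2, h3⟩ h
    obtain ⟨E, hE, hc⟩ := Cauchy_sub hp h2
    obtain ⟨g, hg⟩ : ∃ g, g ∉ H := by by_contra! h; exact h1 (eq_top_iff.2 fun g _ => h g)
    have hE' := prime_abelem hp hc
    have k : ∀ F, Relation.ReflTransGen r E F → F ≤ H := fun F hF => by
      induction hF with
      | refl => exact hE
      | @tail A B _ h ih =>
        intro b hb
        by_contra hb'
        refine h3 b hb' ((pgroup_pdiv h.1.pg ((ne A h.1).1 h.2.1)).trans (cardSg (le_inf ih ?_)))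
        rw [← cj_of_cent (mem_cent.2 fun a ha => h.2.2.2.2 a ha b hb : b ∈ C[A])]
        exact cj_mono b ih
    refine h3 g hg (hc ▸ card_cj g E ▸ cardSg (le_inf (k _ (h E _ hE' (by simp [hc]) (abelemJ g hE') ?_)) (cj_mono g hE)))
    simp [card_cj, hc]
  intro h
  obtain ⟨E, E', h1, h2, h3, h4, h5⟩ : ∃ E E' : Subgroup G, Abelem p E ∧ p ^ 1 ≤ #E ∧ Abelem p E' ∧ p ^ 1 ≤ #E' ∧
      ¬ Relation.ReflTransGen r E E' := by
    by_contra! h'
    exact h h'
  have sy : ∀ {A B}, Relation.ReflTransGen r A B → Relation.ReflTransGen r B A := fun h => by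
    induction h with
    | refl => rfl
    | tail _ h ih => exact .head ⟨h.2.2.1, h.2.2.2.1, h.1, h.2.1, fun a ha b hb => (h.2.2.2.2 b hb a ha).symm⟩ ih
  have cj' : ∀ g {A B}, Relation.ReflTransGen r A B → Relation.ReflTransGen r (cj g A) (cj g B) := fun g A B h =>
    h.lift (cj g) fun A B h => ⟨abelemJ g h.1, (card_cj g A).symm ▸ h.2.1, abelemJ g h.2.2.1, (card_cj g B).symm ▸ h.2.2.2.1,
      le_cent_iff.1 (by rw [C_cj, cj_le_cj]; exact le_cent_iff.2 h.2.2.2.2)⟩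
  let H : Subgroup G :=
    { carrier := {g | Relation.ReflTransGen r E (cj g E)}
      one_mem' := by show Relation.ReflTransGen r E (cj 1 E); rw [cj_one]
      mul_mem' := fun {a b} ha hb => Relation.ReflTransGen.trans ha (cj_mul a b E ▸ cj' a hb)
      inv_mem' := fun {a} ha => sy (by simpa only [cj_inv_cj] using cj' a⁻¹ ha) }
  obtain ⟨P, hP, hEP⟩ := Sylow_superset (le_top : E ≤ ⊤) h1.pg
  obtain ⟨z, hz, hzc, z1, zp⟩ := exists_center_p hP.pg (normal_refl P) fun e => (ne E h1).1 h2 (le_bot_iff.1 (e ▸ hEP))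
  have k0 : ∀ F ≤ P, Abelem p F → p ^ 1 ≤ #F → r F (zpowers z) := fun F h hF h' => ⟨hF, h', cycle_abelem zp,
    (ne _ (cycle_abelem zp)).2 (zpowers_ne_bot.2 z1), le_cent_iff.1 (centsS (zpowers_le.2 hzc) (h.trans (by
      exact cents_symm le_rfl)))⟩
  have k1 : ∀ F ≤ P, Abelem p F → p ^ 1 ≤ #F → Relation.ReflTransGen r E F := fun F h hF h' =>
    (Relation.ReflTransGen.single (k0 E hEP h1 h2)).trans (sy (.single (k0 F h hF h')))
  have hPH : P ≤ H := fun g hg => k1 _ (cj_le_of_mem hg hEP) (abelemJ g h1) ((card_cj g E).symm ▸ h2)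
  have k2 : ∀ F ≤ H, Abelem p F → p ^ 1 ≤ #F → Relation.ReflTransGen r E F := fun F h hF h' => by
    obtain ⟨g, hg, h3⟩ := Sylow_Jsub (pHall_subl hPH le_top hP) h hF.pg
    have := cj' g⁻¹ ((sy hg).trans (k1 _ h3 (abelemJ g hF) ((card_cj g F).symm ▸ h')))
    rwa [cj_inv_cj, cj_inv_cj] at this
  refine ⟨H, fun e => h5 (k2 E' (e ▸ le_top) h3 h4), (pgroup_pdiv h1.pg ((ne E h1).1 h2)).trans (cardSg (hEP.trans hPH)),
    fun g hg hd => hg ?_⟩
  obtain ⟨F, hF, hc⟩ := Cauchy_sub hp hd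
  have hF' := prime_abelem hp hc
  have := cj' g (k2 (cj g⁻¹ F) (le_cj_iff.1 (hF.trans inf_le_right)) (abelemJ _ hF') (by simp [card_cj, hc]))
  rw [cj_cj_inv] at this
  exact (k2 F (hF.trans inf_le_left) hF' (by simp [hc])).trans (sy this)

end Cfsg.Agent.S1336
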