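import Cfsg.Statements.S1337
import Cfsg.Agent.Sig.Pump
import Cfsg.Agent.PGrp.Cyclic
import Cfsg.Agent.BG.S4

set_option autoImplicit false
open Cfsg

namespace Cfsg.Agent.S1337

open Subgroup Cfsg.Agent.BG Cfsg.Agent.Sig

theorem exists_normal_p2 {P : Type*} [Group P] [Finite P] {p : ℕ} [hp : Fact p.Prime] (hP : IsPGroup p P)
    (hrk : 2 < BG.pRank p (⊤ : Subgroup P)) : ∃ U, pnElem p 2 (⊤ : Subgroup P) U ∧ U ⊴ ⊤ := by
  have hT : IsPGroup p (⊤ : Subgroup P) := hP.to_subgroup _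
  obtain ⟨A, hA⟩ := SCN_exists (pgroup_nil hT)
  by_cases hc : IsCyclic A
  swap
  · have h2 : 2 ≤ BG.pRank p A := by
      by_contra! h
      exact hc ((pgroup_rank1_cyclic (hT.sub le_top) (.inr (SCN_abelian hA))).1 (by omega))
    obtain ⟨U, h1, h3, h4⟩ := normal_pgroup hT (hA.normal.Ohm p) (k := 2)
      (by rw [p_rank_abelian hp.out (SCN_abelian hA)]; exact pow_dvd_pow _ h2)
    exact ⟨U, ⟨le_top, abelemS h1 (Ohm1_abelem p (SCN_abelian hA)), h4⟩, h3⟩
  by_cases h2 : p = 2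
  swap
  · exact ex_odd_normal_p2Elem hT (by
      obtain ⟨k, hk⟩ := (p_natP hp.out).1 hT.pi
      rw [hk]; exact (hp.out.odd_of_ne_two h2).pow) fun h => by have := p_rank_cyclic p h; omega
  subst h2
  obtain ⟨a, rfl⟩ := cyclicP.1 hc
  have := hA.normal.normal
  obtain ⟨n, ha⟩ := hP.exists_orderOf_eq_pow a
  have hC : C[zpowers a] = zpowers a := by simpa using hA.eq
  have r1 := p_rank_cyclic 2 hc
  have hne : zpowers a ≠ ⊤ := fun e => by rw [e] at r1; omega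
  obtain ⟨hn, ⟨-, hi, -⟩ | ⟨h3, x, hx, x2, k, hk, m, hm⟩⟩ := PGrp.selfCentralizing_cyclic_cases hP ha hC hne
  · have := p_rank_index_le (p := 2) (k := 1) (le_top : zpowers a ≤ ⊤) (by rw [relIndex_top_right, hi, pow_one])
    omega
  have hZ : #(omegaOne 2 (zpowers a)) = 2 := Ohm1_cyclic_prime hp.out hc (by
    rw [Nat.card_zpowers, ha]; exact dvd_pow_self _ (by omega))
  have nZ := hA.normal.Ohm 2
  have cZ : omegaOne 2 (zpowers a) ≤ C[⊤] := (prime_meet (hZ.symm ▸ hp.out) (meet_center_nil (pgroup_nil hT) nZ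
    (ne_bot_of_prime (hZ.symm ▸ hp.out)))).trans inf_le_right
  have x1 : orderOf x = 2 := orderOf_eq_prime x2 fun e => hx (e ▸ one_mem _)
  refine ⟨omegaOne 2 (zpowers a) ⊔ zpowers x, p1Elem_join2 hp.out ((pnElem1 hp.out).2 ⟨le_top, hZ⟩)
    (p1Elem_zpowers hp.out trivial x1) (fun e => hx (Ohm_sub _ _ (e ▸ mem_zpowers x))) (centsS le_top cZ),
    le_top, le_norm_of_cj_le fun g _ => ?_⟩
  rw [cj_sup, nZ.cj_eq trivial, cj_zpowers]
  refine sup_le le_sup_left (zpowers_le.2 ?_)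
  obtain ⟨i, hi⟩ : g * x * g⁻¹ * x⁻¹ ∈ zpowers a :=
    hC ▸ der1_cent_cyclic hc hA.norm (commutator_mem_commutator (mem_top g) (mem_top x))
  have e : g * x * g⁻¹ = a ^ i * x := by simp only [hi]; group
  have h4 := PGrp.zpow_mul_sq hk i
  rw [← e, conj_pow, x2, mul_one, mul_one, mul_inv_cancel, eq_comm, ← orderOf_dvd_iff_zpow_eq_one, ha] at h4
  rw [e]
  refine mul_mem_sup (mem_Ohm1 ⟨i, rfl⟩ ?_) (mem_zpowers x)
  rw [← zpow_natCast, ← zpow_mul, ← orderOf_dvd_iff_zpow_eq_one, ha]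
  obtain ⟨n, rfl⟩ := Nat.exists_eq_add_of_le' (h3 rfl)
  have e2 : i * (1 + k) = i * (2 : ℕ) * (1 + 2 * (2 ^ n * m)) := by
    rw [eq_add_of_sub_eq hm]; simp only [Nat.add_succ_sub_one]; push_cast; ring
  rw [e2] at h4
  refine IsCoprime.dvd_of_dvd_mul_right ?_ h4
  push_cast
  exact (IsCoprime.add_mul_left_right isCoprime_one_right _).pow_left

/-- Let P be a finite p-group of p-rank greater than 2. Then P has a normal elementary abelian subgroup U of order p², and for every elementary abelian X ≤ P with |X| ≥ p²: X is joined to U by a chain of pairwise commuting elementary abelian subgroups of order ≥ p² if and only if C_P(X) has p-rank greater than 2. -/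
theorem result {P : Type*} [Group P] [Finite P] (p : ℕ) [Fact p.Prime] (hP : IsPGroup p P) (hrk : ¬ Cfsg.PRankLE p 2 P) : ∃ U : Subgroup P, U.Normal ∧ Cfsg.IsElementaryAbelian p U ∧ Nat.card ↥U = p ^ 2 ∧ ∀ X : Subgroup P, Cfsg.IsElementaryAbelian p X → p ^ 2 ≤ Nat.card ↥X → (Relation.ReflTransGen (fun A B : Subgroup P => Cfsg.IsElementaryAbelian p A ∧ p ^ 2 ≤ Nat.card ↥A ∧ Cfsg.IsElementaryAbelian p B ∧ p ^ 2 ≤ Nat.card ↥B ∧ ∀ a ∈ A, ∀ b ∈ B, a * b = b * a) X U ↔ ¬ Cfsg.PRankLE p 2 ↥(Subgroup.centralizer (X : Set P))) := by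
  have hp : p.Prime := Fact.out
  rw [pRankLE_top hp, not_le] at hrk
  obtain ⟨U, hU, nU⟩ := exists_normal_p2 hP hrk
  have hT : IsPGroup p (⊤ : Subgroup P) := hP.to_subgroup _
  have k : ∀ E, pnElem p 3 (⊤ : Subgroup P) E → p ^ 2 ≤ #(E ⊓ C[U] : Subgroup P) := fun E hE => by
    have h1 := logn_quotient_cent_abelem hU.abelem hU.card.dvd (le_top.trans nU.2 : E ≤ _)
    have h2 := card_inf_mul_relIndex C[U] E
    rw [hE.card, inf_comm] at h2
    obtain ⟨i, hi, e⟩ := (Nat.dvd_prime_pow hp).1 (Dvd.intro _ h2)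
    obtain ⟨j, hj, e'⟩ := (Nat.dvd_prime_pow hp).1 (Dvd.intro_left _ h2)
    rw [e, e', ← pow_add, Nat.pow_right_inj hp.one_lt] at h2
    rw [e', Nat.pow_dvd_pow_iff_le_right hp.one_lt] at h1
    exact e ▸ Nat.pow_le_pow_right hp.pos (by omega)
  have k2 : ∀ X Y : Subgroup P, Abelem p X → p ^ 2 ≤ #X → Abelem p Y → Y ≤ C[X] → BG.pRank p C[X] ≤ 2 → Y ≤ X :=
    fun X Y hX h1 hY hc h => le_sup_right.trans (eq_of_card_le le_sup_left
      ((abelem_card_le hp (abelemY hX hY (cents_symm hc)) (sup_le hX.cent hc)).trans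
        ((Nat.pow_le_pow_right hp.pos h).trans h1))).ge
  refine ⟨U, nU.normal, hU.abelem, hU.card, fun X hX h1 => ?_⟩
  rw [pRankLE_iff hp, not_le]
  refine ⟨fun h => lt_of_not_ge fun h' => ?_, fun h => ?_⟩
  · have e : ∀ V, Relation.ReflTransGen (fun A B : Subgroup P => IsElementaryAbelian p A ∧ p ^ 2 ≤ #A ∧ IsElementaryAbelian p B ∧
        p ^ 2 ≤ #B ∧ ∀ a ∈ A, ∀ b ∈ B, a * b = b * a) X V → V = X := fun V h => by
      induction h with
      | refl => rfl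
      | @tail A B _ hh ih =>
        subst ih
        have h2 := k2 A B hX h1 hh.2.2.1 (cents_symm (le_cent_iff.2 hh.2.2.2.2)) h'
        refine eq_of_card_le h2 (((abelem_card_le hp hX hX.cent).trans (Nat.pow_le_pow_right hp.pos h')).trans hh.2.2.2.1)
    obtain rfl := e U h
    obtain ⟨E, hE⟩ := (p_rank_geP hp).1 (Nat.succ_le_of_lt hrk)
    have h2 := k2 U _ hX h1 (abelemS (inf_le_left : E ⊓ C[U] ≤ E) hE.abelem) inf_le_right h'
    have h3 : U ≤ E := (eq_of_card_le h2 (hU.card.le.trans (k E hE))).ge.trans inf_le_left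
    have := logn_le_p_rank hp (hE.of_le (centsS h3 hE.cent))
    omega
  · obtain ⟨E, hE⟩ := (p_rank_geP hp).1 (Nat.succ_le_of_lt h)
    have h2 := k E (hE.mono le_top)
    have h3 := abelemS (inf_le_left : E ⊓ C[U] ≤ E) hE.abelem
    exact .head ⟨hX, h1, h3, h2, le_cent_iff.1 (cents_symm (inf_le_left.trans hE.le))⟩
      (.single ⟨h3, h2, hU.abelem, hU.card.ge, le_cent_iff.1 inf_le_right⟩)

end Cfsg.Agent.S1337
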