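import Cfsg.Statements.S1338
import Cfsg.Agent.S0122
import Cfsg.Agent.S1337

set_option autoImplicit false
open Cfsg

namespace Cfsg.Agent.S1338

/-- A finite 3-group of 3-rank at least 4 is 2-connected for the prime 3: its commuting graph on elementary abelian subgroups of order ≥ 9 is connected. -/
theorem result {P : Type*} [Group P] [Finite P] (hP : IsPGroup 3 P) (hrk : ¬ Cfsg.PRankLE 3 3 P) : Cfsg.IsKConnected 3 2 P := by
  open Subgroup PGrp in
  open scoped commutatorElement in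
  haveI : Fact (Nat.Prime 3) := ⟨Nat.prime_three⟩
  obtain ⟨N, hN, hNe, hN4⟩ : ∃ A : Subgroup P, A.Normal ∧ IsElementaryAbelian 3 A ∧
      Nat.card A = 3 ^ 4 := by
    simp only [PRankLE, not_forall, not_le] at hrk
    obtain ⟨A, hA, hAe, hlt⟩ := hrk
    obtain ⟨k, hk⟩ := (hP.to_subgroup A).exists_card_eq
    rw [hk, Nat.pow_lt_pow_iff_right (by norm_num)] at hlt
    obtain ⟨E, hE⟩ := Sylow.exists_subgroup_card_pow_prime (G := A) 3 (n := 4)
      (hk ▸ pow_dvd_pow 3 hlt)
    refine S0122.result (by norm_num) hP (E.map A.subtype) ⟨inferInstance, ?_⟩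
      ((card_map_of_injective A.subtype_injective).trans hE)
    rintro _ ⟨x, -, rfl⟩
    exact hAe x x.2
  have cN : ∀ x ∈ N, ∀ y ∈ N, Commute x y := fun x hx y hy =>
    congrArg Subtype.val (hNe.1.1.1 ⟨x, hx⟩ ⟨y, hy⟩)
  obtain ⟨U, -, -, -, hU⟩ := S1337.result 3 hP fun h => hrk fun A h1 h2 =>
    (h A h1 h2).trans (by norm_num)
  have big : ∀ X B : Subgroup P, B ≤ centralizer (X : Set P) → IsElementaryAbelian 3 B →
      3 ^ 2 < Nat.card B → ¬ PRankLE 3 2 (centralizer (X : Set P)) := fun X B hB hBe hc h => by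
    haveI := hBe.1
    have := h (B.subgroupOf _) inferInstance fun a ha => Subtype.ext (hBe.2 a ha)
    rw [Nat.card_congr (subgroupOfEquivOfLe hB).toEquiv] at this
    omega
  have key : ∀ X : Subgroup P, IsElementaryAbelian 3 X → 3 ^ 2 ≤ Nat.card X →
      ¬ PRankLE 3 2 (centralizer (X : Set P)) := fun X hX hc => by
    haveI := hX.1
    have cX : ∀ x ∈ X, ∀ y ∈ X, Commute x y := fun x hx y hy =>
      congrArg Subtype.val (hX.1.1.1 ⟨x, hx⟩ ⟨y, hy⟩)
    have ext : ∀ w ∈ N, w ∈ centralizer (X : Set P) → w ∉ X →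
        ¬ PRankLE 3 2 (centralizer (X : Set P)) := fun w hw hwC hwX => by
      have hn : w ∈ normalizer (X : Set P) := centralizer_le_normalizer _ hwC
      refine big X (X ⊔ zpowers w) (sup_le (le_centralizer X) (zpowers_le.2 hwC))
        ⟨isMulCommutative_sup_zpowers hwC, fun y hy => ?_⟩ ?_
      · obtain ⟨h, hh, i, rfl⟩ := (mem_sup_zpowers hn).1 hy
        rw [(Commute.zpow_right (hwC h hh) i).mul_pow, hX.2 h hh, hNe.2 _ (zpow_mem hw i), one_mul]
      · rw [card_sup_zpowers Nat.prime_three hn hwX (by rw [hNe.2 w hw]; exact one_mem _)]; omega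
    rcases hc.eq_or_lt with hc | hc
    swap
    · exact big X X (le_centralizer X) hX hc
    haveI := hP.isNilpotent
    obtain ⟨z, hzN, hz1, hz⟩ := exists_central_mod (M := ⊥) (N := N) fun h => by
      have := card_le_of_le h; rw [hN4, card_bot] at this; omega
    have cz : ∀ g, Commute z g := fun g => commutatorElement_eq_one_iff_commute.1 (mem_bot.1 (hz g))
    by_cases hzX : z ∈ X
    swap
    · exact ext z hzN (fun g _ => (cz g).symm) hzX
    have hz3 := card_zpowers_of_pow_eq_one (p := 3) (hNe.2 z hzN) (by simpa using hz1)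
    obtain ⟨x, hx, hxz⟩ : ∃ x ∈ X, x ∉ zpowers z := SetLike.not_le_iff_exists.1 fun h => by
      have := card_le_of_le h; omega
    have hxn : x ∈ normalizer (zpowers z : Set P) := centralizer_le_normalizer _ (by
      rintro _ ⟨i, rfl⟩; exact ((cz x).zpow_left i).eq)
    have hXe : zpowers z ⊔ zpowers x = X := eq_of_le_of_card_ge
      (sup_le (zpowers_le.2 hzX) (zpowers_le.2 hx)) (by
        rw [card_sup_zpowers Nat.prime_three hxn hxz (by rw [hX.2 x hx]; exact one_mem _)]; omega)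
    have hC : ∀ w ∈ N, Commute x w → w ∈ centralizer (X : Set P) := fun w _ h y hy => by
      obtain ⟨_, ⟨j, rfl⟩, i, rfl⟩ := (mem_sup_zpowers hxn).1 (hXe.ge hy)
      exact (((cz w).zpow_left j).mul_left (h.zpow_left i)).eq
    have hm : ∀ w ∈ N, ⁅x, w⁆ ∈ N := fun w hw => commutator_mem_of_normal_right hw x
    have step : ∀ R : Subgroup P, R ≤ N → ∃ R' : Subgroup P, (∀ w, w ∈ R' ↔ ∃ y ∈ R, ⁅x, y⁆ = w) ∧
        Nat.card R ≤ Nat.card ↥(N ⊓ centralizer (X : Set P)) * Nat.card R' := fun R hR => by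
      obtain ⟨R', h1, h2⟩ := S0122.card_le (E := R) (K := centralizer (X : Set P)) (fun w => ⁅x, w⁆)
        (fun a ha b hb => commutator_mul_right (cN _ (hm b (hR hb)) a (hR ha)))
        fun w hw h => hC w (hR hw) (commutatorElement_eq_one_iff_commute.1 h)
      exact ⟨R', h1, h2.trans (Nat.mul_le_mul_right _ (card_le_of_le (inf_le_inf_right _ hR)))⟩
    obtain ⟨R1, a1, b1⟩ := step N le_rfl
    have c1 : R1 ≤ N := fun w hw => by obtain ⟨y, hy, rfl⟩ := (a1 w).1 hw; exact hm y hy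
    obtain ⟨R2, a2, b2⟩ := step R1 c1
    have c2 : R2 ≤ N ⊓ centralizer (X : Set P) := fun w hw => by
      obtain ⟨_, hy, rfl⟩ := (a2 w).1 hw
      obtain ⟨y, hyN, rfl⟩ := (a1 _).1 hy
      refine ⟨hm _ (hm y hyN), hC _ (hm _ (hm y hyN)) ?_⟩
      have h1 : x * y * x⁻¹ ∈ N := hN.conj_mem y hyN x
      have h2 : x * (x * y * x⁻¹) * x⁻¹ ∈ N := hN.conj_mem _ h1 x
      have h3 : x * (x * (x * y * x⁻¹) * x⁻¹) * x⁻¹ = y := by
        calc _ = (x * x * x) * y * (x * x * x)⁻¹ := by group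
          _ = y := by rw [← pow_three', hX.2 x hx]; simp
      have e : ⁅x, ⁅x, y⁆⁆ = (x * (x * y * x⁻¹) * x⁻¹) * (x * y * x⁻¹)⁻¹ * y * (x * y * x⁻¹)⁻¹ := by
        simp only [commutatorElement_def]; group
      rw [e, Commute, SemiconjBy, ← mul_inv_eq_iff_eq_mul]
      have e2 : ∀ a b c d : P, x * (a * b⁻¹ * c * d⁻¹) * x⁻¹ =
        (x * a * x⁻¹) * (x * b * x⁻¹)⁻¹ * (x * c * x⁻¹) * (x * d * x⁻¹)⁻¹ := fun _ _ _ _ => by group
      rw [e2, h3]
      have t1 := hNe.2 _ h1
      have t2 := hNe.2 _ h2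
      have u1 := cN _ h1 _ h2
      have u2 := cN _ h1 _ hyN
      have u3 := cN _ h2 _ hyN
      generalize x * (x * y * x⁻¹) * x⁻¹ = v at *
      generalize x * y * x⁻¹ = u at *
      have v1 : v⁻¹ = v * v := by rw [inv_eq_iff_mul_eq_one, ← t2, pow_three', mul_assoc]
      have v2 : u⁻¹ = u * u := by rw [inv_eq_iff_mul_eq_one, ← t1, pow_three', mul_assoc]
      calc y * v⁻¹ * u * v⁻¹ = y * u * (v⁻¹ * v⁻¹) := by
            rw [mul_assoc y, ← (u1.inv_right).eq]; group
        _ = y * u * v := by rw [← mul_inv_rev, ← v1, inv_inv]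
        _ = v * (u⁻¹ * u⁻¹) * y := by
            rw [← mul_inv_rev, ← v2, inv_inv, ← u1.eq, mul_assoc y, (u2.mul_left u3).eq]
        _ = _ := by rw [mul_assoc (v * u⁻¹), ← (u2.inv_left).eq]; group
    have h9 : 3 ^ 2 ≤ Nat.card ↥(N ⊓ centralizer (X : Set P)) := by
      obtain ⟨k, hk⟩ := (hP.to_subgroup (N ⊓ centralizer (X : Set P))).exists_card_eq
      have := b1.trans (Nat.mul_le_mul_left _ (b2.trans (Nat.mul_le_mul_left _ (card_le_of_le c2))))
      rw [hN4, hk, ← pow_add, ← pow_add, Nat.pow_le_pow_iff_right (by norm_num)] at this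
      rw [hk]; exact Nat.pow_le_pow_right (by norm_num) (by omega)
    by_cases hle : N ⊓ centralizer (X : Set P) ≤ X
    · have := eq_of_le_of_card_ge hle (hc ▸ h9)
      exact big X N (fun w hw y hy => cN y (this.ge hy).1 w hw) hNe (by omega)
    · obtain ⟨w, hw, hwX⟩ := SetLike.not_le_iff_exists.1 hle
      exact ext w hw.1 hw.2 hwX
  intro E E' h1 h2 h3 h4
  refine ((hU E h1 h2).2 (key E h1 h2)).trans
    (Relation.ReflTransGen.mono ?_ _ _
      (Relation.reflTransGen_swap.2 ((hU E' h3 h4).2 (key E' h3 h4))))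
  exact fun A B ⟨a, b, c, d, e⟩ => ⟨c, d, a, b, fun x hx y hy => (e y hy x hx).symm⟩

end Cfsg.Agent.S1338
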