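import Cfsg.Statements.S1343
import Cfsg.Agent.Sig.Lbal

set_option autoImplicit false
open Cfsg

namespace Cfsg.Agent.S1343

open Subgroup Cfsg.Agent.BG Cfsg.Agent.Sig

/-- Let X be finite. Then L*_{2'}(X) = L_{2'}(X) ⊔ F for some subgroup F of odd order normalized by a Sylow 2-subgroup of X. -/
theorem result {X : Type*} [Group X] [Finite X] : ∃ F : Subgroup X, Odd (Nat.card ↥F) ∧ (∃ S : Sylow 2 X, (S : Subgroup X) ≤ Subgroup.normalizer (F : Set X)) ∧ Cfsg.extendedTwoLayer X = Cfsg.pLayer 2 X ⊔ F := by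
  obtain ⟨S⟩ : Nonempty (Sylow 2 X) := inferInstance
  have hT := Sylow_setI_normal (FO_normal (⊤ : Subgroup X)) (sylowIn_top S)
  have n : (S : Subgroup X) ≤ N[Op' 2 (⊤ ⊓ C[FO ⊤ ⊓ (S : Subgroup X)])] := norms_pcore _
    (normsI (le_top.trans norm_top.ge) (norms_cent (normsI (le_top.trans (FO_normal ⊤).2) (normG _))))
  have nO := pcore_normal {2}ᶜ (⊤ : Subgroup X)
  refine ⟨Op' 2 ⊤ ⊔ Op' 2 (⊤ ⊓ C[FO ⊤ ⊓ (S : Subgroup X)]), pnat_odd.1 (pgroupY (.inr (le_top.trans nO.2))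
    (pcore_pgroup _ _) (pcore_pgroup _ _)), ⟨S, normsY (le_top.trans nO.2) n⟩, ?_⟩
  rw [← xs_top, xs_eq hT, xeIn_eq, pLayerIn_top, sup_assoc]

end Cfsg.Agent.S1343
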