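import Cfsg.Statements.S1344
import Cfsg.Agent.Sig.Lbal

set_option autoImplicit false
open Cfsg

namespace Cfsg.Agent.S1344

open Subgroup Cfsg.Agent.BG Cfsg.Agent.Sig

/-- Let K be a 2-component of the finite group X. Then K ≤ L*_{2'}(X) and K is normal in L*_{2'}(X). -/
theorem result {X : Type*} [Group X] [Finite X] (K : Subgroup X) (hK : Cfsg.IsPComponent 2 K) : K ≤ Cfsg.extendedTwoLayer X ∧ (K.subgroupOf (Cfsg.extendedTwoLayer X)).Normal := by
  rw [isPComponent_iff] at hK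
  rw [← xs_top]
  have l : K ≤ xs ⊤ := hK.le_pLayerIn.trans (le_sup_left.trans xeIn_le_xs)
  refine ⟨l, NormalIn.subgroupOf ⟨l, ?_⟩⟩
  obtain ⟨T, hT⟩ := Sylow_exists 2 (FO (⊤ : Subgroup X))
  have h1 := Sylow_setI_normal (K := K) ⟨hK.le_pLayerIn, hK.pLayerIn_le_normalizer⟩
    (Sylow_setI_normal (K := pLayerIn 2 ⊤) ⟨le_sup_left, le_top.trans (le_normalizer_pLayerIn le_normalizer)⟩ hT)
  rw [xs_eq hT]
  refine sup_le hK.xeIn_le_normalizer fun w hw => mem_norm_of_cj_le (cj_le_iff.2 ?_)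
  have h2 : SubnIn (cj w⁻¹ K) ⊤ := by
    have := hK.subnIn.map (MulAut.conj w⁻¹).toMonoidHom
    rwa [← cj_def, ← cj_def, cj_top] at this
  refine inf_eq_right.1 (hK.pqs.eq_of_sylIn_le (h2.inf_of_le K le_top) (sylIn_iff.2 h1) (le_inf ?_ inf_le_left))
  rw [← cj_of_cent (inv_mem (centS (inf_le_right.trans inf_le_right) (pcore_sub _ _ hw).2))]
  exact cj_mono _ inf_le_left

end Cfsg.Agent.S1344
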