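import Cfsg.Statements.S1346
import Cfsg.Agent.Sig.Lbal

set_option autoImplicit false
open Cfsg

namespace Cfsg.Agent.S1346

open Subgroup Cfsg.Agent.BG Cfsg.Agent.Sig

/-- Let G be a finite group all of whose 2-local subgroups have known non-abelian composition factors, and x, y commuting involutions. Then the extended 2-layer of L*_{2'}(C_G(x)) ∩ C_G(y) (as a group) is contained in L*_{2'}(C_G(y)). -/
theorem result {G : Type*} [Group G] [Finite G] (hK : ∀ T : Subgroup G, IsPGroup 2 ↥T → T ≠ ⊥ → Cfsg.IsCompositionKGroup ↥(Subgroup.normalizer (T : Set G))) (x y : G) (hx : orderOf x = 2) (hy : orderOf y = 2) (hxy : x * y = y * x) : (Cfsg.extendedTwoLayer ↥((Cfsg.extendedTwoLayer ↥(Subgroup.centralizer ({x} : Set G))).map (Subgroup.centralizer ({x} : Set G)).subtype ⊓ Subgroup.centralizer ({y} : Set G))).map ((Cfsg.extendedTwoLayer ↥(Subgroup.centralizer ({x} : Set G))).map (Subgroup.centralizer ({x} : Set G)).subtype ⊓ Subgroup.centralizer ({y} : Set G)).subtype ≤ (Cfsg.extendedTwoLayer ↥(Subgroup.centralizer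 ({y} : Set G))).map (Subgroup.centralizer ({y} : Set G)).subtype := by
  rw [xs_map_subtype, xs_map_subtype, xs_map_subtype]
  have hc : x ∈ C1[y] := mem_cent1.2 hxy
  refine xs_le_of_normal (pgroup_zpowers hx) (normsG (zpowers_le.2 hc)) ?_
  rw [C_zpowers]
  exact ⟨le_inf inf_le_right (inf_le_left.trans xs_le),
    normsI (inf_le_right.trans (xs_normal _).2) (normsG inf_le_left)⟩

end Cfsg.Agent.S1346
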