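import Cfsg.Statements.S1347
import Cfsg.Agent.Sig.Pump

set_option autoImplicit false
open Cfsg

namespace Cfsg.Agent.S1347

open Subgroup Cfsg.Agent.BG Cfsg.Agent.Sig

/-- Let A be a standard subgroup of the finite group G with O(G) = 1, and t an involution of C_G(A). Then (i) A is normal in G; or (ii) there is a non-abelian simple subgroup X ≅ A with X and tXt⁻¹ commuting, meeting trivially and generating E(G), and C_G(A) = ⟨t⟩; or (iii) A ≤ E(G) and E(G) is non-abelian simple. -/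
theorem result {G : Type*} [Group G] [Finite G] (A : Subgroup G) (hA : Cfsg.IsStandardSubgroup A) (hO : Cfsg.oddCore G = ⊥) (t : G) (ht : orderOf t = 2) (htA : t ∈ Subgroup.centralizer (A : Set G)) : A.Normal ∨ (∃ X : Subgroup G, IsSimpleGroup ↥X ∧ ¬ IsMulCommutative ↥X ∧ Nonempty (↥X ≃* ↥A) ∧ (∀ a ∈ X, ∀ b ∈ X.map (MulAut.conj t).toMonoidHom, a * b = b * a) ∧ X ⊓ X.map (MulAut.conj t).toMonoidHom = ⊥ ∧ X ⊔ X.map (MulAut.conj t).toMonoidHom = Cfsg.layer G ∧ Subgroup.centralizer (A : Set G) = Subgroup.zpowers t) ∨ (A ≤ Cfsg.layer G ∧ IsSimpleGroup ↥(Cfsg.layer G) ∧ ¬ IsMulCommutative ↥(Cfsg.layer G)) := by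
  have := Fact.mk Nat.prime_two
  obtain ⟨hq, ⟨-, hte⟩, hnc, hN⟩ := hA
  have k : ∀ s, orderOf s = 2 → s ∈ C[A] → C1[s] ≤ N[A] := fun s hs h g hg => by
    by_contra hg'
    have := hte g (hN ▸ hg')
    rw [← Nat.not_even_iff_odd, even_iff_two_dvd, ← hs] at this
    refine this (orderOf_dvd_cardG ⟨h, ?_⟩)
    have := conj_mem_cj g h
    rwa [mem_cent1.1 hg, mul_inv_cancel_right] at this
  have t2 := mul_self_of_two ht
  have hO' : Op' 2 (⊤ : Subgroup G) = ⊥ := (Op'_top 2).trans hO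
  have hAt : A ≤ C1[t] := le_cent1_iff.2 htA
  have h1 : CompIn A (⊤ ⊓ C1[t]) := by rw [top_inf_eq]; exact ⟨.of_normal hAt (k t ht htA), hq⟩
  have hn : ∀ g : G, g ∈ N[(⊤ : Subgroup G)] := fun g => normG _ trivial
  have hE : A ≤ layerIn ⊤ := (h1.le_pLayerIn2' t2 (hn t)).trans (pLayerIn_eq_layerIn ((Op'_eq 2 _).symm.trans hO')).le
  have odd : ∀ D X, CompIn D ⊤ → A ≠ D → ¬ D ≤ A → ¬ D ≤ C[A] → D ≤ X → A ≤ X → PiGrp {2}ᶜ C[X] := fun D X hD h0 h2 h3 h4 h5 => by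
    refine (p'natE Nat.prime_two).2 fun h => ?_
    obtain ⟨s, hs, h6⟩ := Cauchy Nat.prime_two h
    exact (hD.le_or_commutator_of_le_normalizer le_top
      ((le_cent1_iff.2 (centS h4 hs)).trans (k s h6 (centS h5 hs)))).elim h2 fun h => h3 (commG1.1 h)
  have simple : ∀ D, CompIn D ⊤ → PiGrp {2}ᶜ C[layerIn (⊤ : Subgroup G)] → Z[D] = ⊥ ∧ IsSimpleGroup D := fun D hD h => by
    have : Z[D] = ⊥ := trivg_of_pi (pgroupS (hD.center_le_Op hO') (pcore_pgroup _ _)) (pgroupS hD.center_le_centralizer_layerIn h)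
    refine ⟨this, qs_simple_of_center_eq_bot hD.qs ?_⟩
    rwa [← map_subtype_center, Subgroup.map_eq_bot_iff_of_injective _ (subtype_injective _)] at this
  obtain ⟨D, hD, h⟩ := pumpup t2 (hn t) h1 hE
  rcases h with rfl | h | ⟨e, -, π, p1, p2, p3⟩
  · refine .inl ⟨fun a ha g => ?_⟩
    have : cj g A = A := by_contra fun e => hnc g e (hD.commutator_eq_bot_of_ne (hD.cjn (hn g)) (Ne.symm e))
    exact this ▸ conj_mem_cj g ha
  · have h2 := odd D D hD h.1.ne h.1.not_ge (fun h' => h1.not_cent le_rfl (h.1.le.trans h')) le_rfl h.1.le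
    have h3 : layerIn ⊤ = D := le_antisymm (layerIn_le_iff.2 fun L hL => by_contra fun h' =>
      hL.even (pgroupS (hL.cent_of_ne hD fun e => h' e.le) h2)) hD.le_layerIn
    rw [← layerIn_top, h3]
    exact .inr (.inr ⟨h.1.le, (simple D hD (h3 ▸ h2)).2, qs_not_isMulCommutative hD.qs⟩)
  have hD' := hD.cjn (hn t)
  have hc := hD.cent_of_ne hD' (Ne.symm e)
  have hKD : A ≤ D ⊔ cj t D := by
    rw [← p3]; rintro _ ⟨l, rfl⟩; rw [p1]; exact mul_mem_sup l.2 (conj_mem_cj t l.2)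
  have hDK : ¬ D ≤ C[A] := fun h => by
    have h' := cj_mono t h
    rw [← C_cj, cj_of_cent htA] at h'
    exact h1.not_cent le_rfl (hKD.trans (sup_le h h'))
  have hDA : ¬ D ≤ A := fun h => e (cj_of_cent (centS h htA))
  have h2 := odd D _ hD (fun e => hDA e.ge) hDA hDK le_sup_left hKD
  have h4 : ∀ L, CompIn L ⊤ → L = D ∨ L = cj t D := fun L hL => by
    by_contra! h
    exact hL.even (pgroupS (le_cent_sup (hL.cent_of_ne hD h.1) (hL.cent_of_ne hD' h.2)) h2)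
  have h3 : layerIn ⊤ = D ⊔ cj t D := le_antisymm (layerIn_le_iff.2 fun L hL => (h4 L hL).elim
    (fun e => e ▸ le_sup_left) fun e => e ▸ le_sup_right) (sup_le hD.le_layerIn hD'.le_layerIn)
  obtain ⟨h5, h6⟩ := simple D hD (h3 ▸ h2)
  have hi : D ⊓ cj t D = ⊥ := eq_bot_iff.2 (h5 ▸ inf_le_inf_left _ (cents_symm hc))
  have hinj : Function.Injective π := (injective_iff_map_eq_one π).2 fun l hl =>
    Subtype.ext (mem_bot.1 (hi ▸ p2 (mem_mker.2 ⟨l.2, hl⟩)))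
  have h7 : C[D ⊔ cj t D] = ⊥ := eq_bot_iff.2 (hO' ▸ pcore_max ⟨le_top, norms_cent (h3 ▸ le_normalizer_layerIn (normG _))⟩ h2)
  have h8 : ∀ g ∈ C[A], g ∈ N[D] → g = 1 := fun g hg hg' => by
    have hg2 : g ∈ N[cj t D] := mem_norm.2 ((h4 _ (hD'.cjn (hn g))).resolve_left fun h => e (cj_inj.1 (h.trans (mem_norm.1 hg').symm)))
    have : ∀ l ∈ D, g * l * g⁻¹ = l ∧ g * (t * l * t⁻¹) * g⁻¹ = t * l * t⁻¹ := fun l hl => by
      have h := conj_eq_of_cent hg (p3 ▸ ⟨⟨l, hl⟩, rfl⟩ : π ⟨l, hl⟩ ∈ A)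
      rw [p1] at h
      have e1 : l⁻¹ * (g * l * g⁻¹) = (t * l * t⁻¹) * (g * (t * l * t⁻¹) * g⁻¹)⁻¹ := by
        rw [eq_mul_inv_iff_mul_eq, mul_assoc, inv_mul_eq_iff_eq_mul, ← h]; group
      have e2 : l⁻¹ * (g * l * g⁻¹) = 1 := mem_bot.1 (hi ▸ ⟨D.mul_mem (D.inv_mem hl) (conj_mem_of_norm hg' hl), e1 ▸
        (cj t D).mul_mem (conj_mem_cj t hl) ((cj t D).inv_mem (conj_mem_of_norm hg2 (conj_mem_cj t hl)))⟩)
      exact ⟨(inv_mul_eq_one.1 e2).symm, (mul_inv_eq_one.1 (e1 ▸ e2)).symm⟩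
    refine mem_bot.1 (h7 ▸ (BG.cent_sup _ _).ge ⟨mem_cent.2 fun l hl => ?_, mem_cent.2 ?_⟩)
    · rw [← mul_inv_eq_iff_eq_mul.1 (this l hl).1]
    · rintro _ ⟨l, hl, rfl⟩
      exact (mul_inv_eq_iff_eq_mul.1 (this l hl).2).symm
  refine .inr (.inl ⟨D, h6, qs_not_isMulCommutative hD.qs, p3 ▸ ⟨MonoidHom.ofInjective hinj⟩, le_cent_iff.1 hc, hi,
    h3.symm.trans layerIn_top, le_antisymm (fun g hg => ?_) (zpowers_le.2 htA)⟩)
  rcases h4 _ (hD.cjn (hn g)) with h | h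
  · rw [h8 g hg (mem_norm.2 h)]; exact one_mem _
  · rw [eq_inv_of_mul_eq_one_right (h8 (t * g) (mul_mem htA hg) (by rw [mem_norm, cj_mul, h, cj_cj_invol t2]))]
    exact inv_mem (mem_zpowers t)

end Cfsg.Agent.S1347
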