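import Cfsg.Statements.S1348
import Cfsg.Agent.Low.CentInv
import Cfsg.Agent.Solv.Basic

set_option autoImplicit false
open Cfsg

namespace Cfsg.Agent.S1348

open Matrix Subgroup Low.CI

/-- Let F be a finite field of odd order, n ≥ 7 odd, and t ∈ SL(n, F) the diagonal matrix with entries −1, …, −1, 1. Then E(C(t)) is a standard subgroup of SL(n, F). -/
theorem result {F : Type*} [Field F] [Fintype F] [DecidableEq F] (hF : Odd (Fintype.card F)) (n : ℕ) (hn : 7 ≤ n) (hodd : Odd n) (t : Matrix.SpecialLinearGroup (Fin n) F) (ht : (t : Matrix (Fin n) (Fin n) F) = Matrix.diagonal (fun i : Fin n => if (i : ℕ) + 1 = n then (1 : F) else -1)) : Cfsg.IsStandardSubgroup ((Cfsg.layer ↥(Subgroup.centralizer ({t} : Set (Matrix.SpecialLinearGroup (Fin n) F)))).map (Subgroup.centralizer ({t} : Set (Matrix.SpecialLinearGroup (Fin n) F))).subtype) := by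
  obtain ⟨m, rfl⟩ : ∃ m, n = m + 1 := ⟨n - 1, by omega⟩
  have hm : Even m := by obtain ⟨k, hk⟩ := hodd; exact ⟨k, by omega⟩
  have h2 := two_ne_zero_of_odd hF
  rw [← tM_eq] at ht
  have hq : IsQuasisimple (Matrix.SpecialLinearGroup (Fin m) F) := qs_SL (by omega)
  haveI : Fact (Nat.Prime 2) := ⟨Nat.prime_two⟩
  have hC := centralizer_SL h2 ht
  let ρ : Matrix.SpecialLinearGroup (Fin m) F →* Matrix.SpecialLinearGroup (Fin (m + 1)) F :=
    (phi m F).comp Matrix.SpecialLinearGroup.toGL
  have hρ : ∀ B, (ρ B).1 = blk B.1 1 := by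
    intro B
    show blk B.1 (B.1.det)⁻¹ = _
    rw [B.2, inv_one]
  have hρi : Function.Injective ρ := phi_injective.comp Matrix.SpecialLinearGroup.toGL_injective
  have hqL : IsQuasisimple ρ.range := Sig.qs_of_mulEquiv hq (MonoidHom.ofInjective hρi)
  have hLC : ρ.range ≤ centralizer ({t} : Set (Matrix.SpecialLinearGroup (Fin (m + 1)) F)) := by
    rw [hC]; rintro _ ⟨B, rfl⟩; exact ⟨_, rfl⟩
  have hCN : centralizer ({t} : Set (Matrix.SpecialLinearGroup (Fin (m + 1)) F)) ≤ normalizer (ρ.range : Set (Matrix.SpecialLinearGroup (Fin (m + 1)) F)) := by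
    have key : ∀ g ∈ centralizer ({t} : Set (Matrix.SpecialLinearGroup (Fin (m + 1)) F)), ∀ x ∈ ρ.range, g * x * g⁻¹ ∈ ρ.range := by
      rw [hC]
      rintro _ ⟨A, rfl⟩ _ ⟨B, rfl⟩
      refine ⟨⟨A.1 * B.1 * (A⁻¹).1, by
        rw [det_mul, det_mul, B.2, mul_one, ← det_mul]; simp⟩, ?_⟩
      show phi m F _ = phi m F A * phi m F _ * (phi m F A)⁻¹
      rw [← map_inv, ← map_mul, ← map_mul]
      congr 1
      exact Units.ext rfl
    intro g hg x
    refine ⟨key g hg x, fun h => ?_⟩
    simpa [mul_assoc] using key _ (inv_mem hg) _ h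
  have htL : t ∈ ρ.range := ⟨⟨-1, by simp [det_neg, hm.neg_one_pow]⟩, Subtype.ext ((hρ _).trans ht.symm)⟩
  have hK : ∀ g ∈ centralizer (ρ.range : Set (Matrix.SpecialLinearGroup (Fin (m + 1)) F)), ∃ a c, g.1 = blk (scalar (Fin m) a) c := by
    intro g hg
    have h1 : g ∈ centralizer ({t} : Set (Matrix.SpecialLinearGroup (Fin (m + 1)) F)) := by
      rintro _ rfl; exact hg _ htL
    rw [hC] at h1
    obtain ⟨A, rfl⟩ := h1
    obtain ⟨a, ha⟩ := scalar_of_comm_SL (A := A.1) fun B =>
      congrArg Units.val (phi_injective (by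
        rw [map_mul, map_mul]; exact hg (ρ B) ⟨B, rfl⟩) :
        Matrix.SpecialLinearGroup.toGL B * A = A * Matrix.SpecialLinearGroup.toGL B)
    exact ⟨a, _, by rw [phi_val, ha]⟩
  have hKc : ∀ g ∈ centralizer (ρ.range : Set (Matrix.SpecialLinearGroup (Fin (m + 1)) F)), ∀ h ∈ centralizer (ρ.range : Set (Matrix.SpecialLinearGroup (Fin (m + 1)) F)),
      g * h = h * g := by
    intro g hg h hh
    obtain ⟨a, c, e1⟩ := hK g hg
    obtain ⟨b, d, e2⟩ := hK h hh
    apply Subtype.ext
    show g.1 * h.1 = h.1 * g.1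
    rw [e1, e2, blk_mul, blk_mul, ← map_mul, ← map_mul, mul_comm a, mul_comm c]
  have hnot : ∀ M : Subgroup (Matrix.SpecialLinearGroup (Fin (m + 1)) F), IsQuasisimple M →
      ¬ M ≤ centralizer (ρ.range : Set (Matrix.SpecialLinearGroup (Fin (m + 1)) F)) := fun M hM h =>
    Sig.qs_not_le_centralizer hM fun x hx y hy => hKc y (h hy) x (h hx)
  have hinv : ∀ u ∈ centralizer (ρ.range : Set (Matrix.SpecialLinearGroup (Fin (m + 1)) F)), orderOf u = 2 → u = t := by
    intro u hu ho
    obtain ⟨a, c, e⟩ := hK u hu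
    have h1 : u.1 * u.1 = 1 := by
      have := pow_orderOf_eq_one u
      rw [ho, sq] at this
      exact congrArg Subtype.val this
    rw [e, blk_mul, ← blk_one, ← map_mul] at h1
    have h3 : a * a = 1 := by
      have := congrFun (congrFun (blk_inj h1).1 ⟨0, by omega⟩) ⟨0, by omega⟩
      simpa using this
    have h4 := u.2
    rw [e, det_blk, scalar_apply, det_diagonal] at h4
    simp only [Finset.prod_const, Finset.card_univ, Fintype.card_fin] at h4
    rcases mul_self_eq_one_iff.mp h3 with rfl | rfl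
    · rw [one_pow, one_mul] at h4
      have : u = 1 := Subtype.ext (by rw [e, h4]; simpa using blk_one)
      rw [this] at ho; simp at ho
    · rw [hm.neg_one_pow, one_mul] at h4
      exact Subtype.ext (by rw [e, h4, ht, tM, map_neg, map_one])
  have hot : orderOf t = 2 := by
    apply orderOf_eq_prime
    · apply Subtype.ext
      show t.1 ^ 2 = 1
      rw [sq, ht, tM_mul_tM]
    · intro h
      exact tM_ne_scalar h2 (show 0 < m by omega) 1 (by rw [← ht, h]; simp)
  have htK : t ∈ centralizer (ρ.range : Set (Matrix.SpecialLinearGroup (Fin (m + 1)) F)) := fun x hx =>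
    mem_centralizer_singleton_iff.mp (hLC hx)
  have hcomp : Sig.CompIn ρ.range (centralizer ({t} : Set (Matrix.SpecialLinearGroup (Fin (m + 1)) F))) :=
    Sig.compIn_iff.mpr ⟨hLC, ((normal_subgroupOf_iff_le_normalizer hLC).mpr hCN).isSubnormal,
      (Sig.qs_subgroupOf_iff hLC).mpr hqL⟩
  have hE : Sig.layerIn (centralizer ({t} : Set (Matrix.SpecialLinearGroup (Fin (m + 1)) F))) = ρ.range := by
    refine le_antisymm (Sig.layerIn_le_iff.mpr fun M hM => ?_) hcomp.le_layerIn
    by_cases h : M = ρ.range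
    · exact h.le
    · exact absurd (commutator_eq_bot_iff_le_centralizer.mp (hM.commutator_eq_bot_of_ne hcomp h))
        (hnot M hM.qs)
  show IsStandardSubgroup (Sig.layerIn _)
  rw [hE]
  have hconj : ∀ g : Matrix.SpecialLinearGroup (Fin (m + 1)) F,
      g⁻¹ * t * g ∈ centralizer (ρ.range : Set (Matrix.SpecialLinearGroup (Fin (m + 1)) F)) → g ∈ normalizer (ρ.range : Set (Matrix.SpecialLinearGroup (Fin (m + 1)) F)) := by
    intro g hg
    have h1 := hinv _ hg (by
      rw [← hot]; simpa using (MulAut.conj g⁻¹).orderOf_eq t)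
    apply hCN
    rw [mem_centralizer_singleton_iff]
    calc g * t = g * (g⁻¹ * t * g) := by rw [h1]
      _ = _ := by group
  refine ⟨hqL, ⟨?_, ?_⟩, ?_, ?_⟩
  · rw [even_iff_two_dvd, ← hot, ← Subgroup.orderOf_mk t htK]
    exact orderOf_dvd_natCard _
  · intro g hg
    by_contra ho
    rw [Nat.not_odd_iff_even, even_iff_two_dvd] at ho
    obtain ⟨⟨u, hu0⟩, hu⟩ := exists_prime_orderOf_dvd_card' 2 ho
    rw [Subgroup.orderOf_mk] at hu
    obtain ⟨hu1, v, hv, hvu⟩ := mem_inf.mp hu0
    apply hg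
    apply Solv.normalizer_le_normalizer_centralizer
    apply hconj
    rw [← hinv u hu1 hu, ← hvu]
    simpa [mul_assoc] using hv
  · intro g _ h
    rw [commutator_comm, commutator_eq_bot_iff_le_centralizer] at h
    exact hnot _ (Sig.qs_map_of_injective hqL (MulAut.conj g).injective) h
  · refine le_antisymm (Solv.normalizer_le_normalizer_centralizer _) fun g hg => hconj g ?_
    have := (mem_normalizer_iff.mp (inv_mem hg) t).mp htK
    simpa using this

end Cfsg.Agent.S1348
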