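import Cfsg.Statements.S1386
import Cfsg.Agent.BG.Base6
import Cfsg.Agent.BG.TI

set_option autoImplicit false
open Cfsg

namespace Cfsg.Agent.S1386
open Cfsg.Agent.BG

/-- Let G be a finite group, W₁, W₂ subgroups forming a self-normalizing cyclic pair, S a subgroup with W₂ ≤ S and W₁ a complement to S' in S, and (W₁, U, W₂') type-P data for S. Then W₂' = W₂ (that is, C_{S'}(W₁) = W₂). -/
theorem result {G : Type*} [Group G] [Finite G] (W₁ W₂ S U W₂' : Subgroup G) (hW : Cfsg.IsSelfNormalizingCyclic W₁ W₂)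
    (hSW : Cfsg.IsComplIn ⁅S, S⁆ W₁ S) (hW₂S : W₂ ≤ S) (hP : Cfsg.IsTypePWith S W₁ U W₂') :
    W₂' = W₂ := by
  obtain ⟨h1, h2, hi, hc, hcy, hn⟩ := hW
  obtain ⟨-, -, hi', hc', hcy', -⟩ := hP.selfNormalizing
  have co := cyclic_dprod_coprime hcy le_sup_left le_sup_right hi
  have co' := cyclic_dprod_coprime hcy' le_sup_left le_sup_right hi'
  obtain ⟨x, hx, hx1⟩ := exists_mem_ne_one h1
  obtain ⟨y, hy, hy1⟩ := exists_mem_ne_one h2
  have hle : W₂ ≤ W₂' := by
    rw [← hP.W₂_centralizer x hx hx1]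
    refine le_inf (sub_of_coprime_sup ((le_sup_right.trans hSW.sup.le).trans (der_normal S).norm)
      (hW₂S.trans hSW.sup.ge) co.symm) fun b hb => mem_cent1.2 (hc x hx b hb).symm
  refine le_antisymm (sub_of_coprime_sup (cents_norm (le_cent_iff.2 hc)) ?_ co'.symm) hle
  rw [sup_comm, ← hn {x * y} ?_ (Set.singleton_nonempty _)]
  · intro b hb
    have : b * (x * y) = x * y * b := IsMulCommutative.comm (cyclic_abelian hcy')
      (Subgroup.mem_sup_right hb) (mul_mem_sup' hx (hle hy))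
    exact Subgroup.centralizer_le_normalizer _ (mem_cent1.2 this)
  · rw [Set.singleton_subset_iff]
    refine ⟨mul_mem_sup' hx hy, ?_⟩
    rintro (h | h)
    · exact hy1 (Subgroup.mem_bot.1 (hi ▸ ⟨(Subgroup.mul_mem_cancel_left _ hx).1 h, hy⟩))
    · exact hx1 (Subgroup.mem_bot.1 (hi ▸ ⟨hx, (Subgroup.mul_mem_cancel_right _ hy).1 h⟩))

end Cfsg.Agent.S1386
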