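import Cfsg.Statements.S1387
import Cfsg.Agent.BG.Sigma0

set_option autoImplicit false
open Cfsg

namespace Cfsg.Agent.S1387
open Cfsg.Agent.BG

theorem aux {G : Type*} [Group G] [Finite G] {M W₁ U W₂ : Subgroup G}
    (hP : Cfsg.IsTypePWith M W₁ U W₂) : fittingOf M ⊓ U ≤ C[fittingHallOf M] := by
  refine sub_nilpotent_cent2 (Fitting_nil M) inf_le_left (Fcore_sub_Fitting M)
    (coprimeSg inf_le_right ?_)
  rw [← hP.U_compl.relIndex]
  refine ((Fcore_facts M).2.coprime_dvd_right ?_).symm
  exact Dvd.intro _ (Subgroup.relIndex_mul_relIndex _ _ _ (le_sup_left.trans hP.U_compl.sup.le)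
    (der_sub M))

/-- Let M be a subgroup of a finite group G with type-P data (W₁, U, W₂) and H = M_F. Then the Fitting subgroup F(M) is generated by H and the centralizer of H in U. -/
theorem result {G : Type*} [Group G] [Finite G] (M W₁ U W₂ : Subgroup G) (hP : Cfsg.IsTypePWith M W₁ U W₂) :
    Cfsg.fittingOf M = Cfsg.fittingHallOf M ⊔ (U ⊓ Subgroup.centralizer (Cfsg.fittingHallOf M : Set G)) := by
  have hU : U ≤ M := (le_sup_right.trans hP.U_compl.sup.le).trans (der_sub M)
  apply le_antisymm
  · have := group_modl (Or.inr (hU.trans (Fcore_normal M).norm)) (Fcore_sub_Fitting M)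
    rw [hP.U_compl.sup, inf_eq_left.2 hP.fitting_le] at this
    rw [this]
    exact sup_le_sup_left (le_inf inf_le_right (aux hP)) _
  · rw [← hP.fitting_eq]
    exact sup_le_sup_left (inf_le_inf_right _ hU) _

end Cfsg.Agent.S1387
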