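import Cfsg.Statements.S1388
import Cfsg.Agent.S1387

set_option autoImplicit false
open Cfsg

namespace Cfsg.Agent.S1388
open Cfsg.Agent.BG

/-- Let M be a subgroup of a finite group G with type-P data (W₁, U, W₂) and H = M_F. Then the derived subgroup of U centralizes H, and if U ≠ 1 then U does not centralize H. -/
theorem result {G : Type*} [Group G] [Finite G] (M W₁ U W₂ : Subgroup G) (hP : Cfsg.IsTypePWith M W₁ U W₂) :
    ⁅U, U⁆ ≤ Subgroup.centralizer (Cfsg.fittingHallOf M : Set G) ∧ (U ≠ ⊥ → ¬ U ≤ Subgroup.centralizer (Cfsg.fittingHallOf M : Set G)) := by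
  have hU : U ≤ ⁅M, M⁆ := le_sup_right.trans hP.U_compl.sup.le
  refine ⟨(le_inf ((dergS hU).trans (hP.derived_two_le.trans hP.fitting_eq.le)) (der_sub U)).trans
    (S1387.aux hP), fun h1 hc => h1 ?_⟩
  have hn : Group.IsNilpotent ↥⁅M, M⁆ := by
    rw [← hP.U_compl.sup]; exact cent_nil (cents_symm hc) (Fcore_nil M) hP.U_nilpotent
  have hH := pHall_of_coprime (der_sub M) (by
    rw [hP.W₁_compl.relIndex, ← hP.W₁_compl.symm.relIndex]; exact hP.W₁_hall.symm)
  rw [← hP.U_compl.inf, right_eq_inf]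
  exact hU.trans (Fcore_max hH (der_normal M) hn)

end Cfsg.Agent.S1388
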