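import Cfsg.Statements.S1396
import Cfsg.Agent.BG.S7

set_option autoImplicit false
open Cfsg

namespace Cfsg.Agent.S1396

open Cfsg.Agent.BG Subgroup

/-- Let G be a minimal simple group of odd order, p a prime dividing the order of G and A an abelian p-subgroup. Suppose either (1) A consists exactly of the elements x of C_G(A) with x^p = 1, and every proper subgroup of G has p-length at most one, or (2) A is normal and self-centralizing in some Sylow p-subgroup of G and has rank at least 2. Then A satisfies the transitivity hypothesis. -/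
theorem result {G : Type*} [Group G] [Finite G] (hG : Cfsg.IsMinSimpleOddOrder G)
    (p : ℕ) [Fact p.Prime] (hp : p ∣ Nat.card G) (A : Subgroup G) (hAp : IsPGroup p A) (hAc : IsMulCommutative A)
    (h : (∀ x ∈ Subgroup.centralizer (A : Set G), x ^ p = 1 ↔ x ∈ A) ∧ (∀ H : Subgroup G, H ≠ ⊤ → Cfsg.PLengthLE p 1 H) ∨
      ∃ P : Sylow p G, Cfsg.IsSCN (P : Subgroup G) A ∧ ¬ Cfsg.PRankLE p 1 A) :
    Cfsg.TransitivityHypothesis A := by
  haveI := Fact.mk hG
  have hp' : p.Prime := Fact.out
  rw [normedConstrained_iff]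
  rcases h with ⟨h1, h2⟩ | ⟨P, h1, h2⟩
  · have hE : Abelem p A := abelemP.2 ⟨hAc, fun x hx => (h1 x (hAc.cent hx)).2 hx⟩
    refine plength_1_normed_constrained ?_ ((pmaxElem_LdivP hE le_top).2 fun x _ a b => (h1 x a).1 b) h2
    rintro rfl
    obtain ⟨x, -, hx⟩ := Cauchy (A := (⊤ : Subgroup G)) hp' (by rwa [card_top])
    have := (h1 x (by rw [cent_bot]; trivial)).1 (hx ▸ pow_orderOf_eq_one x)
    rw [mem_bot.1 this, orderOf_one] at hx
    exact hp'.one_lt.ne hx
  · exact SCN_normed_constrained (sylowIn_top P) h1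
      ((not_le.1 fun h => h2 ((pRankLE_iff hp').2 h)).trans_le (p_rank_le_rank p A))

end Cfsg.Agent.S1396
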