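import Cfsg.Statements.S1448
import Cfsg.Agent.BG4.Rows
import Mathlib.Tactic.Group

set_option autoImplicit false
open Cfsg

namespace Cfsg.Agent.S1448
open scoped commutatorElement

open Cfsg.Agent.BG Cfsg.Agent.BG4 Subgroup

/-- Let G be a finite group, p an odd prime, R a nontrivial p-subgroup with no elementary abelian subgroup of order p ^ 3, and A a subgroup of odd order coprime to p normalizing R with [R, A] = R. Then 3 < p, and either R is abelian or R is generated by two elementwise-commuting subgroups R₁, R₂ with R₁ non-abelian of order p ^ 3 and exponent p, R₂ cyclic, and the elements of R₂ of order dividing p generating exactly [R₁, R₁]. -/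
theorem result {G : Type*} [Group G] [Finite G] (p : ℕ) [Fact p.Prime] (hp : p ≠ 2) (R A : Subgroup G) (hR : IsPGroup p R) (hR1 : R ≠ ⊥) (hr : Cfsg.PRankLE p 2 R)
    (hA : (A ≤ Subgroup.normalizer (R : Set G))) (hcop : (Nat.card A).Coprime p) (hAodd : Odd (Nat.card A)) (hRA : ⁅R, A⁆ = R) :
    3 < p ∧ (IsMulCommutative R ∨ ∃ R₁ R₂ : Subgroup G, R₁ ⊔ R₂ = R ∧ (∀ a ∈ R₁, ∀ b ∈ R₂, a * b = b * a) ∧
        ¬ IsMulCommutative R₁ ∧ Nat.card R₁ = p ^ 3 ∧ Monoid.exponent R₁ = p ∧ IsCyclic R₂ ∧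
        Subgroup.closure {x : G | x ∈ R₂ ∧ x ^ p = 1} = ⁅R₁, R₁⁆) := by
  obtain ⟨h1, h2⟩ := rank2_coprime_comm_cprod hR (odd_of_ne_two hR hp) hR1 ((pRankLE_iff Fact.out).mp hr) hRA
    ((p'nat_coprime Fact.out).mpr hcop) hAodd
  refine ⟨h1, h2.imp_right fun ⟨S, C, a, b, c, d, e, f⟩ =>
    ⟨S, C, d.sup, fun x hx y hy => mem_cent.mp (d.cent hy) x hx, a, b, ?_, e, f⟩⟩
  refine ((Nat.dvd_prime Fact.out).mp (exponentP.mpr c)).resolve_left fun h => a ?_
  have : S = ⊥ := (eq_bot_iff_forall S).mpr fun x hx => by simpa [h] using expg_exponent hx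
  exact this ▸ inferInstance

end Cfsg.Agent.S1448
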