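import Cfsg.Statements.S1451
import Cfsg.Agent.BG4.Rows
import Mathlib.Tactic.Group

set_option autoImplicit false
open Cfsg

namespace Cfsg.Agent.S1451
open scoped commutatorElement

open Cfsg.Agent.BG Cfsg.Agent.BG4 Subgroup

/-- Let G be a solvable group of odd order such that G, or its Fitting subgroup, has no elementary abelian subgroup of order q ^ 3 for any prime q. Then G' is nilpotent; for every Sylow subgroup S of G, every characteristic subgroup T of S with T ≤ [S, S] is normal in G; and for every prime p, G has a characteristic subgroup that is a Hall subgroup for the set of primes greater than p. -/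
theorem result {G : Type*} [Group G] [Finite G] [Group.IsSolvable G] (hodd : Odd (Nat.card G)) (hr : Cfsg.RankLE 2 G ∨ Cfsg.RankLE 2 (Cfsg.fittingSubgroup G)) :
    Group.IsNilpotent ↥(commutator G) ∧
      (∀ (q : ℕ) [Fact q.Prime] (S : Sylow q G) (T : Subgroup ↥(S : Subgroup G)), T.Characteristic → T.map (S : Subgroup G).subtype ≤ ⁅(S : Subgroup G), (S : Subgroup G)⁆ →
        (T.map (S : Subgroup G).subtype).Normal) ∧
      ∀ p : ℕ, ∃ N : Subgroup G, N.Characteristic ∧ Cfsg.IsPiHall {q | q.Prime ∧ p < q} N := by
  have ho : Odd #(⊤ : Subgroup G) := by rwa [card_top]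
  have hF : rank (fittingOf (⊤ : Subgroup G)) ≤ 2 := hr.elim (fun h => (rankS le_top).trans (rankLE_top.mp h))
    fun h => Fitting_top (G := G) ▸ rankLE_iff.mp h
  refine ⟨nilpotentS (rank2_der1_sub_Fitting ho inferInstance hF) (Fitting_nil _), fun q _ S T hT h =>
    normal_top_iff.mp (rank2_char_Sylow_normal ho inferInstance hF (sylowIn_top S)
      (inf_le_right.trans (char_norm T)) h), fun p => ⟨piCore {q | p + 1 ≤ q} G, ?_, ?_⟩⟩
  · rw [characteristic_iff_map_le, ← pcore_top]
    intro φ
    exact (pcore_map_le φ.toMonoidHom _ _).trans (by rw [map_top_of_surjective _ φ.surjective])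
  · rw [← pHall_top, ← pcore_top]
    exact pHall_congr (ρ := {q | q.Prime ∧ p < q}) (fun q hq _ => ⟨fun h => ⟨hq, h⟩, fun h => h.2⟩)
      (rank2_ge_pcore_Hall (p + 1) ho inferInstance hF)

end Cfsg.Agent.S1451
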