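import Cfsg.Statements.S1454
import Cfsg.Agent.BG4.Rows
import Mathlib.Tactic.Group

set_option autoImplicit false
open Cfsg

namespace Cfsg.Agent.S1454
open scoped commutatorElement

open Cfsg.Agent.BG Cfsg.Agent.BG4 Subgroup

/-- Let G be a finite group, p an odd prime, R a narrow p-subgroup and A a solvable subgroup of odd order normalizing R with A ∩ C_G(R) = 1. Then [A, A] ≤ O_p(A) and the index of O_p(A) in A is coprime to p; if R has an elementary abelian subgroup of order p ^ 3 then the order of every element of A of order coprime to p divides p − 1; and if the order of A is a prime not dividing p(p − 1), then 2·#A divides p + 1, and if in addition [R, A] = R and R is non-abelian then #R = p ^ 3. -/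
theorem result {G : Type*} [Group G] [Finite G] (p : ℕ) [Fact p.Prime] (hp : p ≠ 2) (R A : Subgroup G) (hR : IsPGroup p R) (hRn : Cfsg.IsNarrow p R)
    (hA : (A ≤ Subgroup.normalizer (R : Set G))) (hAs : Group.IsSolvable A) (hAodd : Odd (Nat.card A)) (hfaith : A ⊓ Subgroup.centralizer (R : Set G) = ⊥) :
    (commutator ↥A ≤ Cfsg.pCore p ↥A ∧ ((Cfsg.pCore p ↥A).index).Coprime p) ∧
      (¬ Cfsg.PRankLE p 2 R → ∀ a ∈ A, (orderOf a).Coprime p → orderOf a ∣ p - 1) ∧
      ((Nat.card A).Prime → ¬ Nat.card A ∣ p * (p - 1) →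
        2 * Nat.card A ∣ p + 1 ∧ (⁅R, A⁆ = R → ¬ IsMulCommutative R → Nat.card R = p ^ 3)) := by
  have oR := odd_of_ne_two hR hp
  have nR := (narrow_iff_isNarrow hR oR).mpr hRn
  have hp' : p.Prime := Fact.out
  have h1 := pgroup_of_faithful (der_sub A) hA hfaith (Aut_narrow_der1' hR oR nR hA hAodd)
  have h2 : ¬ Cfsg.PRankLE p 2 R → ∀ a ∈ A, (orderOf a).Coprime p → orderOf a ∣ p - 1 := fun hr a ha hc =>
    orderOf_dvd_of_pow_eq_one (mem_bot.mp (hfaith.le ⟨pow_mem ha _, Aut_narrow_pow hR oR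
      (not_le.mp (mt (pRankLE_iff hp').mpr hr)) nR (hA ha) ((p'nat_coprime hp').mpr hc)⟩))
  refine ⟨⟨?_, ?_⟩, h2, fun hq hd => ?_⟩
  · rw [← map_subtype_le_map_subtype, ← Op_eq, BG4.map_subtype_commutator]
    exact pcore_max (der_normal A) h1.pi
  · rw [← p'nat_coprime hp', ← relIndex_map_subtype, ← Op_eq, ← card_quotient (pcore_normal _ A).norm]
    exact (p'_abelian_quotient_Op h1).1
  have hne : #A ≠ p := fun e => hd (e ▸ dvd_mul_right _ _)
  have p'A : PiGrp {p}ᶜ A := (pnat_prime hq).mpr hne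
  have hr : pRank p R ≤ 2 := by
    by_contra hr
    obtain ⟨a, rfl⟩ := cyclicP.mp (prime_cyclic hq)
    rw [Nat.card_zpowers] at hq hd hne
    exact hd ((h2 (mt (pRankLE_iff hp').mp hr) a (mem_zpowers a)
      ((Nat.coprime_primes hq hp').mpr hne)).mul_left p)
  have hi : C[R].relIndex A = #A := by
    rw [← card_inf_mul_relIndex C[R] A, inf_comm, hfaith, card_bot, one_mul]
  obtain ⟨k, hk⟩ := hp'.odd_of_ne_two hp
  refine ⟨?_, fun hRA hna => ?_⟩
  · rcases (pi_Aut_rank2_pgroup hR oR hr hA hq hi.symm.dvd hne).2.2 with h | h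
    · rw [show (p + 1) / 2 = k + 1 by omega] at h
      rw [show p + 1 = 2 * (k + 1) by omega]
      exact Nat.mul_dvd_mul_left 2 h
    · rw [show (p - 1) / 2 = k by omega] at h
      refine absurd (Dvd.dvd.mul_left ?_ p) hd
      rw [show p - 1 = 2 * k by omega]
      exact h.mul_left 2
  obtain ⟨S, C, a, b, c, d, e, f⟩ := (rank2_coprime_comm_cprod hR oR (fun e => hna (e ▸ inferInstance)) hr hRA
    p'A hAodd).2.resolve_left hna
  have hSR : S ≤ R := le_sup_left.trans d.sup.le
  have hCR : C ≤ R := le_sup_right.trans d.sup.le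
  have hn : C ≤ N[S] := cents_norm d.cent
  have e1 : omegaOne p R = S := by
    refine le_antisymm (Ohm1_le_iff.mpr fun x hx h => ?_) fun x hx => mem_Ohm1 (hSR hx) (c x hx)
    obtain ⟨s, hs, y, hy, rfl⟩ := (mem_sup_norml hn).mp (d.sup.ge hx)
    rw [(commute_of_cent' (d.cent hy) hs).mul_pow, c s hs, one_mul] at h
    exact mul_mem hs (der_sub S (f.le (mem_Ohm1 hy h)))
  have e2 : Z[R] = C := by
    have h3 : C ≤ Z[R] := le_inf hCR (d.sup ▸ le_cent_sup d.cent (cyclic_abelian e).cent)
    refine le_antisymm ?_ h3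
    have h4 := group_modr (Or.inr hn) h3
    rw [d.sup, inf_eq_left.mpr (center_sub R)] at h4
    refine h4.le.trans (sup_le ?_ le_rfl)
    have h5 : Z[R] ⊓ S ≤ Z[S] := le_inf inf_le_right (inf_le_left.trans (inf_le_right.trans (centS hSR)))
    exact (h5.trans ((p3group_center b a).1.symm.trans f.symm).le).trans (Ohm_sub p C)
  have h3 : A ≤ C[C] := by
    refine cent_of_coprime_relIndex ((Nat.Prime.coprime_iff_not_dvd hq).mpr fun h => hd ?_)
    have h4 := h.trans (relIndex_cent_cyclic_dvd e (e2 ▸ norms_center hA))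
    obtain ⟨n, hn⟩ := card_pgroup (BG.IsPGroup.sub hR hCR)
    rcases n with _ | n
    · simp [hn] at h4; exact absurd (card_eq_one.mpr h4) hq.ne_one
    · rw [hn, Nat.totient_prime_pow_succ hp'] at h4
      exact ((Nat.Prime.dvd_mul hq).mp h4).elim (fun h => (hq.dvd_of_dvd_pow h).mul_right _) (·.mul_left p)
  rw [← d.sup, comm_sup_cent (cents_symm h3) hn, d.sup] at hRA
  rw [le_antisymm (hRA.ge.trans (commg_subl (e1 ▸ norms_Ohm p hA))) hSR, b]

end Cfsg.Agent.S1454
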