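import Cfsg.Statements.S1458
import Cfsg.Agent.PLocal.Stable
-- import your own Cfsg.Agent.* helpers here

set_option autoImplicit false
open Cfsg

namespace Cfsg.Agent.S1458


open Subgroup Cfsg Cfsg.Agent.Loc Cfsg.Agent.PLocal
open scoped commutatorElement

/-- Let G be a solvable group of odd order, p a prime and S a Sylow p-subgroup of G. Then the subgroup generated by the centre of the Thompson subgroup of S and O_{p'}(G) is normal in G. -/
theorem result {G : Type*} [Group G] [Finite G] [Group.IsSolvable G] (hodd : Odd (Nat.card G)) (p : ℕ) [Fact p.Prime] (S : Sylow p G) :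
    (Cfsg.centerThompsonOf p (S : Subgroup G) ⊔ Cfsg.pPrimeCore p G).Normal := by
  by_cases hp : p = 2
  · subst hp
    have : pPrimeCore 2 G = ⊤ := top_le_iff.1 (le_pPrimeCore inferInstance
      (by rw [card_top]; exact Nat.coprime_two_right.2 hodd))
    rw [this, sup_top_eq]; infer_instance
  have hf := QuotientGroup.mk'_surjective (pPrimeCore p G)
  have hk : (Nat.card (QuotientGroup.mk' (pPrimeCore p G)).ker).Coprime p := by
    rw [QuotientGroup.ker_mk']; exact coprime_pPrimeCore p G
  have h1 := ZJ_normal hp (centralizer_pCore_le_of_pSolv pSolv_of_isSolvable (pPrimeCore_quotient_pPrimeCore p G))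
    (fun B _ hB => odd_stableOn (by rw [card_top]; exact hodd.of_dvd_nat (card_dvd_of_surjective _ hf)) hB
      le_normalizer_of_normal) (S.mapSurjective hf)
  rw [Sylow.coe_mapSurjective, ← map_ZJ (inf_ker_eq_bot_of_coprime hk S.2)] at h1
  have := h1.comap (QuotientGroup.mk' (pPrimeCore p G))
  rwa [comap_map_eq, QuotientGroup.ker_mk'] at this


end Cfsg.Agent.S1458
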