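import Cfsg.Statements.S1463
import Cfsg.Agent.BG.S2GL2

set_option autoImplicit false
open scoped MatrixGroups
open Cfsg

namespace Cfsg.Agent.S1463

/-- Let F be a field of odd characteristic p and H a finite subgroup of odd order of GL(2, F) that leaves no 1-dimensional subspace of F² invariant. Then p does not divide the order of H. -/
theorem result {F : Type*} [Field F] (p : ℕ) [Fact p.Prime] [CharP F p] (hp : p ≠ 2)
    (H : Subgroup (GL (Fin 2) F)) [Finite H] (hodd : Odd (Nat.card H))
    (hirr : ∀ v : Fin 2 → F, v ≠ 0 → ∃ g ∈ H, (g : Matrix (Fin 2) (Fin 2) F).mulVec v ∉ Submodule.span F {v}) :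
    ¬ p ∣ Nat.card H := by
  refine BG.odd_GL2_irreducible_not_dvd (BG.glRep H.subtype) (by simp) hodd
    (BG.glRep_injective H.subtype_injective) fun v hv => ?_
  obtain ⟨g, hg, h⟩ := hirr v hv
  refine ⟨⟨g, hg⟩, fun c hc => h ?_⟩
  exact Submodule.mem_span_singleton.2 ⟨c, hc.symm⟩

end Cfsg.Agent.S1463
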