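import Cfsg.Statements.S1465
import Cfsg.Agent.PLocal.Stable
-- import your own Cfsg.Agent.* helpers here

set_option autoImplicit false
open Cfsg

namespace Cfsg.Agent.S1465


open Subgroup Cfsg Cfsg.Agent.Loc Cfsg.Agent.PLocal
open scoped commutatorElement

/-- Let p be an odd prime, G a solvable group of odd order, P a normal p-subgroup of G, and X the subgroup generated by a family of abelian p-subgroups of G each normalized by P. Then the image of X in G/C_G(P) lies in O_p(G/C_G(P)); and if O_{p'}(G) = 1 and O_p(G) ∩ C_G(P) ≤ P then X ≤ O_p(G). -/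
theorem result {G : Type*} [Group G] [Finite G] [Group.IsSolvable G] (hodd : Odd (Nat.card G)) (p : ℕ) [Fact p.Prime] (hp : p ≠ 2) (P : Subgroup G) [P.Normal] (hP : IsPGroup p P)
    (S : Set (Subgroup G)) (hS : ∀ B ∈ S, IsMulCommutative B ∧ IsPGroup p B ∧ P ≤ Subgroup.normalizer (B : Set G)) :
    (sSup S).map (QuotientGroup.mk' (Subgroup.centralizer (P : Set G))) ≤ Cfsg.pCore p (G ⧸ Subgroup.centralizer (P : Set G)) ∧
      (Cfsg.pPrimeCore p G = ⊥ → Cfsg.pCore p G ⊓ Subgroup.centralizer (P : Set G) ≤ P → sSup S ≤ Cfsg.pCore p G) := by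
  have h1 : sSup S ≤ opMod p ⊤ (centralizer (P : Set G)) := sSup_le fun B hB =>
    (odd_stableOn (by rwa [card_top]) hP le_normalizer_of_normal).le le_top (comm_eq_bot_iff'.2
      ((comm_le_right (hS B hB).2.2).trans (le_centralizer_self (hS B hB).1)))
  refine ⟨map_le_iff_le_comap.2 fun x hx => (mem_opMod_top_iff _).1 (h1 hx), fun h2 h3 => h1.trans ?_⟩
  have hc := centralizer_pCore_le_of_pSolv (p := p) (G := G) pSolv_of_isSolvable h2
  rw [← pCoreOf_top]
  refine opMod_le_pCoreOf fun ⟨g, hg⟩ => ?_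
  obtain ⟨k, hk⟩ := exists_pow_mem_of_forall_coprime (p := p) (C := ⊥) (g := g) fun b hb hco => by
    have hbC : zpowers b ≤ centralizer (P : Set G) := (zpowers_le).2 ((zpowers_le).2 hg.2 hb)
    have hco' : (Nat.card (zpowers b)).Coprime p := by rwa [Nat.card_zpowers]
    have := Solv.thompson_PxQ hP hco' (isPGroup_pCore p G) (le_centralizer_iff.1 hbC)
      le_normalizer_of_normal le_normalizer_of_normal (h3.trans (le_centralizer_iff.1 hbC))
    exact (PLocal.eq_bot_of_isPGroup_of_coprime ((isPGroup_pCore p G).to_le (this.trans hc)) hco').le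
      (mem_zpowers b)
  exact ⟨k, Subtype.ext hk⟩


end Cfsg.Agent.S1465
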