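import Cfsg.Statements.S1466
import Cfsg.Agent.BG.Puig

set_option autoImplicit false
open Cfsg

namespace Cfsg.Agent.S1466

open Cfsg.Agent.BG Subgroup

/-- Let p be a prime and R a nontrivial finite p-group. Then for every i > 0, Z(R) ≤ C_R(L_i(R)) ≤ L_i(R); likewise Z(R) ≤ C_R(L_*(R)) ≤ L_*(R) and Z(R) ≤ C_R(L(R)) ≤ L(R); and L(R) ≠ 1, L_*(R) ≠ 1. -/
theorem result {R : Type*} [Group R] [Finite R] (p : ℕ) [Fact p.Prime] (hR : IsPGroup p R) [Nontrivial R] :
    (∀ i : ℕ, 0 < i → Subgroup.center R ≤ Subgroup.centralizer ((Cfsg.puigSeq R i : Subgroup R) : Set R) ∧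
        Subgroup.centralizer ((Cfsg.puigSeq R i : Subgroup R) : Set R) ≤ Cfsg.puigSeq R i) ∧
      (Subgroup.center R ≤ Subgroup.centralizer ((Cfsg.puigLower R : Subgroup R) : Set R) ∧ Subgroup.centralizer ((Cfsg.puigLower R : Subgroup R) : Set R) ≤ Cfsg.puigLower R) ∧
      (Subgroup.center R ≤ Subgroup.centralizer ((Cfsg.puigSubgroup R : Subgroup R) : Set R) ∧ Subgroup.centralizer ((Cfsg.puigSubgroup R : Subgroup R) : Set R) ≤ Cfsg.puigSubgroup R) ∧
      Cfsg.puigSubgroup R ≠ ⊥ ∧ Cfsg.puigLower R ≠ ⊥ := by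
  have hT : IsPGroup p (⊤ : Subgroup R) := hR.to_subgroup _
  have hz : ∀ L : Subgroup R, center R ≤ C[L] := fun L => center_le_centralizer _
  have hne : center R ≠ ⊥ := center_top (G := R) ▸ center_nil_ne_bot (pgroup_nil hT) top_ne_bot
  have h1 : C[puigLower R] ≤ puigLower R := by simpa [puigLower_eq] using sub_cent_PuigInf hT
  have h2 : C[puigSubgroup R] ≤ puigSubgroup R := by simpa [Puig_top] using sub_cent_Puig hT
  refine ⟨fun i hi => ⟨hz _, by simpa [puigSeq_eq] using sub_cent_PuigAt hT hi⟩, ⟨hz _, h1⟩, ⟨hz _, h2⟩,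
    fun h => hne (le_bot_iff.1 (h ▸ (hz _).trans h2)), fun h => hne (le_bot_iff.1 (h ▸ (hz _).trans h1))⟩

end Cfsg.Agent.S1466
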