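import Cfsg.Statements.S1473
import Cfsg.Agent.FG.CN

set_option autoImplicit false
open Cfsg

namespace Cfsg.Agent.S1473

open Cfsg.Agent.BG Cfsg.Agent.FG Subgroup

universe u

theorem aux {G' : Type*} [Group G'] (n : ℕ) : ∀ (G : Type u) [Group G] [Finite G], Nat.card G = n → IsCNGroup G →
    ∀ f : G →* G', Function.Surjective f → Group.IsSolvable f.ker → IsCNGroup G' := by
  induction n using Nat.strong_induction_on with | _ n ih => ?_
  rintro G _ _ rfl h f hf hs
  by_cases h0 : f.ker = ⊥
  · exact CN.of_surjective (p := 2) h hf (h0 ▸ IsPGroup.of_bot)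
  obtain ⟨V, p, h1, h2, h3, hp, h4⟩ := solvable_norm_abelem (M := ⊤) hs h0 (norm_of_normal _ _)
  haveI := Fact.mk hp
  haveI := NormalIn.normal ⟨le_top, h2⟩
  refine ih _ ?_ (G ⧸ V) rfl (CN.of_surjective h (QuotientGroup.mk'_surjective V) ((QuotientGroup.ker_mk' V).symm ▸ h4.pg))
    (QuotientGroup.lift V f h1) (QuotientGroup.lift_surjective_of_surjective V f hf h1) ?_
  · rw [card_eq_card_quotient_mul_card_subgroup V]
    exact lt_mul_of_one_lt_right Nat.card_pos (cardG_gt1 h3)
  · rw [QuotientGroup.ker_lift]
    exact solvable_map _ hs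

/-- Let G be a finite group in which the centralizer of every non-identity element is nilpotent, and H a solvable normal subgroup of G. Then in G/H the centralizer of every non-identity element is nilpotent. -/
theorem result {G : Type*} [Group G] [Finite G] (hCN : Cfsg.IsCNGroup G) (H : Subgroup G) [H.Normal] (hH : Group.IsSolvable H) :
    Cfsg.IsCNGroup (G ⧸ H) := by
  exact aux _ G rfl hCN _ (QuotientGroup.mk'_surjective H) ((QuotientGroup.ker_mk' H).symm ▸ hH)

end Cfsg.Agent.S1473
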