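import Cfsg.Statements.S1474
import Cfsg.Agent.FG.CN

set_option autoImplicit false
open Cfsg

namespace Cfsg.Agent.S1474

open Cfsg.Agent.BG Cfsg.Agent.FG Subgroup

/-- Let G be a finite group in which every non-identity element has nilpotent centralizer, not itself nilpotent, and having a nontrivial normal Sylow p-subgroup for some prime p. Let H be the largest normal nilpotent Hall subgroup of G. Then H is a nontrivial proper normal subgroup with a complement E that is a Frobenius complement in G (no non-identity element of E centralizes a non-identity element of H), and G/H is nilpotent. -/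
theorem result {G : Type*} [Group G] [Finite G] (hCN : Cfsg.IsCNGroup G) (hnn : ¬ Group.IsNilpotent G) (p : ℕ) [Fact p.Prime] (P : Sylow p G)
    (hP1 : (P : Subgroup G) ≠ ⊥) (hPn : (P : Subgroup G).Normal) :
    Cfsg.fittingHall G ≠ ⊥ ∧ Cfsg.fittingHall G ≠ ⊤ ∧
      (∃ E : Subgroup G, Subgroup.IsComplement' (Cfsg.fittingHall G) E ∧ Cfsg.IsFrobeniusComplement E ∧
        ∀ e ∈ E, e ≠ 1 → Cfsg.fittingHall G ⊓ Subgroup.centralizer ({e} : Set G) = ⊥) ∧
      Group.IsNilpotent (G ⧸ Cfsg.fittingHall G) := by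
  obtain ⟨H, h1, hH, hmax⟩ := CN.exists_max (pgroup_nil P.isPGroup')
  have h2 : C[Z[(P : Subgroup G)]] = H := by
    have e : Op p H = P := normal_Hall_pcore (pHall_subl h1 le_top (sylowIn_top P)) ⟨h1, norm_of_normal _ _⟩
    obtain ⟨z, hz, h6⟩ := trivgPn.1 (center_nil_ne_bot (pgroup_nil P.isPGroup') hP1)
    rw [← e] at hz ⊢
    exact ((cent_le_cent1 hz).trans (CN.cent1_eq hCN hmax (CN.mem_cent_of_nil hH hz) h6).le).antisymm
      (cents_symm fun z => CN.mem_cent_of_nil hH)
  have nH : H ⊴ ⊤ := ⟨le_top, h2 ▸ norms_cent (norms_center (norm_of_normal _ _))⟩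
  have h3 := CN.hall hCN hH hmax
  obtain rfl : fittingHall G = H := hmax _ (nilpotentS (sSup_le fun N h => Fitting_max (normal_top_iff.2 h.1) h.2.1)
    (Fitting_nil ⊤)) (le_sSup ⟨nH.normal, hH, by simpa using h3.coprime⟩)
  have h4 : fittingHall G ≠ ⊥ := fun e => hP1 (eq_bot_iff.2 (e ▸ h1))
  have h5 : fittingHall G ≠ ⊤ := fun e => hnn (isog_nil (isog_symm isog_top) (e ▸ hH))
  obtain ⟨E, h6, -⟩ := sdprod_Hall_exists h3 nH
  have h7 : Frob (fittingHall G) E ⊤ := ⟨h6, h4, fun e => h5 (by rw [← h6.sup, e, sup_bot_eq]),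
    Semiregular.sym fun x hx h0 => eq_bot_iff.2 ((le_inf (inf_le_right.trans
      (CN.cent1_le hCN hH hmax hx h0 (le_top.trans nH.norm))) inf_le_left).trans h6.inf.le)⟩
  obtain ⟨z, -, h8, h9⟩ := Frob.exists_center_of_semiregular h4 h7.neE h7.norm h7.reg
  exact ⟨h4, h5, ⟨E, isComplement'_iff_sdprod.2 h6, (isFC_of_frob h7).1, h7.reg⟩,
    isog_nil (isog_trans h6.isog (isog_symm (quotient_top_isog _))) (nilpotentS (fun x hx => mem_cent1.2 (h9 x hx)) (hCN z h8))⟩

end Cfsg.Agent.S1474
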