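import Cfsg.Statements.S1477
import Cfsg.Agent.FG.CN

set_option autoImplicit false
open Cfsg

namespace Cfsg.Agent.S1477

open Cfsg.Agent.BG Cfsg.Agent.FG Subgroup

/-- Let G be a finite group in which every non-identity element has nilpotent centralizer, and H a nilpotent subgroup not properly contained in any nilpotent subgroup. Then the order of H is coprime to its index; if the order of H is not a prime power then H ∩ gHg⁻¹ = 1 whenever gHg⁻¹ ≠ H; and if H ∩ gHg⁻¹ = 1 whenever gHg⁻¹ ≠ H, then C_G(x) ≤ H for every non-identity x ∈ H. -/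
theorem result {G : Type*} [Group G] [Finite G] (hCN : Cfsg.IsCNGroup G) (H : Subgroup G) (hH : Group.IsNilpotent H)
    (hmax : ∀ L : Subgroup G, Group.IsNilpotent L → H ≤ L → L = H) :
    (Nat.card H).Coprime H.index ∧
      (¬ IsPrimePow (Nat.card H) → Nat.card H ≠ 1 → ∀ g : G, H.map (MulAut.conj g).toMonoidHom ≠ H → H ⊓ H.map (MulAut.conj g).toMonoidHom = ⊥) ∧
      ((∀ g : G, H.map (MulAut.conj g).toMonoidHom ≠ H → H ⊓ H.map (MulAut.conj g).toMonoidHom = ⊥) → ∀ x ∈ H, x ≠ 1 → Subgroup.centralizer ({x} : Set G) ≤ H) := by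
  refine ⟨by simpa using (CN.hall hCN hH hmax).coprime, fun h1 h2 g h3 => by_contra fun h4 => h3 ?_,
    fun h x hx h1 => CN.cent1_le hCN hH hmax hx h1 fun g hg => mem_norm.2 (by_contra fun e =>
      h1 ((h g e).le ⟨hx, mem_cj'.2 ⟨x, hx, mul_inv_eq_iff_eq_mul.2 (mem_cent1.1 hg)⟩⟩))⟩
  rw [← cj_def] at h4 ⊢
  obtain ⟨p, hp, h5⟩ := exists_prime_dvd_card h4
  obtain ⟨x, hx, rfl⟩ := Cauchy hp h5
  obtain ⟨q, hq, h6, h7⟩ : ∃ q, q.Prime ∧ q ∣ #H ∧ q ≠ orderOf x := by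
    by_contra! h6
    exact h1 (isPrimePow_iff_unique_prime_dvd.2 ⟨_, ⟨hp, orderOf_dvd_cardG hx.1⟩, fun q h => h6 q h.1 h.2⟩)
  haveI := Fact.mk hq
  have key : ∀ K : Subgroup G, Group.IsNilpotent K → (∀ L : Subgroup G, Group.IsNilpotent L → K ≤ L → L = K) → x ∈ K →
      q ∣ #K → Op q K = Op q C1[x] ∧ C[Z[Op q K]] = K := fun K h1 h2 h3 h4 => by
    have h5 := CN.sylow hCN h1 h2 h4
    refine ⟨(nilpotent_Hall_pcore (hCN x (ne_one_of_prime hp)) (pHall_subl (C_zpowers x ▸ sub_nilpotent_cent2 h1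
      (pcore_sub _ _) (zpowers_le.2 h3) (pnat_coprime h5.pi (p_elt_zpowers.2 ((pnat_prime hp).2 h7.symm)))) le_top h5)), ?_⟩
    obtain ⟨z, hz, h6⟩ := trivgPn.1 (center_nil_ne_bot (pgroup_nil h5.pg) (Sylow_ne_bot (nilpotent_pcore_Hall _ h1) h4))
    exact ((cent_le_cent1 hz).trans (CN.cent1_eq hCN h2 (CN.mem_cent_of_nil h1 hz) h6).le).antisymm
      (cents_symm fun z => CN.mem_cent_of_nil h1)
  obtain ⟨h8, h9⟩ := key H hH hmax hx.1 h6
  obtain ⟨h10, h11⟩ := key (cj g H) (nilpotentJ g hH)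
    (fun L h1 h2 => cj_eq_iff.1 (hmax _ (nilpotentJ g⁻¹ h1) (le_cj_iff.2 (by rwa [inv_inv]))) |>.trans (by rw [inv_inv]))
    hx.2 (by rwa [card_cj])
  rw [← h11, h10, ← h8, h9]

end Cfsg.Agent.S1477
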