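import Cfsg.Statements.S1480
import Cfsg.Agent.Sig.Trans

set_option autoImplicit false
open Cfsg

namespace Cfsg.Agent.S1480

open Subgroup Cfsg.Agent.BG Cfsg.Agent.Sig

theorem class2 {S : Type*} [Group S] [Group.IsNilpotent S] (h : Group.nilpotencyClass S ≤ 2) :
    ⁅⁅(⊤ : Subgroup S), (⊤ : Subgroup S)⁆, (⊤ : Subgroup S)⁆ = ⊥ :=
  (Subgroup.lowerCentralSeries_eq_bot_iff_nilpotencyClass_le (G := S) (n := 2)).2 h

/-- Let G be a finite group and p a prime such that the normalizer of every nontrivial p-subgroup of G is p-constrained; if p = 2 assume also that the Sylow 2-subgroups of G have nilpotency class at most 2. Let E be an abelian p-subgroup containing an elementary abelian subgroup of order p ^ 3 and containing every element of p-power order of C_G(E). Then for every prime q ≠ p, any two maximal E-invariant q-subgroups of G are conjugate by an element of O_{p'}(C_G(E)). -/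
theorem result {G : Type*} [Group G] [Finite G] (p : ℕ) [Fact p.Prime]
    (hloc : ∀ T : Subgroup G, IsPGroup p T → T ≠ ⊥ → Cfsg.IsPConstrained p ↥(Subgroup.normalizer (T : Set G)))
    (h2 : p = 2 → ∀ S : Sylow p G, Group.IsNilpotent (S : Subgroup G) ∧ Group.nilpotencyClass (S : Subgroup G) ≤ 2)
    (E : Subgroup G) (hEp : IsPGroup p E) (hEc : IsMulCommutative E) (hE3 : ¬ Cfsg.PRankLE p 2 E)
    (hEfull : ∀ x ∈ Subgroup.centralizer (E : Set G), IsPGroup p (Subgroup.zpowers x) → x ∈ E)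
    (q : ℕ) [Fact q.Prime] (hqp : q ≠ p) :
    ∀ Q₁ ∈ Cfsg.maxInvSubgroups ⊤ E {q}, ∀ Q₂ ∈ Cfsg.maxInvSubgroups ⊤ E {q},
        ∃ k ∈ Cfsg.piCoreOf (Cfsg.primesNotDvd p) (Subgroup.centralizer (E : Set G)), Q₂ = Q₁.map (MulAut.conj k).toMonoidHom := by
  intro Q₁ h₁ Q₂ h₂
  obtain ⟨A, hAE, hA, h3⟩ := exists_abelem_of_rank hE3
  have hfull : ∀ k, ∀ x ∈ C[E], x ^ p ^ k = 1 → x ∈ E := fun k x hx h1 => hEfull x hx fun ⟨y, hy⟩ => by
    obtain ⟨n, rfl⟩ := hy
    exact ⟨k, Subtype.ext (by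
      change (x ^ n) ^ p ^ k = 1
      rw [← zpow_natCast, ← zpow_mul, mul_comm, zpow_mul, zpow_natCast, h1, one_zpow])⟩
  refine (trans_of_inv hqp hEp hEc hA hAE h3 (fun T hT hT1 Q hQ pQ nQ => ?_) h₁ h₂).imp fun c ⟨hc, e⟩ => ?_
  swap
  · refine ⟨?_, e.symm⟩
    rwa [eq_in_pcore (ρ := {p}ᶜ)]
    intro r hr _
    simp only [primesNotDvd, Set.mem_ofPred_eq, Set.mem_compl_iff, Set.mem_singleton_iff, hr, true_and,
      Nat.prime_dvd_prime_iff_eq hr Fact.out]
  · have hEN : E ≤ N[T] := sub_abelian_norm hEc hT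
    have hX := hloc T (hEp.to_le hT) hT1
    have cQ : (#(Q.subgroupOf N[T])).Coprime p := by
      rw [card_subgroupOf hQ]; exact (p'nat_coprime Fact.out).1 pQ
    have hΩ : ∀ k, ∀ x ∈ C[E.subgroupOf N[T]], x ^ p ^ k = 1 → x ∈ E.subgroupOf N[T] := fun k x hx h1 =>
      hfull k x (fun y hy => congrArg Subtype.val (hx ⟨y, hEN hy⟩ hy)) (congrArg Subtype.val h1)
    have key : Q.subgroupOf N[T] ≤ pPrimeCore p N[T] := by
      by_cases hp2 : p = 2
      · refine inv_le_core_class2 hX (Loc.isPGroup_subgroupOf hEp _) (fun S hS => ?_) hΩ cQ (norms_subgroupOf _ nQ)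
        obtain ⟨R, hR⟩ := (hS.map N[T].subtype).exists_le_sylow
        obtain ⟨i, h⟩ := h2 hp2 R
        have h' := congrArg (Subgroup.map (R : Subgroup G).subtype) (class2 h)
        rw [map_commutator, map_commutator, map_subtype_top, Subgroup.map_bot] at h'
        apply map_injective N[T].subtype_injective
        rw [map_commutator, map_commutator, Subgroup.map_bot, eq_bot_iff, ← h']
        exact commgSS (commgSS hR hR) hR
      · exact inv_le_core_odd hp2 hX (Loc.isPGroup_subgroupOf hEp _) (by simpa using hΩ 1) cQ (norms_subgroupOf _ nQ)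
    rw [Op'_eq]
    intro x hx
    exact ⟨⟨x, hQ hx⟩, key hx, rfl⟩

end Cfsg.Agent.S1480
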