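import Cfsg.Statements.S1481
import Cfsg.Agent.BG.Base6
import Cfsg.Agent.Loc.Res

set_option autoImplicit false
open Cfsg

namespace Cfsg.Agent.S1481

/-- Let G be a finite group and H a local subgroup (the normalizer of a nontrivial subgroup of prime-power order) not properly contained in any local subgroup; let F = F(H), suppose at least two primes divide #F, put X = H ∩ C_G(F), let M ≤ F with F ∩ C_G(M) ≤ M, and let R be a solvable subgroup normalized by M and by X. Then for every prime q not dividing #F there is exactly one maximal M-invariant q-subgroup of R, and it is a Sylow q-subgroup of the largest normal subgroup of R of order coprime to #F. -/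
theorem result {G : Type*} [Group G] [Finite G] (H : Subgroup G) (hH : Cfsg.IsLocalSubgroup H) (hHmax : ∀ L : Subgroup G, Cfsg.IsLocalSubgroup L → H ≤ L → L = H)
    (hF2 : 2 ≤ (Nat.card (Cfsg.fittingOf H)).primeFactors.card)
    (M : Subgroup G) (hM : M ≤ Cfsg.fittingOf H) (hCM : Cfsg.fittingOf H ⊓ Subgroup.centralizer (M : Set G) ≤ M)
    (R : Subgroup G) (hR : Group.IsSolvable R) (hMR : M ≤ Subgroup.normalizer (R : Set G))
    (hXR : H ⊓ Subgroup.centralizer (Cfsg.fittingOf H : Set G) ≤ Subgroup.normalizer (R : Set G))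
    (q : ℕ) [Fact q.Prime] (hq : ¬ q ∣ Nat.card (Cfsg.fittingOf H)) :
    ∃! Q : Subgroup G, Q ∈ Cfsg.maxInvSubgroups R M {q} ∧
      (∀ Q' : Subgroup G, Q' ∈ Cfsg.maxInvSubgroups R M {q} →
        Q' ≤ Cfsg.piCoreOf (Cfsg.primesNotDvd (Nat.card (Cfsg.fittingOf H))) R ∧
        ¬ q ∣ Q'.relIndex (Cfsg.piCoreOf (Cfsg.primesNotDvd (Nat.card (Cfsg.fittingOf H))) R)) := by
  open Cfsg.Agent.BG Subgroup in
  open scoped commutatorElement in
  set F := fittingOf H
  have nF := Fitting_nil H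
  have FH := Fitting_normal H
  have hZ : ∀ p, p.Prime → p ∣ #F → ∃ Z, Z ⊴ H ∧ Z ≤ M ∧ F ≤ C[Z] ∧ C[Z] ≤ H ∧ PiGrp {p} Z := fun p hp hd => by
    have := Fact.mk hp
    have n := (FH.pcore {p}).inf FH.center
    have g : PiGrp {p} (Op p F ⊓ Z[F] : Subgroup G) := pgroupS inf_le_left (pcore_pgroup _ _)
    exact ⟨_, n, inf_le_right.trans ((inf_le_inf_left _ (centS hM)).trans hCM),
      cents_symm (inf_le_right.trans inf_le_right), (cent_sub _).trans (hHmax _ ⟨p, _, hp, g.pg, meet_center_nil nF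
        (pcore_normal _ _) (Hall_ne_bot (nilpotent_pcore_Hall _ nF) hp rfl hd), rfl⟩ n.norm).le, g⟩
  have hc : ∀ Y Z, Y ≤ R → M ≤ N[Y] → (#F).Coprime #Y → F ≤ C[Z] → C[Z] ≤ H → Y ⊓ C[Z] = ⊥ := by
    intro Y Z y1 y2 y3 z1 z2
    have l := inf_le_right.trans z2 (a := Y ⊓ C[Z])
    have c := coprimegS (inf_le_left : Y ⊓ C[Z] ≤ Y) y3
    have c1 : Y ⊓ C[Z] ≤ C[F] := coprime_nil_cent_of_selfcent (l.trans FH.norm) c nF hM (commG1.1 (le_bot_iff.1
      ((le_inf ((commgS _ hM).trans (commg_subr (l.trans FH.norm))) (commg_subl (normsI y2 (normsG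
        (hM.trans z1))))).trans (coprime_TI c).le))) hCM
    have l1 : Y ⊓ C[Z] ≤ (H ⊓ C[F]) ⊓ R := le_inf (le_inf l c1) (inf_le_left.trans y1)
    have l2 : fittingOf ((H ⊓ C[F]) ⊓ R) ≤ F := (FittingS_normal (norm_normalI hXR)).trans (FittingS_normal FH.cent)
    exact le_bot_iff.1 ((le_inf ((le_inf l1 (c1.trans (centS l2))).trans
      ((cent_sub_Fitting (solvableS inf_le_right hR)).trans l2)) le_rfl).trans (coprime_TI c).le)
  obtain ⟨p₁, h₁, p₂, h₂, hne⟩ := Finset.one_lt_card.1 hF2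
  have sM := nilpotent_sol (nilpotentS hM nF)
  have cq : ∀ Q : Subgroup G, PiGrp {q} Q → (#F).Coprime #Q := fun Q h => coprime_pi'.2 fun r hr hd k =>
    hq ((show r = q from h r hr hd) ▸ k.2)
  have hY : ∀ Q ∈ invSubgroups R M {q}, Q ≤ piCoreOf (primesNotDvd #F) R := fun Q ⟨q1, q2, q3⟩ => by
    refine (Loc.le_iSup_cj Q R).trans (pcore_max ⟨Loc.iSup_cj_le q1 le_normalizer, Loc.le_normalizer_iSup_cj Q R⟩
      fun p hp hd => ⟨hp, fun hF => ?_⟩)
    have := Fact.mk hp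
    obtain ⟨r, hr, rF, rp⟩ : ∃ r, r.Prime ∧ r ∣ #F ∧ r ≠ p := by
      have a := Nat.mem_primeFactors.1 h₁
      have b := Nat.mem_primeFactors.1 h₂
      by_cases e : p₁ = p
      exacts [⟨p₂, b.1, b.2.1, e ▸ hne.symm⟩, ⟨p₁, a.1, a.2.1, e⟩]
    obtain ⟨Z, -, z2, z3, z4, z5⟩ := hZ p hp hF
    obtain ⟨W, w1, w2, w3, w4, w5⟩ := hZ r hr rF
    have l1 : W ≤ Op' p (R ⊔ M) := (pcore_max ⟨le_inf (w2.trans le_sup_right) (w2.trans (hM.trans z3)),
      (inf_le_right.trans z4).trans w1.norm⟩ fun s hs hd e => rp ((show s = r from w5 s hs hd).symm.trans e)).trans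
      (p'core_cent_pgroup (z2.trans le_sup_right) z5.pg (solvableY (Or.inr hMR) hR sM))
    have e := coprime_cent_prod (w2.trans q3) (coprimegS (w2.trans hM) (cq Q q2).symm) (solvableS q1 hR)
    rw [hc Q W q1 q3 (cq Q q2) w3 w4, sup_bot_eq] at e
    have l2 : Q ≤ Op' p R := (le_inf (e.ge.trans ((commgS _ l1).trans (commg_subr ((q1.trans le_sup_left).trans
      (pcore_normal _ _).norm)))) q1).trans (pcore_setI_normal _ (normalYl hMR)).le
    exact pgroupS (Loc.iSup_cj_le l2 (pcore_normal _ _).norm) (pcore_pgroup _ _) p hp hd rfl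
  set Y := piCoreOf (primesNotDvd #F) R
  have nY : M ≤ N[Y] := norms_pcore _ hMR
  have cF : (#F).Coprime #Y := coprime_pi'.2 (pnat_primesNotDvd.1 (pcore_pgroup _ _))
  have cY := coprimegS hM cF.symm
  obtain ⟨Q, s, n⟩ := coprime_Sylow_exists q nY cY (Or.inl sM)
  have m : Q ∈ invSubgroups R M {q} := ⟨s.le.trans (pcore_sub _ _), s.pi, n⟩
  have all : ∀ Q' ∈ invSubgroups R M {q}, Q' ≤ Q := fun Q' h => by
    obtain ⟨P, s', n', l⟩ := coprime_Sylow_subset nY cY (Or.inl sM) (hY Q' h) (PiNat.pg h.2.1) h.2.2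
    obtain ⟨x, hx, e⟩ := coprime_Sylow_trans nY cY (Or.inl sM) s n s' n'
    obtain ⟨Z, -, z2, z3, z4, -⟩ := hZ p₁ (Nat.mem_primeFactors.1 h₁).1 (Nat.mem_primeFactors.1 h₁).2.1
    rw [mem_bot.1 ((hc Y Z (pcore_sub _ _) nY cF z3 z4).le ⟨hx.1, centS z2 hx.2⟩), cj_one] at e
    exact e ▸ l
  have u : ∀ Q' ∈ maxInvSubgroups R M {q}, Q' = Q := fun Q' h => (h.2 Q m (all Q' h.1)).symm
  exact ⟨Q, ⟨⟨m, fun Q' h l => le_antisymm (all Q' h) l⟩, fun Q' h => u Q' h ▸ ⟨s.le, s.not_dvd⟩⟩, fun Q' h => u Q' h.1⟩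

end Cfsg.Agent.S1481
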