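import Cfsg.Statements.S1485
import Cfsg.Agent.PF.Bridge

set_option autoImplicit false
open Cfsg

namespace Cfsg.Agent.S1485

open Cfsg.Agent.PF Cfsg.Agent.BG
open scoped _root_.Classical

/-- Let H be a normal subgroup of the finite group G and θ an irreducible character of H. On H, the function induced from θ equals r times the sum of the distinct G-conjugates of θ, where r is the number of elements of G fixing θ under conjugation divided by the order of H (the index of H in the inertia group). -/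
theorem result {G : Type*} [Group G] [Fintype G] (H : Subgroup G) [hN : H.Normal] (θ : H → ℂ) (hθ : Cfsg.IsIrrCharacter H θ) : (fun h : H => Cfsg.indFun H θ h) = ((Nat.card {g : G // ∀ h : H, θ ⟨g * h * g⁻¹, hN.conj_mem h h.2 g⟩ = θ h} : ℂ) / (Nat.card H : ℂ)) • ∑ᶠ ψ ∈ {ψ : H → ℂ | ∃ g : G, ψ = fun h : H => θ ⟨g * h * g⁻¹, hN.conj_mem h h.2 g⟩}, ψ := by
  have e := Ind_eq_sum_cfclass (normal_top H) (Irr_CF (ext_mem_Irr.2 hθ))
  have s : {ψ : H → ℂ | ∃ g : G, ψ = fun h : H => θ ⟨g * h * g⁻¹, hN.conj_mem h h.2 g⟩} =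
      ((cfclass ⊤ (ext H θ)).preimage (ext H) (ext_injective H).injOn : Finset (H → ℂ)) := by
    ext ψ
    simp only [Finset.coe_preimage, Set.mem_preimage, Finset.mem_coe, mem_cfclass, cj_ext,
      (ext_injective H).eq_iff, Subgroup.mem_top, true_and, Set.mem_ofPred_eq, eq_comm]
  have c : Nat.card {g : G // ∀ h : H, θ ⟨g * h * g⁻¹, hN.conj_mem h h.2 g⟩ = θ h} =
      Nat.card (inertia (ext H θ)) :=
    Nat.card_congr (Equiv.subtypeEquivRight fun g => (mem_inertia_ext θ g).symm)
  rw [s, finsum_mem_coe_finset, c, ← relIndex_cast (le_inertia_of_CF (Irr_CF (ext_mem_Irr.2 hθ)))]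
  apply ext_injective H
  rw [map_smul, map_sum, Finset.sum_preimage (ext H) _ _ (fun x => x) fun x hx hx' => (hx' ?_).elim,
    ← Ind_ext, ext_restrict (Ind_normal_mem_CF le_top (normal_top H).norm).1, e, top_inf_eq]
  obtain ⟨g, -, rfl⟩ := mem_cfclass.1 hx
  exact ⟨_, (cj_ext θ g).symm⟩

end Cfsg.Agent.S1485
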