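import Cfsg.Statements.S1488
import Cfsg.Agent.PF.Bridge2

set_option autoImplicit false
open Cfsg

namespace Cfsg.Agent.S1488

open Cfsg.Agent.PF Cfsg.Agent.BG
open scoped _root_.Classical
set_option maxSynthPendingDepth 3

/-- Let A be a normal subgroup of the finite group G contained in the subgroup H, let θ be a function on H and θ₁ a function on the image of H in G ⧸ A whose composite with the projection is θ. Then the function induced from θ₁ to G ⧸ A, composed with the projection G → G ⧸ A, equals the function induced from θ to G. -/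
theorem result {G : Type*} [Group G] [Fintype G] (A H : Subgroup G) [A.Normal] (hAH : A ≤ H) [Fintype (G ⧸ A)] [Fintype ↥(H.map (QuotientGroup.mk' A))] (θ : H → ℂ) (θ₁ : ↥(H.map (QuotientGroup.mk' A)) → ℂ) (hθ : ∀ x : H, θ₁ ⟨QuotientGroup.mk' A x, Subgroup.mem_map_of_mem _ x.2⟩ = θ x) (g : G) : Cfsg.indFun (H.map (QuotientGroup.mk' A)) θ₁ (QuotientGroup.mk' A g) = Cfsg.indFun H θ g := by
  have e : ∀ y : G, extendByZero (H.map (QuotientGroup.mk' A)) θ₁ (QuotientGroup.mk' A y) =
      extendByZero H θ y := fun y => by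
    by_cases hy : y ∈ H
    · rw [CharDeep.extendByZero_of_mem _ _ hy, ← hθ ⟨y, hy⟩, CharDeep.extendByZero_of_mem]
    · rw [CharDeep.extendByZero_of_not_mem _ _ hy, CharDeep.extendByZero_of_not_mem]
      rwa [← Subgroup.mem_comap, Subgroup.comap_map_eq, QuotientGroup.ker_mk', sup_eq_left.2 hAH]
  have c : (Nat.card H : ℂ) = Nat.card A * Nat.card (H.map (QuotientGroup.mk' A)) := by
    rw [← Nat.cast_mul, ← Subgroup.relIndex_ker, QuotientGroup.ker_mk', card_mul_relIndex hAH]
  have s : ∀ f : G ⧸ A → ℂ, ∑ x : G, f (QuotientGroup.mk' A x) = Nat.card A * ∑ y, f y := fun f => by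
    rw [← Finset.sum_fiberwise (g := fun x : G => QuotientGroup.mk' A x), Finset.mul_sum]
    refine Finset.sum_congr rfl fun y _ => ?_
    rw [Finset.sum_congr rfl (g := fun _ => f y) fun x hx => by rw [(Finset.mem_filter.1 hx).2],
      Finset.sum_const, nsmul_eq_mul, ← Fintype.card_subtype, ← Nat.card_eq_fintype_card]
    obtain ⟨y, rfl⟩ := QuotientGroup.mk'_surjective A y
    congr 2
    refine (Nat.card_congr (MonoidHom.fiberEquivKer (QuotientGroup.mk' A) y)).trans ?_
    rw [QuotientGroup.ker_mk']
  simp only [indFun, ← e, map_mul, map_inv]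
  rw [s fun y => extendByZero _ θ₁ (y⁻¹ * QuotientGroup.mk' A g * y), c]
  have := cardC_ne_zero A
  field_simp

end Cfsg.Agent.S1488
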