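import Cfsg.Statements.S1489
import Cfsg.Agent.PF.Bridge

set_option autoImplicit false
open Cfsg

namespace Cfsg.Agent.S1489

open Cfsg.Agent.PF Cfsg.Agent.BG
open scoped _root_.Classical

/-- Let H be a normal subgroup of the finite group G, θ an irreducible character of H, and T the inertia group of θ (the elements g with θ(g h g⁻¹) = θ(h) for all h ∈ H). If ψ and ψ' are irreducible characters of T having nonzero inner product with the function induced from θ to T, then the function induced from ψ to G is an irreducible character of G, and it equals the one induced from ψ' only if ψ = ψ'. -/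
theorem result {G : Type*} [Group G] [Fintype G] (H T : Subgroup G) [hN : H.Normal] [Fintype T] (θ : H → ℂ) (hθ : Cfsg.IsIrrCharacter H θ) (hT : ∀ g : G, g ∈ T ↔ ∀ h : H, θ ⟨g * h * g⁻¹, hN.conj_mem h h.2 g⟩ = θ h) (hHT : H ≤ T) (ψ ψ' : T → ℂ) (hψ : Cfsg.IsIrrCharacter T ψ) (hψ' : Cfsg.IsIrrCharacter T ψ') (hc : Cfsg.classInner (Cfsg.indFun (H.subgroupOf T) (fun x => θ ⟨(x : T), Subgroup.mem_subgroupOf.mp x.2⟩)) ψ ≠ 0) (hc' : Cfsg.classInner (Cfsg.indFun (H.subgroupOf T) (fun x => θ ⟨(x : T), Subgroup.mem_subgroupOf.mp x.2⟩)) ψ' ≠ 0) : Cfsg.IsIrrCharacter G (Cfsg.indFun T ψ) ∧ (Cfsg.indFun T ψ = Cfsg.indFun T ψ' → ψ = ψ') := by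
  have h := ext_mem_Irr.2 hθ
  have hI : ⊤ ⊓ inertia (ext H θ) ≤ T := fun g hg => (hT g).2 ((mem_inertia_ext θ g).1 hg.2)
  have k : ∀ ψ : T → ℂ, IsIrrCharacter T ψ → classInner (indFun (H.subgroupOf T)
      (fun x => θ ⟨(x : T), Subgroup.mem_subgroupOf.mp x.2⟩)) ψ ≠ 0 →
      dot H (ext T ψ) (ext H θ) ≠ 0 := fun ψ hψ hc => by
    rw [← dot_Ind_ne_zero hHT (CF_inv (Irr_CF (ext_mem_Irr.2 hψ))), ← ext_indFun hHT, dot_ext]
    convert hc using 4 with x
    exact ext_of_mem _ _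
  rw [← Ind_ext, ← Ind_ext, ← mem_Irr_top]
  exact ⟨Ind_inertia_irr (normal_top H) h hHT le_top hI (ext_mem_Irr.2 hψ) (k ψ hψ hc),
    fun e => ext_injective T (Ind_inertia_inj (normal_top H) h hHT le_top hI (ext_mem_Irr.2 hψ)
      (k ψ hψ hc) (ext_mem_Irr.2 hψ') (k ψ' hψ' hc') e)⟩

end Cfsg.Agent.S1489
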