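import Cfsg.Statements.S1493
import Cfsg.Agent.PF.Bridge

set_option autoImplicit false
open Cfsg

namespace Cfsg.Agent.S1493

open Cfsg.Agent.PF Cfsg.Agent.BG
open scoped _root_.Classical

/-- Let G be a finite group of order a * b with a and b coprime, let k be coprime to a, and let χ be a character of G. Then there is a character χ' of G such that χ'(g) = χ(g ^ k) whenever the order of g divides a and χ'(g) = χ(g) whenever the order of g is coprime to a; moreover χ' is irreducible if χ is. -/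
theorem result {G : Type*} [Group G] [Finite G] (a b k : ℕ) (hab : Nat.card G = a * b) (hcop : Nat.Coprime a b) (hk : Nat.Coprime k a) (χ : G → ℂ) (hχ : Cfsg.IsCharacter G χ) : ∃ χ' : G → ℂ, Cfsg.IsCharacter G χ' ∧ (Cfsg.IsIrrCharacter G χ → Cfsg.IsIrrCharacter G χ') ∧ (∀ g : G, orderOf g ∣ a → χ' g = χ (g ^ k)) ∧ (∀ g : G, Nat.Coprime (orderOf g) a → χ' g = χ g) := by
  have a0 : a ≠ 0 := left_ne_zero_of_mul (hab ▸ Nat.card_pos.ne')
  obtain ⟨u, -, hu⟩ := make_pi_cfAut G a k a0 hk
  have h := isChar_top.2 hχ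
  obtain ⟨h1, h2⟩ := hu ⊤ χ h.mem_ZIrr
  exact ⟨aut u χ, isChar_top.1 (h.aut u), fun hi => mem_Irr_top.1 (Irr_aut (mem_Irr_top.2 hi) u),
    fun g => h1 g (Subgroup.mem_top g), h2⟩

end Cfsg.Agent.S1493
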