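import Cfsg.Statements.S1500
import Cfsg.Agent.PF.Bridge

set_option autoImplicit false
open Cfsg

namespace Cfsg.Agent.S1500

open Cfsg.Agent.PF Cfsg.Agent.BG
open scoped _root_.Classical

/-- Under the Dade hypothesis for (A, L, H), let α be a class function of L vanishing outside A. Then (i) for every class function β of L vanishing outside A, the inner product over G of the Dade images of α and β equals the inner product of α and β over L; and (ii) for every class function χ of G and every function ψ on L whose value at each a ∈ A is the average of χ over the coset a·H(a), the inner product over G of the Dade image of α with χ equals the inner product over L of α with ψ. -/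
theorem result {G : Type*} [Group G] [Fintype G] (A : Set G) (L : Subgroup G) [Fintype L] (H : G → Subgroup G) (hD : Cfsg.DadeHypothesis A L H) (α : L → ℂ) (hα : Cfsg.IsClassFunction L α) (hαA : ∀ x : L, (x : G) ∉ A → α x = 0) : (∀ β : L → ℂ, Cfsg.IsClassFunction L β → (∀ x : L, (x : G) ∉ A → β x = 0) → Cfsg.classInner (Cfsg.dadeIsometry A L H α) (Cfsg.dadeIsometry A L H β) = Cfsg.classInner α β) ∧ (∀ (χ : G → ℂ) (ψ : L → ℂ), Cfsg.IsClassFunction G χ → (∀ a : L, (a : G) ∈ A → ψ a = (Nat.card (H a) : ℂ)⁻¹ * ∑ᶠ u ∈ (H a : Set G), χ (a * u)) → Cfsg.classInner (Cfsg.dadeIsometry A L H α) χ = Cfsg.classInner α ψ) := by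
  have h := ext_mem_CFon hα hαA
  refine ⟨fun β hβ _ => ?_, fun χ ψ hχ hψ => ?_⟩
  · rw [← dot_top, ← dade_extendByZero, ← dade_extendByZero, ← dot_ext]
    exact Dade_isometry hD h (CF_inv (extendByZero_mem_CF hβ))
  · rw [← dot_top, ← dade_extendByZero, ← dot_ext]
    refine (invDade_reciprocity hD h (mem_CF_top.2 hχ).2).trans
      (dot_congr_of_ne_zero fun g hg h0 => ?_)
    have hA : g ∈ A := by_contra fun k => h0 (h.2 g k)
    rw [ext_of_mem _ hg, hψ ⟨g, hg⟩ hA, ← coe_fs (H g : Set G), finsum_mem_coe_finset]
    exact if_pos hA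

end Cfsg.Agent.S1500
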