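import Cfsg.Statements.S1502
import Cfsg.Agent.PF3.Frozen

set_option autoImplicit false
open Cfsg

namespace Cfsg.Agent.S1502

open Cfsg.Agent.PF Cfsg.Agent.PF3 Cfsg.Agent.BG
set_option maxSynthPendingDepth 3

/-- Let W₁, W₂ be nontrivial subgroups of the finite group G generating a cyclic subgroup W = W₁ ⊔ W₂ of odd order that is the normaliser of every nonempty set of its elements outside W₁ ∪ W₂. Then there is a family attaching to each linear character ω of W an irreducible character of G up to sign, orthonormal, sending the trivial character to the principal character, with χ ω = ω on W outside W₁ ∪ W₂, and such that inducing (1 − φ)(1 − ψ) to G gives 1 − χ φ − χ ψ + χ (φψ) whenever φ ≠ 1 is trivial on W₂ and ψ ≠ 1 is trivial on W₁. -/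
theorem result {G : Type*} [Group G] [Fintype G] (W₁ W₂ : Subgroup G) (hW : Cfsg.IsSelfNormalizingCyclic W₁ W₂) (hodd : Odd (Nat.card ↥(W₁ ⊔ W₂))) : ∃ χ : (↥(W₁ ⊔ W₂) →* ℂˣ) → (G → ℂ), Cfsg.IsCyclicTIFamily W₁ W₂ χ := by
  classical
  have h := snc_cycTI hW hodd
  refine ⟨h.et, fun l => dirr_top_iff.1 (h.et_dirr l), fun l l' => ?_, ?_, fun l w h1 h2 => ?_,
    fun φ ψ _ _ h1 h2 => ?_⟩
  · rw [← dot_top, h.dot_et]
  · rw [h.et_one, one_top]
  · rw [h.et_restrict l (mem_cycV.2 ⟨w.2, h1, h2⟩), lin_coe]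
  · obtain ⟨i, rfl⟩ := exists_om_right h.dprod h1
    obtain ⟨j, rfl⟩ := exists_om_left h.dprod h2
    rw [indFun_alpha, h.Ind_alpha, ← om_split, one_top]
    rfl

end Cfsg.Agent.S1502
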