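import Cfsg.Statements.S1504
import Cfsg.Agent.PF3.Frozen

set_option autoImplicit false
open Cfsg

namespace Cfsg.Agent.S1504

open Cfsg.Agent.PF Cfsg.Agent.PF3 Cfsg.Agent.BG
set_option maxSynthPendingDepth 3

/-- Let W₁, W₂ be subgroups of a finite group with W₁ ⊓ W₂ = ⊥ whose elements commute, and W = W₁ ⊔ W₂. For linear characters φ, ψ of W with φ trivial on W₂ and ψ trivial on W₁, the function (1 − φ)(1 − ψ) vanishes on W₁ ∪ W₂; and the family of these functions, indexed by pairs (φ, ψ) with φ ≠ 1 ≠ ψ, is linearly independent over ℂ. -/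
theorem result {G : Type*} [Group G] [Finite G] (W₁ W₂ : Subgroup G) (hdisj : W₁ ⊓ W₂ = ⊥) (hcomm : ∀ a ∈ W₁, ∀ b ∈ W₂, a * b = b * a) : (∀ φ ψ : ↥(W₁ ⊔ W₂) →* ℂˣ, (∀ w : ↥(W₁ ⊔ W₂), (w : G) ∈ W₂ → φ w = 1) → (∀ w : ↥(W₁ ⊔ W₂), (w : G) ∈ W₁ → ψ w = 1) → ∀ w : ↥(W₁ ⊔ W₂), ((w : G) ∈ W₁ ∨ (w : G) ∈ W₂) → (1 - (φ w : ℂ) - (ψ w : ℂ) + (φ w : ℂ) * (ψ w : ℂ)) = 0) ∧ LinearIndependent ℂ (fun p : {p : (↥(W₁ ⊔ W₂) →* ℂˣ) × (↥(W₁ ⊔ W₂) →* ℂˣ) // p.1 ≠ 1 ∧ p.2 ≠ 1 ∧ (∀ w : ↥(W₁ ⊔ W₂), (w : G) ∈ W₂ → p.1 w = 1) ∧ (∀ w : ↥(W₁ ⊔ W₂), (w : G) ∈ W₁ → p.2 w = 1)} => fun w : ↥(W₁ ⊔ W₂) => 1 - (p.1.1 w : ℂ) - (p.1.2 w : ℂ) + (p.1.1 w : ℂ) * (p.1.2 w : ℂ)) := by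
  classical
  have hd := dprod_of_comm hdisj hcomm
  refine ⟨fun φ ψ h1 h2 w hw => ?_, ?_⟩
  · rcases hw with hw | hw
    · simp [h2 w hw]
    · simp [h1 w hw]
  · rw [linearIndependent_iff']
    intro s c hs p hp
    have key : ∀ q : {p : (↥(W₁ ⊔ W₂) →* ℂˣ) × (↥(W₁ ⊔ W₂) →* ℂˣ) // p.1 ≠ 1 ∧ p.2 ≠ 1 ∧
        (∀ w : ↥(W₁ ⊔ W₂), (w : G) ∈ W₂ → p.1 w = 1) ∧
        (∀ w : ↥(W₁ ⊔ W₂), (w : G) ∈ W₁ → p.2 w = 1)}, ∃ i j, i ≠ 1 ∧ j ≠ 1 ∧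
          q.1 = (om hd i 1, om hd 1 j) := by
      rintro ⟨⟨φ, ψ⟩, h1, h2, h3, h4⟩
      obtain ⟨i, rfl⟩ := exists_om_right hd h3
      obtain ⟨j, rfl⟩ := exists_om_left hd h4
      exact ⟨i, j, by simpa [om_eq_one] using h1, by simpa [om_eq_one] using h2, rfl⟩
    choose I J hI hJ hq using key
    have e : dot (W₁ ⊔ W₂) (∑ q ∈ s, c q • PF3.alpha hd (I q) (J q)) (lin (om hd (I p) (J p))) = 0 := by
      refine dot_eq_zero_of_support fun g hg => Or.inl ?_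
      have := congrFun hs ⟨g, hg⟩
      rw [Finset.sum_apply] at this ⊢
      refine Eq.trans (Finset.sum_congr rfl fun q _ => ?_) this
      rw [Pi.smul_apply, Pi.smul_apply, hq q]
      exact congrArg _ (alpha_coe hd (I q) (J q) ⟨g, hg⟩)
    rw [dot_sum_left, Finset.sum_eq_single p (fun q _ hqp => ?_) (fun h => absurd hp h)] at e
    · simp only [dot_smul_left, PF3.alpha, ← lin_one, dot_add_left, dot_sub_left] at e
      rw [← om_one hd] at e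
      simpa [dot_om, (hI p).symm, (hJ p).symm, -om_one, -lin_one] using e
    · have : ¬ (I q = I p ∧ J q = J p) := fun h => hqp (Subtype.ext (by rw [hq, hq, h.1, h.2]))
      simp only [dot_smul_left, PF3.alpha, ← lin_one, dot_add_left, dot_sub_left]
      rw [← om_one hd]
      simp [dot_om, (hI p).symm, (hJ p).symm, this, -om_one]

end Cfsg.Agent.S1504
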