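import Cfsg.Statements.S1505
import Cfsg.Agent.PF3.Frozen

set_option autoImplicit false
open Cfsg

namespace Cfsg.Agent.S1505

open Cfsg.Agent.PF Cfsg.Agent.PF3 Cfsg.Agent.BG
set_option maxSynthPendingDepth 3

open Classical in
/-- Let W₁, W₂ ≤ G form a self-normalising cyclic subgroup W = W₁ ⊔ W₂. For nontrivial linear characters φ, φ' of W trivial on W₂ and ψ, ψ' trivial on W₁, put α = (1 − φ)(1 − ψ) and α' = (1 − φ')(1 − ψ'). Then the function induced from α to G has inner product 1 with the principal character, and the inner product of the functions induced from α and α' is 1 + a + b + ab where a = 1 if φ = φ' (else 0) and b = 1 if ψ = ψ' (else 0). -/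
theorem result {G : Type*} [Group G] [Fintype G] (W₁ W₂ : Subgroup G) (hW : Cfsg.IsSelfNormalizingCyclic W₁ W₂) (φ φ' ψ ψ' : ↥(W₁ ⊔ W₂) →* ℂˣ) (hφ : φ ≠ 1) (hφ' : φ' ≠ 1) (hψ : ψ ≠ 1) (hψ' : ψ' ≠ 1) (hφ₂ : ∀ w : ↥(W₁ ⊔ W₂), (w : G) ∈ W₂ → φ w = 1 ∧ φ' w = 1) (hψ₁ : ∀ w : ↥(W₁ ⊔ W₂), (w : G) ∈ W₁ → ψ w = 1 ∧ ψ' w = 1) : Cfsg.classInner (Cfsg.indFun (W₁ ⊔ W₂) (fun w => 1 - (φ w : ℂ) - (ψ w : ℂ) + (φ w : ℂ) * (ψ w : ℂ))) (fun _ => 1) = 1 ∧ Cfsg.classInner (Cfsg.indFun (W₁ ⊔ W₂) (fun w => 1 - (φ w : ℂ) - (ψ w : ℂ) + (φ w : ℂ) * (ψ w : ℂ))) (Cfsg.indFun (W₁ ⊔ W₂) (fun w => 1 - (φ' w : ℂ) - (ψ' w : ℂ) + (φ' w : ℂ) * (ψ' w : ℂ))) = 1 + (if φ = φ' then 1 else 0) + (if ψ = ψ' then 1 else 0) + (if φ = φ' then 1 else 0) * (if ψ = ψ' then 1 else 0) := by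
  have hd := snc_dprod hW
  obtain ⟨i, rfl⟩ := exists_om_right hd fun w hw => (hφ₂ w hw).1
  obtain ⟨i', rfl⟩ := exists_om_right hd fun w hw => (hφ₂ w hw).2
  obtain ⟨j, rfl⟩ := exists_om_left hd fun w hw => (hψ₁ w hw).1
  obtain ⟨j', rfl⟩ := exists_om_left hd fun w hw => (hψ₁ w hw).2
  simp only [ne_eq, om_eq_one, and_true, true_and] at hφ hφ' hψ hψ'
  rw [indFun_alpha, indFun_alpha, ← dot_top, ← dot_top, ← one_top,
    dot_Ind_left le_top (CF_inv (one_mem_CF ⊤)), dot_one_change le_top, dot_alpha_one hd hφ hψ,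
    ti_dot_Ind (snc_ti hW) (alpha_mem_CFon hd _ _) (alpha_mem_CFon hd _ _),
    dot_alpha hd hφ hφ' hψ hψ']
  refine ⟨rfl, ?_⟩
  simp only [om_inj, and_true, true_and]
  split_ifs <;> norm_num

end Cfsg.Agent.S1505
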