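import Cfsg.Statements.S1507
import Cfsg.Agent.PF3.Frozen

set_option autoImplicit false
open Cfsg

namespace Cfsg.Agent.S1507

open Cfsg.Agent.PF Cfsg.Agent.PF3 Cfsg.Agent.BG
set_option maxSynthPendingDepth 3

open Classical in
/-- Let W₁, W₂ ≤ G form a self-normalising cyclic subgroup W = W₁ ⊔ W₂ of odd order with Nat.card W₁ < Nat.card W₂, and χ an orthonormal family of irreducible characters of G up to sign, indexed by the linear characters ω of W, with χ_1 = 1, χ_ω = ω on W outside W₁ ∪ W₂, and the induction identity for (1 − φ)(1 − ψ). Let θ be a class function of G vanishing on W outside W₁ ∪ W₂, and suppose fewer than 2 · Nat.card W₁ linear characters ω of W have ⟨θ, χ ω⟩ ≠ 0. Then one of: all ⟨θ, χ ω⟩ vanish; or there are ψ₀ and a with ⟨θ, χ ω⟩ = a when ω ψ₀⁻¹ is trivial on W₂ and 0 otherwise; or there are φ₀ and a with ⟨θ, χ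 ω⟩ = a when ω φ₀⁻¹ is trivial on W₁ and 0 otherwise. -/
theorem result {G : Type*} [Group G] [Fintype G] (W₁ W₂ : Subgroup G) (hW : Cfsg.IsSelfNormalizingCyclic W₁ W₂) (hodd : Odd (Nat.card ↥(W₁ ⊔ W₂))) (χ : (↥(W₁ ⊔ W₂) →* ℂˣ) → (G → ℂ)) (hχ : Cfsg.IsCyclicTIFamily W₁ W₂ χ) (hlt : Nat.card W₁ < Nat.card W₂) (θ : G → ℂ) (hθ : Cfsg.IsClassFunction G θ) (hθV : ∀ w : ↥(W₁ ⊔ W₂), (w : G) ∉ W₁ → (w : G) ∉ W₂ → θ w = 0) (hfew : Nat.card {ω : ↥(W₁ ⊔ W₂) →* ℂˣ // Cfsg.classInner θ (χ ω) ≠ 0} < 2 * Nat.card W₁) : (∀ ω, Cfsg.classInner θ (χ ω) = 0) ∨ (∃ (ψ₀ : ↥(W₁ ⊔ W₂) →* ℂˣ) (a : ℂ), ∀ ω, Cfsg.classInner θ (χ ω) = if (∀ w : ↥(W₁ ⊔ W₂), (w : G) ∈ W₂ → (ω * ψ₀⁻¹) w = 1) then a else 0) ∨ (∃ (φ₀ : ↥(W₁ ⊔ W₂) →* ℂˣ) (a : ℂ), ∀ ω, Cfsg.classInner θ (χ ω) = if (∀ w : ↥(W₁ ⊔ W₂), (w : G) ∈ W₁ → (ω * φ₀⁻¹) w = 1) then a else 0) := by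
  have h := snc_cycTI hW hodd
  have hd := h.dprod
  simp only [family_eq_et h hχ, ← dot_top] at hfew ⊢
  by_cases h0 : ∀ ω, dot ⊤ θ (h.et ω) = 0
  · exact Or.inl h0
  right
  push Not at h0
  obtain ⟨l, hl⟩ := h0
  obtain ⟨i₀, j₀, rfl⟩ := exists_om hd l
  have hNC : h.NC θ < 2 * min #W₁ #W₂ := by
    rw [h.NC_eq_card_et, min_eq_left hlt.le]
    rwa [Nat.card_eq_fintype_card, Fintype.card_subtype] at hfew
  rcases h.small_NC (CF_inv (mem_CF_top.2 hθ)) (fun x hx =>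
    hθV ⟨x, (mem_cycV.1 hx).1⟩ (mem_cycV.1 hx).2.1 (mem_cycV.1 hx).2.2) hNC hl with h1 | h1
  · refine Or.inl ⟨om hd i₀ j₀, dot ⊤ θ (h.eta i₀ j₀), fun ω => ?_⟩
    obtain ⟨i, j, rfl⟩ := exists_om hd ω
    rw [← h.eta_def, h1 i j]
    simp only [triv_right_iff hd]
    simp [mul_inv_eq_one]
  · refine Or.inr ⟨om hd i₀ j₀, dot ⊤ θ (h.eta i₀ j₀), fun ω => ?_⟩
    obtain ⟨i, j, rfl⟩ := exists_om hd ω
    rw [← h.eta_def, h1 i j]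
    simp only [triv_left_iff hd]
    simp [mul_inv_eq_one]

end Cfsg.Agent.S1507
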