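import Cfsg.Statements.S1511
import Cfsg.Agent.PF.Bridge2

set_option autoImplicit false
open Cfsg

namespace Cfsg.Agent.S1511

open Cfsg.Agent.PF Cfsg.Agent.BG
open scoped _root_.Classical
set_option maxSynthPendingDepth 3

/-- Let L be a finite group with K normal with complement W₁ ≠ 1 a cyclic Hall subgroup, and W₂ ≠ 1 a cyclic subgroup of K equal to C_K(x) for every non-identity x ∈ W₁, with W₁W₂ of odd order. Then there are a map μ from the linear characters of W = W₁ ⊔ W₂ to irreducible characters of L, injective, and a sign δ(ω) ∈ {1, −1} depending only on the values of ω on W₂, such that: for ω, ω' agreeing on W₂, the function induced to L from ω − ω' equals δ(ω) • (μ ω − μ ω'); μ ω x = δ(ω) ω x for x ∈ W outside W₂; every irreducible character of L not of the form μ ω vanishes on W outside W₂; and μ ω 1 − δ(ω) is an integer multiple of Nat.card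 W₁. -/
theorem result {L : Type*} [Group L] [Fintype L] (K W₁ W₂ : Subgroup L) [hK : K.Normal] (hKW₁ : K ⊓ W₁ = ⊥) (hKW₁' : K ⊔ W₁ = ⊤) (hW₁ : W₁ ≠ ⊥) (hW₁c : IsCyclic W₁) (hHall : Nat.Coprime (Nat.card W₁) W₁.index) (hW₂ : W₂ ≠ ⊥) (hW₂c : IsCyclic W₂) (hW₂K : W₂ ≤ K) (hC : ∀ x ∈ W₁, x ≠ 1 → K ⊓ Subgroup.centralizer ({x} : Set L) = W₂) (hodd : Odd (Nat.card ↥(W₁ ⊔ W₂))) : ∃ (μ : (↥(W₁ ⊔ W₂) →* ℂˣ) → (L → ℂ)) (δ : (↥(W₁ ⊔ W₂) →* ℂˣ) → ℂ), Function.Injective μ ∧ (∀ ω, Cfsg.IsIrrCharacter L (μ ω)) ∧ (∀ ω, δ ω = 1 ∨ δ ω = -1) ∧ (∀ ω ω' : ↥(W₁ ⊔ W₂) →* ℂˣ, (∀ w : ↥(W₁ ⊔ W₂), (w : L) ∈ W₂ → ω w = ω' w) → δ ω = δ ω' ∧ Cfsg.indFun (W₁ ⊔ W₂) (fun w => (ω w : ℂ) - (ω' w : ℂ)) = δ ω • (μ ω - μ ω')) ∧ (∀ ω, ∀ w : ↥(W₁ ⊔ W₂), (w : L) ∉ W₂ → μ ω w = δ ω * (ω w : ℂ)) ∧ (∀ θ : L → ℂ, Cfsg.IsIrrCharacter L θ → (∀ ω, θ ≠ μ ω) → ∀ w : ↥(W₁ ⊔ W₂), (w : L) ∉ W₂ → θ w = 0)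 ∧ (∀ ω, ∃ n : ℤ, μ ω 1 - δ ω = n * (Nat.card W₁ : ℂ)) := by
  have h := primeTI_top hKW₁ hKW₁' hW₁ hW₁c hHall hW₂ hW₂c hW₂K hC hodd
  have e := lin_eq_om h.centW h.inf
  refine ⟨fun ω => mu2 ⊤ W₁ W₂ (resD le_sup_left ω) (resD le_sup_right ω),
    fun ω => delta ⊤ W₁ W₂ (resD le_sup_right ω), fun ω ω' k => ?_,
    fun ω => mem_Irr_top.1 (prTIirr_Irr h _ _), fun ω => ?_, fun ω ω' k => ?_, fun ω w hw => ?_,
    fun θ hθ k w hw => not_prTIirr_vanish h (mem_Irr_top.2 hθ) (fun i j e' => ?_) w.2 hw,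
    fun ω => ?_⟩
  · obtain ⟨k1, k2⟩ := (prTIirr_inj h).1 k
    exact lin_injective (by rw [e, e, k1, k2])
  · beta_reduce
    exact_mod_cast delta_cases _
  · have r : resD (le_sup_right : W₂ ≤ W₁ ⊔ W₂) ω = resD le_sup_right ω' := Dual_ext fun g hg => by
      rw [lin_resD_apply _ _ hg, lin_resD_apply _ _ hg, lin_of_mem _ (Subgroup.mem_sup_right hg),
        lin_of_mem _ (Subgroup.mem_sup_right hg), k _ hg]
    refine ⟨by simp only [r], ?_⟩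
    simp only [← r]
    rw [← cfInd_sub_prTIirr h, ← e, r, ← e, Ind_top_eq_indFun]
    simp
  · simp only [prTIirr_id h _ _ w.2 hw, ← e, lin_coe]
  · obtain ⟨l, hl⟩ := om_exists_lin h.centW h.inf i j
    obtain ⟨rfl, rfl⟩ := (om_inj h.centW h.inf).1 (hl.trans (e l))
    exact k l e'
  · obtain ⟨n, hn⟩ := prTIirr1_mod h (resD le_sup_left ω) (resD le_sup_right ω)
    refine ⟨n, ?_⟩
    simp only [Irr_apply_one (prTIirr_Irr h _ _)]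
    rw [mul_comm]
    exact_mod_cast hn

end Cfsg.Agent.S1511
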