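import Cfsg.Statements.S1512
import Cfsg.Agent.PF.Bridge2

set_option autoImplicit false
open Cfsg

namespace Cfsg.Agent.S1512

open Cfsg.Agent.PF Cfsg.Agent.BG
open scoped _root_.Classical
set_option maxSynthPendingDepth 3

/-- Let K be a normal subgroup of the finite group L and x a non-identity element whose order is coprime to the order of K, such that K ⊓ C_L(y) = W₂ for every non-identity element y of the cyclic group generated by x. Then the number of conjugacy classes of K mapped to themselves by conjugation by x is at most Nat.card W₂. -/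
theorem result {L : Type*} [Group L] [Finite L] (K W₂ : Subgroup L) [hK : K.Normal] (x : L) (hx1 : x ≠ 1) (hx : Nat.Coprime (orderOf x) (Nat.card K)) (hC : ∀ y ∈ Subgroup.zpowers x, y ≠ 1 → K ⊓ Subgroup.centralizer ({y} : Set L) = W₂) : Nat.card {C : ConjClasses K // ConjClasses.map (MulEquiv.toMonoidHom ((MulAut.conjNormal x : MulAut K))) C = C} ≤ Nat.card W₂ := by
  have hW : W₂ ≤ K := hC x (Subgroup.mem_zpowers x) hx1 ▸ inf_le_left
  refine le_trans (Nat.card_le_card_of_injective (β := Set.range fun w : W₂ =>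
    ConjClasses.mk (⟨w, hW w.2⟩ : K)) (fun C => ⟨C.1, ?_⟩) fun C D e =>
      Subtype.ext (Subtype.mk.inj e)) (Finite.card_range_le _)
  obtain ⟨C, hfix⟩ := C
  obtain ⟨a, rfl⟩ := ConjClasses.mk_surjective C
  obtain ⟨y, e⟩ := isConj_iff.1 (ConjClasses.mk_eq_mk_iff_isConj.1 hfix)
  replace e : (y : L) * (x * a * x⁻¹) * (y : L)⁻¹ = a := congrArg Subtype.val e
  obtain ⟨z, hz, c, hcK, e'⟩ := exists_conj_cent_mul ((normal_top K).norm (Subgroup.mem_top x)) hx y.2
  have h2 : Commute ((y : L) * x) a := by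
    rw [Commute, SemiconjBy]; conv_rhs => rw [← e]
    group
  have h3 : Commute (c * x) (z * a * z⁻¹) := by
    rw [← e']; exact h2.map (MulAut.conj z)
  have h4 : (c * x) ^ #K = x ^ #K := by
    rw [Commute.mul_pow (mem_cent1.1 hcK.2),
      orderOf_dvd_iff_pow_eq_one.1 (orderOf_dvd_cardG hcK.1), one_mul]
  have h5 : z * a * z⁻¹ ∈ W₂ := by
    rw [← hC _ (Subgroup.npow_mem_zpowers x #K) fun e => hx1 (orderOf_eq_one_iff.1
      (hx.eq_one_of_dvd (orderOf_dvd_of_pow_eq_one e)))]
    exact ⟨K.mul_mem (K.mul_mem hz a.2) (K.inv_mem hz),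
      mem_cent1.2 (by rw [← h4]; exact (h3.pow_left _).symm.eq)⟩
  exact ⟨⟨_, h5⟩, ConjClasses.mk_eq_mk_iff_isConj.2 (IsConj.symm (isConj_iff.2 ⟨⟨z, hz⟩, rfl⟩))⟩

end Cfsg.Agent.S1512
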