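import Cfsg.Statements.S1513
import Cfsg.Agent.PF.Bridge2

set_option autoImplicit false
open Cfsg

namespace Cfsg.Agent.S1513

open Cfsg.Agent.PF Cfsg.Agent.BG
open scoped _root_.Classical
set_option maxSynthPendingDepth 3

/-- Let L be a finite group with K normal with complement W₁ ≠ 1 a cyclic Hall subgroup, and W₂ ≠ 1 a cyclic subgroup of K equal to C_K(x) for every non-identity x ∈ W₁, with W₁W₂ of odd order. For an irreducible character θ of K: if θ is not fixed under conjugation by some element of W₁, then the function induced from θ to L is an irreducible character of L; and the irreducible characters of K fixed by all of W₁ are exactly Nat.card W₂ in number, each inducing to the sum of Nat.card W₁ pairwise distinct irreducible characters of L. -/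
theorem result {L : Type*} [Group L] [Fintype L] (K W₁ W₂ : Subgroup L) [hK : K.Normal] (hKW₁ : K ⊓ W₁ = ⊥) (hKW₁' : K ⊔ W₁ = ⊤) (hW₁ : W₁ ≠ ⊥) (hW₁c : IsCyclic W₁) (hHall : Nat.Coprime (Nat.card W₁) W₁.index) (hW₂ : W₂ ≠ ⊥) (hW₂c : IsCyclic W₂) (hW₂K : W₂ ≤ K) (hC : ∀ x ∈ W₁, x ≠ 1 → K ⊓ Subgroup.centralizer ({x} : Set L) = W₂) (hodd : Odd (Nat.card ↥(W₁ ⊔ W₂))) : (∀ θ : K → ℂ, Cfsg.IsIrrCharacter K θ → (∃ x ∈ W₁, (fun k : K => θ ⟨x * k * x⁻¹, hK.conj_mem (k : L) k.2 x⟩) ≠ θ) → Cfsg.IsIrrCharacter L (Cfsg.indFun K θ)) ∧ Nat.card {θ : Cfsg.IrrCharacter K // ∀ x ∈ W₁, (fun k : K => (θ : K → ℂ) ⟨x * k * x⁻¹, hK.conj_mem (k : L) k.2 x⟩) = θ} = Nat.card W₂ ∧ (∀ θ : K → ℂ, Cfsg.IsIrrCharacter K θ → (∀ x ∈ W₁, (fun k : K => θ ⟨x * k * x⁻¹, hK.conj_mem (k : L) k.2 x⟩) = θ) → ∃ C : Finset (L → ℂ), C.card = Nat.card W₁ ∧ (∀ μ ∈ C, Cfsg.IsIrrCharacter L μ) ∧ Cfsg.indFun K θ = ∑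 μ ∈ C, μ) := by
  have h := primeTI_top hKW₁ hKW₁' hW₁ hW₁c hHall hW₂ hW₂c hW₂K hC hodd
  obtain ⟨x, hx, hx1⟩ := exists_mem_ne_one hW₁
  have fix : ∀ θ : K → ℂ, IsIrrCharacter K θ → ((∀ x ∈ W₁, (fun k : K =>
      θ ⟨x * k * x⁻¹, hK.conj_mem (k : L) k.2 x⟩) = θ) ↔ ∃ j, ext K θ = chiK ⊤ K W₁ W₂ j) :=
    fun θ hθ => ⟨fun k => h.fixed hx hx1 (ext_mem_Irr.2 hθ) (by rw [cj_ext, k x hx]),
      fun ⟨j, e⟩ y _ => ext_injective K (by
        rw [← cj_ext, e]; exact prTIres_inertia h j (Subgroup.mem_top y))⟩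
  refine ⟨fun θ hθ ⟨y, hy, k⟩ => ?_, ?_, fun θ hθ k => ?_⟩
  · rw [← Ind_ext, ← mem_Irr_top]
    exact ((prTIres_irr_cases h (ext_mem_Irr.2 hθ)).resolve_left fun e =>
      k ((fix θ hθ).2 e y hy)).1
  · rw [← (prime_cycTIhyp h).card_Dual2, ← Nat.card_eq_fintype_card]
    have r : ∀ j, ext K (fun k => chiK ⊤ K W₁ W₂ j k) = chiK ⊤ K W₁ W₂ j := fun j =>
      ext_restrict (mem_Irr.1 (prTIres_Irr h j)).1
    refine (Nat.card_eq_of_bijective (fun j => ⟨⟨fun k => chiK ⊤ K W₁ W₂ j k,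
      (mem_Irr.1 (prTIres_Irr h j)).2⟩, (fix _ (mem_Irr.1 (prTIres_Irr h j)).2).2 ⟨j, r j⟩⟩)
      ⟨fun j k e => (prTIres_inj h).1 ?_, fun θ => ?_⟩).symm
    · rw [← r j, ← r k]
      exact congrArg (fun θ => ext K θ.1.1) e
    · obtain ⟨j, e⟩ := (fix _ θ.1.2).1 θ.2
      exact ⟨j, Subtype.ext (Subtype.ext (ext_injective K ((r j).trans e.symm)))⟩
  · obtain ⟨j, e⟩ := (fix θ hθ).1 k
    have inj : Function.Injective fun i => mu2 ⊤ W₁ W₂ i j := fun i i' e => ((prTIirr_inj h).1 e).1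
    refine ⟨Finset.univ.image fun i => mu2 ⊤ W₁ W₂ i j, ?_, fun μ hμ => ?_, ?_⟩
    · rw [Finset.card_image_of_injective _ inj, Finset.card_univ, (prime_cycTIhyp h).card_Dual1]
    · obtain ⟨i, -, rfl⟩ := Finset.mem_image.1 hμ
      exact mem_Irr_top.1 (prTIirr_Irr h i j)
    · rw [Finset.sum_image inj.injOn, ← Ind_ext, e, cfInd_prTIres h, muR]

end Cfsg.Agent.S1513
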