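import Cfsg.Statements.S1515
import Cfsg.Agent.PF.Bridge2

set_option autoImplicit false
open Cfsg

namespace Cfsg.Agent.S1515

open Cfsg.Agent.PF Cfsg.Agent.BG
open scoped _root_.Classical
set_option maxSynthPendingDepth 3

/-- Let (S, τ, R) be a coherence system from L to G, χ ∈ S, and ψ an integer combination of S with ⟨χ, ψ⟩ = ⟨conj χ, ψ⟩ = 0. Let τ₁ be a linear isometry on the integer combinations of χ − ψ and χ − conj χ, with virtual-character values, agreeing with τ on integer multiples of χ − conj χ. Then the sum over α ∈ R χ of the squared absolute values of ⟨τ₁(χ − ψ), α⟩ is at least ⟨χ, χ⟩; and if ⟨τ₁(χ − ψ), τ₁(χ − ψ)⟩ minus that sum is at least ⟨ψ, ψ⟩, then the sum equals ⟨χ, χ⟩ and every ⟨τ₁(χ − ψ), α⟩ with α ∈ R χ is 0 or 1. -/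
theorem result {L : Type*} [Group L] [Fintype L] {G : Type*} [Group G] [Fintype G] (S : Set (L → ℂ)) (τ : (L → ℂ) → (G → ℂ)) (R : (L → ℂ) → Finset (G → ℂ)) (hS : Cfsg.IsCoherenceSystem S τ R) (χ : L → ℂ) (hχ : χ ∈ S) (ψ : L → ℂ) (hψ : ψ ∈ Cfsg.zspan S) (h1 : Cfsg.classInner χ ψ = 0) (h2 : Cfsg.classInner (Cfsg.conjFun χ) ψ = 0) (τ₁ : (L → ℂ) → (G → ℂ)) (hτ₁ : Cfsg.IsLinearIsometryOn (Cfsg.zspan {χ - ψ, χ - Cfsg.conjFun χ}) τ₁) (hagree : ∀ n : ℤ, τ₁ (n • (χ - Cfsg.conjFun χ)) = τ (n • (χ - Cfsg.conjFun χ))) : (Cfsg.classInner χ χ).re ≤ ∑ α ∈ R χ, ‖Cfsg.classInner (τ₁ (χ - ψ)) α‖ ^ 2 ∧ ((Cfsg.classInner ψ ψ).re ≤ (Cfsg.classInner (τ₁ (χ - ψ)) (τ₁ (χ - ψ))).re - ∑ α ∈ R χ, ‖Cfsg.classInner (τ₁ (χ - ψ)) α‖ ^ 2 → (∑ α ∈ R χ, ‖Cfsg.classInner (τ₁ (χ - ψ)) α‖ ^ 2 = (Cfsg.classInner χ χ).re ∧ ∀ α ∈ R χ, Cfsg.classInner (τ₁ (χ - ψ)) α = 0 ∨ Cfsg.classInner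 (τ₁ (χ - ψ)) α = 1)) := by
  obtain ⟨S, rfl⟩ := finite_of_system hS
  obtain ⟨τ', h, e⟩ := subcoh_of_coe hS
  have m1 : χ - ψ ∈ zspan {χ - ψ, χ - conjFun χ} := Submodule.subset_span (by simp)
  have m2 : χ - conjFun χ ∈ zspan {χ - ψ, χ - conjFun χ} := Submodule.subset_span (by simp)
  obtain ⟨U, V, e1, hU, eU, -, hV, oUV⟩ := orthonormal_split (h.Ron χ hχ) (h.Rz χ hχ)
    (mem_ZIrr_top.2 (hτ₁.2.2.2 _ m1))
  have nU : ∑ α ∈ R χ, ‖classInner (τ₁ (χ - ψ)) α‖ ^ 2 = nrm ⊤ U := by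
    rw [eU, (h.Ron χ hχ).nrm_sum]; simp only [dot_top]
  simp only [← dot_top, ← nrm_eq_re, conjFun_eq_star] at *
  have k := subcoherent_norm h hχ (V := -V) (m := nrm ⊤ ψ) hU
    (fun α hα => by rw [dot_neg_left, hV α hα, neg_zero]) (by
      rw [sub_neg_eq_add, ← e1, ← nrm_sub_of_orth h1, nrm_eq_re, nrm_eq_re, dot_top, dot_top,
        hτ₁.2.2.1 _ m1 _ m1]) (by
      have := hagree 1
      rw [one_smul] at this
      rw [sub_neg_eq_add, ← e1, e _ (h.sub_star_mem hχ), ← this, dot_top, hτ₁.2.2.1 _ m1 _ m2,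
        ← dot_top, dot_sub_left, dot_sub_right, dot_sub_right, h.dot_star hχ, dot_zero_symm h1,
        dot_zero_symm h2]
      simp)
  rw [nU]
  refine ⟨k.1, fun hle => ?_⟩
  obtain ⟨k1, -, E, hE, k2⟩ := k.2.2 (by rw [e1, nrm_add_of_orth oUV] at hle; simpa using hle)
  refine ⟨k1, fun α hα => ?_⟩
  rw [e1, dot_add_left, hV α hα, add_zero, k2, (h.Ron χ hχ).dot_sum_one hE hα]
  split_ifs <;> simp

end Cfsg.Agent.S1515
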