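import Cfsg.Statements.S1516
import Cfsg.Agent.PF.Bridge2

set_option autoImplicit false
open Cfsg

namespace Cfsg.Agent.S1516

open Cfsg.Agent.PF Cfsg.Agent.BG
open scoped _root_.Classical
set_option maxSynthPendingDepth 3

/-- Let (S, τ, R) be a coherence system from L to G with degrees φ 1 = d φ and squared norms ⟨φ, φ⟩ = n φ for φ ∈ S. Let S₁ ⊆ S be a finite subset closed under complex conjugation such that (S₁, L minus 1, τ) is coherent, let χ ∈ S with χ ∉ S₁ and conj χ ∉ S₁, and let χ₁ ∈ S₁ with d χ₁ dividing d χ and 2 d χ d χ₁ < Σ_{φ ∈ S₁} (d φ)² / n φ. Then S₁ together with χ and conj χ is coherent. -/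
theorem result {L : Type*} [Group L] [Fintype L] {G : Type*} [Group G] [Fintype G] (S : Set (L → ℂ)) (τ : (L → ℂ) → (G → ℂ)) (R : (L → ℂ) → Finset (G → ℂ)) (hS : Cfsg.IsCoherenceSystem S τ R) (d n : (L → ℂ) → ℕ) (hd : ∀ φ ∈ S, φ 1 = (d φ : ℂ)) (hn : ∀ φ ∈ S, Cfsg.classInner φ φ = (n φ : ℂ)) (S₁ : Finset (L → ℂ)) (hS₁ : ↑S₁ ⊆ S) (hS₁c : ∀ φ ∈ S₁, Cfsg.conjFun φ ∈ S₁) (hcoh : Cfsg.IsCoherent (↑S₁ : Set (L → ℂ)) {1}ᶜ τ) (χ : L → ℂ) (hχ : χ ∈ S) (hχ₁ : χ ∉ S₁) (hχ₂ : Cfsg.conjFun χ ∉ S₁) (χ₁ : L → ℂ) (hχ₁S : χ₁ ∈ S₁) (hdvd : d χ₁ ∣ d χ) (hineq : (2 * d χ * d χ₁ : ℝ) < ∑ φ ∈ S₁, ((d φ : ℝ) ^ 2 / (n φ : ℝ))) : Cfsg.IsCoherent (↑S₁ ∪ {χ, Cfsg.conjFun χ} : Set (L → ℂ)) {1}ᶜ τ := by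
  obtain ⟨S, rfl⟩ := finite_of_system hS
  obtain ⟨τ', h, e⟩ := subcoh_of_coe hS
  have c : ConjSub S₁ S := ⟨hS₁, hS₁c⟩
  have dd : ∀ φ ∈ S, deg φ = d φ := fun φ hφ => deg_eq_of (hd φ hφ)
  have k := extend_coherent h c hχ₁S hχ hχ₁ (by rwa [dd _ hχ, dd _ (hS₁ hχ₁S)]) (by
    rw [dd _ hχ, dd _ (hS₁ hχ₁S), Finset.sum_congr rfl (g := fun φ => (d φ : ℝ) ^ 2 / n φ) fun φ hφ => by
      rw [dd _ (hS₁ hφ), nrm_eq_of_dot (r := n φ) (by rw [dot_top, hn φ (hS₁ hφ)]; simp)]]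
    exact hineq) (coherent_of_isCoherent (fun a ha => e a (ZS1_mono hS₁ ha)) hcoh)
  have := k.isCoherent (fun a ha => e a (ZS1_mono (fun φ hφ => by
    simp only [Finset.mem_insert] at hφ
    rcases hφ with rfl | rfl | hφ
    exacts [hχ, h.closed χ hχ, hS₁ hφ]) ha)) (exists_ne_zero_ZS1 (L := ⊤) (χ := χ)
      (ψ := star χ) (by simp) (by simp) (ZIrr_star_apply_one (h.char χ hχ).mem_ZIrr).symm
      (h.nreal χ hχ).symm)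
  convert this using 1
  ext; simp [conjFun_eq_star]

end Cfsg.Agent.S1516
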