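import Cfsg.Statements.S1518
import Cfsg.Agent.PF.Bridge2
import Cfsg.Agent.PF.P05c

set_option autoImplicit false
open Cfsg

namespace Cfsg.Agent.S1518

open Cfsg.Agent.PF Cfsg.Agent.BG
open scoped _root_.Classical
set_option maxSynthPendingDepth 3

/-- Under the Dade hypothesis for (A, L, H): if χ is an irreducible character of L vanishing at every non-identity element of L outside A, then the Dade image of χ − conj χ equals μ − conj μ for some irreducible character μ of G. -/
theorem result {G : Type*} [Group G] [Fintype G] (A : Set G) (L : Subgroup G) [Fintype L] (H : G → Subgroup G) (hD : Cfsg.DadeHypothesis A L H) (χ : L → ℂ) (hχ : Cfsg.IsIrrCharacter L χ) (hsupp : ∀ x : L, x ≠ 1 → (x : G) ∉ A → χ x = 0) : ∃ μ : G → ℂ, Cfsg.IsIrrCharacter G μ ∧ Cfsg.dadeIsometry A L H (χ - Cfsg.conjFun χ) = μ - Cfsg.conjFun μ := by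
  have h := ext_mem_Irr.2 hχ
  obtain ⟨μ, h1, h2⟩ := Dade_irr_sub_conjC hD h (ext_mem_CFon (by
    simpa using CF_isClassFunction (Irr_CF h).2) fun x hx =>
      hsupp x (fun e => hx (by simp [e])) fun k => hx (Or.inr k))
  exact ⟨μ, mem_Irr_top.1 h1, by
    rw [← dade_extendByZero, ← ext_eq, map_sub, conjFun_eq_star, ext_star, h2, conjFun_eq_star]⟩

end Cfsg.Agent.S1518
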