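import Cfsg.Statements.S1520
import Cfsg.Agent.PF.Bridge2
import Cfsg.Agent.PF.P06a

set_option autoImplicit false
open Cfsg

namespace Cfsg.Agent.S1520

open Cfsg.Agent.PF Cfsg.Agent.BG
open scoped _root_.Classical
set_option maxSynthPendingDepth 3

/-- Let K be a solvable normal subgroup of the finite group L and (S, τ, R) a coherence system from L to G with S the functions induced from non-principal irreducible characters of K; S(A) the members of S induced from characters whose kernel contains A. Let M ≤ H₁ ≤ H ≤ K be normal subgroups of L such that every term of the lower central series of H eventually lies in M (H/M nilpotent), S(H₁) is coherent and [H:H₁] > 4 * [L:K]^2 + 1. Then S(M) is coherent. -/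
theorem result {L : Type*} [Group L] [Fintype L] {G : Type*} [Group G] [Fintype G] (K : Subgroup L) [hK : K.Normal] (hsolv : Group.IsSolvable K) (τ : (L → ℂ) → (G → ℂ)) (R : (L → ℂ) → Finset (G → ℂ)) (hS : Cfsg.IsCoherenceSystem (Cfsg.inducedIrrAbove K ⊥) τ R) (M H₁ H : Subgroup L) [M.Normal] [H₁.Normal] [H.Normal] (hMH₁ : M ≤ H₁) (hH₁H : H₁ ≤ H) (hHK : H ≤ K) [(M.subgroupOf H).Normal] (hnil : Group.IsNilpotent (↥H ⧸ M.subgroupOf H)) (hcoh : Cfsg.IsCoherent (Cfsg.inducedIrrAbove K H₁) {1}ᶜ τ) (hbig : 4 * K.index ^ 2 + 1 < H₁.relIndex H) : Cfsg.IsCoherent (Cfsg.inducedIrrAbove K M) {1}ᶜ τ := by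
  have hMK := hMH₁.trans (hH₁H.trans hHK)
  rw [inducedIrrAbove_eq bot_le] at hS
  rw [inducedIrrAbove_eq (hH₁H.trans hHK)] at hcoh
  rw [inducedIrrAbove_eq hMK]
  obtain ⟨τ', h, e⟩ := subcoh_of_coe hS
  have e' := fun A a ha => e a (ZS1_mono (seqIndD_mono (bot_le : ⊥ ≤ A) le_rfl) ha)
  refine (bounded_seqIndD_coherence (normal_top K) hsolv h (normal_top M) (normal_top H)
    (normal_top H₁) hMH₁ hH₁H hHK (nil_quotient_of_mathlib (hMH₁.trans hH₁H) hnil)
    (coherent_of_isCoherent (e' H₁) hcoh) (by simpa using hbig)).isCoherent (e' M)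
    (h.exists_ne_zero (seqIndD_conjSub bot_le le_rfl)
      (seqIndD_nonempty le_rfl ((normal_top M).subl hMK le_top) fun k => ?_))
  rw [Subgroup.relIndex_eq_one.2 (hHK.trans (k.trans hMH₁))] at hbig
  omega

end Cfsg.Agent.S1520
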