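import Cfsg.Statements.S1521
import Cfsg.Agent.PF.Bridge2
import Cfsg.Agent.PF.P06a

set_option autoImplicit false
open Cfsg

namespace Cfsg.Agent.S1521

open Cfsg.Agent.PF Cfsg.Agent.BG
open scoped _root_.Classical
set_option maxSynthPendingDepth 3

/-- Let K be a solvable normal subgroup of the finite group L of odd order and (S, τ, R) a coherence system from L to G with S the functions induced from non-principal irreducible characters of K; S(A) as before. Let M ≤ K be normal in L with K/M nilpotent, H₁ = [K, K] ⊔ M, H₁ < K < L, and suppose every element of K outside H₁ is centralised modulo H₁ only from inside K (L/H₁ is a Frobenius group with kernel K/H₁). Suppose one of the following: some normal subgroup of L lies strictly between H₁ and K; or [K:H₁] > 4[L:K]^2 + 1; or [K:M] is not a prime power; or [K,K] ≤ M; or [K:M] is a power of a prime p with [L:K] dividing p − 1. Then S(M) is coherent. -/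
theorem result {L : Type*} [Group L] [Fintype L] {G : Type*} [Group G] [Fintype G] (K : Subgroup L) [hK : K.Normal] (hsolv : Group.IsSolvable K) (τ : (L → ℂ) → (G → ℂ)) (R : (L → ℂ) → Finset (G → ℂ)) (hS : Cfsg.IsCoherenceSystem (Cfsg.inducedIrrAbove K ⊥) τ R) (hodd : Odd (Nat.card L)) (M : Subgroup L) [M.Normal] (hMK : M ≤ K) [(M.subgroupOf K).Normal] (hnil : Group.IsNilpotent (↥K ⧸ M.subgroupOf K)) (H₁ : Subgroup L) (hH₁ : H₁ = ⁅K, K⁆ ⊔ M) (hH₁K : H₁ < K) (hKL : K < ⊤) (hfrob : ∀ k ∈ K, k ∉ H₁ → ∀ x : L, x * k * x⁻¹ * k⁻¹ ∈ H₁ → x ∈ K) (hgood : (∃ N : Subgroup L, N.Normal ∧ H₁ < N ∧ N < K) ∨ 4 * K.index ^ 2 + 1 < H₁.relIndex K ∨ (¬ ∃ p m : ℕ, p.Prime ∧ M.relIndex K = p ^ m) ∨ ⁅K, K⁆ ≤ M ∨ (∃ p m : ℕ, p.Prime ∧ M.relIndex K = p ^ m ∧ K.index ∣ p - 1)) : Cfsg.IsCoherent (Cfsg.inducedIrrAbove K M) {1}ᶜ τ := by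
  subst hH₁
  rw [inducedIrrAbove_eq bot_le] at hS
  rw [inducedIrrAbove_eq hMK]
  obtain ⟨τ', h, e⟩ := subcoh_of_coe hS
  have nK := normal_top K
  have lt : ¬ K ≤ M := fun k => hH₁K.not_ge (k.trans le_sup_right)
  refine ((non_coherent_chief nK hsolv h ⟨by simpa using hodd, normal_top M, hMK,
    nil_quotient_of_mathlib hMK hnil, (nK.comm nK).sup (normal_top M), nK, hH₁K, hKL,
    fun k hk hk' x _ => hfrob k hk hk' x⟩).resolve_right ?_).isCoherent
    (fun a ha => e a (ZS1_mono (seqIndD_mono bot_le le_rfl) ha))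
    (h.exists_ne_zero (seqIndD_conjSub bot_le le_rfl)
      (seqIndD_nonempty le_rfl ((normal_top M).subl hMK le_top) lt))
  rintro ⟨c, le, p, hp, pK, nab, nd⟩
  have := Fact.mk hp
  obtain ⟨m, hm⟩ := IsPGroup.iff_card.1 pK
  rw [card_quotient (le_top.trans (normal_top M).norm)] at hm
  rw [Subgroup.relIndex_top_right] at le nd
  rcases hgood with ⟨N, hN, h1, h2⟩ | k | k | k | ⟨q, n, hq, k, dv⟩
  · exact (c.max N h1.le h2.le (normal_top N).norm).elim h1.ne' h2.ne
  · omega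
  · exact k ⟨p, m, hp, hm⟩
  · exact nab k
  · have n0 : n ≠ 0 := fun e => lt (Subgroup.relIndex_eq_one.1 (by rw [k, e, pow_zero]))
    rw [(Nat.prime_dvd_prime_iff_eq hq hp).1 (hq.dvd_of_dvd_pow (hm ▸ k ▸ dvd_pow_self q n0))] at dv
    exact nd dv

end Cfsg.Agent.S1521
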