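import Cfsg.Statements.S1522
import Cfsg.Agent.PF.Bridge2
import Cfsg.Agent.PF.P06a

set_option autoImplicit false
open Cfsg

namespace Cfsg.Agent.S1522

open Cfsg.Agent.PF Cfsg.Agent.BG
open scoped _root_.Classical
set_option maxSynthPendingDepth 3

/-- Let K be a nilpotent normal subgroup of the finite group L of odd order with [K,K] < K < L and L/[K,K] a Frobenius group with kernel K/[K,K] (elements of K outside [K,K] are centralised modulo [K,K] only from inside K); let (S, τ, R) be a coherence system from L to G with S the functions induced from non-principal irreducible characters of K. Let Z be a nontrivial normal subgroup of L contained in the centre of K, and suppose every member of S outside S(Z) is an irreducible character of L. Then S minus S(Z) is the set of irreducible characters χ of L with χ z ≠ χ 1 for some z ∈ Z, and it is coherent. -/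
theorem result {L : Type*} [Group L] [Fintype L] {G : Type*} [Group G] [Fintype G] (K : Subgroup L) [hK : K.Normal] (hsolv : Group.IsSolvable K) (τ : (L → ℂ) → (G → ℂ)) (R : (L → ℂ) → Finset (G → ℂ)) (hS : Cfsg.IsCoherenceSystem (Cfsg.inducedIrrAbove K ⊥) τ R) (hodd : Odd (Nat.card L)) (hnil : Group.IsNilpotent K) (hH₁K : ⁅K, K⁆ < K) (hKL : K < ⊤) (hfrob : ∀ k ∈ K, k ∉ ⁅K, K⁆ → ∀ x : L, x * k * x⁻¹ * k⁻¹ ∈ ⁅K, K⁆ → x ∈ K) (Z : Subgroup L) [Z.Normal] (hZ1 : Z ≠ ⊥) (hZK : Z ≤ K) (hZc : ∀ z ∈ Z, ∀ k ∈ K, z * k = k * z) (hirr : ∀ χ ∈ Cfsg.inducedIrrAbove K ⊥ \ Cfsg.inducedIrrAbove K Z, Cfsg.IsIrrCharacter L χ) : Cfsg.inducedIrrAbove K ⊥ \ Cfsg.inducedIrrAbove K Z = {χ | Cfsg.IsIrrCharacter L χ ∧ ∃ z ∈ Z, χ z ≠ χ 1} ∧ Cfsg.IsCoherent (Cfsg.inducedIrrAbove K ⊥ \ Cfsg.inducedIrrAbove K Z) {1}ᶜ τ := by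
  have nK := normal_top K
  have nZ := normal_top Z
  have s : inducedIrrAbove K ⊥ \ inducedIrrAbove K Z = seqIndD K ⊤ Z ⊥ := by
    ext χ
    simp only [inducedIrrAbove_eq hZK, inducedIrrAbove_eq (bot_le : ⊥ ≤ K), Set.mem_sdiff,
      Finset.mem_coe, mem_seqIndD_iff nK nK.norm nZ.norm,
      mem_seqIndD_iff nK nK.norm (normal_bot _).norm, mem_seqIndD_iff nK nZ.norm (normal_bot _).norm]
    have := @LE.le.trans _ _ _ _ (cfker χ) hZK
    tauto
  rw [s] at hirr ⊢
  rw [inducedIrrAbove_eq bot_le] at hS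
  obtain ⟨τ', h, e⟩ := subcoh_of_coe hS
  obtain ⟨k1, k2⟩ := seqIndD_irr_coherence nK hsolv h ⟨by simpa using hodd, normal_bot _, bot_le,
    quotient_nil _ hnil, by
      rw [sup_bot_eq]; exact ⟨nK.comm nK, nK, hH₁K, hKL, fun k hk hk' x _ => hfrob k hk hk' x⟩⟩
    nZ hZ1 (fun z hz => ⟨hZK hz, mem_cent.2 fun k hk => (hZc z hz k hk).symm⟩)
    fun χ hχ => mem_Irr_top.2 (hirr χ hχ)
  refine ⟨Set.ext fun χ => ?_, k2.isCoherent (fun a ha => e a (ZS1_mono (seqIndD_mono le_rfl hZK) ha))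
    (h.exists_ne_zero (seqIndD_conjSub le_rfl hZK)
      (seqIndD_nonempty hZK (normal_bot _) (by simpa using hZ1)))⟩
  rw [Finset.mem_coe, k1, Set.mem_ofPred_eq, ← mem_Irr_top]
  exact and_congr_right fun k => not_le_cfker_Irr k

end Cfsg.Agent.S1522
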