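import Cfsg.Statements.S1524
import Cfsg.Agent.PF.Bridge3
import Cfsg.Agent.PF.P06b
import Cfsg.Agent.PF.P021

set_option autoImplicit false
open Cfsg

namespace Cfsg.Agent.S1524

open Cfsg.Agent.PF Cfsg.Agent.BG
open scoped _root_.Classical
set_option maxSynthPendingDepth 3

/-- Let G be a finite group and H ≤ L subgroups with L of odd order, H ≠ ⊥ nilpotent and normal in L with a nontrivial complement W₁ in L (H ⊓ W₁ = ⊥, H ⊔ W₁ = L) acting on H without non-identity fixed points (L is a Frobenius group with kernel H), and suppose the underlying set of H is a TI-subset of G whose normaliser is L. Let S be the set of functions on L induced from the non-principal irreducible characters of H. Then (S, L minus 1, induction to G) is coherent. -/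
theorem result {G : Type*} [Group G] [Fintype G] (H L W₁ : Subgroup G) [Fintype L] (hodd : Odd (Nat.card L)) (hHL : H ≤ L) (hW₁L : W₁ ≤ L) (hH1 : H ≠ ⊥) (hW1 : W₁ ≠ ⊥) (hnil : Group.IsNilpotent H) (hHn : ∀ x ∈ L, ∀ h ∈ H, x * h * x⁻¹ ∈ H) (hinf : H ⊓ W₁ = ⊥) (hsup : H ⊔ W₁ = L) (hfpf : ∀ w ∈ W₁, w ≠ 1 → ∀ h ∈ H, w * h = h * w → h = 1) (hTI : Cfsg.IsTISubset (H : Set G)) (hN : Subgroup.normalizer (H : Set G) = L) : Cfsg.IsCoherent (Cfsg.inducedIrrAbove (H.subgroupOf L) ⊥) {1}ᶜ (fun α : L → ℂ => Cfsg.indFun L α) := by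
  have hn := normalIn_of_conj hHL hHn
  have sd : Sdprod H W₁ L := ⟨hsup, hW₁L.trans hn.norm, hinf⟩
  have hF : FrobKer L H := frobKer_of_frob ⟨sd, hH1, hW1, fun w hw h1 =>
    (Subgroup.eq_bot_iff_forall _).2 fun h hh => hfpf w hw h1 h hh.1 (mem_cent1.1 hh.2).symm⟩
  obtain ⟨χ, hχ⟩ := seqIndD_nonempty (L := L) le_rfl (normal_bot H) (by rwa [le_bot_iff])
  exact (Sibley_coherence hodd hnil ((normedTI_sharp_iff hH1).2 ⟨hTI, hN⟩) sd
    (Or.inl hF)).isCoherent_ind hHL (exists_ne_zero_ZS1 (L := L) (seqIndD_star hχ) hχ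
      (ZIrr_star_apply_one (seqInd_ZS_vchar hn seqIndD_subset_seqIndT (mem_ZS_of_mem hχ)))
      (seqInd_conjC_neq hn hodd le_rfl hχ))

end Cfsg.Agent.S1524
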