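import Cfsg.Statements.S1525
import Cfsg.Agent.PF.Bridge2

set_option autoImplicit false
open Cfsg

namespace Cfsg.Agent.S1525

open Cfsg.Agent.PF Cfsg.Agent.BG
open scoped _root_.Classical
set_option maxSynthPendingDepth 3

/-- Under the Dade hypothesis for (A, L, H), let χ be a class function of G and let ψ be a function on L whose value at each a ∈ A is the average of χ over the coset a·H(a). Then (1/|G|) Σ |χ g|² over the elements g of G conjugate into some coset a·H(a) with a ∈ A is at least (1/|L|) Σ_{a ∈ A ∩ L} |ψ a|². -/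
theorem result {G : Type*} [Group G] [Fintype G] (A : Set G) (L : Subgroup G) [Fintype L] (H : G → Subgroup G) (hD : Cfsg.DadeHypothesis A L H) (χ : G → ℂ) (hχ : Cfsg.IsClassFunction G χ) (ψ : L → ℂ) (hψ : ∀ a : L, (a : G) ∈ A → ψ a = (Nat.card (H a) : ℂ)⁻¹ * ∑ᶠ u ∈ (H a : Set G), χ (a * u)) : (Nat.card L : ℝ)⁻¹ * ∑ᶠ a ∈ {a : L | (a : G) ∈ A}, ‖ψ a‖ ^ 2 ≤ (Nat.card G : ℝ)⁻¹ * ∑ᶠ g ∈ {g : G | ∃ a ∈ A, ∃ u ∈ H a, ∃ x : G, x * g * x⁻¹ = a * u}, ‖χ g‖ ^ 2 := by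
  have k := leC_cfnorm_invDade_support hD (mem_CF_top.2 hχ).2
  have s : {g : G | ∃ a ∈ A, ∃ u ∈ H a, ∃ x : G, x * g * x⁻¹ = a * u} = fs (dadeSupp A H) := by
    ext g
    simp only [coe_fs, mem_dadeSupp, Set.mem_ofPred_eq]
    exact ⟨fun ⟨a, ha, u, hu, x, e⟩ => ⟨a, ha, u, hu, x⁻¹, by rw [← e]; group⟩,
      fun ⟨a, ha, u, hu, x, e⟩ => ⟨a, ha, u, hu, x⁻¹, by rw [e]; group⟩⟩
  rw [s, finsum_mem_coe_finset]
  rw [nrm_rho hD] at k
  convert k using 2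
  have e : A = Subtype.val '' {a : L | (a : G) ∈ A} :=
    Set.ext fun a => ⟨fun ha => ⟨⟨a, hD.subset ha⟩, ha, rfl⟩, fun ⟨b, hb, e⟩ => e ▸ hb⟩
  rw [← finsum_mem_coe_finset, coe_fs, finsum_mem_congr e fun _ _ => rfl,
    finsum_mem_image Subtype.val_injective.injOn]
  refine finsum_mem_congr rfl fun a ha => ?_
  rw [hψ a ha, ← coe_fs (H a : Set G), finsum_mem_coe_finset]
  exact congrArg (fun z : ℂ => ‖z‖ ^ 2) (if_pos ha).symm

end Cfsg.Agent.S1525
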