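import Cfsg.Statements.S1527
import Cfsg.Agent.PF.Bridge3
import Cfsg.Agent.PF.P07

set_option autoImplicit false
open Cfsg

namespace Cfsg.Agent.S1527

open Cfsg.Agent.PF Cfsg.Agent.BG
open scoped _root_.Classical

/-- Let G be a finite group and H i (i in a finite index type) subgroups of pairwise coprime orders, each of whose underlying sets is a TI-subset of G, such that every non-identity element of G is conjugate to an element of some H i. Then Nat.card G − 1 = Σ_i [G : N_G(H i)] · (Nat.card (H i) − 1). -/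
theorem result {G : Type*} [Group G] [Finite G] {ι : Type*} [Fintype ι] (H : ι → Subgroup G) (hcop : ∀ i j, i ≠ j → Nat.Coprime (Nat.card (H i)) (Nat.card (H j))) (hTI : ∀ i, Cfsg.IsTISubset (H i : Set G)) (hcover : ∀ g : G, g ≠ 1 → ∃ i, ∃ x : G, x * g * x⁻¹ ∈ H i) : Nat.card G - 1 = ∑ i, (Subgroup.normalizer (H i : Set G)).index * (Nat.card (H i) - 1) := by
  have e : (⊤ : Subgroup G)^# = ⋃ i, classSupp (H i)^# ⊤ := by
    ext g
    simp only [Set.mem_iUnion]
    refine ⟨fun h => ?_, fun ⟨i, h⟩ => ⟨trivial, fun e => one_notMem_classSupp (one_notMem_sharp _) (e ▸ h)⟩⟩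
    obtain ⟨i, x, hx⟩ := hcover g h.2
    exact ⟨i, x⁻¹, trivial, _, ⟨hx, by simpa using h.2⟩, by group⟩
  rw [← Subgroup.card_top, ← ncard_sharp, e, Set.ncard_iUnion_of_finite (fun _ => Set.toFinite _)
    fun i j h => disjoint_classSupp_of_coprime (hcop i j h), finsum_eq_sum_of_fintype]
  refine Finset.sum_congr rfl fun i _ => ?_
  by_cases h : H i = ⊥
  · simp [h, classSupp, sharp]
  · rw [(normedTI_sharp_of_isTISubset h (hTI i)).ncard_classSupp, ncard_sharp, mul_comm,
      Subgroup.relIndex_top_right]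

end Cfsg.Agent.S1527
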