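import Cfsg.Statements.S1528
import Cfsg.Agent.PF.Bridge3

set_option autoImplicit false
open Cfsg

namespace Cfsg.Agent.S1528

open Cfsg.Agent.PF Cfsg.Agent.BG
open scoped _root_.Classical

/-- Let N be a normal subgroup of the finite group G such that every element of G commuting with a non-identity element of N lies in N. If χ is an irreducible character of G with χ n ≠ χ 1 for some n ∈ N, then χ is the function induced from some irreducible character of N. -/
theorem result {G : Type*} [Group G] [Fintype G] (N : Subgroup G) [N.Normal] (hC : ∀ n ∈ N, n ≠ 1 → Subgroup.centralizer ({n} : Set G) ≤ N) (χ : G → ℂ) (hχ : Cfsg.IsIrrCharacter G χ) (hker : ∃ n ∈ N, χ n ≠ χ 1) : ∃ φ : N → ℂ, Cfsg.IsIrrCharacter N φ ∧ χ = Cfsg.indFun N φ := by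
  have h := mem_Irr_top.2 hχ
  obtain ⟨n, hn, h1⟩ := hker
  rcases (le_top : N ≤ ⊤).eq_or_lt with rfl | lt
  · refine ⟨fun x => χ x, (mem_Irr.1 h).2, ?_⟩
    rw [← Ind_ext, ext_restrict (mem_Irr.1 h).1, Ind_self_of_CF (Irr_CF h)]
  obtain ⟨θ, h2, -, e⟩ := Frobenius_Ind_irrP ⟨normal_top N, fun e => h1 (by rw [show n = 1 from Subgroup.mem_bot.1 (e ▸ hn)]), lt,
    fun x hx h1 => inf_le_right.trans (hC x hx h1)⟩ h ((not_le_cfker_Irr h).2 ⟨n, hn, h1⟩)
  obtain ⟨φ, h3, rfl⟩ := exists_ext_of_Irr h2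
  exact ⟨φ, h3, by rw [e, Ind_ext]⟩

end Cfsg.Agent.S1528
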