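import Cfsg.Statements.S1529
import Cfsg.Agent.PF.Bridge3
import Cfsg.Agent.PF.P05b

set_option autoImplicit false
open Cfsg

namespace Cfsg.Agent.S1529

open Cfsg.Agent.PF Cfsg.Agent.BG
open scoped _root_.Classical
set_option maxSynthPendingDepth 3

/-- Let N be a subgroup of the finite group G, S a set of irreducible characters of N with at least two members, and τ₁ a linear isometry on the integer combinations of S with virtual-character values such that τ₁ α vanishes at 1 whenever α ∈ ℤ[S] does. Then there is ε ∈ {1, −1} such that ε • τ₁ χ is an irreducible character of G for every χ ∈ S, and distinct members of S give distinct characters. -/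
theorem result {G : Type*} [Group G] [Fintype G] (N : Subgroup G) [Fintype N] (S : Set (N → ℂ)) (hirr : ∀ χ ∈ S, Cfsg.IsIrrCharacter N χ) (htwo : ∃ χ ∈ S, ∃ ψ ∈ S, χ ≠ ψ) (τ₁ : (N → ℂ) → (G → ℂ)) (hτ₁ : Cfsg.IsLinearIsometryOn (Cfsg.zspan S) τ₁) (h0 : ∀ α ∈ Cfsg.zspan S, α 1 = 0 → τ₁ α 1 = 0) : ∃ ε : ℂ, (ε = 1 ∨ ε = -1) ∧ (∀ χ ∈ S, Cfsg.IsIrrCharacter G (ε • τ₁ χ)) ∧ (∀ χ ∈ S, ∀ ψ ∈ S, τ₁ χ = τ₁ ψ → χ = ψ) := by
  obtain ⟨S, rfl, hS⟩ := finite_of_isIrr hirr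
  rw [zspan_coe] at hτ₁ h0
  obtain ⟨ν, h, e⟩ := exists_isoOn hτ₁
  have e' := fun χ (hχ : χ ∈ S) => e χ (mem_ZS_of_mem hχ)
  have h1 : ∀ φ ∈ ZS1 S, ν φ 1 = 0 := fun φ hφ =>
    e φ (ZS1_le hφ) ▸ h0 φ (ZS1_le hφ) (mem_ZS1.1 hφ).2
  have inj : ∀ χ ∈ (S : Set (N → ℂ)), ∀ ψ ∈ (S : Set (N → ℂ)), τ₁ χ = τ₁ ψ → χ = ψ := fun χ hχ ψ hψ k => by
    by_contra ne
    have k1 := h.dot_eq χ (mem_ZS_of_mem hχ) ψ (mem_ZS_of_mem hψ)
    rw [e' χ hχ, k, ← e' ψ hψ, h.dot_eq ψ (mem_ZS_of_mem hψ) ψ (mem_ZS_of_mem hψ),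
      dot_Irr_ne (hS hχ) (hS hψ) ne, dot_Irr_self (hS hψ)] at k1
    exact one_ne_zero k1
  obtain ⟨χ, hχ, -⟩ := htwo
  rcases (⟨h, fun _ _ => rfl⟩ : CohWith ⊤ ⊤ S ν ν).dirr hχ (hS hχ) with k | k
  · exact ⟨1, Or.inl rfl, fun ψ hψ => mem_Irr_top.1 (by
      rw [one_smul, ← e' ψ hψ]
      exact coherent_dirr_sign ⟨h, fun _ _ => rfl⟩ h1 hχ hψ (hS hχ) (hS hψ) k), inj⟩
  · exact ⟨-1, Or.inr rfl, fun ψ hψ => mem_Irr_top.1 (by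
      rw [neg_one_smul, ← e' ψ hψ]
      exact coherent_dirr_sign (τ := -ν) ⟨h.neg, fun _ _ => rfl⟩ (fun φ hφ => by simp [h1 φ hφ]) hχ hψ
        (hS hχ) (hS hψ) k), inj⟩

end Cfsg.Agent.S1529
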