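import Cfsg.Statements.S1530
import Cfsg.Agent.PF.Bridge
import Cfsg.Agent.Perm.FeitCoh

set_option autoImplicit false
open Cfsg

namespace Cfsg.Agent.S1530

open Cfsg.Agent.PF Cfsg.Agent.BG Cfsg.Agent.Perm
set_option maxSynthPendingDepth 3

/-- Let N be a subgroup of the finite group G and S₀ a finite set of irreducible characters of N, χ an irreducible character of N not in S₀, with degrees ξ 1 = d ξ. Let τ be a linear isometry on the integer combinations of S₀ ∪ {χ} vanishing at 1, with values virtual characters of G vanishing at 1, such that (S₀, N minus 1, τ) is coherent. If some ψ ∈ S₀ has d ψ dividing d χ and 2 · d ψ · d χ < Σ_{ξ ∈ S₀} (d ξ)², then (S₀ ∪ {χ}, N minus 1, τ) is coherent. -/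
theorem result {G : Type*} [Group G] [Fintype G] (N : Subgroup G) [Fintype N] (S₀ : Finset (N → ℂ)) (χ : N → ℂ) (hirr : ∀ ξ ∈ S₀, Cfsg.IsIrrCharacter N ξ) (hχ : Cfsg.IsIrrCharacter N χ) (hχS : χ ∉ S₀) (d : (N → ℂ) → ℕ) (hd : ∀ ξ ∈ insert χ S₀, ξ 1 = (d ξ : ℂ)) (τ : (N → ℂ) → (G → ℂ)) (hτ : Cfsg.IsLinearIsometryOn (Cfsg.zspanOn (↑(insert χ S₀) : Set (N → ℂ)) {1}ᶜ) τ) (hτ1 : ∀ α ∈ Cfsg.zspanOn (↑(insert χ S₀) : Set (N → ℂ)) {1}ᶜ, τ α 1 = 0) (hcoh : Cfsg.IsCoherent (↑S₀ : Set (N → ℂ)) {1}ᶜ τ) (ψ : N → ℂ) (hψ : ψ ∈ S₀) (hdvd : d ψ ∣ d χ) (hlt : 2 * d ψ * d χ < ∑ ξ ∈ S₀, d ξ ^ 2) : Cfsg.IsCoherent (↑(insert χ S₀) : Set (N → ℂ)) {1}ᶜ τ := by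
  generalize hT : insert χ S₀ = T at hd hτ hτ1 ⊢
  have hT' : ∀ ξ, ξ ∈ T ↔ ξ = χ ∨ ξ ∈ S₀ := fun ξ => hT ▸ Finset.mem_insert
  clear hT
  obtain rfl : T = @insert _ _ (@Finset.instInsert _ fun a b => Classical.propDecidable (a = b)) χ S₀ := by
    ext ξ; simp [hT']
  rw [zspanOn_coe] at hτ hτ1
  obtain ⟨τ', h, e⟩ := exists_isoOn hτ
  have sub := fun ξ (hξ : ξ ∈ S₀) => (hT' ξ).2 (Or.inr hξ)
  have hm := (hT' χ).2 (Or.inl rfl)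
  have hI := fun ξ hξ => mem_Irr_top.2 (((hT' ξ).1 hξ).elim (fun k => k ▸ hχ) (hirr ξ))
  have dg := fun ξ hξ => deg_eq_of (hd ξ hξ)
  refine (extend_coherent_irr hI h (fun φ hφ => e φ hφ ▸ hτ1 φ hφ) hψ hχS ?_ ?_
    (coherent_of_isCoherent (fun a ha => e a (ZS1_mono sub ha)) hcoh)).isCoherent e
    (exists_ne_zero_ZS1_Irr hm (sub ψ hψ) (hI χ hm) (hI ψ (sub ψ hψ)) (by rintro rfl; exact hχS hψ))
  · rwa [dg ψ (sub ψ hψ), dg χ hm]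
  · rw [dg ψ (sub ψ hψ), dg χ hm, Finset.sum_congr rfl fun ξ hξ => by rw [dg ξ (sub ξ hξ)]]
    linarith

end Cfsg.Agent.S1530
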