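import Cfsg.Statements.S1531
import Cfsg.Agent.Perm.FeitSibley

set_option autoImplicit false
open Cfsg

namespace Cfsg.Agent.S1531

open Cfsg.Agent.PF Cfsg.Agent.BG Cfsg.Agent.Perm
open scoped _root_.Classical
set_option maxSynthPendingDepth 3

/-- Let N be a subgroup of the finite group G, S a set of irreducible characters of N, and α a linear isometry on the integer combinations of S vanishing at 1 with values virtual characters of G vanishing at 1. Let X, Y ⊆ S be disjoint, each with at least two members, and σ, τ linear isometries on ℤ[X], ℤ[Y] into virtual characters agreeing with α on the members vanishing at 1. Then ⟨σ χ, τ η⟩ = 0 for χ ∈ X, η ∈ Y; and if for some χ₀ ∈ X, η₀ ∈ Y with degrees c = χ₀ 1, e = η₀ 1 one has α (c • η₀ − e • χ₀) = c • τ η₀ − e • σ χ₀, then (X ∪ Y, N minus 1, α) is coherent. -/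
theorem result {G : Type*} [Group G] [Fintype G] (N : Subgroup G) [Fintype N] (S X Y : Set (N → ℂ)) (hirr : ∀ ξ ∈ S, Cfsg.IsIrrCharacter N ξ) (hXS : X ⊆ S) (hYS : Y ⊆ S) (hXY : Disjoint X Y) (hX2 : ∃ a ∈ X, ∃ b ∈ X, a ≠ b) (hY2 : ∃ a ∈ Y, ∃ b ∈ Y, a ≠ b) (α : (N → ℂ) → (G → ℂ)) (hα : Cfsg.IsLinearIsometryOn (Cfsg.zspanOn S {1}ᶜ) α) (hα1 : ∀ θ ∈ Cfsg.zspanOn S {1}ᶜ, α θ 1 = 0) (σ τ : (N → ℂ) → (G → ℂ)) (hσ : Cfsg.IsLinearIsometryOn (Cfsg.zspan X) σ) (hσα : ∀ θ ∈ Cfsg.zspanOn X {1}ᶜ, σ θ = α θ) (hτ : Cfsg.IsLinearIsometryOn (Cfsg.zspan Y) τ) (hτα : ∀ θ ∈ Cfsg.zspanOn Y {1}ᶜ, τ θ = α θ) : (∀ χ ∈ X, ∀ η ∈ Y, Cfsg.classInner (σ χ) (τ η) = 0) ∧ ((∃ χ₀ ∈ X, ∃ η₀ ∈ Y, α (χ₀ 1 • η₀ - η₀ 1 • χ₀) = χ₀ 1 • τ η₀ - η₀ 1 • σ χ₀) → Cfsg.IsCoherent (X ∪ Y) {1}ᶜ α) := by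
  obtain ⟨S, rfl, hS⟩ := finite_of_isIrr hirr
  obtain ⟨X, rfl, -⟩ := finite_of_isIrr fun χ hχ => hirr χ (hXS hχ)
  obtain ⟨Y, rfl, -⟩ := finite_of_isIrr fun χ hχ => hirr χ (hYS hχ)
  rw [zspanOn_coe] at hα hα1
  obtain ⟨α', h, e⟩ := exists_isoOn hα
  have hX : X ⊆ S := hXS
  have hY : Y ⊆ S := hYS
  have hd : Disjoint X Y := Finset.disjoint_coe.1 hXY
  obtain ⟨σ', h1, e1⟩ := exists_cohWith (fun a ha => e a (ZS1_mono hX ha)) hσ hσα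
  obtain ⟨τ', h2, e2⟩ := exists_cohWith (fun a ha => e a (ZS1_mono hY ha)) hτ hτα
  have o : ∀ χ ∈ X, ∀ η ∈ Y, dot ⊤ (σ' χ) (τ' η) = 0 := fun χ hχ η hη =>
    coherent_ortho_irr hS h (fun φ hφ => e φ hφ ▸ hα1 φ hφ) hX hY hd (Finset.one_lt_card.2 hX2)
      (Finset.one_lt_card.2 hY2) h1 h2 hχ hη
  refine ⟨fun χ hχ η hη => ?_, fun ⟨χ, hχ, η, hη, k⟩ => ?_⟩
  · rw [← dot_top, ← e1 χ (mem_ZS_of_mem hχ), ← e2 η (mem_ZS_of_mem hη), o χ hχ η hη]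
  · letI : DecidableEq (N → ℂ) := fun a b => Classical.propDecidable (a = b)
    have sub := Finset.union_subset hX hY
    rw [← Finset.coe_union]
    refine (bridge_coherent_irr (sub.trans hS) hd h1 h2 o hχ hη ?_).isCoherent
      (fun a ha => e a (ZS1_mono sub ha)) (exists_ne_zero_ZS1_Irr (Finset.mem_union_left _ hχ)
        (Finset.mem_union_right _ hη) (hS (hX hχ)) (hS (hY hη))
        fun k => Finset.disjoint_left.1 hd hχ (k ▸ hη))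
    rw [e1 χ (mem_ZS_of_mem hχ), e2 η (mem_ZS_of_mem hη), ← k, e]
    rw [Irr_apply_one (hS (hX hχ)), Irr_apply_one (hS (hY hη))]
    exact cross_mem_ZS1 hS (hY hη) (hX hχ)

end Cfsg.Agent.S1531
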