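import Cfsg.Statements.S1533
import Cfsg.Agent.Perm.FeitSibley

set_option autoImplicit false
open Cfsg

namespace Cfsg.Agent.S1533

open Cfsg.Agent.PF Cfsg.Agent.BG Cfsg.Agent.Perm
open scoped _root_.Classical
set_option maxSynthPendingDepth 3

/-- Let G be a finite group, p an odd prime, and P a nontrivial Sylow p-subgroup whose underlying set is a TI-subset of G, with P properly contained in its set normaliser N and C_G(x) ≤ P for every non-identity x ∈ P. Let S be the set of irreducible characters χ of N with χ x ≠ χ 1 for some x ∈ P. Then either S has exactly one member, P is elementary abelian and Nat.card P = [N:P] + 1; or (S, N minus 1, induction to G) is coherent. -/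
theorem result {G : Type*} [Group G] [Fintype G] (p : ℕ) [Fact p.Prime] (hp : p ≠ 2) (P : Sylow p G) (hP1 : (P : Subgroup G) ≠ ⊥) (hTI : Cfsg.IsTISubset ((P : Subgroup G) : Set G)) (hlt : (P : Subgroup G) < Subgroup.normalizer ((P : Subgroup G) : Set G)) (hC : ∀ k ∈ (P : Subgroup G), k ≠ 1 → Subgroup.centralizer ({k} : Set G) ≤ (P : Subgroup G)) [Fintype ↥(Subgroup.normalizer ((P : Subgroup G) : Set G))] : (Nat.card {χ : ↥(Subgroup.normalizer ((P : Subgroup G) : Set G)) → ℂ // Cfsg.IsIrrCharacter ↥(Subgroup.normalizer ((P : Subgroup G) : Set G)) χ ∧ ∃ x : ↥(Subgroup.normalizer ((P : Subgroup G) : Set G)), (x : G) ∈ (P : Subgroup G) ∧ χ x ≠ χ 1} = 1 ∧ Cfsg.IsElementaryAbelian p (P : Subgroup G) ∧ Nat.card (P : Subgroup G) = ((P : Subgroup G).subgroupOf (Subgroup.normalizer ((P : Subgroup G) : Set G))).index + 1) ∨ Cfsg.IsCoherent {χ : ↥(Subgroup.normalizer ((P : Subgroup G) : Set G)) → ℂ | Cfsg.IsIrrCharacter ↥(Subgroup.normalizer ((P : Subgroup G) : Set G))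 χ ∧ ∃ x : ↥(Subgroup.normalizer ((P : Subgroup G) : Set G)), (x : G) ∈ (P : Subgroup G) ∧ χ x ≠ χ 1} {1}ᶜ (fun α => Cfsg.indFun (Subgroup.normalizer ((P : Subgroup G) : Set G)) α) := by
  have hF := frobKer_normalizer hP1 hlt hC
  obtain ⟨n, hn⟩ := IsPGroup.iff_card.1 P.isPGroup'
  have hodd : Odd (Nat.card (P : Subgroup G)) := hn ▸ ((Fact.out : p.Prime).odd_of_ne_two hp).pow
  rcases lt_or_ge 1 (seqIndD (P : Subgroup G) (Subgroup.normalizer ((P : Subgroup G) : Set G)) P ⊥).card
    with h | h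
  · exact Or.inr (isCoherent_of_TI hF
      (Sibley_odd_ker hF (normedTI_sharp_of_isTISubset hP1 hTI) hodd) h)
  have c := card_eq_of_subsingleton hF h
  obtain ⟨q, hq, he⟩ := elemAb_of_card hF c
  obtain ⟨x, hx, hx1⟩ := exists_mem_ne_one hP1
  obtain ⟨k, hk⟩ := P.isPGroup' ⟨x, hx⟩
  have hk' : x ^ p ^ k = 1 := congrArg Subtype.val hk
  obtain rfl : q = p := by
    by_contra ne
    exact hx1 (pow_gcd_eq_one.2 ⟨he.2 x hx, hk'⟩ |>.symm ▸ by
      rw [Nat.Coprime.gcd_eq_one (((Nat.coprime_primes hq Fact.out).2 ne).pow_right k), pow_one])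
  refine Or.inl ⟨?_, he, c⟩
  rw [← card_seqIndD_eq hF]
  exact le_antisymm h (Finset.card_pos.2 (seqIndD_nonempty le_rfl (normal_bot _) (by rwa [le_bot_iff])))

end Cfsg.Agent.S1533
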