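import Cfsg.Statements.S1534
import Cfsg.Agent.Perm.FeitSibley

set_option autoImplicit false
open Cfsg

namespace Cfsg.Agent.S1534

open Cfsg.Agent.PF Cfsg.Agent.BG Cfsg.Agent.Perm
open scoped _root_.Classical
set_option maxSynthPendingDepth 3

/-- Let G be a finite group and K a nontrivial nilpotent subgroup whose underlying set is a TI-subset of G, properly contained in its set normaliser N, with C_G(k) ≤ K for every non-identity k ∈ K; let e be the index of K in N and S the set of irreducible characters χ of N with χ k ≠ χ 1 for some k ∈ K. Then one of: S has exactly one member, Nat.card K = e + 1 and K is an elementary abelian p-group for some prime p; or K is a Sylow 2-subgroup of G (Nat.card K is the largest power of 2 dividing Nat.card G) and [K : [K,K]] < 4e²; or (S, N minus 1, induction to G) is coherent. -/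
theorem result {G : Type*} [Group G] [Fintype G] (K : Subgroup G) (hK1 : K ≠ ⊥) (hnil : Group.IsNilpotent K) (hTI : Cfsg.IsTISubset (K : Set G)) (hlt : K < Subgroup.normalizer (K : Set G)) (hC : ∀ k ∈ K, k ≠ 1 → Subgroup.centralizer ({k} : Set G) ≤ K) [Fintype ↥(Subgroup.normalizer (K : Set G))] : (Nat.card {χ : ↥(Subgroup.normalizer (K : Set G)) → ℂ // Cfsg.IsIrrCharacter ↥(Subgroup.normalizer (K : Set G)) χ ∧ ∃ k : ↥(Subgroup.normalizer (K : Set G)), (k : G) ∈ K ∧ χ k ≠ χ 1} = 1 ∧ Nat.card K = (K.subgroupOf (Subgroup.normalizer (K : Set G))).index + 1 ∧ ∃ p : ℕ, p.Prime ∧ Cfsg.IsElementaryAbelian p K) ∨ (Nat.card K = 2 ^ (Nat.card G).factorization 2 ∧ (⁅K, K⁆.subgroupOf K).index < 4 * (K.subgroupOf (Subgroup.normalizer (K : Set G))).index ^ 2) ∨ Cfsg.IsCoherent {χ : ↥(Subgroup.normalizer (K : Set G)) → ℂ | Cfsg.IsIrrCharacter ↥(Subgroup.normalizer (K : Set G)) χ ∧ ∃ k : ↥(Subgroup.normalizer (K : Set G)), (k : G) ∈ K ∧ χ k ≠ χ 1} {1}ᶜ (fun α => Cfsg.indFun (Subgroup.normalizer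 (K : Set G)) α) := by
  have hF := frobKer_normalizer hK1 hlt hC
  have hT := normedTI_sharp_of_isTISubset hK1 hTI
  rcases lt_or_ge 1 (seqIndD K (Subgroup.normalizer (K : Set G)) K ⊥).card with h | h
  swap
  · have c := card_eq_of_subsingleton hF h
    refine Or.inl ⟨?_, c, elemAb_of_card hF c⟩
    rw [← card_seqIndD_eq hF]
    exact le_antisymm h (Finset.card_pos.2
      (seqIndD_nonempty le_rfl (normal_bot _) (by rwa [le_bot_iff])))
  right
  by_cases hodd : Odd (Nat.card K)
  · exact Or.inr (isCoherent_of_TI hF (Sibley_odd_ker hF hT hodd) h)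
  rcases Feit_coherence hF hnil (TI_isoOn hF hT).1 (TI_isoOn hF hT).2 with k | ⟨p, hp, hK, h1, hle⟩
  · exact Or.inr (isCoherent_of_TI hF k h)
  left
  haveI := Fact.mk hp
  obtain ⟨n, hn⟩ := IsPGroup.iff_card.1 hK
  obtain rfl : p = 2 := by
    by_contra ne
    exact hodd (hn ▸ (hp.odd_of_ne_two ne).pow)
  have cop := hF.coprime
  have nd : ¬ 2 ∣ K.relIndex (Subgroup.normalizer (K : Set G)) := fun d =>
    absurd (Nat.dvd_gcd (even_iff_two_dvd.1 (Nat.not_odd_iff_even.1 hodd)) d) (by
      rw [cop.gcd_eq_one]; decide)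
  constructor
  · have hS : SylowIn 2 K ⊤ := by
      refine Sylow_subnorm ?_
      rw [top_inf_eq]
      exact sylow_mk hlt.le hK nd
    rw [card_Sylow hS, Subgroup.card_top]
  · obtain ⟨k, -, hk⟩ := (Nat.dvd_prime_pow hp).1 (hn ▸ Subgroup.relIndex_dvd_card ⁅K, K⁆ K)
    change (⁅K, K⁆).relIndex K < 4 * K.relIndex (Subgroup.normalizer (K : Set G)) ^ 2
    have e1 : K.relIndex (Subgroup.normalizer (K : Set G)) ≠ 1 := fun e =>
      hlt.not_ge (Subgroup.relIndex_eq_one.1 e)
    generalize K.relIndex (Subgroup.normalizer (K : Set G)) = e at hle nd e1 ⊢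
    rw [hk] at hle ⊢
    have e0 : e ≠ 0 := by rintro rfl; simp at nd
    rcases hle.lt_or_eq with hl | hl
    · refine lt_of_le_of_ne (Nat.lt_succ_iff.1 hl) fun hq => ?_
      obtain ⟨j, -, hj⟩ := (Nat.dvd_prime_pow hp).1 (hq ▸ Dvd.intro (4 * e) (by ring) : e ∣ 2 ^ k)
      exact nd (hj ▸ dvd_pow_self 2 (by rintro rfl; exact e1 (by simpa using hj)))
    · exfalso
      rcases k with _ | k
      · have : 0 < e ^ 2 := by positivity
        omega
      · omega

end Cfsg.Agent.S1534
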