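import Cfsg.Statements.S1535
import Cfsg.Agent.Perm.FeitSibley

set_option autoImplicit false
open Cfsg

namespace Cfsg.Agent.S1535

open Cfsg.Agent.PF Cfsg.Agent.BG Cfsg.Agent.Perm
open scoped _root_.Classical
set_option maxSynthPendingDepth 3

/-- Let N be a finite group with a proper nontrivial normal subgroup H such that every element commuting with a non-identity element of H lies in H (N is a Frobenius group with kernel H); let e be the index of H and suppose Nat.card H ≠ e + 1. Let S be the set of irreducible characters χ of N with χ h ≠ χ 1 for some h ∈ H, and τ a linear isometry on the integer combinations of S vanishing at 1, with values virtual characters of a finite group G vanishing at 1. Then (S, N minus 1, τ) is coherent, or there is a prime p with Nat.card H a power of p, H non-abelian and [H : [H,H]] ≤ 4e² + 1. -/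
theorem result {N : Type*} [Group N] [Fintype N] {G : Type*} [Group G] [Fintype G] (H : Subgroup N) [H.Normal] (hH1 : H ≠ ⊥) (hH2 : H ≠ ⊤) (hC : ∀ h ∈ H, h ≠ 1 → Subgroup.centralizer ({h} : Set N) ≤ H) (he : Nat.card H ≠ H.index + 1) (τ : (N → ℂ) → (G → ℂ)) (hτ : Cfsg.IsLinearIsometryOn (Cfsg.zspanOn {χ : N → ℂ | Cfsg.IsIrrCharacter N χ ∧ ∃ h ∈ H, χ h ≠ χ 1} {1}ᶜ) τ) (hτ1 : ∀ α ∈ Cfsg.zspanOn {χ : N → ℂ | Cfsg.IsIrrCharacter N χ ∧ ∃ h ∈ H, χ h ≠ χ 1} {1}ᶜ, τ α 1 = 0) : Cfsg.IsCoherent {χ : N → ℂ | Cfsg.IsIrrCharacter N χ ∧ ∃ h ∈ H, χ h ≠ χ 1} {1}ᶜ τ ∨ ∃ p : ℕ, p.Prime ∧ (∃ m : ℕ, Nat.card H = p ^ m) ∧ ¬ IsMulCommutative H ∧ (⁅H, H⁆.subgroupOf H).index ≤ 4 * H.index ^ 2 + 1 := by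
  have hF : FrobKer ⊤ H := ⟨normal_top H, hH1, lt_top_iff_ne_top.2 hH2,
    fun x hx h1 => inf_le_right.trans (hC x hx h1)⟩
  have eS : {χ : N → ℂ | Cfsg.IsIrrCharacter N χ ∧ ∃ h ∈ H, χ h ≠ χ 1} = seqIndD H ⊤ H ⊥ := by
    ext χ
    rw [Finset.mem_coe, mem_seqIndD_Frob hF, Set.mem_setOf_eq, ← mem_Irr_top]
    exact and_congr_right fun h => (not_le_cfker_Irr h).symm
  rw [eS] at hτ hτ1 ⊢
  rw [zspanOn_coe] at hτ hτ1
  obtain ⟨τ', h, e⟩ := exists_isoOn hτ
  rcases Feit_coherence hF (FrobKer_nil hF) h (fun φ hφ => e φ hφ ▸ hτ1 φ hφ) with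
    k | ⟨p, hp, hK, h1, hle⟩
  · refine Or.inl (k.isCoherent e (exists_ne_zero_of_card hF (lt_of_not_ge fun c => he ?_)))
    rw [card_eq_of_subsingleton hF c, Subgroup.relIndex_top_right]
  · haveI := Fact.mk hp
    rw [Subgroup.relIndex_top_right] at hle
    exact Or.inr ⟨p, hp, IsPGroup.iff_card.1 hK,
      fun c => h1 (Subgroup.commutator_self_eq_bot_iff.2 c), hle⟩

end Cfsg.Agent.S1535
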