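import Cfsg.Statements.S1536
import Cfsg.Agent.PF.Bridge3
import Cfsg.Agent.Char.FS

set_option autoImplicit false
open Cfsg

namespace Cfsg.Agent.S1536

open Cfsg.Agent.PF Cfsg.Agent.BG
open scoped _root_.Classical

/-- Let H be a normal subgroup of the finite group M whose order is coprime to its index. For x ∈ M: some non-principal irreducible character of H is unchanged under h ↦ θ(x h x⁻¹) if and only if some non-identity element of H commutes with x. -/
theorem result {M : Type*} [Group M] [Finite M] (H : Subgroup M) [hN : H.Normal] (hHall : Nat.Coprime (Nat.card H) H.index) (x : M) : (∃ θ : H → ℂ, Cfsg.IsIrrCharacter H θ ∧ θ ≠ (fun _ => 1) ∧ (fun h : H => θ ⟨x * h * x⁻¹, hN.conj_mem h h.2 x⟩) = θ) ↔ ∃ h ∈ H, h ≠ 1 ∧ x * h = h * x := by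
  constructor
  · rintro ⟨θ, h1, h2, h3⟩
    by_contra! h
    refine not_mem_inertia_of_regular' (normal_bot H) (by simp) ((normal_top H).norm trivial)
      (fun k hk e => by_contra fun k1 => h k hk k1 ?_) (ext_mem_Irr.2 h1) bot_le
      (by rwa [← ext_const_one, (ext_injective H).ne_iff]) ((mem_inertia_ext θ x).2 (congrFun h3))
    rwa [Subgroup.mem_bot, mul_inv_eq_one, mul_inv_eq_iff_eq_mul] at e
  rintro ⟨h, hh, h1, e⟩
  let α : H ≃* H := MulAut.conjNormal x
  have k := Char.card_irr_fixed_eq_card_classes α fun χ hχ => hχ.comp_equiv α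
  have key : ∀ y : H, α y = y → ∀ g, ConjClasses.mk g = ConjClasses.mk y → IsConj g (α g) :=
    fun y hy g hg => by
      have := ConjClasses.mk_eq_mk_iff_isConj.1 hg
      exact this.trans (by simpa [hy] using (α.toMonoidHom.map_isConj this).symm)
  have n : Nontrivial {C : ConjClasses H // ∀ g, ConjClasses.mk g = C → IsConj g (α g)} :=
    ⟨⟨_, key 1 (map_one α)⟩, ⟨_, key ⟨h, hh⟩ (Subtype.ext (by simp [α, e]))⟩, fun e' =>
      h1 (by simpa [Subtype.ext_iff, eq_comm] using ConjClasses.mk_eq_mk_iff_isConj.1 (congrArg Subtype.val e'))⟩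
  rw [← Finite.one_lt_card_iff_nontrivial, ← k, Finite.one_lt_card_iff_nontrivial] at n
  obtain ⟨χ, hχ⟩ := exists_ne (⟨⟨fun _ => 1, Char.isIrrCharacter_one⟩, fun _ => rfl⟩ :
    {χ : IrrCharacter H // ∀ g, χ.1 (α g) = χ.1 g})
  exact ⟨χ.1.1, χ.1.2, fun e => hχ (Subtype.ext (Subtype.ext e)), funext χ.2⟩

end Cfsg.Agent.S1536
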