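import Cfsg.Statements.S1551
import Cfsg.Agent.Golay.Stab

set_option autoImplicit false
open scoped Pointwise
open Cfsg

namespace Cfsg.Agent.S1551

open Cfsg.Agent.Comp Cfsg.Agent.Golay MulAction
set_option maxRecDepth 100000

/-- Structure of a sextet stabiliser: it induces every permutation of the six tetrads, the subgroup fixing each tetrad setwise has order 192, and there is a normal subgroup of order 64 consisting of elements squaring to the identity. -/
theorem result (S : Finset (Finset Cfsg.GolayPt)) (hS : S ∈ Cfsg.sextets) : (∀ e : Equiv.Perm ↥S, ∃ g ∈ MulAction.stabilizer Cfsg.M24 S, ∀ t : ↥S, (g : Equiv.Perm Cfsg.GolayPt) • (t : Finset Cfsg.GolayPt) = ((e t : ↥S) : Finset Cfsg.GolayPt)) ∧ Nat.card {g : ↥(MulAction.stabilizer Cfsg.M24 S) // ∀ t ∈ S, ((g : Cfsg.M24) : Equiv.Perm Cfsg.GolayPt) • t = t} = 192 ∧ ∃ N : Subgroup ↥(MulAction.stabilizer Cfsg.M24 S), N.Normal ∧ Nat.card N = 64 ∧ ∀ x ∈ N, x * x = 1 := by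
  obtain ⟨g, rfl⟩ := sextet_transM sext0_mem hS
  have h0 : Nat.card ↥(stabilizer MG (g • sext0) ⊓ fixF MG (g • sext0)) = Nat.card ↥(stabilizer MG sext0 ⊓ fixF MG sext0) := by
    rw [← map_conj_stabilizer, ← map_conj_fixF, ← map_conj_inf, card_map_conj]
  have h1 := chainK_fix_le (S := sext0) kMask (fun a => a % 37) 10 [15, 5264, 4196928, 8536096, 622848] (fun b hb =>
    ⟨EG.ofMask b, (ofMask_mem_sextetOf (by norm_num) (by revert b; decide +kernel)).2 (by revert b; decide +kernel),
      kMask_P (by revert b; decide +kernel)⟩)
    ((codesM (L := [984609108959512725636360260653452290, 679612302862558579076082004038617120,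
      266813163794342990637318746773980256, 522494332202430979848742973493805153,
      963216029444157986943338787694367317]) (by decide +kernel)).stab_top kSx sext0_P (by decide +kernel)) (a := 720)
      (by decide +kernel)
  obtain ⟨h2, h3⟩ := restr_surj (K := stabilizer MG (g • sext0)) (fun g hg => hg) hS.1
    (by rw [h0, card_stabilizer_smul]; exact h1)
  rw [card_stabilizer_smul, card_Sx, show Nat.factorial 6 = 720 from rfl] at h3
  refine ⟨h2, (card_subgroupOf_eq (fixF MG (g • sext0)) _).trans
    (Nat.eq_of_mul_eq_mul_left (by norm_num : 0 < 720) h3), ?_⟩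
  simp only [← pow_two]
  exact exists_normal_congr (conjEquiv g (map_conj_stabilizer g _)) (exists_normal_of_trans par24
    [(4, [984818244535754528103549039458486304, 963721886883755259286232606933354528,
      610972711791184720857040928538394722, 589876195687847248275933451517984866]),
     (5, [984818244535754528103549039458486304, 590072960059042287979885064796342304,
      720981692062171673584743151055243296, 220213109803259289183002082616117280]),
     (0, [984818244535754528103549039458486304, 967616069900692509306086327477895266,
      970408745037899174542809581725223937, 964009317987243155104936468951336003])] closure_Sx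
    ((codesM (by decide +kernel)).stab_top kSx sext0_P (by decide +kernel)) (by decide +kernel))

end Cfsg.Agent.S1551
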