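import Cfsg.Statements.S1552
import Cfsg.Agent.Golay.Orbs

set_option autoImplicit false
open scoped Pointwise
open Cfsg

namespace Cfsg.Agent.S1552

/-- A sextet stabiliser has four orbits on the 1771 sextets, of sizes 1, 90, 240, 1440; and the stabiliser is a maximal proper subgroup. -/
theorem result (S : Finset (Finset Cfsg.GolayPt)) (hS : S ∈ Cfsg.sextets) : ∃ X₁ ∈ Cfsg.sextets, ∃ X₂ ∈ Cfsg.sextets, ∃ X₃ ∈ Cfsg.sextets, (MulAction.orbit ↥(MulAction.stabilizer Cfsg.M24 S) X₁).ncard = 90 ∧ (MulAction.orbit ↥(MulAction.stabilizer Cfsg.M24 S) X₂).ncard = 240 ∧ (MulAction.orbit ↥(MulAction.stabilizer Cfsg.M24 S) X₃).ncard = 1440 ∧ Cfsg.sextets = {S} ∪ MulAction.orbit ↥(MulAction.stabilizer Cfsg.M24 S) X₁ ∪ MulAction.orbit ↥(MulAction.stabilizer Cfsg.M24 S) X₂ ∪ MulAction.orbit ↥(MulAction.stabilizer Cfsg.M24 S) X₃ ∧ IsCoatom (MulAction.stabilizer Cfsg.M24 S) := by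
  obtain ⟨g, rfl⟩ := Golay.sextet_transM Golay.sext0_mem hS
  obtain ⟨y, hy, hs, e⟩ := (Golay.os_Sx_sx.stab_smul Golay.inv_sextets g).succ hS le_rfl (by decide) rfl
  refine ⟨y 0, hy 0, y 1, hy 1, y 2, hy 2, hs 0, hs 1, hs 2, ?_, ?_⟩
  · rw [Golay.iUnion_fin3] at e
    simpa only [Set.union_assoc] using e
  · exact Comp.isCoatom_stabilizer_smul (Golay.os_Sx_sx.isCoatom (N := 1771) (Golay.orbit_sextet Golay.sext0_mem)
      Golay.ncard_sextets (by norm_num) (by decide) rfl (by decide) (by decide +kernel)) g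

end Cfsg.Agent.S1552
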