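import Cfsg.Statements.S1553
import Cfsg.Agent.Golay.Stab

set_option autoImplicit false
open scoped Pointwise
open Cfsg

namespace Cfsg.Agent.S1553

open Cfsg.Agent.Comp Cfsg.Agent.Golay MulAction
set_option maxRecDepth 100000

/-- The stabiliser of an octad in the group of the length-24 code induces on the octad exactly its alternating group. -/
theorem result (o : Finset Cfsg.GolayPt) (ho : o ∈ Cfsg.octads) : {e : Equiv.Perm ↥o | ∃ g : Equiv.Perm Cfsg.GolayPt, g ∈ Cfsg.M24 ∧ ∃ h : (∀ x, g x ∈ o ↔ x ∈ o), g.subtypePerm h = e} = (alternatingGroup ↥o : Set (Equiv.Perm ↥o)) := by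
  rw [← range_restr_eq_alt (K := stabilizer MG o) (fun g hg => hg) ho.2 (by
    rw [inf_eq_right.2 (fixF_le_stab _), card_stab_octad ho, card_fixOct ho]; rfl)]
  ext e
  refine ⟨fun ⟨g, hg, h, e'⟩ => ⟨⟨⟨g, hg⟩, smul_eq_of_mapsTo fun a ha => (h a).2 ha⟩, e'⟩, ?_⟩
  rintro ⟨g, rfl⟩
  exact ⟨g.1.1, g.1.2, fun _ => mem_of_stab g.2, rfl⟩

end Cfsg.Agent.S1553
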