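import Cfsg.Statements.S1554
import Cfsg.Agent.Golay.Stab

set_option autoImplicit false
open scoped Pointwise
open Cfsg

namespace Cfsg.Agent.S1554

open Cfsg.Agent.Comp Cfsg.Agent.Golay MulAction
set_option maxRecDepth 100000

/-- An octad stabiliser is a split extension: the joint stabiliser of the octad and a point outside it is a complement to the pointwise stabiliser of the octad, and is isomorphic to the alternating group of degree 8. -/
theorem result (o : Finset Cfsg.GolayPt) (ho : o ∈ Cfsg.octads) (p : Cfsg.GolayPt) (hp : p ∉ o) : (Cfsg.M24 ⊓ fixingSubgroup (Equiv.Perm Cfsg.GolayPt) (o : Set Cfsg.GolayPt)) ⊓ (Cfsg.M24 ⊓ MulAction.stabilizer (Equiv.Perm Cfsg.GolayPt) o ⊓ MulAction.stabilizer (Equiv.Perm Cfsg.GolayPt) p) = ⊥ ∧ (Cfsg.M24 ⊓ fixingSubgroup (Equiv.Perm Cfsg.GolayPt) (o : Set Cfsg.GolayPt)) ⊔ (Cfsg.M24 ⊓ MulAction.stabilizer (Equiv.Perm Cfsg.GolayPt) o ⊓ MulAction.stabilizer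 (Equiv.Perm Cfsg.GolayPt) p) = (Cfsg.M24 ⊓ MulAction.stabilizer (Equiv.Perm Cfsg.GolayPt) o) ∧ Nonempty (↥(Cfsg.M24 ⊓ MulAction.stabilizer (Equiv.Perm Cfsg.GolayPt) o ⊓ MulAction.stabilizer (Equiv.Perm Cfsg.GolayPt) p) ≃* alternatingGroup (Fin 8)) := by
  have e1 : M24 ⊓ fixingSubgroup (Equiv.Perm GolayPt) (o : Set GolayPt) = (fixF MG o).map M24.subtype := by
    ext g
    exact ⟨fun h => ⟨⟨g, h.1⟩, fun a ha => (mem_fixingSubgroup_iff _).1 h.2 a ha, rfl⟩, by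
      rintro ⟨g, hg, rfl⟩; exact ⟨g.2, (mem_fixingSubgroup_iff _).2 hg⟩⟩
  have e2 : M24 ⊓ stabilizer (Equiv.Perm GolayPt) o ⊓ stabilizer (Equiv.Perm GolayPt) p =
      (stabilizer MG o ⊓ stabilizer MG p).map M24.subtype := by
    ext g
    exact ⟨fun h => ⟨⟨g, h.1.1⟩, ⟨h.1.2, h.2⟩, rfl⟩, by rintro ⟨g, hg, rfl⟩; exact ⟨⟨g.2, hg.1⟩, hg.2⟩⟩
  have hf : ∀ g ∈ stabilizer MG o ⊓ stabilizer MG p, (∀ a ∈ o, g • a = a) → g = 1 := fun g hg h =>
    eq_one_of_fixOct ho h hp hg.2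
  have h1 : fixF MG o ⊓ (stabilizer MG o ⊓ stabilizer MG p) = ⊥ := inf_comm (fixF MG o) _ ▸ inf_fixF_eq_bot hf
  rw [e1, e2, ← map_subtype_stabilizer M24 o, ← Subgroup.map_inf _ _ _ M24.subtype_injective, ← Subgroup.map_sup, h1]
  refine ⟨Subgroup.map_bot _, congrArg _ (eq_of_orbit (x := p) (sup_le (fixF_le_stab o) inf_le_left) le_sup_right ?_), ?_⟩
  · have h2 : (orbit (fixF MG o) p).ncard = 16 := by
      have := card_eq_ncard_orbit_mul (fixF MG o) p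
      rwa [card_fixOct ho, show fixF MG o ⊓ stabilizer MG p = ⊥ from
        eq_bot_iff.2 fun g hg => eq_one_of_fixOct ho hg.1 hp hg.2, Subgroup.card_bot, mul_one, eq_comm] at this
    have h3 := card_eq_ncard_orbit_mul (stabilizer MG o) p
    rw [card_stab_octad ho, card_stab_oct_out ho hp] at h3
    rw [← Set.eq_of_subset_of_ncard_le (s := orbit (fixF MG o) p) (t := orbit (stabilizer MG o) p) (by
      rintro _ ⟨g, rfl⟩; exact ⟨⟨g, fixF_le_stab o g.2⟩, rfl⟩) (by omega)]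
    rintro _ ⟨g, rfl⟩; exact ⟨⟨g, Subgroup.mem_sup_left g.2⟩, rfl⟩
  · obtain ⟨e⟩ := equiv_alt_of_restr (fun g hg => (Subgroup.mem_inf.1 hg).1) hf ho.2 (by rw [card_stab_oct_out ho hp]; rfl)
    exact ⟨(mapSubtypeEquiv _ rfl).symm.trans e⟩

end Cfsg.Agent.S1554
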