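import Cfsg.Statements.S1558
import Cfsg.Agent.Golay.Stab
import Cfsg.Agent.Classical.Mono

set_option autoImplicit false
open scoped Pointwise
open Cfsg

namespace Cfsg.Agent.S1558

open Cfsg.Agent.Comp Cfsg.Agent.Golay Cfsg.Agent.Known MulAction
set_option maxRecDepth 100000

def gL : List ℕ := [442948976353762937129506406885801228, 647985241198684852829151738547416468, 338027474432049568589982033388382607, 769988825033503198177493472786064756]
def gL2 : List ℕ := [969991403962256074238027807052595377, 641390863312967574415425192009998730]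
def gL1 : List ℕ := [979121071158219704299181131031480352, 462907535764590487838486421951531276, 718574403764916270347831132335159397, 338274691054270327480692823686623602]
def vs : List ℕ := [4194512, 4726912, 8405026, 16421, 589968, 1087488, 1082880]
def os : List ℕ := [8536111, 6889680, 1351424]
def As : List (List ℕ) := [[1, 4, 20], [1, 4, 17], [1, 20, 4], [16, 5, 4], [1, 4, 16]]
def Ts : List (ℕ × List ℕ) := [(0, [984818244535754528103549039458486304, 587523951038102854448138967133996195, 70961312958146288193683039871075042, 213670958863309626040359401650458065, 91407127362459972924086786515459073, 715899867741825895021549649896978533, 8326581753781783876511092673283159, 134370220924998106508582500029929006]), (4, [984818244535754528103549039458486304, 976448692869377735270425038196672544, 980224387687010295957922729495201824, 963721886883755259286232606933354528, 961365507626256404119956257276790816, 972512676110088067912772961567868960, 983548720921252936276249910206105632, 965128854020860192151391391390468128])]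

theorem codes {L : List ℕ} (h : band (allL L inM24)
    (allL L fun c => Nat.beq (kTr.key (kTr.act c cTr0)) (kTr.key cTr0)) = true) : CodesIn RM L (stabilizer MG trio0) := by
  rw [band_eq, Bool.and_eq_true] at h; exact (codesM h.1).stab_top kTr trio0_P h.2

theorem codes_ker {X H : Type*} [MulAction MG X] [Group H] {K : Subgroup MG} (C : Keyed RM X) {N : ℕ} {vs : ℕ → ℕ}
    {ψ : K →* H} (hψ : ∀ g, g ∈ ψ.ker ↔ ∀ i < N, ∀ x, C.P (vs i) x → (g : MG) • x = x) {L : List ℕ} {A : Subgroup K}
    (hL : CodesIn RM L (A.map K.subtype))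
    (h : allL L (fun c => allLt N fun i => Nat.beq (C.key (C.act c (vs i))) (C.key (vs i))) = true) :
    CodesIn RM L ((A ⊓ ψ.ker).map K.subtype) := fun c hc => by
  obtain ⟨_, ⟨g, hg, rfl⟩, hr⟩ := hL c hc
  exact ⟨_, ⟨g, ⟨hg, (hψ g).2 fun i hi x hx =>
    (Keyed.smul_eq_iff hr hx hx).2 (nbeq.1 (allLt_iff.1 (allL_iff.1 h c hc) i hi))⟩, rfl⟩, hr⟩

theorem std : ∃ ψ : stabilizer MG trio0 →* GL (Fin 3) (ZMod 2) × Equiv.Perm (Fin 3), Function.Surjective ψ ∧
    Nat.card ψ.ker = 64 ∧ ∀ x ∈ ψ.ker, x * x = 1 := by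
  have hL := codes (L := gL) (by decide +kernel)
  have hL2 := codes (L := gL2) (by decide +kernel)
  have h0 : Nat.card (GL (Fin 3) (ZMod 2)) = 168 := by rw [Classical.card_GL_fin, Nat.card_zmod]; decide
  obtain ⟨φ, h1, h2⟩ := exists_surj_of_mat kSx funcRM hL (closureM hL [0, 1, 2, 3, 4] [[1, 7, 7, 2, 4, 4, 3], [5, 5, 0, 9, 2, 6, 6, 8], [11, 11, 9, 3, 7, 5, 8, 7, 8, 4], [11, 13, 9, 9, 5, 13, 0], [15, 11, 13, 9, 9, 1, 1, 7, 5, 5, 7, 7, 0, 5], [13, 11, 13, 9, 13, 3, 5, 14], [16, 11, 18, 11, 11], [9, 9, 9, 9, 16]] card_Tr (by decide +kernel))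
    (N := 7) (vs := nthL 0 vs) (act := (tabA 3 7 [1174152, 1521800, 1156008, 1069971]))
    (hv_nthL (fun a ha => ⟨_, kSx_P (by revert a; decide +kernel)⟩) rfl) (inj_of_nodupL (by decide +kernel))
    (by decide +kernel) h0 (by norm_num) [[0], [1], [2], [3]] [0, 1, 3]
    (by decide +kernel) (mrep_GLp (As := As) (w := 2) (m := 3) 41 (by decide +kernel)) (s := 4) (o := 0)
    (us := nthL 0 [1, 4, 5, 16, 17, 20, 21]) (by decide +kernel) (by decide +kernel)
  have hv : ∀ i < 3, ∃ x, kCw.P (nthL 0 os i) x := hv_nthL (fun a ha => ⟨_, kCw_P (by revert a; decide +kernel)⟩) rfl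
  obtain ⟨ψ, -, h4⟩ := exists_surj_perm kCw funcRM hL2 (closureM hL2 [0, 1, 2, 3, 4] [[1, 1, 1, 3, 1, 2, 2, 1], [5, 5, 1, 3, 1, 1, 1, 3, 5], [5, 7, 1, 5, 1, 5, 7, 4, 0, 0], [5, 5, 7, 7, 5, 6, 6], [5, 1, 2, 8, 3, 0], [13, 9, 5, 7, 3, 1, 11, 5, 2, 2], [9, 7, 15, 8, 15, 11, 14], [9, 11, 17, 7], [9, 5, 5, 5, 19, 8, 15]] card_Tr (by decide +kernel))
    (n := 2) (w := 2) (m := 3) [24, 18] hv (inj_of_nodupL (by decide +kernel)) [[0], [1]] [0, 1] (by decide +kernel)
  have h5 := card_mul_card_ker h1
  rw [h0, card_Tr] at h5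
  have top : ∀ {L}, CodesIn RM L (stabilizer MG trio0) →
      CodesIn RM L ((⊤ : Subgroup (stabilizer MG trio0)).map (Subgroup.subtype _)) := fun h => by
    rwa [← MonoidHom.range_eq_map, Subgroup.range_subtype]
  have h6 := chainK_mul_le (C := kCw) (fun a => a) 10 [8536111, 6889680] (fun a ha => ⟨_, kCw_P (by revert a; decide +kernel)⟩)
    (H := (φ.ker ⊓ ψ.ker).map (Subgroup.subtype _)) (by
      rintro b hb x hx _ ⟨g, hg, rfl⟩
      simp only [List.mem_cons, List.not_mem_nil, or_false] at hb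
      rcases hb with rfl | rfl
      exacts [(h4 g).1 hg.2 0 (by norm_num) x hx, (h4 g).1 hg.2 1 (by norm_num) x hx]) gL1 _
    (codes_ker kSx h2 (top (codes (by decide +kernel))) (by decide +kernel)) (Subgroup.map_mono (by simp))
  rw [Subgroup.card_map_of_injective (Subgroup.subtype_injective _), Subgroup.card_map_of_injective
    (Subgroup.subtype_injective _), top_inf_eq, show chainK kCw _ _ _ gL1 = 6 by decide +kernel] at h6
  obtain ⟨h7, h8⟩ := prod_surjective φ ψ (n := 64) (by omega) (by rw [h0, card_Tr, Nat.card_perm, Nat.card_fin]; rfl)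
  refine ⟨_, h7, h8, fun x hx => Subtype.ext ?_⟩
  have h9 := codes_ker kCw h4 (codes_ker kSx h2 (top (codes (L := flatT Ts) (by decide +kernel))) (by decide +kernel))
    (by decide +kernel)
  rw [top_inf_eq, ← MonoidHom.ker_prod] at h9
  obtain ⟨c, hc, e⟩ := forall_of_allProd par24 (f := fun c => Nat.beq (powC mul24 one24 c 2) one24) Ts h9.of_flatT
    ((Subgroup.card_map_of_injective (Subgroup.subtype_injective _)).trans h8) (by decide +kernel) _ ⟨x, hx, rfl⟩
  exact (pow_two _).symm.trans (hc.pow_eq_one par24 e)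


/-- Structure of a trio stabiliser: every permutation of the three octads is induced, and there is a normal subgroup of order 64 of elements squaring to the identity whose quotient is isomorphic to the product of GL(3, 2) with the symmetric group of degree 3. -/
theorem result (T : Finset (Finset Cfsg.GolayPt)) (hT : T ∈ Cfsg.trios) : (∀ e : Equiv.Perm ↥T, ∃ g ∈ MulAction.stabilizer Cfsg.M24 T, ∀ o : ↥T, (g : Equiv.Perm Cfsg.GolayPt) • (o : Finset Cfsg.GolayPt) = ((e o : ↥T) : Finset Cfsg.GolayPt)) ∧ ∃ (N : Subgroup ↥(MulAction.stabilizer Cfsg.M24 T)) (_ : N.Normal), Nat.card N = 64 ∧ (∀ x ∈ N, x * x = 1) ∧ Nonempty (↥(MulAction.stabilizer Cfsg.M24 T) ⧸ N ≃* GL (Fin 3) (ZMod 2) × Equiv.Perm (Fin 3)) := by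
  obtain ⟨g, rfl⟩ := trio0_trans hT
  have h0 : Nat.card ↥(stabilizer MG (g • trio0) ⊓ fixF MG (g • trio0)) = Nat.card ↥(stabilizer MG trio0 ⊓ fixF MG trio0) := by
    rw [← map_conj_stabilizer, ← map_conj_fixF, ← map_conj_inf, card_map_conj]
  have h1 := chainK_fix_le (S := trio0) kCw (fun a => a) 10 [8536111, 6889680] (fun b hb =>
    ⟨EG.ofMask b, (mem_trio_code (by decide +kernel) (by revert b; decide +kernel)).2 (by revert b; decide +kernel),
      kCw_P (by revert b; decide +kernel)⟩) (codes (L := gL2) (by decide +kernel)) (a := 6) (by decide +kernel)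
  refine ⟨(restr_surj (K := stabilizer MG (g • trio0)) (fun g hg => hg) hT.1
    (by rw [h0, card_stabilizer_smul]; exact h1)).1, ?_⟩
  obtain ⟨ψ, h2, h3, h4⟩ := std
  obtain ⟨N, hN, h5, h6, h7⟩ := quot_congr (conjEquiv g (map_conj_stabilizer g trio0)) h2
  refine ⟨N, hN, h5.trans h3, fun x hx => ?_, h7⟩
  obtain ⟨x, rfl⟩ := (conjEquiv g (map_conj_stabilizer g trio0)).surjective x
  rw [← map_mul, h4 x ((h6 x).1 hx), map_one]

end Cfsg.Agent.S1558
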