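import Cfsg.Statements.S1559
import Cfsg.Agent.Golay.Orbs

set_option autoImplicit false
open scoped Pointwise
open Cfsg

namespace Cfsg.Agent.S1559

/-- A trio stabiliser has five orbits on the 3795 trios, of sizes 1, 42, 56, 1008, 2688; and the stabiliser is a maximal proper subgroup. -/
theorem result (T : Finset (Finset Cfsg.GolayPt)) (hT : T ∈ Cfsg.trios) : ∃ X₁ ∈ Cfsg.trios, ∃ X₂ ∈ Cfsg.trios, ∃ X₃ ∈ Cfsg.trios, ∃ X₄ ∈ Cfsg.trios, (MulAction.orbit ↥(MulAction.stabilizer Cfsg.M24 T) X₁).ncard = 42 ∧ (MulAction.orbit ↥(MulAction.stabilizer Cfsg.M24 T) X₂).ncard = 56 ∧ (MulAction.orbit ↥(MulAction.stabilizer Cfsg.M24 T) X₃).ncard = 1008 ∧ (MulAction.orbit ↥(MulAction.stabilizer Cfsg.M24 T) X₄).ncard = 2688 ∧ Cfsg.trios = {T} ∪ MulAction.orbit ↥(MulAction.stabilizer Cfsg.M24 T) X₁ ∪ MulAction.orbit ↥(MulAction.stabilizer Cfsg.M24 T) X₂ ∪ MulAction.orbit ↥(MulAction.stabilizer Cfsg.M24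 T) X₃ ∪ MulAction.orbit ↥(MulAction.stabilizer Cfsg.M24 T) X₄ ∧ IsCoatom (MulAction.stabilizer Cfsg.M24 T) := by
  obtain ⟨g, rfl⟩ := Golay.trio0_trans hT
  obtain ⟨y, hy, hs, e⟩ := (Golay.os_Tr_tr.stab_smul Golay.inv_trios g).succ hT le_rfl (by decide) rfl
  refine ⟨y 0, hy 0, y 1, hy 1, y 2, hy 2, y 3, hy 3, hs 0, hs 1, hs 2, hs 3, ?_, ?_⟩
  · rw [Golay.iUnion_fin4] at e
    simpa only [Set.union_assoc] using e
  · exact Comp.isCoatom_stabilizer_smul (Golay.os_Tr_tr.isCoatom (N := 3795) (Golay.orbit_trio Golay.trio0_mem)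
      Golay.ncard_trios (by norm_num) (by decide) rfl (by decide) (by decide +kernel)) g

end Cfsg.Agent.S1559
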