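import Cfsg.Statements.S1560
import Cfsg.Agent.Golay.Rank

set_option autoImplicit false
open scoped Pointwise
open Cfsg

namespace Cfsg.Agent.S1560

/-- Intersection numbers of dodecads: a dodecad meets every other dodecad in 0, 4, 6 or 8 points, meeting 495 of them in 4 points, 1584 in 6 points and 495 in 8 points. -/
theorem result (d : Finset Cfsg.GolayPt) (hd : d ∈ Cfsg.dodecads) : (∀ d' ∈ Cfsg.dodecads, d' ≠ d → (d ∩ d').card = 0 ∨ (d ∩ d').card = 4 ∨ (d ∩ d').card = 6 ∨ (d ∩ d').card = 8) ∧ {d' : Finset Cfsg.GolayPt | d' ∈ Cfsg.dodecads ∧ (d ∩ d').card = 4}.ncard = 495 ∧ {d' : Finset Cfsg.GolayPt | d' ∈ Cfsg.dodecads ∧ (d ∩ d').card = 6}.ncard = 1584 ∧ {d' : Finset Cfsg.GolayPt | d' ∈ Cfsg.dodecads ∧ (d ∩ d').card = 8}.ncard = 495 := by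
  have h := Golay.rank_dd hd
  refine ⟨fun d' hd' hne => ?_, h.cnt' 4 495, h.cnt' 6 1584, h.cnt' 8 495⟩
  have h1 := h.2.1 d' hd' trivial
  have h2 : (d ∩ d').card ≠ 12 := fun e =>
    hne (Golay.eq_of_card_inter_eq (e.trans hd.2.symm) (hd'.2.trans hd.2.symm))
  simp only [Comp.mapL_eq, List.map_cons, List.map_nil, List.mem_cons, List.not_mem_nil, or_false] at h1
  omega

end Cfsg.Agent.S1560
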