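import Cfsg.Statements.S1562
import Cfsg.Agent.Golay.Rank

set_option autoImplicit false
open scoped Pointwise
open Cfsg

namespace Cfsg.Agent.S1562

/-- Orbits of a triad stabiliser on the triads disjoint from it: the 210 triads inside a common octad with it form one orbit and the remaining 1120 another. -/
theorem result (T : Finset Cfsg.GolayPt) (hT : T.card = 3) : {U : Finset Cfsg.GolayPt | U.card = 3 ∧ Disjoint T U ∧ (∃ o ∈ Cfsg.octads, T ∪ U ⊆ o)}.ncard = 210 ∧ {U : Finset Cfsg.GolayPt | U.card = 3 ∧ Disjoint T U ∧ ¬ (∃ o ∈ Cfsg.octads, T ∪ U ⊆ o)}.ncard = 1120 ∧ ∀ U U' : Finset Cfsg.GolayPt, U.card = 3 → U'.card = 3 → Disjoint T U → Disjoint T U' → ((∃ o ∈ Cfsg.octads, T ∪ U ⊆ o) ↔ (∃ o ∈ Cfsg.octads, T ∪ U' ⊆ o)) → ∃ g : Equiv.Perm Cfsg.GolayPt, g ∈ Cfsg.M24 ∧ g • T = T ∧ g • U = U' := by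
  have h := Golay.rank_triads hT
  have hs : ∀ U : Finset GolayPt, U.card = 3 → U ∈ Golay.smalls := fun U h => ⟨by omega, h.le⟩
  refine ⟨?_, ?_, fun U U' h1 h2 h3 h4 h5 => ?_⟩
  · rw [← h.cnt 1 210]; congr 1; ext U
    simp only [Set.mem_ofPred_eq, Golay.ind_eq_one]
    have := hs U
    tauto
  · rw [← h.cnt 0 1120]; congr 1; ext U
    simp only [Set.mem_ofPred_eq, Golay.ind_eq_zero]
    exact ⟨fun h => ⟨hs U h.1, ⟨h.1, h.2.1⟩, fun h' => h.2.2 h'.2⟩, fun h => ⟨h.2.1.1, h.2.1.2, fun h' => h.2.2 ⟨h.2.1, h'⟩⟩⟩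
  · obtain ⟨g, hg, e⟩ := h.2.2 U (hs U h1) U' (hs U' h2) ⟨h1, h3⟩ ⟨h2, h4⟩ (by simp only [h1, h2, h3, h4, h5])
    exact ⟨g, g.2, hg, e⟩

end Cfsg.Agent.S1562
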