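import Cfsg.Statements.S1563
import Cfsg.Agent.Golay.Orbs

set_option autoImplicit false
open scoped Pointwise
open Cfsg

namespace Cfsg.Agent.S1563

/-- The stabiliser of a pair of points (setwise) is a maximal proper subgroup of the group of the length-24 code. -/
theorem result (s : Finset Cfsg.GolayPt) (hs : s.card = 2) : IsCoatom (MulAction.stabilizer Cfsg.M24 s) := by
  obtain ⟨g, rfl⟩ := Golay.finset_transM (s := Golay.duad0) (t := s) (by rw [Golay.card_duad0]; norm_num)
    (by rw [Golay.card_duad0, hs])
  refine Comp.isCoatom_stabilizer_smul (Golay.os_Duad_duad.isCoatom (N := 276) ?_ ?_ (by norm_num) (by decide)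
    rfl (by decide) (by decide +kernel)) g
  · rw [Golay.orbit_finset (by rw [Golay.card_duad0]; norm_num), Golay.card_duad0]
  · rw [Golay.ncard_card_eq]; rfl

end Cfsg.Agent.S1563
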