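import Cfsg.Statements.S1566
import Cfsg.Agent.Golay.Orbs

set_option autoImplicit false
open scoped Pointwise
open Cfsg

namespace Cfsg.Agent.S1566

/-- The setwise stabiliser of a dodecad together with its complement is a maximal proper subgroup of the group of the length-24 code. -/
theorem result (d : Finset Cfsg.GolayPt) (hd : d ∈ Cfsg.dodecads) : IsCoatom (MulAction.stabilizer Cfsg.M24 ({d, dᶜ} : Finset (Finset Cfsg.GolayPt))) := by
  obtain ⟨g, rfl⟩ := Golay.dodecad_transM Golay.dod0_mem hd
  rw [← Golay.smul_dpair]
  exact Comp.isCoatom_stabilizer_smul (Golay.os_DP_dp.isCoatom (N := 1288) (Golay.orbit_dpair Golay.dod0_mem)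
    Golay.ncard_dpairs (by norm_num) (by decide) rfl (by decide) (by decide +kernel)) g

end Cfsg.Agent.S1566
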