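import Cfsg.Statements.S1567
import Cfsg.Agent.Leech.Group

set_option autoImplicit false
open Cfsg

namespace Cfsg.Agent.S1567

open Cfsg.Agent.Leech Cfsg.Agent.Golay Finset

/-- The rank-24 lattice is the additive subgroup generated by its 196560 minimal vectors. -/
theorem result : AddSubgroup.closure {x : Cfsg.GolayPt → ℤ | x ∈ Cfsg.leechLattice ∧ Cfsg.sqNorm x = 32} = Cfsg.leechLattice := by
  refine le_antisymm ((AddSubgroup.closure_le _).2 fun _ h => h.1) ?_
  have h (i : GolayPt) (s : ℤˣ) (hi : i ≠ none) : (d4 i none s : V) ∈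
      AddSubgroup.closure {x : GolayPt → ℤ | x ∈ leechLattice ∧ sqNorm x = 32} :=
    AddSubgroup.subset_closure ⟨(d4 i none s).2, by
      revert i; rcases Int.units_eq_one_or s with rfl | rfl <;> decide +kernel⟩
  refine le_of_gens_oct (fun i => ?_) (fun c hc => AddSubgroup.subset_closure ⟨ind_two_mem hc.1, ?_⟩)
    (AddSubgroup.subset_closure ⟨odd_mem _, by decide +kernel⟩)
  · by_cases hi : i = none
    · rw [hi, show (d4 none none 1 : V) = d4 (some 0) none 1 - d4 (some 0) none (-1) by decide +kernel]
      exact sub_mem (h _ _ (by simp)) (h _ _ (by simp))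
    · exact h i 1 hi
  · rw [sqNorm, sum_congr rfl (g := Leech.ind 4 c) fun i _ => by
      simp only [Leech.ind]; split_ifs <;> rfl, sum_ind, hc.2]
    rfl

end Cfsg.Agent.S1567
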