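import Cfsg.Statements.S1568
import Cfsg.Agent.Leech.Count

set_option autoImplicit false
open Cfsg

namespace Cfsg.Agent.S1568

open Cfsg.Agent.Leech Cfsg.Agent.Comp Finset

theorem sub_count (A : ℕ → Bool) (p : V → Prop) (n : ℕ)
    (hp : ∀ y : GolayPt → ℕ, (∀ i, y i < 17) → sh y ∈ leechLattice → sqNorm (sh y) = 48 →
      (¬ p (sh y) ↔ ∀ i, A (y i) = true)) (h : n + cntF A 48 (fun _ _ _ => true) = 16773120) :
    {x | x ∈ leechLattice ∧ sqNorm x = 48 ∧ p x}.ncard = n := by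
  have h1 := ncard_short A (N := 48) (by norm_num) (fun _ _ _ => true) (p := fun x => ¬ p x) fun y h1 h2 h3 => by
    simpa using hp y h1 h2 h3
  have h2 := Set.ncard_inter_add_ncard_sdiff_eq_ncard {x | x ∈ leechLattice ∧ sqNorm x = 48} {x | p x}
    ((finite_le 48).subset fun x hx => hx.2.le)
  rw [ncard48] at h2
  have e1 : {x | x ∈ leechLattice ∧ sqNorm x = 48} ∩ {x | p x} = {x | x ∈ leechLattice ∧ sqNorm x = 48 ∧ p x} := by
    ext; simp [and_assoc]
  have e2 : {x | x ∈ leechLattice ∧ sqNorm x = 48} \ {x | p x} = {x | x ∈ leechLattice ∧ sqNorm x = (48 : ℕ) ∧ ¬ p x} := by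
    ext; simp [and_assoc]
  rw [e1, e2, h1] at h2
  omega

def noAbs (k t : ℕ) : Bool := band (alph 6 t) (not (Nat.beq (sq8 t) (k * k)))

theorem no_abs (k : ℕ) (y : GolayPt → ℕ) (h : sqNorm (sh y) = 48) :
    (¬ ∃ i, |sh y i| = k) ↔ ∀ i, noAbs k (y i) = true := by
  simp only [noAbs, not_exists, band_eq, Bool.and_eq_true, alph_of (N := 48) (k := 6) (by norm_num) h, true_and,
    Bool.not_eq_true', nbeq_false]
  refine forall_congr' fun i => not_congr ?_
  rw [← Nat.cast_inj (R := ℤ), sq8_cast, ← sq_abs, Nat.cast_mul, ← sq, sq_eq_sq₀ (abs_nonneg _) (by positivity)]; rfl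

theorem three_iff {x : V} (hx : x ∈ leechLattice) (h : sqNorm x = 48) :
    (∃ i j k, i ≠ j ∧ j ≠ k ∧ i ≠ k ∧ |x i| = 3 ∧ |x j| = 3 ∧ |x k| = 3) ↔ ∃ i, |x i| = (3 : ℕ) := by
  refine ⟨fun ⟨i, _, _, h⟩ => ⟨i, h.2.2.2.1⟩, fun ⟨i, hi⟩ => ?_⟩
  have hodd (j) : x j % 2 = 1 := by
    rcases mem_iff'.1 hx with ⟨a, h1, -⟩ | ⟨a, h1, -⟩
    · have := h1 i; rcases abs_eq_abs.1 (hi.trans (abs_of_nonneg (by norm_num)).symm) with e | e <;> omega
    · have := h1 j; omega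
  have hb := abs_le_of_sqNorm (x := x) (k := 6) (by norm_num) (by omega)
  have hs : sqNorm x = 24 + 8 * (univ.filter fun j => |x j| = 3).card + 24 * (univ.filter fun j => |x j| = 5).card := by
    simp only [sqNorm, card_filter, Nat.cast_sum, mul_sum]
    rw [show (24 : ℤ) = ∑ _i : GolayPt, 1 from (sum_const_pt 1).symm, ← sum_add_distrib, ← sum_add_distrib]
    refine sum_congr rfl fun j _ => ?_
    have := hodd j; have := abs_le.1 (hb j)
    generalize x j = t at *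
    obtain ⟨h1, h2⟩ := this
    interval_cases t <;> simp_all
  have h1 : 0 < (univ.filter fun j => |x j| = 3).card := card_pos.2 ⟨i, by simpa using hi⟩
  obtain ⟨a, b, c, h2, h3, h4, e⟩ := card_eq_three.1 (show (univ.filter fun j => |x j| = 3).card = 3 by omega)
  have h5 (j) (hj : j ∈ ({a, b, c} : Finset GolayPt)) : |x j| = 3 := (mem_filter.1 (e ▸ hj :)).2
  exact ⟨a, b, c, h2, h4, h3, h5 a (by simp), h5 b (by simp), h5 c (by simp)⟩

set_option maxRecDepth 100000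

/-- Shape census of the lattice vectors of sum of squares 48 (customary norm 6): the four families (2^12, 0^12), (±3^3, ±1^21), (±4, ±2^8, 0^15) and (±5, ±1^23) have 5275648, 8290304, 3108864 and 98304 members. -/
theorem result : {x : Cfsg.GolayPt → ℤ | x ∈ Cfsg.leechLattice ∧ Cfsg.sqNorm x = 48 ∧ ∀ i, x i = 0 ∨ x i = 2 ∨ x i = -2}.ncard = 5275648 ∧ {x : Cfsg.GolayPt → ℤ | x ∈ Cfsg.leechLattice ∧ Cfsg.sqNorm x = 48 ∧ ∃ i j k, i ≠ j ∧ j ≠ k ∧ i ≠ k ∧ |x i| = 3 ∧ |x j| = 3 ∧ |x k| = 3}.ncard = 8290304 ∧ {x : Cfsg.GolayPt → ℤ | x ∈ Cfsg.leechLattice ∧ Cfsg.sqNorm x = 48 ∧ ∃ i, |x i| = 4}.ncard = 3108864 ∧ {x : Cfsg.GolayPt → ℤ | x ∈ Cfsg.leechLattice ∧ Cfsg.sqNorm x = 48 ∧ ∃ i, |x i| = 5}.ncard = 98304 := by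
  refine ⟨(ncard_short (N := 48) (fun t => memL t [6, 8, 10]) (by norm_num) (fun _ _ _ => true) fun y _ _ _ => ?_).trans
    (by decide +kernel), sub_count (noAbs 3) _ _ (fun y _ h1 h2 => (three_iff h1 h2).not.trans (no_abs 3 y h2)) (by decide +kernel),
    sub_count (noAbs 4) _ _ (fun y _ _ h2 => no_abs 4 y h2) (by decide +kernel),
    sub_count (noAbs 5) _ _ (fun y _ _ h2 => no_abs 5 y h2) (by decide +kernel)⟩
  simp only [memL_iff, and_true, List.mem_cons, List.not_mem_nil, or_false, sh]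
  exact forall_congr' fun i => by omega

end Cfsg.Agent.S1568
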