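import Cfsg.Statements.S1569
import Cfsg.Agent.Leech.Lat

set_option autoImplicit false
open scoped Pointwise
open Cfsg

namespace Cfsg.Agent.S1569



/-- The cross through a lattice vector of customary norm 8 has exactly 48 members. -/
theorem result (x : Cfsg.GolayPt → ℤ) (hx : x ∈ Cfsg.leechLattice) (hxn : Cfsg.sqNorm x = 64) : (Cfsg.cross x).ncard = 48 := by
  rw [← Leech.count_lat.2 ⟨x, hx⟩ hxn, ← Set.ncard_image_of_injective _ Subtype.val_injective]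
  congr 1; ext y
  exact ⟨fun ⟨h1, h2, z, h3, h4⟩ => ⟨⟨y, h1⟩, ⟨h2.trans hxn, ⟨z, h3⟩, Subtype.ext h4⟩, rfl⟩,
    by rintro ⟨y, ⟨h1, z, h2⟩, rfl⟩; exact ⟨y.2, h1.trans hxn.symm, z, z.2, congrArg Subtype.val h2⟩⟩

end Cfsg.Agent.S1569
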