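import Cfsg.Statements.S1584
import Cfsg.Agent.Leech.Simple

set_option autoImplicit false
open Cfsg

namespace Cfsg.Agent.S1584

open Cfsg.Agent.Leech Cfsg.Agent.Comp
open scoped Pointwise

/-- The Higman–Sims group acts with rank 3 and subdegrees 1, 22, 77 on its 100 points, the orbits of a point stabiliser being distinguished by customary inner product 1 with the fixed point. -/
theorem result (v w x : ↥Cfsg.leechLattice) (hv : Cfsg.sqNorm (v : Cfsg.GolayPt → ℤ) = 48) (hw : Cfsg.sqNorm (w : Cfsg.GolayPt → ℤ) = 48) (hvw : Cfsg.dotInt (v : Cfsg.GolayPt → ℤ) (w : Cfsg.GolayPt → ℤ) = -32) (hx : x ∈ {x : ↥Cfsg.leechLattice | Cfsg.sqNorm (x : Cfsg.GolayPt → ℤ) = 32 ∧ Cfsg.dotInt (v : Cfsg.GolayPt → ℤ) (x : Cfsg.GolayPt → ℤ) = 24 ∧ Cfsg.dotInt (w : Cfsg.GolayPt → ℤ) (x : Cfsg.GolayPt → ℤ) = -24}) : {y : ↥Cfsg.leechLattice | y ∈ {x : ↥Cfsg.leechLattice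 | Cfsg.sqNorm (x : Cfsg.GolayPt → ℤ) = 32 ∧ Cfsg.dotInt (v : Cfsg.GolayPt → ℤ) (x : Cfsg.GolayPt → ℤ) = 24 ∧ Cfsg.dotInt (w : Cfsg.GolayPt → ℤ) (x : Cfsg.GolayPt → ℤ) = -24} ∧ Cfsg.dotInt (x : Cfsg.GolayPt → ℤ) (y : Cfsg.GolayPt → ℤ) = 8}.ncard = 22 ∧ {y : ↥Cfsg.leechLattice | y ∈ {x : ↥Cfsg.leechLattice | Cfsg.sqNorm (x : Cfsg.GolayPt → ℤ) = 32 ∧ Cfsg.dotInt (v : Cfsg.GolayPt → ℤ) (x : Cfsg.GolayPt → ℤ) = 24 ∧ Cfsg.dotInt (w : Cfsg.GolayPt → ℤ) (x : Cfsg.GolayPt → ℤ) = -24} ∧ y ≠ x ∧ Cfsg.dotInt (x : Cfsg.GolayPt → ℤ) (y : Cfsg.GolayPt → ℤ) ≠ 8}.ncard = 77 ∧ ∀ y ∈ {x : ↥Cfsg.leechLattice | Cfsg.sqNorm (x : Cfsg.GolayPt → ℤ) = 32 ∧ Cfsg.dotInt (v : Cfsg.GolayPt → ℤ) (x : Cfsg.GolayPt → ℤ) = 24 ∧ Cfsg.dotInt (w : Cfsg.GolayPt → ℤ) (x : Cfsg.GolayPt → ℤ) = -24}, ∀ y' ∈ {x : ↥Cfsg.leechLattice | Cfsg.sqNorm (x : Cfsg.GolayPt → ℤ) = 32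 ∧ Cfsg.dotInt (v : Cfsg.GolayPt → ℤ) (x : Cfsg.GolayPt → ℤ) = 24 ∧ Cfsg.dotInt (w : Cfsg.GolayPt → ℤ) (x : Cfsg.GolayPt → ℤ) = -24}, y ≠ x → y' ≠ x → (Cfsg.dotInt (x : Cfsg.GolayPt → ℤ) (y : Cfsg.GolayPt → ℤ) = 8 ↔ Cfsg.dotInt (x : Cfsg.GolayPt → ℤ) (y' : Cfsg.GolayPt → ℤ) = 8) → ∃ g : ↥Cfsg.Co0, g • v = v ∧ g • w = w ∧ g • x = x ∧ g • y = y' := by
  have e : S2 vv wh 24 (-24) = -S2 vv uu' (-24) 0 := (S2_neg_add ..).trans (by simpa using neg_S2 vv uu' (-24) 0)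
  obtain ⟨g, rfl, rfl, rfl⟩ := norm_triple (c := -uu) (e ▸ (St2_neg_add vv uu').symm ▸ tr100.neg)
    (by decide +kernel) (norm_hs hv hw hvw) hx
  have h := (orbs_100.smul negC).smul g
  have e' : negC • S2 vv uu' (-24) 0 = S2 vv wh 24 (-24) := e ▸ Set.ext fun x => by
    rw [Set.mem_smul_set_iff_inv_smul_mem, show negC⁻¹ = negC from inv_eq_of_mul_eq_one_right (sg_sq _), negC_smul]
    rfl
  have e2 : St3 (-vv) (-uu') (-uu) = St3 vv wh (-uu) := by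
    exact congrArg (· ⊓ _) ((congrArg₂ _ (St1_neg _) (St1_neg _)).trans (St2_neg_add _ _).symm)
  simp only [map_St3, negC_smul, e', e2, smul_S2] at h
  have h0 : ∀ i, dt (-uu) (-![uu, z22, z77] i) = ![32, 8, 16] i := by decide +kernel
  have h1 := h.orbit_eq (dt (g • -uu)) (fun _ hg => dot_fix hg.2) (by simp only [dt, dot_act, h0]; decide)
  simp only [dt, dot_act, h0] at h1
  have h2 {y} (hy : y ∈ S2 (g • vv) (g • wh) 24 (-24)) (h3 : y ≠ g • -uu) (h4 : dt (g • -uu) y ≠ 8) :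
      dt (g • -uu) y = 16 := by
    obtain ⟨i, hi⟩ := h.exists hy
    have := ((h1 i).le hi).2
    fin_cases i
    exacts [absurd (orbit_fix inf_le_right hi) h3, absurd this h4, this]
  refine ⟨h1 1 ▸ h.card 1, (congrArg _ (Set.ext fun y => and_congr_right fun hy => ⟨fun h => h2 hy h.1 h.2,
    fun h => ⟨fun e => by
      rw [e, dt, dot_act] at h; exact absurd h (by decide +kernel), fun e => absurd (e.symm.trans h) (by decide)⟩⟩)).trans ((congrArg _ (h1 2)).symm.trans (h.card 2)), fun y hy z hz h3 h4 e => ?_⟩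
  · have e : dt (g • -uu) y = dt (g • -uu) z := by
      by_cases h5 : dt (g • -uu) y = 8
      · exact h5.trans (e.1 h5).symm
      · exact (h2 hy h3 h5).trans (h2 hz h4 (mt e.2 h5)).symm
    obtain ⟨i, hi⟩ := h.exists hy
    obtain ⟨k, hk, e⟩ := trOn_orbit _ _ y hi z ((h1 i).ge ⟨hz, e.symm.trans ((h1 i).le hi).2⟩)
    exact ⟨k, hk.1.1, hk.1.2, hk.2, e⟩

end Cfsg.Agent.S1584
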