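import Cfsg.Statements.S1585
import Cfsg.Agent.Leech.Simple

set_option autoImplicit false
open Cfsg

namespace Cfsg.Agent.S1585

open Cfsg.Agent.Leech

/-- Two vectors of customary norm 6 with inner product −4 are exchanged by some automorphism of the lattice. -/
theorem result (v w : ↥Cfsg.leechLattice) (hv : Cfsg.sqNorm (v : Cfsg.GolayPt → ℤ) = 48) (hw : Cfsg.sqNorm (w : Cfsg.GolayPt → ℤ) = 48) (hvw : Cfsg.dotInt (v : Cfsg.GolayPt → ℤ) (w : Cfsg.GolayPt → ℤ) = -32) : ∃ g : ↥Cfsg.Co0, g • v = w ∧ g • w = v := by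
  obtain ⟨g, h1, h2⟩ := norm_hs hv hw hvw
  obtain ⟨k, h3, h4⟩ := norm_hs hw hv ((dot_comm _ _).trans hvw)
  exact ⟨k * g⁻¹, by rw [mul_smul, ← h1, inv_smul_smul, h3], by rw [mul_smul, ← h2, inv_smul_smul, h4]⟩

end Cfsg.Agent.S1585
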