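import Cfsg.Statements.S1609
import Cfsg.Agent.Perm.SylCount
import Cfsg.Agent.Golay.Classes
import Cfsg.Agent.Golay.Stab

set_option autoImplicit false
open scoped Pointwise
open Cfsg

namespace Cfsg.Agent.S1609

open Cfsg.Agent.Comp Cfsg.Agent.Golay MulAction Finset
set_option maxRecDepth 100000

theorem transM {k : ℕ} (hk : k ≤ 5) : TransOn (⊤ : Subgroup MG) (Set.univ : Set GolayPt) k := fun x y hx hy =>
  let ⟨g, hg, e⟩ := trans_le hk x y hx hy
  ⟨⟨g, hg⟩, trivial, e⟩

theorem card_fixM {T : Finset GolayPt} {k n : ℕ} (hk : k ≤ 5) (hT : T.card = k)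
    (h : Nat.descFactorial 24 k * n = 244823040) : Nat.card (fixF MG T) = n := by
  have := (transM hk).card_fixF (Set.toFinite _) (fun _ _ _ _ => trivial) hT fun _ _ => trivial
  rw [card_top_MG, ncard_univ_pt, top_inf_eq, ← h] at this
  exact (Nat.eq_of_mul_eq_mul_left (Nat.descFactorial_pos.2 (by omega)) this).symm

theorem card_le_fact {K : Subgroup MG} {S : Finset GolayPt} (h : ∀ g ∈ K, g • S = S) :
    Nat.card K ≤ S.card.factorial * Nat.card ↥(K ⊓ fixF MG S) := by
  rw [← card_range_restrHom_mul K S h, ← card_perm_finset rfl]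
  exact Nat.mul_le_mul_right _ (Subgroup.card_le_card_group _)

theorem main {x d : GolayPt} {K : Subgroup MG} (hx : K ≤ stabilizer MG x) (hK : Nat.card K = 40320)
    {o Q : Finset GolayPt} (ho : o ∈ octads) (hxo : x ∈ o) (hQ : Q ⊆ o) (h4 : Q.card = 4) (hxQ : x ∉ Q)
    (hd : ∀ q ∈ Q, q ∈ orbit K d) (hw : ∀ w ∉ o, ∀ w' ∉ o, ∃ g ∈ K, g • w = w') :
    (∃ s : Finset GolayPt, s.card = 2 ∧ x ∉ s ∧ K = stabilizer MG x ⊓ stabilizer MG s) ∨
      K = stabilizer MG x ⊓ stabilizer MG o := by
  classical
  set S := (orbit K d).toFinite.toFinset with hS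
  have mS : ∀ a, a ∈ S ↔ a ∈ orbit K d := fun a => Set.Finite.mem_toFinset _
  have iS : ∀ g ∈ K, g • S = S := fun g hg => smul_eq_of_mapsTo fun a ha =>
    (mS _).2 (mem_orbit_of_mem_orbit (⟨g, hg⟩ : K) ((mS _).1 ha))
  have hQS : Q ⊆ S := fun q hq => (mS _).2 (hd q hq)
  have hxS : x ∉ S := fun h => by
    obtain ⟨q, hq⟩ := card_pos.1 (show 0 < Q.card by omega)
    obtain ⟨g, e⟩ := exists_smul_eq_of_mem_orbit ((mS _).1 h) (hd q hq)
    exact hxQ ((show (g : MG) • x = x from hx g.2).symm.trans e ▸ hq)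
  by_cases h : S ⊆ o
  · refine .inr (Subgroup.eq_of_le_of_card_ge (le_inf hx fun g hg => ?_) ?_)
    · refine octad_eq_of_five (s := insert x S) (inv_octads g o ho) ho ?_ ?_ (insert_subset hxo h)
      · rw [card_insert_of_notMem hxS]; have := card_le_card hQS; omega
      · have : g • insert x S = insert x S := by rw [smul_finset_insert, iS g hg, hx hg]
        exact this ▸ smul_finset_subset_smul_finset (insert_subset hxo h)
    · rw [inf_comm, hK, card_stab_pt (b := 40320) (transOct_of ho) inv_stab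
        ((Set.ncard_coe_finset _).trans ho.2) (by norm_num) (card_stab_octad ho) hxo]
  obtain ⟨w, hwS, hwo⟩ := not_subset.1 h
  have h1 : Sᶜ ⊆ o \ Q := fun a ha => by
    rw [mem_compl] at ha
    refine mem_sdiff.2 ⟨by_contra fun hao => ha ?_, fun hq => ha (hQS hq)⟩
    obtain ⟨g, hg, rfl⟩ := hw w hwo a hao
    exact iS g hg ▸ smul_mem_smul_finset hwS
  have h2 := card_le_card h1
  rw [card_sdiff_of_subset hQ, ho.2, h4] at h2
  have h3 : S.card ∣ 40320 := by
    rw [← hK, card_eq_ncard_orbit_mul K d, hS, ← Set.ncard_eq_toFinset_card]; exact dvd_mul_right _ _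
  have h5 := card_add_card_compl S
  rw [card_pt] at h5
  have iC : ∀ g ∈ K, g • Sᶜ = Sᶜ := fun g hg => smul_eq_of_mapsTo fun a ha =>
    mem_compl.2 fun h => mem_compl.1 ha ((smul_mem_iff_of_eq (iS g hg)).1 h)
  have hxC := mem_compl.2 hxS
  have h6 := card_pos.2 ⟨x, hxC⟩
  have h7 : Sᶜ.card = 3 ∨ Sᶜ.card = 4 := by
    have : S.card = 24 - Sᶜ.card := by omega
    rw [this] at h3
    generalize Sᶜ.card = m at *
    interval_cases m <;> omega
  rcases h7 with h7 | h7
  · have h8 : (Sᶜ.erase x).card = 2 := by rw [card_erase_of_mem hxC, h7]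
    refine .inl ⟨Sᶜ.erase x, h8, notMem_erase _ _, Subgroup.eq_of_le_of_card_ge (le_inf hx fun g hg => ?_) ?_⟩
    · refine smul_eq_of_mapsTo fun a ha => mem_erase.2 ⟨fun e => (mem_erase.1 ha).1 ?_, ?_⟩
      · exact smul_left_cancel g (e.trans (hx hg).symm)
      · exact iC g hg ▸ smul_mem_smul_finset (mem_erase.1 ha).2
    · refine (card_le_fact (S := Sᶜ.erase x) fun g hg => (Subgroup.mem_inf.1 hg).2).trans ?_
      have h9 : stabilizer MG x ⊓ stabilizer MG (Sᶜ.erase x) ⊓ fixF MG (Sᶜ.erase x) ≤ fixF MG Sᶜ := fun g hg a ha => by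
        by_cases e : a = x
        · exact e ▸ hg.1.1
        · exact hg.2 a (mem_erase.2 ⟨e, ha⟩)
      have := Subgroup.card_le_of_le h9
      rw [card_fixM (n := 20160) (by norm_num) h7 (by decide +kernel)] at this
      rw [h8, hK, show Nat.factorial 2 = 2 from rfl]; omega
  · have h8 := card_le_fact iC
    have := Subgroup.card_le_of_le (inf_le_right : K ⊓ fixF MG Sᶜ ≤ _)
    rw [card_fixM (n := 960) (by norm_num) h7 (by decide +kernel)] at this
    rw [h7, hK, show Nat.factorial 4 = 24 from rfl] at h8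
    omega

def t1 : List ℕ := [984818244535754528103549039458486304, 968697553519268682525591431235602990, 972512676110088067912772961567868960, 975364974768053118840220488329955886, 970401078462450073987959699378639918, 982901070922086139036208232400000544, 981729971605926310089241005859640366, 976326362710240725663780430664537632, 966280987472080863281084888875373614, 965263547457815315247056966037640736, 979218672827007120458465995656369198, 980224387687010295957922729495201824, 964033840961735677015396688061371936, 967881983142905853245065317476045870, 961249846278898572718642977709332000, 971292457199146568538538960670004270]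
def t2 : List ℕ := [984818244535754528103549039458486304, 984487255892296740109272113049867808, 963834891652762442134419840358778030, 963955005386720126863320410899989582]
def tP : List (ℕ × List ℕ) := [(4, t1), (1, t2), (0, [984818244535754528103549039458486304, 964038787154432890784149858701906990])]
def P0 : Subgroup MG := Subgroup.closure (genSet RM (flatT tP))
theorem codes_tP : CodesIn RM (flatT tP) (stabilizer MG (EG.dec 23)) :=
  ((codesM (by decide +kernel)).pt 23 (by decide +kernel)).mono inf_le_right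
theorem card_P0 : Nat.card P0 = 2 ^ 7 := card_closure_of_ss par24 tP (codes_tP.mono le_top) (by decide +kernel)

theorem tr (r m : ℕ) (h : band (Nat.blt r 24) (allLt 24 fun i => bor (not (tb m i))
    (anyL (flatT tP) fun c => Nat.beq (get24 c r) i)) = true) :
    ∀ p ∈ EG.ofMask m, ∃ g ∈ P0, g • EG.dec r = p := fun p hp => by
  rw [band_eq, Bool.and_eq_true, nblt] at h
  have := allLt_iff.1 h.2 _ (EG.enc_lt p)
  rw [bor_eq, tb_eq, EG.mem_ofMask.1 hp] at this
  obtain ⟨c, hc, e⟩ := anyL_iff.1 (by simpa using this)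
  obtain ⟨g, hg, hr⟩ := codes_tP.closure c hc
  exact ⟨g, hg, by rw [hr.smul_dec h.1]; exact (congrArg _ (nbeq.1 e)).trans (EG.dec_enc p)⟩

/-- Subgroups of index 253 in the Mathieu group of degree 23 are exactly the duad stabilisers and the heptad stabilisers. -/
theorem result (x : Cfsg.GolayPt) (H : Subgroup ↥(MulAction.stabilizer Cfsg.M24 x)) (hH : H.index = 253) : (∃ s : Finset Cfsg.GolayPt, s.card = 2 ∧ x ∉ s ∧ H = (MulAction.stabilizer Cfsg.M24 s).subgroupOf (MulAction.stabilizer Cfsg.M24 x)) ∨ ∃ o ∈ Cfsg.octads, x ∈ o ∧ H = (MulAction.stabilizer Cfsg.M24 o).subgroupOf (MulAction.stabilizer Cfsg.M24 x) := by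
  have hs : Nat.card (stabilizer MG x) = 10200960 := by
    have := card_stab_pt (b := 10200960) (transM (k := 1) (by norm_num)) (fun _ _ _ _ => trivial) ncard_univ_pt (by norm_num)
      card_top_MG (x := x) trivial
    rwa [top_inf_eq] at this
  have hK : Nat.card (H.map (stabilizer MG x).subtype) = 40320 := by
    have : 253 * Nat.card H = 10200960 := by rw [← hH, ← hs]; exact H.index_mul_card
    exact (Subgroup.card_subtype _ _).trans (Nat.eq_of_mul_eq_mul_left (by norm_num) (this.trans (by norm_num : _ = 253 * 40320)))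
  set K := H.map (stabilizer MG x).subtype with eK
  have hx : K ≤ stabilizer MG x := Subgroup.map_subtype_le _
  obtain ⟨g1, -, e1⟩ := (transM (k := 1) (by norm_num)).one (a := EG.dec 23) (b := x) trivial trivial
  obtain ⟨R, hR⟩ := Sylow.exists_subgroup_card_pow_prime (G := K) 2 (n := 7) (by rw [hK]; norm_num)
  obtain ⟨g, hg, h1⟩ := exists_conj_le_sylow (K := stabilizer MG x) (P := R.map K.subtype)
    (Q := P0.map (MulAut.conj g1).toMonoidHom) Nat.prime_two ((Subgroup.map_subtype_le _).trans hx)
    (by rw [← e1, ← map_conj_stabilizer]; exact Subgroup.map_mono (codes_tP.closure_le funcRM))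
    ((Subgroup.card_subtype _ _).trans hR) hs (by norm_num) (.of_card ((card_map_conj _ _).trans card_P0))
  have h2 : ∀ u ∈ P0, g * g1 * u * (g * g1)⁻¹ ∈ K := fun u hu => by
    simpa [mul_assoc] using Subgroup.map_subtype_le _ (h1 _ ⟨u, hu, rfl⟩)
  have h3 : (g * g1) • EG.dec 23 = x := by rw [mul_smul, e1]; exact hg
  generalize g * g1 = k at h2 h3
  have h4 : ∀ (u : MG) (a : GolayPt), (k * u * k⁻¹) • k • a = k • u • a := fun u a => by
    rw [mul_smul, mul_smul, inv_smul_smul]
  have h5 : x ∈ k • oct0 := h3 ▸ smul_mem_smul_finset (by decide +kernel)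
  have key : ∀ A : Subgroup MG, K = stabilizer MG x ⊓ A → H = A.subgroupOf (stabilizer MG x) := fun A e => by
    rw [← Subgroup.inf_subgroupOf_left, ← e, eK, ← Subgroup.comap_subtype,
      Subgroup.comap_map_eq_self_of_injective (Subgroup.subtype_injective _)]
  rcases main (d := k • EG.dec 1) (Q := k • EG.ofMask 131110) hx hK (inv_octads k _ oct0_mem) h5
    (smul_finset_subset_smul_finset (by decide +kernel)) ((card_smul_finset _ _).trans (by decide +kernel))
    (by rw [← h3, smul_mem_smul_finset_iff]; decide +kernel) (fun q hq => by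
      obtain ⟨q, hq', rfl⟩ := mem_smul_finset.1 hq
      obtain ⟨u, hu, rfl⟩ := tr 1 131110 (by decide +kernel) q hq'
      exact ⟨⟨_, h2 u hu⟩, h4 u _⟩) (fun w hw w' hw' => by
      have e : ∀ w ∉ k • oct0, k⁻¹ • w ∈ EG.ofMask 8241104 := fun w hw => by
        rw [show EG.ofMask 8241104 = oct0ᶜ by decide +kernel, mem_compl, inv_smul_mem_iff]; exact hw
      obtain ⟨u, hu, e1⟩ := tr 4 8241104 (by decide +kernel) _ (e w hw)
      obtain ⟨v, hv, e2⟩ := tr 4 8241104 (by decide +kernel) _ (e w' hw')
      refine ⟨_, h2 _ (P0.mul_mem hv (P0.inv_mem hu)), ?_⟩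
      rw [mul_smul, mul_smul, mul_smul, ← e1, inv_smul_smul, e2, smul_inv_smul]) with ⟨s, a, b, c⟩ | c
  · exact .inl ⟨s, a, b, key _ c⟩
  · exact .inr ⟨_, inv_octads k _ oct0_mem, h5, key _ c⟩

end Cfsg.Agent.S1609
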