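import Cfsg.Statements.S1589
import Cfsg.Agent.S1609
import Cfsg.Agent.Perm.Basic

set_option autoImplicit false
open scoped Pointwise
open Cfsg

namespace Cfsg.Agent.S1589

open Cfsg.Agent.Comp Cfsg.Agent.Golay MulAction Finset
set_option maxRecDepth 100000

theorem fix_mod {g : MG} {q : ℕ} (hq : q.Prime) (hg : orderOf g = q) {A : Finset GolayPt} (hA : g • A = A) :
    A.card % q = (A ∩ fixS g).card % q := by
  have := Fact.mk hq
  have h := Cfsg.Agent.Perm.card_modEq_fixed (G := MG) (P := Subgroup.zpowers g)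
    (IsPGroup.of_card (n := 1) (by rw [Nat.card_zpowers, hg, pow_one])) (A : Set GolayPt) fun k hk x hx =>
      (smul_mem_iff_of_eq (Subgroup.zpowers_le.2 (show g ∈ stabilizer MG A from hA) hk)).2 hx
  rw [Nat.subtype_card (A ∩ fixS g) (p := fun x => x ∈ (A : Set GolayPt) ∧ ∀ k ∈ Subgroup.zpowers g, k • x = x)
    fun x => by
      rw [mem_inter, mem_fixS]
      exact and_congr Iff.rfl ⟨fun h k hk => Subgroup.zpowers_le.2 (show g ∈ stabilizer MG x from h) hk,
        fun h => h g (Subgroup.mem_zpowers g)⟩, Nat.card_coe_set_eq, Set.ncard_coe_finset] at h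
  exact h

theorem fix_card {g : MG} {q : ℕ} (hq : q.Prime) (hg : orderOf g = q) (h : ¬ q ∣ 48) :
    (fixS g).card ≤ 4 ∧ 24 % q = (fixS g).card % q := by
  constructor
  · by_contra hc
    obtain ⟨T, hT, h5⟩ := exists_subset_card_eq (show 5 ≤ (fixS g).card by omega)
    have := (fixF MG T).orderOf_dvd_natCard (x := g) fun a ha => mem_fixS.1 (hT ha)
    rw [S1609.card_fixM (n := 48) le_rfl h5 (by decide +kernel), hg] at this
    exact h this
  · have := fix_mod hq hg (A := univ) (smul_eq_of_mapsTo fun _ _ => mem_univ _)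
    rwa [card_univ, card_pt, univ_inter] at this

theorem elt_ord {K : Subgroup MG} {q : ℕ} (hq : q.Prime) (h : q ∣ Nat.card K) : ∃ g ∈ K, orderOf g = q := by
  have := Fact.mk hq
  obtain ⟨g, hg⟩ := exists_prime_orderOf_dvd_card' q h
  exact ⟨g, g.2, (Subgroup.orderOf_coe g).trans hg⟩

/-- Orbits as finsets. -/
noncomputable def orb (K : Subgroup MG) (x : GolayPt) : Finset GolayPt := (orbit K x).toFinite.toFinset

theorem mem_orb {K : Subgroup MG} {x y : GolayPt} : y ∈ orb K x ↔ ∃ g ∈ K, g • x = y :=
  (Set.Finite.mem_toFinset _).trans ⟨fun ⟨g, h⟩ => ⟨g, g.2, h⟩, fun ⟨g, hg, h⟩ => ⟨⟨g, hg⟩, h⟩⟩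

theorem smul_orb {K : Subgroup MG} {g : MG} (hg : g ∈ K) (x : GolayPt) : g • orb K x = orb K x :=
  smul_eq_of_mapsTo fun _ ha => let ⟨k, hk, e⟩ := mem_orb.1 ha
    mem_orb.2 ⟨g * k, K.mul_mem hg hk, by rw [mul_smul, e]⟩

theorem card_orb (K : Subgroup MG) (x : GolayPt) :
    Nat.card K = (orb K x).card * Nat.card ↥(K ⊓ stabilizer MG x) := by
  rw [card_eq_ncard_orbit_mul K x, orb, ← Set.ncard_eq_toFinset_card]

theorem smul_compl' {g : MG} {S : Finset GolayPt} (h : g • S = S) : g • Sᶜ = Sᶜ :=
  smul_eq_of_mapsTo fun _ ha => mem_compl.2 fun h' => mem_compl.1 ha ((smul_mem_iff_of_eq h).1 h')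

theorem orb_size {K : Subgroup MG} (h11 : 11 ∣ Nat.card K) (h7 : 7 ∣ Nat.card K) (h23 : ¬ 23 ∣ Nat.card K) :
    ∃ x, (orb K x).card = 22 ∨ (orb K x).card = 24 := by
  obtain ⟨g, hg, og⟩ := elt_ord (by norm_num) h11
  obtain ⟨k, hk, ok⟩ := elt_ord (by norm_num) h7
  have f1 := fix_card (by norm_num) og (by norm_num)
  have f2 := fix_card (by norm_num) ok (by norm_num)
  obtain ⟨x, -, hx⟩ := exists_mem_notMem_of_card_lt_card (s := fixS g) (t := univ) (by rw [card_univ, card_pt]; omega)
  refine ⟨x, ?_⟩
  have a1 := fix_mod (by norm_num) og (smul_orb hg x)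
  have a2 := fix_mod (by norm_num) ok (smul_orb hk x)
  have a3 := card_le_card (inter_subset_right (s₁ := orb K x) (s₂ := fixS g))
  have a4 := card_le_card (inter_subset_right (s₁ := orb K x) (s₂ := fixS k))
  have a5 : (orb K x ∩ fixS g).card < (orb K x).card := card_lt_card (Finset.ssubset_iff_subset_ne.2 ⟨inter_subset_left,
    fun e => hx (mem_inter.1 (e.symm ▸ mem_orb.2 ⟨1, K.one_mem, one_smul _ _⟩ : x ∈ orb K x ∩ fixS g)).2⟩)
  have a6 := card_le_univ (orb K x)
  rw [card_pt] at a6
  have a7 : (orb K x).card ≠ 23 := fun e => h23 (by rw [card_orb K x, e]; exact dvd_mul_right _ _)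
  omega

theorem duad {H : Subgroup MG} (hH : Nat.card H = 887040) :
    ∃ s : Finset GolayPt, s.card = 2 ∧ H = stabilizer MG s := by
  obtain ⟨x, hx | hx⟩ := orb_size (K := H) (by rw [hH]; norm_num) (by rw [hH]; norm_num) (by rw [hH]; norm_num)
  · have h2 : (orb H x)ᶜ.card = 2 := by rw [card_compl, card_pt, hx]
    refine ⟨_, h2, Subgroup.eq_of_le_of_card_ge (fun g hg => smul_compl' (smul_orb hg x)) ?_⟩
    obtain ⟨g, hg, e⟩ := exists_smul_finset (s := duad0) (by rw [card_duad0]; norm_num) (h2.trans card_duad0.symm)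
    rw [← e, hH, ← card_Duad]
    exact (card_stabilizer_smul (⟨g, hg⟩ : MG) duad0).le
  exfalso
  have hu : orb H x = univ := eq_univ_of_card _ (hx.trans card_pt.symm)
  have hK : ∀ p, Nat.card ↥(H ⊓ stabilizer MG p) = 36960 := fun p => by
    have h1 : orb H p = univ := eq_univ_of_forall fun y => by
      obtain ⟨a, ha, rfl⟩ := mem_orb.1 (hu ▸ mem_univ p)
      obtain ⟨b, hb, rfl⟩ := mem_orb.1 (hu ▸ mem_univ y)
      exact mem_orb.2 ⟨b * a⁻¹, H.mul_mem hb (H.inv_mem ha), by rw [mul_smul, inv_smul_smul]⟩
    have := card_orb H p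
    rw [h1, card_univ, card_pt, hH] at this
    omega
  have hp : ∀ p, ∃ p', p' ≠ p ∧ H ⊓ stabilizer MG p = H ⊓ stabilizer MG p' := fun p => by
    obtain ⟨y, hy⟩ := orb_size (K := H ⊓ stabilizer MG p) (by rw [hK]; norm_num) (by rw [hK]; norm_num)
      (by rw [hK]; norm_num)
    have h1 : p ∉ orb (H ⊓ stabilizer MG p) y := fun h => by
      have : orb (H ⊓ stabilizer MG p) y ⊆ {p} := fun z hz => by
        obtain ⟨a, ha, e⟩ := mem_orb.1 h
        obtain ⟨b, hb, rfl⟩ := mem_orb.1 hz
        rw [← inv_smul_eq_iff.2 e.symm, mem_singleton, ← mul_smul]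
        exact ((H ⊓ stabilizer MG p).mul_mem hb ((H ⊓ stabilizer MG p).inv_mem ha)).2
      have := card_le_card this
      rw [card_singleton] at this
      omega
    have h2 := card_lt_card (ssubset_univ_iff.2 fun e : orb (H ⊓ stabilizer MG p) y = univ => h1 (e ▸ mem_univ p))
    rw [card_univ, card_pt] at h2
    have h3 : ((orb (H ⊓ stabilizer MG p) y)ᶜ.erase p).card = 1 := by
      rw [card_erase_of_mem (mem_compl.2 h1), card_compl, card_pt]; omega
    obtain ⟨p', e⟩ := card_eq_one.1 h3
    have h4 := mem_erase.1 (e ▸ mem_singleton_self p')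
    refine ⟨p', h4.1, Subgroup.eq_of_le_of_card_ge (le_inf inf_le_left fun g hg => ?_) (by rw [hK, hK])⟩
    refine mem_singleton.1 (e ▸ mem_erase.2 ⟨fun h => h4.1 (smul_left_cancel g (h.trans (hg.2 : g • p = p).symm)), ?_⟩)
    exact (smul_mem_iff_of_eq (smul_compl' (smul_orb hg y))).2 h4.2
  obtain ⟨k, hk, ok⟩ := elt_ord (K := H) (q := 7) (by norm_num) (by rw [hH]; norm_num)
  have f2 := fix_card (by norm_num) ok (by norm_num)
  obtain ⟨p, h1⟩ := card_pos.1 (show 0 < (fixS k).card by omega)
  obtain ⟨p', h2, e1⟩ := hp p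
  obtain ⟨q, h3, h4⟩ := exists_mem_notMem_of_card_lt_card (s := {p, p'}) (t := fixS k) (by rw [card_pair h2.symm]; omega)
  obtain ⟨q', h5, e2⟩ := hp q
  rw [mem_insert, mem_singleton, not_or] at h4
  have h6 : p' ∈ fixS k := mem_fixS.2 (e1.le ⟨hk, mem_fixS.1 h1⟩).2
  have h7 : q' ∈ fixS k := mem_fixS.2 (e2.le ⟨hk, mem_fixS.1 h3⟩).2
  have h8 : ({q, p, p'} : Finset GolayPt).card = 3 := by
    rw [card_insert_of_notMem (by simp [h4]), card_pair h2.symm]
  have h9 : H ⊓ stabilizer MG p = H ⊓ stabilizer MG q := by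
    by_cases c1 : q' = p
    · rw [e2, c1]
    by_cases c2 : q' = p'
    · rw [e2, c2, e1]
    have : (insert q' {q, p, p'} : Finset GolayPt) ⊆ fixS k := by
      simp only [insert_subset_iff, singleton_subset_iff]; exact ⟨h7, h3, h1, h6⟩
    have := card_le_card this
    rw [card_insert_of_notMem (by simp [h5, c1, c2]), h8] at this
    omega
  obtain ⟨g, hg, og⟩ := elt_ord (K := H ⊓ stabilizer MG p) (q := 11) (by norm_num) (by rw [hK]; norm_num)
  have f1 := fix_card (by norm_num) og (by norm_num)
  have : ({q, p, p'} : Finset GolayPt) ⊆ fixS g := by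
    simp only [insert_subset_iff, singleton_subset_iff, mem_fixS]; exact ⟨(h9.le hg).2, hg.2, (e1.le hg).2⟩
  have := card_le_card this
  omega

/-! ### Overgroups of a Sylow 2-subgroup -/

abbrev d (i : ℕ) : GolayPt := EG.dec i

def LS : List ℕ := [984818244535754528103549039458486304, 130346939350536742972585899572561056, 153957959392045887891002637210600512, 150966272859078752078240816946711072, 140930409362883953331792239983821984, 139713188076842860242424641383797792, 138435375884601122230676367710323872, 970499966350631336865513127433832480, 150190262865490122241485018024887360, 148372656636275016549342264050816032, 973162862648319819803021140971066912, 144593678783788929360262965691651104, 141759012728005883117463417432806432, 975308056914250261017096883974276160, 980344178831202272343600285229356576, 961365507626256404119956257276790816, 216261726867025964272511358876057697, 92948788013891270830112520685129153, 91733033101638822876015306665528769, 234027795894810699964654373176434113, 96387803324625622600514886580755457,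 222596381639453437196180084804893409, 221018233817651580268153492844121089, 220210260756983329276605562821369281, 104748682322416880122511889175591009, 231491190019834140149782347192023777, 100137688680362727003061558683285601, 93928338666716912799663586738878561, 110518463817092049894334187032445665, 218447106196678069548678751845432033, 228758578930342081022072650242001921, 217325513959692189487999099175254753, 70881526906702867226689810178038786, 51288401901054919677468217751143138, 50193390234612938227391430426933346, 65326221460541251917380581889465346, 722074881014418896834200535120773218, 53553908111433480004904601120201730, 719766406331536039440224432128295010, 718184457260025477222096700042152962, 731719909179542913677965620325420034, 68013710055362727919977601399577602, 58676030656508056853854093711016674, 726077728826880555365730804159253506, 723933997065156122893099009676705890, 61435799640618054887602107173091426, 66496137056211989257095799427872866, 47272603523301006834599337172438466, 8571114992064034324434191762527267,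 591414355991433043804149359661024323, 590107417352329974650723329004013603, 26343548695321503114860490775807043, 595151360256427030557912619012850755, 593561653212765223374665134110676515, 13739398892782035429638457871764003, 12422307482517145822721556831732899, 602484790764384694019351755724162115, 608013841824546179626130125083383331, 599318752925458794223005689333154883, 592296199946057393816269022663022115, 609702082589578134802594378590209187, 601503208187613579035532511332549795, 606497541234554379885742248594244675, 9872990456217537158421523164775491, 49873941045638813028959134216126565, 715782092948159007776132653413076421, 714727606253520426242599680318954501, 67992072799680508316142871534689733, 719868677852404477188155115276635589, 56649111365209617962782502593003621, 55266383436502130131275828614979013, 53566659588286892399523726067555781, 727839520519317366942642346992393221, 65318673196328257141557526772899269, 69055436170118518274613286038715109, 61504256486506868060049607968194661, 734323541308443900561412474495088741,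 52356949174077406172997228109004901, 63215490356927617921635607241067525, 711884069131958235502774923695283205, 153963345543789787303735486722065582, 134564417965522941103616412846097486, 133063281860353144099650130857936046, 981817352224798173272718141118581294, 138342855960208589047664249560351918, 136643330176166135103490186048947374, 969000445881261720298046575065797678, 967803684045853105360818237230647854, 980948895226443373327849133484115118, 979255398329018410876260159411307598, 141786972279603261112054985402336430, 975364974768053118840220488329955886, 152053038170404361914225923802776750, 144582329965477706702120891217319470, 977067355394112712001458543197799502, 130479816706694815478266646361770030, 237033762791089804123420429822015601, 217646232037146370910572710132253425, 112509719980295121051305783925595601, 109492476334266282513416131602210257, 99283131609171676850811440546897361, 219704854062979523130682662749026417, 96683183245506849487161395764169745, 222588834689818564880512632563513457, 228730104179444103216592168340764785,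 234160879051055529466096727673092209, 111240434043027517099331866408967633, 218468585232962290027512291278272625, 235869392631542504853964912371764689, 93835781604120874460669334383657073, 104752595911160686686394305318402801, 92957358824147866641557897397570577, 589869013160660188879947277363332183, 587270331751405438776342549167606327, 8463373356714737275754106265733175, 607890928036309877720156916219380919, 597444528934132645346337908679771319, 12433457732606708835523568255566935, 16323879745958073645140370894820919, 593955756515866068220489810239833175, 20945009667007575912297756337063095, 26413252147263172956105570516403287, 609699669957263617227801703353435223, 10755153171727007052190995379062839, 27434112431958012724518489649776695, 19882197297795712177817492734297271, 602616636330191675727184320460244055, 591163286125774103963496928533025847]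

theorem codes_LS : CodesIn RM LS P2 := codesP2 (by decide +kernel)

def A (i j : ℕ) (x y : GolayPt) : Bool :=
  anyL LS fun c => band (Nat.beq (get24 c i) (EG.enc x)) (Nat.beq (get24 c j) (EG.enc y))

theorem prs {i j : ℕ} (hi : i < 24) (hj : j < 24) {x y : GolayPt} (h : A i j x y = true) :
    ∃ s ∈ P2, s • d i = x ∧ s • d j = y := by
  obtain ⟨c, hc, e⟩ := anyL_iff.1 h
  rw [band_eq, Bool.and_eq_true, nbeq, nbeq] at e
  obtain ⟨g, hg, hr⟩ := codes_LS c hc
  exact ⟨g, hg, (hr.smul_dec hi).trans ((congrArg _ e.1).trans (EG.dec_enc x)),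
    (hr.smul_dec hj).trans ((congrArg _ e.2).trans (EG.dec_enc y))⟩

abbrev T0 : Finset GolayPt := EG.ofMask 8405001

theorem c1 : ∀ x ∈ oct0, ∀ y ∉ oct0, A 0 4 x y = true := by decide +kernel

theorem c0 : ∀ y ∈ oct0, (y ∈ T0 ∧ (y = d 0 ∨ y = d 14 ∨ A 0 3 (d 0) y = true)) ∨ (y ∉ T0 ∧ A 0 1 (d 0) y = true) := by
  decide +kernel

theorem f1 {x y : GolayPt} (hx : x ∈ oct0) (hy : y ∉ oct0) : ∃ s ∈ P2, s • d 0 = x ∧ s • d 4 = y :=
  prs (by norm_num) (by norm_num) (c1 x hx y hy)

theorem P2_oct : P2 ≤ stabilizer MG oct0 := fun _ h => CA_le h.1.1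

theorem sext7_eq : sext7 = sextetOf T0 :=
  eq_sextetOf (kSx_mem sext7_P) ((ofMask_mem_sextetOf (by norm_num) (by norm_num)).2 (by decide +kernel))

/-- The orbital of the pair `(0, 4)`. -/
def E (H : Subgroup MG) (x y : GolayPt) : Prop := ∃ h ∈ H, h • d 0 = x ∧ h • d 4 = y

theorem E_smul {H : Subgroup MG} {g : MG} (hg : g ∈ H) {x y : GolayPt} : E H (g • x) (g • y) ↔ E H x y :=
  ⟨fun ⟨h, hh, a, b⟩ => ⟨g⁻¹ * h, H.mul_mem (H.inv_mem hg) hh, by rw [mul_smul, a, inv_smul_smul],
      by rw [mul_smul, b, inv_smul_smul]⟩,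
    fun ⟨h, hh, a, b⟩ => ⟨g * h, H.mul_mem hg hh, by rw [mul_smul, a], by rw [mul_smul, b]⟩⟩

set_option maxHeartbeats 1600000 in
theorem ovr {H : Subgroup MG} (hP : P2 ≤ H) (h5 : 5 ∣ Nat.card H) (h11 : ¬ 11 ∣ Nat.card H)
    (h23 : ¬ 23 ∣ Nat.card H) : H ≤ stabilizer MG oct0 ∨ H ≤ stabilizer MG sext7 := by
  have p0 : d 0 ∈ oct0 := by decide +kernel
  have r0 : d 4 ∉ oct0 := by decide +kernel
  have e1 : ∀ {x y}, x ∈ oct0 → y ∉ oct0 → E H x y := fun hx hy =>
    let ⟨s, hs, h⟩ := f1 hx hy; ⟨s, hP hs, h⟩
  have e0 : ¬ E H (d 0) (d 0) := fun ⟨h, _, a, b⟩ =>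
    absurd (smul_left_cancel h (a.trans b.symm)) (by decide +kernel)
  have tr : ∀ {y z}, ¬ E H (d 0) y → ¬ E H y z → ¬ E H (d 0) z := by
    rintro y z h1 h2 ⟨h, hh, a, rfl⟩
    obtain ⟨y, rfl⟩ := (MulAction.surjective h) y
    rw [E_smul hh] at h2
    rw [← a, E_smul hh] at h1
    exact h2 (e1 (by_contra fun hy => h1 (e1 p0 hy)) r0)
  have mv : ∀ {i j x y}, i < 24 → j < 24 → A i j x y = true → (E H x y ↔ E H (d i) (d j)) := by
    intro i j x y hi hj h
    obtain ⟨s, hs, rfl, rfl⟩ := prs hi hj h
    exact E_smul (hP hs)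
  have st : ∀ {N : Finset GolayPt}, (∀ y, ¬ E H (d 0) y ↔ y ∈ N) → ∀ h ∈ H, h • d 0 = d 0 → h • N = N :=
    fun hN h hh a => smul_eq_of_mapsTo fun y hy => (hN _).1 (by rw [← a, E_smul hh]; exact (hN y).2 hy)
  have red : ∀ {K : Subgroup MG}, (∀ h ∈ H, h • d 0 = d 0 → h ∈ K) → ∀ h ∈ H, ∀ k ∈ H, k ∈ K →
      k • d 0 = h • d 0 → h ∈ K := fun hK h hh k hk hk' e => by
    have := hK (k⁻¹ * h) (H.mul_mem (H.inv_mem hk) hh) (by rw [mul_smul, ← e, inv_smul_smul])
    simpa using Subgroup.mul_mem _ hk' this
  have t14 : ¬ E H (d 0) (d 3) → ¬ E H (d 0) (d 14) := fun h =>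
    tr h (by rw [mv (i := 0) (j := 3) (by norm_num) (by norm_num) (by decide +kernel)]; exact h)
  have inT : ¬ E H (d 0) (d 3) → ∀ y, (y = d 0 ∨ y = d 14 ∨ A 0 3 (d 0) y = true) → ¬ E H (d 0) y := by
    rintro h y (rfl | rfl | hy)
    · exact e0
    · exact t14 h
    · rwa [mv (by norm_num) (by norm_num) hy]
  by_cases b1 : E H (d 0) (d 1)
  · by_cases b3 : E H (d 0) (d 3)
    · exfalso
      have hX : ∀ y, y ∈ orb (H ⊓ stabilizer MG (d 0)) (d 4) ↔ E H (d 0) y := fun y =>
        mem_orb.trans ⟨fun ⟨g, hg, e⟩ => ⟨g, hg.1, hg.2, e⟩, fun ⟨g, hg, a, e⟩ => ⟨g, ⟨hg, a⟩, e⟩⟩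
      have h1 : (orb (H ⊓ stabilizer MG (d 0)) (d 4))ᶜ ⊆ {d 0, d 14} := fun y hy => by
        rw [mem_compl, hX] at hy
        rcases c0 y (by_contra fun h => hy (e1 p0 h)) with ⟨-, rfl | rfl | h⟩ | ⟨-, h⟩
        · simp
        · simp
        · exact absurd ((mv (by norm_num) (by norm_num) h).2 b3) hy
        · exact absurd ((mv (by norm_num) (by norm_num) h).2 b1) hy
      have h2 := (card_le_card h1).trans card_le_two
      have h3 := card_pos.2 ⟨d 0, mem_compl.2 fun h => e0 ((hX _).1 h)⟩
      have h4 : (orb (H ⊓ stabilizer MG (d 0)) (d 4)).card ∣ Nat.card H :=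
        (Dvd.intro _ (card_orb _ _).symm).trans (Subgroup.card_dvd_of_le inf_le_left)
      have h6 := card_add_card_compl (orb (H ⊓ stabilizer MG (d 0)) (d 4))
      rw [card_pt] at h6
      rcases (show (orb (H ⊓ stabilizer MG (d 0)) (d 4)).card = 22 ∨
        (orb (H ⊓ stabilizer MG (d 0)) (d 4)).card = 23 by omega) with h | h <;> rw [h] at h4
      · exact h11 (Dvd.dvd.trans (by norm_num) h4)
      · exact h23 h4
    · right
      have hN : ∀ y, ¬ E H (d 0) y ↔ y ∈ T0 := fun y => ⟨fun hy => by
        rcases c0 y (by_contra fun h => hy (e1 p0 h)) with ⟨h, -⟩ | ⟨-, h⟩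
        · exact h
        · exact absurd ((mv (by norm_num) (by norm_num) h).2 b1) hy, fun hy => by
        rcases c0 y ((show T0 ⊆ oct0 by decide +kernel) hy) with ⟨-, h⟩ | ⟨h, -⟩
        · exact inT b3 y h
        · exact absurd hy h⟩
      have hK : ∀ h ∈ H, h • d 0 = d 0 → h ∈ stabilizer MG sext7 := fun h hh a => by
        rw [mem_stabilizer_iff, sext7_eq, smul_sextetOf, st hN h hh a]
      have hS : P2 ≤ stabilizer MG sext7 := inf_le_right
      intro h hh
      by_cases hx : h • d 0 ∈ oct0
      · obtain ⟨s, hs, a, -⟩ := f1 hx r0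
        exact red hK h hh s (hP hs) (hS hs) a
      · obtain ⟨s1, hs1, -, a1⟩ := f1 p0 hx
        obtain ⟨s2, hs2, a2, -⟩ := f1 (show d 1 ∈ oct0 by decide +kernel) r0
        obtain ⟨k, hk, a3, a4⟩ := b1
        refine red hK h hh (s1 * k⁻¹ * s2) (H.mul_mem (H.mul_mem (hP hs1) (H.inv_mem hk)) (hP hs2))
          (Subgroup.mul_mem _ (Subgroup.mul_mem _ (hS hs1) (Subgroup.inv_mem _ (hK k hk a3))) (hS hs2)) ?_
        rw [mul_smul, mul_smul, a2, ← a4, inv_smul_smul, a1]
  left
  have b3 : ¬ E H (d 0) (d 3) :=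
    tr b1 (by rw [mv (i := 0) (j := 1) (by norm_num) (by norm_num) (by decide +kernel)]; exact b1)
  have hN : ∀ y, ¬ E H (d 0) y ↔ y ∈ oct0 := fun y => ⟨fun hy => by_contra fun h => hy (e1 p0 h), fun hy => by
    rcases c0 y hy with ⟨-, h⟩ | ⟨-, h⟩
    · exact inT b3 y h
    · rwa [mv (by norm_num) (by norm_num) h]⟩
  intro h hh
  by_cases hx : h • d 0 ∈ oct0
  · obtain ⟨s, hs, a, -⟩ := f1 hx r0
    exact red (st hN) h hh s (hP hs) (P2_oct hs) a
  exfalso
  have ht : ∀ x, ∃ k ∈ H, k • d 0 = x := fun x => by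
    by_cases hx' : x ∈ oct0
    · obtain ⟨s, hs, a, -⟩ := f1 hx' r0
      exact ⟨s, hP hs, a⟩
    · obtain ⟨s1, hs1, -, a1⟩ := f1 p0 hx'
      obtain ⟨s2, hs2, -, a2⟩ := f1 p0 hx
      exact ⟨s1 * s2⁻¹ * h, H.mul_mem (H.mul_mem (hP hs1) (H.inv_mem (hP hs2))) hh, by
        rw [mul_smul, mul_smul, ← a2, inv_smul_smul, a1]⟩
  have hB : ∀ k ∈ H, ∀ z ∈ k • oct0, ∀ y, ¬ E H z y ↔ y ∈ k • oct0 := fun k hk z hz y => by
    obtain ⟨z', hz', rfl⟩ := mem_smul_finset.1 hz
    obtain ⟨s, hs, rfl, -⟩ := f1 hz' r0
    obtain ⟨y, rfl⟩ : ∃ y', (k * s) • y' = y := ⟨_, smul_inv_smul _ y⟩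
    rw [← mul_smul, E_smul (H.mul_mem hk (hP hs)), hN, mul_smul, smul_mem_smul_finset_iff,
      smul_mem_iff_of_eq (P2_oct hs)]
  obtain ⟨g, hg, og⟩ := elt_ord (by norm_num) h5
  have f := fix_card (by norm_num) og (by norm_num)
  have h3 : ∀ k ∈ H, k • d 0 ∈ fixS g → (k • oct0 ∩ fixS g).card = 3 := fun k hk a => by
    have hz : k • d 0 ∈ k • oct0 := smul_mem_smul_finset p0
    have := fix_mod (by norm_num) og (A := k • oct0) (smul_eq_of_mapsTo fun y hy => (hB k hk _ hz _).1 (by
      rw [← mem_fixS.1 a, E_smul hg]; exact (hB k hk _ hz _).2 hy))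
    rw [card_smul_finset, oct0_mem.2] at this
    have := card_le_card (inter_subset_right (s₁ := k • oct0) (s₂ := fixS g))
    omega
  obtain ⟨x, hx1⟩ := card_pos.1 (show 0 < (fixS g).card by omega)
  obtain ⟨k, hk, rfl⟩ := ht x
  have a1 := h3 k hk hx1
  obtain ⟨y, hy1, hy2⟩ := exists_mem_notMem_of_card_lt_card (s := k • oct0 ∩ fixS g) (t := fixS g) (by omega)
  obtain ⟨k', hk', rfl⟩ := ht y
  have a2 := h3 k' hk' hy1
  have a3 := card_union_add_card_inter (k • oct0 ∩ fixS g) (k' • oct0 ∩ fixS g)
  have a4 := card_le_card (union_subset (inter_subset_right (s₁ := k • oct0) (s₂ := fixS g))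
    (inter_subset_right (s₁ := k' • oct0) (s₂ := fixS g)))
  obtain ⟨z, hz⟩ := card_pos.1 (show 0 < (k • oct0 ∩ fixS g ∩ (k' • oct0 ∩ fixS g)).card by omega)
  simp only [mem_inter] at hz
  exact hy2 (mem_inter.2 ⟨(hB k hk z hz.1.1 _).1 ((hB k' hk' z hz.2.1 _).2 (smul_mem_smul_finset p0)), hy1⟩)

theorem ovr' {H : Subgroup MG} (h2 : 2 ^ 10 ∣ Nat.card H) (h5 : 5 ∣ Nat.card H) (h11 : ¬ 11 ∣ Nat.card H)
    (h23 : ¬ 23 ∣ Nat.card H) :
    (∃ o ∈ octads, H ≤ stabilizer MG o ∧ Nat.card (stabilizer MG o) = 322560) ∨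
      ∃ S ∈ sextets, H ≤ stabilizer MG S ∧ Nat.card (stabilizer MG S) = 138240 := by
  obtain ⟨R, hR⟩ := Sylow.exists_subgroup_card_pow_prime (G := H) 2 h2
  obtain ⟨g, -, h1⟩ := exists_conj_le_sylow (K := ⊤) (P := R.map H.subtype) (Q := P2) Nat.prime_two le_top le_top
    ((Subgroup.card_subtype _ _).trans hR) card_top_MG (by norm_num) (.of_card card_P2)
  have key : ∀ {X : Type} [MulAction MG X] {x : X}, H.map (MulAut.conj g⁻¹).toMonoidHom ≤ stabilizer MG x →
      H ≤ stabilizer MG (g • x) := fun {X} _ {x} h a ha => by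
    have : (g⁻¹ * a * g⁻¹⁻¹) • x = x := h ⟨a, ha, rfl⟩
    rw [inv_inv, mul_smul, mul_smul, inv_smul_eq_iff] at this
    exact this
  rcases ovr (H := H.map (MulAut.conj g⁻¹).toMonoidHom)
    (fun x hx => ⟨_, Subgroup.map_subtype_le _ (h1 x hx), by simp [mul_assoc]⟩) (by rwa [card_map_conj])
    (by rwa [card_map_conj]) (by rwa [card_map_conj]) with h | h
  · exact .inl ⟨_, inv_octads g _ oct0_mem, key h, card_stab_octad (inv_octads g _ oct0_mem)⟩
  · refine .inr ⟨_, inv_sextets g _ (kSx_mem sext7_P), key h, ?_⟩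
    obtain ⟨k, e⟩ := sextet_transM sext0_mem (kSx_mem sext7_P)
    rw [card_stabilizer_smul, ← e, card_stabilizer_smul, card_Sx]

/-- Subgroups of the group of the length-24 code of index 759, 276 and 1771 are exactly the octad, duad and sextet stabilisers, and no subgroup has index 253. -/
theorem result : (∀ H : Subgroup ↥Cfsg.M24, H.index = 759 → ∃ o ∈ Cfsg.octads, H = MulAction.stabilizer Cfsg.M24 o) ∧ (∀ H : Subgroup ↥Cfsg.M24, H.index = 276 → ∃ s : Finset Cfsg.GolayPt, s.card = 2 ∧ H = MulAction.stabilizer Cfsg.M24 s) ∧ (∀ H : Subgroup ↥Cfsg.M24, H.index = 1771 → ∃ S ∈ Cfsg.sextets, H = MulAction.stabilizer Cfsg.M24 S) ∧ ∀ H : Subgroup ↥Cfsg.M24, H.index ≠ 253 := by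
  have hc : ∀ {H : Subgroup MG} {a b : ℕ}, H.index = a → a * b = 244823040 → Nat.card H = b := by
    intro H a b h1 h2
    have := H.index_mul_card
    rw [h1, card_M24, ← h2] at this
    exact Nat.eq_of_mul_eq_mul_left (Nat.pos_of_ne_zero (by rintro rfl; omega)) this
  refine ⟨fun H hH => ?_, fun H hH => duad (hc hH (by norm_num)), fun H hH => ?_, fun H hH => ?_⟩
  · have h := hc (b := 322560) hH (by norm_num)
    rcases ovr' (H := H) (by rw [h]; norm_num) (by rw [h]; norm_num) (by rw [h]; norm_num) (by rw [h]; norm_num) with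
      ⟨o, ho, h1, h2⟩ | ⟨o, ho, h1, h2⟩
    · exact ⟨o, ho, Subgroup.eq_of_le_of_card_ge h1 (by rw [h, h2])⟩
    · have := Subgroup.card_le_of_le h1
      rw [h, h2] at this
      omega
  · have h := hc (b := 138240) hH (by norm_num)
    rcases ovr' (H := H) (by rw [h]; norm_num) (by rw [h]; norm_num) (by rw [h]; norm_num) (by rw [h]; norm_num) with
      ⟨o, ho, h1, h2⟩ | ⟨o, ho, h1, h2⟩
    · have := Subgroup.card_dvd_of_le h1
      rw [h, h2] at this
      omega
    · exact ⟨o, ho, Subgroup.eq_of_le_of_card_ge h1 (by rw [h, h2])⟩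
  · have h := hc (b := 967680) hH (by norm_num)
    rcases ovr' (H := H) (by rw [h]; norm_num) (by rw [h]; norm_num) (by rw [h]; norm_num) (by rw [h]; norm_num) with
      ⟨o, ho, h1, h2⟩ | ⟨o, ho, h1, h2⟩ <;> have := Subgroup.card_le_of_le h1 <;> rw [h, h2] at this <;> omega

end Cfsg.Agent.S1589
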