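import Cfsg.Statements.S1590
import Cfsg.Agent.Perm.Tern

set_option autoImplicit false
open Cfsg

namespace Cfsg.Agent.S1590

open Perm.Tern Comp

/-- The length-12 ternary code has 729 words with weight distribution 0^1 6^264 9^440 12^24. -/
theorem result : Nat.card ↥Cfsg.ternaryGolayCode = 729 ∧ (∀ x ∈ Cfsg.ternaryGolayCode, x ≠ 0 → (Cfsg.ternarySupport x).card = 6 ∨ (Cfsg.ternarySupport x).card = 9 ∨ (Cfsg.ternarySupport x).card = 12) ∧ {x : Cfsg.ArrayPt → ZMod 3 | x ∈ Cfsg.ternaryGolayCode ∧ (Cfsg.ternarySupport x).card = 6}.ncard = 264 ∧ {x : Cfsg.ArrayPt → ZMod 3 | x ∈ Cfsg.ternaryGolayCode ∧ (Cfsg.ternarySupport x).card = 9}.ncard = 440 ∧ {x : Cfsg.ArrayPt → ZMod 3 | x ∈ Cfsg.ternaryGolayCode ∧ (Cfsg.ternarySupport x).card = 12}.ncard = 24 := by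
  have h : ∀ k : ℕ, {x : ArrayPt → ZMod 3 | x ∈ ternaryGolayCode ∧ (ternarySupport x).card = k}.ncard =
      countLt 729 fun i => Nat.beq (popc 12 (mk i)) k := fun k =>
    ncard_W fun i hi => by rw [supp_W hi, Enc.card_ofMask, nbeq]
  refine ⟨?_, fun x hx h0 => ?_, (h 6).trans (by decide +kernel), (h 9).trans (by decide +kernel),
    (h 12).trans (by decide +kernel)⟩
  · have := ncard_W (P := fun _ => True) (f := fun _ => true) fun _ _ => by simp
    simp only [and_true] at this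
    exact this.trans (by decide +kernel)
  · obtain ⟨i, hi, rfl⟩ := mem_iff_W.1 hx
    have h1 : ∀ i < 729, i = 0 ∨ popc 12 (mk i) = 6 ∨ popc 12 (mk i) = 9 ∨ popc 12 (mk i) = 12 := by
      decide +kernel
    rw [supp_W hi, Enc.card_ofMask]
    refine (h1 i hi).resolve_left ?_
    rintro rfl
    exact h0 (by decide +kernel)

end Cfsg.Agent.S1590
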