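import Cfsg.Statements.S1594
import Cfsg.Agent.Perm.Tern

set_option autoImplicit false
open Cfsg

namespace Cfsg.Agent.S1594

open Perm Perm.Tern Comp

/-- The monomial automorphism group of the length-12 ternary code has order 190080 and its permutation parts are exactly the automorphisms of its hexad system. -/
theorem result : Nat.card {f : Equiv.Perm Cfsg.ArrayPt × (Cfsg.ArrayPt → (ZMod 3)ˣ) // (∀ x ∈ Cfsg.ternaryGolayCode, Cfsg.monomialMap f.1 f.2 x ∈ Cfsg.ternaryGolayCode)} = 190080 ∧ {σ : Equiv.Perm Cfsg.ArrayPt | ∃ c : Cfsg.ArrayPt → (ZMod 3)ˣ, (∀ x ∈ Cfsg.ternaryGolayCode, Cfsg.monomialMap σ c x ∈ Cfsg.ternaryGolayCode)} = (Cfsg.setSystemAut {h : Finset Cfsg.ArrayPt | ∃ x ∈ Cfsg.ternaryGolayCode, Cfsg.ternarySupport x = h ∧ h.card = 6} : Set (Equiv.Perm Cfsg.ArrayPt)) := by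
  rw [hexads_eq, ← monoPerm_eq]
  refine ⟨?_, rfl⟩
  rw [card_mono _ diag_const, monoPerm_eq, card_aut, Nat.card_eq_fintype_card, ZMod.card_units]

end Cfsg.Agent.S1594
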