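import Cfsg.Statements.S1597
import Cfsg.Agent.Golay.Stab

set_option autoImplicit false
open scoped Pointwise
open Cfsg

namespace Cfsg.Agent.S1597

open Cfsg.Agent.Comp Cfsg.Agent.Golay MulAction
set_option maxRecDepth 100000

/-- A dodecad has 220 quartets and its stabiliser is transitive on them. -/
theorem result (d : Finset Cfsg.GolayPt) (hd : d ∈ Cfsg.dodecads) : (Cfsg.quartets d).ncard = 220 ∧ ∀ Q ∈ Cfsg.quartets d, ∀ Q' ∈ Cfsg.quartets d, ∃ g : Equiv.Perm Cfsg.GolayPt, g ∈ Cfsg.M24 ∧ g • d = d ∧ g • Q = Q' := by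
  obtain ⟨g, rfl⟩ := dodecad_transM dod0_mem hd
  refine ⟨by rw [← smul_quartets, Set.ncard_smul_set, card_Qt.1], fun Q hQ Q' hQ' => ?_⟩
  obtain ⟨a, h1, rfl⟩ := norm_quartet hd hQ
  obtain ⟨b, h2, rfl⟩ := norm_quartet hd hQ'
  refine ⟨_, (b * a⁻¹).2, ?_, ?_⟩
  · rw [← coe_smul_finset, mul_smul, ← h1, inv_smul_smul, h2, h1]
  · rw [← coe_smul_finset₂, mul_smul, inv_smul_smul]

end Cfsg.Agent.S1597
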