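import Cfsg.Statements.S1598
import Cfsg.Agent.Golay.Stab
import Cfsg.Agent.Classical.Mono

set_option autoImplicit false
open scoped Pointwise
open Cfsg

namespace Cfsg.Agent.S1598

open Cfsg.Agent.Comp Cfsg.Agent.Golay Cfsg.Agent.Known MulAction
set_option maxRecDepth 100000

def gL : List ℕ := [483510674266408815099013456752361682, 796626660021262275159673963427333122, 607100024555454965350000205253063976]
def vs : List ℕ := [487607080158395075740321133224921120, 928718206277989008510816407558424608, 858249338590762411966147903161237569, 608132182080247986231149538876424257, 891256915141300104684601826038906945, 630488151153570250854033705891136514, 809648025571350634416323764134740994, 232830186133421440756815622813352962]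
def As : List (List ℕ) := [[33, 16], [2, 16], [32, 17], [1, 16]]

theorem std : ∃ ψ : Qt →* GL (Fin 2) (ZMod 3), Function.Surjective ψ := by
  have hL : CodesIn RM gL Qt := codesQt (by decide +kernel)
  exact (exists_surj_of_mat (keyedCj grpCM canCM) canCM.func (CodesIn_CM hL (by decide +kernel))
    (closure_CM (closureM hL [3, 0, 1, 4] [[1, 1, 4, 4, 1], [7, 3, 1, 3, 3, 7, 7], [9, 3, 4, 0, 4, 7, 9], [5, 10, 9, 4]] card_Qt.2 (by decide +kernel)) (by decide +kernel))
    (N := 8) (vs := nthL 0 vs) (act := (tabA 3 7 [3076262, 14596225, 3399893]))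
    (hv_cj grpCM canCM (codesCM (by decide +kernel)) rfl) (inj_of_nodupL (by decide +kernel))
    (by decide +kernel) (n := 48) (by rw [Classical.card_GL_fin, Nat.card_zmod]; decide) (by norm_num) [[0], [1], [2]] [2, 0]
    (by decide +kernel) (mrep_GLp (As := As) (w := 4) (m := 15) 5 (by decide +kernel)) (s := 3) (o := 0)
    (us := nthL 0 [1, 2, 16, 17, 18, 32, 33, 34]) (by decide +kernel) (by decide +kernel)).imp fun _ h => h.1


/-- A quartet stabiliser inside the dodecad stabiliser has order 432, a normal subgroup of order 9 with quotient GL(2, 3), and is transitive on the dodecad. -/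
theorem result (d : Finset Cfsg.GolayPt) (hd : d ∈ Cfsg.dodecads) (Q : Finset (Finset Cfsg.GolayPt)) (hQ : Q ∈ Cfsg.quartets d) : Nat.card ↥(MulAction.stabilizer Cfsg.M24 d ⊓ MulAction.stabilizer Cfsg.M24 Q) = 432 ∧ (∃ (N : Subgroup ↥(MulAction.stabilizer Cfsg.M24 d ⊓ MulAction.stabilizer Cfsg.M24 Q)) (_ : N.Normal), Nat.card N = 9 ∧ Nonempty (↥(MulAction.stabilizer Cfsg.M24 d ⊓ MulAction.stabilizer Cfsg.M24 Q) ⧸ N ≃* GL (Fin 2) (ZMod 3))) ∧ ∀ p ∈ d, ∀ q ∈ d, ∃ g ∈ (MulAction.stabilizer Cfsg.M24 d ⊓ MulAction.stabilizer Cfsg.M24 Q), ((g : ↥Cfsg.M24) : Equiv.Perm Cfsg.GolayPt) p = q := by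
  obtain ⟨g, rfl, rfl⟩ := norm_quartet hd hQ
  have e1 : Qt.map (MulAut.conj g).toMonoidHom = stabilizer MG (g • dod0) ⊓ stabilizer MG (g • quart0) := by
    simp only [map_conj_inf, map_conj_stabilizer]
  have h1 := (Nat.card_congr (conjEquiv g e1).toEquiv).symm.trans card_Qt.2
  obtain ⟨ψ, h2⟩ := std
  have h4 := card_mul_card_ker h2
  rw [card_Qt.2, Classical.card_GL_fin, Nat.card_zmod] at h4
  obtain ⟨N, hN, h5, -, h6⟩ := quot_congr (conjEquiv g e1) h2
  refine ⟨h1, ⟨N, hN, h5.trans (Nat.eq_of_mul_eq_mul_left (by norm_num : 0 < 48) h4), h6⟩, fun p hp q hq => ?_⟩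
  obtain ⟨p, hp', rfl⟩ := Finset.mem_smul_finset.1 hp
  obtain ⟨q, hq', rfl⟩ := Finset.mem_smul_finset.1 hq
  obtain ⟨k, hk, rfl⟩ := Keyed.trans_of_count (C := kPt) codes_Qt (kPt_P (i := 0) (by norm_num)) (fun a => a) 30
    (U := (dod0 : Set GolayPt)) (Set.toFinite _) (by decide +kernel) (fun g hg => inv_stab g hg.1)
    (by rw [ncard_dod0]; decide +kernel) hp' hq'
  exact ⟨_, e1 ▸ ⟨k, hk, rfl⟩, conj_smul' g k p⟩

end Cfsg.Agent.S1598
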