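import Cfsg.Statements.S1600
import Cfsg.Agent.Golay.Fix

set_option autoImplicit false
open scoped Pointwise
open Cfsg

namespace Cfsg.Agent.S1600

/-- The pointwise stabiliser of three points of a dodecad inside the dodecad stabiliser (order 72) is transitive on the complementary dodecad. -/
theorem result (d : Finset Cfsg.GolayPt) (hd : d ∈ Cfsg.dodecads) (p q r : Cfsg.GolayPt) (hp : p ∈ d) (hq : q ∈ d) (hr : r ∈ d) (hpq : p ≠ q) (hpr : p ≠ r) (hqr : q ≠ r) : Nat.card ↥(MulAction.stabilizer Cfsg.M24 d ⊓ MulAction.stabilizer Cfsg.M24 p ⊓ MulAction.stabilizer Cfsg.M24 q ⊓ MulAction.stabilizer Cfsg.M24 r) = 72 ∧ ∀ x ∉ d, ∀ y ∉ d, ∃ g ∈ (MulAction.stabilizer Cfsg.M24 d ⊓ MulAction.stabilizer Cfsg.M24 p ⊓ MulAction.stabilizer Cfsg.M24 q ⊓ MulAction.stabilizer Cfsg.M24 r), ((g : ↥Cfsg.M24) : Equiv.Perm Cfsg.GolayPt) x = y := by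
  obtain ⟨g, rfl, rfl, rfl, rfl⟩ := Golay.norm_dod_in3 hd hp hq hr hpq hpr hqr
  simp only [← Comp.map_conj_stabilizer, ← Comp.map_conj_inf]
  rw [Subgroup.card_map_of_injective (MulEquiv.injective _)]
  have hK := (((Golay.codesDod (L := [715872302521680643580706198532491296, 858502712789113075489201924125100064])
    (by decide +kernel)).stab Golay.kPt (Golay.kPt_P (i := 0) (by norm_num)) (by decide +kernel)).stab Golay.kPt
    (Golay.kPt_P (i := 1) (by norm_num)) (by decide +kernel)).stab Golay.kPt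
    (Golay.kPt_P (i := 2) (by norm_num)) (by decide +kernel)
  constructor
  · have h1 := (Golay.transDod.mono (j := 3) (by norm_num) (by rw [Golay.ncard_dod0]; norm_num)).card_fixF
      (Set.toFinite _) Golay.inv_stab (T := {some 0, some 1, some 2}) (by decide) (by decide +kernel)
    rw [Golay.card_Dod, Golay.ncard_dod0, show Nat.descFactorial 12 3 = 1320 from rfl] at h1
    have h2 : MulAction.stabilizer M24 Golay.dod0 ⊓ MulAction.stabilizer M24 (some 0 : GolayPt) ⊓
        MulAction.stabilizer M24 (some 1 : GolayPt) ⊓ MulAction.stabilizer M24 (some 2 : GolayPt) =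
        MulAction.stabilizer M24 Golay.dod0 ⊓ Comp.fixF Golay.MG ({some 0, some 1, some 2} : Finset GolayPt) := by
      ext k; simp [Comp.mem_fixF, and_assoc]
    rw [h2]; exact Nat.eq_of_mul_eq_mul_left (by norm_num : 0 < 1320) h1.symm
  · intro x hx y hy
    obtain ⟨x, rfl⟩ := MulAction.surjective g x
    obtain ⟨y, rfl⟩ := MulAction.surjective g y
    rw [Finset.smul_mem_smul_finset_iff, ← Finset.mem_compl, Golay.dod0_compl] at hx hy
    obtain ⟨k, hk, rfl⟩ := (Comp.transOn_of_chainP (E := Golay.EG) (s := 16436384) (k := 1) (B := [23]) 30 hK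
      (fun g hg => Golay.dod0_compl ▸ Golay.inv_stab_compl g hg.1.1.1) (by decide +kernel)).one hx hy
    exact ⟨_, ⟨k, hk, rfl⟩, Comp.conj_smul' g k x⟩

end Cfsg.Agent.S1600
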