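import Cfsg.Statements.S1602
import Cfsg.Agent.Golay.Stab

set_option autoImplicit false
open scoped Pointwise
open Cfsg

namespace Cfsg.Agent.S1602

open Cfsg.Agent.Comp Cfsg.Agent.Golay MulAction
set_option maxRecDepth 100000

/-- In the 12-point action of the smallest Mathieu group the setwise stabiliser of a pair is isomorphic to the symmetric group of degree 5. -/
theorem result (d : Finset Cfsg.GolayPt) (hd : d ∈ Cfsg.dodecads) (p q q' : Cfsg.GolayPt) (hp : p ∈ d) (hq : q ∉ d) (hq' : q' ∉ d) (hqq' : q ≠ q') : Nonempty (↥(MulAction.stabilizer Cfsg.M24 d ⊓ MulAction.stabilizer Cfsg.M24 p ⊓ MulAction.stabilizer Cfsg.M24 ({q, q'} : Finset Cfsg.GolayPt)) ≃* Equiv.Perm (Fin 5)) := by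
  obtain ⟨g, rfl, rfl, rfl, rfl⟩ := norm_dod_in_out2 hd hp hq hq' hqq'
  have e0 : EG.ofMask 8388640 = {none, some 5} := by decide +kernel
  have hL : CodesIn RM [237110930860796887111752653746575648, 233233386906768391987032901617288256,
      228001363311221454468151101670655040, 235375635558829140802991065239306432]
      (stabilizer MG dod0 ⊓ stabilizer MG (EG.dec 0) ⊓ stabilizer MG (EG.ofMask 8388640)) :=
    ((codesDod (by decide +kernel)).stab kPt (kPt_P (by norm_num)) (by decide +kernel)).stab kMask
      (kMask_P (by norm_num)) (by decide +kernel)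
  have h1 : Nat.card ↥(stabilizer MG dod0 ⊓ stabilizer MG (EG.dec 0)) = 7920 :=
    card_inf_stabilizer_of_orbit (a := 12) (by
      rw [(transDod.mono (by norm_num) (by rw [ncard_dod0]; norm_num)).orbit_point inv_stab (by decide +kernel),
        ncard_dod0]) (by norm_num) card_Dod
  have h2 := (orbit_stab_of_le (a := 66) (b := 120) ((nble.1 (by decide +kernel)).trans (Keyed.le_ncard_orbit (C := kSm)
    ((codesDod (L := [446153991452436549536030182367364192, 968593423445340193867027844485483712])
      (by decide +kernel)).stab kPt (kPt_P (by norm_num)) (by decide +kernel)) (kSm_P (s := 8388640) (by decide +kernel)) 100))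
    (le_card_slp hL [1, 2, 4] [[1, 3, 1, 4, 1], [3, 7, 3, 1]] (by decide +kernel)) h1).2
  have h3 := closureM hL [1, 2, 4] [[1, 3, 1, 4, 1], [3, 7, 3, 1]] h2 (by decide +kernel)
  obtain ⟨e⟩ := equiv_perm_of_restr (S := EG.ofMask 274456) (fun g hg => (Keyed.fix_iff_codes hL h3
    (kMask_P (by norm_num))).2 (by decide +kernel) g hg) (faith_of_chainK kPt (fun a => a) 30 [3, 4, 13, 18]
      (pts_mem (by decide +kernel)) hL h2 (by decide +kernel)) (n := 5) (by rw [card_ofMask24]; decide +kernel) h2
  refine ⟨(conjEquiv g ?_).symm.trans e⟩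
  rw [map_conj_inf, map_conj_inf, map_conj_stabilizer, map_conj_stabilizer, map_conj_stabilizer, e0,
    Finset.smul_finset_insert, Finset.smul_finset_singleton]; rfl

end Cfsg.Agent.S1602
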