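import Cfsg.Statements.S1604
import Cfsg.Agent.Golay.Rank

set_option autoImplicit false
open scoped Pointwise
open Cfsg

namespace Cfsg.Agent.S1604

/-- A hexad stabiliser in the two-point stabiliser has orbits of sizes 1, 16, 60 on the 77 hexads: the 16 hexads disjoint from it and the 60 meeting it in two points. -/
theorem result (p q : Cfsg.GolayPt) (hpq : p ≠ q) (o o' o'' : Finset Cfsg.GolayPt) (ho : o ∈ Cfsg.octads) (ho' : o' ∈ Cfsg.octads) (ho'' : o'' ∈ Cfsg.octads) (hp : p ∈ o ∧ p ∈ o' ∧ p ∈ o'') (hq : q ∈ o ∧ q ∈ o' ∧ q ∈ o'') (h : (o ∩ o').card = (o ∩ o'').card) : {x : Finset Cfsg.GolayPt | x ∈ Cfsg.octads ∧ p ∈ x ∧ q ∈ x ∧ (o ∩ x).card = 2}.ncard = 16 ∧ {x : Finset Cfsg.GolayPt | x ∈ Cfsg.octads ∧ p ∈ x ∧ q ∈ x ∧ (o ∩ x).card = 4}.ncard = 60 ∧ ∃ g : Equiv.Perm Cfsg.GolayPt, g ∈ Cfsg.M24 ∧ g p = p ∧ g q = q ∧ g • o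 = o ∧ g • o' = o'' := by
  have h1 := Golay.rank_oo_in2 ho hp.1 hq.1 hpq
  obtain ⟨g, hg, e⟩ := h1.2.2 _ ho' _ ho'' ⟨hp.2.1, hq.2.1⟩ ⟨hp.2.2, hq.2.2⟩ h
  refine ⟨?_, ?_, g, g.2, hg.1.2, hg.2, hg.1.1, e⟩
  · simpa only [and_assoc] using h1.cnt 2 16
  · simpa only [and_assoc] using h1.cnt 4 60

end Cfsg.Agent.S1604
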