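import Cfsg.Statements.S1605
import Cfsg.Agent.Golay.Rank

set_option autoImplicit false
open scoped Pointwise
open Cfsg

namespace Cfsg.Agent.S1605

/-- The two-point stabiliser acts on the 176 octads through the first point avoiding the second with rank 3 and subdegrees 1, 70, 105 (intersections 8, 2, 4). -/
theorem result (p q : Cfsg.GolayPt) (hpq : p ≠ q) : {x : Finset Cfsg.GolayPt | (x ∈ Cfsg.octads ∧ p ∈ x ∧ q ∉ x)}.ncard = 176 ∧ (∀ o o' : Finset Cfsg.GolayPt, (o ∈ Cfsg.octads ∧ p ∈ o ∧ q ∉ o) → (o' ∈ Cfsg.octads ∧ p ∈ o' ∧ q ∉ o') → ∃ g : Equiv.Perm Cfsg.GolayPt, g ∈ Cfsg.M24 ∧ g p = p ∧ g q = q ∧ g • o = o') ∧ ∀ o : Finset Cfsg.GolayPt, (o ∈ Cfsg.octads ∧ p ∈ o ∧ q ∉ o) → {x : Finset Cfsg.GolayPt | (x ∈ Cfsg.octads ∧ p ∈ x ∧ q ∉ x) ∧ (o ∩ x).card = 2}.ncard = 70 ∧ {x : Finset Cfsg.GolayPt | (x ∈ Cfsg.octads ∧ p ∈ x ∧ q ∉ x) ∧ (o ∩ x).card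 = 4}.ncard = 105 ∧ ∀ o' o'' : Finset Cfsg.GolayPt, (o' ∈ Cfsg.octads ∧ p ∈ o' ∧ q ∉ o') → (o'' ∈ Cfsg.octads ∧ p ∈ o'' ∧ q ∉ o'') → (o ∩ o').card = (o ∩ o'').card → ∃ g : Equiv.Perm Cfsg.GolayPt, g ∈ Cfsg.M24 ∧ g p = p ∧ g q = q ∧ g • o = o ∧ g • o' = o'' := by
  refine ⟨?_, fun o o' ho ho' => ?_, fun o ho => ?_⟩
  · obtain ⟨g, rfl, rfl⟩ := Golay.norm_pair hpq (a := none) (b := some 0) (by simp)
    rw [Comp.ncard_smul_congr g (p := fun x => x ∈ octads ∧ none ∈ x ∧ some 0 ∉ x)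
      (fun x => by simp only [Golay.smul_mem_octads_iff, Finset.smul_mem_smul_finset_iff]),
      Golay.ncard_octads (pb := fun s => Comp.band (Comp.tb s 23) (not (Comp.tb s 0))) fun s _ _ => by
        simp only [Comp.Enc.mem_ofMask, Comp.band_eq, Comp.tb_eq, Bool.and_eq_true, Bool.not_eq_true',
          Bool.not_eq_true]; rfl]
    decide +kernel
  · obtain ⟨g, e1, e2, e3⟩ := Golay.norm_oct_in_out ho.1 ho.2.1 ho.2.2
    obtain ⟨g', e1', e2', e3'⟩ := Golay.norm_oct_in_out ho'.1 ho'.2.1 ho'.2.2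
    refine ⟨(g' * g⁻¹ : Golay.MG), (g' * g⁻¹).2, ?_, ?_, ?_⟩
    · show (g' * g⁻¹) • p = p
      rw [mul_smul, inv_smul_eq_iff.2 e2.symm, e2']
    · show (g' * g⁻¹) • q = q
      rw [mul_smul, inv_smul_eq_iff.2 e3.symm, e3']
    · show (g' * g⁻¹) • o = o'
      rw [mul_smul, inv_smul_eq_iff.2 e1.symm, e1']
  · have h1 := Golay.rank_oo_in_out ho.1 ho.2.1 ho.2.2
    refine ⟨by simpa only [and_assoc] using h1.cnt 2 70, by simpa only [and_assoc] using h1.cnt 4 105,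
      fun o' o'' ho' ho'' h => ?_⟩
    obtain ⟨g, hg, e⟩ := h1.2.2 _ ho'.1 _ ho''.1 ho'.2 ho''.2 h
    exact ⟨g, g.2, hg.1.2, hg.2, hg.1.1, e⟩

end Cfsg.Agent.S1605
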