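import Cfsg.Statements.S1606
import Cfsg.Agent.Perm.M24Loc

set_option autoImplicit false
open scoped Pointwise
open Cfsg

namespace Cfsg.Agent.S1606

open Cfsg.Agent.Comp Cfsg.Agent.Golay Cfsg.Agent.M24Loc MulAction Finset
set_option maxRecDepth 100000

def cy : ℕ := 599248516419658448805623183071807861
noncomputable def y : MG := elt cy (by decide +kernel)
theorem rep_y : CM cy y := ⟨elt_rep _ _, by decide +kernel⟩
theorem order_y : orderOf y = 11 := orderOf_prime_CM rep_y (by norm_num) (by decide +kernel)
theorem y_mem : y ∈ K22 := by
  obtain ⟨g, hg, h⟩ := codesK (L := [cy]) (by decide +kernel) _ List.mem_cons_self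
  exact funcRM h rep_y.1 ▸ hg
def kc : List ℕ := [984818244535754528103549039458486304, 956709441910203461498593497208492130, 978766510459594708251448298497017958, 977059494797744618720859592818074242, 975689143262737985128774114714130130, 979204910761357057382074758315772065, 113072304910174064711471962407945633, 808879380133559761554103547263522240, 167088244069291916768583564659951920, 982785441175144644623093477960357065, 968623797688358402946156788819430064, 983378190884730729338760096121492550, 789843193048427110849681320329644206, 249778175476785849333719076037773494, 113673423800671061928254259305066912, 52215063698481331914244860286478498, 973040563192425279112847341541987894, 105821657413941950363842279713936887, 134493507666755847546379593241397911, 978775966677537358373420796278382677, 970254936794737492590683121544926794, 186951897675884339397585607918326857, 59995542301413829439286294046181906, 980169479683305626441565827736185924, 807421351206888612215024862890230853, 469913658646850837876840100417576076, 113801123087253171571863296864311779, 666647435935787458647496440068488812, 113110183183305738508388286018867621, 605778547530044994874061158138226755,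 96633015915128611084217066154285537, 681620255297623525459534786390886561, 668514147227997575217808036514285730, 640207151105895293203122573314305280, 484820196880406123128028510233363975, 175897589308076604904741659966358851, 185759232815498486861487834179649696, 807769432717899539383720217025260805, 508847017816657288045286893283609829, 99981594091311168001430576132445388, 153892361470778112340171540844854738, 333054531073968189269247520528242352, 25604336210336260955646628083587661, 798336461019304558466823212733961288, 262240451129564661945317670309598786, 229413448743001872920801098650273096, 103503065621734518507185276782392709, 17778286748900584088373432342420009, 305220397583406944033910431699061942, 84798457269271304245737100502537935, 748189783740545347436988147642403473, 789861074950935027141098047687657931, 803995450425088155034233320725812770, 434912804169757570062153626510444628, 232017307063430277852787373128061638, 556293548940223820528567648784819202, 221529017583527632143749711320004673, 675792387765492410779755411355938533, 474171179535871996585056354250070050, 724498577742298229884154654744906946, 816093230393973958145004161907014818, 778411478290294179901531357716743328,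 16923713921568352067476305729590988, 476408751158990503913862623030059043, 969849106431947499523991351636186729, 109039823221894801698716862220153043, 189827443252169041660930943365715021, 625032131184195177541257144619403948, 566289413610957355755196050555118754, 274855064688897680089481641860338695, 50885418488536401154320674450641992, 212013363417727185895173114807300358, 519287073603665209490595545705817156, 550044301240112875625703381923074454, 317518048124726335562303689319548002, 807837644192354895423305028127265794, 874313496831286749182260556871434404]
def l55 : List ℕ := [972512676110088067912772961567868960, 963710585106674419477605174187493934, 984249108779896281144960546398145037, 967942763556895357388399563652794407, 309805698866000222885578913495517222, 860206389059481819273539237976803726, 973856099564319189313876597091567667, 980907660773371473550124337591552352, 11943302717949000103320032424527927, 610875340605372219672049490663573901, 303240615598215008645013193080801312, 984331247589621152947134638868269638, 983560259137594668109442192272099886, 974408042772794660924985462808185364, 982143580959839541375715978836707366, 797611758001989585670065242266667565,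 981940260449521198767676458684353088, 890139944043162234061325387155212327, 278340935682552000979699299531196992, 291322082369317050851499833457510966, 582414840654413329171193537198426390, 901796867490434178176505909863352852, 983958774452431346275486523314276405, 565501094882288692942129088064391494, 858949157025769800208707041033259328, 891437511675617765571846841445976096, 943969269802639344942968630796192009, 374714274160400126931552404198951190, 277391882721106919681832544493471881, 548664554551502171503149751887563251, 610933098178650810155900481226967136, 843331947641308693096609621964523917, 398818985031982012145734829115541774, 798681652028155888263742372621682836, 9963281037341694182915160421828983, 859719384686238766740346390067578995, 943726070291573159276498608894380533, 568800668078968500014834422450850196, 383728832386889228211171332867852768, 817799090715500668104951511437019189, 881036755568134325735098045427714400, 956220798462706250605517342602692758, 26841533525534135245095896892344375, 598785669175412008224025390797064288, 275504350974494743650036924912470048, 965307834141142729584130318967212169, 980054529948870119672470084203579765,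 320186243263171598317862511731870217, 568175758383389583909650431610030400, 818656010887757285719428201547630624, 29151410008423665672372674252769879, 944252184679247214404814231310534983, 402979292986249857621189875996854375, 266974827660545427907789023298553907, 944570327561881303064555318542436832]
def w7 : List (List ℕ) := [[599248516419658448805623183071807861], [261713371957490617258601541708122516, 540575278572172456451700613709957687, 25202452560160853584370376255998294], [599248516419658448805623183071807861, 849225327429003655834594624033753609, 540575278572172456451700613709957687], [599248516419658448805623183071807861, 902535551388691547785808552639400429, 317639371752419931284755761609640198], [261713371957490617258601541708122516, 540575278572172456451700613709957687, 923881761208532509380721187379087507], [599248516419658448805623183071807861, 540575278572172456451700613709957687, 902535551388691547785808552639400429]]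
def w5 : List (List ℕ) := [[599248516419658448805623183071807861], [261713371957490617258601541708122516], [923881761208532509380721187379087507]]
def ev (b c : ℕ) (w : List ℕ) : ℕ := List.rec (motive := fun _ => ℕ) b (fun u _ ih => mul24 (mul24 c u) ih) w
theorem ev_nil (b c : ℕ) : ev b c [] = b := rfl
theorem ev_cons (b c u : ℕ) (w : List ℕ) : ev b c (u :: w) = mul24 (mul24 c u) (ev b c w) := rfl
def wordP (ws : List (List ℕ)) (p c : ℕ) : Bool := anyL ws fun w => force (ev one24 c w) fun a => orderC mul24 one24 a p [p]
def okW (ws : List (List ℕ)) : Bool := allL ws fun w => allL w fun u => anyLt 11 fun k => Nat.beq u (powC mul24 one24 cy k)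

theorem dvd_of_word {H : Subgroup MG} (hy : y ∈ H) {ws : List (List ℕ)} (hw : okW ws = true) {p c : ℕ} (hp : p.Prime)
    {t : MG} (ht : t ∈ H) (hc : RM c t) (h : wordP ws p c = true) : p ∣ Nat.card H := by
  obtain ⟨w, hm, h⟩ := anyL_iff.1 h
  have h1 := allL_iff.1 (allL_iff.1 hw w hm)
  have : ∃ g ∈ H, CM (ev one24 c w) g := by
    clear h hm
    induction w with
    | nil => rw [ev_nil]; exact ⟨1, H.one_mem, grpCM.one⟩
    | cons u w ih =>
      obtain ⟨g, hg, e⟩ := ih fun a ha => h1 a (List.mem_cons_of_mem _ ha)
      obtain ⟨k, -, hk⟩ := anyLt_iff.1 (h1 u List.mem_cons_self)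
      have h2 := grpM.pow rep_y.1 k
      rw [← nbeq.1 hk] at h2
      rw [ev_cons]
      exact ⟨_, H.mul_mem (H.mul_mem ht (H.pow_mem hy k)) hg, PRep.mul_canon par24 (grpM.mul hc h2) e.1⟩
  obtain ⟨g, hg, e⟩ := this
  rw [force_eq] at h
  exact orderOf_prime_CM e hp h ▸ H.orderOf_dvd_natCard hg

theorem chk : allL kc (fun k => allL lE16 fun e => force (conjC mul24 inv24 k (mul24 one24 e)) fun c =>
    bor (Nat.beq c one24) (bor (memL c l55) (wordP w7 7 c))) = true := by decide +kernel

theorem invol {t : MG} (ht : t ∈ K22) (h2 : orderOf t = 2) : ∃ c, RM c t ∧ (c ∈ l55 ∨ wordP w7 7 c = true) := by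
  obtain ⟨g, e⟩ := conj_zA h2 (Finset.ne_empty_of_mem (mem_fixS.2 ht.1))
  have ho : fixS t ∈ octads := by rw [← e, fixS_conj, fixS_zA]; exact inv_octads _ _ oct0_mem
  have h1 : {o | o ∈ octads ∧ (EG.dec 2 ∈ o ∧ EG.dec 5 ∈ o ∧ ¬ ∃ k ∈ kc, EG.ofMask (img24 k cO0) = o)}.ncard = 0 :=
    (ncard_octads (pb := fun s => band (tb s 2) (band (tb s 5) (not (anyL kc fun k => Nat.beq (img24 k cO0) s))))
      fun s hs _ => by
        rw [EG.dec_mem_ofMask (by norm_num), EG.dec_mem_ofMask (by norm_num)]
        simp only [band_eq, Bool.and_eq_true, tb_eq, Bool.not_eq_true', ← Bool.not_eq_true, anyL_iff, nbeq]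
        refine and_congr_right fun _ => and_congr_right fun _ => not_congr (exists_congr fun k =>
          and_congr_right fun hk => ⟨EG.ofMask_inj (let ⟨_, _, h⟩ := codesM (L := kc) (by decide +kernel) k hk; h.imgP_lt _)
            (isG_lt hs), fun e => e ▸ rfl⟩)).trans
      (by decide +kernel)
  rw [Set.ncard_eq_zero, Set.eq_empty_iff_forall_notMem] at h1
  obtain ⟨k, hk, e1⟩ := by_contra fun h => h1 (fixS t) ⟨ho, mem_fixS.2 ht.1, mem_fixS.2 ht.2, h⟩
  obtain ⟨κ, -, hκ⟩ := codesM (L := kc) (by decide +kernel) k hk
  have h3 : κ⁻¹ * t * κ⁻¹⁻¹ ∈ fixF MG oct0 := by
    have := conj_mem_fixF κ⁻¹ (S := fixS t) (k := t) fun a ha => mem_fixS.1 ha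
    rwa [← e1, ← hκ.smul_ofMask, inv_smul_smul] at this
  obtain ⟨c, hc, h4⟩ := forall_E16 (f := fun e => force (conjC mul24 inv24 k e) fun c =>
    bor (Nat.beq c one24) (bor (memL c l55) (wordP w7 7 c))) (allL_iff.1 chk k hk) _ h3
  have h5 : RM (conjC mul24 inv24 k c) t := by simpa [mul_assoc] using grpM.conj hκ hc
  simp only [force_eq, bor_eq, Bool.or_eq_true, nbeq, memL_iff] at h4
  refine ⟨_, h5, h4.resolve_left fun e => ?_⟩
  rw [e] at h5
  rw [funcRM h5 grpM.one, orderOf_one] at h2
  omega

theorem no {H : Subgroup MG} (hK : H ≤ K22) (hy : y ∈ H) (h : Nat.card H = 7920 ∨ Nat.card H = 2112) : False := by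
  have h7 : ¬ 7 ∣ Nat.card H := by omega
  have h1 : ∀ t ∈ H, orderOf t = 2 → ∃ c ∈ l55, RM c t := fun t ht h2 =>
    let ⟨c, hc, e⟩ := invol (hK ht) h2
    ⟨c, e.resolve_right fun e => h7 (dvd_of_word hy (by decide +kernel) (by norm_num) ht hc e), hc⟩
  obtain ⟨⟨t, ht⟩, h2⟩ := exists_prime_orderOf_dvd_card' (G := H) 2 (by omega)
  rw [Subgroup.orderOf_mk] at h2
  rcases h with h | h
  · have h3 := ncard_le_length_of_func (l := l55) funcRM (S := (orbit H (toCj t) : Set (Cj MG))) (by
      rintro _ ⟨s, rfl⟩
      exact h1 (s * t * s⁻¹) (H.mul_mem (H.mul_mem s.2 ht) (H.inv_mem s.2))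
        ((orderOf_injective (MulAut.conj (s : MG)).toMonoidHom (MulEquiv.injective _) t).trans h2))
    have h4 := card_eq_ncard_orbit_mul H (toCj t)
    rw [stabilizer_toCj] at h4
    obtain ⟨g, e⟩ := conj_zA h2 (Finset.ne_empty_of_mem (mem_fixS.2 (hK ht).1))
    have h5 := Subgroup.card_dvd_of_le (inf_le_right : H ⊓ Subgroup.centralizer {t} ≤ _)
    have h6 := Subgroup.card_dvd_of_le (inf_le_left : H ⊓ Subgroup.centralizer {t} ≤ _)
    have h8 : Nat.card (Subgroup.centralizer {t}) = 21504 := by rw [← e, card_centralizer_conj, card_CA]
    rw [h8] at h5; rw [h] at h6 h4
    have h9 := Nat.le_of_dvd (by norm_num) (Nat.dvd_gcd h5 h6)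
    have h10 := Nat.mul_le_mul h3 h9
    rw [show l55.length * Nat.gcd 21504 7920 = 2640 by decide +kernel] at h10
    exact absurd (h4.le.trans h10) (by norm_num)
  · obtain ⟨c, hc, e⟩ := h1 t ht h2
    have := dvd_of_word hy (ws := w5) (by decide +kernel) Nat.prime_five ht e
      (allL_iff.1 (by decide +kernel : allL l55 (wordP w5 5) = true) c hc)
    omega

theorem no' {H : Subgroup MG} (hK : H ≤ K22) (h : Nat.card H = 7920 ∨ Nat.card H = 2112) : False := by
  have : Fact (Nat.Prime 11) := ⟨by norm_num⟩
  obtain ⟨⟨x, hx⟩, h2⟩ := exists_prime_orderOf_dvd_card' (G := H) 11 (by omega)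
  rw [Subgroup.orderOf_mk] at h2
  obtain ⟨g, hg, e⟩ := exists_conj_mem_sylow (P := Subgroup.zpowers y) (k := 1) (j := 1) this.out
    (Subgroup.zpowers_le.2 y_mem) (by rw [Nat.card_zpowers, order_y]; rfl) card_K22 (by norm_num) (hK hx)
    (by rw [pow_one, ← h2, pow_orderOf_eq_one])
  have h3 := zpowers_eq_of_prime (order_y ▸ this.out) e fun e => by
    rw [conj_eq_one_iff.1 e, orderOf_one] at h2; omega
  refine no (H := H.map (MulAut.conj g).toMonoidHom) (map_conj_self hg ▸ Subgroup.map_mono hK) ?_
    (by rwa [card_map_conj])
  exact Subgroup.zpowers_le.2 (⟨x, hx, rfl⟩ : g * x * g⁻¹ ∈ H.map (MulAut.conj g).toMonoidHom)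
    (h3 ▸ Subgroup.mem_zpowers y)

/-- The stabiliser of two points in the group of the length-24 code has no subgroups of index 56 or 210. -/
theorem result (p q : Cfsg.GolayPt) (hpq : p ≠ q) (H : Subgroup ↥(MulAction.stabilizer Cfsg.M24 p ⊓ MulAction.stabilizer Cfsg.M24 q)) : H.index ≠ 56 ∧ H.index ≠ 210 := by
  obtain ⟨e1⟩ := equiv22 hpq
  obtain ⟨e2⟩ := equiv_K22
  have h1 := H.index_mul_card
  rw [(Nat.card_congr e1.toEquiv).trans card_M22] at h1
  have h2 : Nat.card ((H.map (e1.trans e2.symm).toMonoidHom).map K22.subtype) = Nat.card H :=
    (Subgroup.card_subtype _ _).trans (Subgroup.card_map_of_injective (MulEquiv.injective _))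
  have h3 := no' (H := (H.map (e1.trans e2.symm).toMonoidHom).map K22.subtype) (Subgroup.map_subtype_le _)
  rw [h2] at h3
  exact ⟨fun e => h3 (by rw [e] at h1; omega), fun e => h3 (by rw [e] at h1; omega)⟩

end Cfsg.Agent.S1606
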