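import Cfsg.Statements.S1610
import Cfsg.Agent.Perm.Hexa

set_option autoImplicit false
open Cfsg

namespace Cfsg.Agent.S1610

open Perm.Hexa

/-- The hexacode has 64 words, minimum weight 4, and weight distribution 0^1 4^45 6^18. -/
theorem result (F : Type*) [Field F] [Fintype F] [DecidableEq F] (hF : Fintype.card F = 4) (ω : F) (hω : ω ^ 2 + ω + 1 = 0) : Nat.card ↥(Cfsg.hexacode F ω) = 64 ∧ (∀ x ∈ Cfsg.hexacode F ω, x ≠ 0 → (Finset.univ.filter fun i => x i ≠ 0).card = 4 ∨ (Finset.univ.filter fun i => x i ≠ 0).card = 6) ∧ {x : Fin 6 → F | x ∈ Cfsg.hexacode F ω ∧ (Finset.univ.filter fun i => x i ≠ 0).card = 4}.ncard = 45 ∧ {x : Fin 6 → F | x ∈ Cfsg.hexacode F ω ∧ (Finset.univ.filter fun i => x i ≠ 0).card = 6}.ncard = 18 := by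
  have h0 : ∀ t, (Finset.univ.filter fun i => (ph ω ∘ V t) i ≠ 0) = Finset.univ.filter fun i => V t i ≠ 0 :=
    fun t => Finset.filter_congr fun i _ => (ph_eq_zero hF hω).not
  have h : ∀ k : ℕ, {x : Fin 6 → F | x ∈ hexacode F ω ∧ (Finset.univ.filter fun i => x i ≠ 0).card = k}.ncard =
      (Finset.univ.filter fun t => (Finset.univ.filter fun i => V t i ≠ 0).card = k).card := fun k =>
    ncard_V hF hω fun t => by rw [h0]
  refine ⟨?_, fun x hx h1 => ?_, (h 4).trans (by decide +kernel), (h 6).trans (by decide +kernel)⟩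
  · have := ncard_V hF hω (P := fun _ => True) (Q := fun _ => True) fun _ => Iff.rfl
    simp only [and_true] at this
    exact this.trans (by decide +kernel)
  · obtain ⟨t, rfl⟩ := (mem_iff hF hω).1 hx
    have h2 : ∀ t, (∀ i, V t i = 0) ∨ (Finset.univ.filter fun i => V t i ≠ 0).card = 4 ∨
      (Finset.univ.filter fun i => V t i ≠ 0).card = 6 := by decide +kernel
    rw [h0]
    exact (h2 t).resolve_left fun e => h1 (funext fun i => (ph_eq_zero hF hω).2 (e i))

end Cfsg.Agent.S1610
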