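import Cfsg.Statements.S1612
import Cfsg.Agent.Fischer.Rank3
-- import your own Cfsg.Agent.* helpers here

set_option autoImplicit false
open Cfsg

namespace Cfsg.Agent.S1612

/-- In a 3-transposition group (no solvable normal subgroup, perfect derived group), the normaliser of a commuting set of transpositions of maximum size contains a Sylow 2-subgroup and is doubly transitive on the set. -/
theorem result {G : Type*} [Group G] [Finite G] (hsol : ∀ N : Subgroup G, N.Normal → Group.IsSolvable ↥N → N = ⊥) (hperf : ⁅commutator G, commutator G⁆ = commutator G) {D : Set G} (hD : Cfsg.IsThreeTranspositionClass D) {E : Set G} (hE : E ⊆ D) (hc : ∀ a ∈ E, ∀ b ∈ E, Commute a b) (hmax : ∀ E' : Set G, E' ⊆ D → (∀ a ∈ E', ∀ b ∈ E', Commute a b) → E'.ncard ≤ E.ncard) : (∃ P : Sylow 2 G, (P : Subgroup G) ≤ Subgroup.normalizer E) ∧ ∀ a ∈ E, ∀ b ∈ E, ∀ c ∈ E, ∀ d ∈ E, a ≠ b → c ≠ d → ∃ g ∈ Subgroup.normalizer E, g * a * g⁻¹ = c ∧ g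 * b * g⁻¹ = d := by
  open Fischer in
  have hG := TC.group hD
  obtain ⟨hp, hw⟩ := TC.prim_of_fischer hD hsol hperf
  have hn : ∀ g : G, (∀ x ∈ E, g * x * g⁻¹ ∈ E) → g ∈ Subgroup.normalizer E :=
    fun g hg x => (mem_cstab_of_finite hg x).symm
  have key : ∀ (E' : Set G) (S : Subgroup G), E' ⊆ D → E' ⊆ S → IsPGroup 2 S → E'.ncard = E.ncard →
      E' = {x | x ∈ D ∧ x ∈ S} := by
    intro E' S h1 h2 h3 h4
    refine Set.eq_of_subset_of_ncard_le (fun x hx => ⟨h1 hx, h2 hx⟩) ?_ (Set.toFinite _)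
    rw [h4]
    exact hmax _ (fun _ h => h.1) fun a ha b hb =>
      TT.commute_of_mul_mem_two hD.1 ha.1 hb.1 h3 (mul_mem ha.2 hb.2)
  have p2 := isPGroup_closure_of_commute (fun a ha => TT.sq hD.1 (hE ha)) hc
  constructor
  · obtain ⟨P, hP⟩ := p2.exists_le_sylow
    refine ⟨P, fun g hg => hn g fun x hx => ?_⟩
    rw [key E P hE (fun x hx => hP (Subgroup.subset_closure hx)) P.isPGroup' rfl] at hx ⊢
    exact ⟨TG.conj hG g hx.1, mul_mem (mul_mem hg hx.2) (inv_mem hg)⟩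
  · intro a ha b hb c hc' d hd hab hcd
    obtain ⟨g₁, rfl⟩ := TC.exists_conj hD (hE ha) (hE hc')
    obtain ⟨g₂, hg₂, rfl⟩ := prim_trans_D hG hp (hE hc')
      ((TG.conj_mem_Dd hG g₁).2 ⟨hE hb, hab.symm, hc a ha b hb⟩) ⟨hE hd, hcd.symm, hc _ hc' d hd⟩
    have e1 : (g₂ * g₁) * a * (g₂ * g₁)⁻¹ = g₁ * a * g₁⁻¹ := by
      rw [← conj_eq_of_commute (closure_Dd_commute hg₂)]; group
    have e2 : g₂ * (g₁ * b * g₁⁻¹) * g₂⁻¹ = (g₂ * g₁) * b * (g₂ * g₁)⁻¹ := by group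
    rw [← e1] at hc' ⊢
    rw [e2] at hd ⊢
    generalize g₂ * g₁ = g at *
    let C := Subgroup.centralizer ({g * a * g⁻¹, g * b * g⁻¹} : Set G)
    let E' : Set G := (fun x => g * x * g⁻¹) '' E
    have E'D : E' ⊆ D := by rintro _ ⟨x, hx, rfl⟩; exact TG.conj hG g (hE hx)
    have p3 : IsPGroup 2 (Subgroup.closure E') := isPGroup_closure_of_commute
      (fun a ha => TT.sq hD.1 (E'D ha)) (by
        rintro _ ⟨x, hx, rfl⟩ _ ⟨y, hy, rfl⟩
        exact (commute_conj_iff g).2 (hc x hx y hy))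
    have l1 : Subgroup.closure E ≤ C := by
      rw [Subgroup.closure_le]
      rintro x hx _ (rfl | rfl)
      · exact (hc _ hc' x hx).eq
      · exact (hc _ hd x hx).eq
    have l2 : Subgroup.closure E' ≤ C := by
      rw [Subgroup.closure_le]
      rintro _ ⟨x, hx, rfl⟩ _ (rfl | rfl)
      · exact ((commute_conj_iff g).2 (hc a ha x hx)).eq
      · exact ((commute_conj_iff g).2 (hc b hb x hx)).eq
    obtain ⟨S, hS⟩ := (p2.comap_subtype (K := C)).exists_le_sylow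
    obtain ⟨h, hh⟩ := Invol.exists_conj_into_sylow (p3.comap_subtype (K := C)) S
    have hE2 := key E ((S : Subgroup C).map C.subtype) hE
      (fun x hx => ⟨⟨x, l1 (Subgroup.subset_closure hx)⟩, hS (Subgroup.subset_closure hx), rfl⟩)
      (S.isPGroup'.map _) rfl
    refine ⟨h * g, hn _ fun x hx => ?_, ?_, ?_⟩
    · rw [hE2]
      refine ⟨TG.conj hG _ (hE hx), _, hh ⟨g * x * g⁻¹, l2 (Subgroup.subset_closure ⟨x, hx, rfl⟩)⟩
        (Subgroup.subset_closure ⟨x, hx, rfl⟩), ?_⟩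
      simp [mul_assoc]
    · rw [← conj_eq_of_commute (g := (h : G)) (d := g * a * g⁻¹) (h.2 _ (Or.inl rfl)).symm]; group
    · rw [← conj_eq_of_commute (g := (h : G)) (d := g * b * g⁻¹) (h.2 _ (Or.inr rfl)).symm]; group

end Cfsg.Agent.S1612
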