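import Cfsg.Statements.S1614
import Cfsg.Agent.FI.Rows

set_option autoImplicit false
open Cfsg

namespace Cfsg.Agent.S1614

open Cfsg.Agent.FI Cfsg.Agent.Fischer Cfsg.Agent.Geom

/-- If the commuting transpositions of one transposition generate a solvable group, a Fischer 3-transposition group is S5, S6, PSU(4, 2) or PSU(5, 2). -/
theorem result {G : Type*} [Group G] [Finite G] (hsol : ∀ N : Subgroup G, N.Normal → Group.IsSolvable ↥N → N = ⊥) (hperf : ⁅commutator G, commutator G⁆ = commutator G) {D : Set G} (hD : Cfsg.IsThreeTranspositionClass D) (x : G) (hx : x ∈ D) (hs : Group.IsSolvable ↥(Subgroup.closure {y : G | y ∈ D ∧ y ≠ x ∧ Commute x y})) : Nonempty (G ≃* Equiv.Perm (Fin 5)) ∨ Nonempty (G ≃* Equiv.Perm (Fin 6)) ∨ ∃ (F : Type) (_ : Field F) (_ : Fintype F), Fintype.card F = 4 ∧ (Nonempty (G ≃* Cfsg.PSU 4 F 2) ∨ Nonempty (G ≃* Cfsg.PSU 5 F 2)) := by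
  have h := PR.of_fischer hD hsol hperf
  have A : ¬ ∃ y ∈ D, A4 (Dd D y) := fun ⟨y, hy, k⟩ =>
    let ⟨_, hf⟩ := h.kmap_dd hy hx; (k.kmap hf).not_solvable (h.wdd x) hs
  by_cases hw : WTr (Dd D x)
  swap
  · obtain ⟨e, -⟩ := h.caseA hx hw
    exact .inl ⟨e⟩
  by_cases hv : VT (Dd D x)
  · have l := h.loc hx hv hw
    obtain ⟨L, -, k, -⟩ := prim_structure l.tg l.prim l.hw
    haveI : Group.IsSolvable (Subgroup.closure (Dd D x)) := hs
    exact Sig.qs_not_isSolvable k inferInstance |>.elim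
  rcases h.caseB (F := F4) hx hv with k | ⟨n, hn, k⟩
  · by_cases hc : ClawFree D
    swap; · exact absurd ((h.sp_of_not_vt k hx hv).a4 hc) A
    obtain ⟨n, hn, e, he⟩ := h.sym k hc
    rcases (by omega : n = 5 ∨ n = 6 ∨ 7 ≤ n) with rfl | rfl | hn
    · exact .inl ⟨e⟩
    · exact .inr (.inl ⟨e⟩)
    · obtain ⟨y, hy, l⟩ := a4_swap hn
      obtain ⟨f, hf, -⟩ := (KMap.of_equiv h.wt e he).symm
      exact absurd ⟨_, hf.mem hy, l.kmap (hf.dd hy)⟩ A
  · obtain ⟨e, -⟩ := out_u h.tg h.z hn k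
    rcases (by omega : n = 4 ∨ n = 5 ∨ 6 ≤ n) with rfl | rfl | hn
    · exact .inr (.inr ⟨F4, inferInstance, inferInstance, factF4.out, .inl ⟨e⟩⟩)
    · exact .inr (.inr ⟨F4, inferInstance, inferInstance, factF4.out, .inr ⟨e⟩⟩)
    · exact absurd (k.a4 hn) A

end Cfsg.Agent.S1614
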