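import Cfsg.Statements.S1615
import Cfsg.Agent.FI.Rows
import Cfsg.Agent.Solv.Core

set_option autoImplicit false
open Cfsg

namespace Cfsg.Agent.S1615

open Cfsg.Agent.FI Cfsg.Agent.Fischer Cfsg.Agent.Geom

/-- If O(⟨D_x⟩) is not central in ⟨D_x⟩ for some transposition x, the 3-transposition group is the symmetric group of degree 5. -/
theorem result {G : Type*} [Group G] [Finite G] (hsol : ∀ N : Subgroup G, N.Normal → Group.IsSolvable ↥N → N = ⊥) (hperf : ⁅commutator G, commutator G⁆ = commutator G) {D : Set G} (hD : Cfsg.IsThreeTranspositionClass D) (x : G) (hx : x ∈ D) (h : ¬ Cfsg.oddCore ↥(Subgroup.closure {y : G | y ∈ D ∧ y ≠ x ∧ Commute x y}) ≤ Subgroup.center ↥(Subgroup.closure {y : G | y ∈ D ∧ y ≠ x ∧ Commute x y})) : Nonempty (G ≃* Equiv.Perm (Fin 5)) := by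
  have p := PR.of_fischer hD hsol hperf
  obtain ⟨e, -⟩ := p.caseA hx fun hw => h (by
    obtain ⟨f, hf, -⟩ := (kmap_val (p.wdd x)).symm
    have c := p.class_sub hx
    obtain ⟨a, ha⟩ := TC.nonempty c
    refine TC.le_center (Q := pPrimeCore 2 _) c ha fun g hg => ?_
    have := hw.kmap hf a ha _ (mem_Ws_of_odd (TC.group c) (Nat.coprime_two_right.1 (Solv.coprime_card_pPrimeCore 2 _)) ha
      (TG.conj (TC.group c) g ha) (TG.mul_conj_mem (TC.group c) ha hg))
    exact mul_inv_eq_iff_eq_mul.1 this)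
  exact ⟨e⟩

end Cfsg.Agent.S1615
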