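import Cfsg.Statements.S1616
import Cfsg.Agent.FI.Rows

set_option autoImplicit false
open Cfsg

namespace Cfsg.Agent.S1616

open Cfsg.Agent.FI Cfsg.Agent.Fischer Cfsg.Agent.Geom

/-- If O₂(⟨D_x⟩) is not central in ⟨D_x⟩ for some transposition x, the 3-transposition group is some Sp(2n, 2) or PSU(n, 2). -/
theorem result {G : Type*} [Group G] [Finite G] (hsol : ∀ N : Subgroup G, N.Normal → Group.IsSolvable ↥N → N = ⊥) (hperf : ⁅commutator G, commutator G⁆ = commutator G) {D : Set G} (hD : Cfsg.IsThreeTranspositionClass D) (x : G) (hx : x ∈ D) (h : ¬ Cfsg.pCore 2 ↥(Subgroup.closure {y : G | y ∈ D ∧ y ≠ x ∧ Commute x y}) ≤ Subgroup.center ↥(Subgroup.closure {y : G | y ∈ D ∧ y ≠ x ∧ Commute x y})) : (∃ n : ℕ, Nonempty (G ≃* Matrix.symplecticGroup (Fin n) (ZMod 2))) ∨ ∃ (F : Type) (_ : Field F) (_ : Fintype F) (n : ℕ), Fintype.card F = 4 ∧ Nonempty (G ≃* Cfsg.PSU n F 2) := by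
  have p := PR.of_fischer hD hsol hperf
  have hv : ¬ VT (Dd D x) := fun hv => h (by
    obtain ⟨f, hf, -⟩ := (kmap_val (p.wdd x)).symm
    have c := p.class_sub hx
    obtain ⟨a, ha⟩ := TC.nonempty c
    exact TC.pCore_two_le_center c ha (hv.kmap hf a ha))
  rcases p.caseB (F := F4) hx hv with k | ⟨n, hn, k⟩
  · obtain ⟨m, e, -⟩ := out_sp p.tg p.z (p.sp_of_not_vt k hx hv)
    exact .inl ⟨m, ⟨e⟩⟩
  · obtain ⟨e, -⟩ := out_u p.tg p.z hn k
    exact .inr ⟨F4, inferInstance, inferInstance, n, factF4.out, ⟨e⟩⟩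

end Cfsg.Agent.S1616
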