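import Cfsg.Statements.S1620
import Cfsg.Agent.Ico.Eq

set_option autoImplicit false
open Quaternion
open Cfsg

namespace Cfsg.Agent.S1620

/-- The Hall–Janko group is simple and non-abelian. -/
theorem result : IsSimpleGroup Cfsg.Spor.J2 ∧ ∃ a b : Cfsg.Spor.J2, a * b ≠ b * a := by
  have := Ico.simple_J2
  refine ⟨this, by_contra fun h => ?_⟩
  have k := Spor.center_eq_bot_of_card Ico.card_J2 (by decide) (by norm_num)
  push Not at h
  exact bot_ne_top (k.symm.trans (eq_top_iff.2 fun a _ => Subgroup.mem_center_iff.2 fun b => h b a))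

end Cfsg.Agent.S1620
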