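import Cfsg.Statements.S1622
import Cfsg.Agent.Ico.Grp

set_option autoImplicit false
open Quaternion
open Cfsg

namespace Cfsg.Agent.S1622

/-- The reflection group is transitive on its 315 reflections by conjugation. -/
theorem result (f f' : Equiv.Perm ↥Cfsg.Spor.icoLeech) (hf : Cfsg.Spor.IsIcoReflection f) (hf' : Cfsg.Spor.IsIcoReflection f') : ∃ g ∈ Cfsg.Spor.twoJ2, g * f * g⁻¹ = f' := by
  have k : ∀ i < 315, ∃ g ∈ Spor.twoJ2, g * Ico.F 0 * g⁻¹ = Ico.F i := fun i hi => by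
    obtain ⟨a, -, rfl⟩ := Ico.trans hi
    obtain ⟨a, rfl⟩ := QuotientGroup.mk_surjective a
    exact ⟨a, a.2, Ico.φ_conj a (by decide)⟩
  obtain ⟨i, hi, rfl⟩ := Ico.exists_F hf
  obtain ⟨j, hj, rfl⟩ := Ico.exists_F hf'
  obtain ⟨a, ha, e⟩ := k i hi
  obtain ⟨b, hb, e'⟩ := k j hj
  exact ⟨b * a⁻¹, mul_mem hb (inv_mem ha), by rw [← e, ← e']; group⟩

end Cfsg.Agent.S1622
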