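import Cfsg.Statements.S1623
import Cfsg.Agent.Ico.Eq
import Cfsg.Agent.Ico.Cent

set_option autoImplicit false
open Quaternion
open Cfsg

namespace Cfsg.Agent.S1623

theorem aux {K K' A : Type*} [Group K] [Group K'] [Group A] [Finite K] (g : K ≃* K') (π : K →* A)
    (h1 : Function.Surjective π) (h2 : Nat.card π.ker = 32) (h3 : IsExtraspecial 2 π.ker) :
    ∃ (Q : Subgroup K') (_ : Q.Normal), Nat.card Q = 32 ∧ IsExtraspecial 2 Q ∧ Nonempty (K' ⧸ Q ≃* A) :=
  let e : π.ker ≃* (π.comp g.symm.toMonoidHom).ker := (g.subgroupMap _).trans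
    (MulEquiv.subgroupCongr (Subgroup.ext fun _ => Subgroup.mem_map_equiv))
  ⟨_, inferInstance, (Nat.card_congr e.toEquiv).symm.trans h2, PGrp.ES_of_mulEquiv h3 e,
    ⟨QuotientGroup.quotientKerEquivOfSurjective _ (h1.comp g.symm.surjective)⟩⟩

/-- A reflection centraliser in the Hall–Janko group is an extension of an extraspecial group of order 32 by the alternating group of degree 5. -/
theorem result (f : Equiv.Perm ↥Cfsg.Spor.icoLeech) (hf : Cfsg.Spor.IsIcoReflection f) (hfm : f ∈ Cfsg.Spor.twoJ2) : ∃ (Q : Subgroup ↥(Subgroup.centralizer {(QuotientGroup.mk ⟨f, hfm⟩ : Cfsg.Spor.J2)})) (_ : Q.Normal), Nat.card Q = 32 ∧ Cfsg.IsExtraspecial 2 Q ∧ Nonempty (↥(Subgroup.centralizer {(QuotientGroup.mk ⟨f, hfm⟩ : Cfsg.Spor.J2)}) ⧸ Q ≃* alternatingGroup (Fin 5)) := by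
  obtain ⟨j, hj, rfl⟩ := Ico.exists_F hf
  obtain ⟨a, -, rfl⟩ := Ico.trans hj
  obtain ⟨e, he⟩ := Ico.exists_equiv
  obtain ⟨π, h1, h2, h3⟩ := Ico.T.cent
  obtain ⟨f⟩ := Spor.centralizer_equiv (isConj_iff.2 ⟨a, Ico.r_conj a (i := 0) (by decide)⟩)
  have k : (Subgroup.centralizer {Ico.T.z}).map e.toMonoidHom = Subgroup.centralizer {Ico.r 0} := Subgroup.ext fun x => by
    rw [Subgroup.mem_map_equiv, Subgroup.mem_centralizer_singleton_iff, Subgroup.mem_centralizer_singleton_iff,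
      ← e.injective.eq_iff, map_mul, map_mul, e.apply_symm_apply, show e Ico.T.z = Ico.r 0 from he 0 (by decide)]
  have := Ico.T.fin
  exact aux ((e.subgroupMap _).trans ((MulEquiv.subgroupCongr k).trans f)) π h1 h2 h3

end Cfsg.Agent.S1623
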