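import Cfsg.Statements.S1624
import Cfsg.Agent.Ico.Eq
import Cfsg.Agent.Ico.U33

set_option autoImplicit false
open Quaternion
open Cfsg

namespace Cfsg.Agent.S1624

/-- The Hall–Janko group contains PSU(3, 3) with index 100 and acts on the 100 cosets with rank 3 and subdegrees 1, 36, 63. -/
theorem result : ∃ H : Subgroup Cfsg.Spor.J2, H.index = 100 ∧ (∃ (F : Type) (_ : Field F) (_ : Fintype F), Fintype.card F = 9 ∧ Nonempty (↥H ≃* Cfsg.PSU 3 F 3)) ∧ ∃ c₁ c₂ : Cfsg.Spor.J2 ⧸ H, (MulAction.orbit ↥H c₁).ncard = 36 ∧ (MulAction.orbit ↥H c₂).ncard = 63 := by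
  obtain ⟨e⟩ := Ico.equiv
  obtain ⟨f⟩ := Ico.U.equiv Known.F9.card
  have hm : ((Spor.MdJ2.H.map e.toMonoidHom).map (Spor.MdJ2.φ.comp e.symm.toMonoidHom)) = Spor.MdJ2.H.map Spor.MdJ2.φ := by
    rw [Subgroup.map_map]; congr 1; ext; simp
  have hs : Spor.IsStab (Spor.MdJ2.φ.comp e.symm.toMonoidHom) (Spor.MdJ2.H.map e.toMonoidHom) 0 := fun a =>
    Subgroup.mem_map_equiv.trans (Spor.MdJ2.stab _)
  have ht : Spor.Trans (Spor.MdJ2.φ.comp e.symm.toMonoidHom) 100 0 := ⟨by decide, fun i hi =>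
    let ⟨a, h⟩ := Spor.MdJ2.trans.2 i hi; ⟨e a, by simpa using h⟩⟩
  obtain ⟨c, -, hc⟩ := hs.exists_orbit ht (hm ▸ Spor.MdJ2.orb0) (by decide)
  obtain ⟨d, -, hd⟩ := hs.exists_orbit ht (hm ▸ Spor.MdJ2.orb1) (by decide)
  exact ⟨_, (Subgroup.index_map_equiv _ e).trans Spor.MdJ2.index,
    ⟨_, _, _, Known.F9.card, ⟨(e.subgroupMap _).symm.trans f.symm⟩⟩, c, d, hc, hd⟩

end Cfsg.Agent.S1624
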