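import Cfsg.Statements.S1626
import Cfsg.Agent.Spor.EqJ3
import Cfsg.Agent.Spor.Orb

set_option autoImplicit false
set_option maxRecDepth 100000
set_option exponentiation.threshold 300000
open scoped MatrixGroups
open Matrix
open Cfsg

namespace Cfsg.Agent.S1626

open Cfsg.Agent.Spor Cfsg.Agent.Spor.EqJ3

/-- The bit planes of `[0, 2 ^ 18)`. -/
noncomputable def P (p : ℕ) : ℕ := pl 262144 18 p

theorem P_bit {p a : ℕ} (hp : p < 18) (ha : a < 262144) : (P p).testBit a = a.testBit p :=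
  pl_testBit (by norm_num) hp ha

/-- Networks of transvections and transpositions of bits. -/
noncomputable def mk (l : List (ℕ × ℕ × ℕ)) : Net :=
  List.rec Net.nil (fun o _ r => iteB (Nat.beq o.1 0)
    (Net.cons (Nat.shiftLeft 1 o.2.1) (Nat.xor (P o.2.2) (Nat.land (P o.2.2) (P o.2.1))) r)
    (Net.cons (Nat.sub (Nat.shiftLeft 1 o.2.2) (Nat.shiftLeft 1 o.2.1))
      (Nat.xor (P o.2.1) (Nat.land (P o.2.2) (P o.2.1))) r)) l

noncomputable def nets : List Net := [mk [(1, 16, 17), (1, 14, 15), (1, 12, 13), (1, 10, 11), (1, 8, 9), (1, 6, 7), (1, 4, 5), (1, 0, 1), (0, 16, 17), (0, 15, 14), (0, 12, 13), (0, 10, 11), (0, 9, 8), (0, 6, 7), (0, 5, 4), (0, 1, 0)],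
  mk [(1, 16, 17), (1, 15, 16), (1, 14, 17), (1, 13, 15), (1, 12, 14), (1, 10, 11), (1, 9, 10), (1, 8, 11), (1, 7, 9), (1, 6, 8), (1, 3, 5), (1, 2, 4), (1, 1, 3), (1, 0, 2), (0, 17, 16), (0, 10, 11)],
  mk [(1, 16, 17), (1, 14, 15), (1, 11, 16), (1, 10, 17), (1, 9, 14), (1, 8, 15), (1, 7, 13), (1, 6, 12), (1, 5, 11), (1, 4, 10), (1, 3, 9), (1, 2, 8), (1, 1, 7), (1, 0, 6), (0, 16, 17), (0, 15, 14)],
  mk [(1, 15, 17), (1, 14, 16), (1, 13, 17), (1, 12, 16), (1, 11, 13), (1, 10, 12), (1, 9, 11), (1, 8, 10), (1, 7, 9), (1, 6, 8), (1, 5, 11), (1, 4, 10), (1, 3, 15), (1, 2, 14)],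
  mk [(1, 11, 17), (1, 10, 16), (1, 3, 13), (1, 2, 4), (0, 14, 10), (0, 8, 10), (0, 6, 12), (0, 4, 12), (0, 10, 16), (0, 8, 16), (0, 15, 11), (0, 9, 11), (0, 11, 17), (0, 9, 17), (0, 17, 15), (0, 9, 15), (0, 12, 2), (0, 6, 2), (0, 7, 13), (0, 3, 13), (0, 16, 14), (0, 8, 14), (0, 15, 9), (0, 11, 9), (0, 5, 7), (0, 3, 7), (0, 13, 3), (0, 7, 3), (0, 14, 8), (0, 10, 8), (0, 12, 4), (0, 2, 4), (0, 12, 6), (0, 4, 6), (0, 7, 5), (0, 3, 5)]]

set_option maxHeartbeats 2000000 in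
theorem hok : netsOk 262144 nets = true := by decide +kernel

/-- Decoding. -/
def dec (a : ℕ) : Cfsg.Spor.F9 → F4 := fun z => ⟨a.testBit (2 * eI z), a.testBit (2 * eI z + 1)⟩

/-- A pair of bitsets is a function to `F4`. -/
def val (Q : ℕ × ℕ) (a : ℕ) : F4 := ⟨Q.1.testBit a, Q.2.testBit a⟩

noncomputable def mulC (c : F4) (A B : ℕ) : ℕ × ℕ :=
  (Nat.xor (iteB c.a A 0) (iteB c.b B 0), Nat.xor (Nat.xor (iteB c.a B 0) (iteB c.b A 0)) (iteB c.b B 0))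

theorem val_mulC (c : F4) (A B a : ℕ) : val (mulC c A B) a = c * val (A, B) a := by
  have e : ∀ x y : ℕ, Nat.xor x y = x ^^^ y := fun _ _ => rfl
  obtain ⟨_ | _, _ | _⟩ := c <;>
    simp only [val, mulC, e, iteB_true, iteB_false, Nat.testBit_xor, Nat.zero_testBit] <;>
    cases A.testBit a <;> cases B.testBit a <;> rfl

noncomputable def sumL (f : Fin 9 → ℕ × ℕ) (l : List (Fin 9)) : ℕ × ℕ :=
  List.rec (0, 0) (fun j _ r => (Nat.xor (f j).1 r.1, Nat.xor (f j).2 r.2)) l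

theorem val_sumL (f : Fin 9 → ℕ × ℕ) (l : List (Fin 9)) (a : ℕ) :
    val (sumL f l) a = (l.map fun j => val (f j) a).sum := by
  induction l with
  | nil => show F4.mk (Nat.testBit 0 a) (Nat.testBit 0 a) = _; rw [Nat.zero_testBit]; rfl
  | cons j l ih =>
    rw [List.map_cons, List.sum_cons, ← ih]
    show F4.mk (((f j).1 ^^^ (sumL f l).1).testBit a) (((f j).2 ^^^ (sumL f l).2).testBit a) = _
    rw [Nat.testBit_xor, Nat.testBit_xor]; rfl

theorem val_sum (f : Fin 9 → ℕ × ℕ) (a : ℕ) :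
    val (sumL f (List.finRange 9)) a = ∑ z : Cfsg.Spor.F9, val (f (eI z)) a := by
  rw [val_sumL, ← Fin.sum_univ_def, ← eI.sum_comp]

theorem val_P {a : ℕ} (ha : a < 262144) (z : Cfsg.Spor.F9) :
    val (P (2 * eI z), P (2 * eI z + 1)) a = dec a z := by
  have := (eI z).2
  rw [val, P_bit (by omega) ha, P_bit (by omega) ha]; rfl

noncomputable def row (M : Matrix Cfsg.Spor.F9 Cfsg.Spor.F9 F4) (i : Fin 9) : ℕ × ℕ :=
  sumL (fun j => mulC (M (eI.symm i) (eI.symm j)) (P (2 * j)) (P (2 * j + 1))) (List.finRange 9)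

theorem val_row (M : Matrix Cfsg.Spor.F9 Cfsg.Spor.F9 F4) (z : Cfsg.Spor.F9) {a : ℕ} (ha : a < 262144) :
    val (row M (eI z)) a = (M *ᵥ dec a) z := by
  rw [row, val_sum]
  simp only [val_mulC, val_P ha, Equiv.symm_apply_apply]
  rfl

/-- The letters. -/
def ix (x : ℕ) : ℕ := [15, 24, 26, 35, 40].getD x 0

set_option maxHeartbeats 2000000 in
theorem hrow : ∀ x < 5, ∀ i : Fin 9, appX nets x (row (dec4 5 eI As (ix x)) i).1 = P (2 * i) ∧
    appX nets x (row (dec4 5 eI As (ix x)) i).2 = P (2 * i + 1) := by decide +kernel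

/-- Matrices acting as permutations of codes. -/
def R : Subgroup (GL Cfsg.Spor.F9 F4 × Equiv.Perm ℕ) where
  carrier := {p | (∀ i, 262144 ≤ i → p.2 i = i) ∧
    ∀ i < 262144, (p.1 : Matrix Cfsg.Spor.F9 Cfsg.Spor.F9 F4) *ᵥ dec i = dec (p.2 i)}
  one_mem' := ⟨fun _ _ => rfl, fun i _ => by simp⟩
  mul_mem' := by
    rintro ⟨g, s⟩ ⟨h, t⟩ ⟨h1, h2⟩ ⟨h3, h4⟩
    refine ⟨fun i hi => ?_, fun i hi => ?_⟩
    · show s (t i) = i
      rw [h3 i hi, h1 i hi]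
    · show ((g * h : GL _ F4) : Matrix _ _ F4) *ᵥ dec i = dec (s (t i))
      rw [Units.val_mul, ← mulVec_mulVec, h4 i hi, h2 _ (perm_lt_of_fix h3 hi)]
  inv_mem' := by
    rintro ⟨g, s⟩ ⟨h1, h2⟩
    have h3 : ∀ i, 262144 ≤ i → s⁻¹ i = i := fun i hi => by
      rw [Equiv.Perm.inv_eq_iff_eq]; exact (h1 i hi).symm
    refine ⟨h3, fun i hi => ?_⟩
    show ((g⁻¹ : GL _ F4) : Matrix _ _ F4) *ᵥ dec i = dec (s⁻¹ i)
    have := h2 _ (perm_lt_of_fix h3 hi)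
    rw [show (g, s).2 (s⁻¹ i) = i by simp] at this
    rw [← this, mulVec_mulVec, ← Units.val_mul, inv_mul_cancel, Units.val_one, one_mulVec]

noncomputable def c (x : ℕ) : GL Cfsg.Spor.F9 F4 × Equiv.Perm ℕ := (b (ix x), PP nets x)

theorem c_mem : genL c (List.range 5) ≤ R := genL_le fun x hx => by
  rw [List.mem_range] at hx
  refine ⟨fun i hi => PP_of_le hok x hi, fun i hi => ?_⟩
  show ((b (ix x) : GL _ F4) : Matrix _ _ F4) *ᵥ dec i = dec (PP nets x i)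
  rw [coe_b (by revert x; decide)]
  funext z
  rw [← val_row _ z hi, ← val_P (PP_lt hok x hi), val, val, ← (hrow x hx (eI z)).1, ← (hrow x hx (eI z)).2,
    appX_testBit hok, appX_testBit hok]

theorem map1 : (genL c (List.range 5)).map (MonoidHom.fst _ _) = Cfsg.Spor.threeJ3 F4 F4.ω := by
  rw [three_eq'.1, three_eq'.2, ← genW_sing, map_genW _ (g' := fun x => b (ix x)) (fun _ => rfl), genW_sing]
  apply le_antisymm
  · exact genL_le fun x hx => mem_genL b (by revert x; decide)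
  · refine genL_le fun x hx => ?_
    have : ∀ x ∈ [15, 24, 26, 35, 40], ∃ y ∈ List.range 5, ix y = x := by decide
    obtain ⟨y, hy, rfl⟩ := this x hx
    exact mem_genL (fun x => b (ix x)) hy

theorem map2 : (genL c (List.range 5)).map (MonoidHom.snd _ _) = genW (PP nets) (sing (List.range 5)) := by
  rw [← genW_sing, map_genW _ (g' := PP nets) (fun _ => rfl)]

theorem dec_inj {a a' : ℕ} (ha : a < 262144) (ha' : a' < 262144) (h : dec a = dec a') : a = a' := by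
  apply Nat.eq_of_testBit_eq
  intro p
  rcases lt_or_ge p 18 with hp | hp
  · have h1 := congrFun h (eI.symm ⟨p / 2, by omega⟩)
    simp only [dec, Equiv.apply_symm_apply, F4.mk.injEq] at h1
    rcases Nat.mod_two_eq_zero_or_one p with h2 | h2
    · have := h1.1; rwa [show 2 * (p / 2) = p by omega] at this
    · have := h1.2; rwa [show 2 * (p / 2) + 1 = p by omega] at this
  · have : 2 ^ 18 ≤ 2 ^ p := Nat.pow_le_pow_right (by norm_num) hp
    rw [Nat.testBit_lt_two_pow (by omega), Nat.testBit_lt_two_pow (by omega)]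

theorem dec_surj (v : Cfsg.Spor.F9 → F4) : ∃ a < 262144, dec a = v := by
  have h : Function.Bijective fun a : Fin 262144 => dec a :=
    (Fintype.bijective_iff_injective_and_card _).2 ⟨fun a a' h => Fin.ext (dec_inj a.2 a'.2 h), by
      rw [Fintype.card_fin, Fintype.card_fun, F4.card, Fintype.card_congr eI, Fintype.card_fin]; norm_num⟩
  obtain ⟨a, ha⟩ := h.2 v
  exact ⟨a, a.2, ha⟩

/-- Orbits of vectors are orbits of codes. -/
theorem orb_iff {a : ℕ} (ha : a < 262144) (v : Cfsg.Spor.F9 → F4) :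
    (∃ g ∈ Cfsg.Spor.threeJ3 F4 F4.ω, (g : Matrix Cfsg.Spor.F9 Cfsg.Spor.F9 F4) *ᵥ dec a = v) ↔
      v ∈ dec '' MulAction.orbit (genW (PP nets) (sing (List.range 5))) a := by
  rw [← map1]
  constructor
  · rintro ⟨_, ⟨p, hp, rfl⟩, rfl⟩
    exact ⟨p.2 a, ⟨⟨p.2, map2 ▸ ⟨p, hp, rfl⟩⟩, rfl⟩, ((c_mem hp).2 a ha).symm⟩
  · rintro ⟨_, ⟨⟨s, hs⟩, rfl⟩, rfl⟩
    rw [← map2] at hs
    obtain ⟨p, hp, rfl⟩ := hs
    exact ⟨p.1, ⟨p, hp, rfl⟩, (c_mem hp).2 a ha⟩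

noncomputable def O1 : ℕ := orbRun nets (sing (List.range 5)) [0, 1, 2, 3, 0, 1, 4, 1, 2, 3, 0, 1, 3, 2, 4, 1, 2, 3, 0, 1, 3, 2, 4, 0, 2, 0] (Nat.shiftLeft 1 1)

set_option maxHeartbeats 2000000 in
theorem hO1 : (andB (chkClosed nets (sing (List.range 5)) O1) (andB (chkPop 18 O1 69768) (O1.testBit 1))) = true := by
  decide +kernel

theorem orb1 : MulAction.orbit (genW (PP nets) (sing (List.range 5))) 1 = bset O1 := by
  have h := hO1
  simp only [andB_eq_true] at h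
  refine orbit_eq_bset hok ((orbSub_base _ 1).run hok (prog := [0, 1, 2, 3, 0, 1, 4, 1, 2, 3, 0, 1, 3, 2, 4, 1, 2, 3, 0, 1, 3, 2, 4, 0, 2, 0]) ?_) h.2.2 h.1
  rw [chkOrb, Nat.beq_eq]; exact Nat.and_self _

theorem card1 : {v | ∃ g ∈ Cfsg.Spor.threeJ3 F4 F4.ω,
    (g : Matrix Cfsg.Spor.F9 Cfsg.Spor.F9 F4) *ᵥ dec 1 = v}.ncard = 69768 := by
  have h := hO1
  simp only [andB_eq_true] at h
  rw [show {v | ∃ g ∈ Cfsg.Spor.threeJ3 F4 F4.ω, (g : Matrix Cfsg.Spor.F9 Cfsg.Spor.F9 F4) *ᵥ dec 1 = v} = _ from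
    Set.ext (orb_iff (by norm_num)), Set.InjOn.ncard_image, orb1, ncard_of_chkPop h.2.1]
  have hl : ∀ a ∈ MulAction.orbit (genW (PP nets) (sing (List.range 5))) 1, a < 262144 := by
    rintro _ ⟨⟨s, hs⟩, rfl⟩
    rw [← map2] at hs
    obtain ⟨p, hp, rfl⟩ := hs
    exact perm_lt_of_fix (c_mem hp).1 (by norm_num)
  exact fun a ha a' ha' h => dec_inj (hl a ha) (hl a' ha') h

/-- The codes of vectors of odd weight. -/
noncomputable def iso : ℕ × ℕ := sumL (fun j => (Nat.lor (P (2 * j)) (P (2 * j + 1)), 0)) (List.finRange 9)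

theorem val_iso {a : ℕ} (ha : a < 262144) : val iso a = ∑ z, dec a z ^ 3 := by
  rw [iso, val_sum]
  refine Finset.sum_congr rfl fun z _ => ?_
  rw [← val_P ha]
  show F4.mk ((P (2 * eI z) ||| P (2 * eI z + 1)).testBit a) (Nat.testBit 0 a) = (F4.mk _ _) ^ 3
  rw [Nat.testBit_or, Nat.zero_testBit]
  cases (P (2 * eI z)).testBit a <;> cases (P (2 * eI z + 1)).testBit a <;> decide

set_option maxHeartbeats 2000000 in
theorem hO2 : chkOrb nets (sing (List.range 5)) [3, 0, 1, 3, 2, 1, 3, 0, 2, 4, 1, 2, 3, 1, 0, 3, 2, 4, 1, 2, 3, 0, 1, 3, 2, 3, 3] (Nat.shiftLeft 1 5)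
    (Nat.xor (ivl 1 262143) iso.1) = true := by decide +kernel

theorem iso_orb {v : Cfsg.Spor.F9 → F4} (hv : v ≠ 0) (h : ∑ z, v z ^ 3 = 0) :
    ∃ g ∈ Cfsg.Spor.threeJ3 F4 F4.ω, (g : Matrix Cfsg.Spor.F9 Cfsg.Spor.F9 F4) *ᵥ dec 5 = v := by
  obtain ⟨a, ha, rfl⟩ := dec_surj v
  rw [orb_iff (by norm_num)]
  refine ⟨a, (orbSub_base _ 5).run hok hO2 ?_, rfl⟩
  show (ivl 1 262143 ^^^ iso.1).testBit a = true
  rw [← val_iso ha] at h
  have h1 : iso.1.testBit a = false := congrArg F4.a h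
  have h2 : a ≠ 0 := by
    rintro rfl
    exact hv (funext fun z => by simp only [dec, Nat.zero_testBit]; rfl)
  rw [Nat.testBit_xor, h1, ivl_testBit]
  simp; omega

theorem dec_one : dec 1 = Pi.single 0 1 := by decide +kernel

theorem smul_mem {v w : Cfsg.Spor.F9 → F4} {t : F4} (ht : t ≠ 0)
    (h : ∃ g ∈ Cfsg.Spor.threeJ3 F4 F4.ω, (g : Matrix Cfsg.Spor.F9 Cfsg.Spor.F9 F4) *ᵥ v = w) :
    ∃ g ∈ Cfsg.Spor.threeJ3 F4 F4.ω, (g : Matrix Cfsg.Spor.F9 Cfsg.Spor.F9 F4) *ᵥ v = t • w := by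
  have key : ∀ w, (∃ g ∈ Cfsg.Spor.threeJ3 F4 F4.ω, (g : Matrix Cfsg.Spor.F9 Cfsg.Spor.F9 F4) *ᵥ v = w) →
      ∃ g ∈ Cfsg.Spor.threeJ3 F4 F4.ω, (g : Matrix Cfsg.Spor.F9 Cfsg.Spor.F9 F4) *ᵥ v = F4.ω • w := by
    rintro _ ⟨g, hg, rfl⟩
    refine ⟨b 4 * g, Subgroup.mul_mem _ (three_eq ▸ mem_genL b (by decide)) hg, ?_⟩
    rw [Units.val_mul, ← mulVec_mulVec, coe_b (by norm_num), hz]
    funext z
    simp [scalar_apply, mulVec_diagonal]
  have : ∀ t : F4, t ≠ 0 → t = 1 ∨ t = F4.ω ∨ t = F4.ω * F4.ω := by decide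
  rcases this t ht with rfl | rfl | rfl
  · rwa [one_smul]
  · exact key w h
  · rw [mul_smul]; exact key _ (key w h)

theorem lines {F V : Type} [Field F] [Fintype F] [AddCommGroup V] [Module F V] (hF : Fintype.card F = 4)
    {O : Set V} (hf : O.Finite) (h0 : ∀ v ∈ O, v ≠ 0) (hs : ∀ v ∈ O, ∀ t : F, t ≠ 0 → t • v ∈ O) :
    O.ncard = 3 * ((fun v => F ∙ v) '' O).ncard := by
  classical
  lift O to Finset V using hf
  rw [← Finset.coe_image, Set.ncard_coe_finset, Set.ncard_coe_finset]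
  suffices H : ∀ L ∈ O.image (fun v => F ∙ v), (O.filter fun v => (F ∙ v) = L).card = 3 from
    le_antisymm (Finset.card_le_mul_card_image _ _ fun L hL => (H L hL).le)
      (Finset.mul_card_image_le_card _ _ fun L hL => (H L hL).ge)
  intro L hL
  obtain ⟨u, hu, rfl⟩ := Finset.mem_image.1 hL
  have : (O.filter fun v => (F ∙ v) = F ∙ u) = Finset.univ.image fun t : Fˣ => t • u := by
    ext v
    simp only [Finset.mem_filter, Finset.mem_image, Finset.mem_univ, true_and]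
    constructor
    · rintro ⟨-, h⟩; exact Submodule.span_singleton_eq_span_singleton.1 h.symm
    · rintro ⟨t, rfl⟩
      exact ⟨hs u hu t t.ne_zero, (Submodule.span_singleton_eq_span_singleton.2 ⟨t, rfl⟩).symm⟩
  rw [this, Finset.card_image_of_injective, Finset.card_univ, Fintype.card_units, hF]
  intro s t h
  exact Units.ext (smul_left_injective F (h0 u hu) h)

theorem transport {F : Type} [Field F] (e : F4 ≃+* F) (v w : Cfsg.Spor.F9 → F4) :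
    (∃ g ∈ Cfsg.Spor.threeJ3 F (e F4.ω), (g : Matrix Cfsg.Spor.F9 Cfsg.Spor.F9 F) *ᵥ (e ∘ v) = e ∘ w) ↔
    ∃ g ∈ Cfsg.Spor.threeJ3 F4 F4.ω, (g : Matrix Cfsg.Spor.F9 Cfsg.Spor.F9 F4) *ᵥ v = w := by
  have key : ∀ g : GL Cfsg.Spor.F9 F4, ((glMap e g : GL _ F) : Matrix Cfsg.Spor.F9 Cfsg.Spor.F9 F) *ᵥ (e ∘ v) =
      e ∘ ((g : Matrix Cfsg.Spor.F9 Cfsg.Spor.F9 F4) *ᵥ v) := fun g =>
    funext fun z => (RingHom.map_mulVec (e : F4 →+* F) (g : Matrix Cfsg.Spor.F9 Cfsg.Spor.F9 F4) v z).symm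
  rw [three_map]
  constructor
  · rintro ⟨_, ⟨g, hg, rfl⟩, h⟩
    exact ⟨g, hg, funext fun z => e.injective (congrFun ((key g).symm.trans h) z)⟩
  · rintro ⟨g, hg, rfl⟩
    exact ⟨_, ⟨g, hg, rfl⟩, key g⟩

/-- Orbits of the triple cover of the third Janko group on lines of its 9-space over the field with 4 elements: the line through the first basis vector has exactly 23256 images, and the isotropic lines (nonzero v with Σ v_z³ = 0) form a single orbit. -/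
theorem result (F : Type) [Field F] [Fintype F] (hF : Fintype.card F = 4) (ω : F) (hω : ω ^ 2 + ω + 1 = 0) : {L : Submodule F (Cfsg.Spor.F9 → F) | ∃ g ∈ Cfsg.Spor.threeJ3 F ω, L = F ∙ ((g : Matrix Cfsg.Spor.F9 Cfsg.Spor.F9 F) *ᵥ (Pi.single (0 : Cfsg.Spor.F9) (1 : F) : Cfsg.Spor.F9 → F))}.ncard = 23256 ∧ ∀ v w : Cfsg.Spor.F9 → F, v ≠ 0 → w ≠ 0 → ∑ z, (v z) ^ 3 = 0 → ∑ z, (w z) ^ 3 = 0 → ∃ g ∈ Cfsg.Spor.threeJ3 F ω, ∃ c : F, c ≠ 0 ∧ (g : Matrix Cfsg.Spor.F9 Cfsg.Spor.F9 F) *ᵥ v = c • w := by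
  obtain ⟨e, rfl⟩ := F4.exists_equiv hF hω
  have hs : ∀ v : Cfsg.Spor.F9 → F, ∃ u : Cfsg.Spor.F9 → F4, e ∘ u = v := fun v =>
    ⟨e.symm ∘ v, funext fun z => e.apply_symm_apply _⟩
  have hi : Function.Injective fun u : Cfsg.Spor.F9 → F4 => e ∘ u := fun u u' h =>
    funext fun z => e.injective (congrFun h z)
  have e1 : (Pi.single (0 : Cfsg.Spor.F9) (1 : F) : Cfsg.Spor.F9 → F) = e ∘ dec 1 := by
    rw [dec_one]; funext z; simp [Pi.single_apply, apply_ite e]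
  constructor
  · set O : Set (Cfsg.Spor.F9 → F) := {v | ∃ g ∈ Cfsg.Spor.threeJ3 F (e F4.ω),
      (g : Matrix Cfsg.Spor.F9 Cfsg.Spor.F9 F) *ᵥ (e ∘ dec 1) = v} with hO
    have h1 : O = (fun u => e ∘ u) '' {v | ∃ g ∈ Cfsg.Spor.threeJ3 F4 F4.ω,
        (g : Matrix Cfsg.Spor.F9 Cfsg.Spor.F9 F4) *ᵥ dec 1 = v} := by
      ext v
      obtain ⟨u, rfl⟩ := hs v
      rw [hi.mem_set_image]
      exact transport e _ _
    have h2 := lines hF (Set.toFinite O) (by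
      rintro _ ⟨g, -, rfl⟩ h
      have h3 := congrArg (fun v => ((g⁻¹ : GL _ F) : Matrix Cfsg.Spor.F9 Cfsg.Spor.F9 F) *ᵥ v) h
      simp only [mulVec_mulVec, ← Units.val_mul, inv_mul_cancel, Units.val_one, one_mulVec, mulVec_zero] at h3
      have h4 := congrFun h3 0
      rw [← e1] at h4
      simp at h4) (by
      intro v hv t ht
      obtain ⟨u, rfl⟩ := hs v
      obtain ⟨t, rfl⟩ := e.surjective t
      have : e t • e ∘ u = e ∘ (t • u) := funext fun z => by simp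
      rw [this]
      exact (transport e _ _).2 (smul_mem (by simpa using ht) ((transport e _ _).1 hv)))
    rw [h1, Set.ncard_image_of_injective _ hi, card1, ← h1] at h2
    rw [e1, show {L : Submodule F (Cfsg.Spor.F9 → F) | ∃ g ∈ Cfsg.Spor.threeJ3 F (e F4.ω),
      L = F ∙ ((g : Matrix Cfsg.Spor.F9 Cfsg.Spor.F9 F) *ᵥ (e ∘ dec 1))} = (fun v => F ∙ v) '' O from ?_]
    · omega
    · ext L
      constructor
      · rintro ⟨g, hg, rfl⟩; exact ⟨_, ⟨g, hg, rfl⟩, rfl⟩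
      · rintro ⟨_, ⟨g, hg, rfl⟩, rfl⟩; exact ⟨g, hg, rfl⟩
  · have key : ∀ v : Cfsg.Spor.F9 → F, v ≠ 0 → ∑ z, v z ^ 3 = 0 → ∃ g ∈ Cfsg.Spor.threeJ3 F (e F4.ω),
        (g : Matrix Cfsg.Spor.F9 Cfsg.Spor.F9 F) *ᵥ (e ∘ dec 5) = v := by
      intro v hv h
      obtain ⟨u, rfl⟩ := hs v
      refine (transport e _ _).2 (iso_orb ?_ (e.injective ?_))
      · rintro rfl; exact hv (funext fun z => by simp)
      · simpa using h
    intro v w hv hw h1 h2
    obtain ⟨g, hg, rfl⟩ := key v hv h1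
    obtain ⟨g', hg', rfl⟩ := key w hw h2
    refine ⟨g' * g⁻¹, Subgroup.mul_mem _ hg' (Subgroup.inv_mem _ hg), 1, one_ne_zero, ?_⟩
    rw [one_smul, mulVec_mulVec, ← Units.val_mul, inv_mul_cancel_right]

end Cfsg.Agent.S1626
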