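import Cfsg.Statements.S1632
import Cfsg.Agent.Theta.Form

set_option autoImplicit false
open Matrix
open Cfsg

namespace Cfsg.Agent.S1632

open Cfsg.Agent.Theta ModularForm EisensteinSeries ArithmeticFunction

/-- An even unimodular lattice of rank 24 without roots has 196560, 16773120 and 398034000 vectors of norms 4, 6 and 8. -/
theorem result (B : Matrix (Fin 24) (Fin 24) ℤ) (hsymm : B.IsSymm) (hpos : ∀ x : Fin 24 → ℤ, x ≠ 0 → 0 < x ⬝ᵥ (B *ᵥ x)) (heven : ∀ x : Fin 24 → ℤ, (2 : ℤ) ∣ x ⬝ᵥ (B *ᵥ x)) (hdet : B.det = 1) (h2 : ∀ x : Fin 24 → ℤ, x ⬝ᵥ (B *ᵥ x) ≠ 2) : {x : Fin 24 → ℤ | x ⬝ᵥ (B *ᵥ x) = 4}.ncard = 196560 ∧ {x : Fin 24 → ℤ | x ⬝ᵥ (B *ᵥ x) = 6}.ncard = 16773120 ∧ {x : Fin 24 → ℤ | x ⬝ᵥ (B *ᵥ x) = 8}.ncard = 398034000 := by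
  have h := pd_of_int hsymm hpos hdet
  have e := theta_eq h hdet heven hpos h2
  have c := theta_coeff h hdet heven
  have b4 : bernoulli 4 = -1 / 30 := by decide +kernel
  have b6 : bernoulli 6 = 1 / 42 := by decide +kernel
  have s3 : sigma 3 1 = 1 ∧ sigma 3 2 = 9 ∧ sigma 3 3 = 28 ∧ sigma 3 4 = 73 := by decide +kernel
  have s5 : sigma 5 1 = 1 ∧ sigma 5 2 = 33 ∧ sigma 5 3 = 244 ∧ sigma 5 4 = 1057 := by decide +kernel
  have c2 := c 2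
  have c3 := c 3
  have c4 := c 4
  rw [e] at c2 c3 c4
  norm_num [PowerSeries.coeff_mul, Finset.Nat.antidiagonal_succ, E_qExpansion_coeff _ ⟨2, rfl⟩,
    E_qExpansion_coeff _ ⟨3, rfl⟩, b4, b6, s3, s5] at c2 c3 c4
  exact ⟨by exact_mod_cast c2.symm, by exact_mod_cast c3.symm, by exact_mod_cast c4.symm⟩

end Cfsg.Agent.S1632
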