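import Cfsg.Statements.S1635
import Cfsg.Agent.Golay.AbsGolay

set_option autoImplicit false
open Cfsg

namespace Cfsg.Agent.S1635

/-- Coset leaders of the length-24 code: a coset contains a unique word of weight ≤ 3, or else exactly six words of weight 4 and none lighter. -/
theorem result (w : Cfsg.GolayPt → ZMod 2) : ({v : Cfsg.GolayPt → ZMod 2 | hammingNorm v ≤ 4 ∧ w - v ∈ Cfsg.golayCode}.ncard = 1 ∧ ∃ v : Cfsg.GolayPt → ZMod 2, hammingNorm v ≤ 3 ∧ w - v ∈ Cfsg.golayCode) ∨ ({v : Cfsg.GolayPt → ZMod 2 | hammingNorm v ≤ 4 ∧ w - v ∈ Cfsg.golayCode}.ncard = 6 ∧ ∀ v : Cfsg.GolayPt → ZMod 2, w - v ∈ Cfsg.golayCode → hammingNorm v ≤ 4 → hammingNorm v = 4) := by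
  have e : {v : GolayPt → ZMod 2 | hammingNorm v ≤ 4 ∧ w - v ∈ golayCode} =
      {u | u - w ∈ golayCode ∧ hammingNorm u ≤ 4} := by
    ext v; rw [Set.mem_ofPred_eq, Set.mem_ofPred_eq, and_comm, sub_mem_comm_iff]
  rw [e]
  rcases Golay.coset_cases_word Golay.card_pt S0358.result Golay.golay_min w with ⟨u, h1, h2⟩ | ⟨h1, h2⟩
  · exact Or.inl ⟨by rw [h1, Set.ncard_singleton], u, h2, (e.trans h1).ge rfl |>.2⟩
  · exact Or.inr ⟨h1, fun v hv h4 => (h2 v (e.le ⟨h4, hv⟩)).1⟩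

end Cfsg.Agent.S1635
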