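import Cfsg.Statements.S1636
import Cfsg.Agent.Golay.AbsGolay

set_option autoImplicit false
open Cfsg

namespace Cfsg.Agent.S1636

theorem norm_some (S : Finset GolayPt) :
    hammingNorm (fun x : ZMod 23 => Comp.ind2 S (some x)) = (S ∩ Golay.EG.ofMask 8388607).card := by
  refine Finset.card_bij (fun x _ => some x) (fun x hx => ?_) (fun _ _ _ _ => Option.some_injective _ |>.eq_iff.1) ?_
  · refine Finset.mem_inter.2 ⟨by simpa [Comp.ind2] using hx, ?_⟩
    clear hx; revert x; decide +kernel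
  · rintro (_ | x) hx
    · exact absurd (Finset.mem_inter.1 hx).2 (by decide +kernel)
    · exact ⟨x, by simpa [Comp.ind2] using (Finset.mem_inter.1 hx).1, rfl⟩

theorem le_norm_some (S : Finset GolayPt) :
    S.card ≤ hammingNorm (fun x : ZMod 23 => Comp.ind2 S (some x)) + 1 := by
  rw [norm_some, ← Finset.card_inter_add_card_sdiff S (Golay.EG.ofMask 8388607)]
  refine Nat.add_le_add_left ((Finset.card_le_card (Finset.sdiff_subset_sdiff (Finset.subset_univ S) le_rfl)).trans ?_) _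
  decide +kernel

theorem seven_le {u : ZMod 23 → ZMod 2} (hu : ∃ w ∈ golayCode, ∀ x : ZMod 23, u x = w (some x)) (h : u ≠ 0) :
    7 ≤ hammingNorm u := by
  obtain ⟨w, hw, e⟩ := hu
  obtain rfl : u = fun x => w (some x) := funext e
  have := Golay.golay_min w hw (by rintro rfl; exact h rfl)
  obtain ⟨S, rfl⟩ := Comp.exists_ind2 w
  have := le_norm_some S
  rw [Comp.hammingNorm_ind2] at *; omega

theorem ncard_punct (p : ℕ → Prop) (pb : ℕ → Bool) (h : ∀ n, p n ↔ pb n = true) :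
    {u : ZMod 23 → ZMod 2 | (∃ w ∈ golayCode, ∀ x : ZMod 23, u x = w (some x)) ∧ p (hammingNorm u)}.ncard =
      Comp.countLt 4096 fun a => pb (Comp.pc24 (Nat.land (Golay.gE a) 8388607)) := by
  rw [← Golay.ncard_golay (p := fun S => p (S ∩ Golay.EG.ofMask 8388607).card)
    (pb := fun s => pb (Comp.pc24 (Nat.land s 8388607))) fun s _ => by rw [Golay.card_inter24]; exact h _]
  refine (Set.ncard_congr (fun S _ x => Comp.ind2 S (some x)) ?_ ?_ ?_).symm
  · intro S hS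
    exact ⟨⟨_, Golay.mem_supp_iff.1 hS.1, fun _ => rfl⟩, by rw [norm_some]; exact hS.2⟩
  · intro S T hS hT e
    have h1 := le_norm_some (symmDiff S T)
    have h2 : (fun x : ZMod 23 => Comp.ind2 (symmDiff S T) (some x)) = 0 := by
      rw [Comp.ind2_symmDiff]; funext x
      exact (congrArg (· + _) (congrFun e x)).trans (CharTwo.add_self_eq_zero _)
    rw [h2, hammingNorm_zero] at h1
    have := Golay.card_supp (Golay.symmDiff_mem_supp hS.1 hT.1)
    exact symmDiff_eq_bot.1 (Finset.card_eq_zero.1 (by omega))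
  · rintro u ⟨⟨w, hw, e⟩, hp⟩
    obtain rfl : u = fun x => w (some x) := funext e
    obtain ⟨S, rfl⟩ := Comp.exists_ind2 w
    exact ⟨S, ⟨Golay.mem_supp_iff.2 hw, by rwa [norm_some] at hp⟩, rfl⟩

set_option maxRecDepth 100000

/-- The punctured length-23 code has weight distribution 0^1 7^253 8^506 11^1288 12^1288 15^506 16^253 23^1. -/
theorem result : {u : ZMod 23 → ZMod 2 | ∃ w ∈ Cfsg.golayCode, ∀ x : ZMod 23, u x = w (some x)}.ncard = 4096 ∧ {u : ZMod 23 → ZMod 2 | u ∈ {u : ZMod 23 → ZMod 2 | ∃ w ∈ Cfsg.golayCode, ∀ x : ZMod 23, u x = w (some x)} ∧ hammingNorm u = 7}.ncard = 253 ∧ {u : ZMod 23 → ZMod 2 | u ∈ {u : ZMod 23 → ZMod 2 | ∃ w ∈ Cfsg.golayCode, ∀ x : ZMod 23, u x = w (some x)} ∧ hammingNorm u = 8}.ncard = 506 ∧ {u : ZMod 23 → ZMod 2 | u ∈ {u : ZMod 23 → ZMod 2 | ∃ w ∈ Cfsg.golayCode, ∀ x : ZMod 23, u x = w (some x)} ∧ hammingNorm u = 11}.ncard = 1288 ∧ {u : ZMod 23 → ZMod 2 | u ∈ {u : ZMod 23 → ZMod 2 | ∃ w ∈ Cfsg.golayCode,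 ∀ x : ZMod 23, u x = w (some x)} ∧ hammingNorm u = 12}.ncard = 1288 ∧ {u : ZMod 23 → ZMod 2 | u ∈ {u : ZMod 23 → ZMod 2 | ∃ w ∈ Cfsg.golayCode, ∀ x : ZMod 23, u x = w (some x)} ∧ hammingNorm u = 15}.ncard = 506 ∧ {u : ZMod 23 → ZMod 2 | u ∈ {u : ZMod 23 → ZMod 2 | ∃ w ∈ Cfsg.golayCode, ∀ x : ZMod 23, u x = w (some x)} ∧ hammingNorm u = 16}.ncard = 253 ∧ ∀ u ∈ {u : ZMod 23 → ZMod 2 | ∃ w ∈ Cfsg.golayCode, ∀ x : ZMod 23, u x = w (some x)}, u ≠ 0 → 7 ≤ hammingNorm u := by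
  have h := fun k => ncard_punct (· = k) (Nat.beq · k) fun _ => Comp.nbeq.symm
  have h0 := ncard_punct (fun _ => True) (fun _ => true) (by simp)
  simp only [and_true] at h0
  refine ⟨h0.trans (by decide +kernel), (h 7).trans (by decide +kernel), (h 8).trans (by decide +kernel),
    (h 11).trans (by decide +kernel), (h 12).trans (by decide +kernel), (h 15).trans (by decide +kernel),
    (h 16).trans (by decide +kernel), fun u => seven_le⟩

end Cfsg.Agent.S1636
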