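import Cfsg.Statements.S1637
import Cfsg.Agent.S1636

set_option autoImplicit false
open Cfsg

namespace Cfsg.Agent.S1637

/-- The punctured length-23 code is a perfect 3-error-correcting code: each word of length 23 is within distance 3 of exactly one codeword. -/
theorem result (u : ZMod 23 → ZMod 2) : ∃! c : ZMod 23 → ZMod 2, c ∈ {u : ZMod 23 → ZMod 2 | ∃ w ∈ Cfsg.golayCode, ∀ x : ZMod 23, u x = w (some x)} ∧ hammingDist u c ≤ 3 := by
  have h1 : ∃ S : Finset GolayPt, Odd S.card ∧ u = fun x => Comp.ind2 S (some x) := by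
    let S : Finset GolayPt := (support₂ u).map Function.Embedding.some
    have e : u = fun x => Comp.ind2 S (some x) := by
      funext x; rw [← Comp.ind2_support u]; simp [Comp.ind2, S]
    rcases Nat.even_or_odd S.card with h | h
    · exact ⟨insert none S, by rw [Finset.card_insert_of_notMem (by simp [S])]; exact h.add_one,
        e.trans (by funext x; simp [Comp.ind2])⟩
    · exact ⟨S, h, e⟩
  obtain ⟨S, hS, rfl⟩ := h1
  obtain ⟨T, hT, h⟩ := Golay.exists_leader S
  have h2 := Golay.card_symmDiff_add S T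
  have h3 := Golay.card_supp h
  rw [Nat.odd_iff] at hS
  have h4 : hammingDist (fun x => Comp.ind2 S (some x)) (fun x : ZMod 23 => Comp.ind2 (symmDiff S T) (some x)) ≤ 3 := by
    have : (-(fun x => Comp.ind2 S (some x)) + fun x : ZMod 23 => Comp.ind2 (symmDiff S T) (some x)) =
        fun x => Comp.ind2 T (some x) := by
      funext x; simp [Comp.ind2_symmDiff, ← add_assoc, CharTwo.add_self_eq_zero]
    rw [hammingDist_eq_hammingNorm, this, S1636.norm_some]
    exact (Finset.card_le_card Finset.inter_subset_left).trans (by omega)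
  refine ⟨_, ⟨⟨_, Golay.mem_supp_iff.1 h, fun _ => rfl⟩, h4⟩, fun c ⟨⟨w, hw, e⟩, hc⟩ => ?_⟩
  by_contra hne
  have h5 := S1636.seven_le (u := c - fun x => Comp.ind2 (symmDiff S T) (some x))
    ⟨_, golayCode.sub_mem hw (Golay.mem_supp_iff.1 h), fun x => by simp [e]⟩ (sub_ne_zero.2 hne)
  have h6 := hammingDist_triangle_left c (fun x : ZMod 23 => Comp.ind2 (symmDiff S T) (some x))
    fun x => Comp.ind2 S (some x)
  rw [sub_eq_neg_add, ← hammingDist_eq_hammingNorm, hammingDist_comm] at h5
  omega

end Cfsg.Agent.S1637
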