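import Cfsg.Statements.S1638
import Cfsg.Agent.Golay.Rank

set_option autoImplicit false
open scoped Pointwise
open Cfsg

namespace Cfsg.Agent.S1638

/-- Fix two points p ≠ q and a pair s of two further points. Among the pairs avoiding p, q and disjoint from s, exactly 30 lie in an octad together with p, q and s and exactly 160 do not; and any two pairs other than s that meet s in equally many points and agree on that octad property are carried to one another by an element of the group of the length-24 code fixing p, q and s. -/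
theorem result (p q : Cfsg.GolayPt) (hpq : p ≠ q) (s : Finset Cfsg.GolayPt) (hs : (s.card = 2 ∧ p ∉ s ∧ q ∉ s)) : {t : Finset Cfsg.GolayPt | (t.card = 2 ∧ p ∉ t ∧ q ∉ t) ∧ Disjoint s t ∧ (∃ o ∈ Cfsg.octads, p ∈ o ∧ q ∈ o ∧ s ∪ t ⊆ o)}.ncard = 30 ∧ {t : Finset Cfsg.GolayPt | (t.card = 2 ∧ p ∉ t ∧ q ∉ t) ∧ Disjoint s t ∧ ¬ (∃ o ∈ Cfsg.octads, p ∈ o ∧ q ∈ o ∧ s ∪ t ⊆ o)}.ncard = 160 ∧ ∀ t t' : Finset Cfsg.GolayPt, (t.card = 2 ∧ p ∉ t ∧ q ∉ t) → (t'.card = 2 ∧ p ∉ t' ∧ q ∉ t') → t ≠ s → t' ≠ s → (s ∩ t).card = (s ∩ t').card → ((∃ o ∈ Cfsg.octads, p ∈ o ∧ q ∈ o ∧ s ∪ t ⊆ o) ↔ (∃ o ∈ Cfsg.octads, p ∈ o ∧ q ∈ o ∧ s ∪ t' ⊆ o)) → ∃ g : Equiv.Perm Cfsg.GolayPt, g ∈ Cfsg.M24 ∧ g p = p ∧ g q = q ∧ g • s = s ∧ g • t = t' := by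
  have h := Golay.rank_pairs hpq hs
  have hsm : ∀ U : Finset GolayPt, U.card = 2 → U ∈ Golay.smalls := fun U h => ⟨by omega, by omega⟩
  have e : ∀ t : Finset GolayPt, (∃ o ∈ octads, insert p (insert q (s ∪ t)) ⊆ o) ↔
      ∃ o ∈ octads, p ∈ o ∧ q ∈ o ∧ s ∪ t ⊆ o := fun t => by simp only [Finset.insert_subset_iff]
  have hne : ∀ t : Finset GolayPt, Disjoint s t → t ≠ s := by
    rintro _ h rfl
    have := hs.1
    rw [disjoint_self.1 h] at this; simp at this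
  have hle : ∀ t : Finset GolayPt, (s ∩ t).card ≤ 2 := fun t => hs.1 ▸ Finset.card_le_card Finset.inter_subset_left
  simp only [e] at h
  refine ⟨?_, ?_, fun t t' h1 h2 h3 h4 h5 h6 => ?_⟩
  · rw [← h.cnt 10 30]; congr 1; ext t
    simp only [Set.mem_ofPred_eq]
    constructor
    · rintro ⟨h1, h2, h3⟩
      refine ⟨hsm t h1.1, ⟨h1, hne t h2⟩, ?_⟩
      rw [Golay.ind_eq_one.2 ⟨⟨h1, hne t h2⟩, h3⟩, Finset.disjoint_iff_inter_eq_empty.1 h2]; rfl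
    · rintro ⟨-, h1, h2⟩
      have h3 := hle t
      have h4 := Golay.ind_le_one (((t.card = 2 ∧ p ∉ t ∧ q ∉ t) ∧ t ≠ s) ∧ ∃ o ∈ octads, p ∈ o ∧ q ∈ o ∧ s ∪ t ⊆ o)
      exact ⟨h1.1, Finset.disjoint_iff_inter_eq_empty.2 (Finset.card_eq_zero.1 (by omega)),
        (Golay.ind_eq_one.1 (le_antisymm h4 (by omega))).2⟩
  · rw [← h.cnt 0 160]; congr 1; ext t
    simp only [Set.mem_ofPred_eq]
    constructor
    · rintro ⟨h1, h2, h3⟩
      refine ⟨hsm t h1.1, ⟨h1, hne t h2⟩, ?_⟩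
      rw [Golay.ind_eq_zero.2 fun h => h3 h.2, Finset.disjoint_iff_inter_eq_empty.1 h2]; rfl
    · rintro ⟨-, h1, h2⟩
      exact ⟨h1.1, Finset.disjoint_iff_inter_eq_empty.2 (Finset.card_eq_zero.1 (by omega)),
        fun h => by rw [Golay.ind_eq_one.2 ⟨h1, h⟩] at h2; omega⟩
  · obtain ⟨g, hg, e⟩ := h.2.2 t (hsm t h1.1) t' (hsm t' h2.1) ⟨h1, h3⟩ ⟨h2, h4⟩
      (by simp only [h1, h2, h3, h4, h5, h6, ne_eq, not_false_eq_true])
    exact ⟨g, g.2, hg.1.1, hg.1.2, hg.2, e⟩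

end Cfsg.Agent.S1638
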