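import Cfsg.Statements.S1642
import Cfsg.Agent.Leech.Simple

set_option autoImplicit false
open Cfsg

namespace Cfsg.Agent.S1642

open Cfsg.Agent.Leech Cfsg.Agent.Comp

set_option maxRecDepth 100000 in
theorem aux : ∃ t ∈ St2 vv uu', orderOf t = 2 ∧ ∀ x ∈ S2 vv uu' (-24) 0, t • x ≠ x := by
  obtain ⟨g, hg, hr⟩ := grpC.evalW_mem codes_H12 [3, 0, 2, 2, 1]
  have hr := grpC.pow hr 5
  refine ⟨_, pow_mem hg 5, grpC.orderOf_eq canC hr (ps := [2]) two_pos
    (fun p hp h => by simpa using (Nat.prime_dvd_prime_iff_eq hp Nat.prime_two).1 h) (by decide +kernel), fun x hx e => ?_⟩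
  obtain ⟨k, hk, rfl⟩ := tr100 _ uu_mem' x hx
  obtain ⟨a, ha, h⟩ := orbitL_complete (hash := fun a => Nat.mod a 6738) (fuel := 101)
    (valid := fun a => memL a (orbitL actV h552 (fun _ => true) [gH1, gH2] 101 cU)) isActV codes_H12 Cl_H12.ge PV_U
    (fun a b x y ha hb h1 h2 e => by
      have : allL (orbitL actV h552 (fun _ => true) [gH1, gH2] 101 cU) (fun a => allL (orbitL actV h552 (fun _ => true)
        [gH1, gH2] 101 cU) fun b => bor (Nat.beq a b) (not (Nat.beq (Nat.mod a 6738) (Nat.mod b 6738)))) = true := by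
        decide +kernel
      have := allL_iff.1 (allL_iff.1 this a (memL_iff.1 ha)) b (memL_iff.1 hb)
      simp only [bor_eq, Bool.or_eq_true, nbeq, Bool.not_eq_true', nbeq_false] at this
      exact h1.func (this.resolve_right (not_not.2 e) ▸ h2)) (by decide +kernel) hk
  exact absurd ((isActV hr h).pb.canon (e.symm ▸ h.pb)) (by clear * - ha; revert a; decide +kernel)

/-- Some involution of the Higman–Sims group acts without fixed points on its 100 points. -/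
theorem result (v w : ↥Cfsg.leechLattice) (hv : Cfsg.sqNorm (v : Cfsg.GolayPt → ℤ) = 48) (hw : Cfsg.sqNorm (w : Cfsg.GolayPt → ℤ) = 48) (hvw : Cfsg.dotInt (v : Cfsg.GolayPt → ℤ) (w : Cfsg.GolayPt → ℤ) = -32) : ∃ g : ↥Cfsg.Co0, g • v = v ∧ g • w = w ∧ orderOf g = 2 ∧ ∀ x ∈ {x : ↥Cfsg.leechLattice | Cfsg.sqNorm (x : Cfsg.GolayPt → ℤ) = 32 ∧ Cfsg.dotInt (v : Cfsg.GolayPt → ℤ) (x : Cfsg.GolayPt → ℤ) = 24 ∧ Cfsg.dotInt (w : Cfsg.GolayPt → ℤ) (x : Cfsg.GolayPt → ℤ) = -24}, g • x ≠ x := by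
  obtain ⟨g, rfl, rfl⟩ := norm_hs hv hw hvw
  obtain ⟨t, ht, h1, h2⟩ := aux
  have ht := (St2_neg_add vv uu').ge ht
  refine ⟨g * t * g⁻¹, by rw [mul_smul, mul_smul, inv_smul_smul, ht.1], by rw [mul_smul, mul_smul, inv_smul_smul, ht.2],
    ((MulAut.conj g).orderOf_eq t).trans h1, fun x hx e => h2 (-(g⁻¹ • x)) ?_ ?_⟩
  · have e : S2 vv wh 24 (-24) = -S2 vv uu' (-24) 0 := (S2_neg_add ..).trans (by simpa using neg_S2 vv uu' (-24) 0)
    exact e.le (Set.mem_smul_set_iff_inv_smul_mem.1 ((smul_S2 ..).ge hx))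
  · rw [smul_neg, neg_inj, eq_inv_smul_iff, ← mul_smul, ← mul_smul, e]

end Cfsg.Agent.S1642
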