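import Cfsg.Statements.S1643
import Cfsg.Agent.Perm.SylCount
import Cfsg.Agent.Golay.Mathieu

set_option autoImplicit false
open scoped Pointwise
open Cfsg

namespace Cfsg.Agent.S1643

open Cfsg.Agent.Comp Cfsg.Agent.Golay Cfsg.Agent.SylCount MulAction Subgroup Spor
set_option maxRecDepth 100000
local notation "PG" => Equiv.Perm GolayPt

def T : PG := Equiv.optionCongr (Equiv.addRight (1 : ZMod 23))
def u2 : (ZMod 23)ˣ := ⟨2, 12, by decide, by decide⟩
def D : PG := Equiv.optionCongr (Units.mulLeft u2)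
def cD2 : ℕ := 983435072843990828779021698901151808
theorem rep_D : R24 cD2 D := by unfold R24 PRep; decide +kernel
abbrev SQ : Set PG := {g : PG | ∃ u : (ZMod 23)ˣ, IsSquare u ∧ g = Equiv.optionCongr (Units.mulLeft u)}
theorem D_mem : D ∈ SQ := ⟨u2, ⟨⟨5, 14, by decide, by decide⟩, by ext; decide⟩, rfl⟩
theorem D_pow (k : ℕ) (a : ZMod 23) : (D ^ k) (some a) = some (2 ^ k * a) := by
  induction k with
  | zero => simp
  | succ k ih => rw [pow_succ', Equiv.Perm.mul_apply, ih, pow_succ', mul_assoc]; rfl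
theorem D_pow0 (k : ℕ) : (D ^ k) none = none := by
  induction k with
  | zero => simp
  | succ k ih => rw [pow_succ', Equiv.Perm.mul_apply, ih]; rfl
theorem T_pow (k : ℕ) : (T ^ k) (some 0) = some (k : ZMod 23) := by
  induction k with
  | zero => simp
  | succ k ih => rw [pow_succ', Equiv.Perm.mul_apply, ih, Nat.cast_succ]; rfl
theorem SQ_sub {K : Subgroup PG} (h : D ∈ K) : SQ ⊆ K := by
  rintro _ ⟨_, ⟨v, rfl⟩, rfl⟩
  have h1 : ∀ x : ZMod 23, x ≠ 0 → ∃ k : Fin 11, x * x = 2 ^ (k : ℕ) := by decide +kernel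
  have : Fact (1 < 23) := ⟨by norm_num⟩
  obtain ⟨k, hk⟩ := h1 v v.ne_zero
  have : Equiv.optionCongr (Units.mulLeft (v * v)) = D ^ (k : ℕ) := by
    ext1 a
    cases a with
    | none => rw [D_pow0]; rfl
    | some a => rw [D_pow, ← hk]; rfl
  exact this ▸ K.pow_mem h _

abbrev H0 : Subgroup PG := closure ({T} ∪ SQ)
abbrev L0 : Subgroup PG := closure ({T, projInv} ∪ SQ)
def tH : List (ℕ × List ℕ) := [(0, (List.range 23).map (powC mul24 one24 cT)), (1, (List.range 11).map (powC mul24 one24 cD2))]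
def tL : List (ℕ × List ℕ) := (23, [984818244535754528103549039458486304, 1795248432537898728475572672376535, 44673570877212604306017735907225623, 87551893321887283366365293184594999, 928413874498667716355043516223936224, 130430215766561988943882167652005975, 174170767301553238845147917032197207, 477144491347695089491217979027889856, 901444215902188470208020324925722336, 259927412190902650000206953962706071, 645267317966049346622286219446798688, 217049089746227944422690079495295095, 348311466625634908953577867777349783, 731191410586561560211075431725612384, 520022813792369793915838637655891969, 816717111165828015668196378610810592, 302776578671772106301514693023832247, 688145640410724025682632677212540289, 434068111514984320108662193474543831, 391506460524442839052180722851431904, 858681379848851706453721586951310880, 774069733003430970784559619335373185, 562901136209239204489322825265652770, 605552216856388074145976796073603415]) :: tH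

theorem T_H : T ∈ H0 := subset_closure (by simp)
theorem D_H : D ∈ H0 := subset_closure (Or.inr D_mem)
theorem H_le {K : Subgroup PG} (h1 : T ∈ K) (h2 : D ∈ K) : H0 ≤ K :=
  (closure_le _).2 (Set.union_subset (by simpa) (SQ_sub h2))
theorem L_le {K : Subgroup PG} (h1 : T ∈ K) (h2 : D ∈ K) (h3 : projInv ∈ K) : L0 ≤ K :=
  (closure_le _).2 (Set.union_subset (by rintro _ (rfl | rfl) <;> assumption) (SQ_sub h2))
theorem T23 : T ∈ M23 := ⟨T_mem, rfl⟩
theorem D23 : D ∈ M23 := ⟨mem_M24_of_rep rep_D (by decide +kernel), rfl⟩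
theorem H23 : H0 ≤ M23 := H_le T23 D23
theorem HL : H0 ≤ L0 := closure_mono (Set.union_subset_union_left _ (by simp))
theorem P_L : projInv ∈ L0 := subset_closure (by simp)
theorem L24' : L0 ≤ M24 := L_le T_mem D23.1 P_mem

theorem card_H : Nat.card H0 = 253 := by
  have h0 : CodesIn R24 (flatT tH) ⊤ := (codes24 (by decide +kernel)).mono le_top
  refine le_antisymm ?_ ?_
  · rw [← card_closure_of_ss par24 tH h0 (N := 253) (by decide +kernel)]
    exact card_le_of_le (H_le (mem_of_sift par24 h0.closure rep_T (by decide +kernel))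
      (mem_of_sift par24 h0.closure rep_D (by decide +kernel)))
  · exact le_trans (by decide +kernel) (chainP_le_card (B := [0, 1]) (by decide +kernel)
      (.cons T_H rep_T (.cons D_H rep_D (.nil _))) 30)

theorem card_L : Nat.card L0 = 6072 := by
  have h0 : CodesIn R24 (flatT tL) ⊤ := (codes24 (by decide +kernel)).mono le_top
  refine le_antisymm ?_ ?_
  · rw [← card_closure_of_ss par24 tL h0 (N := 6072) (by decide +kernel)]
    exact card_le_of_le (L_le (mem_of_sift par24 h0.closure rep_T (by decide +kernel))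
      (mem_of_sift par24 h0.closure rep_D (by decide +kernel)) (mem_of_sift par24 h0.closure rep_P (by decide +kernel)))
  · exact le_trans (by decide +kernel) (chainP_le_card (B := [23, 0, 1]) (by decide +kernel)
      (.cons (HL T_H) rep_T (.cons (HL D_H) rep_D (.cons P_L rep_P (.nil _)))) 30)

theorem ord_T : orderOf T = 23 := by
  have h : T (some 0) ≠ some 0 := by decide +kernel
  have : Fact (Nat.Prime 23) := ⟨by norm_num⟩
  refine orderOf_eq_prime ((grp24.pow rep_T 23).unique ?_) fun e => h (congrArg (· (some 0)) e)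
  exact (by decide +kernel : one24 = powC mul24 one24 cT 23) ▸ grp24.one
theorem ord_D : orderOf D = 11 := by
  have : Fact (Nat.Prime 11) := ⟨by norm_num⟩
  refine orderOf_eq_prime ((grp24.pow rep_D 11).unique ?_) fun e => absurd (congrArg (· (some 1)) e) (by decide)
  exact (by decide +kernel : one24 = powC mul24 one24 cD2 11) ▸ grp24.one

theorem fix_pow {g y : PG} (h : g ∈ centralizer {y}) {a : GolayPt} (ha : g a = a) (k : ℕ) :
    g ((y ^ k) a) = (y ^ k) a := by
  have : Commute g y := mem_centralizer_singleton_iff.1 h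
  rw [← Equiv.Perm.mul_apply, (this.pow_right k).eq, Equiv.Perm.mul_apply, ha]

theorem card24 : Nat.card GolayPt = 24 := Nat.card_eq_fintype_card.trans card_pt

theorem cent_T : Nat.card ↥(M23 ⊓ centralizer {T}) ≤ 24 := by
  rw [← card24]
  refine card_le_of_free (a := some 0) fun g hg h => Equiv.ext fun a => ?_
  cases a with
  | none => exact hg.1.2
  | some a => have := fix_pow hg.2 h a.val; rwa [T_pow, ZMod.natCast_zmod_val] at this

theorem cent_D : Nat.card ↥(M23 ⊓ centralizer {D}) ≤ 24 := by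
  rw [← card24]
  refine card_le_of_free (a := some 1) fun g hg h => ?_
  have h1 := card_le_rig le_rfl [] (by simp) [(0, [12656663, 13938692]), (5, [8663097]), (7, [8401364]), (10, [5279]),
    (11, [272595]), (14, [90318]), (15, [8683614]), (17, [421910]), (19, [9347075]), (20, [1302533]),
    (21, [13062145]), (22, [])] 8729438 (N := 1) (by norm_num) (by decide +kernel)
  rw [card_le_one_iff_eq_bot] at h1
  refine mem_bot.1 (h1 ▸ ⟨hg.1.1, fun a ha => ?_⟩)
  have h2 : ∀ a : GolayPt, Nat.testBit 8729438 (EG.enc a) = true → a = none ∨ ∃ k : Fin 11, a = some (2 ^ (k : ℕ) * 1) := by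
    decide +kernel
  rcases h2 a ha with rfl | ⟨k, rfl⟩
  · exact hg.1.2
  · have := fix_pow hg.2 h k; rwa [D_pow] at this

theorem H_norm : H0 ≤ normalizer (zpowers T : Set PG) := by
  refine H_le (le_normalizer (mem_zpowers T)) (mem_normalizer_zpowers ⟨2, ?_⟩)
  refine (zpow_ofNat T 2).trans ((grp24.pow rep_T 2).unique ?_)
  exact (by decide +kernel : conjC mul24 inv24 cD2 cT = powC mul24 one24 cT 2) ▸ grp24.conj rep_D rep_T

theorem norm_T : Nat.card ↥(M23 ⊓ normalizer (zpowers T : Set PG)) = 253 := by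
  have h1 := card_norm_dvd M23 (by norm_num) ord_T
  have h2 := ord_T ▸ order_dvd_cent T23
  have h3 := cent_T
  have h4 := card_H ▸ card_dvd_of_le (le_inf H23 H_norm)
  obtain ⟨i, h5, h6⟩ := syl (by norm_num) T23 ord_T (by rw [card_M23]; norm_num)
  have h0 : 0 < Nat.card ↥(M23 ⊓ centralizer {T}) := Nat.card_pos
  rw [show Nat.card ↥(M23 ⊓ centralizer {T}) = 23 by omega] at h1
  have h7 := Nat.le_of_dvd (by norm_num) h1
  rw [card_M23] at h6
  obtain ⟨m, hm⟩ := h4
  rw [hm] at h6 h7 ⊢
  have : m ≤ 2 := by omega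
  interval_cases m <;> omega

theorem norm_D : Nat.card ↥(M23 ⊓ normalizer (zpowers D : Set PG)) = 55 := by
  have h1 := card_norm_dvd M23 (by norm_num) ord_D
  have h2 := ord_D ▸ order_dvd_cent D23
  have h3 := cent_D
  obtain ⟨m, hm⟩ := ord_D ▸ order_dvd_norm D23
  obtain ⟨i, h5, h6⟩ := syl (by norm_num) D23 ord_D (by rw [card_M23]; norm_num)
  have h0 : 0 < Nat.card ↥(M23 ⊓ centralizer {D}) := Nat.card_pos
  have h8 : Nat.card ↥(M23 ⊓ normalizer (zpowers D : Set PG)) ∣ 220 := by
    rcases (show Nat.card ↥(M23 ⊓ centralizer {D}) = 11 ∨ Nat.card ↥(M23 ⊓ centralizer {D}) = 22 by omega) with e | e <;>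
      rw [e] at h1 <;> exact h1.trans (by norm_num)
  have h7 := Nat.le_of_dvd (by norm_num) h8
  rw [card_M23] at h6
  rw [hm] at h6 h7 h8 ⊢
  have : m ≤ 20 := by omega
  interval_cases m <;> omega

theorem max23 (K : Subgroup PG) (h1 : H0 ≤ K) (h2 : K ≤ M23) : K = H0 ∨ K = M23 := by
  have hd := card_M23 ▸ card_dvd_of_le h2
  obtain ⟨i, h5, h6⟩ := syl (by norm_num) (h1 T_H) ord_T fun h => absurd (h.trans hd) (by norm_num)
  obtain ⟨j, h7, h8⟩ := syl (by norm_num) (h1 D_H) ord_D fun h => absurd (h.trans hd) (by norm_num)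
  have e1 : Nat.card ↥(K ⊓ normalizer (zpowers T : Set PG)) = 253 :=
    Nat.dvd_antisymm (norm_T ▸ card_dvd_of_le (inf_le_inf_right _ h2)) (card_H ▸ card_dvd_of_le (le_inf h1 H_norm))
  have e2 := norm_D ▸ card_dvd_of_le (inf_le_inf_right (normalizer (zpowers D : Set PG)) h2)
  obtain ⟨m, hm⟩ := ord_D ▸ order_dvd_norm (h1 D_H)
  rw [e1] at h6
  rw [hm] at e2 h8
  have h9 : m ≤ 5 := by have := Nat.le_of_dvd (by norm_num) e2; omega
  have hi : i ∣ 40320 := Nat.dvd_of_mul_dvd_mul_right (by norm_num : 0 < 253) (h6 ▸ hd)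
  have h3 : ∀ i ∈ Nat.divisors 40320, i % 23 = 1 → i = 1 ∨ i = 24 ∨ i = 70 ∨ i = 576 ∨ i = 1680 ∨ i = 40320 := by
    decide +kernel
  have h4 : i = 1 ∨ i = 40320 := by
    have := h3 i (Nat.mem_divisors.2 ⟨hi, by norm_num⟩) h5
    interval_cases m <;> omega
  rcases h4 with rfl | rfl
  · exact .inl (eq_of_le_of_card_ge h1 (by rw [card_H]; omega)).symm
  · exact .inr (eq_of_le_of_card_ge h2 (by rw [card_M23]; omega))

theorem max24 (K : Subgroup PG) (h1 : L0 ≤ K) (h2 : K ≤ M24) : K = L0 ∨ K = M24 := by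
  have h3 := card_eq_ncard_orbit_mul K (none : GolayPt)
  have h4 : (orbit K (none : GolayPt)).ncard = 24 := by
    rw [← ncard_univ_pt]
    congr 1
    refine Set.eq_univ_of_forall fun a => ?_
    cases a with
    | none => exact mem_orbit_self _
    | some a =>
      refine ⟨⟨T ^ a.val * projInv, K.mul_mem (K.pow_mem (h1 (HL T_H)) _) (h1 P_L)⟩, ?_⟩
      change (T ^ a.val) (some 0) = some a
      rw [T_pow, ZMod.natCast_zmod_val]
  rcases max23 (K ⊓ stabilizer PG (none : GolayPt)) (le_inf (HL.trans h1) (H23.trans inf_le_right))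
    (inf_le_inf_right _ h2) with e | e
  · exact .inl (eq_of_le_of_card_ge h1 (by rw [h3, h4, e, card_H, card_L])).symm
  · exact .inr (eq_of_le_of_card_ge h2 (by rw [h3, h4, e, card_M23, card_M24]))

/-- PSL(2, 23) = ⟨t ↦ t+1, t ↦ u t (u square), t ↦ −1/t⟩ is maximal of order 6072 in the group of the length-24 code, and its point stabiliser 23:11 (order 253) is maximal in the Mathieu group of degree 23. -/
theorem result : (Subgroup.closure ({Equiv.optionCongr (Equiv.addRight (1 : ZMod 23)), Cfsg.projInv} ∪ {g : Equiv.Perm Cfsg.GolayPt | ∃ u : (ZMod 23)ˣ, IsSquare u ∧ g = Equiv.optionCongr (Units.mulLeft u)}) ≤ Cfsg.M24 ∧ Nat.card ↥(Subgroup.closure ({Equiv.optionCongr (Equiv.addRight (1 : ZMod 23)), Cfsg.projInv} ∪ {g : Equiv.Perm Cfsg.GolayPt | ∃ u : (ZMod 23)ˣ, IsSquare u ∧ g = Equiv.optionCongr (Units.mulLeft u)})) = 6072 ∧ IsCoatom ((Subgroup.closure ({Equiv.optionCongr (Equiv.addRight (1 : ZMod 23)), Cfsg.projInv} ∪ {g : Equiv.Perm Cfsg.GolayPt | ∃ u : (ZMod 23)ˣ, IsSquare u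 ∧ g = Equiv.optionCongr (Units.mulLeft u)})).subgroupOf Cfsg.M24)) ∧ (Subgroup.closure ({Equiv.optionCongr (Equiv.addRight (1 : ZMod 23))} ∪ {g : Equiv.Perm Cfsg.GolayPt | ∃ u : (ZMod 23)ˣ, IsSquare u ∧ g = Equiv.optionCongr (Units.mulLeft u)}) ≤ Cfsg.M24 ⊓ MulAction.stabilizer (Equiv.Perm Cfsg.GolayPt) (none : Cfsg.GolayPt) ∧ Nat.card ↥(Subgroup.closure ({Equiv.optionCongr (Equiv.addRight (1 : ZMod 23))} ∪ {g : Equiv.Perm Cfsg.GolayPt | ∃ u : (ZMod 23)ˣ, IsSquare u ∧ g = Equiv.optionCongr (Units.mulLeft u)})) = 253 ∧ IsCoatom (((Subgroup.closure ({Equiv.optionCongr (Equiv.addRight (1 : ZMod 23))} ∪ {g : Equiv.Perm Cfsg.GolayPt | ∃ u : (ZMod 23)ˣ, IsSquare u ∧ g = Equiv.optionCongr (Units.mulLeft u)})).subgroupOf Cfsg.M24).subgroupOf (MulAction.stabilizer Cfsg.M24 (none : Cfsg.GolayPt)))) := by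
  have hL : L0 ≠ M24 := fun e => absurd (e ▸ card_L) (by rw [card_M24]; norm_num)
  refine ⟨⟨L24', card_L, coatom_of L24' hL max24⟩,
    H23, card_H, coatom_of (A := H0.subgroupOf M24) (fun g hg => (H23 hg).2) (fun e => ?_) fun K h1 h2 => ?_⟩
  · have h1 := card_M23
    rw [M23, ← map_subtype_stabilizer, ← e, map_subgroupOf_eq_of_le (H23.trans M23_le)] at h1
    exact absurd (h1.symm.trans card_H) (by norm_num)
  · have e1 : (H0.subgroupOf M24).map M24.subtype = H0 := map_subgroupOf_eq_of_le (H23.trans M23_le)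
    have e2 := map_subtype_stabilizer M24 (none : GolayPt)
    rcases max23 (K.map M24.subtype) (e1 ▸ map_mono h1) (e2 ▸ map_mono h2 :) with e | e
    · exact .inl (map_subtype_inj.1 (e.trans e1.symm))
    · exact .inr (map_subtype_inj.1 (e.trans e2.symm))

end Cfsg.Agent.S1643
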