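import Cfsg.Statements.S1644
import Cfsg.Agent.AB.J1f

set_option autoImplicit false
open Cfsg

namespace Cfsg.Agent.S1644

/-- The first Janko group recognised by an involution centraliser, at the level of isomorphism: a finite simple group with abelian Sylow 2-subgroups of order 8 and an involution whose centraliser is isomorphic to Z/2 × A₅ is isomorphic to the subgroup of GL(7, 11) generated by the two explicit Janko matrices. -/
theorem result {G : Type*} [Group G] [Finite G] [IsSimpleGroup G] (S : Sylow 2 G) (hS : IsMulCommutative (S : Subgroup G)) (h8 : Nat.card S = 8) (t : G) (ht : orderOf t = 2) (e : (Subgroup.centralizer ({t} : Set G)) ≃* Multiplicative (ZMod 2) × alternatingGroup (Fin 5)) : Cfsg.Spor.IsoJ1 G := by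
  refine AB.isoJ1_of_simple ⟨ht, ?_⟩ e
  have : Fact (Nat.Prime 2) := ⟨Nat.prime_two⟩
  obtain ⟨P, hP⟩ := (IsPGroup.of_card (p := 2) (n := 1) ((Nat.card_zpowers t).trans ht)).exists_le_sylow
  have : IsMulCommutative (P : Subgroup G) := .of_comm fun a b => (P.equiv S).injective (by
    rw [map_mul, map_mul]; exact hS.is_comm.comm _ _)
  exact ⟨P, hP (Subgroup.mem_zpowers t), fun x hx => congrArg Subtype.val
    (this.is_comm.comm ⟨x, hx⟩ ⟨t, hP (Subgroup.mem_zpowers t)⟩)⟩

end Cfsg.Agent.S1644
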