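import Cfsg.Statements.S1666
import Cfsg.Agent.Perm.HSEmbed

set_option autoImplicit false
open Cfsg

namespace Cfsg.Agent.S1666

open MulAction Perm Perm.HS

/-- Recognition of the Higman–Sims group as a rank 3 permutation group: a transitive permutation group on 100 points in which the stabiliser of a point is isomorphic to the Mathieu group M₂₂ and has two further orbits, of sizes 22 and 77, is isomorphic to the Higman–Sims group. -/
theorem result {Ω : Type*} [Fintype Ω] [DecidableEq Ω] (hΩ : Fintype.card Ω = 100) (G : Subgroup (Equiv.Perm Ω)) [MulAction.IsPretransitive G Ω] (a : Ω)  (e : MulAction.stabilizer G a ≃* Cfsg.Spor.M22) (b c : Ω) (hb : (MulAction.orbit (MulAction.stabilizer G a) b).ncard = 22) (hc : (MulAction.orbit (MulAction.stabilizer G a) c).ncard = 77) : Cfsg.Spor.IsoHS G := by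
  have hB := Golay.steiner22 (Comp.encFin 21)
  have hΔ := srg_pb (by simp) hB
  have hX := card_aut_pb (by simp) hB
  obtain ⟨f, hf⟩ := exists_HS_hom hΔ
  obtain ⟨f', hf'⟩ := exists_hom_of_rank3 (by simpa using hΩ) hb hc hΔ
  have hG : Nat.card G = 44352000 := by
    rw [Comp.card_eq_orbit_mul_stabilizer a, orbit_eq_univ, Set.ncard_univ, Nat.card_eq_fintype_card, hΩ,
      Nat.card_congr e.toEquiv, Golay.card_M22]
  have h1 : Nat.card f'.range = 44352000 :=
    (Nat.card_congr (MonoidHom.ofInjective hf').toEquiv).symm.trans hG
  have h2 : Nat.card f.range = 44352000 :=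
    (Nat.card_congr (MonoidHom.ofInjective hf).toEquiv).symm.trans Leech.card_HS
  have h3 : f'.range.index = 2 := by
    have := f'.range.card_mul_index
    rw [h1, hX] at this
    omega
  have := Subgroup.normal_of_index_eq_two h3
  have := Leech.simple_HS
  have : Finite _ := Nat.finite_of_card_ne_zero (hX.trans_ne (by norm_num))
  have h4 : f.range ≤ f'.range := by
    rcases IsSimpleGroup.eq_bot_or_eq_top_of_normal (f'.range.comap f) inferInstance with h | h
    · have h5 := (f'.range.index_comap f ▸ Subgroup.relIndex_dvd_index_of_normal f'.range f.range)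
      rw [h, Subgroup.index_bot, Leech.card_HS, h3] at h5
      norm_num at h5
    · rintro _ ⟨g, rfl⟩
      exact (h.ge trivial :)
  have h5 := Subgroup.eq_of_le_of_card_ge h4 (h1.trans h2.symm).le
  exact ⟨(((MonoidHom.ofInjective hf').trans (MulEquiv.subgroupCongr h5.symm)).trans
    (MonoidHom.ofInjective hf).symm).trans Leech.equivHS⟩

end Cfsg.Agent.S1666
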