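import Cfsg.Statements.S1667
import Cfsg.Agent.R3.Mc
import Cfsg.Agent.Known.McLEq
import Cfsg.Agent.Known.U43Eq
import Cfsg.Agent.S0283

set_option autoImplicit false
set_option maxRecDepth 100000
set_option exponentiation.threshold 100000
open Cfsg

namespace Cfsg.Agent.S1667

open MulAction Cfsg.Agent.R3 Cfsg.Agent.R3.Mc Cfsg.Agent.Known

/-- Recognition of the McLaughlin group as a rank 3 permutation group: a transitive permutation group on 275 points in which the stabiliser of a point is isomorphic to the unitary group U₄(3) and has two further orbits, of sizes 112 and 162, is isomorphic to the McLaughlin group. -/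
theorem result {Ω : Type*} [Fintype Ω] [DecidableEq Ω] (hΩ : Fintype.card Ω = 275) (G : Subgroup (Equiv.Perm Ω)) [MulAction.IsPretransitive G Ω] (a : Ω) (K : Type) [Field K] [Fintype K] (hK : Fintype.card K = 9) (e : MulAction.stabilizer G a ≃* Cfsg.PSU 4 K 3) (b c : Ω) (hb : (MulAction.orbit (MulAction.stabilizer G a) b).ncard = 112) (hc : (MulAction.orbit (MulAction.stabilizer G a) c).ncard = 162) : Cfsg.Spor.IsoMcL G := by
  have : IsPretransitive McLP.G X := Comp.isPretransitive_of_orbit_eq_univ orbX
  obtain ⟨e2⟩ := McLT.equiv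
  have : IsSimpleGroup (Leech.St2 Leech.vv Leech.uu) := Leech.simple_McL
  have : IsSimpleGroup McLP.G := (Leech.equivMcL.trans e2).symm.isSimpleGroup
  obtain ⟨e3⟩ := U43T.equiv hK
  have := S0283.result (q := 3) hK 4 (by decide) (by decide)
  have := e3.symm.isSimpleGroup
  obtain ⟨Δ, -, -, -, hΔ, L⟩ := rank3 cardX (by decide) (by decide) (by decide) (by decide) ncD ncG
  obtain ⟨f, -⟩ := iso (ws := ws0) (by decide +kernel)
  obtain ⟨e1⟩ := equiv_of_loc (l₀ := 30) (m₀ := 56) ((e.trans e3).trans f) (Nat.card_eq_fintype_card.trans hΩ) hb hc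
    (by decide) hΔ L ncD ncG cardH₀ McLP.card (cardA hΔ L) 113 (by norm_num) (by decide) (by decide) h1 (hl hΔ L)
    (h2 hΔ L) (h3 hΔ L)
  exact ⟨e1.trans e2.symm⟩

end Cfsg.Agent.S1667
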