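import Cfsg.Statements.S1679
import Cfsg.Agent.Spor.Embed
import Cfsg.Agent.Known.SuzTab
import Cfsg.Agent.Known.G24Eq
import Cfsg.Agent.S1055

set_option autoImplicit false
open Cfsg

namespace Cfsg.Agent.S1679

set_option maxRecDepth 100000

theorem pa : Spor.PtAct Spor.SuzM.φ 1782 [0, 1424, 1712, 1680, 1779, 1772, 1777, 1776] Known.SuzT.y Known.SuzT.act :=
  Spor.ptAct_of_mdl (Known.mdl_of_tabs Spor.SuzM.rep Known.SuzT.hy Known.SuzT.base (by decide) Spor.SuzM.card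
    (by decide))

def ren : List (List ℕ) := [[0, 1, 2, 4, 3, 2, 1, 3, 2, 4, 3, 2, 1, 3, 2, 4, 3, 2, 1, 0, 1, 3, 2, 1, 4, 3, 5, 1, 0, 2, 3, 2, 1, 4, 3, 2, 3, 2, 4, 3], [2, 1, 4, 3, 2, 3, 2, 1, 0, 1, 4, 3, 2, 1, 3, 2, 1, 0, 1, 4, 3, 2, 3, 5, 1, 2, 3, 2, 1, 4, 3, 2, 5, 1], [0, 1, 0, 1, 2, 1, 3, 2, 1, 0, 1, 3, 4, 3, 2, 1, 3, 2, 1, 3, 2, 4, 3, 2, 1, 5, 1, 2, 3, 2, 1, 4, 3, 2, 1, 0, 5, 1], [1, 2, 4, 3, 2, 1, 3, 2, 3, 4, 3, 2, 1, 0, 1, 2, 3, 2, 1, 0, 4, 3, 5, 1, 0, 2, 3, 2, 1, 4, 3, 2, 1, 3, 5, 1], [3, 2, 1, 0, 4, 3, 2, 1, 0, 1, 2, 3, 2, 1, 3, 4, 3, 2, 1, 0, 1, 5, 1, 2, 3, 2, 1, 4, 5], [2, 1, 3, 2, 3, 4, 3, 2, 1, 0, 1, 2, 3, 2, 4, 3, 2, 1, 5, 1, 2, 3, 2, 1, 4, 3, 2, 1, 0, 3, 2], [2, 4, 3, 2, 1, 0, 1, 2, 3, 2, 3, 4, 3, 2, 1, 0, 1, 0, 3, 2, 5, 1, 2, 3, 2, 1, 4, 3, 2, 1, 0, 3, 4, 5], [1, 3, 2, 1, 0,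 3, 2, 1, 4, 3, 2, 1, 0, 1, 2, 3, 2, 5, 1, 0, 2, 1, 3, 2, 1, 0, 1, 4, 3, 5, 1], [0, 1, 2, 1, 3, 4, 3, 2, 1, 3, 2, 1, 3, 4, 3, 2, 1, 0, 3, 2, 1, 0, 5, 1, 2, 3, 2, 1, 4, 3, 2, 1, 0, 1, 0], [1, 0, 4, 3, 2, 1, 0, 1, 3, 2, 4, 3, 2, 1, 3, 2, 3, 4, 3, 2, 1, 3, 5, 1, 0, 2, 3, 2, 1, 4, 3, 2, 3, 2, 4, 3], [0, 1, 4, 3, 2, 3, 2, 1, 0, 1, 4, 3, 2, 3, 2, 1, 0, 1, 2, 4, 5, 1, 0, 2, 1, 3, 2, 1, 4, 3, 2, 1], [2, 1, 3, 2, 1, 0, 3, 2, 4, 3, 2, 1, 0, 1, 0, 2, 3, 5, 1, 0, 2, 3, 2, 1, 4, 3, 2, 1, 0, 3, 4], [0, 1, 3, 4, 3, 2, 1, 3, 2, 1, 4, 3, 2, 1, 0, 1, 3, 2, 3, 2, 4, 5, 1, 0, 2, 1, 3, 2, 3, 2, 4, 3, 2, 1, 0], [2, 1, 0, 3, 2, 1, 0, 3, 2, 1, 4, 3, 2, 1, 0, 5, 1, 0, 2, 3, 2, 1, 0, 4, 3, 2, 1, 3, 2]]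

/-- In the presented sporadic Suzuki group (generators a, …, g), the subgroup generated by the images of a, …, f is isomorphic to the adjoint Chevalley group of type G₂ over a field with four elements. -/
theorem result : ∃ (K : Type) (_ : Field K) (_ : Fintype K), Fintype.card K = 4 ∧ Nonempty ((((Subgroup.closure ({Cfsg.Spor.Suz.a, Cfsg.Spor.Suz.b, Cfsg.Spor.Suz.c, Cfsg.Spor.Suz.d, Cfsg.Spor.Suz.e, Cfsg.Spor.Suz.f} : Set (FreeGroup Cfsg.Spor.Suz.Gen))).map (PresentedGroup.mk (Cfsg.Spor.coxRelators Cfsg.Spor.Suz.edges ∪ {r | r ∈ Cfsg.Spor.Suz.extra})))) ≃* Cfsg.Lie.chevG2.group K) := by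
  have e := Spor.SuzM.lt.map_closure (S := {Cfsg.Spor.Suz.a, Cfsg.Spor.Suz.b, Cfsg.Spor.Suz.c, Cfsg.Spor.Suz.d, Cfsg.Spor.Suz.e, Cfsg.Spor.Suz.f}) [Cfsg.Spor.Suz.a, Cfsg.Spor.Suz.b, Cfsg.Spor.Suz.c, Cfsg.Spor.Suz.d, Cfsg.Spor.Suz.e, Cfsg.Spor.Suz.f] (by ext; simp) (ws := Spor.JSuz1.subs) (by decide +kernel)
  rw [e]
  obtain ⟨ψ, hψ⟩ := Known.G24P.lifts _ _ ((pa.ren ren).rels (by decide +kernel))
  obtain ⟨e'⟩ := Known.G24T.equiv Spor.F4.card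
  have hs : IsSimpleGroup (Lie.chevG2.group Spor.F4) := (S1055.result (by decide)).1
  have : IsSimpleGroup Known.G24P.G := e'.symm.isSimpleGroup
  have hi : Function.Injective ψ := Spor.injective_of_simple ψ (x := Known.G24P.g 0) (by
    rw [hψ 0 (by decide)]
    have := (pa.ren ren).ne_one (w := [0]) 0 (by decide) (by decide +kernel)
    rwa [Spor.ev_cons, Spor.ev_nil, one_mul] at this)
  have hle : ψ.range ≤ Spor.SuzM.H := by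
    rw [MonoidHom.range_eq_map, ← Known.G24P.rep.top, Subgroup.map_le_iff_le_comap]
    refine Spor.genL_le fun x hx => ?_
    rw [Subgroup.mem_comap, hψ x (List.mem_range.1 hx)]
    exact (pa.ren ren).genL_le_stab Spor.SuzM.stab (by decide) (xs := List.range 14) (by decide +kernel)
      (Spor.mem_genL _ hx)
  have hc : Nat.card ψ.range = 251596800 := (Nat.card_congr (MonoidHom.ofInjective hi).toEquiv).symm.trans Known.G24P.card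
  have : Finite Spor.SuzM.H := Nat.finite_of_card_ne_zero (by rw [Spor.SuzM.cardH]; decide)
  have he : ψ.range = Spor.SuzM.H := Subgroup.eq_of_le_of_card_ge hle (by rw [hc, Spor.SuzM.cardH])
  exact ⟨Spor.F4, inferInstance, inferInstance, Spor.F4.card,
    ⟨((e'.trans (MonoidHom.ofInjective hi)).trans (MulEquiv.subgroupCongr he)).symm⟩⟩

end Cfsg.Agent.S1679
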