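import Cfsg.Statements.S1668
import Cfsg.Agent.SuzR.R3
import Cfsg.Agent.S1679

set_option autoImplicit false
open Cfsg

namespace Cfsg.Agent.S1668

/-- Recognition of the sporadic Suzuki group as a rank 3 permutation group: a transitive permutation group on 1782 points in which the stabiliser of a point is isomorphic to the Chevalley group G₂(4) and has two further orbits, of sizes 416 and 1365, is isomorphic to the sporadic Suzuki group. -/
theorem result {Ω : Type*} [Fintype Ω] [DecidableEq Ω] (hΩ : Fintype.card Ω = 1782) (G : Subgroup (Equiv.Perm Ω)) [MulAction.IsPretransitive G Ω] (a : Ω) (K : Type) [Field K] [Fintype K] (hK : Fintype.card K = 4) (e : MulAction.stabilizer G a ≃* Cfsg.Lie.chevG2.group K) (b c : Ω) (hb : (MulAction.orbit (MulAction.stabilizer G a) b).ncard = 416) (hc : (MulAction.orbit (MulAction.stabilizer G a) c).ncard = 1365) : Cfsg.Spor.IsoSuz G := by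
  obtain ⟨F, _, _, hF, ⟨e1⟩⟩ := S1679.result
  obtain ⟨e2⟩ := Known.G24T.equiv hF
  obtain ⟨e3⟩ := Known.G24T.equiv hK
  rw [Spor.SuzM.lt.map_closure [Spor.Suz.a, Spor.Suz.b, Spor.Suz.c, Spor.Suz.d, Spor.Suz.e, Spor.Suz.f] (by ext; simp)
    (ws := Spor.JSuz1.subs) (by decide +kernel)] at e1
  let e4 := (MulEquiv.subgroupCongr SuzR.H0_eq).trans (e1.trans (e2.trans (e3.symm.trans e.symm)))
  classical
  refine SuzR.rank3 (ε := fun g => if h : g ∈ SuzR.H0 then (e4 ⟨g, h⟩ : G) else 1) (Nat.card_eq_fintype_card.trans hΩ)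
    ⟨fun x hx y hy => ?_, fun x hx y hy h => ?_, fun x hx => ?_, fun s hs => ?_⟩ hb hc
  · rw [dif_pos hx, dif_pos hy, dif_pos (mul_mem hx hy), ← Subgroup.coe_mul, ← map_mul]; rfl
  · rw [dif_pos hx, dif_pos hy] at h
    exact congrArg Subtype.val (e4.injective (Subtype.ext h))
  · rw [dif_pos hx]; exact (e4 _).2
  · exact ⟨_, (e4.symm ⟨s, hs⟩).2, by rw [dif_pos (e4.symm ⟨s, hs⟩).2]; simp⟩

end Cfsg.Agent.S1668
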