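import Cfsg.Statements.S1686
import Cfsg.Agent.Spor.EqO73
import Cfsg.Agent.Spor.Fi22Rep

set_option autoImplicit false
open Cfsg

namespace Cfsg.Agent.S1686

/-- In the presented Fischer group Fi₂₂, the subgroup generated by the images of b, …, i is isomorphic to PΩ(7, 3), the commutator subgroup of the isometry group of the quadratic form x₀² + x₁y₁ + x₂y₂ + x₃y₃ over the integers mod 3, modulo its centre. -/
theorem result : Nonempty ((((Subgroup.closure ({Cfsg.Spor.Fi22.b, Cfsg.Spor.Fi22.c, Cfsg.Spor.Fi22.d, Cfsg.Spor.Fi22.e, Cfsg.Spor.Fi22.f, Cfsg.Spor.Fi22.g, Cfsg.Spor.Fi22.h, Cfsg.Spor.Fi22.i} : Set (FreeGroup Cfsg.Spor.Fi22.Gen))).map (PresentedGroup.mk (Cfsg.Spor.coxRelators Cfsg.Spor.Fi22.edges ∪ {r | r ∈ Cfsg.Spor.Fi22.extra})))) ≃* Cfsg.POmega (ZMod 3) (Cfsg.quadFormOdd 3 (ZMod 3))) := by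
  have e := Spor.Fi22M.lt.map_closure (S := {Cfsg.Spor.Fi22.b, Cfsg.Spor.Fi22.c, Cfsg.Spor.Fi22.d, Cfsg.Spor.Fi22.e, Cfsg.Spor.Fi22.f, Cfsg.Spor.Fi22.g, Cfsg.Spor.Fi22.h, Cfsg.Spor.Fi22.i}) [Cfsg.Spor.Fi22.b, Cfsg.Spor.Fi22.c, Cfsg.Spor.Fi22.d, Cfsg.Spor.Fi22.e, Cfsg.Spor.Fi22.f, Cfsg.Spor.Fi22.g, Cfsg.Spor.Fi22.h, Cfsg.Spor.Fi22.i] (by ext; simp) (ws := [[1], [2], [3], [4], [5], [6], [7], [8]]) (by decide +kernel)
  rw [e]
  obtain ⟨e1⟩ := Spor.EqO73.equiv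
  obtain ⟨e2⟩ := Spor.MdO73.model.equiv_of_top (b := Spor.sG Spor.Fi22M.g [[1], [2], [3], [4], [5], [6], [7], [8]])
    (Spor.sG_255 _ (by decide)) (Spor.sG_rels (Spor.Fi22M.lt.rels_of_relsG (by decide +kernel))) (w := [0])
    (by decide) (fun h => Spor.Fi22M.rep.ne_one (w := [1]) (p := 1) (q := 2440) (by decide) (by decide +kernel)
      (by decide) ((Spor.coe_ev_sG _ _ _).symm.trans (congrArg Subtype.val h))) (Spor.sG_top _ _)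
  exact ⟨e2.symm.trans e1⟩

end Cfsg.Agent.S1686
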