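import Cfsg.Statements.S1717
import Cfsg.Agent.Loc.PGrp

set_option autoImplicit false
open Cfsg

namespace Cfsg.Agent.S1717

open Cfsg.Agent.Loc Subgroup Matrix

theorem mem_syl {G V : Type*} [Group G] [AddCommGroup V] (ρ : G → V → V) (h1 : ∀ a b v, ρ (a * b) v = ρ a (ρ b v))
    (h2 : ∀ a u v, ρ a (u - v) = ρ a u - ρ a v) (h3 : ∀ v, ρ 1 v = v) (h4 : ∀ a, (∀ v, ρ a v = v) → a = 1)
    (h5 : ∀ v : V, v + v = 0) (f : V →+ ZMod 2) {C T : Subgroup G} (hf : ∀ a ∈ C, ∀ v, f (ρ a v) = f v) (hT : SylIn 2 T C)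
    {c : G} (hC : c ∈ C) (hc : ∀ v, f v = 0 → ρ c v = v) : c ∈ T := by
  let K : Subgroup G :=
    { carrier := {c | ∀ v, f v = 0 → ρ c v = v}
      one_mem' := fun v _ => h3 v
      mul_mem' := fun ha hb v hv => by rw [h1, hb v hv, ha v hv]
      inv_mem' := fun {a} ha v hv => by conv_lhs => rw [← ha v hv, ← h1, inv_mul_cancel, h3] }
  refine hT.le_of_le_normalizer (Q := C ⊓ K) inf_le_left (isPGroup_of_forall_pow fun a ha => ⟨1, h4 _ fun v => ?_⟩)
    (hT.le.trans (le_normalizer_of_cj_le fun g hg => cj_le_iff_forall.2 fun a ha =>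
      ⟨C.mul_mem (C.mul_mem hg ha.1) (C.inv_mem hg), fun v hv => ?_⟩)) ⟨hC, hc⟩
  · have := ha.2 (ρ a v - v) (by rw [map_sub, hf a ha.1, sub_self])
    rw [h2, sub_eq_iff_eq_add, sub_add_eq_add_sub, h5, zero_sub, neg_eq_of_add_eq_zero_left (h5 v)] at this
    rw [pow_one, sq, h1, this]
  · rw [h1, h1, ha.2 _ (by rw [hf _ (inv_mem hg), hv]), ← h1, mul_inv_cancel, h3]

theorem comm_tv {y : Matrix (Fin 5) (Fin 5) (ZMod 2)} {a b : Fin 5} (h : y * transvection a b 1 = transvection a b 1 * y) :
    (∀ i, i ≠ a → y i a = 0) ∧ (∀ j, j ≠ b → y b j = 0) ∧ y a a = y b b := by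
  rw [transvection, mul_add, add_mul, mul_one, one_mul, add_right_inj] at h
  refine ⟨fun i hi => ?_, fun j hj => ?_, ?_⟩
  · simpa [hi] using congrFun (congrFun h i) b
  · simpa [hj] using (congrFun (congrFun h a) j).symm
  · simpa using congrFun (congrFun h a) b

/-- a transvection -/
def tv {a b : Fin 5} (h : a ≠ b) : SpecialLinearGroup (Fin 5) (ZMod 2) := ⟨transvection a b 1, det_transvection_of_ne _ _ h _⟩

theorem cen {s y : SpecialLinearGroup (Fin 5) (ZMod 2)} (hs : s.1 = transvection 0 1 1)
    {T : Subgroup (SpecialLinearGroup (Fin 5) (ZMod 2))} (hT : SylIn 2 T (centralizer {s})) (hyC : y ∈ centralizer {s})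
    (hy : y ∈ centralizer (T : Set (SpecialLinearGroup (Fin 5) (ZMod 2)))) : y = 1 ∨ y = s := by
  have hC : ∀ c ∈ centralizer {s}, c.1 * transvection 0 1 1 = transvection 0 1 1 * c.1 := fun c hc => by
    rw [← hs, ← Matrix.SpecialLinearGroup.coe_mul, mem_centralizer_singleton_iff.1 hc, Matrix.SpecialLinearGroup.coe_mul]
  have h0 : ∀ c ∈ centralizer {s}, c.1 0 0 = 1 := fun c hc => by
    by_contra h
    have := det_eq_zero_of_column_eq_zero (A := c.1) 0 fun i => by
      by_cases hi : i = 0
      · rw [hi]; revert h; generalize c.1 0 0 = x; decide +revert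
      · exact (comm_tv (hC c hc)).1 i hi
    exact zero_ne_one (this.symm.trans c.2)
  have h5 : ∀ v : Fin 5 → ZMod 2, v + v = 0 := fun v => funext fun i => CharTwo.add_self_eq_zero _
  have htv : ∀ {a b : Fin 5} (h : a ≠ b), a ≠ 1 → b ≠ 0 → tv h ∈ centralizer {s} := fun h h1 h2 =>
    mem_centralizer_singleton_iff.2 (Subtype.ext (by
      rw [Matrix.SpecialLinearGroup.coe_mul, Matrix.SpecialLinearGroup.coe_mul, hs]
      simp [tv, transvection, mul_add, add_mul, single_mul_single_of_ne, h1.symm, h2, add_comm, add_left_comm]))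
  have hA : ∀ b (h : 0 ≠ b), y.1 * transvection 0 b 1 = transvection 0 b 1 * y.1 := fun b h =>
    congrArg (·.1) (hy (tv h) ((T.inv_mem_iff).1 (mem_syl (fun (c : SpecialLinearGroup (Fin 5) (ZMod 2)) v => v ᵥ* (c⁻¹).1)
      (fun a b v => by rw [_root_.mul_inv_rev, Matrix.SpecialLinearGroup.coe_mul, vecMul_vecMul]) (fun a u v => sub_vecMul _ _ _)
      (fun v => by rw [inv_one]; exact vecMul_one v)
      (fun a h => inv_eq_one.1 (by
        generalize a⁻¹ = b at h
        exact Subtype.ext (vecMul_injective (funext fun v => (h v).trans (vecMul_one v).symm))))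
      h5 (Pi.evalAddMonoidHom _ 0) (fun a ha v => by
        have h1 := (comm_tv (hC _ (inv_mem ha))).1
        have h2 := h0 _ (inv_mem ha)
        generalize (a⁻¹).1 = m at h1 h2
        simp [vecMul, dotProduct, Fin.sum_univ_succ, h1, h2]) hT (inv_mem (htv h (by decide) h.symm))
      fun v hv => by
        have : v 0 = 0 := hv
        ext j
        rw [inv_inv]
        simp [tv, transvection, vecMul_add, vecMul, dotProduct, Fin.sum_univ_succ, this, single_apply, one_apply]
        fin_cases j <;> simp [this]))).symm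
  have hB : ∀ a (h : a ≠ 1), y.1 * transvection a 1 1 = transvection a 1 1 * y.1 := fun a h =>
    congrArg (·.1) (hy (tv h) (mem_syl (fun (c : SpecialLinearGroup (Fin 5) (ZMod 2)) v => c.1 *ᵥ v)
      (fun a b v => by rw [Matrix.SpecialLinearGroup.coe_mul, mulVec_mulVec]) (fun a u v => mulVec_sub _ _ _) one_mulVec
      (fun a h => Subtype.ext (mulVec_injective (funext fun v => (h v).trans (one_mulVec v).symm)))
      h5 (Pi.evalAddMonoidHom _ 1) (fun a ha v => by
        simp [mulVec, dotProduct, Fin.sum_univ_succ, (comm_tv (hC a ha)).2.1, ← (comm_tv (hC a ha)).2.2, h0 a ha]) hT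
      (htv h h (by decide)) fun v hv => by simpa [tv, transvection, add_mulVec, single_mulVec] using hv)).symm
  have e : y.1 = transvection 0 1 (y.1 0 1) := by
    ext i j
    by_cases hi : i = 0
    · subst hi
      fin_cases j <;> simp [transvection, h0 y hyC, (comm_tv (hB 2 (by decide))).1, (comm_tv (hB 3 (by decide))).1,
        (comm_tv (hB 4 (by decide))).1]
    · by_cases hj : j = i
      · subst hj; simp [transvection, ← (comm_tv (hA j (Ne.symm hi))).2.2, h0 y hyC, Ne.symm hi]
      · simp [transvection, (comm_tv (hA i (Ne.symm hi))).2.1 j hj, Ne.symm hi, Ne.symm hj]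
  generalize y.1 0 1 = x at e
  fin_cases x
  · exact .inl (Subtype.ext (e.trans (transvection_zero _ _)))
  · exact .inr (Subtype.ext (e.trans hs.symm))

/-- Let G be a finite group with an involution z whose centraliser C is isomorphic to the centraliser of a transvection of SL(5, 2). Then a Sylow 2-subgroup of C, viewed in G, is a Sylow 2-subgroup of G (its index in G is odd). -/
theorem result {G : Type*} [Group G] [Finite G] (s : Matrix.SpecialLinearGroup (Fin 5) (ZMod 2)) (hs : (s : Matrix (Fin 5) (Fin 5) (ZMod 2)) = Matrix.transvection 0 1 1) (z : G) (hz : orderOf z = 2) (e : (Subgroup.centralizer ({z} : Set G)) ≃* Subgroup.centralizer ({s} : Set (Matrix.SpecialLinearGroup (Fin 5) (ZMod 2)))) (T : Sylow 2 (Subgroup.centralizer ({z} : Set G))) : ¬ 2 ∣ ((T : Subgroup (Subgroup.centralizer ({z} : Set G))).map (Subgroup.subtype (Subgroup.centralizer ({z} : Set G)))).index := by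
  have hT := sylIn_map_subtype T
  let f := (centralizer {s}).subtype.comp e.toMonoidHom
  have hf : Function.Injective f := Subtype.val_injective.comp e.injective
  have hT' : SylIn 2 ((T : Subgroup _).map f) (centralizer {s}) := by
    have := (sylIn_top T).map_of_injective hf
    rwa [← MonoidHom.range_eq_map, MonoidHom.range_comp, MonoidHom.range_eq_top.2 e.surjective,
      ← MonoidHom.range_eq_map, range_subtype] at this
  have hz1 : z ≠ 1 := fun h => by simp [h] at hz
  have hzT : z ∈ centralizer (((T : Subgroup _).map (centralizer {z}).subtype : Subgroup G) : Set G) := fun t ht =>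
    mem_centralizer_singleton_iff.1 (hT.le ht)
  have key : ∀ y (hy : y ∈ centralizer {z}), y ≠ 1 →
      y ∈ centralizer (((T : Subgroup _).map (centralizer {z}).subtype : Subgroup G) : Set G) → f ⟨y, hy⟩ = s :=
    fun y hy h1 h2 => (cen hs hT' (e ⟨y, hy⟩).2 (by
      rintro _ ⟨t, ht, rfl⟩
      exact (f.map_mul t ⟨y, hy⟩).symm.trans ((congrArg f (Subtype.ext (h2 t ⟨t, ht, rfl⟩))).trans (f.map_mul ⟨y, hy⟩ t)))).resolve_left fun h =>
        h1 (congrArg Subtype.val (hf (h.trans f.map_one.symm)))
  have hS := sylIn_of_sylIn_normalizer (H := ⊤) (hT.mono (le_inf le_top le_normalizer) fun g hg => by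
    have h1 := conj_mem_of_mem_normalizer (normalizer_le_normalizer_centralizer _ hg.2) hzT
    have h2 : z ∈ (T : Subgroup _).map (centralizer {z}).subtype := hT.le_of_normalizes
      (zpowers_le.2 (mem_centralizer_singleton_iff.2 rfl)) (isPGroup_zpowers_of_orderOf (k := 1) hz)
      (zpowers_le.2 (centralizer_le_normalizer _ hzT)) (mem_zpowers z)
    exact mem_centralizer_singleton_iff.2 (mul_inv_eq_iff_eq_mul.1 (congrArg Subtype.val (hf
      ((key _ (mem_centralizer_singleton_iff.2 (h1 z h2).symm) (by simpa using hz1) h1).trans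
        (key z (mem_centralizer_singleton_iff.2 rfl) hz1 hzT).symm)))))
  simpa using hS.not_dvd_relIndex

end Cfsg.Agent.S1717
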