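import Cfsg.Statements.S1755
import Cfsg.Agent.Sig.FStar
import Cfsg.Agent.Loc.PGrp

set_option autoImplicit false
open Cfsg

namespace Cfsg.Agent.S1755

open Cfsg.Agent.Loc Subgroup

theorem eq_of_cyc {G : Type*} [Group G] [Finite G] {A : Subgroup G} (h : IsCyclic A) {a b : G} (ha : a ∈ A) (hb : b ∈ A)
    (h1 : orderOf a = 2) (h2 : orderOf b = 2) : a = b := by
  classical
  haveI := Fintype.ofFinite A
  have := IsCyclic.card_orderOf_eq_totient (α := A) (d := 2) (by
    rw [← Nat.card_eq_fintype_card, ← h1]; exact orderOf_dvd_natCard _ ha)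
  obtain ⟨c, hc⟩ := Finset.card_eq_one.1 this
  have e : ∀ x : A, orderOf (x : G) = 2 → x = c := fun x hx =>
    Finset.mem_singleton.1 (hc ▸ Finset.mem_filter.2 ⟨Finset.mem_univ _, by rw [← hx, orderOf_coe]⟩)
  exact congrArg Subtype.val ((e ⟨a, ha⟩ h1).trans (e ⟨b, hb⟩ h2).symm)

theorem aux {G : Type*} [Group G] [Finite G] {z : G} (hz : orderOf z = 2) {C : Subgroup G} (hC : C = centralizer {z})
    {F : Subgroup C} [F.Characteristic] (hF : centralizer (F : Set C) ≤ F) (hQ : Cfsg.IsOfSymplecticType F) (B : Subgroup F)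
    [hBc : B.Characteristic] (hBa : IsMulCommutative B) (g : G) :
    cj g ((B.map F.subtype).map C.subtype) = (B.map F.subtype).map C.subtype ∨
      cj g ((B.map F.subtype).map C.subtype) ⊓ (B.map F.subtype).map C.subtype = ⊥ := by
  have hzC : z ∈ C := hC ▸ mem_centralizer_singleton_iff.2 rfl
  have hc : ∀ x : C, x * ⟨z, hzC⟩ = ⟨z, hzC⟩ * x := fun x => Subtype.ext (mem_centralizer_singleton_iff.1 (hC ▸ x.2))
  have hzF : (⟨z, hzC⟩ : C) ∈ F := hF fun x _ => hc x
  have key : ∀ x ∈ (B.map F.subtype).map C.subtype, orderOf x = 2 → x = z := by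
    rintro _ ⟨_, ⟨x, hx, rfl⟩, rfl⟩ h2
    rw [coe_subtype, coe_subtype, orderOf_coe, orderOf_coe] at h2
    have : x = ⟨_, hzF⟩ := eq_of_cyc (hQ.2 (center F) inferInstance inferInstance) (mem_center_iff.2 fun y =>
      mul_inv_eq_iff_eq_mul.1 (eq_of_cyc (hQ.2 B hBc hBa) (Normal.conj_mem inferInstance x hx y) hx
        (by rw [← MulAut.conj_apply, MulEquiv.orderOf_eq, h2]) h2))
      (mem_center_iff.2 fun y => Subtype.ext (hc y)) h2 (by rw [← orderOf_coe, ← orderOf_coe]; exact hz)
    rw [this]; rfl
  rw [or_iff_not_imp_right]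
  intro hne
  obtain ⟨x, ⟨h1, h2⟩, hx1, hx2⟩ := exists_pow_eq_one_of_isPGroup (p := 2)
    ((((hQ.1.to_subgroup B).map _).map _).to_inf_right) hne
  have ho := orderOf_eq_prime hx2 hx1
  have h3 := key _ (mem_cj.1 h1) (by rw [← ho, ← MulAut.conj_inv_apply, MulEquiv.orderOf_eq])
  rw [key x h2 ho] at h3
  exact cj_eq_of_mem_normalizer (normal_map_subtype inferInstance (hC ▸ mem_centralizer_singleton_iff.2
    (by rw [mul_assoc, inv_mul_eq_iff_eq_mul] at h3; exact h3.symm) : g ∈ C))

/-- Let G be a finite group and let z be an involution of G such that Q, the generalized Fitting subgroup of the centralizer C of z, is a 2-group of symplectic type (every characteristic abelian subgroup of Q is cyclic). Let B be a characteristic abelian subgroup of Q, viewed as a subgroup of G. Then for every g in G, the conjugate of B by g either equals B or meets B trivially. -/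
theorem result {G : Type*} [Group G] [Finite G] (z : G) (hz : orderOf z = 2) (hQ : Cfsg.IsOfSymplecticType ↥(Cfsg.generalizedFittingSubgroup ↥(Subgroup.centralizer ({z} : Set G))))
    (B : Subgroup ↥(Cfsg.generalizedFittingSubgroup ↥(Subgroup.centralizer ({z} : Set G)))) (hBc : B.Characteristic) (hBa : IsMulCommutative ↥B) (g : G) :
    ((B.map (Cfsg.generalizedFittingSubgroup ↥(Subgroup.centralizer ({z} : Set G))).subtype).map (Subgroup.centralizer ({z} : Set G)).subtype).map (MulAut.conj g).toMonoidHom =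
        (B.map (Cfsg.generalizedFittingSubgroup ↥(Subgroup.centralizer ({z} : Set G))).subtype).map (Subgroup.centralizer ({z} : Set G)).subtype ∨
      ((B.map (Cfsg.generalizedFittingSubgroup ↥(Subgroup.centralizer ({z} : Set G))).subtype).map (Subgroup.centralizer ({z} : Set G)).subtype).map (MulAut.conj g).toMonoidHom ⊓
        (B.map (Cfsg.generalizedFittingSubgroup ↥(Subgroup.centralizer ({z} : Set G))).subtype).map (Subgroup.centralizer ({z} : Set G)).subtype = ⊥ := by
  exact aux hz rfl Sig.centralizer_fstar_le hQ B hBa g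

end Cfsg.Agent.S1755
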