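import Cfsg.Statements.S1756
import Cfsg.Agent.BG4.Tools
import Cfsg.Agent.Loc.Comm
import Mathlib.Tactic.Group

set_option autoImplicit false
open Cfsg

namespace Cfsg.Agent.S1756
open scoped commutatorElement

open BG

/-- Let Q be an extraspecial 2-subgroup of the finite group G (special with centre of order 2) and t an involution of G normalizing Q such that the centralizer of t in Q has index at most 2 in Q. Then t lies in the product of Q with the centralizer of Q. -/
theorem result {G : Type*} [Group G] [Finite G] (Q : Subgroup G)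
    (hQ : Cfsg.IsExtraspecial 2 ↥Q) (t : G) (ht : orderOf t = 2) (htN : t ∈ Subgroup.normalizer (Q : Set G))
    (hi : (Subgroup.centralizer ({t} : Set G) ⊓ Q).relIndex Q ≤ 2) :
    t ∈ Q ⊔ Subgroup.centralizer (Q : Set G) := by
  have := Fact.mk Nat.prime_two
  obtain ⟨hp, hΦ, hD, hc⟩ := BG4.extraspecial_iff.1 hQ
  have ht2 : t * t = 1 := by rw [← sq, ← ht, pow_orderOf_eq_one]
  have ti : t⁻¹ = t := inv_eq_of_mul_eq_one_right ht2
  have hT : Subgroup.zpowers t ≤ N[Q] := Subgroup.zpowers_le.2 htN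
  have hTp : IsPGroup 2 (Subgroup.zpowers t) := pgroup_of_card_p ((Nat.card_zpowers t).trans ht)
  have hZ : ∀ u ∈ Z[Q], t * u * t = u := fun u hu => by
    rw [← ti]; nth_rewrite 1 [ti]
    exact conj_eq_of_cent (pgroup_cent_prime hTp hc (norms_center hT) (Subgroup.mem_zpowers t)) hu
  have hm : ∀ {x y}, x ∈ Q → y ∈ Q → t * x * t ≠ x → t * y * t ≠ y → t * (x * y) * t = x * y := fun {x y} hx hy h1 h2 => by
    have hi2 : (C1[t] ⊓ Q).relIndex Q = 2 := by
      refine le_antisymm hi ?_
      have := relIndex_pos (C1[t] ⊓ Q) Q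
      by_contra! h3
      have h4 := (Subgroup.relIndex_eq_one.1 (by omega : (C1[t] ⊓ Q).relIndex Q = 1) hx).1
      exact h1 (by rw [← mem_cent1.1 h4, mul_assoc, ht2, mul_one])
    have hn : ∀ {x} (hx : x ∈ Q), (⟨x, hx⟩ : Q) ∈ (C1[t] ⊓ Q).subgroupOf Q ↔ t * x * t = x := fun {x} hx => by
      rw [Subgroup.mem_subgroupOf, Subgroup.mem_inf, and_iff_left hx, mem_cent1]
      exact ⟨fun h => by rw [← h, mul_assoc, ht2, mul_one], fun h => by
        calc x * t = t * x * t * t := by rw [h]
          _ = _ := by rw [mul_assoc, ht2, mul_one]⟩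
    exact (hn (Q.mul_mem hx hy)).1 (((Subgroup.mul_mem_iff_of_index_two hi2 (a := ⟨x, hx⟩) (b := ⟨y, hy⟩))).2
      (by rw [hn, hn]; tauto))
  have cj_mul : ∀ x y, t * (x * y) * t = (t * x * t) * (t * y * t) := fun x y => by
    calc t * (x * y) * t = t * x * (t * t) * y * t := by rw [ht2]; group
      _ = _ := by group
  have cj_inv : ∀ x, t * x⁻¹ * t = (t * x * t)⁻¹ := fun x => by rw [mul_inv_rev, mul_inv_rev, ti, mul_assoc]
  have cj_cj : ∀ x, t * (t * x * t) * t = x := fun x => by
    calc _ = (t * t) * x * (t * t) := by group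
      _ = _ := by rw [ht2]; group
  have cjQ : ∀ x ∈ Q, t * x * t ∈ Q := fun x hx => by
    have := conj_mem_of_norm htN hx
    rwa [ti] at this
  have key : ∀ x ∈ Q, x⁻¹ * (t * x * t) ∈ Z[Q] := fun x hx => by
    by_cases h : t * x * t = x
    · rw [h, inv_mul_cancel]; exact one_mem _
    have h' : t * x⁻¹ * t ≠ x⁻¹ := by rw [cj_inv]; exact fun e => h (inv_injective e)
    obtain ⟨a, ha⟩ : ∃ a, t * x * t = x * a := ⟨x⁻¹ * (t * x * t), by group⟩
    have haQ : a ∈ Q := by simpa [ha] using Q.mul_mem (Q.inv_mem hx) (cjQ x hx)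
    have h1 : t * a * t = a := by
      have := hm (Q.inv_mem hx) (cjQ x hx) h' (by rw [cj_cj]; exact Ne.symm h)
      simpa [ha] using this
    have h2 : a * a = 1 := by
      have := cj_cj x
      rw [ha, cj_mul, ha, h1, mul_assoc] at this
      exact mul_eq_left.1 this
    have h3 : a * x = x * a := by
      have := hm hx hx h h
      rw [cj_mul, ha] at this
      calc a * x = x⁻¹ * (x * a * (x * a)) * a * (a * a)⁻¹ := by group
        _ = _ := by rw [this, h2]; group
    have h4 : ∀ c ∈ Q, t * c * t = c → c * a = a * c := fun c hc h5 => by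
      have := hZ _ (hD.le (Subgroup.commutator_mem_commutator hx hc))
      rw [commutatorElement_def, cj_mul, cj_mul, cj_mul, cj_inv, cj_inv, ha, h5] at this
      calc c * a = x⁻¹ * (x * c * x⁻¹ * c⁻¹) * c * x * a := by group
        _ = _ := by rw [← this]; group
    rw [ha, inv_mul_cancel_left]
    refine ⟨haQ, fun y hy => ?_⟩
    by_cases h5 : t * y * t = y
    · exact h4 y hy h5
    · have := h4 _ (Q.mul_mem (Q.inv_mem hx) hy) (hm (Q.inv_mem hx) hy h' h5)
      calc y * a = x * (x⁻¹ * y * a) := by group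
        _ = x * a * x⁻¹ * y := by rw [this]; group
        _ = _ := by rw [← h3]; group
  have hR : ⁅Q, Q ⊔ Subgroup.zpowers t⁆ ≤ Z[Q] := by
    rw [commGC]
    refine comm_sup_le (center_normal Q).norm (norms_center hT) hD.le ?_
    rw [commGC]
    refine Loc.commutator_zpowers_right_le (norms_center hT (Subgroup.mem_zpowers t)) fun c hc => ?_
    have := key _ (Q.inv_mem hc)
    rwa [commutatorElement_def, ti, mul_assoc, mul_assoc, ← mul_assoc t, ← inv_inv c, inv_inv c⁻¹]
  have := (BG4.cprod_of_comm_le_center (hp.to_sup_of_normal_left' hTp hT) le_sup_left hc.le hR).sup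
  exact (sup_le_sup_left inf_le_right Q :) (this.ge (Subgroup.mem_sup_right (Subgroup.mem_zpowers t)))

end Cfsg.Agent.S1756
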