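import Cfsg.Statements.S1774
import Cfsg.Agent.PGrp.Sympl
import Cfsg.Agent.PGrp.ES
import Cfsg.Agent.Sig.FStar
import Cfsg.Agent.S1755

set_option autoImplicit false
open Cfsg

namespace Cfsg.Agent.S1774

open Cfsg.Agent.Loc Subgroup

variable {G : Type*} [Group G] {z t : G} {Q T : Subgroup G}

/-- the data of a large symplectic type subgroup of exponent four -/
structure Dat (z : G) (Q : Subgroup G) : Prop where
  two : z * z = 1
  mem : z ∈ Q
  sq : ∀ q ∈ Q, q * q = 1 ∨ q * q = z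
  cen : ∀ q ∈ Q, Commute q z
  uniq : ∀ q ∈ Q, q * q = 1 → (∀ x ∈ Q, Commute q x) → q = 1 ∨ q = z
  norm : ∀ g, Commute g z → g ∈ normalizer (Q : Set G)
  large : ∀ g, (∀ x ∈ Q, Commute g x) → g ∈ Q

namespace Dat

theorem conj (h : Dat z Q) (g : G) : Dat (g * z * g⁻¹) (cj g Q) := by
  have c : ∀ a b, Commute (g * a * g⁻¹) (g * b * g⁻¹) ↔ Commute a b := fun a b =>
    ⟨fun h => Commute.of_map (MulAut.conj g).injective h, fun h => h.map (MulAut.conj g)⟩
  have s : ∀ x, ∃ y, x = g * y * g⁻¹ := fun x => ⟨g⁻¹ * x * g, by group⟩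
  refine ⟨by rw [conj_mul, h.two, mul_one, mul_inv_cancel], conj_mem_cj h.mem, fun q hq => ?_, fun q hq => ?_,
    fun q hq h1 h2 => ?_, fun q hq => ?_, fun q hq => ?_⟩ <;> obtain ⟨q, rfl⟩ := s q
  · rw [conj_mul]; exact (h.sq q (conj_mem_cj_iff.1 hq)).imp (fun e => by rw [e, mul_one, mul_inv_cancel]) fun e => by rw [e]
  · exact (c _ _).2 (h.cen q (conj_mem_cj_iff.1 hq))
  · rw [conj_mul, conj_eq_one_iff] at h1
    exact (h.uniq q (conj_mem_cj_iff.1 hq) h1 fun x hx => (c _ _).1 (h2 _ (conj_mem_cj hx))).imp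
      (fun e => by rw [e, mul_one, mul_inv_cancel]) fun e => by rw [e]
  · rw [← cj_normalizer]; exact conj_mem_cj (h.norm q ((c _ _).1 hq))
  · exact conj_mem_cj (h.large q fun x hx => (c _ _).1 (hq _ (conj_mem_cj hx)))

theorem anti (h : Dat z Q) {a b : G} (ha : a ∈ Q) (hb : b ∈ Q) (hn : ¬ Commute a b) : a * b = z * (b * a) := by
  let K : Subgroup G :=
    { carrier := {x | x = 1 ∨ x = z}
      one_mem' := .inl rfl
      mul_mem' := by rintro _ _ (rfl | rfl) (rfl | rfl) <;> simp [h.two]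
      inv_mem' := by rintro _ (rfl | rfl) <;> simp [inv_eq_of_mul_eq_one_right h.two] }
  have : a * a * (a⁻¹ * b * (a⁻¹ * b)) * (b * b)⁻¹ ∈ K :=
    mul_mem (mul_mem (h.sq a ha) (h.sq _ (mul_mem (inv_mem ha) hb))) (K.inv_mem (h.sq b hb))
  rw [show a * a * (a⁻¹ * b * (a⁻¹ * b)) * (b * b)⁻¹ = a * b * (b * a)⁻¹ by group] at this
  exact mul_inv_eq_iff_eq_mul.1 (this.resolve_left fun e => hn (mul_inv_eq_one.1 e))

theorem mul_comm' (h : Dat z Q) {a b r : G} (ha : a ∈ Q) (hb : b ∈ Q) (hr : r ∈ Q) (e : Commute a r ↔ Commute b r) :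
    Commute (a * b) r := by
  by_cases c : Commute b r
  · exact (e.2 c).mul_left c
  change a * b * r = r * (a * b)
  rw [mul_assoc, h.anti hb hr c, ← mul_assoc, (h.cen a ha).eq, mul_assoc, ← mul_assoc a, h.anti ha hr (mt e.1 c),
    ← mul_assoc, ← mul_assoc, h.two, one_mul, mul_assoc]

theorem four (h : Dat z Q) (ht : t ∈ Q) (h2 : t * t = 1) {x : G} (hx : x ∈ Q) (hn : ¬ Commute x t) {d : G} (hd : d ∈ Q)
    (hd2 : d * d = 1) (hc : ∀ p ∈ Q, Commute p t → Commute d p) : d = 1 ∨ d = z ∨ d = t ∨ d = z * t := by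
  have k : ∀ e ∈ Q, (∀ p ∈ Q, Commute p t → Commute e p) → Commute e x → ∀ p ∈ Q, Commute e p := fun e _ h1 h2 p hp => by
    by_cases c : Commute p t
    · exact h1 p hp c
    simpa using h2.inv_right.mul_right (h1 _ (mul_mem hx hp) (h.mul_comm' hx hp ht (iff_of_false hn c)))
  by_cases c : Commute d x
  · exact (h.uniq d hd hd2 (k d hd hc c)).imp_right .inl
  have e : ∀ u, d * t = u → d = u * t := fun u hu => by rw [← hu, mul_assoc, h2, mul_one]
  rcases h.uniq _ (mul_mem hd ht) (by rw [((hc t ht (.refl t)).symm).mul_mul_mul_comm, hd2, h2, one_mul])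
    (k _ (mul_mem hd ht) (fun p hp c => (hc p hp c).mul_left c.symm)
      (h.mul_comm' hd ht hx (iff_of_false c fun c => hn c.symm))) with h1 | h1
  · exact .inr (.inr (.inl ((e _ h1).trans (one_mul t))))
  · exact .inr (.inr (.inr (e _ h1)))

theorem exists_not (h : Dat z Q) (ht : t ∈ Q) (h2 : t * t = 1) (h1 : t ≠ 1) (hz : t ≠ z) : ∃ x ∈ Q, ¬ Commute x t := by
  by_contra! hc
  exact (h.uniq t ht h2 fun x hx => (hc x hx).symm).elim h1 hz

theorem conj_eq (h : Dat z Q) (ht : t ∈ Q) {x : G} (hx : x ∈ Q) (hn : ¬ Commute x t) : x * t * x⁻¹ = z * t := by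
  rw [h.anti hx ht hn]; group

theorem main (h : Dat z Q) (h1 : z ≠ 1) {g : G} (hne : g * z * g⁻¹ ≠ z) (ht : g * z * g⁻¹ ∈ Q) : z ∈ cj g Q := by
  by_contra hz
  have k := h.conj g
  have hg : ∀ y, y * z * y⁻¹ = g * z * g⁻¹ → cj y Q = cj g Q := fun y e => by
    have := cj_eq_of_mem_normalizer (h.norm (y⁻¹ * g) (by
      change _ = _
      calc y⁻¹ * g * z = y⁻¹ * (g * z * g⁻¹) * g := by group
        _ = _ := by rw [← e]; group))
    conv_lhs => rw [← this, cj_cj, mul_inv_cancel_left]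
  have hs : (∀ p ∈ Q, Commute p (g * z * g⁻¹) → p = 1 ∨ p = z ∨ p = g * z * g⁻¹ ∨ p = z * (g * z * g⁻¹)) →
      ∃ s ∈ cj g Q, ∀ p ∈ cj g Q, Commute p s → p = 1 ∨ p = g * z * g⁻¹ ∨ p = s ∨ p = g * z * g⁻¹ * s := fun hp =>
    ⟨_, conj_mem_cj ht, fun p hp' c => by
      obtain ⟨p, hq, rfl⟩ := mem_cj_iff_exists.1 hp'
      rcases hp p hq (Commute.of_map (MulAut.conj g).injective c) with rfl | rfl | rfl | rfl <;> simp [conj_mul]⟩
  have h1' : g * z * g⁻¹ ≠ 1 := by simpa using h1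
  generalize g * z * g⁻¹ = t at *
  generalize cj g Q = T at *
  have zt := (h.cen t ht).symm
  have zi : z⁻¹ = z := inv_eq_of_mul_eq_one_right h.two
  have ti : t⁻¹ = t := inv_eq_of_mul_eq_one_right k.two
  have nz := k.norm z zt
  obtain ⟨x, hx, hxt⟩ := h.exists_not ht k.two h1' hne
  have s1 : ∀ y ∈ T, y * z * y⁻¹ ≠ z * t := fun y hy e => hz (by
    have hx' := h.conj_eq ht hx hxt
    have h3 : t ∈ cj y Q := by rw [mem_cj, (k.cen _ (inv_mem hy)).eq, inv_mul_cancel_right]; exact ht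
    rw [← hg (x⁻¹ * y) (by
      calc _ = x⁻¹ * (y * z * y⁻¹) * x := by group
        _ = _ := by rw [e, ← hx']; group), ← cj_cj, mem_cj_inv, (h.cen x hx).eq, mul_inv_cancel_right,
      ← (cj y Q).mul_mem_cancel_right h3, ← e]
    exact conj_mem_cj h.mem)
  have cm : ∀ {p y}, p ∈ normalizer (T : Set G) → y ∈ T → p * y * p⁻¹ * y⁻¹ ∈ T := fun hp hy =>
    mul_mem (conj_mem_of_mem_normalizer hp hy) (inv_mem hy)
  have iv : ∀ y, z * (z * y * z⁻¹ * y⁻¹) * z⁻¹ = (z * y * z⁻¹ * y⁻¹)⁻¹ := fun y => by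
    rw [← mul_assoc, ← mul_assoc, ← mul_assoc, h.two]; simp [mul_assoc, zi]
  have s2 : ∀ y ∈ T, (∀ u ∈ T, Commute (z * y * z⁻¹ * y⁻¹) u) → Commute z y := fun y hy hc => by
    rcases k.sq _ (cm nz hy) with e | e
    · refine ((k.uniq _ (cm nz hy) e hc).resolve_right fun e => s1 y hy ?_) |> commutatorElement_eq_one_iff_commute.1
      rw [← e, zi, ← mul_assoc, ← mul_assoc, ← mul_assoc, h.two, one_mul]
    refine absurd ?_ (s1 _ (cm nz hy))
    have := iv y
    generalize z * y * z⁻¹ * y⁻¹ = c at this e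
    calc c * z * c⁻¹ = c * (z * c * z⁻¹)⁻¹ * z := by group
      _ = _ := by rw [this, inv_inv, e, zt.eq]
  have s2' : ∀ y ∈ T, z * y * z⁻¹ * y⁻¹ = 1 ∨ z * y * z⁻¹ * y⁻¹ = t → Commute z y := fun y hy e => s2 y hy fun u hu => by
    rcases e with e | e <;> rw [e]
    exacts [.one_left u, (k.cen u hu).symm]
  have s3 : ∀ y ∈ T, Commute z (z * y * z⁻¹ * y⁻¹) := fun y hy => s2' _ (cm nz hy) (by
    rw [iv]; exact k.sq _ (inv_mem (cm nz hy)))
  have s4 : ∀ d ∈ Q, d ∈ T → d = 1 ∨ d = t := fun d hd hd' => by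
    rcases h.four ht k.two hx hxt hd ((h.sq d hd).resolve_right fun e => hz (e ▸ mul_mem hd' hd')) (fun p hp c => by
      by_contra hn
      have := cm (k.norm p c) hd'
      rw [h.anti hp hd (fun c => hn c.symm), show z * (d * p) * p⁻¹ * d⁻¹ = z by group] at this
      exact hz this) with e | e | e | e
    · exact .inl e
    · exact absurd (e ▸ hd') hz
    · exact .inr e
    · exact absurd ((T.mul_mem_cancel_right k.mem).1 (e ▸ hd')) hz
  have s5 : ∀ p ∈ Q, Commute p t → ∀ r ∈ T, Commute z r → p * r * p⁻¹ = r ∨ p * r * p⁻¹ = t * r := fun p hp c r hr cr => by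
    have := s4 _ (by
      rw [mul_assoc, mul_assoc, ← mul_assoc r]
      exact mul_mem hp (conj_mem_of_mem_normalizer (h.norm r cr.symm) (inv_mem hp))) (cm (k.norm p c) hr)
    exact this.imp mul_inv_eq_one.1 mul_inv_eq_iff_eq_mul.1
  have cc : ∀ p a b : G, Commute (p * a * p⁻¹) b ↔ Commute a (p⁻¹ * b * p⁻¹⁻¹) := fun p a b =>
    ⟨fun c => by simpa [mul_assoc] using c.map (MulAut.conj p⁻¹), fun c => by simpa [mul_assoc] using c.map (MulAut.conj p)⟩
  have s7 : ∀ w ∈ T, (∀ r ∈ T, Commute z r → Commute w r) → Commute z w := fun w hw hc => s2 w hw fun y hy =>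
    k.mul_comm' (conj_mem_of_mem_normalizer nz hw) (inv_mem hw) hy (by
      have := hc _ (cm nz hy) (s3 y hy)
      rw [cc, Commute.inv_left_iff, zi, ← inv_mul_cancel_right (z * y * z⁻¹) y]
      generalize z * y * z⁻¹ * y⁻¹ = c at this
      exact ⟨fun c => by simpa using this.inv_right.mul_right c, this.mul_right⟩)
  have s6 : ∀ p ∈ Q, Commute p t → ∀ y ∈ T, Commute z (p * y * p⁻¹ * y⁻¹) := fun p hp c y hy =>
    s7 _ (cm (k.norm p c) hy) fun r hr cr => k.mul_comm' (conj_mem_of_mem_normalizer (k.norm p c) hy) (inv_mem hy) hr (by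
      rw [cc, Commute.inv_left_iff]
      rcases s5 _ (inv_mem hp) c.inv_left r hr cr with e | e <;> rw [e]
      exact ⟨fun c => by simpa using (k.cen y hy).inv_right.mul_right c, (k.cen y hy).mul_right⟩)
  obtain ⟨y, hy, hzy⟩ : ∃ y ∈ T, ¬ Commute z y := by
    by_contra! hc
    exact hz (k.large z hc)
  have s8 : ∀ p ∈ Q, Commute p t → p * p = 1 := fun p hp c => (h.sq p hp).resolve_right fun e => hzy (s2' y hy (by
    have hr := cm (k.norm p c) hy
    have e1 : z * y * z⁻¹ * y⁻¹ = p * (p * y * p⁻¹ * y⁻¹) * p⁻¹ * (p * y * p⁻¹ * y⁻¹) := by rw [← e]; group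
    rw [e1]
    rcases s5 p hp c _ hr (s6 p hp c y hy) with e | e <;> rw [e]
    · exact k.sq _ hr
    · rw [mul_assoc t]
      rcases k.sq _ hr with e | e <;> rw [e]
      exacts [.inr (mul_one t), .inl k.two]))
  obtain ⟨s, hs, hs'⟩ := hs fun p hp c => h.four ht k.two hx hxt hp (s8 p hp c) fun q hq c' => by
    have := s8 _ (mul_mem hp hq) (c.mul_left c')
    change p * q = q * p
    rw [← inv_eq_of_mul_eq_one_right this, mul_inv_rev, inv_eq_of_mul_eq_one_right (s8 p hp c),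
      inv_eq_of_mul_eq_one_right (s8 q hq c')]
  have hc := cm nz hy
  have zc := s3 y hy
  have nc : ¬ (_ ∨ _) := mt (s2' y hy) hzy
  have yc : Commute y (z * y * z⁻¹ * y⁻¹) := by
    have e1 : z * y * z⁻¹ * (z * y * z⁻¹) = y * y := by
      rw [conj_mul]; rcases k.sq y hy with e | e <;> rw [e]
      exacts [by group, by rw [zt.eq, mul_inv_cancel_right]]
    have e2 := iv y
    rw [zc.eq, mul_inv_cancel_right] at e2
    rw [← inv_mul_cancel_right (z * y * z⁻¹) y] at e1
    generalize z * y * z⁻¹ * y⁻¹ = c at e1 e2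
    rw [← mul_assoc, mul_left_inj, mul_assoc, ← eq_inv_mul_iff_mul_eq, ← e2] at e1
    exact e1
  generalize z * y * z⁻¹ * y⁻¹ = c at hc zc nc yc
  by_cases cs : Commute c s
  · have zs : Commute z s ∧ Commute y s := by
      rcases hs' c hc cs with e | e | e | e
      · exact absurd (.inl e) nc
      · exact absurd (.inr e) nc
      · exact e ▸ ⟨zc, yc⟩
      · rw [e] at zc yc
        exact ⟨by simpa using zt.inv_right.mul_right zc, by simpa using (k.cen y hy).inv_right.mul_right yc⟩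
    rcases hs' y hy zs.2 with e | e | e | e <;> rw [e] at hzy
    exacts [hzy (.one_right z), hzy zt, hzy zs.1, hzy (zt.mul_right zs.1)]
  have s9 : ∀ u ∈ T, Commute u s → Commute u c → Commute z u := fun u hu c1 c2 => by
    rcases hs' u hu c1 with e | e | e | e <;> rw [e] at c2 ⊢
    exacts [.one_right z, zt, absurd c2.symm cs, absurd (by simpa using (k.cen c hc).inv_right.mul_right c2.symm) cs]
  by_cases ys : Commute y s
  · exact hzy (s9 y hy ys yc)
  · exact hzy (by simpa using (s9 _ (mul_mem hy hc) (k.mul_comm' hy hc hs (iff_of_false ys cs))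
      (yc.mul_left (.refl c))).mul_right zc.inv_right)

end Dat

theorem dat [Finite G] (hz : orderOf z = 2) {C : Subgroup G} (hC : C = centralizer {z}) {F : Subgroup C} [F.Normal]
    (hF : centralizer (F : Set C) ≤ F) (hQ : Cfsg.IsOfSymplecticType F) (h4 : ∀ q ∈ F.map C.subtype, q ^ 4 = 1) :
    Dat z (F.map C.subtype) := by
  have hC' : ∀ g, g ∈ C ↔ Commute g z := fun g => hC ▸ mem_centralizer_singleton_iff
  have hzC : z ∈ C := (hC' z).2 rfl
  have hzF : (⟨z, hzC⟩ : C) ∈ F := hF fun x _ => Subtype.ext ((hC' x).1 x.2)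
  have hu : ∀ q : F, q * q = 1 → q ∈ center F → (q : C).1 = 1 ∨ (q : C).1 = z := fun q h2 hq => by
    rw [or_iff_not_imp_left]
    intro h1
    exact congrArg (·.1.1) (S1755.eq_of_cyc (hQ.2 (center F) inferInstance inferInstance) hq (b := ⟨_, hzF⟩)
      (mem_center_iff.2 fun y => Subtype.ext (Subtype.ext ((hC' _).1 y.1.2)))
      (orderOf_eq_prime ((pow_two q).trans h2) fun e => h1 (by rw [e]; rfl)) (by rw [← orderOf_coe, ← orderOf_coe]; exact hz))
  refine ⟨by rw [← pow_two, ← hz, pow_orderOf_eq_one], ⟨_, hzF, rfl⟩, ?_, fun q hq => (hC' q).1 (map_subtype_le F hq), ?_,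
    fun g hg => normal_map_subtype inferInstance ((hC' g).2 hg), fun g hg => ⟨⟨g, (hC' g).2 (hg z ⟨_, hzF, rfl⟩)⟩,
      hF fun x hx => Subtype.ext (hg x ⟨x, hx, rfl⟩).symm, rfl⟩⟩
  · rintro _ ⟨q, hq, rfl⟩
    refine hu (⟨q, hq⟩ * ⟨q, hq⟩) (Subtype.ext (Subtype.ext ?_)) ?_
    · have := h4 q ⟨q, hq, rfl⟩
      rwa [show 4 = 2 * 2 from rfl, pow_mul, pow_two, pow_two] at this
    generalize (⟨q, hq⟩ : F) = x
    obtain ⟨E, R, h1, h2, h3, h5⟩ := PGrp.hall_symplectic hQ.1 hQ.2
    have hR : R ≤ center F := by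
      rcases h5 with h5 | ⟨-, h5, a, y, n, h6⟩
      · rw [← centralizer_univ, ← coe_top, ← h2, centralizer_sup']
        exact le_inf h1 (le_centralizer_iff_isMulCommutative.2 h5.isMulCommutative)
      have h7 : 2 ^ n ∣ 2 ^ 2 := h6.ord ▸ orderOf_dvd_of_pow_eq_one
        (Subtype.ext (Subtype.ext (Subtype.ext (h4 _ ⟨_, a.1.2, rfl⟩))))
      have := Nat.le_of_dvd (by norm_num) h7
      rw [h6.card, pow_succ] at h5
      omega
    obtain ⟨e, he, r, hr, rfl⟩ := (mem_sup_of_le_normalizer_left (le_normalizer_of_le_centralizer h1)).1 (h2 ▸ mem_top x)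
    rw [(Commute.symm (h1 hr e he)).mul_mul_mul_comm]
    refine mul_mem ?_ (hR (mul_mem hr hr))
    rw [← centralizer_univ, ← coe_top, ← h2, centralizer_sup']
    refine ⟨fun y hy => ?_, le_centralizer_iff.1 h1 (mul_mem he he)⟩
    rcases h3 with rfl | h3
    · rw [mem_bot.1 hy, one_mul, mul_one]
    obtain ⟨w, hw, -⟩ := PGrp.exists_isES h3
    simpa [pow_two] using congrArg Subtype.val (hw.commute_of_mem (hw.pow ⟨e, he⟩) ⟨y, hy⟩).eq.symm
  · rintro _ ⟨q, hq, rfl⟩ h1 h2
    exact hu ⟨q, hq⟩ (Subtype.ext (Subtype.ext h1)) (mem_center_iff.2 fun y =>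
      Subtype.ext (Subtype.ext (h2 _ ⟨_, y.2, rfl⟩).symm))

/-- Let G be a finite group and let z be an involution of G such that Q, the generalized Fitting subgroup of the centralizer C of z, is a 2-group of symplectic type (every characteristic abelian subgroup of Q is cyclic); suppose every element of Q has order dividing 4. Let g ∈ G with z' = g z g⁻¹ ≠ z and z' ∈ Q. Then z lies in the conjugate g Q g⁻¹, and the subgroup X generated by Q and g Q g⁻¹ induces every automorphism of the four-group generated by z and z': for any two distinct non-identity elements u, v of that four-group there is x ∈ X with x z x⁻¹ = u and x z' x⁻¹ = v. -/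
theorem result {G : Type*} [Group G] [Finite G] (z : G) (hz : orderOf z = 2) (hQ : Cfsg.IsOfSymplecticType ↥(Cfsg.generalizedFittingSubgroup ↥(Subgroup.centralizer ({z} : Set G))))
    (h4 : ∀ q ∈ (Cfsg.generalizedFittingSubgroup ↥(Subgroup.centralizer ({z} : Set G))).map (Subgroup.centralizer ({z} : Set G)).subtype, q ^ 4 = 1) (g : G) (hne : g * z * g⁻¹ ≠ z) (hin : g * z * g⁻¹ ∈ (Cfsg.generalizedFittingSubgroup ↥(Subgroup.centralizer ({z} : Set G))).map (Subgroup.centralizer ({z} : Set G)).subtype) :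
    z ∈ ((Cfsg.generalizedFittingSubgroup ↥(Subgroup.centralizer ({z} : Set G))).map (Subgroup.centralizer ({z} : Set G)).subtype).map (MulAut.conj g).toMonoidHom ∧
      ∀ u ∈ Subgroup.closure ({z, g * z * g⁻¹} : Set G), ∀ v ∈ Subgroup.closure ({z, g * z * g⁻¹} : Set G),
        u ≠ 1 → v ≠ 1 → u ≠ v →
          ∃ x ∈ (Cfsg.generalizedFittingSubgroup ↥(Subgroup.centralizer ({z} : Set G))).map (Subgroup.centralizer ({z} : Set G)).subtype ⊔ ((Cfsg.generalizedFittingSubgroup ↥(Subgroup.centralizer ({z} : Set G))).map (Subgroup.centralizer ({z} : Set G)).subtype).map (MulAut.conj g).toMonoidHom, x * z * x⁻¹ = u ∧ x * (g * z * g⁻¹) * x⁻¹ = v := by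
  have h := dat hz rfl Sig.centralizer_fstar_le hQ h4
  have h1 : z ≠ 1 := fun e => by simp [e] at hz
  have hz' := h.main h1 hne hin
  refine ⟨hz', ?_⟩
  have k := h.conj g
  have h1' : g * z * g⁻¹ ≠ 1 := by simpa using h1
  generalize g * z * g⁻¹ = t at *
  generalize Subgroup.map (MulAut.conj g).toMonoidHom _ = T at *
  generalize Subgroup.map (centralizer {z}).subtype _ = Q at *
  obtain ⟨x, hx, hxt⟩ := h.exists_not hin k.two h1' hne
  obtain ⟨y, hy, hyz⟩ := k.exists_not hz' h.two h1 hne.symm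
  have zt := (h.cen t hin).eq
  have x1 : MulAut.conj x z = z := mul_inv_eq_iff_eq_mul.2 (h.cen x hx).eq
  have x2 : MulAut.conj x t = z * t := h.conj_eq hin hx hxt
  have y1 : MulAut.conj y z = z * t := (k.conj_eq hz' hy hyz).trans zt
  have y2 : MulAut.conj y t = t := mul_inv_eq_iff_eq_mul.2 (k.cen y hy).eq
  have e1 : z * (z * t) = t := by rw [← mul_assoc, h.two, one_mul]
  have e2 : z * t * t = z := by rw [mul_assoc, k.two, mul_one]
  have e3 : t * (z * t) = z := by rw [← mul_assoc, zt, e2]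
  have cl : ∀ u ∈ closure ({z, t} : Set G), u = 1 ∨ u = z ∨ u = t ∨ u = z * t := fun u hu => by
    induction hu using closure_induction with
    | mem u hu => rcases hu with rfl | rfl <;> simp
    | one => simp
    | mul u v _ _ h1 h2 =>
      have e4 : z * t * z = t := by rw [mul_assoc, zt, e1]
      have e5 : z * t * (z * t) = 1 := by rw [← mul_assoc, e4, k.two]
      rcases h1 with rfl | rfl | rfl | rfl <;> rcases h2 with h2 | h2 | h2 | h2 <;> simp [h2, h.two, k.two, zt, e1, e2, e3, e4, e5]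
    | inv u _ h1 =>
      rcases h1 with rfl | rfl | rfl | rfl <;> simp [inv_eq_of_mul_eq_one_right h.two, inv_eq_of_mul_eq_one_right k.two, zt]
  have hx' : x ∈ Q ⊔ T := mem_sup_left hx
  have hy' : y ∈ Q ⊔ T := mem_sup_right hy
  intro u hu v hv u1 v1 uv
  change ∃ w ∈ Q ⊔ T, MulAut.conj w z = u ∧ MulAut.conj w t = v
  rcases (cl u hu).resolve_left u1 with rfl | rfl | rfl <;> rcases (cl v hv).resolve_left v1 with rfl | rfl | rfl <;>
    first | exact absurd rfl uv | skip
  · exact ⟨1, one_mem _, by simp, by simp⟩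
  · exact ⟨x, hx', x1, x2⟩
  · exact ⟨x * y * x, mul_mem (mul_mem hx' hy') hx', by simp only [map_mul, MulAut.mul_apply, x1, x2, y1, y2, e1, e2, e3],
      by simp only [map_mul, MulAut.mul_apply, x1, x2, y1, y2, e1, e2, e3]⟩
  · exact ⟨x * y, mul_mem hx' hy', by simp only [map_mul, MulAut.mul_apply, x1, x2, y1, y2, e1, e2, e3],
      by simp only [map_mul, MulAut.mul_apply, x1, x2, y1, y2, e1, e2, e3]⟩
  · exact ⟨y * x, mul_mem hy' hx', by simp only [map_mul, MulAut.mul_apply, x1, x2, y1, y2, e1, e2, e3],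
      by simp only [map_mul, MulAut.mul_apply, x1, x2, y1, y2, e1, e2, e3]⟩
  · exact ⟨y, hy', y1, y2⟩

end Cfsg.Agent.S1774
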