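import Cfsg.Statements.S1775
import Cfsg.Agent.Sig.ModCore

set_option autoImplicit false
open Cfsg

namespace Cfsg.Agent.S1775

open Subgroup Cfsg.Agent.BG Cfsg.Agent.Sig

theorem aux {X : Type*} [Group X] [Finite X] (hB : HasBProperty (X ⧸ oddCore X)) {x : X} (hx : orderOf x = 2) {J : Subgroup X}
    (hJ : PCompIn 2 J C1[x]) : CompIn (J.map (QuotientGroup.mk' (oddCore X))) C1[QuotientGroup.mk' (oddCore X) x] := by
  have := Fact.mk Nat.prime_two
  have h1 := hJ.map_of_coprime (QuotientGroup.mk' (oddCore X)) coprime_ker_mk'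
  have h2 := map_inf_centralizer_of_coprime_ker (K := ⊤) (QuotientGroup.mk' (oddCore X)) coprime_ker_mk'
    (pgroup_zpowers hx) (norm_of_normal _ _)
  rw [top_inf_eq, C_zpowers, MonoidHom.map_zpowers, C_zpowers, map_top_of_surjective _ (QuotientGroup.mk'_surjective _),
    top_inf_eq] at h2
  rw [h2] at h1
  have h3 : orderOf (QuotientGroup.mk' (oddCore X) x) = 2 := by
    refine orderOf_eq_prime (by rw [← map_pow, sq, mul_self_of_two hx, map_one]) fun e => ?_
    exact (Nat.Prime.coprime_iff_not_dvd Nat.prime_two).1 coprime_pPrimeCore.symm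
      (hx ▸ orderOf_dvd_cardG ((QuotientGroup.eq_one_iff x).1 e))
  have h4 := hB _ h3
  rw [show oddCore (X ⧸ oddCore X) = ⊥ from pPrimeCore_quotient, le_bot_iff, map_commutator] at h4
  exact ⟨h1.subnIn, h1.pqs.qs (centSS h1.le_pLayerIn (ppIn_mono h1.subnIn) (commG1'.1 h4))⟩

/-- Let G be a finite group whose generalized Fitting subgroup is a non-abelian simple group and in which every proper section (every quotient H/N of a proper subgroup H, or of G by a nontrivial normal subgroup) has the B-property. Let x, y be commuting involutions, let D be the intersection of the 2-layer of C_G(x) with C_G(y), and let J be a 2-component of D. Write Q for the quotient of C_G(y) by its largest normal odd-order subgroup. Then (i) the image of J in Q is a component of the centralizer in Q of the image of x; and (ii) for every J-invariant subgroup E of odd order of C_G(x) ∩ C_G(y), the commutator subgroup [J, E] lies in the largest normal odd-order subgroup of C_G(y). -/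
theorem result {G : Type*} [Group G] [Finite G]
    (hF : IsSimpleGroup ↥(Cfsg.generalizedFittingSubgroup G)) (hF' : ¬ IsMulCommutative ↥(Cfsg.generalizedFittingSubgroup G))
    (hsec : ∀ (H : Subgroup G) (N : Subgroup ↥H) [N.Normal], (H ≠ ⊤ ∨ N ≠ ⊥) → Cfsg.HasBProperty (↥H ⧸ N))
    (x y : G) (hx : orderOf x = 2) (hy : orderOf y = 2) (hxy : x * y = y * x)
    (J : Subgroup ↥((Cfsg.pLayer 2 ↥(Subgroup.centralizer ({x} : Set G))).map (Subgroup.centralizer ({x} : Set G)).subtype ⊓ Subgroup.centralizer ({y} : Set G)))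
    (hJ : Cfsg.IsPComponent 2 J) :
    Cfsg.IsComponent
        ((((J.map (Subgroup.subtype _)).subgroupOf (Subgroup.centralizer ({y} : Set G))).map (QuotientGroup.mk' (Cfsg.oddCore ↥(Subgroup.centralizer ({y} : Set G))))).subgroupOf
          (Subgroup.centralizer ({(QuotientGroup.mk' (Cfsg.oddCore ↥(Subgroup.centralizer ({y} : Set G))) ⟨x, Subgroup.mem_centralizer_singleton_iff.mpr hxy⟩ : ↥(Subgroup.centralizer ({y} : Set G)) ⧸ Cfsg.oddCore ↥(Subgroup.centralizer ({y} : Set G)))} : Set _))) ∧
      ∀ E : Subgroup G, E ≤ Subgroup.centralizer ({x} : Set G) ⊓ Subgroup.centralizer ({y} : Set G) → Odd (Nat.card ↥E) →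
        (∀ j ∈ J.map (Subgroup.subtype _), ∀ e ∈ E, j * e * j⁻¹ ∈ E) →
          ⁅J.map (Subgroup.subtype _), E⁆ ≤ (Cfsg.oddCore ↥(Subgroup.centralizer ({y} : Set G))).map (Subgroup.centralizer ({y} : Set G)).subtype := by
  have := Fact.mk Nat.prime_two
  have hne : C1[y] ≠ ⊤ := fun e => by
    have h1 : zpowers y ⊴ ⊤ := ⟨le_top, e ▸ cent1_le_norm_zpowers y⟩
    have h2 : zpowers y ≤ generalizedFittingSubgroup G := by
      rw [← fstarIn_top]; exact (le_fitIn le_top h1.2 (abelian_nil (abelian_zpowers y))).trans fitIn_le_fstarIn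
    rcases (h1.subl h2 le_top).subgroupOf.eq_bot_or_eq_top with h | h
    · exact ne_one_of_two hy (zpowers_eq_bot.1 ((subgroupOf_eq_bot.1 h).eq_bot_of_le h2))
    · exact hF' (abelianS (subgroupOf_eq_top.1 h) (abelian_zpowers y))
  have hJ1 : PCompIn 2 (J.map (Subgroup.subtype _)) (C1[x] ⊓ C1[y]) :=
    (pCompIn_map_subtype_iff.2 hJ).trans (subnIn_pLayerIn.inf_right _)
  have hxy' : x ∈ C1[y] := mem_cent1.2 hxy
  have e : (C1[x] ⊓ C1[y]).subgroupOf C1[y] = C1[(⟨x, hxy'⟩ : C1[y])] := by
    ext g; simp [mem_subgroupOf, mem_cent1, Subtype.ext_iff]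
  have hJ2 := (PCompIn.subgroupOf_iff inf_le_right (hJ1.le.trans inf_le_right)).2 hJ1
  rw [e] at hJ2
  have hJ3 := aux (hsec C1[y] _ (.inl hne)) (by rwa [← orderOf_coe]) hJ2
  refine ⟨(isComponent_subgroupOf_iff hJ3.le).2 hJ3, fun E hE ho hn => ?_⟩
  have h1 := hJ3.commutator_eq_bot_of_isSolvable (H := (E.subgroupOf C1[y]).map (QuotientGroup.mk' _))
    (le_cent1_iff.2 (by
      have := cents_map (QuotientGroup.mk' (oddCore C1[y])) (zpowers_le.2 (le_cent1_iff.1 (e ▸ subgroupOf_mono _ hE)))
      rwa [MonoidHom.map_zpowers, zpowers_le] at this))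
    (solvable_map _ (odd_sol (pgroup_subgroupOf _ (pnat_odd.2 ho)))) (norms_map _ (norms_subgroupOf _ (le_norm_iff.2 hn)))
  have h2 := map_mono (f := C1[y].subtype) (commutator_le_iff_map_quotient.2 h1)
  rwa [map_commutator, subgroupOf_map_subtype, subgroupOf_map_subtype, inf_eq_left.2 (hJ1.le.trans inf_le_right),
    inf_eq_left.2 (hE.trans inf_le_right)] at h2

end Cfsg.Agent.S1775
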