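import Cfsg.Statements.S1781
import Cfsg.Agent.FG.TI

set_option autoImplicit false
open Cfsg

namespace Cfsg.Agent.S1781

open Cfsg.Agent.Loc Subgroup

/-- Let A be an abelian 2-subgroup of the finite group G such that every conjugate of A equals A or meets A trivially, and let g ∈ G with g A g⁻¹ ≠ A. Then either the subgroup of those elements of A that normalize g A g⁻¹ is an elementary abelian 2-group, or A and g A g⁻¹ commute elementwise. -/
theorem result {G : Type*} [Group G] [Finite G] (A : Subgroup G)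
    (hA2 : IsPGroup 2 ↥A) (hAa : IsMulCommutative ↥A)
    (hti : ∀ h : G, A.map (MulAut.conj h).toMonoidHom = A ∨ A.map (MulAut.conj h).toMonoidHom ⊓ A = ⊥)
    (g : G) (hg : A.map (MulAut.conj g).toMonoidHom ≠ A) :
    Cfsg.IsElementaryAbelian 2 (A ⊓ Subgroup.normalizer ((A.map (MulAut.conj g).toMonoidHom : Subgroup G) : Set G)) ∨
      ⁅A, A.map (MulAut.conj g).toMonoidHom⁆ = ⊥ := by
  rw [or_iff_not_imp_left]
  intro hE
  have h0 := (hti g).resolve_left hg
  have hAc : A ≤ centralizer (A : Set G) := le_centralizer_iff_isMulCommutative.2 hAa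
  obtain ⟨t, ⟨htA, htn⟩, ht2⟩ : ∃ t ∈ A ⊓ normalizer ((cj g A : Subgroup G) : Set G), t ^ 2 ≠ 1 := by
    by_contra! h
    exact hE (isElementaryAbelian_iff.2 ⟨le_centralizer_self_of_le hAc inf_le_left, h⟩)
  have key : ∀ s ∈ A, s ≠ 1 → ∀ b, b * s = s * b → b ∈ normalizer (A : Set G) := fun s hs h1 b hb =>
    mem_normalizer_iff_cj.2 ((hti b).resolve_right fun h => h1 ((eq_bot_iff_forall _).1 h s
      ⟨mem_cj.2 (by rwa [mul_assoc, ← hb, inv_mul_cancel_left]), hs⟩))
  haveI := isMulCommutative_cj g hAa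
  letI : CommGroup (cj g A : Subgroup G) := { (inferInstance : Group _) with mul_comm := fun a b => mul_comm' a b }
  obtain ⟨k, hk⟩ := hA2 ⟨t, htA⟩
  have h1 := FG.eq_of_fix_sq (isPGroup_cj g hA2) ((cj g A).normalizerMonoidHom ⟨t, htn⟩) (k := k)
    (by rw [← map_pow, ← map_one (cj g A).normalizerMonoidHom]; congr 1; exact Subtype.ext (congrArg Subtype.val hk :))
    fun b hb => by
      have hb' : t * (t * b * t⁻¹) * t⁻¹ = b := congrArg Subtype.val hb
      have hn := key _ (pow_mem htA 2) ht2 b (by conv_lhs => rw [← hb']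
                                                 rw [sq]; group)
      have : t * b * t⁻¹ * (b : G)⁻¹ = 1 := (eq_bot_iff_forall _).1 h0 _
        ⟨mul_mem (conj_mem_of_mem_normalizer htn b.2) ((cj g A).inv_mem b.2), by
          rw [mul_assoc, mul_assoc, ← mul_assoc (b : G)]; exact mul_mem htA (conj_mem_of_mem_normalizer hn (inv_mem htA))⟩
      exact Subtype.ext (mul_inv_eq_one.1 this)
  refine FG.comm_of_ti hA2 (isPGroup_cj g hA2) (fun a _ => ?_) (card_cj g A).ge (inf_comm A _ ▸ h0) fun b hb =>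
    key t htA (fun h => ht2 (by rw [h, one_pow])) b (mul_inv_eq_iff_eq_mul.1 (congrArg Subtype.val (h1 ⟨b, hb⟩))).symm
  rcases hti (g⁻¹ * a * g) with h | h
  · left; rw [cj_cj, show a * g = g * (g⁻¹ * a * g) by group, ← cj_cj, h]
  · right; rw [cj_cj, show a * g = g * (g⁻¹ * a * g) by group, ← cj_cj, ← cj_inf, h, cj_bot]

end Cfsg.Agent.S1781
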