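import Cfsg.Statements.S1782
import Cfsg.Agent.FG.TI
import Cfsg.Agent.Solv.Frattini

set_option autoImplicit false
open Cfsg

namespace Cfsg.Agent.S1782

/-- Let S be a finite 2-group and Δ a set of subgroups of S closed under conjugation by S, all of the same order, each with nontrivial Frattini subgroup, and such that two distinct members of Δ meet trivially. Then any two distinct members of Δ commute elementwise. -/
theorem result {S : Type*} [Group S] [Finite S] (hS : IsPGroup 2 S)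
    (Δ : Set (Subgroup S)) (hinv : ∀ s : S, ∀ R ∈ Δ, R.map (MulAut.conj s).toMonoidHom ∈ Δ)
    (hΦ : ∀ R ∈ Δ, frattini ↥R ≠ ⊥) (hord : ∀ R ∈ Δ, ∀ T ∈ Δ, Nat.card ↥R = Nat.card ↥T)
    (hti : ∀ R ∈ Δ, ∀ T ∈ Δ, R = T ∨ R ⊓ T = ⊥) :
    ∀ R ∈ Δ, ∀ T ∈ Δ, R ≠ T → ⁅R, T⁆ = ⊥ := by
  refine FG.comm_of_family hS hinv (fun R hR => ?_) hord hti
  by_contra! h
  have h' : ∀ x : R, x ^ 2 = 1 := fun x => Subtype.ext (h x x.2)
  haveI : IsMulCommutative R := ⟨⟨fun a b => (Commute.of_orderOf_dvd_two (fun x => orderOf_dvd_of_pow_eq_one (h' x)) a b).eq⟩⟩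
  exact hΦ R hR (Solv.frattini_eq_bot_of_elementary h')

end Cfsg.Agent.S1782
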