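import Cfsg.Statements.S1783
import Cfsg.Agent.FG.TI
import Cfsg.Agent.Solv.Frattini
import Cfsg.Agent.PLocal.WS
import Cfsg.Agent.Sig.FStar

set_option autoImplicit false
open Cfsg

namespace Cfsg.Agent.S1783

open Cfsg.Agent.Loc Subgroup

theorem fam {G : Type*} [Group G] [Finite G] {S A : Subgroup G} (hS : IsPGroup 2 S) {K : Subgroup G} (hK : S ≤ K)
    (hle : ∀ g ∈ K, cj g A ≤ S) (hA : ∃ x ∈ A, x ^ 2 ≠ 1) (hti : ∀ h, cj h A = A ∨ cj h A ⊓ A = ⊥)
    (hAc : A ≤ centralizer (A : Set G)) {g h : G} (hg : g ∈ K) (hh : h ∈ K) : cj g A ≤ centralizer (cj h A : Set G) := by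
  by_cases e : cj g A = cj h A
  · rw [e, ← cj_centralizer]; exact cj_mono h hAc
  have e1 : ∀ g ∈ K, ((cj g A).subgroupOf S).map S.subtype = cj g A := fun g hg => map_subgroupOf_eq_of_le (hle g hg)
  have := FG.comm_of_family hS (Δ := {R | ∃ g ∈ K, R = (cj g A).subgroupOf S}) (by
      rintro s _ ⟨g, hg, rfl⟩
      exact ⟨s * g, mul_mem (hK s.2) hg, by rw [← subgroupOf_cj, cj_cj]⟩) (by
      rintro _ ⟨g, hg, rfl⟩
      obtain ⟨x, hx, h2⟩ := hA
      exact ⟨⟨_, hle g hg (conj_mem_cj hx)⟩, conj_mem_cj hx, fun h => h2 (conj_eq_one_iff.1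
        ((conj_pow (a := g)).symm.trans (congrArg Subtype.val h)))⟩) (by
      rintro _ ⟨g, hg, rfl⟩ _ ⟨h, hh, rfl⟩
      rw [card_subgroupOf (hle g hg), card_subgroupOf (hle h hh), card_cj, card_cj]) (by
      rintro _ ⟨g, hg, rfl⟩ _ ⟨h, hh, rfl⟩
      rcases hti (h⁻¹ * g) with e | e
      · left; rw [← mul_inv_cancel_left h g, ← cj_cj, e]
      · right; rw [subgroupOf, subgroupOf, ← comap_inf, ← mul_inv_cancel_left h g, ← cj_cj, ← cj_inf, e, cj_bot]
        exact ker_subtype S) _ ⟨g, hg, rfl⟩ _ ⟨h, hh, rfl⟩ fun e' => e (by rw [← e1 g hg, e', e1 h hh])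
  rw [← commutator_eq_bot_iff_le_centralizer, ← e1 g hg, ← e1 h hh, ← map_commutator, this, Subgroup.map_bot]

/-- Let X be a finite group whose generalized Fitting subgroup equals its largest normal 2-subgroup Q, and let A be an abelian 2-subgroup of X such that every conjugate of A equals A or meets A trivially. Let B be the subgroup generated by the squares of the elements of A. Then B lies in Q, and if B is not an elementary abelian 2-group then the normal closure of B in X is commutative. -/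
theorem result {X : Type*} [Group X] [Finite X]
    (hX : Cfsg.generalizedFittingSubgroup X = Cfsg.pCore 2 X) (A : Subgroup X) (hA2 : IsPGroup 2 ↥A) (hAa : IsMulCommutative ↥A)
    (hti : ∀ h : X, A.map (MulAut.conj h).toMonoidHom = A ∨ A.map (MulAut.conj h).toMonoidHom ⊓ A = ⊥) :
    Subgroup.closure ((fun a : X => a ^ 2) '' (A : Set X)) ≤ Cfsg.pCore 2 X ∧
      (¬ Cfsg.IsElementaryAbelian 2 (Subgroup.closure ((fun a : X => a ^ 2) '' (A : Set X))) →
        IsMulCommutative ↥(Subgroup.normalClosure ((fun a : X => a ^ 2) '' (A : Set X)))) := by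
  have hAc : A ≤ centralizer (A : Set X) := le_centralizer_iff_isMulCommutative.2 hAa
  haveI := pCore_normal' 2 X
  have hQ := isPGroup_pCore 2 X
  have hC : centralizer (pCore 2 X : Set X) ≤ pCore 2 X := hX ▸ Sig.centralizer_fstar_le
  have h1 : ∀ a ∈ A, a ^ 2 ∈ pCore 2 X := fun a ha => by
    by_cases h2 : a ^ 2 = 1
    · rw [h2]; exact one_mem _
    set Φ := (frattini (pCore 2 X)).map (pCore 2 X).subtype
    let K := (centralizer ((pCore 2 X).map (QuotientGroup.mk' Φ) : Set (X ⧸ Φ))).comap (QuotientGroup.mk' Φ)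
    haveI : ((pCore 2 X).map (QuotientGroup.mk' Φ)).Normal := Normal.map inferInstance _ (QuotientGroup.mk'_surjective Φ)
    refine le_pCore (N := K) inferInstance (isPGroup_of_forall_pow fun g hg => ?_) ?_
    · obtain ⟨k, hk⟩ := PLocal.exists_pow_mem_centralizer_of_frattini hQ (g := g) (by rw [normalizer_eq_top]; trivial) (by
        change _ ≤ Φ
        rw [← QuotientGroup.ker_mk' Φ, ← Subgroup.map_eq_bot_iff, map_commutator, commutator_comm,
          commutator_eq_bot_iff_le_centralizer, map_le_iff_le_comap]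
        exact zpowers_le.2 hg)
      obtain ⟨l, hl⟩ := exists_pow_of_isPGroup hQ (hC hk)
      exact ⟨k + l, by rw [pow_add, pow_mul, hl]⟩
    rintro _ ⟨q, hq, rfl⟩
    have c : Commute a (q * a * q⁻¹) := (fam (S := pCore 2 X ⊔ A) (hQ.to_sup_of_normal_left hA2) le_rfl
      (fun g hg => cj_le_of_mem hg le_sup_right) ⟨a, ha, h2⟩ hti hAc (mem_sup_left hq) (one_mem _) (conj_mem_cj ha) a
      (by rwa [cj_one]))
    rw [← map_mul, ← map_mul, QuotientGroup.mk'_eq_mk']
    refine ⟨(q * a ^ 2)⁻¹ * (a ^ 2 * q), ?_, by group⟩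
    have h3 : (a * (q * a * q⁻¹)⁻¹) ^ 2 ∈ Φ := Solv.pow_mem_map_frattini hQ (by
      rw [show a * (q * a * q⁻¹)⁻¹ = a * q * a⁻¹ * q⁻¹ by group]
      exact mul_mem (Normal.conj_mem inferInstance _ hq a) (inv_mem hq))
    rw [c.inv_right.mul_pow, inv_pow, conj_pow] at h3
    have := Normal.conj_mem (inferInstance : Φ.Normal) _ h3 (q * a ^ 2)⁻¹
    convert this using 1
    group
  have hB := (closure_le _).2 (Set.image_subset_iff.2 h1)
  refine ⟨hB, fun hE => ?_⟩
  set B := closure ((fun a : X => a ^ 2) '' (A : Set X))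
  have hBA : B ≤ A := (closure_le _).2 (Set.image_subset_iff.2 fun a ha => pow_mem ha 2)
  have hBc := le_centralizer_self_of_le hAc hBA
  have h2 := fun g h => fam (K := ⊤) hQ le_top (fun g _ => cj_le_of_mem_normalizer (by rw [normalizer_eq_top]; trivial) hB)
    (by by_contra! h; exact hE (isElementaryAbelian_iff.2 ⟨hBc, h⟩)) (fun h => (hti h).imp (fun e => cj_eq_of_cj_le (by
      rw [cj_closure, closure_le]
      rintro _ ⟨_, ⟨a, ha, rfl⟩, rfl⟩
      exact subset_closure ⟨_, e.le (conj_mem_cj ha), conj_pow⟩)) fun e => eq_bot_iff.2 ((inf_le_inf (cj_mono h hBA) hBA).trans e.le))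
    hBc (mem_top g) (mem_top h)
  refine isMulCommutative_closure fun x hx y hy => ?_
  obtain ⟨a, ha, hx⟩ := Group.mem_conjugatesOfSet_iff.1 hx
  obtain ⟨b, hb, hy⟩ := Group.mem_conjugatesOfSet_iff.1 hy
  obtain ⟨g, rfl⟩ := isConj_iff.1 hx
  obtain ⟨h, rfl⟩ := isConj_iff.1 hy
  exact h2 h g (conj_mem_cj (subset_closure hb)) _ (conj_mem_cj (subset_closure ha))

end Cfsg.Agent.S1783
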