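import Cfsg.Statements.S1784
import Cfsg.Agent.PGrp.ES
import Cfsg.Agent.Sig.FStar
import Cfsg.Agent.Loc.PGrp

set_option autoImplicit false
open Cfsg

namespace Cfsg.Agent.S1784

open Cfsg.Agent.Loc Cfsg.Agent.PGrp Subgroup

theorem aux {Q : Type*} [Group Q] [Finite Q] {z : Q} (h : IsES 2 z) (hZ : center Q = zpowers z) (σ : MulAut Q)
    (h2 : ∀ x, σ (σ x) = x) (hne : ∃ x, σ x ≠ x) {Q₀ : Subgroup Q} (h0 : ∀ q, q ∈ Q₀ ↔ σ q * q⁻¹ ∈ zpowers z) :
    closure (Set.range fun q => σ q * q⁻¹) = Q₀ ⊓ centralizer (Q₀ : Set Q) := by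
  set K := closure (Set.range fun q => σ q * q⁻¹)
  have hK : ∀ q, σ q * q⁻¹ ∈ K := fun q => subset_closure ⟨q, rfl⟩
  have hσ : ∀ x ∈ zpowers z, σ x = x := by
    have : σ z = z := by
      have h1 : σ z ∈ zpowers z := hZ ▸ (characteristic_iff_map_le.1 inferInstance) σ (mem_map_of_mem _ h.cen)
      obtain ⟨s, hs⟩ := h.exists_ez h1
      fin_cases s
      · exact absurd (σ.map_eq_one_iff.1 (hs.symm.trans h.ez_zero)) h.ne_one
      · exact hs.symm.trans h.ez_one
    rintro _ ⟨n, rfl⟩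
    simp only [map_zpow, this]
  have hB : ∀ x y, h.B (h.π (σ x)) (h.π y) = h.B (h.π x) (h.π (σ y)) := fun x y => h.ez_injective (by
    rw [h.ez_B, h.ez_B, ← hσ _ (h.comm x (σ y)), map_commutatorElement, h2])
  have hC : centralizer (K : Set Q) = Q₀ := by
    ext q
    rw [centralizer_closure, h0, ← hZ, h.mem_center_iff, h.mk_surjective.forall, mem_centralizer_iff, Set.forall_mem_range]
    refine forall_congr' fun x => ?_
    rw [eq_comm, ← commute_iff_eq, ← h.B_eq_zero, h.mk_mul, h.mk_mul, h.mk_inv, h.mk_inv, map_add, map_add, map_neg, map_neg,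
      LinearMap.add_apply, LinearMap.neg_apply, hB]
  haveI : K.Normal := ⟨fun k hk g => by
    induction hk using closure_induction with
    | mem k hk =>
      obtain ⟨q, rfl⟩ := hk
      have := mul_mem (inv_mem (hK g)) (hK (g * q))
      rwa [map_mul, show (σ g * g⁻¹)⁻¹ * (σ g * σ q * (g * q)⁻¹) = g * (σ q * q⁻¹) * g⁻¹ by group] at this
    | one => simp
    | mul a b _ _ ha hb => rw [← conj_mul]; exact mul_mem ha hb
    | inv a _ ha => rw [← conj_inv]; exact inv_mem ha⟩
  have hz : z ∈ K := by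
    obtain ⟨x, hx⟩ := hne
    obtain ⟨y, ⟨h1, h3⟩, h4⟩ := (K ⊓ centralizer ((⊤ : Subgroup Q) : Set Q)).bot_or_exists_ne_one.resolve_left
      (inf_centralizer_ne_bot (h.isPGroup.to_subgroup ⊤) (h.isPGroup.to_subgroup K) (by rw [normalizer_eq_top])
        fun e => hx (mul_inv_eq_one.1 ((eq_bot_iff_forall _).1 e _ (hK x))))
    exact h.mem_of_ne_one (by rwa [coe_top, centralizer_univ, hZ] at h3) h1 h4
  have h1 := h.card_mul_card_centralizer hZ hz
  have h3 := h.card_mul_card_centralizer hZ (A := centralizer (K : Set Q)) fun x _ => (h.commute_of_mem (mem_zpowers z) x).symm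
  rw [hC] at h1 h3
  have h4 : K = centralizer (Q₀ : Set Q) := eq_of_le_of_card_ge (hC ▸ le_centralizer_centralizer K)
    (Nat.eq_of_mul_eq_mul_left Nat.card_pos (h3.trans (h1.symm.trans (mul_comm _ _)))).le
  refine (inf_eq_right.2 ?_).symm.trans (by rw [h4])
  refine (closure_le _).2 ?_
  rintro _ ⟨q, rfl⟩
  refine (h0 _).2 ?_
  rw [map_mul, map_inv, h2, show q * (σ q)⁻¹ = (σ q * q⁻¹)⁻¹ by group, ← pow_two]
  exact h.pow _

theorem aux2 {G : Type*} [Group G] [Finite G] {z α : G} (hz : orderOf z = 2) {C : Subgroup G} (hC : C = centralizer {z})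
    {F : Subgroup C} [F.Normal] (hF : centralizer (F : Set C) ≤ F) (hE : Cfsg.IsExtraspecial 2 F) (hα : orderOf α = 2)
    (hαC : α ∈ C) (hαQ : α ∉ F.map C.subtype) {Q₀ : Subgroup G}
    (hQ₀ : ∀ q : G, q ∈ Q₀ ↔ (q ∈ F.map C.subtype ∧ α * q * α⁻¹ * q⁻¹ ∈ zpowers z)) :
    closure ((fun q : G => α * q * α⁻¹ * q⁻¹) '' (F.map C.subtype : Set G)) = (center Q₀).map Q₀.subtype := by
  have hC' : ∀ g, g ∈ C ↔ Commute g z := fun g => hC ▸ mem_centralizer_singleton_iff
  have hzC : z ∈ C := (hC' z).2 rfl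
  have hzF : (⟨z, hzC⟩ : C) ∈ F := hF fun x _ => Subtype.ext ((hC' x).1 x.2)
  obtain ⟨w, hw, hZ⟩ := exists_isES hE
  obtain rfl : w = ⟨_, hzF⟩ := by
    obtain ⟨s, hs⟩ := hw.exists_ez (x := ⟨_, hzF⟩) (hZ ▸ mem_center_iff.2 fun y => Subtype.ext (Subtype.ext ((hC' _).1 y.1.2)))
    fin_cases s
    · have := congrArg (·.1.1) (hs.symm.trans hw.ez_zero)
      simp at this; simp [this] at hz
    · exact hw.ez_one.symm.trans hs
  let f := C.subtype.comp F.subtype
  have hf : Function.Injective f := Subtype.val_injective.comp Subtype.val_injective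
  have hr : f.range = F.map C.subtype := by rw [MonoidHom.range_comp, range_subtype]
  have := aux hw hZ (MulAut.conjNormal (⟨α, hαC⟩ : C)) (fun x => by
      rw [← MulAut.mul_apply, ← map_mul, show (⟨α, hαC⟩ : C) * ⟨α, hαC⟩ = 1 from
        Subtype.ext (by rw [coe_mul, ← pow_two, ← hα]; exact pow_orderOf_eq_one α), map_one, MulAut.one_apply]) (by
      by_contra! h
      exact hαQ ⟨_, hF fun x hx => (mul_inv_eq_iff_eq_mul.1 (congrArg Subtype.val (h ⟨x, hx⟩))).symm, rfl⟩)
    (Q₀ := Q₀.comap f) fun q => by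
      rw [mem_comap, hQ₀, and_iff_right (hr ▸ ⟨q, rfl⟩), ← mem_map_iff_mem hf, MonoidHom.map_zpowers]; rfl
  have h1 : (Q₀.comap f).map f = Q₀ := map_comap_eq_self (hr ▸ fun q hq => ((hQ₀ q).1 hq).1)
  rw [map_subtype_center, ← h1, ← map_center_of_injective hf, ← this, MonoidHom.map_closure, ← hr, MonoidHom.coe_range,
    ← Set.range_comp, ← Set.range_comp]
  rfl

/-- Let G be a finite group and let z be an involution of G such that Q, the generalized Fitting subgroup of the centralizer C of z, is a 2-group of symplectic type (every characteristic abelian subgroup of Q is cyclic); suppose Q is extraspecial, and view Q inside G. Let α be an involution of C that is not in Q, and let Q₀ be the subgroup of those q ∈ Q whose commutator with α lies in the subgroup generated by z. Then (a) the subgroup generated by the commutators α q α⁻¹ q⁻¹, q ∈ Q, equals the centre of Q₀; and (b) if Q₀ is not contained in the product of the centralizer of α in Q with the subgroup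 generated by z, then some element of Q conjugates α to α z. -/
theorem result {G : Type*} [Group G] [Finite G] (z : G) (hz : orderOf z = 2) (hQ : Cfsg.IsOfSymplecticType ↥(Cfsg.generalizedFittingSubgroup ↥(Subgroup.centralizer ({z} : Set G)))) (hE : Cfsg.IsExtraspecial 2 ↥(Cfsg.generalizedFittingSubgroup ↥(Subgroup.centralizer ({z} : Set G))))
    (α : G) (hα : orderOf α = 2) (hαC : α ∈ Subgroup.centralizer ({z} : Set G)) (hαQ : α ∉ (Cfsg.generalizedFittingSubgroup ↥(Subgroup.centralizer ({z} : Set G))).map (Subgroup.centralizer ({z} : Set G)).subtype)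
    (Q₀ : Subgroup G) (hQ₀ : ∀ q : G, q ∈ Q₀ ↔ (q ∈ (Cfsg.generalizedFittingSubgroup ↥(Subgroup.centralizer ({z} : Set G))).map (Subgroup.centralizer ({z} : Set G)).subtype ∧ α * q * α⁻¹ * q⁻¹ ∈ Subgroup.zpowers z)) :
    Subgroup.closure ((fun q : G => α * q * α⁻¹ * q⁻¹) '' ((Cfsg.generalizedFittingSubgroup ↥(Subgroup.centralizer ({z} : Set G))).map (Subgroup.centralizer ({z} : Set G)).subtype : Set G)) = (Subgroup.center ↥Q₀).map Q₀.subtype ∧
      (¬ Q₀ ≤ ((Cfsg.generalizedFittingSubgroup ↥(Subgroup.centralizer ({z} : Set G))).map (Subgroup.centralizer ({z} : Set G)).subtype ⊓ Subgroup.centralizer ({α} : Set G)) ⊔ Subgroup.zpowers z →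
        ∃ q ∈ (Cfsg.generalizedFittingSubgroup ↥(Subgroup.centralizer ({z} : Set G))).map (Subgroup.centralizer ({z} : Set G)).subtype, q * α * q⁻¹ = α * z) := by
  refine ⟨aux2 hz rfl Sig.centralizer_fstar_le hE hα hαC hαQ hQ₀, fun h => ?_⟩
  obtain ⟨q, hq, hn⟩ := SetLike.not_le_iff_exists.1 h
  obtain ⟨h1, h2⟩ := (hQ₀ q).1 hq
  refine ⟨q, h1, ?_⟩
  have h3 : α * q * α⁻¹ * q⁻¹ = 1 ∨ α * q * α⁻¹ * q⁻¹ = z := by
    classical
    simpa [hz, Finset.range_add_one, or_comm, eq_comm] using mem_zpowers_iff_mem_range_orderOf.1 h2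
  rcases h3 with e | e
  · exact absurd (mem_sup_left (mem_inf.2 ⟨h1, mem_centralizer_singleton_iff.2 (mul_inv_eq_iff_eq_mul.1 (mul_inv_eq_one.1 e)).symm⟩)) hn
  have : α⁻¹ = α := inv_eq_of_mul_eq_one_right (by rw [← pow_two, ← hα, pow_orderOf_eq_one])
  rw [← e, this, ← mul_assoc, ← mul_assoc, ← mul_assoc, ← pow_two, ← hα, pow_orderOf_eq_one, one_mul]

end Cfsg.Agent.S1784
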