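import Cfsg.Statements.S1785
import Cfsg.Agent.Sig.Sf5
import Cfsg.Agent.PGrp.Basic
import Mathlib.Tactic.Group

set_option autoImplicit false
open Cfsg

namespace Cfsg.Agent.S1785
open scoped commutatorElement

open Subgroup Cfsg.Agent.BG

section
variable {X : Type*} [Group X] [Finite X] {E A B : Subgroup X} {e : X}

theorem ext (hB : Abelem 2 B) (he : e ^ 2 = 1) (hc : e ∈ C[B]) (hn : e ∉ B) :
    Abelem 2 (B ⊔ zpowers e) ∧ #(B ⊔ zpowers e : Subgroup X) = #B * 2 :=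
  ⟨abelemY hB (cycle_abelem he) (cents_symm (zpowers_le.2 hc)),
    PGrp.card_sup_zpowers Nat.prime_two (cent_sub B hc) hn (he ▸ one_mem B)⟩

theorem step [E.Normal] (hE : Abelem 2 E) (hA : Abelem 2 A) (hB : B ≤ A) (hne : B ≠ A) :
    ∃ B' ≤ A, #B' = #B * 2 ∧ #(E ⊓ C[B] : Subgroup X) ≤ #(E ⊓ C[B'] : Subgroup X) ^ 2 := by
  obtain ⟨a, ha, haB⟩ := SetLike.exists_of_lt (lt_of_le_of_ne hB hne)
  have hc := sub_abelian_cent hA.1 hB ha
  refine ⟨B ⊔ zpowers a, sup_le hB (zpowers_le.2 ha), (ext (abelemS hB hA) (hA.2 a ha) hc haB).2, ?_⟩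
  rw [cent_sup, C_zpowers, ← inf_assoc]
  exact Sig.card_le_sq_cent (abelemS inf_le_left hE) (hA.2 a ha)
    (normsI (norm_of_normal E _) (norms_cent (cents_norm (zpowers_le.2 hc))) (mem_zpowers a))

theorem big [E.Normal] (hE : Abelem 2 E) (h32 : 32 ≤ #E) (hA : Abelem 2 A) (h8 : #A ≤ 8) :
    ∃ e ∈ E ⊓ C[A], e ∉ A := by
  by_contra h
  push Not at h
  have h0 : #(E ⊓ C[A] : Subgroup X) ≤ #(A ⊓ E : Subgroup X) := card_le_card (le_inf h inf_le_left)
  have h1 : E ⊓ C[A ⊓ E] = E := inf_eq_left.2 (sub_abelian_cent hE.1 inf_le_right)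
  have hp := cardG_pos (A ⊓ E)
  by_cases e0 : A ⊓ E = A
  · rw [e0] at h0 h1
    rw [h1] at h0
    omega
  obtain ⟨B1, l1, c1, f1⟩ := step hE hA inf_le_left e0
  rw [h1] at f1
  have g1 : 6 ≤ #(E ⊓ C[B1] : Subgroup X) := by nlinarith
  by_cases e1 : B1 = A
  · subst e1
    omega
  obtain ⟨B2, l2, c2, f2⟩ := step hE hA l1 e1
  have g2 : 3 ≤ #(E ⊓ C[B2] : Subgroup X) := by nlinarith
  by_cases e2 : B2 = A
  · subst e2
    omega
  obtain ⟨B3, l3, c3, f3⟩ := step hE hA l2 e2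
  have g3 : 2 ≤ #(E ⊓ C[B3] : Subgroup X) := by nlinarith
  have := card_le_card l3
  obtain rfl : B3 = A := eq_of_card_le l3 (by omega)
  omega

end

/-- Let X be a finite 2-group having a normal elementary abelian subgroup of order at least 32. Then (a) for any two elementary abelian subgroups A, B of X of order 8 there is a chain A = A₁, A₂, …, Aₙ = B of elementary abelian subgroups of order 8 in which consecutive members commute elementwise; and (b) every elementary abelian subgroup of X of order 4 is contained in an elementary abelian subgroup of order 8. -/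
theorem result {X : Type*} [Group X] [Finite X]
    (hX : IsPGroup 2 X) (E : Subgroup X) [E.Normal] (hE : Cfsg.IsElementaryAbelian 2 E) (hE32 : 32 ≤ Nat.card ↥E) :
    (∀ A B : Subgroup X, Cfsg.IsElementaryAbelian 2 A → Nat.card ↥A = 8 → Cfsg.IsElementaryAbelian 2 B → Nat.card ↥B = 8 →
        Relation.ReflTransGen
          (fun C D : Subgroup X => Cfsg.IsElementaryAbelian 2 C ∧ Nat.card ↥C = 8 ∧ Cfsg.IsElementaryAbelian 2 D ∧ Nat.card ↥D = 8 ∧ ⁅C, D⁆ = ⊥)
          A B) ∧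
      (∀ V : Subgroup X, Cfsg.IsElementaryAbelian 2 V → Nat.card ↥V = 4 →
        ∃ A : Subgroup X, V ≤ A ∧ Cfsg.IsElementaryAbelian 2 A ∧ Nat.card ↥A = 8) := by
  haveI : Fact (Nat.Prime 2) := ⟨Nat.prime_two⟩
  refine ⟨?_, fun V hV h4 => ?_⟩
  · set r := fun C D : Subgroup X => Cfsg.IsElementaryAbelian 2 C ∧ Nat.card ↥C = 8 ∧
      Cfsg.IsElementaryAbelian 2 D ∧ Nat.card ↥D = 8 ∧ ⁅C, D⁆ = ⊥ with hr
    have key : ∀ n : ℕ, ∀ A : Subgroup X, Abelem 2 A → #A = 8 → 8 ≤ #(A ⊓ E : Subgroup X) + n →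
        ∃ W ≤ E, Abelem 2 W ∧ #W = 8 ∧ Relation.ReflTransGen r A W := by
      intro n
      induction n with
      | zero =>
        intro A hA h8 h
        exact ⟨A, (eq_of_card_le (inf_le_left : A ⊓ E ≤ A) (by omega)).ge.trans inf_le_right, hA, h8, .refl⟩
      | succ n ih =>
        intro A hA h8 h
        by_cases hAE : A ≤ E
        · exact ⟨A, hAE, hA, h8, .refl⟩
        obtain ⟨e, he, heA⟩ := big hE hE32 hA h8.le
        obtain ⟨B, hB, hm⟩ := maxSub_exists (lt_of_le_of_ne (inf_le_left : A ⊓ E ≤ A)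
          fun h => hAE (h.ge.trans inf_le_right))
        have hBA : B ≤ A := hm.1.le
        have c1 := card_mul_relIndex hBA
        rw [p_maximal_index hA.pg hm] at c1
        obtain ⟨a1, c2⟩ := ext (abelemS hBA hA) (hE.2 e he.1) (centS hBA he.2) (fun h => heA (hBA h))
        have c3 : #(A ⊓ E : Subgroup X) < #((B ⊔ zpowers e) ⊓ E : Subgroup X) :=
          proper_card (lt_of_le_of_ne (le_inf (hB.trans le_sup_left) inf_le_right) fun h =>
            heA (h.ge ⟨mem_sup_right (mem_zpowers e), he.1⟩).1)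
        obtain ⟨W, hW, aW, cW, rW⟩ := ih _ a1 (by omega) (by omega)
        refine ⟨W, hW, aW, cW, .head ⟨hA, h8, a1, by omega, ?_⟩ rW⟩
        exact commG1'.2 (sup_le (hBA.trans hA.cent) (zpowers_le.2 he.2))
    intro A B hA cA hB cB
    obtain ⟨W, hW, aW, cW, rW⟩ := key 8 A hA cA (by omega)
    obtain ⟨W', hW', aW', cW', rW'⟩ := key 8 B hB cB (by omega)
    have hs : Std.Symm r := ⟨fun C D h => ⟨h.2.2.1, h.2.2.2.1, h.1, h.2.1, commGC C D ▸ h.2.2.2.2⟩⟩
    refine rW.trans (.head ⟨aW, cW, aW', cW', commG1.2 (sub_abelian_cent2 hE.1 hW hW')⟩ ?_)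
    exact (Relation.ReflTransGen.stdSymm (r := r)).symm _ _ rW'
  · obtain ⟨e, he, heV⟩ := big hE hE32 hV (by omega)
    obtain ⟨a1, c1⟩ := ext hV (hE.2 e he.1) he.2 heV
    exact ⟨_, le_sup_left, a1, by omega⟩

end Cfsg.Agent.S1785
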