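import Cfsg.Statements.S1786
import Cfsg.Agent.Sig.LT2

set_option autoImplicit false
open Cfsg

namespace Cfsg.Agent.S1786

open Subgroup Cfsg.Agent.BG Cfsg.Agent.Sig

theorem aux {G : Type*} [Group G] [Finite G] {V V' : Subgroup G} (h : LTI.Lt V V') :
    V ≤ LTI.PP V' ∧
      (∀ w ∈ V ⊔ V', w ≠ 1 → ∃! U : Subgroup G, (∃ x : G, U = cj x V) ∧ U ≤ V ⊔ V' ∧ w ∈ U) ∧
      LTI.PP V ⊔ LTI.PP V' ≤ N[V ⊔ V'] ∧
      (∀ hN : (C[V ⊔ V'].subgroupOf (LTI.PP V ⊔ LTI.PP V')).Normal, ∃ (F : Type) (_ : Field F) (_ : Fintype F),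
        Fintype.card F = #V ∧ Nonempty ((LTI.PP V ⊔ LTI.PP V' : Subgroup G) ⧸
          C[V ⊔ V'].subgroupOf (LTI.PP V ⊔ LTI.PP V') ≃* Matrix.SpecialLinearGroup (Fin 2) F)) ∧
      LTI.PP V = LTI.PP V ∧ Phi (LTI.PP V) = V ∧ (center (LTI.PP V)).map (LTI.PP V).subtype = V ∧
        (_root_.commutator (LTI.PP V)).map (LTI.PP V).subtype = V := by
  have hy := h.hyp
  have c1 : ⁅LTI.PP V, LTI.PP V⁆ = V := by
    refine le_antisymm (commutator_le.2 fun a ha b hb => hy.com ha hb) fun u hu => ?_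
    obtain ⟨a, ha, a1⟩ := h.ex1'
    obtain ⟨p, hp, rfl⟩ := h.T ha a1 hu
    exact commutator_mem_commutator hp (h.le ha)
  have hP : IsPGroup 2 (LTI.PP V) := IsPGroup.sub (Op_pgroup 2 _) inf_le_left
  refine ⟨h.symm, fun w hw w1 => ?_, sup_le h.PW (by rw [sup_comm]; exact h.swap.PW), h.sl2, rfl, le_antisymm ?_ ?_, ?_, ?_⟩
  · obtain ⟨U, ⟨x, rfl⟩, b, c⟩ := h.cover' hw
    refine ⟨_, ⟨⟨x, rfl⟩, b, c⟩, ?_⟩
    rintro _ ⟨⟨y, rfl⟩, -, c'⟩
    by_contra ne
    refine w1 ((hy.cj x).dis (g := y * x⁻¹) ?_ c ?_) <;> rwa [← cj_mul, inv_mul_cancel_right]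
  · exact (Phi_min hP).2 ⟨c1.le, fun x hx => by rw [pow_two]; exact hy.sq_mem hx⟩
  · exact c1.ge.trans (der1_sub_Phi (pgroup_nil hP))
  · rw [map_subtype_center]
    exact le_antisymm (fun z hz => hy.zen hz.1 fun r hr => (mem_cent.1 hz.2 r hr).symm)
      (le_inf hy.le (le_centralizer_iff.1 inf_le_right))
  · rw [Subgroup.map_subtype_commutator, c1]

/-- Let G be a finite group, V an elementary abelian 2-subgroup of G and M the normalizer of V; write Q for the largest normal 2-subgroup of M. Suppose (1) the generalized Fitting subgroup of M equals Q; (2) V is a maximal abelian normal subgroup of M; (3) every conjugate of V equals V or meets V trivially, and for some g ∈ G the conjugate V' = g V g⁻¹ is different from V and contained in Q. Let P be the centralizer of V in Q, W the subgroup generated by V and V', and H the subgroup generated by P and g P g⁻¹. Then: (a) V is contained in g Q g⁻¹; (b) every non-identity element of W lies in exactly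 one conjugate of V contained in W, H normalizes W, and H modulo the centralizer of W in H is isomorphic to the special linear group of dimension 2 over the field with |V| elements; (c) P = Q, and V equals the Frattini subgroup, the centre and the commutator subgroup of Q. -/
theorem result {G : Type*} [Group G] [Finite G] (V : Subgroup G)
    (hV : Cfsg.IsElementaryAbelian 2 V)
    (h1 : (Cfsg.generalizedFittingSubgroup ↥(Subgroup.normalizer (V : Set G))).map (Subgroup.normalizer (V : Set G)).subtype =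
      (Cfsg.pCore 2 ↥(Subgroup.normalizer (V : Set G))).map (Subgroup.normalizer (V : Set G)).subtype)
    (h2 : ∀ A : Subgroup G, V ≤ A → A ≤ Subgroup.normalizer (V : Set G) → IsMulCommutative ↥A →
      (∀ m ∈ Subgroup.normalizer (V : Set G), ∀ a ∈ A, m * a * m⁻¹ ∈ A) → A = V)
    (hti : ∀ x : G, V.map (MulAut.conj x).toMonoidHom = V ∨ V.map (MulAut.conj x).toMonoidHom ⊓ V = ⊥)
    (g : G) (hg : V.map (MulAut.conj g).toMonoidHom ≠ V)
    (hgQ : V.map (MulAut.conj g).toMonoidHom ≤ (Cfsg.pCore 2 ↥(Subgroup.normalizer (V : Set G))).map (Subgroup.normalizer (V : Set G)).subtype) :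
    let Q : Subgroup G := (Cfsg.pCore 2 ↥(Subgroup.normalizer (V : Set G))).map (Subgroup.normalizer (V : Set G)).subtype
    let P : Subgroup G := Q ⊓ Subgroup.centralizer (V : Set G)
    let W : Subgroup G := V ⊔ V.map (MulAut.conj g).toMonoidHom
    let H : Subgroup G := P ⊔ P.map (MulAut.conj g).toMonoidHom
    V ≤ Q.map (MulAut.conj g).toMonoidHom ∧
      (∀ w ∈ W, w ≠ 1 → ∃! U : Subgroup G, (∃ x : G, U = V.map (MulAut.conj x).toMonoidHom) ∧ U ≤ W ∧ w ∈ U) ∧
      H ≤ Subgroup.normalizer (W : Set G) ∧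
      (∀ hN : ((Subgroup.centralizer (W : Set G)).subgroupOf H).Normal, ∃ (F : Type) (_ : Field F) (_ : Fintype F), Fintype.card F = Nat.card ↥V ∧
        Nonempty (↥H ⧸ (Subgroup.centralizer (W : Set G)).subgroupOf H ≃* Matrix.SpecialLinearGroup (Fin 2) F)) ∧
      P = Q ∧ (frattini ↥Q).map Q.subtype = V ∧ (Subgroup.center ↥Q).map Q.subtype = V ∧ (commutator ↥Q).map Q.subtype = V := by
  rw [← Op_eq] at h1 hgQ ⊢
  have hy : LTI.Hyp V := ⟨hV, fun x hx => ?_, fun A a b c => h2 A a b.le c fun m hm x hx => b.conj_mem hm hx, hti⟩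
  swap
  · rw [← h1] at hx ⊢
    exact ⟨⟨x, hx.1⟩, centralizer_fstar_le fun y hy => Subtype.ext (hx.2 _ ⟨y, hy, rfl⟩), rfl⟩
  have h : LTI.Lt V (cj g V) := ⟨hy, ⟨g, rfl⟩, hg, le_inf hgQ (hy.cen_of_norm hg (hgQ.trans (pcore_sub _ _)))⟩
  have e : Op 2 N[V] ⊓ C[V] = Op 2 N[V] := h.PP_eq
  obtain ⟨a1, a2, a3, a4, -, a5, a6, a7⟩ := aux h
  rw [LTI.PP_cj] at a1 a3 a4
  rw [h.PP_eq] at a5 a6 a7
  exact ⟨a1.trans (cj_mono g inf_le_left), a2, a3, a4, e, a5, a6, a7⟩

end Cfsg.Agent.S1786
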