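import Cfsg.Statements.S1850
import Cfsg.Agent.Loc.SE
import Cfsg.Agent.BG.Base4

set_option autoImplicit false
open Cfsg

namespace Cfsg.Agent.S1850

open Subgroup Cfsg.Agent.BG Cfsg.Agent.Loc

theorem he {G : Type*} [Group G] [Finite G] {H : Subgroup G} (h : ChP 2 H) : H ∈ calHe G :=
  map_injective H.subtype_injective (chP_iff_fstarIn.1 h)

theorem up {G : Type*} [Group G] [Finite G] {p : ℕ} [Fact p.Prime] {R U : Subgroup G} (hU : IsPGroup p U)
    (hR : R ≤ U) (h : ChP p N[R]) : ChP p N[U] := by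
  obtain ⟨M, -, ⟨h1, h2⟩, h3⟩ := Finite.exists_le_maximal (p := fun M : Subgroup G => M ≤ U ∧ ChP p N[M]) ⟨hR, h⟩
  by_cases e : M = U
  · exact e ▸ h2
  have h4 := nilpotent_proper_norm hU.isNilpotent (lt_of_le_of_ne h1 e)
  exact absurd (h3 ⟨inf_le_left, h2.normalizer_of_le (hU.to_le inf_le_left) (inf_le_right.trans le_normalizer)
    ((centralizer_le h4.le).trans (centralizer_le_normalizer _))⟩ h4.le) h4.not_ge

/-- Let G be a non-abelian finite simple QTKE-group and T a Sylow 2-subgroup of G. If U is a nontrivial 2-subgroup of G with U ∩ Z(T) ≠ 1, then F*(N_G(U)) = O₂(N_G(U)). -/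
theorem result {G : Type*} [Group G] [Finite G] [IsSimpleGroup G]
    (hG : ¬ IsMulCommutative G) (hQ : Cfsg.IsQTKE G) (T : Sylow 2 G) (U : Subgroup G)
    (hU : IsPGroup 2 ↥U) (hZ : U ⊓ ((T : Subgroup G) ⊓ Subgroup.centralizer ((T : Subgroup G) : Set G)) ≠ ⊥) :
    Subgroup.normalizer (U : Set G) ∈ Cfsg.calHe G := by
  exact he (up hU inf_le_left (chP_iff.2 (hQ.2.2 _ ⟨_, hU.to_le inf_le_left, hZ, rfl⟩
    ⟨T, cents_norm (cents_symm (inf_le_right.trans inf_le_right))⟩)))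

end Cfsg.Agent.S1850
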