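import Cfsg.Statements.S1851
import Cfsg.Agent.S1850
import Cfsg.Agent.BG.Base5
import Cfsg.Agent.Loc.Res

set_option autoImplicit false
open Cfsg

namespace Cfsg.Agent.S1851

open Subgroup Cfsg.Agent.BG Cfsg.Agent.Loc

theorem facts {G : Type*} [Group G] [Finite G] (hQ : IsOfEvenCharacteristic G) (T : Sylow 2 G) {L : Subgroup G}
    (h : L ∈ calL (T : Subgroup G)) : L ≠ ⊥ ∧ ⁅L, L⁆ = L ∧ Sig.SubnIn L (L ⊔ T) ∧ ChP 2 (L ⊔ T) := by
  obtain ⟨⟨h1, h2, h3, -⟩, -, h4⟩ := h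
  have e := map_subgroupOf_eq_of_le (le_sup_left : L ≤ L ⊔ T)
  refine ⟨fun c => h1 (by rw [c, bot_subgroupOf]), by rw [← e, ← map_commutator, h2],
    by have := Sig.SubnIn.map_subtype_iff.2 h3; rwa [e] at this, ?_⟩
  have h5 : L ⊔ T ≤ N[pCoreOf 2 (L ⊔ T)] := (Loc.normal_map_subtype inferInstance)
  refine (chP_iff.2 (hQ _ ⟨_, isPGroup_pCoreOf 2 _, fun c => h4 (map_injective (subtype_injective _)
    (c.trans (Subgroup.map_bot _).symm)), rfl⟩ ⟨T, le_sup_right.trans h5⟩)).of_pCoreOf_le h5 ?_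
  rw [pCoreOf, ← Op_eq]
  exact (pcore_sub_Hall (pHall_subl (le_sup_right.trans h5) le_top (sylowIn_top T))).trans le_sup_right

/-- Let G be a non-abelian finite simple QTKE-group and T a Sylow 2-subgroup of G, and let L be a member of ℒ_f(G, T) (a member of ℒ(G, T) that lies in 𝒳 — L ≠ 1, L = O²(L), F*(L) = O₂(L) — and acts nontrivially on Ω₁(Z(O₂(L)))). Then (1) every member K of ℒ(G, T) containing L is again in ℒ_f(G, T) (a sharper form of (1) also compares the modules [Ω₁(Z(R)), L] and [Ω₁(Z(R')), K] for suitable 2-subgroups R, R'; that comparison is not included); and (2) if L is maximal under inclusion among the members of ℒ_f(G, T), then L is a maximal member of ℒ(G, T), hence a member of ℒ_f*(G, T). -/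
theorem result {G : Type*} [Group G] [Finite G] [IsSimpleGroup G]
    (hG : ¬ IsMulCommutative G) (hQ : Cfsg.IsQTKE G) (T : Sylow 2 G) (L : Subgroup G)
    (hL : L ∈ Cfsg.calLf (T : Subgroup G)) :
    (∀ K ∈ Cfsg.calL (T : Subgroup G), L ≤ K → K ∈ Cfsg.calLf (T : Subgroup G)) ∧
    ((∀ K ∈ Cfsg.calLf (T : Subgroup G), L ≤ K → K = L) → L ∈ Cfsg.calLfMax (T : Subgroup G)) := by
  have key : ∀ K ∈ calL (T : Subgroup G), L ≤ K → K ∈ calLf (T : Subgroup G) := fun K hK hle => by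
    obtain ⟨a1, a2, a3, a4⟩ := facts hQ.2.2 T hK
    obtain ⟨b1, b2, b3, b4⟩ := facts hQ.2.2 T hL.1
    have rK := pResidualOf_eq_of_perfect (p := 2) a2
    have rL := pResidualOf_eq_of_perfect (p := 2) b2
    refine ⟨hK, ⟨a1, le_antisymm ((closure_le _).2 fun x hx => hx.1) ?_, S1850.he (a4.subnIn a3)⟩,
      fun hV => hL.2.2 (commG1'.2 ?_)⟩
    · exact rK.ge.trans (map_le_iff_le_comap.2 ((closure_le _).2 fun x hx => Subgroup.subset_closure ⟨x.2, by
        rw [coe_subtype, orderOf_coe]; exact Nat.coprime_two_right.1 hx⟩))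
    set Q := pCoreOf 2 (K ⊔ T)
    set R := pCoreOf 2 (L ⊔ T)
    have pQ : IsPGroup 2 Q := isPGroup_pCoreOf 2 _
    have nQ : K ⊔ T ≤ N[Q] := (Loc.normal_map_subtype inferInstance)
    have nW : K ≤ N[omegaOne 2 Z[Q]] := norms_Ohm 2 (norms_center (le_sup_left.trans nQ))
    have hW : K ≤ C[omegaOne 2 Z[Q]] := by
      refine rK.ge.trans (pResidualOf_le_centralizer_of_le (pQ.to_le ((Ohm_sub _ _).trans inf_le_left)) (rK.symm ▸ nW) ?_
        (rK.symm ▸ commG1'.1 hV))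
      have h1 := commutator_pResidualOf_le_of_subnIn a3 ((Ohm_sub 2 Z[Q]).trans inf_le_left)
      rw [rK] at h1 ⊢
      have h2 := commg_subl nW
      have e : pCoreTwoOf K = Q ⊓ K := pCoreOf_eq_inf_of_subnIn a3
      refine fun x hx => mem_Ohm1 ⟨e ▸ ⟨(Ohm_sub _ _ (h2 hx)).1, h1 hx⟩, centralizer_le (e ▸ inf_le_left)
        (Ohm_sub _ _ (h2 hx)).2⟩ ((Ohm1_abelem 2 (center_abelian Q)).2 x (h2 hx))
    have QR : Q ≤ R := by
      have h1 : Q ≤ T := by
        simp only [Q]; rw [pCoreOf, ← Op_eq]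
        exact pcore_sub_Hall (pHall_subl le_sup_right le_top (sylowIn_top T))
      simp only [R]; rw [pCoreOf, ← Op_eq]
      exact pcore_max ⟨h1.trans le_sup_right, (sup_le_sup_right hle _).trans nQ⟩ (IsPGroup.pi pQ)
    have e : pCoreTwoOf L = R ⊓ L := pCoreOf_eq_inf_of_subnIn b3
    have nL : R ≤ N[L] := rL ▸ pCoreOf_le_normalizer_pResidualOf b3
    have nR : L ≤ N[R] := le_sup_left.trans (Loc.normal_map_subtype inferInstance)
    have pR : IsPGroup 2 R := isPGroup_pCoreOf 2 _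
    have hV' : omegaOne 2 Z[pCoreTwoOf L] ≤ R := (Ohm_sub _ _).trans (inf_le_left.trans (e ▸ inf_le_left))
    refine rL.ge.trans (pxq (E := R) (pR.to_le hV') (norms_Ohm 2 (norms_center (e ▸ normsI le_normalizer nL)))
      (norms_Ohm 2 (norms_center (e ▸ normsI nR le_normalizer))) ?_
      ((commg_subI nL nR).trans (e ▸ cents_symm ((Ohm_sub _ _).trans inf_le_right)))
      ((hle.trans hW).trans (centralizer_le fun x hx => ?_)))
    · rw [pResidualOf_eq_bot_of_isPGroup pR]; exact bot_le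
    · have h1 : x ∈ C[Q] := centralizer_le QR hx.2
      exact mem_Ohm1 ⟨a4.le (X := zpowers x) (zpowers_le.2 (sup_le_sup_right hle _ (map_subtype_le _ (hV' hx.1))))
        (zpowers_le.2 h1) (mem_zpowers x), h1⟩ ((Ohm1_abelem 2 (center_abelian _)).2 x hx.1)
  exact ⟨key, fun h => ⟨⟨hL.1, fun K hK hle => h K (key K hK hle) hle⟩, hL.2⟩⟩

end Cfsg.Agent.S1851
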