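import Cfsg.Statements.S1957
import Cfsg.Agent.BG.Base6
import Cfsg.Agent.BG.S3Gen
import Cfsg.Agent.Loc.CharP
import Cfsg.Agent.Loc.Res
import Cfsg.Agent.Gold.R2

set_option autoImplicit false
open Cfsg

namespace Cfsg.Agent.S1957

open Subgroup Cfsg.Agent.BG Cfsg.Agent.Loc
open scoped commutatorElement

theorem mem2 {G : Type*} [Group G] {u x : G} (hu : u * u = 1) (hx : x ∈ zpowers u) : x = 1 ∨ x = u := by
  obtain ⟨k, rfl⟩ := hx
  obtain ⟨j, rfl | rfl⟩ := k.even_or_odd' <;> simp [zpow_mul, zpow_add, pow_two, hu]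

theorem syl {G : Type*} [Group G] [Finite G] {P U : Subgroup G} (hP : SylowIn 2 P ⊤) (hUP : U ≤ P) (hUn : P ≤ N[U])
    (hU4 : IsKleinFour U) (hUZ : ¬ IsCyclic ↥Z[P] → U ≤ C[P]) {u : G} (hu : u ∈ U) (u1 : u ≠ 1) :
    ∃ T, SylowIn 2 T C1[u] ∧ U ≤ T ∧ T ≤ N[U] := by
  by_cases h : P ≤ C1[u]
  · exact ⟨P, pHall_subl h le_top hP, hUP, hUn⟩
  have hc : IsCyclic ↥Z[P] := by_contra fun c => h fun x hx => mem_cent1.2 (hUZ c hu x hx)
  have sq : ∀ x ∈ U, x * x = 1 := fun x hx => congrArg Subtype.val (IsKleinFour.mul_self (⟨x, hx⟩ : U))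
  have cm : ∀ x ∈ U, ∀ y ∈ U, x * y = y * x := fun x hx y hy =>
    congrArg Subtype.val (IsKleinFour.isMulCommutative.is_comm.comm (⟨x, hx⟩ : U) ⟨y, hy⟩)
  obtain ⟨⟨z, hz⟩, z1⟩ := ne_bot_iff_exists_ne_one.1 (meet_center_nil hP.pg.isNilpotent ⟨hUP, hUn⟩ fun e => u1 (by
    simpa [e] using hu))
  replace z1 : z ≠ 1 := fun e => z1 (Subtype.ext e)
  have zu : z ≠ u := fun e => h fun x hx => mem_cent1.2 (e ▸ hz.2.2 x hx)
  have o2 : ∀ x : G, x * x = 1 → x ≠ 1 → #(zpowers x) = 2 := fun x h1 h2 => by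
    rw [Nat.card_zpowers, orderOf_eq_prime (by rwa [pow_two]) h2]
  have zc : ∀ x ∈ Z[P], x * x = 1 → x = 1 ∨ x = z := fun x hx h1 => or_iff_not_imp_left.2 fun h2 =>
    (mem2 (sq z hz.1) (eq_subG_cyclic hc (zpowers_le.2 hx) (zpowers_le.2 hz.2)
      ((o2 x h1 h2).trans (o2 z (sq z hz.1) z1).symm) ▸ mem_zpowers x)).resolve_left h2
  have cs : ∀ x ∈ U, x ≠ 1 → x ≠ u → x ≠ z → x = u * z := fun x hx h1 h2 h3 =>
    congrArg Subtype.val (IsKleinFour.eq_mul_of_ne_all (x := (⟨u, hu⟩ : U)) (y := ⟨z, hz.1⟩) (z := ⟨x, hx⟩)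
      (by simpa using u1) (by simpa using z1) (by simpa using zu.symm) (by simpa using h1) (by simpa using h2)
      (by simpa using h3))
  have mv : ∀ a ∈ P, a ∉ C1[u] → a * u * a⁻¹ = u * z := fun a ha h1 => cs _ (conj_mem_of_norm (hUn ha) hu)
    (by simpa using u1) (fun e => h1 (mem_cent1.2 (mul_inv_eq_iff_eq_mul.1 e))) fun e => zu (by
      rw [mul_inv_eq_iff_eq_mul, ← hz.2.2 a ha] at e; exact (mul_left_cancel e).symm)
  obtain ⟨t, ht, tu⟩ := SetLike.not_le_iff_exists.1 h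
  have i2 : ∀ b ∈ P, b * t ∈ C1[u] ∨ b ∈ C1[u] := fun b hb => or_iff_not_imp_right.2 fun h1 => mem_cent1.2 (by
    have e1 := mv b hb h1
    have e2 := mv t ht tu
    rw [← mul_inv_eq_iff_eq_mul, show b * t * u * (b * t)⁻¹ = b * u * b⁻¹ * (b * z * b⁻¹) by
      rw [show b * t * u * (b * t)⁻¹ = b * (t * u * t⁻¹) * b⁻¹ by group, e2]; group, e1, hz.2.2 b hb,
      mul_inv_cancel_right, mul_assoc, sq z hz.1, mul_one])
  have UP : U ≤ P ⊓ C1[u] := le_inf hUP fun x hx => mem_cent1.2 (cm x hx u hu)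
  have PU : U ≤ C[P ⊓ C1[u]] := fun x hx a ha => by
    by_cases h1 : x = 1
    · simp [h1]
    by_cases h2 : x = u
    · rw [h2]; exact mem_cent1.1 ha.2
    by_cases h3 : x = z
    · rw [h3]; exact hz.2.2 a ha.1
    rw [cs x hx h1 h2 h3, ← mul_assoc, mem_cent1.1 ha.2, mul_assoc, hz.2.2 a ha.1, mul_assoc]
  have i3 : (P ⊓ C1[u]).relIndex P = 2 := by
    rw [inf_relIndex_left]; exact relIndex_eq_two_iff_exists_notMem_and.2 ⟨t, ht, tu, i2⟩
  have n1 : P ≤ N[P ⊓ C1[u]] := (normal_subgroupOf_iff_le_normalizer inf_le_left).1 (normal_of_index_eq_two i3)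
  have zP : ∀ w ∈ Z[P ⊓ C1[u]], t * w = w * t → w ∈ Z[P] := fun w hw h1 => ⟨hw.1.1, fun b hb => by
    rcases i2 b hb with h2 | h2
    · have := hw.2 _ ⟨mul_mem hb ht, h2⟩
      rw [mul_assoc, h1, ← mul_assoc, ← mul_assoc] at this
      exact mul_right_cancel this
    · exact hw.2 _ ⟨hb, h2⟩⟩
  have fx : ∀ w ∈ Z[P ⊓ C1[u]], w * w = 1 → w * (t * w * t⁻¹) = 1 → w ∈ U := fun w hw h1 h2 => by
    rcases zc w (zP w hw (mul_inv_eq_iff_eq_mul.1 (mul_left_cancel (h2.trans h1.symm)))) h1 with e | e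
    exacts [e ▸ one_mem U, e ▸ hz.1]
  have om : ∀ w ∈ Z[P ⊓ C1[u]], w * w = 1 → w ∈ U := fun w hw h1 => by
    have h2 := conj_mem_of_norm (norms_center n1 ht) hw
    have h3 := hw.2 _ h2.1
    have h4 := hw.2 _ ⟨mul_mem ht ht, (i2 t ht).resolve_right tu⟩
    rcases zc _ (zP _ (mul_mem hw h2) (by
      calc t * (w * (t * w * t⁻¹)) = t * w * t⁻¹ * (t * t * w) * t⁻¹ := by group
      _ = w * (t * w * t⁻¹) * t := by rw [h4, ← h3]; group)) (by
      calc w * (t * w * t⁻¹) * (w * (t * w * t⁻¹)) = w * (t * w * t⁻¹ * w) * (t * w * t⁻¹) := by group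
      _ = w * w * (t * (w * w) * t⁻¹) := by rw [h3]; group
      _ = 1 := by simp [h1]) with e | e
    · exact fx w hw h1 e
    · have uZ : u ∈ Z[P ⊓ C1[u]] := ⟨UP hu, PU hu⟩
      have h5 := hw.2 u uZ.1
      refine (mul_mem_cancel_left hu).1 (fx _ (mul_mem uZ hw) (by
        rw [mul_assoc, ← mul_assoc w, ← h5, mul_assoc, h1, mul_one, sq u hu]) ?_)
      calc u * w * (t * (u * w) * t⁻¹) = u * (w * (t * u * t⁻¹)) * (t * w * t⁻¹) := by group
      _ = u * (u * z) * (w * (t * w * t⁻¹)) := by rw [mv t ht tu, ← hw.2 _ (UP (mul_mem hu hz.1))]; group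
      _ = 1 := by rw [e, ← mul_assoc, sq u hu, one_mul, sq z hz.1]
  obtain ⟨T, sT, hT⟩ := Sylow_superset (inf_le_right : P ⊓ C1[u] ≤ C1[u]) (hP.pg.to_le inf_le_left)
  have n2 : T ≤ N[P ⊓ C1[u]] := by
    obtain ⟨g, -, hg⟩ := Sylow_Jsub hP le_top sT.pg
    have a1 := card_dvd_of_le hg
    rw [BG.card_cj, ← card_mul_relIndex hT, ← card_mul_relIndex (inf_le_left : P ⊓ C1[u] ≤ P), i3] at a1
    rcases (Nat.dvd_prime Nat.prime_two).1 (Nat.dvd_of_mul_dvd_mul_left Nat.card_pos a1) with e | e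
    · exact (relIndex_eq_one.1 e).trans le_normalizer
    · exact (normal_subgroupOf_iff_le_normalizer hT).1 (normal_of_index_eq_two e)
  exact ⟨T, sT, UP.trans hT, fun s hs => mem_norm_of_cj_le (by
    rintro _ ⟨v, hv, rfl⟩
    exact om _ (conj_mem_of_norm (norms_center n2 hs) ⟨UP hv, PU hv⟩) (by rw [← map_mul, sq v hv, map_one]))⟩

/-- Let `G` be a finite non-abelian simple group in which every local subgroup is solvable and which is of characteristic 2 type. Let `P` be a Sylow 2-subgroup of `G` and `U` a normal subgroup of `P` that is a four-group, with `U` central in `P` if the centre of `P` is not cyclic. Then `U` centralizes every subgroup of odd order of `G` that it normalizes. -/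
theorem result {G : Type*} [Group G] [Finite G]
    [IsSimpleGroup G] (hna : ¬ IsMulCommutative G) (hN : Cfsg.IsNGroup G) (h2 : Cfsg.IsCharacteristicTwoType G)
    (P : Sylow 2 G) (U : Subgroup G) (hUP : U ≤ (P : Subgroup G)) (hUn : (P : Subgroup G) ≤ Subgroup.normalizer (U : Set G))
    (hU4 : IsKleinFour ↥U)
    (hUZ : ¬ IsCyclic ↥((P : Subgroup G) ⊓ Subgroup.centralizer ((P : Subgroup G) : Set G)) →
      U ≤ Subgroup.centralizer ((P : Subgroup G) : Set G))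
    (K : Subgroup G) (hK : Odd (Nat.card K)) (hUK : U ≤ Subgroup.normalizer (K : Set G)) :
    U ≤ Subgroup.centralizer (K : Set G) := by
  have sq : ∀ x ∈ U, x * x = 1 := fun x hx => congrArg Subtype.val (IsKleinFour.mul_self (⟨x, hx⟩ : U))
  have pU := P.2.to_le hUP
  refine cents_symm (coprime_abelian_gen_cent1 IsKleinFour.isMulCommutative IsKleinFour.not_isCyclic hUK
    (by rw [hU4.card_four]; exact (Nat.coprime_two_right.2 hK).pow_right 2) fun u hu u1 y hy v hv => ?_)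
  obtain ⟨T, sT, UT, nT⟩ := syl (sylowIn_top P) hUP hUn hU4 hUZ hu u1
  have ch : ChP 2 C1[u] := Gold.N_zp (sq u hu) ▸ chP_iff.2 (h2.2 _ (pU.to_le (zpowers_le.2 hu)) (by simpa using u1))
  set Q := pCoreOf 2 C1[u]
  have pQ : IsPGroup 2 Q := isPGroup_pCoreOf 2 _
  have nQ : C1[u] ≤ N[Q] := Loc.normal_map_subtype inferInstance
  have QC : Q ≤ C1[u] := map_subtype_le _
  have QT : Q ≤ T := by simp only [Q]; rw [pCoreOf, ← Op_eq]; exact pcore_sub_Hall sT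
  have UC := UT.trans sT.1
  have wK : ⁅y, v⁆ ∈ K := by
    rw [commutatorElement_def, mul_assoc, mul_assoc, ← mul_assoc v]
    exact mul_mem hy.1 (conj_mem_of_norm (hUK hv) (inv_mem hy.1))
  have ti : K ⊓ Q = ⊥ := by
    obtain ⟨k, hk⟩ := pQ.exists_card_eq
    exact coprime_TI (hk ▸ (Nat.coprime_two_right.2 hK).pow_right k)
  refine (commutatorElement_eq_one_iff_mul_comm.1 (mem_bot.1 (ti ▸ mem_inf.2 ⟨wK, ?_⟩))).symm
  by_cases hQ : U ≤ Q
  · exact mul_mem (conj_mem_of_norm (nQ hy.2) (hQ hv)) (inv_mem (hQ hv))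
  have uQ : u ∈ Q := ch.le (zpowers_le.2 (mem_cent1.2 rfl)) (zpowers_le.2 fun q hq => mem_cent1.1 (QC hq)) (mem_zpowers u)
  have e : zpowers u = U ⊓ Q := eq_of_le_of_card_ge (zpowers_le.2 ⟨hu, uQ⟩) (by
    obtain ⟨k, hk⟩ := (pU.to_le (inf_le_left : U ⊓ Q ≤ U)).exists_card_eq
    have := proper_card (inf_lt_left.2 hQ)
    rw [hk, hU4.card_four] at this
    rw [hk, Nat.card_zpowers, orderOf_eq_prime (by rw [pow_two, sq u hu]) u1]
    exact Nat.pow_le_pow_right two_pos (Nat.lt_succ_iff.1 ((Nat.pow_lt_pow_iff_right one_lt_two).1 this : k < 2)))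
  have a1 : ∀ v ∈ U, ∀ q ∈ Q, ∃ e ∈ zpowers u, v * q * v⁻¹ = q * e := fun v hv q hq =>
    ⟨⁅q⁻¹, v⁆, e ▸ mem_inf.2 ⟨mul_mem (conj_mem_of_norm (nT (QT (inv_mem hq))) hv) (inv_mem hv), by
      rw [commutatorElement_def, mul_assoc, mul_assoc, ← mul_assoc v, inv_inv]
      exact mul_mem (inv_mem hq) (conj_mem_of_norm (nQ (UC hv)) hq)⟩, by simp [commutatorElement_def, mul_assoc]⟩
  have zc : ∀ e ∈ zpowers u, ∀ g ∈ C1[u], g * e * g⁻¹ = e := fun e he g hg => by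
    rcases mem2 (sq u hu) he with rfl | rfl
    · simp
    · rw [mem_cent1.1 hg, mul_inv_cancel_right]
  have wC : ⁅y, v⁆ ∈ C1[u] := mul_mem (mul_mem (mul_mem hy.2 (UC hv)) (inv_mem hy.2)) (inv_mem (UC hv))
  refine ch.le (zpowers_le.2 wC) (zpowers_le.2 fun q hq => ?_) (mem_zpowers _)
  obtain ⟨e1, h1, h3⟩ := a1 _ (inv_mem hv) q hq
  obtain ⟨e2, h4, h5⟩ := a1 v hv _ (conj_mem_of_norm (nQ (inv_mem hy.2)) hq)
  have h6 : ⁅y, v⁆ * q * ⁅y, v⁆⁻¹ = q * (e2 * e1) := by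
    calc ⁅y, v⁆ * q * ⁅y, v⁆⁻¹ = y * v * y⁻¹ * (v⁻¹ * q * v⁻¹⁻¹) * (y * v * y⁻¹)⁻¹ := by
          rw [commutatorElement_def]; group
    _ = y * (v * (y⁻¹ * q * y⁻¹⁻¹) * v⁻¹) * y⁻¹ * (y * v * y⁻¹ * e1 * (y * v * y⁻¹)⁻¹) := by rw [h3]; group
    _ = q * (y * e2 * y⁻¹ * e1) := by
      rw [h5, zc e1 h1 _ (mul_mem (mul_mem hy.2 (UC hv)) (inv_mem hy.2))]; group
    _ = _ := by rw [zc e2 h4 y hy.2]
  have h7 : ⁅y, v⁆ ^ 2 ∈ C1[q] := mem_cent1.2 (mul_inv_eq_iff_eq_mul.1 (by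
    have h8 := mul_mem h4 h1
    calc ⁅y, v⁆ ^ 2 * q * (⁅y, v⁆ ^ 2)⁻¹ = ⁅y, v⁆ * (⁅y, v⁆ * q * ⁅y, v⁆⁻¹) * ⁅y, v⁆⁻¹ := by rw [pow_two]; group
    _ = ⁅y, v⁆ * (q * (e2 * e1)) * ⁅y, v⁆⁻¹ := by rw [h6]
    _ = ⁅y, v⁆ * q * ⁅y, v⁆⁻¹ * (⁅y, v⁆ * (e2 * e1) * ⁅y, v⁆⁻¹) := by group
    _ = q := by rw [h6, zc _ h8 _ wC, mul_assoc, sq _ (zpowers_le.2 hu h8), mul_one]))
  exact (mem_cent1.1 (mem_of_pow_mem_of_coprime h7 (Nat.coprime_two_right.2
    (hK.of_dvd_nat (K.orderOf_dvd_natCard wK))))).symm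

end Cfsg.Agent.S1957
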