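import Cfsg.Statements.S1958
import Cfsg.Agent.BG.Base6
import Cfsg.Agent.Sig.Core

set_option autoImplicit false
open Cfsg

namespace Cfsg.Agent.S1958

open Cfsg.Agent.Loc Subgroup

theorem le {G : Type*} [Group G] [Finite G] (p : ℕ) [Fact p.Prime] (x y : G) (hx : orderOf x = p) (hxy : x * y = y * x)
    (hCy : Group.IsSolvable ↥(Subgroup.centralizer ({y} : Set G))) :
    Cfsg.centralizerPPrimeCore p x ⊓ Subgroup.centralizer {y} ≤ Cfsg.centralizerPPrimeCore p y ⊓ Subgroup.centralizer {x} := by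
  rw [Sig.centralizerPPrimeCore_eq, Sig.centralizerPPrimeCore_eq]
  refine le_inf ?_ (inf_le_left.trans Sig.ppIn_le)
  have h1 := BG.p'core_cent_pgroup (p := p) (R := zpowers x) (zpowers_le.2 (mem_centralizer_singleton_iff.2 hxy))
    (isPGroup_zpowers_of_orderOf (k := 1) (by rw [hx, pow_one])) hCy
  rw [BG.Op'_eq, BG.Op'_eq, centralizer_zpowers] at h1
  exact (le_inf inf_le_left (le_inf inf_le_right (inf_le_left.trans Sig.ppIn_le))).trans
    ((Sig.ppIn_inf_le inf_le_right).trans h1)

/-- Let `G` be a finite group, `p` a prime, and `x, y` commuting elements of order `p` whose centralizers `C_G(x)` and `C_G(y)` are both solvable. Then `O_{p'}(C_G(x)) ∩ C_G(y) = O_{p'}(C_G(y)) ∩ C_G(x)` (balance). -/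
theorem result {G : Type*} [Group G] [Finite G]
    (p : ℕ) [Fact p.Prime] (x y : G) (hx : orderOf x = p) (hy : orderOf y = p) (hxy : x * y = y * x)
    (hCx : Group.IsSolvable ↥(Subgroup.centralizer ({x} : Set G))) (hCy : Group.IsSolvable ↥(Subgroup.centralizer ({y} : Set G))) :
    Cfsg.centralizerPPrimeCore p x ⊓ Subgroup.centralizer {y} = Cfsg.centralizerPPrimeCore p y ⊓ Subgroup.centralizer {x} := by
  exact le_antisymm (le p x y hx hxy hCy) (le p y x hy hxy.symm hCx)

end Cfsg.Agent.S1958
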