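import Cfsg.Statements.S1966
import Cfsg.Agent.Solv.Core

set_option autoImplicit false
open Cfsg

namespace Cfsg.Agent.S1966

open Subgroup

/-- Let p be a prime, G a finite group with Sylow p-subgroup S and 𝓕 a conjugation family for S in G. Then the members of 𝓕 containing O_p(G) still form a conjugation family for S in G. -/
theorem result {G : Type*} [Group G] [Finite G] {p : ℕ} [Fact p.Prime] (S : Sylow p G) (𝓕 : Set (Subgroup G)) (h : Cfsg.IsConjugationFamily 𝓕 (S : Subgroup G)) : Cfsg.IsConjugationFamily {T : Subgroup G | T ∈ 𝓕 ∧ Cfsg.pCore p G ≤ T} (S : Subgroup G) := by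
  refine ⟨fun T hT => h.1 T hT.1, fun A g hA hAS hAg => ?_⟩
  have hO : ∀ y : G, (fun a => y⁻¹ * a * y) '' (pCore p G : Set G) = pCore p G := by
    intro y
    ext a
    constructor
    · rintro ⟨b, hb, rfl⟩
      exact Normal.conj_mem' inferInstance b hb y
    · exact fun ha => ⟨y * a * y⁻¹, Normal.conj_mem inferInstance a ha y, by group⟩
  have hS : (pCore p G : Set G) ⊆ (S : Subgroup G) := Solv.pCore_le_sylow S
  obtain ⟨n, T, x, h1, h2, h3, h4, h5⟩ := h.2 (A ∪ pCore p G) g hA.inl (Set.union_subset hAS hS)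
    (by rw [Set.image_union, hO]; exact Set.union_subset hAg hS)
  refine ⟨n, T, x, h1, fun i => ⟨h2 i, ?_⟩, h3, fun h0 => Set.subset_union_left.trans (h4 h0),
    fun i hi => (Set.image_mono Set.subset_union_left).trans (h5 i hi)⟩
  obtain ⟨_ | i, hi⟩ := i
  · exact Set.subset_union_right.trans (h4 hi)
  · have := h5 ⟨i, by omega⟩ hi
    rw [Set.image_union, hO] at this
    exact Set.subset_union_right.trans this

end Cfsg.Agent.S1966
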