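import Cfsg.Statements.S1967
import Cfsg.Agent.Transfer.FunctorCtl

set_option autoImplicit false
open Cfsg

namespace Cfsg.Agent.S1967

open Subgroup Transfer

/-- Let p be a prime, G a finite group with Sylow p-subgroup S and W a conjugacy functor for p on G. Then W controls strong fusion in G if and only if, whenever T ≤ S and g ∈ G satisfy gTg⁻¹ ≤ S, one can write g = n c with n ∈ N_G(W(S)) and c ∈ C_G(T). -/
theorem result {G : Type*} [Group G] [Finite G] {p : ℕ} [Fact p.Prime] (S : Sylow p G) (W : Subgroup G → Subgroup G) (hW : Cfsg.IsConjugacyFunctor p W) : Cfsg.ControlsStrongFusionIn p W ⊤ ↔ ∀ (T : Subgroup G) (g : G), T ≤ (S : Subgroup G) → T.map (MulAut.conj g).toMonoidHom ≤ (S : Subgroup G) → ∃ n ∈ Subgroup.normalizer ((W (S : Subgroup G) : Subgroup G) : Set G), ∃ c ∈ Subgroup.centralizer (T : Set G), g = n * c := by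
  have h𝓦 : ∀ W' ∈ ({W} : Set (Subgroup G → Subgroup G)), IsConjugacyFunctor p W' := by
    rintro _ rfl
    exact hW
  rw [controlsStrongFusionIn_iff_family, familyControlsStrongFusionIn_iff h𝓦 (isSylowIn_top S),
    famSF_singleton_iff]
  constructor
  · intro h T g h1 h2
    obtain ⟨x, hx, h3⟩ := h T g trivial h1 (conj_smul_le_iff.1 h2)
    refine ⟨x, hx.2, x⁻¹ * g, fun a ha => ?_, by group⟩
    calc a * (x⁻¹ * g) = x⁻¹ * (x * a * x⁻¹) * g := by group
      _ = x⁻¹ * g * a := by rw [h3 a ha]; group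
  · intro h A g _ h1 h2
    obtain ⟨n, hn, c, hc, rfl⟩ := h (closure A) g ((closure_le _).2 h1)
      (by rw [map_le_iff_le_comap, closure_le]; exact h2)
    refine ⟨n, ⟨trivial, hn⟩, fun a ha => ?_⟩
    rw [mul_assoc n c, ← hc a (subset_closure ha)]
    group

end Cfsg.Agent.S1967
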