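import Cfsg.Statements.S1978
import Cfsg.Agent.PLocal.KInf
-- import your own Cfsg.Agent.* helpers here

set_option autoImplicit false
open Cfsg

namespace Cfsg.Agent.S1978


open Subgroup Cfsg Cfsg.Agent.Transfer Cfsg.Agent.BG Cfsg.Agent.PLocal Pointwise
open scoped commutatorElement

/-- Let P be a finite p-group. Each of the two K-infinity subgroups of P contains its own centralizer in P, which in turn contains Z(P); in particular both are nontrivial when P is. -/
theorem result {P : Type*} [Group P] [Finite P] {p : ℕ} [Fact p.Prime] (hP : IsPGroup p P) : Subgroup.centralizer (Cfsg.kInfLower P : Set P) ≤ Cfsg.kInfLower P ∧ Subgroup.center P ≤ Subgroup.centralizer (Cfsg.kInfLower P : Set P) ∧ Subgroup.centralizer (Cfsg.kInfUpper P : Set P) ≤ Cfsg.kInfUpper P ∧ Subgroup.center P ≤ Subgroup.centralizer (Cfsg.kInfUpper P : Set P) := by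
  have hP' : IsPGroup p (⊤ : Subgroup P) := hP.to_subgroup ⊤
  rw [← kL_top, ← kU_top]
  exact ⟨(le_inf le_top le_rfl).trans (cent_kL hP'), center_le_centralizer _,
    (le_inf le_top le_rfl).trans (cent_kU hP'), center_le_centralizer _⟩


end Cfsg.Agent.S1978
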