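import Cfsg.Statements.S1981
import Cfsg.Agent.PLocal.KInf
-- import your own Cfsg.Agent.* helpers here

set_option autoImplicit false
open Cfsg

namespace Cfsg.Agent.S1981


open Subgroup Cfsg Cfsg.Agent.Transfer Cfsg.Agent.BG Cfsg.Agent.PLocal Pointwise
open scoped commutatorElement

/-- Let P be a finite p-group generated by its abelian normal subgroups. Then both K-infinity subgroups of P equal P. -/
theorem result {P : Type*} [Group P] [Finite P] {p : ℕ} [Fact p.Prime] (hP : IsPGroup p P) (hgen : ⨆ A ∈ {A : Subgroup P | A.Normal ∧ IsMulCommutative ↥A}, A = ⊤) : Cfsg.kInfLower P = ⊤ ∧ Cfsg.kInfUpper P = ⊤ := by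
  have hn : ∀ A : Subgroup P, A.Normal → A ⊴ (⊤ : Subgroup P) := fun A _ =>
    ⟨le_top, normalizer_eq_top A ▸ le_rfl⟩
  rw [← kL_top, ← kU_top, eq_top_iff, eq_top_iff]
  constructor
  · exact hgen.symm.le.trans (iSup₂_le fun A hA => abel_le_kL (hn A hA.1) hA.2)
  · exact hgen.symm.le.trans (iSup₂_le fun A hA => abel_le_kU (hn A hA.1) hA.2)


end Cfsg.Agent.S1981
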