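import Cfsg.Statements.S1985
import Cfsg.Agent.PLocal.WeakCl
-- import your own Cfsg.Agent.* helpers here

set_option autoImplicit false
universe u
open Cfsg

namespace Cfsg.Agent.S1985


open Subgroup Cfsg Cfsg.Agent.Transfer Cfsg.Agent.BG Cfsg.Agent.PLocal Pointwise
open scoped commutatorElement

/-- Let p be an odd prime and G a finite group. Then the lower K-infinity subgroup controls weak closure of elements in G: the lower K-infinity subgroup of every p-subgroup P of G contains Z(P), and for some (equivalently, every) Sylow p-subgroup S of G, with K the lower K-infinity subgroup of S, every element of S commuting with all of N_G(K) is weakly closed in S with respect to G (every G-conjugate of it lying in S equals it). -/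
theorem result {G : Type u} [Group G] [Finite G] {p : ℕ} [Fact p.Prime] (hp : p ≠ 2) : Cfsg.ControlsWeakClosureOfElementsIn p (Cfsg.inducedFunctor (G := G) Cfsg.kInfLower) ⊤ := by
  obtain ⟨T, hT⟩ := exists_isSylowIn (p := p) (⊤ : Subgroup G)
  have hZ : ∀ P : Subgroup G, IsPGroup p P → Z[P] ≤ inducedFunctor kInfLower P :=
    fun P _ => ind_kL P ▸ center_le_kL P
  refine ⟨hZ, T, hT.le, hT.isPGroup, hT.not_dvd, fun x hx g hg hg' =>
    wc_of_degree (ind_functor kL_char) hZ (fun H T h h' => ?_) hT hx hg hg'⟩
  obtain ⟨g, h1, h2, h3⟩ := kL_quad h (ind_kL T ▸ h')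
  exact ⟨g, h1, h2, fun U V _ => degree_of_quad hp h3 U V⟩


end Cfsg.Agent.S1985
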