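import Cfsg.Statements.S1989
import Cfsg.Agent.PLocal.Qd2
-- import your own Cfsg.Agent.* helpers here

set_option autoImplicit false
universe u
open Cfsg

namespace Cfsg.Agent.S1989


open Subgroup Cfsg Cfsg.Agent.Transfer Cfsg.Agent.BG Cfsg.Agent.PLocal Pointwise
open scoped commutatorElement

/-- Let p be an odd prime and G a finite group. Then Qd(p) (the natural semidirect product of an elementary abelian group of order p² by SL₂(p)) is not involved in G if and only if, in every section K/R of G and for every Sylow p-subgroup T of K/R, the lower K-infinity subgroup of T controls strong fusion in K/R. -/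
theorem result {G : Type u} [Group G] [Finite G] {p : ℕ} [Fact p.Prime] (hp : p ≠ 2) : ¬ Cfsg.Involves ↥(Cfsg.qd p) G ↔ ∀ (K R : Subgroup G) [hR : (R.subgroupOf K).Normal], ∀ T : Sylow p (↥K ⧸ R.subgroupOf K), Cfsg.ControlsStrongFusion p (Cfsg.inducedFunctor (G := (↥K ⧸ R.subgroupOf K)) Cfsg.kInfLower (T : Subgroup (↥K ⧸ R.subgroupOf K))) := by
  refine ⟨fun h K R _ T => ?_, fun h => not_involves_qd_of_sfok (single_char kL_char) fun K R _ => ?_⟩
  · rw [← sfok_single_iff kL_char (isSylowIn_top T)]
    exact (sfok_kinf (fun X _ _ hX => nstab_of_not_qd hp fun h' =>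
      h (involves_iff_top.2 (hX.trans' h'))) _ (involves_sec K R)).1
  · obtain ⟨T⟩ : Nonempty (Sylow p (K ⧸ R.subgroupOf K)) := inferInstance
    rw [sfok_single_iff kL_char (isSylowIn_top T)]
    exact h K R T


end Cfsg.Agent.S1989
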