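import Cfsg.Statements.S1992
import Cfsg.Agent.S1991
import Cfsg.Agent.S0144
-- import your own Cfsg.Agent.* helpers here

set_option autoImplicit false
open Cfsg

namespace Cfsg.Agent.S1992


open Subgroup Cfsg Cfsg.Agent.Transfer Cfsg.Agent.BG Cfsg.Agent.PLocal Pointwise
open scoped commutatorElement

/-- Let G be a finite group in which, for every prime q dividing the order of G, every Sylow q-subgroup is its own normalizer. Then the order of G is a power of a single prime (G is a q-group for some prime q; for G trivial any prime works). -/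
theorem result {G : Type*} [Group G] [Finite G] (h : ∀ q : ℕ, q.Prime → q ∣ Nat.card G → ∀ Q : Sylow q G, Subgroup.normalizer ((Q : Subgroup G) : Set G) = Q) : ∃ q : ℕ, q.Prime ∧ IsPGroup q G := by
  by_cases h1 : Nat.card G = 1
  · haveI := (Nat.card_eq_one_iff_unique.1 h1).1
    exact ⟨2, Nat.prime_two, fun g => ⟨0, Subsingleton.elim _ _⟩⟩
  have key : ∃ r : ℕ, r.Prime ∧ ∃ M : Subgroup G, M.Normal ∧ M.index = r := by
    by_cases h5 : ∃ p, p.Prime ∧ p ∣ Nat.card G ∧ 5 ≤ p
    · obtain ⟨p, hp, hd, h5⟩ := h5
      haveI := Fact.mk hp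
      obtain ⟨S⟩ : Nonempty (Sylow p G) := inferInstance
      refine ⟨p, hp, Cfsg.Agent.S1991.result h5 S (S.ne_bot_of_dvd_card hd) fun g hg hc => ?_⟩
      rw [h p hp hd S] at hg
      have : g = 1 := by
        obtain ⟨k, hk⟩ := S.2 ⟨g, hg⟩
        have h2 : g ^ p ^ k = 1 := by simpa using congrArg Subtype.val hk
        exact orderOf_eq_one_iff.1 ((hc.pow_right k).eq_one_of_dvd (orderOf_dvd_of_pow_eq_one h2))
      rw [this]; exact one_mem _
    · have hc : Nat.card G = 2 ^ (Nat.card G).factorization 2 * 3 ^ (Nat.card G).factorization 3 := by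
        refine Nat.eq_of_factorization_eq Nat.card_pos.ne' (by positivity) fun q => ?_
        rw [Nat.factorization_mul (by positivity) (by positivity), Nat.prime_two.factorization_pow,
          Nat.prime_three.factorization_pow]
        by_cases h2 : q = 2
        · subst h2; simp
        by_cases h3 : q = 3
        · subst h3; simp
        rw [Finsupp.add_apply, Finsupp.single_eq_of_ne h2, Finsupp.single_eq_of_ne h3]
        by_contra h4
        have hq : q ∈ (Nat.card G).primeFactors := Finsupp.mem_support_iff.2 h4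
        have hq' := Nat.prime_of_mem_primeFactors hq
        refine h5 ⟨q, hq', Nat.dvd_of_mem_primeFactors hq, ?_⟩
        have := hq'.two_le
        by_contra h6
        have : q = 4 := by omega
        subst this
        exact absurd hq' (by decide)
      haveI := Cfsg.Agent.S0144.result 2 3 _ _ Nat.prime_two Nat.prime_three hc
      haveI : Nontrivial G := Finite.one_lt_card_iff_nontrivial.1 (by
        have := Nat.card_pos (α := G); omega)
      have h2 : (commutator G).index ≠ 1 := fun e =>
        (Group.IsSolvable.commutator_lt_top_of_nontrivial G).ne (index_eq_one.1 e)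
      obtain ⟨r, hr, hd⟩ := Nat.exists_prime_and_dvd h2
      haveI := Fact.mk hr
      exact ⟨r, hr, pResidual_ne_top_iff.1 fun e =>
        pResidual_eq_top_iff_not_dvd_index_commutator.1 e hd⟩
  obtain ⟨r, hr, M, hM, hi⟩ := key
  haveI := Fact.mk hr
  refine ⟨r, hr, IsPGroup.of_equiv (isPGroup_of_forall_prime (L := ⊤) fun q hq hd => ?_) topEquiv⟩
  by_contra hne
  rw [card_top] at hd
  haveI := Fact.mk hq
  obtain ⟨Q⟩ : Nonempty (Sylow q G) := inferInstance
  have hQ : (Q : Subgroup G) ≤ M := Solv.le_of_coprime_index (by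
    obtain ⟨k, hk⟩ := IsPGroup.iff_card.1 Q.2
    rw [hk, hi]
    exact ((Nat.coprime_primes hq hr).2 hne).pow_left k)
  have : N[(Q : Subgroup G)] ⊔ M = ⊤ := Sylow.normalizer_sup_eq_top' Q hQ
  rw [h q hq hd Q, sup_eq_right.2 hQ] at this
  rw [this, index_top] at hi
  exact hr.one_lt.ne hi


end Cfsg.Agent.S1992
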