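import Cfsg.Statements.S2004
import Cfsg.Agent.PLocal.NStab
-- import your own Cfsg.Agent.* helpers here

set_option autoImplicit false
open Cfsg

namespace Cfsg.Agent.S2004


open Subgroup Cfsg Cfsg.Agent.Transfer Cfsg.Agent.BG Cfsg.Agent.PLocal Pointwise
open scoped commutatorElement

theorem lift {H X : Type*} [Group H] [Group X] [Finite H] {p : ℕ} [Fact p.Prime] {f : H →* X}
    (hf : Function.Surjective f) {Q : Subgroup X} (hQ : IsPGroup p Q) :
    ∃ P : Subgroup H, IsPGroup p P ∧ P.map f = Q ∧ N[Q] ≤ N[P].map f := by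
  haveI := Finite.of_surjective f hf
  obtain ⟨P, hP⟩ := exists_isSylowIn (p := p) (Q.comap f)
  have h1 := IsSylowIn.map' hP f
  rw [map_comap_eq_self_of_surjective hf] at h1
  have h2 : P.map f = Q := (h1.eq_of_le hQ le_rfl h1.le).symm
  refine ⟨P, hP.isPGroup, h2, fun y hy => ?_⟩
  obtain ⟨x, rfl⟩ := hf y
  obtain ⟨a, ha, n, hn, rfl⟩ := hP.frattini (le_normalizer_comap f hy)
  rw [mem_comap, ← h2] at ha
  rw [map_mul]
  exact mul_mem (map_mono (normG P) ha) (mem_map_of_mem f hn)

/-- Let p be an odd prime and G a finite group such that SL₂(p) is not involved in N_G(P) for any nonidentity p-subgroup P of G. Then every section of G is p-stable in the normalizer form: in each section, whenever an element of the normalizer of a p-subgroup Q acts quadratically on Q, its image in N(Q)/C(Q) lies in O_p(N(Q)/C(Q)). -/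
theorem result {G : Type*} [Group G] [Finite G] {p : ℕ} [Fact p.Prime] (hp : p ≠ 2) (h : ∀ P : Subgroup G, IsPGroup p ↥P → P ≠ ⊥ → ¬ Cfsg.Involves (Matrix.SpecialLinearGroup (Fin 2) (ZMod p)) ↥(Subgroup.normalizer ((P : Subgroup G) : Set G))) : ∀ (K R : Subgroup G) [hR : (R.subgroupOf K).Normal], Cfsg.IsNormalizerPStable p (↥K ⧸ R.subgroupOf K) := by
  intro K R _
  refine nstab_iff.2 fun Q hQ => ?_
  by_cases h0 : Q = ⊥
  · intro a ha _
    exact inf_le_opMod (cent_norm Q) ⟨ha, by rw [h0, BG.cent_bot]; trivial⟩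
  obtain ⟨P, h1, h2, h3⟩ := lift (QuotientGroup.mk'_surjective (R.subgroupOf K)) hQ
  refine stableOn_of_not_involves_SL2 hp (fun h4 => h (P.map K.subtype) (h1.map _)
    (fun e => h0 ?_) (involves_iff_sub.2 ?_)) hQ le_rfl
  · rw [← h2, (Subgroup.map_eq_bot_iff_of_injective _ K.subtype_injective).1 e, Subgroup.map_bot]
  · exact ((h4.mono h3).of_map.map_of_injective K.subtype_injective).mono (norms_map _ le_rfl)


end Cfsg.Agent.S2004
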