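import Cfsg.Statements.S2009
import Cfsg.Agent.Loc.Cons
import Cfsg.Agent.Invol.Basic

set_option autoImplicit false
open Cfsg

namespace Cfsg.Agent.S2009

section helpers
open Cfsg.Agent.Loc Subgroup
open scoped commutatorElement

theorem exists_other {H : Type*} [Group H] [Finite H] {z : H} (hz : orderOf z = 2) {E : Subgroup H}
    (hE : IsKleinFour E) : ∃ a ∈ E, a ∉ zpowers z := by
  by_contra hc
  push Not at hc
  have := card_le_of_le (show E ≤ zpowers z from hc)
  rw [Nat.card_zpowers, hz, hE.card_four] at this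
  omega

end helpers

/-- Let H be a finite group and z an involution such that every proper normal subgroup of H meets the centralizer of z trivially, and suppose z lies in a Klein four-subgroup E of H all three of whose involutions are conjugate to z in H. Then H is simple. -/
theorem result {H : Type*} [Group H] [Finite H] (z : H) (hz : orderOf z = 2) (hN : ∀ N : Subgroup H, N.Normal → N ≠ ⊤ → N ⊓ Subgroup.centralizer ({z} : Set H) = ⊥) (E : Subgroup H) (hE : IsKleinFour ↥E) (hzE : z ∈ E) (hc : ∀ e ∈ E, e ≠ 1 → IsConj z e) : IsSimpleGroup H := by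
  open Cfsg.Agent.Loc Subgroup in
  open scoped commutatorElement in
  haveI : Nontrivial H := ⟨⟨z, 1, Invol.ne_one_of hz⟩⟩
  refine ⟨fun N hn => or_iff_not_imp_right.2 fun hne => ?_⟩
  have h1 : ∀ e ∈ E, e ≠ 1 → N ⊓ centralizer ({e} : Set H) = ⊥ := fun e he he1 => by
    obtain ⟨g, rfl⟩ := isConj_iff.1 (hc e he he1)
    rw [← cj_centralizer_singleton, ← cj_eq_of_normal g N, ← cj_inf, hN N hn hne, cj_bot]
  have h2 : ∀ e ∈ E, e ≠ 1 → ∀ k ∈ N, e * k * e⁻¹ = k⁻¹ := fun e he he1 =>
    (fpf_invol (le_normalizer_of_normal (mem_top e)) (congrArg Subtype.val (hE.mul_self ⟨e, he⟩)) (h1 e he he1)).2.2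
  obtain ⟨a, ha, haz⟩ := exists_other hz hE
  have ha1 : a ≠ 1 := fun h => haz (h ▸ one_mem _)
  have hza : z * a ≠ 1 := fun h => haz (eq_inv_of_mul_eq_one_right h ▸ inv_mem (mem_zpowers z))
  rw [← h1 _ (mul_mem hzE ha) hza, left_eq_inf]
  exact fun k hk => mem_cent1'.2
    (Invol.commute_mul_of_inverts (h2 z hzE (Invol.ne_one_of hz) k hk) (h2 a ha ha1 k hk)).symm

end Cfsg.Agent.S2009
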