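import Cfsg.Statements.S2035
import Cfsg.Agent.Known.M12Mul
import Cfsg.Agent.Known.M12Eq

namespace Cfsg.Agent.S2035

open Cfsg.Agent.Known

theorem result : Cfsg.HasCyclicSchurMultiplier ↥Cfsg.Spor.M12 2 :=
  M12T.equiv.elim fun e => Schur.hasSchurMultiplier_congr_left M12T.mult e.symm

end Cfsg.Agent.S2035
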