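import Cfsg.Statements.S2036
import Cfsg.Agent.Known.M22Mul
import Cfsg.Agent.Known.M22Eq

namespace Cfsg.Agent.S2036

open Cfsg.Agent.Known

theorem result : Cfsg.HasCyclicSchurMultiplier ↥Cfsg.Spor.M22 12 :=
  M22T.equiv.elim fun e => Schur.hasSchurMultiplier_congr_left M22T.mult e.symm

end Cfsg.Agent.S2036
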