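import Cfsg.Statements.S2039
import Cfsg.Agent.Known.J1Mul
import Cfsg.Agent.Spor.EqJ1

namespace Cfsg.Agent.S2039

open Cfsg.Agent.Known

theorem result : Cfsg.HasCyclicSchurMultiplier ↥Cfsg.Spor.J1 1 :=
  Spor.EqJ1.equiv.elim fun e => Schur.hasSchurMultiplier_congr_left J1T.mult e

end Cfsg.Agent.S2039
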