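import Cfsg.Statements.S2040
import Cfsg.Agent.Known.J2Mul
import Cfsg.Agent.Ico.Eq

namespace Cfsg.Agent.S2040

open Cfsg.Agent.Known

theorem result : Cfsg.HasCyclicSchurMultiplier Cfsg.Spor.J2 2 :=
  Ico.equiv.elim fun e => Schur.hasSchurMultiplier_congr_left J2T.mult e

end Cfsg.Agent.S2040
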