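import Cfsg.Statements.S2041
import Cfsg.Agent.Known.J3Mul
import Cfsg.Agent.Known.J3Eq

namespace Cfsg.Agent.S2041

open Cfsg.Agent.Known

theorem result {F : Type*} [Field F] [Fintype F] (hF : Fintype.card F = 4) (ω : F) (hω : ω ^ 2 + ω + 1 = 0) : Cfsg.HasCyclicSchurMultiplier (Cfsg.Spor.J3 F ω) 3 :=
  (J3T.equiv hF hω).elim fun e => Schur.hasSchurMultiplier_congr_left J3T.mult e.symm

end Cfsg.Agent.S2041
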