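import Cfsg.Statements.S2045
import Cfsg.Agent.Known.Co3Mul
import Cfsg.Agent.Known.Co3Eq

namespace Cfsg.Agent.S2045

open Cfsg.Agent.Known

theorem result : Cfsg.HasCyclicSchurMultiplier ↥Cfsg.Spor.Co3 1 :=
  (Co3T.equiv).elim fun e => Schur.hasSchurMultiplier_congr_left Co3T.mult e.symm

end Cfsg.Agent.S2045
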