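import Cfsg.Statements.S2046
import Cfsg.Agent.Known.HSMul
import Cfsg.Agent.Known.HSEq

namespace Cfsg.Agent.S2046

open Cfsg.Agent.Known

theorem result : Cfsg.HasCyclicSchurMultiplier ↥Cfsg.Spor.HS 2 :=
  (HST.equiv).elim fun e => Schur.hasSchurMultiplier_congr_left HST.mult e.symm

end Cfsg.Agent.S2046
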