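import Cfsg.Statements.S2047
import Cfsg.Agent.Known.McLMul
import Cfsg.Agent.Known.McLEq

namespace Cfsg.Agent.S2047

open Cfsg.Agent.Known

theorem result : Cfsg.HasCyclicSchurMultiplier ↥Cfsg.Spor.McL 3 :=
  (McLT.equiv).elim fun e => Schur.hasSchurMultiplier_congr_left McLT.mult e.symm

end Cfsg.Agent.S2047
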