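import Cfsg.Statements.S2049
import Cfsg.Agent.Known.HeUp

namespace Cfsg.Agent.S2049

open Cfsg.Agent.Known HeT

theorem result : Cfsg.HasCyclicSchurMultiplier Cfsg.Spor.He 1 := cyc_one_of_bnd sb

end Cfsg.Agent.S2049
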