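import Cfsg.Statements.S2051
import Cfsg.Agent.Known.RuG
import Cfsg.Agent.Known.RuMul

set_option autoImplicit false
open Cfsg

namespace Cfsg.Agent.S2051

/-- The Schur multiplier of the Rudvalis group (the unitary automorphism group of the rank-28 Gaussian lattice modulo its centre) is cyclic of order 2; here the Schur multiplier is described through stem extensions, as in the definitions: surjective homomorphisms onto the group from a finite group, whose kernel is central in that finite group and contained in that finite group's commutator subgroup. -/
theorem result : Cfsg.HasCyclicSchurMultiplier Cfsg.Spor.Ru 2 := by
  exact Agent.Known.RuL.main.1.elim fun e => Agent.Schur.hasSchurMultiplier_congr_left Agent.Known.RuT.mult e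

end Cfsg.Agent.S2051
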