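import Cfsg.Statements.S2054
import Cfsg.Agent.Known.Fi23Up

namespace Cfsg.Agent.S2054

open Cfsg.Agent.Known Fi23T

theorem result : Cfsg.HasCyclicSchurMultiplier Cfsg.Spor.Fi23 1 := cyc_one_of_bnd sb

end Cfsg.Agent.S2054
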