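import Cfsg.Statements.S2055
import Cfsg.Agent.Known.Fi24U2
import Cfsg.Agent.Known.Fi24U3
import Cfsg.Agent.Known.Fi24Cov
import Cfsg.Agent.Known.Fi23Up
import Cfsg.Agent.Known.HeUp
import Cfsg.Agent.Spor.Fi24He

namespace Cfsg.Agent.S2055

open Cfsg.Agent.Known Fi24U Cfsg.Agent.Spor

theorem result : Cfsg.HasCyclicSchurMultiplier Cfsg.Spor.Fi24' 3 :=
  have := Fi23M.simple
  have := HeM.simple
  cyc_of_bnd (((((sb2.append sb3).append
    (of_sub Fi24M.ρ_inj Fi23T.sb Fi23M.card (n := 306936) (by decide))).append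
    (of_sub Fi24He.ρ_inj HeT.sb HeM.card (n := 311435513985024) (by decide))).append
    (SBnd.of_prime (p := 29) (m := 43282955489333162803200) (by norm_num) Fi24M.card')).of_eq (by decide +kernel) rfl)
    Fi24Cov.md3

end Cfsg.Agent.S2055
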