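import Cfsg.Statements.S3958
import Cfsg.Agent.Schur.Lift

set_option autoImplicit false
universe u v
open Cfsg

namespace Cfsg.Agent.S3958

open Subgroup Function Cfsg.Agent.Schur

/-- Let `σ : Γ →* Q` be a finite stem extension of the finite group `Q` with `Γ` of trivial Schur multiplier. Then `σ` is a Schur covering group of `Q`: for every finite stem extension `τ : Δ →* Q` with `Δ` in the same universe as `Q`, the kernel of `τ` is a homomorphic image of the kernel of `σ`. -/
theorem result {Q : Type u} [Group Q] [Finite Q] {Γ : Type v} [Group Γ] [Finite Γ] (σ : Γ →* Q) (hσ : Cfsg.IsStemExtension σ) (hΓ : Cfsg.HasCyclicSchurMultiplier Γ 1) (Δ : Type u) [Group Δ] [Finite Δ] (τ : Δ →* Q) (hτ : Cfsg.IsStemExtension τ) : ∃ π : σ.ker →* τ.ker, Function.Surjective π := by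
  have := fg_freeGroup Q
  have hπ := stdPres_surjective Q
  obtain ⟨φ, hφ⟩ := exists_lift_ext (isCentralExt_of_stem hσ) (stdPres Q)
  have hc : IsCentralExt φ := ⟨surjective_of_over_stem (proj_surjective hπ) hσ hφ, fun x hx =>
    proj_central _ (by rw [MonoidHom.mem_ker, ← hφ, MonoidHom.comp_apply, show φ x = 1 from hx, map_one])⟩
  exact exists_surj_ker_of_inf_eq_bot hπ hσ hφ (mul_eq_bot_of_trivial hΓ hc) hτ

end Cfsg.Agent.S3958
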