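import Cfsg.Statements.S2086
import Cfsg.Agent.Mult.SL2
import Cfsg.Agent.Mult.SL
import Cfsg.Agent.S3958
import Cfsg.Agent.Classical.LowIso

set_option autoImplicit false
open Cfsg

namespace Cfsg.Agent.S2086

/-- Schur multipliers of the linear groups: for n ≥ 2 and a field F with q elements (q ≥ 4 when n = 2), apart from the five exceptional pairs (n, q) = (2, 4), (2, 9), (3, 2), (3, 4), (4, 2), the Schur multiplier of PSL_n(F) is cyclic of order gcd(n, q − 1); here the Schur multiplier is described through stem extensions, as in the definitions. -/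
theorem result {F : Type*} [Field F] [Fintype F] {q : ℕ} (hF : Fintype.card F = q) (n : ℕ) (hn : 2 ≤ n) (h2 : n = 2 → 4 ≤ q) (hexc : (n, q) ∉ ({(2, 4), (2, 9), (3, 2), (3, 4), (4, 2)} : Set (ℕ × ℕ))) : Cfsg.HasCyclicSchurMultiplier (Matrix.ProjectiveSpecialLinearGroup (Fin n) F) (Nat.gcd n (q - 1)) := by
  subst hF
  haveI : Nonempty (Fin n) := ⟨⟨0, by omega⟩⟩
  have hc := Classical.card_center_SL (F := F) (ι := Fin n)
  have hz : IsCyclic (Subgroup.center (Matrix.SpecialLinearGroup (Fin n) F)) :=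
    have : NeZero (Fintype.card (Fin n)) := ⟨by simp; omega⟩
    (Matrix.SpecialLinearGroup.center_equiv_rootsOfUnity' (R := F) (⟨0, by omega⟩ : Fin n)).isCyclic.2 inferInstance
  rw [Fintype.card_fin, Nat.card_eq_fintype_card (α := F)] at hc
  simp only [Set.mem_insert_iff, Set.mem_singleton_iff, Prod.mk.injEq] at hexc
  obtain rfl | h3 := hn.eq_or_lt
  · have hσ : IsStemExtension (QuotientGroup.mk' (Subgroup.center (Matrix.SpecialLinearGroup (Fin 2) F))) :=
      ⟨QuotientGroup.mk'_surjective _, (QuotientGroup.ker_mk' _).le, by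
        rw [Classical.commutator_SL2 (by rw [Nat.card_eq_fintype_card]; omega)]; exact le_top⟩
    have e := (MulEquiv.subgroupCongr (QuotientGroup.ker_mk' _)).trans (hc ▸ (zmodCyclicMulEquiv hz).symm)
    refine ⟨⟨_, _, inferInstance, _, hσ, ⟨e⟩⟩, fun Γ _ _ τ hτ => ?_⟩
    obtain ⟨π, hπ⟩ := S3958.result _ hσ (Mult.hasCyclic_SL2 (by omega) (by omega)) Γ τ hτ
    exact ⟨π.comp e.symm.toMonoidHom, hπ.comp e.symm.surjective⟩
  obtain ⟨l, rfl⟩ : ∃ l, n = l + 1 := ⟨n - 1, by omega⟩
  have hl : 2 ≤ l := by omega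
  have e := (Mult.slFull hl F).zkerEquiv (Mult.sl_tor_injective hl F (Mult.mult_of_finite _))
  exact (Mult.slFull hl F).hasCyclic (Mult.allLiftA hl (by omega) (by omega))
    (Chev.Sys.perfect Mult.scS_U_univ (.inr (Mult.laceA hl))) (Mult.sc_tor_injective (Mult.sl_tor_injective hl F _))
    (isCyclic_of_injective e.toMonoidHom e.injective) ((Nat.card_congr e.toEquiv).trans hc)

end Cfsg.Agent.S2086
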