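import Cfsg.Statements.S2087
import Cfsg.Agent.Known.L32Mul
import Cfsg.Agent.Known.L32Eq

namespace Cfsg.Agent.S2087

open Cfsg.Agent.Known

theorem result {F : Type*} [Field F] [Fintype F] (hF : Fintype.card F = 2) : Cfsg.HasCyclicSchurMultiplier (Matrix.ProjectiveSpecialLinearGroup (Fin 3) F) 2 :=
  (L32T.equiv hF).elim fun e => Schur.hasSchurMultiplier_congr_left L32T.mult e.symm

end Cfsg.Agent.S2087
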