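import Cfsg.Statements.S2088
import Cfsg.Agent.Known.L34Mul
import Cfsg.Agent.Known.L34Eq

namespace Cfsg.Agent.S2088

open Cfsg.Agent.Known

theorem result {F : Type*} [Field F] [Fintype F] (hF : Fintype.card F = 4) : Cfsg.HasSchurMultiplier (Matrix.ProjectiveSpecialLinearGroup (Fin 3) F) (Multiplicative (ZMod 3 × ZMod 4 × ZMod 4)) :=
  (L34T.equiv hF).elim fun e => Schur.hasSchurMultiplier_congr_left L34T.mult e.symm

end Cfsg.Agent.S2088
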