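import Cfsg.Statements.S2089
import Cfsg.Agent.Pres.MulU4
import Cfsg.Agent.S3958

set_option autoImplicit false
open Cfsg

namespace Cfsg.Agent.S2089

/-- Schur multipliers of the unitary groups: for n ≥ 3 and a field F with q² elements, (n, q) ≠ (3, 2), apart from the exceptional pairs (n, q) = (4, 2), (4, 3), (6, 2), the Schur multiplier of PSU_n(q) is cyclic of order gcd(n, q + 1); here the Schur multiplier is described through stem extensions, as in the definitions. -/
theorem result {F : Type*} [Field F] [Fintype F] (n q : ℕ) (hF : Fintype.card F = q ^ 2) (hn : 3 ≤ n) (h3 : ¬ (n = 3 ∧ q = 2)) (hexc : (n, q) ∉ ({(4, 2), (4, 3), (6, 2)} : Set (ℕ × ℕ))) : Cfsg.HasCyclicSchurMultiplier (Cfsg.PSU n F q) (Nat.gcd n (q + 1)) := by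
  haveI := Fact.mk hF
  simp only [Set.mem_insert_iff, Set.mem_singleton_iff, Prod.mk.injEq] at hexc
  have := Classical.two_le_q F (q := q)
  have hσ : IsStemExtension (QuotientGroup.mk' (Subgroup.center (SU n F q))) :=
    ⟨QuotientGroup.mk'_surjective _, (QuotientGroup.ker_mk' _).le, by
      rw [Classical.commutator_SU_eq_top hn h3]; exact le_top⟩
  have e := (MulEquiv.subgroupCongr (QuotientGroup.ker_mk' _)).trans (Classical.card_center_SU (F := F) (q := q)
    (n := n) (by omega) ▸ (zmodCyclicMulEquiv (Pres.isCyclic_center_SU (by omega))).symm)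
  refine ⟨⟨_, _, inferInstance, _, hσ, ⟨e⟩⟩, fun Γ _ _ τ hτ => ?_⟩
  obtain ⟨π, hπ⟩ := S3958.result _ hσ (Pres.mult_SUn hn h3 (by omega) (by omega)) Γ τ hτ
  exact ⟨π.comp e.symm.toMonoidHom, hπ.comp e.symm.surjective⟩

end Cfsg.Agent.S2089
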