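import Cfsg.Statements.S2093
import Cfsg.Agent.Known.S62Mul
import Cfsg.Agent.Known.S62Eq

namespace Cfsg.Agent.S2093

open Cfsg.Agent.Known

theorem result {F : Type*} [Field F] [Fintype F] (hF : Fintype.card F = 2) : Cfsg.HasCyclicSchurMultiplier (Cfsg.PSp 3 F) 2 :=
  (S62T.equiv hF).elim fun e => Schur.hasSchurMultiplier_congr_left S62T.mult e.symm

end Cfsg.Agent.S2093
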