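import Cfsg.Statements.S2094
import Cfsg.Agent.Mult.Co2

set_option autoImplicit false
open Cfsg

namespace Cfsg.Agent.S2094

/-- Schur multipliers of the odd-dimensional orthogonal groups: for m ≥ 3 and a field F of odd order q with (m, q) ≠ (3, 3), the Schur multiplier of PΩ_(2m+1)(F) (for the form x₀² + Σ xᵢyᵢ) is cyclic of order 2 = gcd(2, q − 1); here the Schur multiplier is described through stem extensions, as in the definitions. -/
theorem result {F : Type*} [Field F] [Fintype F] {q : ℕ} (hF : Fintype.card F = q) (hq : Odd q) (m : ℕ) (hm : 3 ≤ m) (hexc : ¬ (m = 3 ∧ q = 3)) : Cfsg.HasCyclicSchurMultiplier (Cfsg.POmega F (Cfsg.quadFormOdd m F)) 2 := by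
  subst hF
  have hl : 2 ≤ m := by omega
  obtain ⟨k, hk⟩ := hq
  have h2 : (2 : F) ≠ 0 := Ring.two_ne_zero fun e => by
    have := FiniteField.even_card_iff_char_two.1 e
    omega
  obtain ⟨h3, h4⟩ := Mult.hasCyclic_of_unit F (Mult.zkerB hl F)
  exact (Mult.oddFull hl F h2).hasCyclic ((Mult.coB hl).allLiftB h2 hm (by omega))
    (Chev.Sys.perfect Mult.scS_U_univ (.inl (Mult.exists_ne_zero_ne_one (by omega))))
    (Mult.spinB_tor hl F) h3 (h4.trans (Nat.gcd_eq_left (by omega)))

end Cfsg.Agent.S2094
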