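import Cfsg.Statements.S2095
import Cfsg.Agent.Known.O73Mul
import Cfsg.Agent.Known.O73Eq

namespace Cfsg.Agent.S2095

open Cfsg.Agent.Known

theorem result {F : Type*} [Field F] [Fintype F] (hF : Fintype.card F = 3) : Cfsg.HasCyclicSchurMultiplier (Cfsg.POmega F (Cfsg.quadFormOdd 3 F)) 6 :=
  (O73T.equiv hF).elim fun e => Schur.hasSchurMultiplier_congr_left O73T.mult e.symm

end Cfsg.Agent.S2095
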