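import Cfsg.Statements.S2098
import Cfsg.Agent.Known.O82Mul
import Cfsg.Agent.Known.O82Eq

namespace Cfsg.Agent.S2098

open Cfsg.Agent.Known

theorem result {F : Type*} [Field F] [Fintype F] (hF : Fintype.card F = 2) : Cfsg.HasSchurMultiplier (Cfsg.POmega F (Cfsg.quadFormPlus 4 F)) (Multiplicative (ZMod 2 × ZMod 2)) :=
  (O82T.equiv hF).elim fun e => Schur.hasSchurMultiplier_congr_left O82T.mult e.symm

end Cfsg.Agent.S2098
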