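import Cfsg.Statements.S2101
import Cfsg.Agent.Known.G23Mul
import Cfsg.Agent.Known.G23Eq

namespace Cfsg.Agent.S2101

open Cfsg.Agent.Known

theorem result {F : Type*} [Field F] [Fintype F] (hF : Fintype.card F = 3) : Cfsg.HasCyclicSchurMultiplier ↥(Cfsg.Lie.chevG2.group F) 3 :=
  (G23T.equiv hF).elim fun e => Schur.hasSchurMultiplier_congr_left G23T.mult e.symm

end Cfsg.Agent.S2101
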