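import Cfsg.Statements.S2102
import Cfsg.Agent.Known.G24Mul
import Cfsg.Agent.Known.G24Eq

namespace Cfsg.Agent.S2102

open Cfsg.Agent.Known

theorem result {F : Type*} [Field F] [Fintype F] (hF : Fintype.card F = 4) : Cfsg.HasCyclicSchurMultiplier ↥(Cfsg.Lie.chevG2.group F) 2 :=
  (G24T.equiv hF).elim fun e => Schur.hasSchurMultiplier_congr_left G24T.mult e.symm

end Cfsg.Agent.S2102
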