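import Cfsg.Statements.S2103
import Cfsg.Agent.Mult.Tab
import Cfsg.Agent.Chev.Zker

set_option autoImplicit false
open Cfsg

namespace Cfsg.Agent.S2103

open Cfsg.Agent.Chev Cfsg.Agent.Mult

/-- Schur multipliers of the Chevalley groups of type F₄: over a finite field with more than 2 elements the Schur multiplier of F₄(q) is trivial (here the Schur multiplier is described through stem extensions, as in the definitions); q = 2 is exceptional. -/
theorem result {F : Type*} [Field F] [Fintype F] (hF : 3 ≤ Fintype.card F) : Cfsg.HasCyclicSchurMultiplier ↥(Cfsg.Lie.chevF4.group F) 1 := by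
  exact (allLiftF4 (by omega)).hasCyclic_one_grS (.inl (exists_ne_zero_ne_one (by omega))) (zkerF4_eq_bot F)

end Cfsg.Agent.S2103
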