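import Cfsg.Statements.S2104
import Cfsg.Agent.Known.F42Up
import Cfsg.Agent.Known.F42M

namespace Cfsg.Agent.S2104

open Cfsg.Agent.Known

theorem result {F : Type*} [Field F] [Fintype F] (hF : Fintype.card F = 2) : Cfsg.HasCyclicSchurMultiplier ↥(Cfsg.Lie.chevF4.group F) 2 :=
  (F42.equiv hF).elim fun e => Schur.hasSchurMultiplier_congr_left (cyc_of_bnd F42.sb F42.low) e

end Cfsg.Agent.S2104
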