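import Cfsg.Statements.S2106
import Cfsg.Agent.Mult.Tab
import Cfsg.Agent.Chev.Zker
import Cfsg.Agent.Chev.EmbE7

set_option autoImplicit false
open Cfsg

namespace Cfsg.Agent.S2106

open Cfsg.Agent.Chev Cfsg.Agent.Mult

/-- Schur multipliers of the (adjoint, simple) Chevalley groups of type E₇: over a field with q elements the Schur multiplier is cyclic of order gcd(2, q − 1) (here the Schur multiplier is described through stem extensions, as in the definitions). -/
theorem result {F : Type*} [Field F] [Fintype F] {q : ℕ} (hF : Fintype.card F = q) : Cfsg.HasCyclicSchurMultiplier ↥(Cfsg.Lie.chevE7.group F) (Nat.gcd 2 (q - 1)) := by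
  have h := (card_ker_grS (tor_injectiveE7 F)).trans (card_zkerE7 F)
  rw [Nat.card_eq_fintype_card (α := F), hF] at h
  exact allLiftE7.hasCyclic (.inr (lace_of_mem (by simp))) (isCentralExt_lift (grCover _ F) (grS_U_univ _ F))
    (isCyclic_of_card_eq_gcd Nat.prime_two h) h

end Cfsg.Agent.S2106
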