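import Cfsg.Statements.S2109
import Cfsg.Agent.Known.E62Lo2

set_option autoImplicit false
open Cfsg Cfsg.Lie Cfsg.Agent.Chev Cfsg.Agent.Chev.Sys Cfsg.Agent.Known Cfsg.Agent.Known.E62

namespace Cfsg.Agent.S2109

/-- Exceptional Schur multiplier: ²E₆(2), realised over the field with 4 elements, has Schur multiplier isomorphic to the product of cyclic groups of orders 3, 2 and 2 (order 12, not cyclic; here the Schur multiplier is described through stem extensions, as in the definitions). -/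
theorem result {K : Type*} [Field K] [Fintype K] (hK : Fintype.card K = 4) : Cfsg.HasSchurMultiplier ↥(Cfsg.Lie.twistedE6 K 2) (Multiplicative (ZMod 3 × ZMod 2 × ZMod 2)) := by
  have hK' : Nat.card K = 2 ^ 2 := Nat.card_eq_fintype_card.trans hK
  obtain ⟨φ, hφ, h2⟩ := exists_φE6 Nat.prime_two.isPrimePow hK'
  obtain ⟨ω, hω⟩ := IsCyclic.exists_ofOrder_eq_natCard (α := Kˣ)
  rw [Nat.card_units, hK'] at hω
  have two : (2 : K) = 0 := by
    have := FiniteField.cast_card_eq_zero K
    rw [hK] at this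
    exact mul_self_eq_zero.1 (by rw [← this]; norm_num)
  have h3 : (ω : K) ^ 3 = 1 := congrArg Units.val (hω ▸ pow_orderOf_eq_one ω)
  have h1 : (ω : K) ≠ 1 := fun e => by simp [show ω = 1 from Units.ext e] at hω
  have sq : (ω : K) * ω = ω + 1 := by grind
  have h : F4 ω φ := ⟨by simpa using two, sq, fun t => by
    have := FiniteField.pow_card t
    rw [hK] at this
    have : t * (t - 1) * (t - ω) * (t - (ω + 1)) = 0 := by grind
    simpa [sub_eq_zero, or_assoc] using this, hφ, h2, hK'⟩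
  have := finite_st (D := chevE6) (F := K)
  have c := fun y => (stCover chevE6 K).mem_center_iff (stS_U_univ chevE6 K) (y := y)
  have m := stS_mult chevE6 K
  have e : ((stCover chevE6 K).π.subgroupMap (Γ K)).ker.map (Γ K).subtype = (zker chevE6 K ⊓ twE6.fixT symE6 φ).map m.tor := by
    refine le_antisymm ?_ ?_
    · rintro _ ⟨y, hy, rfl⟩
      have h1 : (stCover chevE6 K).π y = 1 := congrArg Subtype.val hy
      obtain ⟨a, a1, a2⟩ := h.H_eq.le ⟨(stCover chevE6 K).mem_H_of_mem_center (stS_U_univ chevE6 K) ((c _).2 h1), y.2⟩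
      exact ⟨a, ⟨(m.π_tor_eq_one _).1 (a2 ▸ h1), a1⟩, a2⟩
    · rintro _ ⟨a, ha, rfl⟩
      exact ⟨⟨_, (h.H_eq.ge ⟨a, ha.2, rfl⟩).2⟩, Subtype.ext ((m.π_tor_eq_one _).2 ha.1), rfl⟩
  rw [twistedE6, ← (stCover chevE6 K).map_genW]
  refine schur_cover (Group.isPerfect_def.2 (perfectE6 hφ h2 one_lt_two hK'))
    ⟨(stCover chevE6 K).π.subgroupMap_surjective (Γ K), fun y hy => Subgroup.mem_center_iff.2
      fun z => Subtype.ext (Subgroup.mem_center_iff.1 ((c _).2 (congrArg Subtype.val hy)) z)⟩ ?_ h.sb h.low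
  rw [← Subgroup.card_map_of_injective (Γ K).subtype_injective, e, Subgroup.card_map_of_injective (tor_injectiveE6 K),
    card_zker_fixTE6 hφ, card_pow_ker, hK']
  rfl

end Cfsg.Agent.S2109
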