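import Cfsg.Statements.S2112
import Cfsg.Agent.Known.Sz8Mul
import Cfsg.Agent.Known.Sz8Eq

namespace Cfsg.Agent.S2112

open Cfsg.Agent.Known

theorem result {F : Type*} [Field F] [Fintype F] (hF : Fintype.card F = 8) : Cfsg.HasSchurMultiplier ↥(Cfsg.Lie.Sz F 4) (Multiplicative (ZMod 2 × ZMod 2)) :=
  (Sz8T.equiv hF).elim fun e => Schur.hasSchurMultiplier_congr_left Sz8T.mult e.symm

end Cfsg.Agent.S2112
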