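import Cfsg.Statements.S2113
import Cfsg.Agent.Ree.Coord
import Cfsg.Agent.Ree.Main
import Cfsg.Agent.S2111
import Cfsg.Agent.AutCl.FieldAut

set_option autoImplicit false
open Cfsg

namespace Cfsg.Agent.S2113

section
open Ree Ree.RD Ree.RC S2111 Subgroup _root_.Cfsg.Agent.Classical
open scoped commutatorElement

theorem eq_one_of_nonadd {K A : Type*} [Field K] [Group A] (β : K → K → A) (ν : K → K)
    (h1 : ∀ a a' b, β (a + a') b = β a b * β a' b) (h2 : ∀ b b', β 1 (b + b') = β 1 b * β 1 b')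
    (h3 : ∀ a, a ≠ 0 → ∀ b, β a b = β 1 (ν a * b))
    (h4 : ∃ a a', a ≠ 0 ∧ a' ≠ 0 ∧ a + a' ≠ 0 ∧ ν (a + a') ≠ ν a + ν a') (a b : K) : β a b = 1 := by
  obtain ⟨x, y, hx, hy, hxy, hne⟩ := h4
  have key : ∀ b, β 1 b = 1 := fun b => by
    obtain ⟨c, rfl⟩ := mul_left_surjective₀ (sub_ne_zero.2 hne) b
    have := h1 x y c
    rw [h3 _ hxy, h3 _ hx, h3 _ hy, ← h2, show ν (x + y) * c = (ν (x + y) - (ν x + ν y)) * c + (ν x * c + ν y * c) by ring,
      h2] at this
    exact mul_eq_right.1 this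
  by_cases ha : a = 0
  · simpa [ha] using h1 0 0 b
  · rw [h3 a ha, key]

theorem eq_one_of_neg {K A : Type*} [Field K] [Group A] (h3 : (3 : K) = 0) (f : K → A)
    (h1 : ∀ a a', f (a + a') = f a * f a') (h2 : ∀ a, f (-a) = f a) (a : K) : f a = 1 := by
  have := h1 a a
  rw [show a + a = -a by linear_combination a * h3, h2] at this
  exact (mul_eq_left.1 this.symm)

theorem exists_lt {K : Type*} [Field K] [Finite K] {n : ℕ} (hq : Nat.card K = 3 ^ (n + 1)) (f : K →+* K) :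
    ∃ j ≤ n, ∀ x, f x = x ^ 3 ^ j := by
  have := Fintype.ofFinite K
  have := Fact.mk Nat.prime_three
  rw [Nat.card_eq_fintype_card] at hq
  have := AutCl.charP_of_card_eq hq
  obtain ⟨j, hj⟩ := AutCl.exists_ringAut_eq_pow 3 (RingEquiv.ofBijective f (Finite.injective_iff_bijective.1 f.injective))
  refine ⟨j % (n + 1), Nat.lt_succ_iff.1 (Nat.mod_lt _ n.succ_pos), fun x => (hj x).trans ?_⟩
  conv_lhs => rw [← Nat.div_add_mod j (n + 1), pow_add, pow_mul, pow_mul, ← hq, FiniteField.pow_card_pow]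

section
variable {G Γ : Type*} [Group G] [Group Γ] {σ : Γ →* G} (h : IsStemExtension σ)

/-- A set-theoretic section. -/
noncomputable def sc (g : G) : Γ := Function.surjInv h.1 g

@[simp] theorem σ_sc (g : G) : σ (sc h g) = g := Function.surjInv_eq h.1 g

/-- The lifted commutator. -/
noncomputable def cc (g k : G) : Γ := ⁅sc h g, sc h k⁆

theorem cc_eq (x y : Γ) : ⁅x, y⁆ = cc h (σ x) (σ y) := comm_congr h (by simp) (by simp)

theorem σ_cc (g k : G) : σ (cc h g k) = ⁅g, k⁆ := by simp [cc, map_commutatorElement]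

theorem cc_conj (x g k : G) : sc h x * cc h g k * (sc h x)⁻¹ = cc h (x * g * x⁻¹) (x * k * x⁻¹) := by
  rw [cc, conjugate_commutatorElement, cc_eq h]; simp

theorem cc_mul (g g' k : G) : cc h (g * g') k = sc h g * cc h g' k * (sc h g)⁻¹ * cc h g k := by
  have := cc_eq h (sc h g * sc h g') (sc h k)
  simp only [map_mul, σ_sc] at this
  rw [← this, cc, cc]; simp only [commutatorElement_def]; group

theorem cc_symm (g k : G) : cc h g k = (cc h k g)⁻¹ := (commutatorElement_inv _ _).symm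

theorem cc_self (g : G) : cc h g g = 1 := commutatorElement_self _

theorem cc_comm {g k : G} (e : g * k = k * g) (x : Γ) : x * cc h g k = cc h g k * x :=
  mem_center_iff.1 (h.2.1 (by rw [MonoidHom.mem_ker, σ_cc, commutatorElement_eq_one_iff_mul_comm, e])) x

theorem cc_conj' {g k : G} (e : g * k = k * g) (x : G) : cc h (x * g * x⁻¹) (x * k * x⁻¹) = cc h g k := by
  rw [← cc_conj, cc_comm h e, mul_inv_cancel_right]

theorem cc_mul' {g' k : G} (e : g' * k = k * g') (g : G) : cc h (g * g') k = cc h g k * cc h g' k := by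
  rw [cc_mul, cc_comm h e, mul_inv_cancel_right, cc_comm h e]

theorem cc_mul'' {g k' : G} (e : g * k' = k' * g) (k : G) : cc h g (k * k') = cc h g k * cc h g k' := by
  rw [cc_symm, cc_mul' h e.symm, mul_inv_rev, ← cc_symm, ← cc_symm, cc_comm h e]

theorem comm_of_cc {x y : Γ} (e : cc h (σ x) (σ y) = 1) : x * y = y * x := by
  rw [← commutatorElement_eq_one_iff_mul_comm, cc_eq h, e]

end

variable {K G Γ : Type*} [Field K] [Finite K] [Group G] [Group Γ] (R : RC K G) (hm : 1 ≤ R.m) {σ : Γ →* G}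
  (h : IsStemExtension σ)

include R hm in
theorem nonadd_inv : ∃ a a' : K, a ≠ 0 ∧ a' ≠ 0 ∧ a + a' ≠ 0 ∧ (a + a')⁻¹ ≠ a⁻¹ + a'⁻¹ := by
  obtain ⟨x, hx⟩ := R.exists_ψ_ne hm
  have h0 : x ≠ 0 := by rintro rfl; simp at hx
  have h1 : x + 1 ≠ 0 := fun e => hx (by rw [eq_neg_of_add_eq_zero_left e]; simp)
  have h2 : x - 1 ≠ 0 := fun e => hx (by rw [sub_eq_zero.1 e, map_one])
  refine ⟨x, 1, h0, one_ne_zero, h1, fun e => pow_ne_zero 2 h2 ?_⟩
  field_simp at e
  linear_combination -e - x * R.three_eq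

include hm in
theorem nonadd_τ : ∃ a a' : K, a ≠ 0 ∧ a' ≠ 0 ∧ a + a' ≠ 0 ∧
    ((a + a') ^ 2 * R.ψ (a + a'))⁻¹ ≠ (a ^ 2 * R.ψ a)⁻¹ + (a' ^ 2 * R.ψ a')⁻¹ := by
  by_contra! h
  let f : K →+* K :=
    { toFun := fun x => (x ^ 2 * R.ψ x)⁻¹
      map_one' := by simp
      map_zero' := by simp
      map_mul' := fun x y => by rw [map_mul, ← mul_inv]; congr 1; ring
      map_add' := fun x y => by
        by_cases hx : x = 0
        · simp [hx]
        by_cases hy : y = 0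
        · simp [hy]
        by_cases hxy : x + y = 0
        · rw [hxy, eq_neg_of_add_eq_zero_left hxy]; simp [inv_neg]
        exact h x y hx hy hxy }
  obtain ⟨i, hi, ei⟩ := exists_lt R.hq f
  obtain ⟨j, hj, ej⟩ := exists_lt R.hq R.ψ
  obtain ⟨x, hx⟩ := IsCyclic.exists_ofOrder_eq_natCard (α := Kˣ)
  rw [Nat.card_units, R.hq] at hx
  have h2 : x ^ (3 ^ i + (2 + 3 ^ j)) = 1 := by
    apply Units.ext
    rw [Units.val_pow_eq_pow_val, pow_add, ← ei, pow_add, ← ej]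
    exact inv_mul_cancel₀ (mul_ne_zero (pow_ne_zero 2 x.ne_zero) (R.ψ_ne_zero x))
  have h3 := Nat.le_of_dvd (by positivity) (hx ▸ orderOf_dvd_of_pow_eq_one h2)
  have h4 := Nat.pow_le_pow_right (n := 3) (by norm_num) hi
  have h5 := Nat.pow_le_pow_right (n := 3) (by norm_num) hj
  have h6 := Nat.pow_le_pow_right (n := 3) (by norm_num) (show 2 ≤ 2 * R.m by omega)
  rw [pow_succ] at h3
  omega

omit [Finite K] in
theorem WW (u v u' v' : K) : R.w 0 u v * R.w 0 u' v' = R.w 0 u' v' * R.w 0 u v := by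
  simp [w_mul_W, add_comm]

omit [Finite K] in
theorem UZ (t u v v' : K) : R.w t u v * R.w 0 0 v' = R.w 0 0 v' * R.w t u v := by
  simp [w_mul_W, W_mul_w, add_comm]

include hm in
theorem cc_W (u v u' v' : K) : cc h (R.w 0 u v) (R.w 0 u' v') = 1 := by
  have h1 : ∀ u v u' v' a b, cc h (R.w 0 (u + u') (v + v')) (R.w 0 a b) =
      cc h (R.w 0 u v) (R.w 0 a b) * cc h (R.w 0 u' v') (R.w 0 a b) := fun u v u' v' a b => by
    rw [← cc_mul' h (WW ..), w_mul_W]
  have h2 : ∀ u v u' v' a b, cc h (R.w 0 a b) (R.w 0 (u + u') (v + v')) =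
      cc h (R.w 0 a b) (R.w 0 u v) * cc h (R.w 0 a b) (R.w 0 u' v') := fun u v u' v' a b => by
    rw [← cc_mul'' h (WW ..), w_mul_W]
  have h3 : ∀ (y : Kˣ) u v a b, cc h (R.w 0 (R.ψ y / y * u) (y * v)) (R.w 0 (R.ψ y / y * a) (y * b)) =
      cc h (R.w 0 u v) (R.w 0 a b) := fun y u v a b => by
    rw [← cc_conj' h (WW R u v a b) (R.h y), R.h_w, R.h_w, mul_zero]
  have hZ : ∀ v v', cc h (R.w 0 0 v) (R.w 0 0 v') = 1 :=
    eq_one_of_nonadd _ (·⁻¹) (fun a a' b => by rw [← h1, add_zero]) (fun b b' => by rw [← h2, add_zero])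
      (fun a ha b => by simpa [ha] using (h3 (Units.mk0 a ha)⁻¹ 0 a 0 b).symm) (nonadd_inv R hm)
  have hWZ : ∀ u v, cc h (R.w 0 u 0) (R.w 0 0 v) = 1 := fun u =>
    eq_one_of_neg R.three_eq _ (fun a a' => by rw [← h2, add_zero]) fun a => by simpa using h3 (-1) u 0 0 a
  have h4 : ∀ u a, cc h (R.w 0 (-u) 0) (R.w 0 (-a) 0) = cc h (R.w 0 u 0) (R.w 0 a 0) := fun u a => by
    have e1 := h1 u 0 (-u) 0 (-a) 0
    have e2 := h2 (-a) 0 a 0 u 0
    simp only [add_neg_cancel, neg_add_cancel, add_zero, w_zero] at e1 e2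
    rw [cc_symm] at e1
    have e3 : ∀ g, cc h g 1 = 1 := fun g => by simpa using cc_mul'' h (g := g) (k' := 1) (by simp) 1
    rw [e3] at e1 e2
    rw [inv_one, e2] at e1
    exact (mul_left_cancel e1).symm
  have hW : ∀ u u', cc h (R.w 0 u 0) (R.w 0 u' 0) = 1 :=
    eq_one_of_nonadd _ (·⁻¹) (fun a a' b => by rw [← h1, add_zero]) (fun b b' => by rw [← h2, add_zero])
      (fun a ha b => by
        obtain ⟨y, e | e⟩ := R.exists_υ ha one_ne_zero
        · rw [← h3 y, e, mul_zero, eq_inv_of_mul_eq_one_left e]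
        · rw [← h3 y, e, mul_zero, ← h4, neg_neg, ← neg_mul,
            eq_inv_of_mul_eq_one_left (show -(R.ψ y / y) * a = 1 by rw [neg_mul, e, neg_neg])])
      (nonadd_inv R hm)
  have e1 := h1 u 0 0 v u' v'
  have e2 := fun a b => h2 u' 0 0 v' a b
  simp only [add_zero, zero_add] at e1 e2
  rw [e1, e2, e2, hW, hWZ, hZ, cc_symm, hWZ]
  simp

omit [Finite K] in
theorem τ_eq {t : K} (ht : t ≠ 0) : ∃ y : Kˣ, (y : K) = (t ^ 2 * R.ψ t)⁻¹ ∧ y ^ 2 / R.ψ y = t⁻¹ := by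
  have h0 : R.ψ t ≠ 0 := (map_ne_zero _).2 ht
  refine ⟨(Units.mk0 _ (mul_ne_zero (pow_ne_zero 2 ht) h0))⁻¹, by simp, ?_⟩
  simp only [Units.val_inv_eq_inv_val, Units.val_mk0, map_inv₀, map_mul, map_pow, R.ψ_ψ]
  field_simp

include hm in
theorem cc_UZ (t u v v' : K) : cc h (R.w t u v) (R.w 0 0 v') = 1 := by
  have h0 : ∀ t u v v', cc h (R.w t u v) (R.w 0 0 v') = cc h (R.w t 0 0) (R.w 0 0 v') := fun t u v v' => by
    rw [← mul_one (cc h (R.w t 0 0) _), ← cc_W R hm h u v 0 v', ← cc_mul' h (WW ..), w_mul_W, zero_add, zero_add]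
  rw [h0]
  refine eq_one_of_nonadd (fun t v => cc h (R.w t 0 0) (R.w 0 0 v)) (fun t => (t ^ 2 * R.ψ t)⁻¹)
    (fun a a' b => ?_) (fun b b' => ?_) (fun a ha b => ?_) (nonadd_τ R hm) t v'
  · rw [← cc_mul' h (UZ ..), R.w_mul, h0 _ (_ - _)]
  · rw [← cc_mul'' h (UZ ..), w_mul_W, add_zero]
  · obtain ⟨y, e1, e2⟩ := τ_eq R ha
    rw [← cc_conj' h (UZ ..) (R.h y), R.h_w, R.h_w, e2, e1, inv_mul_cancel₀ ha]
    simp

include hm h in
theorem pow_eq_one_of_U {a : Γ} (ha : a ∈ σ.ker) (ha' : a ∈ ⁅R.U.comap σ, R.U.comap σ⁆) : a ^ (Nat.card K - 1) = 1 := by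
  classical
  have := Fintype.ofFinite K
  have hA : ∀ {x y : Γ}, σ x ∈ R.W → σ y ∈ R.W → x * y = y * x := fun hx hy => comm_of_cc h (by
    obtain ⟨u, v, e⟩ := mem_W.1 hx
    obtain ⟨u', v', e'⟩ := mem_W.1 hy
    rw [e, e', cc_W R hm])
  letI : CommGroup (R.W.comap σ) :=
    { (inferInstance : Group (R.W.comap σ)) with mul_comm := fun x y => Subtype.ext (hA x.2 y.2) }
  let κ : Kˣ → R.W.comap σ →* R.W.comap σ := fun l =>
    MonoidHom.mk' (fun z => ⟨sc h (R.h l) * z * (sc h (R.h l))⁻¹, by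
      obtain ⟨u, v, e⟩ := mem_W.1 z.2
      rw [mem_comap, map_mul, map_mul, map_inv, σ_sc, e, R.h_w, mul_zero]; exact R.w_mem_W _ _⟩)
      fun x y => Subtype.ext (by simp [mul_assoc])
  have hκ : ∀ l z, (κ l z : Γ) = sc h (R.h l) * z * (sc h (R.h l))⁻¹ := fun _ _ => rfl
  have hκκ : ∀ k l z, κ k (κ l z) = κ (k * l) z := by
    intro k l z
    apply Subtype.ext
    have := comm_congr h (x := sc h (R.h (k * l))) (x' := sc h (R.h k) * sc h (R.h l)) (y := z) (by simp) rfl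
    rw [commutatorElement_def, commutatorElement_def, mul_left_inj] at this
    rw [hκ, hκ, hκ, this]
    group
  let π : R.W.comap σ →* R.W.comap σ := ∏ l, κ l
  have hπ : ∀ z, π z = ∏ l, κ l z := fun z => MonoidHom.finsetProd_apply _ _ _
  have hπκ : ∀ l z, π (κ l z) = π z := by
    intro l z
    simp only [hπ, hκκ]
    exact Equiv.prod_comp (Equiv.mulRight l) fun k => κ k z
  have hcm : ∀ t u v t' u' v', cc h (R.w t u v) (R.w t' u' v') ∈ R.W.comap σ := fun t u v t' u' v' => by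
    rw [mem_comap, σ_cc, commutatorElement_def, w_inv, w_inv, R.w_mul, R.w_mul, R.w_mul,
      show t + t' + -t + -t' = 0 by ring]
    exact R.w_mem_W _ _
  let β : K → K → K → K → K → K → R.W.comap σ := fun t u v t' u' v' => π ⟨_, hcm t u v t' u' v'⟩
  have hκβ : ∀ (y : Kˣ) t u v t' u' v', β (y ^ 2 / R.ψ y * t) (R.ψ y / y * u) (y * v)
      (y ^ 2 / R.ψ y * t') (R.ψ y / y * u') (y * v') = β t u v t' u' v' := fun y t u v t' u' v' => by
    exact (congrArg π (Subtype.ext (by rw [hκ, cc_conj, R.h_w, R.h_w]))).trans (hπκ y _)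
  have hsy : ∀ t u v t' u' v', β t u v t' u' v' = (β t' u' v' t u v)⁻¹ := fun t u v t' u' v' => by
    rw [← map_inv]; exact congrArg π (Subtype.ext (cc_symm ..))
  -- the commutators of `U` with `W`
  have hZ : ∀ t u v u' v' x, σ x ∈ R.U → x * cc h (R.w t u v) (R.w 0 u' v') = cc h (R.w t u v) (R.w 0 u' v') * x :=
    fun t u v u' v' x hx => comm_of_cc h (by
      obtain ⟨a, b, c, e⟩ := R.mem_U.1 hx
      rw [e, σ_cc, commutatorElement_def, conj_W, W_inv, w_mul_W, add_neg_cancel, cc_UZ R hm])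
  have hUW : ∀ t u v u' v', β t u v 0 u' v' = 1 := fun t u v u' v' => by
    have h1 : ∀ t u v t' a b u' v', β (t + t') (u + a - R.ψ t' * t) (v + b - R.ψ t' * t ^ 2 - t' * u + R.ψ t' * t * t')
        0 u' v' = β t' a b 0 u' v' * β t u v 0 u' v' := fun t u v t' a b u' v' => by
      rw [← map_mul]
      refine congrArg π (Subtype.ext ?_)
      simp only [coe_mul]
      rw [← R.w_mul, cc_mul, hZ _ _ _ _ _ (sc h _) (by rw [σ_sc]; exact R.w_mem _ _ _), mul_inv_cancel_right]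
    have h2 : ∀ u v u' v', β 0 u v 0 u' v' = 1 := fun u v u' v' => by
      rw [← map_one π]; exact congrArg π (Subtype.ext (cc_W R hm h ..))
    have h3 : ∀ t u v u' v', β t u v 0 u' v' = β t 0 0 0 u' v' := fun t u v u' v' => by
      simpa [h2] using h1 t 0 0 0 u v u' v'
    have h4 : ∀ t u' v', β t 0 0 0 u' v' = β t 0 0 0 u' 0 := fun t u' v' => by
      refine congrArg π (Subtype.ext ?_)
      dsimp only
      rw [← mul_one (cc h _ (R.w 0 u' 0)), ← cc_UZ R hm h t 0 0 v', ← cc_mul'' h (UZ ..), w_mul_W, add_zero, zero_add]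
    rw [h3, h4]
    refine eq_one_of_neg R.three_eq (fun t => β t 0 0 0 u' 0) (fun a a' => ?_) (fun a => ?_) t
    · rw [mul_comm, ← h1, h3 _ (_ - _)]
    · simpa [neg_div] using hκβ (-1) a 0 0 0 u' 0
  have h1 : ∀ t u v t' a b s u' v', β (t + t') (u + a - R.ψ t' * t) (v + b - R.ψ t' * t ^ 2 - t' * u + R.ψ t' * t * t')
      s u' v' = β t' a b s u' v' * β t u v s u' v' := fun t u v t' a b s u' v' => by
    obtain ⟨c, d, e⟩ := mem_W.1 (hcm t' a b s u' v')
    rw [← one_mul (β t' ..), ← hUW t u v c d, ← map_mul, ← map_mul]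
    refine congrArg π (Subtype.ext ?_)
    simp only [coe_mul]
    rw [← R.w_mul, cc_mul, ← e, ← σ_sc h (R.w t u v), ← cc_eq h, σ_sc, commutatorElement_def]
    group
  have h2 : ∀ t u v s u' v', β t u v s u' v' = β t 0 0 s u' v' := fun t u v s u' v' => by
    simpa [hsy 0 u v, hUW] using h1 t 0 0 0 u v s u' v'
  have h3 : ∀ a a' b, β (a + a') 0 0 b 0 0 = β a 0 0 b 0 0 * β a' 0 0 b 0 0 := fun a a' b => by
    rw [mul_comm, ← h1, h2 _ (_ - _)]
  have h4 : ∀ t s, β t 0 0 s 0 0 = 1 :=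
    eq_one_of_nonadd _ (·⁻¹) h3 (fun b b' => by rw [hsy, h3, mul_inv, ← hsy, ← hsy]) (fun a ha b => by
      obtain ⟨y, -, e⟩ := τ_eq R ha
      rw [← hκβ y, e, inv_mul_cancel₀ ha, mul_zero, mul_zero]) (nonadd_inv R hm)
  have hle : ⁅R.U.comap σ, R.U.comap σ⁆ ≤ π.ker.map (R.W.comap σ).subtype := by
    rw [Subgroup.commutator_le]
    intro x hx y hy
    obtain ⟨t, u, v, e⟩ := R.mem_U.1 hx
    obtain ⟨t', u', v', e'⟩ := R.mem_U.1 hy
    refine ⟨⟨_, hcm t u v t' u' v'⟩, ?_, by rw [cc_eq h, e, e']; rfl⟩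
    change β .. = 1
    rw [h2, hsy, h2, h4, inv_one]
  obtain ⟨z, hz, rfl⟩ := hle ha'
  have h5 : ∀ l, κ l z = z := fun l => Subtype.ext (by
    have : (z : Γ) ∈ center Γ := h.2.1 ha
    rw [hκ, mem_center_iff.1 this, mul_inv_cancel_right])
  have h6 : π z = 1 := hz
  simp only [hπ, h5, Finset.prod_const, Finset.card_univ, Fintype.card_units] at h6
  rw [Nat.card_eq_fintype_card]
  exact congrArg Subtype.val h6

theorem cc_z {g : G} (hg : Commute g R.z) (h2 : g * g = 1) : cc h g R.z = 1 := by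
  have hL : ∀ x, R.L x * R.z = R.z * R.L x := fun x => R.L_z x
  have hn : cc h R.n R.z = 1 := by
    have h2 := cc_conj' h (g := R.j) (hL jm) (R.L (uSL 1))
    rw [hL (uSL 1), mul_inv_cancel_right, R.u_conj_j, cc_mul' h (g' := R.j) (hL jm)] at h2
    exact mul_eq_right.1 h2
  have key : ∀ x, R.L x * R.L x = 1 → cc h (R.L x) R.z = 1 := fun x hx => by
    by_cases h1 : R.L x = 1
    · simpa [h1] using cc_mul' h (g' := 1) (k := R.z) (by simp) 1
    obtain ⟨y, e⟩ := exists_conj_n (R := R.toRD) (trace_of_L_sq hx h1)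
    rw [← e, ← hn, ← cc_conj' h (g := R.n) (hL wSL) (R.L y), hL y, mul_inv_cancel_right]
  obtain ⟨x, rfl | rfl⟩ := mem_C.1 hg
  · exact key x h2
  · rw [cc_mul' h (hL x), cc_self, key x (by rw [← zL_sq, h2]), one_mul]

include R hm h in
theorem aux [Finite Γ] : σ.ker = ⊥ := by
  haveI := R.finite_G
  by_contra hne
  obtain ⟨p, hp, hd⟩ := Nat.exists_prime_and_dvd (σ.ker.one_lt_card_iff_ne_bot.2 hne).ne'
  haveI := Fact.mk hp
  obtain ⟨⟨a, ha⟩, ho⟩ := exists_prime_orderOf_dvd_card' p hd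
  rw [← Subgroup.orderOf_coe, Subgroup.coe_mk] at ho
  have key : ∀ P : Sylow p G, (∀ x ∈ P, ∀ y ∈ P, cc h x y = 1) → False := fun P hP => by
    have h1 := pow_index_mem ((P : Subgroup G).comap σ) (h.2.1 ha) (h.2.2 ha)
    have h3 : ⁅(P : Subgroup G).comap σ, (P : Subgroup G).comap σ⁆ = ⊥ := by
      rw [eq_bot_iff, Subgroup.commutator_le]
      intro x hx y hy
      rw [cc_eq h, hP _ hx _ hy]; exact one_mem _
    rw [h3, Subgroup.mem_bot, ← orderOf_dvd_iff_pow_eq_one, ho, index_comap_of_surjective _ h.1] at h1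
    exact P.not_dvd_index h1
  rcases lt_trichotomy p 3 with h3 | rfl | h3
  · obtain rfl : p = 2 := by have := hp.two_le; omega
    refine key R.syl2 fun x hx y hy => ?_
    change x ∈ R.S at hx
    change y ∈ R.S at hy
    by_cases h1 : y = 1
    · simpa [h1] using cc_mul'' h (g := x) (k' := 1) (by simp) 1
    obtain ⟨g, e⟩ := exists_conj_invol (R := R.toRD) h1 (sq_of_mem_S hy)
    have e' : g⁻¹ * y * g⁻¹⁻¹ = R.z := by rw [← e]; group
    rw [← cc_conj' h (comm_of_mem_S hx hy) g⁻¹, e']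
    refine cc_z R h (e' ▸ comm_conj' _ (comm_of_mem_S hx hy)) ?_
    rw [conj_mul, sq_of_mem_S hx, mul_one, mul_inv_cancel]
  · obtain ⟨P, hP⟩ := R.exists_sylow_three' 1
    have hP : R.U = P := by rw [← hP]; ext; simp [Sz.mem_cj]
    have h1 := pow_eq_one_of_U R hm h (pow_mem ha _) (pow_index_mem (R.U.comap σ) (h.2.1 ha) (h.2.2 ha))
    rw [← pow_mul, ← orderOf_dvd_iff_pow_eq_one, ho, index_comap_of_surjective _ h.1, hP] at h1
    exact ((Nat.Prime.dvd_mul hp).1 h1).elim P.not_dvd_index R.not_three_dvd_pred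
  · obtain ⟨P⟩ : Nonempty (Sylow p G) := inferInstance
    obtain ⟨g, hg⟩ := (Subgroup.isCyclic_iff_exists_zpowers_eq_top _).1 (R.isCyclic_of_isPGroup hp h3 P.2)
    obtain ⟨g, rfl⟩ := h.1 g
    refine key P fun x hx y hy => ?_
    obtain ⟨i, rfl⟩ := hg.ge hx
    obtain ⟨j, rfl⟩ := hg.ge hy
    dsimp only
    rw [← map_zpow, ← map_zpow, ← cc_eq, commutatorElement_eq_one_iff_mul_comm, zpow_mul_comm]

end

/-- Schur multipliers of the small Ree groups: for q = 3^(2m+1) with m ≥ 1 the Schur multiplier of ²G₂(q) is trivial (here the Schur multiplier is described through stem extensions, as in the definitions). -/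
theorem result {K : Type*} [Field K] [Fintype K] {m : ℕ} (hm : 1 ≤ m) (hK : Fintype.card K = 3 ^ (2 * m + 1)) : Cfsg.HasCyclicSchurMultiplier ↥(Cfsg.Lie.twistedG2 K (3 ^ m)) 1 := by
  obtain ⟨R, h, -⟩ := Ree.exists_RC (K := K) (m := m) (by rw [Nat.card_eq_fintype_card, hK])
  have := R.finite_G
  rw [Schur.hasCyclicSchurMultiplier_one_iff]
  intro Γ _ _ σ hσ
  exact aux R (hm.trans h.ge) hσ

end Cfsg.Agent.S2113
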