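import Cfsg.Statements.S2115
import Cfsg.Agent.Known.TitsEq

namespace Cfsg.Agent.S2115

open Cfsg.Agent.Known

theorem result : Cfsg.HasCyclicSchurMultiplier Cfsg.Lie.TitsGroup 1 :=
  TitsT.equiv.elim fun e => Schur.hasSchurMultiplier_congr_left TitsT.mult e.symm

end Cfsg.Agent.S2115
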