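import Cfsg.Statements.S2126
import Cfsg.Agent.Sz.Aut
import Cfsg.Agent.AutCl.FieldAut

set_option autoImplicit false
open Cfsg

namespace Cfsg.Agent.S2126

/-- Outer automorphisms of the Suzuki groups: for q = 2^(2m+1) with m ≥ 1 the outer automorphism group of Sz(q) has order 2m + 1 (field automorphisms only). -/
theorem result {F : Type*} [Field F] [Fintype F] {m : ℕ} (hm : 1 ≤ m) (hF : Fintype.card F = 2 ^ (2 * m + 1)) : Nat.card (Cfsg.Out ↥(Cfsg.Lie.Sz F (2 ^ (m + 1)))) = 2 * m + 1 := by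
  let := Sz.titsOfCard hm hF
  let := Sz.lieRep (Sz.titsOfCard_θ hm hF)
  rw [← AutCl.card_ringAut hF]
  symm
  refine Nat.card_congr (Equiv.ofBijective ((QuotientGroup.mk' _).comp (Sz.fieldAut F _)) ⟨?_, fun α => ?_⟩)
  · rw [injective_iff_map_eq_one]
    intro σ h
    obtain ⟨x, hx⟩ := (QuotientGroup.eq_one_iff _).1 h
    exact Sz.eq_one_of_fieldAut_eq_conj hx.symm
  · obtain ⟨α, rfl⟩ := QuotientGroup.mk_surjective α
    obtain ⟨x, σ, rfl⟩ := Sz.exists_eq_conj_mul_fieldAut F α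
    refine ⟨σ, ?_⟩
    rw [QuotientGroup.mk_mul, (QuotientGroup.eq_one_iff (N := Cfsg.Inn _) (MulAut.conj x)).2 ⟨x, rfl⟩, one_mul]
    rfl

end Cfsg.Agent.S2126
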