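import Cfsg.Statements.S2128
import Cfsg.Agent.ChAut.TwF4
import Cfsg.Agent.AutCl.FieldAut

set_option autoImplicit false
open Cfsg

namespace Cfsg.Agent.S2128

/-- Outer automorphisms of the large Ree groups: for q = 2^(2m+1) with m ≥ 1 the outer automorphism group of ²F₄(q) has order 2m + 1 (field automorphisms only). -/
theorem result {K : Type*} [Field K] [Fintype K] {m : ℕ} (hm : 1 ≤ m) (hK : Fintype.card K = 2 ^ (2 * m + 1)) : Nat.card (Cfsg.Out ↥(Cfsg.Lie.twistedF4 K (2 ^ m))) = 2 * m + 1 := by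
  have h1 : Nat.card K = 2 ^ (2 * m + 1) := by rw [Nat.card_eq_fintype_card, hK]
  obtain ⟨hp, φ, a, b⟩ := Chev.exists_sqrt_hom Nat.prime_two h1
  rw [ChAut.card_outF4 hp a b (h1 ▸ lt_self_pow₀ one_lt_two (by omega)), AutCl.card_ringAut hK]

end Cfsg.Agent.S2128
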