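import Cfsg.Statements.S2141
import Cfsg.Agent.Root.MinE3

set_option autoImplicit false
open Cfsg

namespace Cfsg.Agent.S2141

/-- Minimal index of a proper subgroup of the symplectic groups over fields with at least 3 elements: for m ≥ 2 and a field F with q ≥ 3 elements, (m, q) ≠ (2, 3), every proper subgroup of PSp_2m(F) has index at least (q^(2m) − 1)/(q − 1), and that index is attained. -/
theorem result {F : Type*} [Field F] [Fintype F] {q : ℕ} (hF : Fintype.card F = q) (m : ℕ) (hm : 2 ≤ m) (hq : 3 ≤ q) (hexc : ¬ (m = 2 ∧ q = 3)) : (∀ H : Subgroup (Cfsg.PSp m F), H ≠ ⊤ → (q ^ (2 * m) - 1) / (q - 1) ≤ H.index) ∧ (∃ H : Subgroup (Cfsg.PSp m F), H.index = (q ^ (2 * m) - 1) / (q - 1)) := by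
  classical
  rw [← Nat.card_eq_fintype_card] at hF
  subst hF
  obtain ⟨K, hK⟩ := Root.MinS.psp_ex F (m := m) (by omega)
  have ex : ∀ s : Finset F, s.card < Nat.card F → ∃ b, b ∉ s := fun s hs => by
    by_contra! c
    rw [Finset.eq_univ_of_forall c, Finset.card_univ, Nat.card_eq_fintype_card] at hs
    omega
  rw [Nat.div_eq_of_eq_mul_left (k := K.index) (by omega) (by omega)]
  refine ⟨fun H hH => Nat.le_of_mul_le_mul_right (c := Nat.card F - 1) (Nat.le_of_add_le_add_right (b := 1) (hK ▸ ?_))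
    (by omega), K, rfl⟩
  by_cases h2 : (2 : F) = 0
  · obtain ⟨b, hb⟩ := ex {0, 1} (Finset.card_le_two.trans_lt hq)
    simp only [Finset.mem_insert, Finset.mem_singleton, not_or] at hb
    exact Root.MinS.psp_even F h2 hb.1 hb.2 hm H hH
  refine Root.MinS.psp_odd F h2 hm (or_iff_not_imp_right.2 fun c => ?_) H hH
  obtain ⟨b, hb⟩ := ex {0, 1, -1} (Finset.card_le_three.trans_lt (by omega))
  simp only [Finset.mem_insert, Finset.mem_singleton, not_or] at hb
  exact ⟨b, hb.1, fun e => (mul_self_eq_one_iff.1 ((sq b).symm.trans e)).elim hb.2.1 hb.2.2⟩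

end Cfsg.Agent.S2141
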