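import Cfsg.Statements.S2142
import Cfsg.Agent.Root.MinE2

set_option autoImplicit false
open Cfsg

namespace Cfsg.Agent.S2142

/-- Minimal index of a proper subgroup of the symplectic groups over the field with 2 elements: for m ≥ 3, every proper subgroup of Sp_2m(2) has index at least 2^(m−1)(2^m − 1), and that index is attained. -/
theorem result {F : Type*} [Field F] [Fintype F] (hF : Fintype.card F = 2) (m : ℕ) (hm : 3 ≤ m) : (∀ H : Subgroup (Cfsg.PSp m F), H ≠ ⊤ → 2 ^ (m - 1) * (2 ^ m - 1) ≤ H.index) ∧ (∃ H : Subgroup (Cfsg.PSp m F), H.index = 2 ^ (m - 1) * (2 ^ m - 1)) := by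
  obtain ⟨h1, H, h2⟩ := Root.MinS.psp_two F (Nat.card_eq_fintype_card.trans hF) hm
  obtain ⟨k, rfl⟩ : ∃ k, m = k + 1 := ⟨m - 1, by omega⟩
  obtain ⟨y, hy⟩ := Nat.exists_eq_add_of_lt (Nat.two_pow_pos (k + 1))
  have e : 2 * (2 ^ k * y) + 2 ^ (k + 1) = 2 ^ (2 * (k + 1)) := by
    rw [two_mul (k + 1), pow_add 2 (k + 1), ← mul_assoc, ← pow_succ', hy]; ring
  rw [Nat.add_sub_cancel, show 2 ^ (k + 1) - 1 = y by omega]
  exact ⟨fun K hK => by have := h1 K hK; omega, H, by omega⟩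

end Cfsg.Agent.S2142
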