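import Cfsg.Statements.S2144
import Cfsg.Agent.MinD.Fn

set_option autoImplicit false
open Cfsg

namespace Cfsg.Agent.S2144

open Cfsg.Agent.Geom Cfsg.Agent.MinD in

/-- Minimal index of a proper subgroup of the odd-dimensional orthogonal groups over the field with 3 elements: for m ≥ 3, every proper subgroup of PΩ_(2m+1)(3) (for the form x₀² + Σ xᵢyᵢ) has index at least 3^m(3^m − 1)/2, and that index is attained. -/
theorem result {F : Type*} [Field F] [Fintype F] (hF : Fintype.card F = 3) (m : ℕ) (hm : 3 ≤ m) : (∀ H : Subgroup (Cfsg.POmega F (Cfsg.quadFormOdd m F)), H ≠ ⊤ → 3 ^ m * (3 ^ m - 1) / 2 ≤ H.index) ∧ (∃ H : Subgroup (Cfsg.POmega F (Cfsg.quadFormOdd m F)), H.index = 3 ^ m * (3 ^ m - 1) / 2) := by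
  obtain ⟨k, rfl⟩ : ∃ k, m = k + 1 := ⟨m - 1, by omega⟩
  have hn := quadOdd_nondeg F (k + 1) (two_ne_zero_of_odd_card (F := F) (by rw [hF]; decide))
  have hd : Module.finrank F (Unit ⊕ (Fin (k + 1) ⊕ Fin (k + 1)) → F) = 2 * (k + 1) + 1 := by
    simp; omega
  rw [← coe_quadOdd, ← Nat.card_eq_fintype_card] at *
  exact bridge hn (by omega) (odd_three hn hd (by omega) hF) (odd_three_attain hn hd (by omega) hF)

end Cfsg.Agent.S2144
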