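import Cfsg.Statements.S2145
import Cfsg.Agent.MinD.Ev

set_option autoImplicit false
open Cfsg

namespace Cfsg.Agent.S2145

open Cfsg.Agent.Geom Cfsg.Agent.MinD in

/-- Minimal index of a proper subgroup of the even-dimensional orthogonal groups of plus type: for m ≥ 4 and a field F with q ≥ 4 elements, every proper subgroup of PΩ⁺_2m(F) (for the form Σ xᵢyᵢ) has index at least (q^m − 1)(q^(m−1) + 1)/(q − 1), and that index is attained (the singular points). -/
theorem result {F : Type*} [Field F] [Fintype F] {q : ℕ} (hF : Fintype.card F = q) (hq : 4 ≤ q) (m : ℕ) (hm : 4 ≤ m) : (∀ H : Subgroup (Cfsg.POmega F (Cfsg.quadFormPlus m F)), H ≠ ⊤ → (q ^ m - 1) * (q ^ (m - 1) + 1) / (q - 1) ≤ H.index) ∧ (∃ H : Subgroup (Cfsg.POmega F (Cfsg.quadFormPlus m F)), H.index = (q ^ m - 1) * (q ^ (m - 1) + 1) / (q - 1)) := by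
  subst hF
  obtain ⟨k, rfl⟩ : ∃ k, m = k + 1 := ⟨m - 1, by omega⟩
  have hn := quadPlus_nondeg F (k + 1)
  have hw := quadPlus_wittIndex F (k + 1)
  have hd : Module.finrank F (Fin (k + 1) ⊕ Fin (k + 1) → F) = 2 * (k + 1) := by simp; omega
  rw [← coe_quadPlus, ← Nat.card_eq_fintype_card] at *
  obtain ⟨P, hP⟩ := exists_P (Nat.card F) (k + 1) (by omega)
  obtain ⟨u, hu⟩ : ∃ u, Nat.card F = u + 1 := ⟨Nat.card F - 1, by omega⟩
  obtain ⟨y, hy⟩ := Nat.exists_eq_add_of_lt (Nat.one_le_pow k _ (Nat.card_pos (α := F)))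
  rw [zero_add] at hy
  have hs := plus_nsing hn hd hw hu hy
  have hP' : P * (Nat.card F ^ k + 1) * (Nat.card F - 1) + 1 =
      (Formed.ofQuad (quadPlus F (k + 1))).nsing := by
    rw [pow_succ, hy, hu, Nat.add_sub_cancel] at hP
    rw [hs, hy, hu, Nat.add_sub_cancel]
    nlinarith
  rw [div_eq_of (P := P * (Nat.card F ^ k + 1)) (by omega) (by
    rw [← hP, Nat.add_sub_cancel, Nat.add_sub_cancel]; ring)]
  exact bridge hn (by omega) (plus_four hn hd hw (by omega) hq hP') (index_sing hn (by omega) hP')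

end Cfsg.Agent.S2145
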