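import Cfsg.Statements.S2148
import Cfsg.Agent.U3M.M
import Cfsg.Agent.U3M.T2
import Cfsg.Agent.U3M.E

set_option autoImplicit false
open Cfsg

namespace Cfsg.Agent.S2148

open Cfsg.Agent.U3M Cfsg.Agent.Pres Subgroup

/-- Minimal index of a proper subgroup of the three-dimensional unitary groups: for a field F with q² elements, q ≥ 3 and q ≠ 5, every proper subgroup of PSU₃(q) has index at least q³ + 1, and that index is attained. -/
theorem result {F : Type*} [Field F] [Fintype F] (q : ℕ) (hF : Fintype.card F = q ^ 2) (hq : 3 ≤ q) (h5 : q ≠ 5) : (∀ H : Subgroup (Cfsg.PSU 3 F q), H ≠ ⊤ → q ^ 3 + 1 ≤ H.index) ∧ (∃ H : Subgroup (Cfsg.PSU 3 F q), H.index = q ^ 3 + 1) := by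
  haveI hF' : Fact (Fintype.card F = q ^ 2) := ⟨hF⟩
  haveI := S0283.result hF 3 le_rfl (by omega)
  obtain ⟨-, φ, -⟩ := exists_equiv_UG (F := F) (q := q) 3
  refine main (σ := Geom.frobq hF'.out) (fun _ => rfl) hq h5 ((QuotientGroup.mk' _).comp φ.toMonoidHom)
    ((QuotientGroup.mk'_surjective _).comp φ.surjective) ?_ ((Nat.card_congr φ.toEquiv).trans cardSU) tor'
    fun K hK hZ => idx (fun _ => rfl) hK hZ
  ext g
  rw [MonoidHom.mem_ker, MonoidHom.comp_apply, QuotientGroup.mk'_apply, QuotientGroup.eq_one_iff]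
  exact MulEquivClass.apply_mem_center_iff φ

end Cfsg.Agent.S2148
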