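import Cfsg.Statements.S2150
import Cfsg.Agent.Root.MinO6c
import Cfsg.Agent.S0303

set_option autoImplicit false
open Cfsg

namespace Cfsg.Agent.S2150

theorem exists_field {F : Type*} [Field F] [Fintype F] {q : ℕ} (h : Fintype.card F = q ^ 2) :
    ∃ (K : Type) (_ : Field K) (_ : Fintype K), Fintype.card K = q := by
  obtain ⟨p, hc, n, hp, hn⟩ := FiniteField.card' F
  have := Fact.mk hp
  obtain ⟨k, -, rfl⟩ := (Nat.dvd_prime_pow hp).1 (show q ∣ p ^ (n : ℕ) from hn ▸ h ▸ dvd_pow_self q two_ne_zero)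
  have hk : k ≠ 0 := by
    rintro rfl
    have := Fintype.one_lt_card (α := F)
    simp [h] at this
  have := Fintype.ofFinite (GaloisField p k)
  exact ⟨GaloisField p k, inferInstance, this, by rw [← Nat.card_eq_fintype_card, GaloisField.card p k hk]⟩

open Cfsg.Agent.Geom Cfsg.Agent.MinD Cfsg.Agent.Root.MinO6 in
/-- Minimal index of a proper subgroup of the four-dimensional unitary groups: for a field F with q² elements, every proper subgroup of PSU₄(q) has index at least (q + 1)(q³ + 1), and that index is attained. -/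
theorem result {F : Type*} [Field F] [Fintype F] (q : ℕ) (hF : Fintype.card F = q ^ 2) (hq : 2 ≤ q) : (∀ H : Subgroup (Cfsg.PSU 4 F q), H ≠ ⊤ → (q + 1) * (q ^ 3 + 1) ≤ H.index) ∧ (∃ H : Subgroup (Cfsg.PSU 4 F q), H.index = (q + 1) * (q ^ 3 + 1)) := by
  obtain ⟨K, _, _, hK⟩ := exists_field hF
  obtain ⟨ζ, hζ⟩ := exists_irreducible_quad K
  have hab := aniso_of_irreducible hζ
  obtain ⟨e⟩ := S0303.result hK hF 1 ζ hab
  have hn := quadMinus_nondeg K 2 (disc_ne_zero_of_anisotropic hab)
  have hw := quadMinus_wittIndex K 2 hab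
  obtain ⟨t, rfl⟩ := Nat.exists_eq_add_of_le' hq
  rw [← Nat.card_eq_fintype_card] at hK
  rw [← coe_quadMinus] at e
  obtain ⟨h1, H, h2⟩ := bridge hn (by simp) (lower_of_action fun K hnt =>
    main6 hn (by simp) hw (QuotientGroup.mk 1 : _ ⧸ K) hnt hK)
    (index_sing hn (by simp) (nsing6 hn (by simp) hw hK))
  refine ⟨fun H hH => ?_, H.map e.toMonoidHom, (Subgroup.index_map_equiv _ e).trans h2⟩
  rw [← Subgroup.index_comap_of_surjective H (f := e.toMonoidHom) e.surjective]
  refine h1 _ fun h => hH ?_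
  rw [← Subgroup.map_comap_eq_self_of_surjective (f := e.toMonoidHom) e.surjective H, h,
    Subgroup.map_top_of_surjective _ e.surjective]

end Cfsg.Agent.S2150
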