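import Cfsg.Statements.S2154
import Cfsg.Agent.Chev.Syl

set_option autoImplicit false
open Cfsg

namespace Cfsg.Agent.S2154

open Cfsg.Agent.Chev Cfsg.Lie

/-- The Borel–Tits property of the finite Chevalley groups of types G₂, B₂, D₄, F₄, E₆, E₇, E₈ over a finite field of characteristic p: for every non-trivial p-subgroup U of the group G there are an element g of G and a proper set J of fundamental roots such that the normaliser of U in G lies in the conjugate by g of the standard parabolic subgroup P_J and U lies in the conjugate by g of its unipotent radical U_J. -/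
theorem result {F : Type*} [Field F] [Fintype F] (p : ℕ) [Fact p.Prime] [CharP F p] (D : Cfsg.Lie.ChevalleyDatum) (hD : D ∈ [Cfsg.Lie.chevG2, Cfsg.Lie.chevB2, Cfsg.Lie.chevD4, Cfsg.Lie.chevF4, Cfsg.Lie.chevE6, Cfsg.Lie.chevE7, Cfsg.Lie.chevE8]) (U : Subgroup (GL D.Idx F)) (hUG : U ≤ D.group F) (hU : IsPGroup p ↥U) (hne : U ≠ ⊥) : ∃ g ∈ D.group F, ∃ J : Set ℕ, (∃ i, i < D.rank ∧ i ∉ J) ∧ Subgroup.normalizer (U : Set (GL D.Idx F)) ⊓ D.group F ≤ (D.parabolicSubgroup F J).map (MulAut.conj g).toMonoidHom ∧ U ≤ (D.unipotentRadical F J).map (MulAut.conj g).toMonoidHom := by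
  obtain ⟨⟨_⟩, _⟩ := conn_of_mem hD
  have c := Sys.adCover D F
  simp only [group_eq, parabolic_eq, unipotentRadical_eq] at *
  obtain ⟨z, h1, h2⟩ := c.exists_conj_UP (adS_mult D F) p (fun y hy h => c.mem_B_of_normalizer hy
    (Subgroup.mem_normalizer_fintype fun u hu => h u hu (Sys.U_mono _ (Set.subset_univ _) hu))) hUG hU
  obtain ⟨z', h3, J, ⟨i, hi⟩, h4, h5⟩ := c.borel_tits (V := U.map (MulAut.conj z).toMonoidHom)
    (by rintro _ ⟨y, hy, rfl⟩; exact h2 y hy) (by rwa [Ne, Subgroup.map_eq_bot_iff_of_injective _ (MulAut.conj z).injective])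
  refine ⟨(z' * z)⁻¹, inv_mem (mul_mem h3 h1), Fin.val '' J, ⟨i, i.2, by simpa [Fin.val_inj]⟩, fun y hy => ⟨_, ?_,
    (MulAut.conj (z' * z)).symm_apply_apply y⟩, fun y hy => ⟨_, ?_, (MulAut.conj (z' * z)).symm_apply_apply y⟩⟩
  · simpa [Fin.val_inj, mul_assoc] using h4 _ (mul_mem (mul_mem h1 hy.2) (inv_mem h1))
      (Subgroup.le_normalizer_map _ ⟨y, hy.1, rfl⟩)
  · simpa [Fin.val_inj, mul_assoc] using h5 _ ⟨y, hy, rfl⟩

end Cfsg.Agent.S2154
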