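import Cfsg.Statements.S2155
import Cfsg.Agent.Chev.Cent
import Cfsg.Agent.Sig.FStar

set_option autoImplicit false
open Cfsg

namespace Cfsg.Agent.S2155

open Cfsg.Agent.Chev Cfsg.Lie

/-- In a Chevalley group of type G₂, B₂, D₄, F₄, E₆, E₇ or E₈ over a finite field of characteristic p (for types G₂ and B₂ the field is assumed to have at least 3 elements, so that the group is simple), the generalized Fitting subgroup of every proper standard parabolic subgroup P_J is a p-group (P_J is p-constrained with trivial largest normal subgroup of order prime to p). -/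
theorem result {F : Type*} [Field F] [Fintype F] (p : ℕ) [Fact p.Prime] [CharP F p] (D : Cfsg.Lie.ChevalleyDatum) (hD : D ∈ [Cfsg.Lie.chevG2, Cfsg.Lie.chevB2, Cfsg.Lie.chevD4, Cfsg.Lie.chevF4, Cfsg.Lie.chevE6, Cfsg.Lie.chevE7, Cfsg.Lie.chevE8]) (hq : (D = Cfsg.Lie.chevG2 ∨ D = Cfsg.Lie.chevB2) → 3 ≤ Fintype.card F) (J : Set ℕ) (hJ : ∃ i, i < D.rank ∧ i ∉ J) : IsPGroup p ↥(Cfsg.generalizedFittingSubgroup ↥(D.parabolicSubgroup F J)) := by
  obtain ⟨⟨_⟩, c⟩ := conn_of_mem hD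
  obtain ⟨i, hi, hiJ⟩ := hJ
  rw [parabolic_eq, Sig.fstarIn_eq_pcIn_iff_sub.mp ((Sig.fstarIn_eq_pcIn_iff (p := p)).mpr ?_)]
  · exact Loc.isPGroup_pCore p _
  have c := Sys.adCover D F
  have h1 := Sig.le_pcIn (le_sup_left.trans ((adS D F).rad_sup_levi _).le) ((adS D F).P_le_normalizer {i | (i : ℕ) ∈ J})
    (Sys.isPGroup_U (p := p) c (nilp_rad _))
  refine (inf_le_inf_left _ (Subgroup.centralizer_le h1)).trans (Sig.le_pcIn inf_le_left (fun y hy => ?_)
    ((Sys.isPGroup_U c nilp_Pos).to_le fun y hy => ?_))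
  · exact Subgroup.inf_normalizer_le_normalizer_inf ⟨Subgroup.le_normalizer hy,
      Loc.normalizer_le_normalizer_centralizer _ (Sys.P_le_normalizer _ _ hy)⟩
  · obtain ⟨u, hu, e⟩ := (Sys.adCover D F).cent_rad (adS_mult D F) (J := {i | (i : ℕ) ∈ J}) ⟨⟨i, hi⟩, hiJ⟩
      ((adS D F).P_le_grp _ hy.1) fun z hz => (hy.2 z hz).symm
    exact (show y = u from e) ▸ hu

end Cfsg.Agent.S2155
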