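import Cfsg.Statements.S2161
import Cfsg.Agent.ChAut.Types

set_option autoImplicit false
open Cfsg

namespace Cfsg.Agent.S2161

open Cfsg.Agent.ChAut Cfsg.Agent.Chev Cfsg.Lie

section
variable {D : ChevalleyDatum} [Good D] {F : Type*} [Field F]

/-- Graph endomorphisms with signs. -/
def Sg (θ : D.group F →* D.group F) (ρ : ℕ → ℕ) (π : Equiv.Perm (Sm D)) : Prop :=
  (∀ r : Rt D, ∃ s : Rt D, (s : ℕ) = ρ r ∧ ∃ ε : F, (ε = 1 ∨ ε = -1) ∧
    ∀ t, θ ((grS D F).x r t) = (grS D F).x s (ε * t)) ∧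
  ∀ i t, θ ((grS D F).x (sm i) t) = (grS D F).x (sm (π i)) t ∧
    θ ((grS D F).x (ng (sm i)) t) = (grS D F).x (ng (sm (π i))) t

theorem sg_one : Sg (MonoidHom.id (D.group F)) id 1 :=
  ⟨fun r => ⟨r, rfl, 1, .inl rfl, by simp⟩, fun _ _ => ⟨rfl, rfl⟩⟩

theorem Sg.mul {θ θ' : D.group F →* D.group F} {ρ ρ' : ℕ → ℕ} {π π' : Equiv.Perm (Sm D)} (h : Sg θ ρ π)
    (h' : Sg θ' ρ' π') : Sg (θ.comp θ') (ρ ∘ ρ') (π * π') := by
  refine ⟨fun r => ?_, fun i t => by simp [(h'.2 i t).1, (h'.2 i t).2, (h.2 _ _).1, (h.2 _ _).2]⟩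
  obtain ⟨s, a1, ε, a2, a3⟩ := h'.1 r
  obtain ⟨s', b1, ε', b2, b3⟩ := h.1 s
  exact ⟨s', by simp [b1, a1], ε' * ε, by rcases a2 with rfl | rfl <;> rcases b2 with rfl | rfl <;> simp,
    fun t => by simp [a3, b3, mul_assoc]⟩

theorem sg_of [Conn D] {T : TwD} (h : T.Ok D D) (S : Sym D) (hS : ∀ r, (S.ρ r : ℕ) = T.ι r) (hp : (T.p : F) = 0)
    (hq : ∀ r, T.q r = 1) (h1 : ∀ i : Sm D, T.ε (D.simple i) = 1 ∧ T.ε (D.neg (D.simple i)) = 1) :
    ∃ θ : D.group F →* D.group F, Sg θ T.ι S.π := by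
  have hs : ∀ (r : Rt D) (u : F), ∃ t, RingHom.id F t ^ T.q r = u := fun r u => ⟨u, by simp [hq]⟩
  have h2 := h.autGr_x S hS hp (RingHom.id F) hs
  refine ⟨(h.autGr S hS hp (RingHom.id F) hs).σ, fun r => ⟨_, hS r, T.ε r, ?_, fun t => by simp [h2, hq]⟩,
    fun i t => ⟨?_, ?_⟩⟩
  · rcases (h.base.1 r r.2).2.2.1 with e | e <;> simp [e]
  · rw [h2, S.ρ_sm, sm_val, (h1 i).1, hq]; simp
  · rw [h2, S.ρ_ng, S.ρ_sm, ng_val, sm_val, (h1 i).2, hq]; simp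

end

theorem sg_mem {F : Type*} [Field F] {D : ChevalleyDatum} (hD : D ∈ [chevD4, chevE6])
    {π : Equiv.Perm (Fin D.rank)} (hπ : D.IsDiagramSymmetry π) : ∃ (_ : Good D) (_ : Conn D)
      (θ : D.group F →* D.group F) (ρ : ℕ → ℕ), Sg θ ρ π ∧ ∀ r < D.nroots, D.permRoot π r = ρ r := by
  simp only [List.mem_cons, List.not_mem_nil, or_false] at hD
  rcases hD with rfl | rfl <;> refine ⟨inferInstance, inferInstance, ?_⟩
  · obtain ⟨a, ha⟩ := sg_of (F := F) twD4_ok symD4 symD4_ρ Nat.cast_zero (fun _ => rfl) (by decide +kernel)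
    obtain ⟨b, hb⟩ := sg_of (F := F) twD4'_ok symD4' symD4'_ρ Nat.cast_zero (fun _ => rfl) (by decide +kernel)
    obtain ⟨c, hc⟩ := sg_of (F := F) twD4t_ok symD4t symD4t_ρ Nat.cast_zero (fun _ => rfl) (by decide +kernel)
    have := symsD4 hπ
    simp only [List.mem_cons, List.not_mem_nil, or_false] at this
    rcases this with rfl | rfl | rfl | rfl | rfl | rfl
    exacts [⟨_, _, sg_one, by decide +kernel⟩, ⟨_, _, ha, by decide +kernel⟩, ⟨_, _, hb, by decide +kernel⟩,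
      ⟨_, _, hc, by decide +kernel⟩, ⟨_, _, hc.mul ha, by decide +kernel⟩, ⟨_, _, hc.mul hb, by decide +kernel⟩]
  · obtain ⟨a, ha⟩ := sg_of (F := F) twE6_ok symE6 symE6_ρ Nat.cast_zero (fun _ => rfl) (by decide +kernel)
    have := symsE6 hπ
    simp only [List.mem_cons, List.not_mem_nil, or_false] at this
    rcases this with rfl | rfl
    exacts [⟨_, _, sg_one, by decide +kernel⟩, ⟨_, _, ha, by decide +kernel⟩]

/-- For the Chevalley groups of types D₄ and E₆ (one root length) over any field: if `π` is a symmetry of the Dynkin diagram and `φ` is an automorphism sending `x_{p_i}(t)` to `x_{p_{π i}}(t)` and `x_{-p_i}(t)` to `x_{-p_{π i}}(t)` for every fundamental root `p_i`, then for every root `r` there is a sign `ε = ±1` with `φ(x_r(t)) = x_{π·r}(ε t)` for all `t`, where `π·r` is the root whose coefficients are those of `r` permuted by `π`. -/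
theorem result {F : Type*} [Field F] (D : Cfsg.Lie.ChevalleyDatum) (hD : D ∈ [Cfsg.Lie.chevD4, Cfsg.Lie.chevE6])
    (π : Equiv.Perm (Fin D.rank)) (hπ : D.IsDiagramSymmetry π) (φ : ↥(D.group F) ≃* ↥(D.group F))
    (hφ : ∀ (g : ↥(D.group F)) (i : Fin D.rank) (t : F),
      (((g : GL D.Idx F) : Matrix D.Idx D.Idx F) = D.x F (D.simple i) t →
        ((φ g : GL D.Idx F) : Matrix D.Idx D.Idx F) = D.x F (D.simple (π i)) t) ∧
      (((g : GL D.Idx F) : Matrix D.Idx D.Idx F) = D.x F (D.neg (D.simple i)) t →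
        ((φ g : GL D.Idx F) : Matrix D.Idx D.Idx F) = D.x F (D.neg (D.simple (π i))) t))
    (r : ℕ) (hr : r < D.nroots) :
    ∃ ε : F, (ε = 1 ∨ ε = -1) ∧ ∀ (g : ↥(D.group F)) (t : F),
      ((g : GL D.Idx F) : Matrix D.Idx D.Idx F) = D.x F r t →
        ((φ g : GL D.Idx F) : Matrix D.Idx D.Idx F) = D.x F (D.permRoot π r) (ε * t) := by
  obtain ⟨_, _, θ, ρ, h1, h2⟩ := sg_mem (F := F) hD hπ
  have e : φ.toMonoidHom = θ := hom_ext_sm
    (fun i t => by rw [(h1.2 i t).1, ← coe_eq_grS_x]; exact (hφ _ i t).1 (coe_grS_x _ t))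
    fun i t => by rw [(h1.2 i t).2, ← coe_eq_grS_x]; exact (hφ _ i t).2 (coe_grS_x _ t)
  obtain ⟨s, a1, ε, a2, a3⟩ := h1.1 ⟨r, hr⟩
  refine ⟨ε, a2, fun g t hg => ?_⟩
  rw [h2 r hr, ← a1, (coe_eq_grS_x ⟨r, hr⟩).mp hg, coe_eq_grS_x, ← a3, ← e]
  rfl

end Cfsg.Agent.S2161
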