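import Cfsg.Statements.S2298
import Cfsg.Agent.Classical.SL2CharVal

set_option autoImplicit false
open Cfsg

namespace Cfsg.Agent.S2298

open Cfsg.Agent.Classical Cfsg.Agent.Char Cfsg.Agent.CharDeep Matrix

/-- Over a finite field F with q elements, every irreducible complex character of GL₂ has degree 1, q − 1, q or q + 1; and when q ≥ 3 (so that these four numbers are distinct) there are exactly q − 1 irreducible characters of degree 1, exactly q − 1 of degree q, exactly (q − 1)(q − 2)/2 of degree q + 1 and exactly q(q − 1)/2 of degree q − 1. -/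
theorem result {F : Type*} [Field F] [Fintype F] :
    (∀ χ : Matrix.GeneralLinearGroup (Fin 2) F → ℂ, Cfsg.IsIrrCharacter (Matrix.GeneralLinearGroup (Fin 2) F) χ →
      χ 1 = 1 ∨ χ 1 = (Fintype.card F : ℂ) - 1 ∨ χ 1 = (Fintype.card F : ℂ) ∨ χ 1 = (Fintype.card F : ℂ) + 1) ∧
    (3 ≤ Fintype.card F →
      Nat.card {χ : Cfsg.IrrCharacter (Matrix.GeneralLinearGroup (Fin 2) F) // (χ : Matrix.GeneralLinearGroup (Fin 2) F → ℂ) 1 = 1} = Fintype.card F - 1 ∧
      Nat.card {χ : Cfsg.IrrCharacter (Matrix.GeneralLinearGroup (Fin 2) F) // (χ : Matrix.GeneralLinearGroup (Fin 2) F → ℂ) 1 = (Fintype.card F : ℂ)} = Fintype.card F - 1 ∧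
      Nat.card {χ : Cfsg.IrrCharacter (Matrix.GeneralLinearGroup (Fin 2) F) // (χ : Matrix.GeneralLinearGroup (Fin 2) F → ℂ) 1 = (Fintype.card F : ℂ) + 1} = (Fintype.card F - 1) * (Fintype.card F - 2) / 2 ∧
      Nat.card {χ : Cfsg.IrrCharacter (Matrix.GeneralLinearGroup (Fin 2) F) // (χ : Matrix.GeneralLinearGroup (Fin 2) F → ℂ) 1 = (Fintype.card F : ℂ) - 1} = Fintype.card F * (Fintype.card F - 1) / 2) := by
  classical
  obtain ⟨t, ht⟩ := sl_exists_noEig (F := F)
  have he := noEig_toGL ht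
  refine ⟨fun χ hχ => ?_, fun hq => ⟨?_, ?_, ?_, ?_⟩⟩
  · rcases gl_irr_cases he hχ with ⟨γ, rfl⟩ | ⟨γ, rfl⟩ | ⟨α, β, -, rfl⟩ | ⟨θ, -, rfl⟩
    · exact Or.inl (dc_one γ)
    · exact Or.inr (Or.inr (Or.inl (Stc_one γ)))
    · exact Or.inr (Or.inr (Or.inr (Rc_one α β)))
    · exact Or.inr (Or.inl (Pc_one he θ))
  · rw [card_irr_eq (P := fun χ => χ 1 = 1) dc (fun γ => ⟨isIrr_dc γ, dc_one γ⟩)
      (fun χ h1 h2 => gl_irr_deg_one he hq h1 h2) dc_injective, card_mulChar,
      Nat.card_eq_fintype_card]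
  · rw [card_irr_eq (P := fun χ => χ 1 = (Fintype.card F : ℂ)) Stc
      (fun γ => ⟨isIrr_Stc γ, Stc_one γ⟩)
      (fun χ h1 h2 => gl_irr_deg_card he h1 h2) Stc_injective, card_mulChar,
      Nat.card_eq_fintype_card]
  · have h := two_mul_card_irr_eq (P := fun χ => χ 1 = (Fintype.card F : ℂ) + 1)
      (fun x : {x : MulChar F ℂ × MulChar F ℂ // ¬ x.1 = x.2} => Rc x.1.1 x.1.2)
      (fun x => ⟨isIrr_Rc x.2, Rc_one _ _⟩)
      (fun χ h1 h2 => by
        obtain ⟨α, β, h, rfl⟩ := gl_irr_deg_succ he h1 h2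
        exact ⟨⟨(α, β), h⟩, rfl⟩) (fun x => ⟨x.1.swap, fun h => x.2 h.symm⟩)
      (fun x h => x.2 (congrArg (fun y => y.1.2) h))
      (fun x y => by
        rw [Rc_eq_iff, Subtype.ext_iff, Subtype.ext_iff, Prod.ext_iff, Prod.ext_iff]
        simp only [Prod.fst_swap, Prod.snd_swap]
        tauto)
    have h2 : Nat.card {x : MulChar F ℂ × MulChar F ℂ // x.1 = x.2} = Nat.card (MulChar F ℂ) :=
      Nat.card_congr ⟨fun x => x.1.1, fun a => ⟨(a, a), rfl⟩,
        fun x => Subtype.ext (Prod.ext rfl x.2), fun _ => rfl⟩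
    rw [card_ne_of_card_eq, h2, Nat.card_prod, card_mulChar, Nat.card_eq_fintype_card (α := F)] at h
    have : (Fintype.card F - 1) * (Fintype.card F - 2) =
        (Fintype.card F - 1) * (Fintype.card F - 1) - (Fintype.card F - 1) := by
      rw [← Nat.mul_sub_one]; rfl
    omega
  · have h := two_mul_card_irr_eq (P := fun χ => χ 1 = (Fintype.card F : ℂ) - 1)
      (fun x : {θ : TT (Matrix.SpecialLinearGroup.toGL t) →* ℂˣ // θ ≠ θ.comp (sigT he)} => Pc x.1)
      (fun x => ⟨isIrr_Pc he x.2, Pc_one he _⟩)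
      (fun χ h1 h2 => by
        obtain ⟨θ, h, rfl⟩ := gl_irr_deg_pred he hq h1 h2
        exact ⟨⟨θ, h⟩, rfl⟩)
      (fun x => ⟨x.1.comp (sigT he), fun h => x.2 (by
        refine Eq.trans ?_ h.symm
        ext c; simp [sigT_sigT])⟩)
      (fun x h => x.2 (congrArg Subtype.val h).symm)
      (fun x y => by rw [Pc_eq_iff he, Subtype.ext_iff, Subtype.ext_iff])
    rw [card_ne_comp_sigT, Nat.card_eq_fintype_card (α := F)] at h
    omega

end Cfsg.Agent.S2298
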