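import Cfsg.Statements.S2301
import Cfsg.Agent.Classical.GL2Class

set_option autoImplicit false
open Cfsg

namespace Cfsg.Agent.S2301

open Cfsg.Agent.Classical

/-- Over a finite field with q elements of odd characteristic p, the elements of order p of SL₂ (the non-identity unipotent elements) fall into exactly two conjugacy classes, each of size (q² − 1)/2; two upper unitriangular matrices with non-zero off-diagonal entries b and b′ are conjugate exactly when bb′ is a square. -/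
theorem result {F : Type*} [Field F] [Fintype F] (p : ℕ) [Fact p.Prime] [CharP F p] (hp : p ≠ 2) :
    Nat.card {C : ConjClasses (Matrix.SpecialLinearGroup (Fin 2) F) // ∃ g : Matrix.SpecialLinearGroup (Fin 2) F, orderOf g = p ∧ ConjClasses.mk g = C} = 2 ∧
    (∀ g : Matrix.SpecialLinearGroup (Fin 2) F, orderOf g = p → Nat.card (ConjClasses.mk g).carrier = (Fintype.card F ^ 2 - 1) / 2) ∧
    ∀ g h : Matrix.SpecialLinearGroup (Fin 2) F, (g : Matrix (Fin 2) (Fin 2) F) 0 0 = 1 → (g : Matrix (Fin 2) (Fin 2) F) 1 1 = 1 → (g : Matrix (Fin 2) (Fin 2) F) 1 0 = 0 → (g : Matrix (Fin 2) (Fin 2) F) 0 1 ≠ 0 →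
      (h : Matrix (Fin 2) (Fin 2) F) 0 0 = 1 → (h : Matrix (Fin 2) (Fin 2) F) 1 1 = 1 → (h : Matrix (Fin 2) (Fin 2) F) 1 0 = 0 → (h : Matrix (Fin 2) (Fin 2) F) 0 1 ≠ 0 →
      (IsConj g h ↔ IsSquare ((g : Matrix (Fin 2) (Fin 2) F) 0 1 * (h : Matrix (Fin 2) (Fin 2) F) 0 1)) := by
  have h2 : (2 : F) ≠ 0 := two_ne_zero_of_char F p hp
  obtain ⟨ν, hν0, hν⟩ := exists_nonsquare h2
  have key : ∀ g : Matrix.SpecialLinearGroup (Fin 2) F, orderOf g = p →
      ∃ b, b ≠ 0 ∧ IsConj g (uSL b) := by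
    intro g hg
    obtain ⟨x, b, e⟩ := sl_exists_conj_uSL ((sl_pow_char_eq_one_iff p).1 (hg ▸ pow_orderOf_eq_one g))
    refine ⟨b, ?_, isConj_iff.2 ⟨x, e⟩⟩
    rintro rfl
    have : g = 1 := by simpa using e
    rw [this, orderOf_one] at hg
    exact (Fact.out : p.Prime).one_lt.ne hg
  have ho : ∀ b : F, b ≠ 0 → orderOf (uSL b) = p := fun b hb =>
    orderOf_eq_prime (by simp [uSL_pow]) (by simpa using hb)
  refine ⟨?_, fun g hg => ?_, fun g h g1 g2 g3 g4 h1 h2 h3 h4 => ?_⟩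
  · rw [Nat.card_eq_two_iff]
    refine ⟨⟨_, _, ho 1 one_ne_zero, rfl⟩, ⟨_, _, ho ν hν0, rfl⟩, fun h => hν ?_, ?_⟩
    · simpa using (uSL_isConj_iff one_ne_zero hν0).1
        (ConjClasses.mk_eq_mk_iff_isConj.1 (congrArg Subtype.val h))
    · rw [Set.eq_univ_iff_forall]
      rintro ⟨_, g, hg, rfl⟩
      obtain ⟨b, hb, e⟩ := key g hg
      exact (uSL_isConj_cases hν hb).imp
        (fun h => Subtype.ext (ConjClasses.mk_eq_mk_iff_isConj.2 (e.trans h)))
        fun h => Subtype.ext (ConjClasses.mk_eq_mk_iff_isConj.2 (e.trans h))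
  · obtain ⟨b, hb, e⟩ := key g hg
    have := index_centralizer_uSL hb
    rw [gcd_two_pred_of_odd (two_ne_zero_iff_odd.1 h2)] at this
    rw [ConjClasses.mk_eq_mk_iff_isConj.2 e, card_carrier_mk, ← Nat.card_eq_fintype_card, ← this]
    omega
  · have e : ∀ g : Matrix.SpecialLinearGroup (Fin 2) F, g.1 0 0 = 1 → g.1 1 1 = 1 → g.1 1 0 = 0 →
        g = uSL (g.1 0 1) := fun g a b c => by
      ext i j; fin_cases i <;> fin_cases j <;> simp [a, b, c]
    rw [← uSL_isConj_iff g4 h4, ← e g g1 g2 g3, ← e h h1 h2 h3]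

end Cfsg.Agent.S2301
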