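import Cfsg.Statements.S2302
import Cfsg.Agent.Classical.GL2Class

set_option autoImplicit false
open Cfsg

namespace Cfsg.Agent.S2302

open Cfsg.Agent.Classical

/-- Over a finite field with q elements of characteristic 2, the involutions of SL₂ (the non-identity unipotent elements) form a single conjugacy class, of size q² − 1. -/
theorem result {F : Type*} [Field F] [Fintype F] [CharP F 2] (g h : Matrix.SpecialLinearGroup (Fin 2) F) (hg : orderOf g = 2) (hh : orderOf h = 2) :
    IsConj g h ∧ Nat.card (ConjClasses.mk g).carrier = Fintype.card F ^ 2 - 1 := by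
  have h2 : (2 : F) = 0 := CharTwo.two_eq_zero
  have key : ∀ g : Matrix.SpecialLinearGroup (Fin 2) F, orderOf g = 2 → IsConj g (uSL 1) := by
    intro g hg
    obtain ⟨x, b, e⟩ := sl_exists_conj_uSL ((sl_pow_char_eq_one_iff 2).1 (hg ▸ pow_orderOf_eq_one g))
    have hb : b ≠ 0 := by
      rintro rfl
      have : g = 1 := by simpa using e
      simp [this] at hg
    exact (isConj_iff.2 ⟨x, e⟩).trans
      ((uSL_isConj_iff hb one_ne_zero).2 (isSquare_of_two_eq_zero h2 _))
  refine ⟨(key g hg).trans (key h hh).symm, ?_⟩
  have := index_centralizer_uSL (F := F) one_ne_zero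
  rw [gcd_two_pred_of_even (two_eq_zero_iff_even.1 h2) Nat.card_pos, one_mul] at this
  rw [ConjClasses.mk_eq_mk_iff_isConj.2 (key g hg), card_carrier_mk, this,
    Nat.card_eq_fintype_card]

end Cfsg.Agent.S2302
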