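import Cfsg.Statements.S2309
import Cfsg.Agent.Classical.SL2CharVal

set_option autoImplicit false
open Cfsg

namespace Cfsg.Agent.S2309

open Cfsg.Agent.Classical Cfsg.Agent.Char Cfsg.Agent.CharDeep Matrix

/-- Over a finite field F with q elements: every irreducible complex character of GL₂ of degree q − 1 vanishes at every diagonal matrix with two distinct entries, and every irreducible complex character of degree q + 1 vanishes at every element with no eigenvector in F². -/
theorem result {F : Type*} [Field F] [Fintype F] (χ : Matrix.GeneralLinearGroup (Fin 2) F → ℂ) (hχ : Cfsg.IsIrrCharacter (Matrix.GeneralLinearGroup (Fin 2) F) χ) (g : Matrix.GeneralLinearGroup (Fin 2) F) :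
    (χ 1 = (Fintype.card F : ℂ) - 1 → (g : Matrix (Fin 2) (Fin 2) F) 0 1 = 0 → (g : Matrix (Fin 2) (Fin 2) F) 1 0 = 0 → (g : Matrix (Fin 2) (Fin 2) F) 0 0 ≠ (g : Matrix (Fin 2) (Fin 2) F) 1 1 → χ g = 0) ∧
    (χ 1 = (Fintype.card F : ℂ) + 1 → (∀ (c : F) (v : Fin 2 → F), v ≠ 0 → (g : Matrix (Fin 2) (Fin 2) F).mulVec v ≠ c • v) → χ g = 0) := by
  classical
  obtain ⟨t, ht⟩ := sl_exists_noEig (F := F)
  have he := noEig_toGL ht
  refine ⟨fun h h01 h10 hne => ?_, fun h hg => ?_⟩
  · obtain ⟨a, d, e⟩ := exists_eq_tri h10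
    have had : a ≠ d := fun h => hne (by rw [e, h]; simp)
    have hq : 3 ≤ Fintype.card F := by
      have : Nontrivial Fˣ := ⟨a, d, had⟩
      have := Fintype.one_lt_card (α := Fˣ)
      rw [Fintype.card_units] at this
      omega
    obtain ⟨θ, -, rfl⟩ := gl_irr_deg_pred he hq hχ h
    rw [e, Pc_split he θ had]
  · obtain ⟨α, β, -, rfl⟩ := gl_irr_deg_succ he hχ h
    exact Rc_noEig _ _ (noEig_iff.2 hg)

end Cfsg.Agent.S2309
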