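import Cfsg.Statements.S2310
import Cfsg.Agent.Classical.SL2CharVal

set_option autoImplicit false
open Cfsg

namespace Cfsg.Agent.S2310

open Cfsg.Agent.Classical Cfsg.Agent.Char Cfsg.Agent.CharDeep Matrix

/-- Over a finite field F with q ≥ 3 elements, let u be the upper unitriangular matrix of GL₂ with off-diagonal entry 1. An irreducible complex character χ of GL₂ takes at u the value 1 if χ has degree 1 or q + 1, the value −1 if χ has degree q − 1, and the value 0 if χ has degree q. -/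
theorem result {F : Type*} [Field F] [Fintype F] (hq : 3 ≤ Fintype.card F) (χ : Matrix.GeneralLinearGroup (Fin 2) F → ℂ) (hχ : Cfsg.IsIrrCharacter (Matrix.GeneralLinearGroup (Fin 2) F) χ)
    (u : Matrix.GeneralLinearGroup (Fin 2) F) (hu : (u : Matrix (Fin 2) (Fin 2) F) = !![1, 1; 0, 1]) :
    (χ 1 = 1 → χ u = 1) ∧ (χ 1 = (Fintype.card F : ℂ) + 1 → χ u = 1) ∧
    (χ 1 = (Fintype.card F : ℂ) - 1 → χ u = -1) ∧ (χ 1 = (Fintype.card F : ℂ) → χ u = 0) := by
  classical
  obtain ⟨t, ht⟩ := sl_exists_noEig (F := F)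
  have he := noEig_toGL ht
  obtain rfl : u = tri 1 1 1 := Units.ext hu
  refine ⟨fun h => ?_, fun h => ?_, fun h => ?_, fun h => ?_⟩
  · obtain ⟨γ, rfl⟩ := gl_irr_deg_one he hq hχ h
    simp [dc_tri]
  · obtain ⟨α, β, -, rfl⟩ := gl_irr_deg_succ he hχ h
    simp [Rc_unip]
  · obtain ⟨θ, -, rfl⟩ := gl_irr_deg_pred he hq hχ h
    simp [Pc_unip he]
  · obtain ⟨γ, rfl⟩ := gl_irr_deg_card he hχ h
    exact Stc_unip _ _ one_ne_zero

end Cfsg.Agent.S2310
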