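import Cfsg.Statements.S2314
import Cfsg.Agent.Mult.Stb2
import Cfsg.Agent.Chev.AllC

set_option autoImplicit false
open Cfsg

namespace Cfsg.Agent.S2314

/-- Steinberg's count of unipotent elements: in a Chevalley group of type G₂, B₂, D₄, F₄, E₆, E₇ or E₈ over a finite field of characteristic p with q elements, the number of elements of p-power order is q^(2N), N the number of positive roots — the square of the order of a Sylow p-subgroup. -/
theorem result {F : Type*} [Field F] [Fintype F] (p : ℕ) [Fact p.Prime] [CharP F p] (D : Cfsg.Lie.ChevalleyDatum) (hD : D ∈ [Cfsg.Lie.chevG2, Cfsg.Lie.chevB2, Cfsg.Lie.chevD4, Cfsg.Lie.chevF4, Cfsg.Lie.chevE6, Cfsg.Lie.chevE7, Cfsg.Lie.chevE8]) :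
    Nat.card {g : ↥(D.group F) // ∃ k : ℕ, orderOf g = p ^ k} = Fintype.card F ^ (2 * (D.nroots / 2)) := by
  obtain ⟨⟨g⟩, hc⟩ := Chev.conn_of_mem hD
  have := (Mult.grFull D F).ncard_unip p Finset.univ
  rw [Finset.coe_univ, Chev.Sys.P_univ, Chev.grS_U_univ, Subgroup.coe_top, Set.inter_univ, Mult.wlen_w0,
    ← Nat.card_coe_set_eq, Nat.card_eq_fintype_card (α := F), ← pow_add] at this
  refine this.trans ?_
  have h := Chev.two_mul_ncard_pos (D := D)
  simp only [Chev.InJ, Set.mem_univ, not_true, false_imp_iff, implies_true, and_true]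
  congr 1
  omega

end Cfsg.Agent.S2314
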