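import Cfsg.Statements.S2315
import Cfsg.Agent.Mult.GLss

set_option autoImplicit false
open Cfsg

namespace Cfsg.Agent.S2315

open Cfsg.Agent.Classical Matrix

/-- Steinberg's count of unipotent elements for the general linear group: over a finite field with q elements of characteristic p, the number of elements of GL_n of p-power order (the unipotent matrices) is q^(n(n−1)). -/
theorem result {F : Type*} [Field F] [Fintype F] (p : ℕ) [Fact p.Prime] [CharP F p] (n : ℕ) :
    Nat.card {g : Matrix.GeneralLinearGroup (Fin n) F // ∃ k : ℕ, orderOf g = p ^ k} = Fintype.card F ^ (n * (n - 1)) := by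
  have h1 : Nat.card {g : GL (Fin n) F // ∃ k, orderOf g = p ^ k} =
      Nat.card {g : SpecialLinearGroup (Fin n) F // ∃ k, orderOf g = p ^ k} := by
    have h := fun x : SpecialLinearGroup (Fin n) F => orderOf_injective _ SpecialLinearGroup.toGL_injective x
    refine (Nat.card_congr (Equiv.ofBijective (fun g => ⟨SpecialLinearGroup.toGL g.1, (h _).symm ▸ g.2⟩)
      ⟨fun _ _ e => Subtype.ext (SpecialLinearGroup.toGL_injective (Subtype.ext_iff.1 e)), ?_⟩)).symm
    rintro ⟨g, k, e⟩
    have h2 : g.1.det = 1 := by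
      have : g.1.det ^ p ^ k = 1 := by rw [← det_pow, ← Units.val_pow_eq_pow_val, ← e, pow_orderOf_eq_one]; simp
      rwa [← one_pow (p ^ k), ← sub_eq_zero, ← sub_pow_char_pow, pow_eq_zero_iff (NeZero.ne _), sub_eq_zero] at this
    have h3 : SpecialLinearGroup.toGL (⟨g.1, h2⟩ : SpecialLinearGroup (Fin n) F) = g := Units.ext rfl
    exact ⟨⟨⟨g.1, h2⟩, k, (h _).symm.trans (h3.symm ▸ e)⟩, Subtype.ext h3⟩
  rw [h1, ← Nat.card_eq_fintype_card]
  match n with
  | 0 | 1 => exact Nat.card_eq_one_iff_exists.2 ⟨⟨1, 0, by simp⟩, fun _ => Subtype.ext (Subsingleton.elim _ _)⟩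
  | 2 => exact Mult.card_unip_SL2 p
  | l + 3 => exact ((Mult.slFull (l := l + 2) (by omega) F).card_unip p).trans (congrArg _ (Mult.card_RA _))

end Cfsg.Agent.S2315
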