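import Cfsg.Statements.S2317
import Cfsg.Agent.Mult.GLss
import Cfsg.Agent.Classical.Jordan

set_option autoImplicit false
open Cfsg

namespace Cfsg.Agent.S2317

open Cfsg.Agent.Classical Matrix Polynomial

/-- Over a finite field of characteristic p, the conjugacy classes of GL_n consisting of elements of p-power order (the unipotent classes) are as many as the partitions of n. -/
theorem result {F : Type*} [Field F] [Fintype F] (p : ℕ) [Fact p.Prime] [CharP F p] (n : ℕ) :
    Nat.card {C : ConjClasses (Matrix.GeneralLinearGroup (Fin n) F) //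
      ∃ g : Matrix.GeneralLinearGroup (Fin n) F, (∃ k : ℕ, orderOf g = p ^ k) ∧ ConjClasses.mk g = C} =
      Fintype.card (Nat.Partition n) := by
  have h1 : ∀ g : GL (Fin n) F, (∃ k, orderOf g = p ^ k) ↔ ∀ a ∈ elemDiv (toLin' g.1), ∃ e, 0 < e ∧ a = (X - C 1) ^ e :=
    fun g => (Mult.unip_iff p (Units.coeHom _) Units.val_injective g).trans ⟨fun ⟨k, e⟩ a ha =>
      (exists_of_mem_unip (n := k) (by rw [toLin'_sub_one_pow, show (g.1 - 1) ^ k = 0 from e, map_zero]) ha).imp
        fun _ h => ⟨h.1, h.2.2⟩, fun h => ⟨n, by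
      rw [Units.coeHom_apply, ← aeval_X_sub_one_pow (F := F), aeval_mat_eq_zero_iff]
      intro a ha
      have h2 := Multiset.single_le_sum (fun _ _ => Nat.zero_le _) _ (Multiset.mem_map_of_mem natDegree ha)
      obtain ⟨e, -, rfl⟩ := h a ha
      rw [sum_natDegree_elemDiv_mat] at h2
      exact pow_dvd_pow _ (by simpa [natDegree_pow, -map_one] using h2)⟩⟩
  have h2 : ∀ s : Multiset ℕ, (s.map fun e => (X - C 1 : F[X]) ^ e).map natDegree = s := fun s => by
    simp [natDegree_pow, -map_one]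
  choose r hr using fun μ : Nat.Partition n => exists_GL_elemDiv_eq (ι := Fin n) (D := μ.parts.map ((X - C 1 : F[X]) ^ ·))
    (fun a ha => by obtain ⟨e, he, rfl⟩ := Multiset.mem_map.1 ha; exact isPP_X_sub_C_pow _ (μ.parts_pos he))
    (fun a ha => by
      obtain ⟨e, he, rfl⟩ := Multiset.mem_map.1 ha
      exact IsCoprime.pow_left ⟨-1, 1, by simp⟩) (by rw [h2, μ.parts_sum, Fintype.card_fin])
  simp only [and_comm (b := ConjClasses.mk _ = _)]
  rw [← Nat.card_eq_fintype_card]
  refine card_classes_eq _ r (fun μ => (h1 _).2 fun a ha => ?_) (fun μ ν e => Nat.Partition.ext ?_) fun g hg => ?_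
  · obtain ⟨e, he, rfl⟩ := Multiset.mem_map.1 (hr μ ▸ ha)
    exact ⟨e, μ.parts_pos he, rfl⟩
  · rw [← h2 μ.parts, ← hr, isConj_GL_iff_elemDiv.1 e, hr, h2]
  · refine ⟨⟨(elemDiv (toLin' g.1)).map natDegree, fun hi => ?_, by rw [sum_natDegree_elemDiv_mat, Fintype.card_fin]⟩,
      isConj_GL_iff_elemDiv.2 ?_⟩
    · obtain ⟨a, ha, rfl⟩ := Multiset.mem_map.1 hi
      obtain ⟨e, he, rfl⟩ := (h1 g).1 hg a ha
      simpa [natDegree_pow, -map_one] using he
    · rw [hr, Multiset.map_map]
      refine (Multiset.map_congr rfl fun a ha => ?_).trans (Multiset.map_id _)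
      obtain ⟨e, he, rfl⟩ := (h1 g).1 hg a ha
      simp [natDegree_pow, -map_one]

end Cfsg.Agent.S2317
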