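import Cfsg.Statements.S2319
import Cfsg.Agent.Mult.Hk2
import Cfsg.Agent.Mult.Stb
import Cfsg.Agent.Chev.AllC
import Cfsg.Agent.Chev.CoxB2
import Cfsg.Agent.Chev.CoxG2
import Cfsg.Agent.Chev.CoxD4
import Cfsg.Agent.Chev.CoxF4
import Cfsg.Agent.Chev.CoxE6
import Cfsg.Agent.Chev.CoxE7
import Cfsg.Agent.Chev.CoxE8

set_option autoImplicit false
open Cfsg

namespace Cfsg.Agent.S2319

open Cfsg.Agent.Chev Cfsg.Agent.Chev.Sys Cfsg.Lie Cfsg.Agent.Mult Finset
open scoped _root_.Classical

attribute [-simp] zsmul_eq_mul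

theorem hk {D : ChevalleyDatum} [Good D] [Conn D] {F : Type*} [Field F] [Finite F] {G : Type*} [Group G]
    [Fintype G] {X : Sys D F G} (f : Full X) :
    HkS (wI D) X.B (cl X) (Nat.card F : ℂ)⁻¹ where
  ne i w := by
    by_cases h : Pos (w⁻¹ • sm i)
    · have := len_left_of_pos h
      change wlen (sr i * w) ≠ wlen w
      omega
    · have := len_left_of_neg h
      change wlen (sr i * w) ≠ wlen w
      omega
  cl_B b hb g := f.cl_mul_left g hb
  cl_inv g := f.cl_eq (f.cell_cl g).inv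
  dc g g' e := by
    obtain ⟨n, hn, hw⟩ := X.exists_mem_N (cl X g)
    obtain ⟨a, ha, a', ha', e1⟩ := (f.c.cell_iff hn hw).1 (f.cell_cl g)
    obtain ⟨b, hb, b', hb', e2⟩ := (f.c.cell_iff hn hw).1 (e ▸ f.cell_cl g')
    exact ⟨b * a⁻¹, mul_mem hb (inv_mem ha), a'⁻¹ * b', mul_mem (inv_mem ha') hb', by
      rw [e2]; conv_rhs => rw [e1]
      group⟩
  card w := by
    have h1 := QuotientGroup.card_preimage_mk X.B {q | clq X q = w}
    rw [Nat.card_coe_set_eq {q | clq X q = w}, f.ncard_cell, Nat.card_coe_set_eq] at h1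
    have h2 : ∀ {_ : DecidablePred fun g => cl X g = w}, (univ.filter fun g => cl X g = w).card =
        ((QuotientGroup.mk : G → G ⧸ X.B) ⁻¹' {q | clq X q = w}).ncard := by
      intro _
      rw [← Set.ncard_coe_finset]
      congr 1
      ext g
      simp [f.clq_mk]
    have h3 : (Nat.card F : ℂ) ≠ 0 := by exact_mod_cast Nat.card_pos.ne'
    rw [h2, h1]
    push_cast
    rw [mul_assoc, ← mul_pow, mul_inv_cancel₀ h3, one_pow, mul_one]
  up i g g' e h := by
    obtain ⟨b, hb, n, hn, hw, b', hb', e1⟩ := f.cell_cl g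
    rw [e] at hw
    have h1 : Pos ((cl X g')⁻¹ • sm i) := by
      by_contra h1
      have := len_left_of_neg h1
      change wlen _ < wlen (sr i * _) at h
      omega
    refine f.cl_eq ?_
    rw [e1, mul_assoc, mul_assoc]
    exact (((f.cell_cl g').mul_left hb').step_of_pos hn hw h1).mul_left hb
  ss i g g' e e' := by
    obtain ⟨b, hb, n, hn, hw, b', hb', e1⟩ := f.cell_cl g
    rw [e] at hw
    rw [e1, mul_assoc, mul_assoc, f.cl_mul_left _ hb]
    rcases ((f.cell_cl g').mul_left hb').step hn hw with h | h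
    · left
      rw [f.cl_eq h, e']
      exact sr_mul_self i
    · right
      rw [f.cl_eq h.2, e']
  one := f.cl_eq (cell_one_of_mem (one_mem _))
  v_ne := inv_ne_zero (by exact_mod_cast Nat.card_pos.ne')

theorem card_conjClasses_congr {A B : Type*} [Group A] [Group B] (e : A ≃* B) :
    Nat.card (ConjClasses A) = Nat.card (ConjClasses B) := by
  refine Nat.card_congr ⟨ConjClasses.map e.toMonoidHom, ConjClasses.map e.symm.toMonoidHom,
    fun c => ?_, fun c => ?_⟩
  · obtain ⟨a, rfl⟩ := ConjClasses.mk_surjective c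
    exact congrArg ConjClasses.mk (e.symm_apply_apply a)
  · obtain ⟨a, rfl⟩ := ConjClasses.mk_surjective c
    exact congrArg ConjClasses.mk (e.apply_symm_apply a)

theorem aux {F : Type*} [Field F] [Fintype F] {D : ChevalleyDatum} [Good D] [Conn D]
    {M : CoxeterMatrix (Sm D)} (he : ∃ e : WG D ≃* M.Group, ∀ i, e (sr i) = M.simple i) :
    Nat.card {χ : Cfsg.IrrCharacter ↥(D.group F) //
      ∃ φ : ↥(D.group F) → ℂ, Cfsg.IsCharacter ↥(D.group F) φ ∧
        Cfsg.fixedPointCharacter ((D.borelSubgroup F).subgroupOf (D.group F)) =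
          (χ : ↥(D.group F) → ℂ) + φ} = Nat.card (ConjClasses M.Group) := by
  obtain ⟨e, -⟩ := he
  letI := Fintype.ofFinite (D.group F)
  letI := Fintype.ofFinite (WG D)
  rw [← grS_B, ← card_conjClasses_congr e]
  refine (hk (grFull D F)).card_eq
    (S := Set.range fun k : ℕ => ((2 ^ (k + 1) : ℕ) : ℂ)⁻¹) ?_ ?_
  · refine Set.infinite_range_of_injective fun k l h => ?_
    have h1 : (2 ^ (k + 1) : ℕ) = 2 ^ (l + 1) := by exact_mod_cast inv_injective h
    have := Nat.pow_right_injective le_rfl h1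
    omega
  · rintro _ ⟨k, rfl⟩
    letI := Fintype.ofFinite (D.group (GaloisField 2 (k + 1)))
    have := (hk (grFull D (GaloisField 2 (k + 1)))).rank_add_le
    rwa [GaloisField.card 2 (k + 1) k.succ_ne_zero] at this

/-- In a Chevalley group of type G₂, B₂, D₄, F₄, E₆, E₇ or E₈ over a finite field, the number of distinct irreducible constituents of the permutation character on the cosets of B = UH equals the number of conjugacy classes (equivalently, of irreducible characters) of the Weyl group, the Coxeter group of the type with nodes numbered as the fundamental roots. -/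
theorem result {F : Type*} [Field F] [Fintype F]
    (dw : Cfsg.Lie.ChevalleyDatum × (Σ n : ℕ, CoxeterMatrix (Fin n)))
    (hdw : dw ∈ [(Cfsg.Lie.chevG2, ⟨2, CoxeterMatrix.G₂⟩), (Cfsg.Lie.chevB2, ⟨2, CoxeterMatrix.B 2⟩), (Cfsg.Lie.chevD4, ⟨4, Cfsg.Lie.coxeterD4⟩), (Cfsg.Lie.chevF4, ⟨4, CoxeterMatrix.F₄⟩),
      (Cfsg.Lie.chevE6, ⟨6, CoxeterMatrix.E₆⟩), (Cfsg.Lie.chevE7, ⟨7, CoxeterMatrix.E₇⟩), (Cfsg.Lie.chevE8, ⟨8, CoxeterMatrix.E₈⟩)]) :
    Nat.card {χ : Cfsg.IrrCharacter ↥(dw.1.group F) //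
      ∃ φ : ↥(dw.1.group F) → ℂ, Cfsg.IsCharacter ↥(dw.1.group F) φ ∧
        Cfsg.fixedPointCharacter ((dw.1.borelSubgroup F).subgroupOf (dw.1.group F)) = (χ : ↥(dw.1.group F) → ℂ) + φ} =
      Nat.card (ConjClasses dw.2.2.Group) := by
  simp only [List.mem_cons, List.not_mem_nil, or_false] at hdw
  rcases hdw with rfl | rfl | rfl | rfl | rfl | rfl | rfl
  exacts [aux coxG2, aux coxB2, aux coxD4, aux coxF4, aux coxE6, aux coxE7, aux coxE8]

end Cfsg.Agent.S2319
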