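import Cfsg.Statements.S2320
import Cfsg.Agent.Classical.SL2CharDeg

set_option autoImplicit false
open Cfsg

namespace Cfsg.Agent.S2320

open Cfsg.Agent.Classical Cfsg.Agent.Char Cfsg.Agent.CharDeep Matrix

/-- Over a finite field F with q elements, every irreducible complex character of GL₂ of degree q takes a value of absolute value 1 at every diagonal matrix with two different diagonal entries and at every element with no eigenvector in F². -/
theorem result {F : Type*} [Field F] [Fintype F] (χ : Matrix.GeneralLinearGroup (Fin 2) F → ℂ) (hχ : Cfsg.IsIrrCharacter (Matrix.GeneralLinearGroup (Fin 2) F) χ) (hdeg : χ 1 = (Fintype.card F : ℂ)) (g : Matrix.GeneralLinearGroup (Fin 2) F) :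
    ((g : Matrix (Fin 2) (Fin 2) F) 0 1 = 0 → (g : Matrix (Fin 2) (Fin 2) F) 1 0 = 0 → (g : Matrix (Fin 2) (Fin 2) F) 0 0 ≠ (g : Matrix (Fin 2) (Fin 2) F) 1 1 → ‖χ g‖ = 1) ∧
    ((∀ (c : F) (v : Fin 2 → F), v ≠ 0 → (g : Matrix (Fin 2) (Fin 2) F).mulVec v ≠ c • v) → ‖χ g‖ = 1) := by
  classical
  obtain ⟨t, ht⟩ := sl_exists_noEig (F := F)
  obtain ⟨γ, rfl⟩ := gl_irr_deg_card (noEig_toGL ht) hχ hdeg
  have hn : ‖dc γ g‖ = 1 := by
    have h := conj_mulChar_apply γ (GeneralLinearGroup.det g)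
    have h2 : γ (GeneralLinearGroup.det g : Fˣ) * γ⁻¹ (GeneralLinearGroup.det g : Fˣ) = 1 := by
      rw [← MulChar.mul_apply, mul_inv_cancel, MulChar.one_apply_coe]
    rw [← h, Complex.mul_conj, Complex.normSq_eq_norm_sq] at h2
    exact (pow_eq_one_iff_of_nonneg (norm_nonneg _) two_ne_zero).1 (by exact_mod_cast h2)
  refine ⟨fun h01 h10 hne => ?_, fun h => by rw [Stc_noEig _ (noEig_iff.2 h), norm_neg, hn]⟩
  obtain ⟨a, d, e⟩ := exists_eq_tri h10
  have had : a ≠ d := fun h => hne (by rw [e, h]; simp)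
  rw [e, dc_tri] at hn
  rw [e, Stc_split _ had, hn]

end Cfsg.Agent.S2320
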