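import Cfsg.Statements.S2321
import Cfsg.Agent.Classical.SL2CharDeg

set_option autoImplicit false
open Cfsg

namespace Cfsg.Agent.S2321

open Cfsg.Agent.Classical Cfsg.Agent.Char Cfsg.Agent.CharDeep Matrix

/-- Over a finite field F with q elements, an irreducible complex character of SL₂ of degree q (the Steinberg character) takes the value 1 at every diagonal matrix whose diagonal entry a has a² ≠ 1, the value −1 at every element with no eigenvector in F², and the value 0 at every upper triangular matrix with equal diagonal entries and non-zero upper right entry. -/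
theorem result {F : Type*} [Field F] [Fintype F] (χ : Matrix.SpecialLinearGroup (Fin 2) F → ℂ) (hχ : Cfsg.IsIrrCharacter (Matrix.SpecialLinearGroup (Fin 2) F) χ) (hdeg : χ 1 = (Fintype.card F : ℂ)) (g : Matrix.SpecialLinearGroup (Fin 2) F) :
    ((g : Matrix (Fin 2) (Fin 2) F) 0 1 = 0 → (g : Matrix (Fin 2) (Fin 2) F) 1 0 = 0 → (g : Matrix (Fin 2) (Fin 2) F) 0 0 ^ 2 ≠ 1 → χ g = 1) ∧
    ((∀ (c : F) (v : Fin 2 → F), v ≠ 0 → (g : Matrix (Fin 2) (Fin 2) F).mulVec v ≠ c • v) → χ g = -1) ∧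
    ((g : Matrix (Fin 2) (Fin 2) F) 1 0 = 0 → (g : Matrix (Fin 2) (Fin 2) F) 0 0 = (g : Matrix (Fin 2) (Fin 2) F) 1 1 → (g : Matrix (Fin 2) (Fin 2) F) 0 1 ≠ 0 → χ g = 0) := by
  classical
  obtain rfl := sl_irr_deg_card hχ hdeg
  refine ⟨fun h01 h10 h => ?_, fun h => ?_, fun h10 h h01 => ?_⟩
  · have := sl_diag_mul h01
    rw [Sts_eq, Rs_split _ h10 ((sl_diag_ne_iff h01).2 h),
      MulChar.one_apply (left_ne_zero_of_mul_eq_one this).isUnit,
      MulChar.one_apply (right_ne_zero_of_mul_eq_one this).isUnit]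
    ring
  · rw [Sts_eq, Rs_noEig _ (noEig_iff.2 h)]; simp
  · rw [Sts_eq, Rs_unip _ h10 h h01,
      MulChar.one_apply (left_ne_zero_of_mul_eq_one (sl_diag_mul' h10)).isUnit, sub_self]

end Cfsg.Agent.S2321
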