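import Cfsg.Statements.S2322
import Cfsg.Agent.Classical.SL2CharDeg

set_option autoImplicit false
open Cfsg

namespace Cfsg.Agent.S2322

open Cfsg.Agent.Classical Cfsg.Agent.Char Cfsg.Agent.CharDeep Matrix

/-- Over a finite field F with q elements, q odd: every irreducible complex character of SL₂ of degree q − 1 or (q − 1)/2 vanishes at every diagonal matrix whose diagonal entry a has a² ≠ 1, and every irreducible complex character of degree q + 1 or (q + 1)/2 vanishes at every element with no eigenvector in F². -/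
theorem result {F : Type*} [Field F] [Fintype F] (hodd : Odd (Fintype.card F)) (χ : Matrix.SpecialLinearGroup (Fin 2) F → ℂ) (hχ : Cfsg.IsIrrCharacter (Matrix.SpecialLinearGroup (Fin 2) F) χ) (g : Matrix.SpecialLinearGroup (Fin 2) F) :
    ((χ 1 = (Fintype.card F : ℂ) - 1 ∨ χ 1 = (((Fintype.card F - 1) / 2 : ℕ) : ℂ)) →
      (g : Matrix (Fin 2) (Fin 2) F) 0 1 = 0 → (g : Matrix (Fin 2) (Fin 2) F) 1 0 = 0 → (g : Matrix (Fin 2) (Fin 2) F) 0 0 ^ 2 ≠ 1 → χ g = 0) ∧
    ((χ 1 = (Fintype.card F : ℂ) + 1 ∨ χ 1 = (((Fintype.card F + 1) / 2 : ℕ) : ℂ)) →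
      (∀ (c : F) (v : Fin 2 → F), v ≠ 0 → (g : Matrix (Fin 2) (Fin 2) F).mulVec v ≠ c • v) → χ g = 0) := by
  classical
  have h2 : (2 : F) ≠ 0 := two_ne_zero_iff_odd.2 (by rwa [Nat.card_eq_fintype_card])
  have hq1 := Fintype.one_lt_card (α := F)
  refine ⟨fun h h01 h10 hne => ?_, fun h hg => ?_⟩
  · obtain ⟨t, ht⟩ := sl_exists_noEig (F := F)
    have hne' := (sl_diag_ne_iff h01).2 hne
    have hq : 5 ≤ Fintype.card F := by
      have h3 : Fintype.card F ≠ 3 := fun h3 => hne (by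
        have := FiniteField.pow_card_sub_one_eq_one _ (left_ne_zero_of_mul_eq_one (sl_diag_mul h01))
        rwa [h3] at this)
      obtain ⟨k, hk⟩ := hodd
      omega
    rcases h with h | h
    · obtain ⟨θ, -, rfl⟩ := sl_irr_deg_pred ht (by omega) hχ h
      exact Ps_split ht θ h10 hne'
    · obtain ⟨θ, -, -, e⟩ := sl_irr_deg_half_pred ht hodd hq hχ h
      have := e.two_mul_apply h2 (Or.inr (disc_ne_zero_of_diag h10 hne'))
      simpa [Ps_split ht θ h10 hne'] using this
  · have ht := noEig_iff.2 hg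
    rcases h with h | h
    · obtain ⟨α, -, rfl⟩ := sl_irr_deg_succ hχ h
      exact Rs_noEig _ ht
    · obtain ⟨k, hk⟩ := hodd
      rcases sl_irr_cases' ht hχ (n := ((Fintype.card F + 1) / 2 : ℕ)) (by rw [h, Int.cast_natCast]) with
        ⟨e, -⟩ | ⟨e, -⟩ | ⟨e, -⟩ | ⟨e, θ, h1, rfl⟩ | ⟨-, α, -, -, e⟩ | ⟨e, -⟩
      any_goals omega
      · have := Ps_torus ht θ (c := ⟨g, sl_self_mem_centralizer g⟩) ht.not_isScal
        rw [three_hom_add_inv (by rw [Nat.card_eq_fintype_card]; omega) ht h1 ht.not_isScal] at this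
        simpa using this
      · simpa [Rs_noEig _ ht] using e.two_mul_apply h2 (Or.inr ht.disc_ne_zero)

end Cfsg.Agent.S2322
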