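import Cfsg.Statements.S2324
import Cfsg.Agent.Classical.SL2CharDeg

set_option autoImplicit false
open Cfsg

namespace Cfsg.Agent.S2324

open Cfsg.Agent.Classical Cfsg.Agent.Char Cfsg.Agent.CharDeep Matrix

/-- Over a finite field F with q elements, q odd and q ≥ 5, let u be the upper unitriangular matrix of SL₂ with off-diagonal entry 1 and let δ = (−1)^((q−1)/2). Every irreducible complex character χ of SL₂ of degree (q + 1)/2 satisfies (2χ(u) − 1)² = δq, and every irreducible complex character χ of degree (q − 1)/2 satisfies (2χ(u) + 1)² = δq; that is, χ(u) = (1 ± √(δq))/2 in the first case and χ(u) = (−1 ± √(δq))/2 in the second. Moreover two different irreducible characters of degree (q + 1)/2 take the two different values (their values at u add up to 1), and likewise for degree (q − 1)/2 (values adding up to −1). -/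
theorem result {F : Type*} [Field F] [Fintype F] (hodd : Odd (Fintype.card F)) (hq : 5 ≤ Fintype.card F)
    (u : Matrix.SpecialLinearGroup (Fin 2) F) (hu : (u : Matrix (Fin 2) (Fin 2) F) = !![1, 1; 0, 1]) :
    (∀ χ : Matrix.SpecialLinearGroup (Fin 2) F → ℂ, Cfsg.IsIrrCharacter (Matrix.SpecialLinearGroup (Fin 2) F) χ → χ 1 = (((Fintype.card F + 1) / 2 : ℕ) : ℂ) → (2 * χ u - 1) ^ 2 = (-1 : ℂ) ^ ((Fintype.card F - 1) / 2) * (Fintype.card F : ℂ)) ∧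
    (∀ χ : Matrix.SpecialLinearGroup (Fin 2) F → ℂ, Cfsg.IsIrrCharacter (Matrix.SpecialLinearGroup (Fin 2) F) χ → χ 1 = (((Fintype.card F - 1) / 2 : ℕ) : ℂ) → (2 * χ u + 1) ^ 2 = (-1 : ℂ) ^ ((Fintype.card F - 1) / 2) * (Fintype.card F : ℂ)) ∧
    (∀ χ₁ χ₂ : Matrix.SpecialLinearGroup (Fin 2) F → ℂ, Cfsg.IsIrrCharacter (Matrix.SpecialLinearGroup (Fin 2) F) χ₁ → Cfsg.IsIrrCharacter (Matrix.SpecialLinearGroup (Fin 2) F) χ₂ → χ₁ ≠ χ₂ →
      χ₁ 1 = (((Fintype.card F + 1) / 2 : ℕ) : ℂ) → χ₂ 1 = (((Fintype.card F + 1) / 2 : ℕ) : ℂ) → χ₁ u + χ₂ u = 1) ∧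
    (∀ χ₁ χ₂ : Matrix.SpecialLinearGroup (Fin 2) F → ℂ, Cfsg.IsIrrCharacter (Matrix.SpecialLinearGroup (Fin 2) F) χ₁ → Cfsg.IsIrrCharacter (Matrix.SpecialLinearGroup (Fin 2) F) χ₂ → χ₁ ≠ χ₂ →
      χ₁ 1 = (((Fintype.card F - 1) / 2 : ℕ) : ℂ) → χ₂ 1 = (((Fintype.card F - 1) / 2 : ℕ) : ℂ) → χ₁ u + χ₂ u = -1) := by
  classical
  obtain ⟨t, ht⟩ := sl_exists_noEig (F := F)
  have h2 : (2 : F) ≠ 0 := two_ne_zero_iff_odd.2 (by rwa [Nat.card_eq_fintype_card])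
  obtain rfl : u = uSL 1 := Subtype.ext hu
  refine ⟨fun χ hχ h => ?_, fun χ hχ h => ?_, fun χ χ' hχ hχ' hne h h' => ?_,
    fun χ χ' hχ hχ' hne h h' => ?_⟩
  · obtain ⟨α, -, -, e⟩ := sl_irr_deg_half_succ hodd hq hχ h
    rw [← e.sq h2, Rs_uSL _ one_ne_zero]
  · obtain ⟨α, -, -, e⟩ := sl_irr_deg_half_pred ht hodd hq hχ h
    rw [← e.sq h2, Ps_uSL ht _ one_ne_zero, sub_neg_eq_add]
  · obtain ⟨α, -, -, h4⟩ := exists_quadratic_mulChar h2
    obtain ⟨β, a1, a2, e⟩ := sl_irr_deg_half_succ hodd hq hχ h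
    obtain ⟨β', b1, b2, e'⟩ := sl_irr_deg_half_succ hodd hq hχ' h'
    rw [h4 _ a1 a2] at e; rw [h4 _ b1 b2] at e'
    rw [(e.eq_or_eq e').resolve_left hne.symm]
    simp [Rs_uSL]
  · obtain ⟨α, -, -, h4⟩ := exists_quadratic_hom h2 ht
    obtain ⟨β, a1, a2, e⟩ := sl_irr_deg_half_pred ht hodd hq hχ h
    obtain ⟨β', b1, b2, e'⟩ := sl_irr_deg_half_pred ht hodd hq hχ' h'
    rw [h4 _ a1 a2] at e; rw [h4 _ b1 b2] at e'
    rw [(e.eq_or_eq e').resolve_left hne.symm]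
    simp [Ps_uSL]

end Cfsg.Agent.S2324
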