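import Cfsg.Statements.S2329
import Cfsg.Agent.Classical.SL2Unip

set_option autoImplicit false
open Cfsg

namespace Cfsg.Agent.S2329

open Cfsg.Agent.Classical

/-- Over a finite field of characteristic p, any two elements of order p of GL₂ are conjugate: there is a single conjugacy class of non-identity unipotent elements. -/
theorem result {F : Type*} [Field F] [Fintype F] (p : ℕ) [Fact p.Prime] [CharP F p] (g h : Matrix.GeneralLinearGroup (Fin 2) F)
    (hg : orderOf g = p) (hh : orderOf h = p) : IsConj g h := by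
  have key : ∀ g : Matrix.GeneralLinearGroup (Fin 2) F, orderOf g = p →
      g.1.trace = 2 ∧ g.1.det = 1 ∧ ¬ IsScal g.1 := fun g hg => by
    obtain ⟨h1, h2⟩ := (gl_pow_char_eq_one_iff p).1 (hg ▸ pow_orderOf_eq_one g)
    refine ⟨h1, h2, fun ⟨b, c, _⟩ => (Fact.out : p.Prime).ne_one ?_⟩
    rw [← hg, orderOf_eq_one_iff]
    ext1
    rw [m2_eq_of_upper_unip c h1 h2, b]
    ext i j; fin_cases i <;> fin_cases j <;> simp
  obtain ⟨a1, a2, a3⟩ := key g hg
  obtain ⟨b1, b2, b3⟩ := key h hh
  obtain ⟨x, hx⟩ := exists_GL_conj a3 b3 (a1.trans b1.symm) (a2.trans b2.symm)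
  exact isConj_iff.2 ⟨x, by rw [mul_inv_eq_iff_eq_mul]; exact Units.ext hx⟩

end Cfsg.Agent.S2329
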