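import Cfsg.Statements.S2364
import Cfsg.Agent.Classical.Eig7

set_option autoImplicit false
open Cfsg

namespace Cfsg.Agent.S2364

open Cfsg.Agent.Classical Cfsg.Agent.Classical.Eig Cfsg.Agent.Elu Cfsg.Agent.Geom

/-- Let F be a finite field of characteristic p, n ≥ 4, and let a, b be commuting elements of PSL(n, F) with a of order p. Then every prime divisor of the order of b divides the order of SL(n − 2, F). -/
theorem result {F : Type*} [Field F] [Fintype F] (p : ℕ) [Fact p.Prime] [CharP F p] (n : ℕ) (hn : 4 ≤ n)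
    (a b : Matrix.ProjectiveSpecialLinearGroup (Fin n) F) (ha : orderOf a = p) (hab : Commute a b) :
    (orderOf b).primeFactors ⊆ (Nat.card (Matrix.SpecialLinearGroup (Fin (n - 2)) F)).primeFactors := by
  intro s hs
  rw [Nat.mem_primeFactors] at hs ⊢
  obtain ⟨A, h1, h2, h3, h4⟩ := exists_sub_two (p := p) (du_card (F := F)) hn hs.1 fun h =>
    spec_PSL (F := F) (p := p) n ▸ mul_mem_spec hab ha ((Nat.coprime_primes hs.1 Fact.out).2 h) hs.2.1
  obtain ⟨f, hf⟩ := exists_of_tdim (V := Fin (n - 2) → F) h1 (by simpa using h2)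
  exact ⟨hs.1, dvd_card_of_hasF Matrix.SpecialLinearGroup.coeMonoidHom
    (g := ⟨LinearMap.toMatrix' f, by simpa using hf.det_eq_one.2 h3⟩)
    (hasF_card.2 (by rwa [← Matrix.toLin'_toMatrix' f] at hf)) h4, Nat.card_pos.ne'⟩

end Cfsg.Agent.S2364
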