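import Cfsg.Statements.S2365
import Cfsg.Agent.Classical.Eig7

set_option autoImplicit false
open Cfsg

namespace Cfsg.Agent.S2365

open Cfsg.Agent.Classical Cfsg.Agent.Classical.Eig Cfsg.Agent.Elu Cfsg.Agent.Geom

/-- Let q be a power of the prime p, F the field with q² elements, m ≥ 4, and let a, b be commuting elements of PSU(m, q) with a of order p. Then every prime divisor of the order of b divides the order of SU(m − 2, q). -/
theorem result {F : Type*} [Field F] [Fintype F] (p : ℕ) [Fact p.Prime] [CharP F p] (m q : ℕ) (hm : 4 ≤ m) (hF : Fintype.card F = q ^ 2)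
    (a b : Cfsg.PSU m F q) (ha : orderOf a = p) (hab : Commute a b) :
    (orderOf b).primeFactors ⊆ (Nat.card ↥(Cfsg.SU (m - 2) F q)).primeFactors := by
  intro s hs
  rw [Nat.mem_primeFactors] at hs ⊢
  obtain ⟨A, h1, h2, h3, h4⟩ := exists_sub_two (p := p) (du_neg_of_sq hF) hm hs.1 fun h =>
    spec_PSU (p := p) hF (show 2 ≤ m by omega) ▸
      mul_mem_spec hab ha ((Nat.coprime_primes hs.1 Fact.out).2 h) hs.2.1
  obtain ⟨g, hg⟩ := exists_GU_hasF hF h1 h2
  exact ⟨hs.1, dvd_card_of_hasF (Matrix.SpecialLinearGroup.coeMonoidHom.comp (SU (m - 2) F q).subtype)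
    (g := ⟨⟨g.1.1, (LinearMap.det_toLin' _).symm.trans
      ((hg.det_herm (Nat.card_eq_fintype_card.trans hF)).2 h3)⟩, g.2⟩) hg h4, Nat.card_pos.ne'⟩

end Cfsg.Agent.S2365
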