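import Cfsg.Statements.S2367
import Cfsg.Agent.Small.SymSyl

set_option autoImplicit false
open Cfsg

namespace Cfsg.Agent.S2367

theorem of_fact {N p : ℕ} (hp : p.Prime) (h3 : N.factorization p = 3) (hN : N ≠ 0) : p ^ 3 ∣ N :=
  (hp.pow_dvd_iff_le_factorization hN).2 h3.ge

theorem spor {N p k : ℕ} (hp : p.Prime) (h2 : p ≠ 2) (h3 : N.factorization p = 3) (hN : N ≠ 0)
    (hk : 2 ^ k ∣ N) (l : List ℕ) (m : ℕ) (hm : N ∣ l.prod ^ m) (hl : ∀ q ∈ l, q.Prime)
    (h : ∀ q ∈ l, q ≠ 2 → q ^ 3 ∣ N → ¬ q ^ 4 ∣ N → q ^ 3 < 2 ^ k) :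
    p ^ 3 < 2 ^ N.factorization 2 := by
  have h4 := of_fact hp h3 hN
  have h5 : p ∣ l.prod := hp.dvd_of_dvd_pow ((dvd_pow_self p (by norm_num)).trans (h4.trans hm))
  obtain ⟨q, hq, h6⟩ := (Prime.dvd_prod_iff hp.prime).1 h5
  obtain rfl := (Nat.prime_dvd_prime_iff_eq hp (hl q hq)).1 h6
  refine (h p hq h2 h4 fun h7 => ?_).trans_le (Nat.pow_le_pow_right (by norm_num)
    ((Nat.prime_two.pow_dvd_iff_le_factorization hN).1 hk))
  have := (hp.pow_dvd_iff_le_factorization hN).1 h7
  omega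

theorem hl : ∀ q ∈ [2, 3, 5, 7, 11, 13, 17, 19, 23, 29, 31, 37, 41, 43, 47, 59, 67, 71], q.Prime := by
  intro q hq
  simp only [List.mem_cons, List.not_mem_nil, or_false] at hq
  rcases hq with rfl | rfl | rfl | rfl | rfl | rfl | rfl | rfl | rfl | rfl | rfl | rfl | rfl | rfl |
    rfl | rfl | rfl | rfl <;> norm_num

theorem aux (p : ℕ) (h : 5 ≤ p) : p ^ 3 < 2 ^ (3 * p / 2 + 3 * p / 4 - 1) := by
  have h1 : ∀ p, 10 ≤ p → p < 2 ^ (p / 2) := fun p hp => by
    have := Nat.lt_two_pow_self (n := p / 2 - 2)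
    have h2 : 2 ^ (p / 2) = 4 * 2 ^ (p / 2 - 2) := by
      rw [show p / 2 = 2 + (p / 2 - 2) by omega, pow_add]; simp
    omega
  by_cases h10 : 10 ≤ p
  · calc p ^ 3 < (2 ^ (p / 2)) ^ 3 := Nat.pow_lt_pow_left (h1 p h10) (by norm_num)
      _ = 2 ^ (p / 2 * 3) := by rw [← pow_mul]
      _ ≤ _ := Nat.pow_le_pow_right (by norm_num) (by omega)
  · have : p < 10 := by omega
    interval_cases p <;> norm_num

/-- Let G be an alternating group of degree at least 5 or a simple group with the order of one of the 26 sporadic groups, and let p be an odd prime such that p³ is the exact power of p dividing the order of G. Then p³ is less than the 2-part of the order of G. -/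
theorem result {G : Type*} [Group G] [Finite G] (hG : Cfsg.IsAlternating G ∨ Cfsg.IsSporadic G)
    (p : ℕ) (hp : p.Prime) (hodd : p ≠ 2) (h3 : (Nat.card G).factorization p = 3) :
    p ^ 3 < 2 ^ (Nat.card G).factorization 2 := by
  rcases hG with ⟨n, hn, ⟨e⟩⟩ | hG
  · haveI : Nontrivial (Fin n) := Fin.nontrivial_iff_two_le.2 (by omega)
    have h1 := two_mul_nat_card_alternatingGroup (α := Fin n)
    rw [← Nat.card_congr e.toEquiv, Nat.card_perm, Nat.card_eq_fintype_card (α := Fin n),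
      Fintype.card_fin] at h1
    have h0 : Nat.card G ≠ 0 := Nat.card_pos.ne'
    have h2 := congrArg Nat.factorization h1
    rw [Nat.factorization_mul (by norm_num) h0, Nat.prime_two.factorization] at h2
    have h4 := DFunLike.congr_fun h2 2
    have h5 := DFunLike.congr_fun h2 p
    simp only [Finsupp.coe_add, Pi.add_apply, Finsupp.single_eq_same, Finsupp.single_eq_of_ne hodd,
      h3] at h4 h5
    haveI := Fact.mk hp
    haveI := Fact.mk Nat.prime_two
    rw [Small.factorization_factorial_div 2, Small.factorization_factorial_div 2,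
      Small.factorization_factorial_div 2] at h4
    rw [Small.factorization_factorial_div p, Small.factorization_factorial_div p] at h5
    have h6 : 3 ≤ n / p := by
      by_contra h
      have h7 : n / p < p := lt_of_lt_of_le (not_le.1 h) (by have := hp.two_le; omega)
      rw [Nat.div_eq_of_lt h7] at h5
      simp at h5
      omega
    have h7 := (Nat.le_div_iff_mul_le hp.pos).1 h6
    by_cases h8 : p = 3
    · subst h8
      omega
    · have h9 : 5 ≤ p := by
        have := hp.two_le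
        have : p ≠ 4 := by rintro rfl; norm_num at hp
        omega
      exact (aux p h9).trans_le (Nat.pow_le_pow_right (by norm_num) (by omega))
  · rcases hG with ⟨-, h⟩ | ⟨-, h⟩ | ⟨-, h⟩ | ⟨-, h⟩ | ⟨-, h⟩ | ⟨-, h⟩ | ⟨-, h⟩ | ⟨-, h⟩ | ⟨-, h⟩ |
      ⟨-, h⟩ | ⟨-, h⟩ | ⟨-, h⟩ | ⟨-, h⟩ | ⟨-, h⟩ | ⟨-, h⟩ | ⟨-, h⟩ | ⟨-, h⟩ | ⟨-, h⟩ | ⟨-, h⟩ |
      ⟨-, h⟩ | ⟨-, h⟩ | ⟨-, h⟩ | ⟨-, h⟩ | ⟨-, h⟩ | ⟨-, h⟩ | ⟨-, h⟩ <;> rw [h] at h3 ⊢ <;>
    first
    | exact spor (k := 18) hp hodd h3 (by norm_num) (by decide +kernel) _ 50 (by decide +kernel) hl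
        (by decide +kernel)
    | exact spor (k := 10) hp hodd h3 (by norm_num) (by decide +kernel) _ 50 (by decide +kernel) hl
        (by decide +kernel)
    | exact spor (k := 6) hp hodd h3 (by norm_num) (by decide +kernel) _ 50 (by decide +kernel) hl
        (by decide +kernel)
    | exact spor (k := 9) hp hodd h3 (by norm_num) (by decide +kernel) _ 50 (by decide +kernel) hl
        (by decide +kernel)
    | exact spor (k := 7) hp hodd h3 (by norm_num) (by decide +kernel) _ 50 (by decide +kernel) hl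
        (by decide +kernel)
    | exact spor (k := 12) hp hodd h3 (by norm_num) (by decide +kernel) _ 50 (by decide +kernel) hl
        (by decide +kernel)
    | exact spor (k := 3) hp hodd h3 (by norm_num) (by decide +kernel) _ 50 (by decide +kernel) hl
        (by decide +kernel)

end Cfsg.Agent.S2367
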