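import Cfsg.Statements.S2369
import Cfsg.Agent.Chev.InvRee

set_option autoImplicit false
open Cfsg

namespace Cfsg.Agent.S2369

open Cfsg.Agent.Chev Cfsg.Lie

/-- Let q = 2^(2m+1) with m ≥ 1 and let a, b be commuting elements of the large Ree group ²F₄(q) with a an involution. Then every prime divisor of the order of b divides q(q⁴ − 1). -/
theorem result {K : Type*} [Field K] [Fintype K] (m : ℕ) (hm : 1 ≤ m) (hK : Fintype.card K = 2 ^ (2 * m + 1))
    (a b : ↥(Cfsg.Lie.twistedF4 K (2 ^ m))) (ha : orderOf a = 2) (hab : Commute a b) :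
    (orderOf b).primeFactors ⊆ (2 ^ (2 * m + 1) * ((2 ^ (2 * m + 1)) ^ 4 - 1)).primeFactors := by
  rw [← Nat.card_eq_fintype_card] at hK
  obtain ⟨hp, φ, h1, h2⟩ := exists_sqrt_hom Nat.prime_two hK
  have := (CharP.charP_iff_prime_eq_zero Nat.prime_two).mpr hp
  have f := foldF4 hp h1 h2
  have c := Sys.adCover chevF4 K
  have e := fix_mapF4 hp h1 h2
  obtain ⟨y, h3, h4⟩ := e.ge a.2
  obtain ⟨L, h5, z, h6, h7⟩ := clsRee hp h1 (by rw [hK]; ring) y h3 (π_injective (zkerF4_eq_bot _) (by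
    rw [map_mul, h4, map_one, ← Subgroup.coe_mul, ← sq, orderOf_dvd_iff_pow_eq_one.mp ha.dvd]; rfl))
  replace h7 := congrArg (stCover _ K).π h7
  rw [Sys.map_w1, (stCover _ K).map_eq, map_mul, map_mul, map_inv, h4] at h7
  set w := (stCover _ K).π z
  have h8 : w * b * w⁻¹ ∈ twistedF4 K (2 ^ m) := mul_mem (mul_mem (e.le ⟨z, h6, rfl⟩) b.2) (inv_mem (e.le ⟨z, h6, rfl⟩))
  have h9 : w * b * w⁻¹ ∈ (adS chevF4 K).U Set.univ ⊓ Subgroup.centralizer {(adS chevF4 K).w1 L} :=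
    ⟨f.le h8, Subgroup.mem_centralizer_singleton_iff.mpr (h7 ▸ ((hab.map (Subgroup.subtype _)).conj w).eq.symm)⟩
  have hq : 1 < Nat.card K := Finite.one_lt_card
  have key : ∀ (i : Sm chevF4) (k : ℕ), wlen (symF4.w1 i) = k * 2 → k ∣ 2 → w * b * w⁻¹ ∈ (adS chevF4 K).P (symF4.orb i) →
      orderOf b ∣ (Nat.card K * (Nat.card K ^ 4 - 1)) ^ 12 := fun i k a1 a2 a3 => by
    have a4 := Subgroup.orderOf_dvd_natCard ((adS chevF4 K).P (symF4.orb i) ⊓ twistedF4 K (2 ^ m)) ⟨a3, h8⟩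
    rw [f.card_P c, card_UF4 hp h1 h2, card_HF4 hp h1 h2, pow_left_injective two_ne_zero
      ((card_UIF4 hp h1 h2 i).trans (by rw [a1, pow_mul])), ← MulAut.conj_apply, MulEquiv.orderOf_eq,
      Subgroup.orderOf_coe] at a4
    refine a4.trans ?_
    rw [mul_pow, mul_assoc, show 12 = 2 + 1 + 9 from rfl, pow_add (_ - 1), pow_add (_ - 1), pow_one]
    refine mul_dvd_mul_left _ ((mul_dvd_mul (pow_dvd_pow_of_dvd (by simpa using Nat.sub_dvd_pow_sub_pow _ 1 4) 2) ?_).mul_right _)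
    obtain rfl | rfl := (Nat.dvd_prime Nat.prime_two).mp a2
    exacts [⟨(Nat.card K - 1) * (Nat.card K ^ 2 + 1), by zify [hq.le, Nat.one_le_pow 4 _ (one_pos.trans hq)]; ring⟩,
      ⟨(Nat.card K - 1) * (Nat.card K + 1), by zify [hq.le, Nat.one_le_pow 4 _ (one_pos.trans hq)]; ring⟩]
  rw [← hK, ← Nat.primeFactors_pow (_ * _) (by decide : 12 ≠ 0)]
  refine Nat.primeFactors_mono ?_ (pow_ne_zero _ (mul_ne_zero (by omega) (Nat.sub_ne_zero_of_lt (Nat.one_lt_pow (by decide) hq))))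
  have a1 := centF4 c (adS_mult _ K)
  simp only [List.mem_cons, List.not_mem_nil, or_false] at h5
  rcases h5 with rfl | rfl | rfl
  · simp [show a = 1 by simpa [Sys.w1, mul_inv_eq_one] using h7] at ha
  · exact key _ 2 (wlen_w0 orbF4_1.1) dvd_rfl ((Sys.P_eq _ _).ge <| Subgroup.mem_sup_right (Sys.U_mono _ (fun r hr => by
      rw [symF4.orb_eq3 _ (by decide +kernel)]; revert r; decide +kernel) (a1.1.le h9)))
  · exact key _ 1 (wlen_w0 orbF4_0.1) (one_dvd _) ((Sys.P_eq _ _).ge <| Subgroup.mem_sup_right (Sys.U_mono _ (fun r hr => by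
      rw [symF4.orb_eq3 _ (by decide +kernel)]; revert r; decide +kernel) (a1.2.le h9)))

end Cfsg.Agent.S2369
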