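import Cfsg.Statements.S2370
import Cfsg.Agent.Chev.Syl
import Cfsg.Agent.Chev.TwF4

set_option autoImplicit false
open Cfsg

namespace Cfsg.Agent.S2370

open Cfsg.Agent.Chev Cfsg.Lie

/-- Let q = 2^(2m+1) with m ≥ 1. Every element of 2-power order of the large Ree group ²F₄(q) has order at most 32. -/
theorem result {K : Type*} [Field K] [Fintype K] (m : ℕ) (hm : 1 ≤ m) (hK : Fintype.card K = 2 ^ (2 * m + 1))
    (x : ↥(Cfsg.Lie.twistedF4 K (2 ^ m))) (hx : ∃ j : ℕ, orderOf x = 2 ^ j) : orderOf x ≤ 32 := by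
  obtain ⟨hp, φ, h1, h2⟩ := exists_sqrt_hom (F := K) Nat.prime_two (Nat.card_eq_fintype_card.trans hK)
  have := (CharP.charP_iff_prime_eq_zero Nat.prime_two).mpr hp
  have c := Sys.adCover chevF4 K
  obtain ⟨j, hj⟩ := hx
  obtain ⟨z, -, h3⟩ := c.exists_conj_UP (adS_mult _ K) 2 (fun y hy => (ChAut.mem_B_iff_norm (foldF4 hp h1 h2) c hy).mpr)
    (Subgroup.zpowers_le.mpr x.2) (.of_card ((Nat.card_zpowers _).trans ((Subgroup.orderOf_coe x).trans hj)))
  have h4 := fun {a y} => Sys.sq_mem_lvl (X := adS chevF4 K) (by exact_mod_cast hp) nilp_Pos (a := a) (y := y)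
  have h5 := h4 (h4 (h4 (h4 (Sys.U_mono _ nilp_Pos.lvl_one.ge (h3 _ (Subgroup.mem_zpowers _))))))
  rw [show lvl _ _ (_ + _) = ∅ from Set.eq_empty_of_forall_notMem fun r hr => (by decide +kernel : ∀ r : Rt chevF4,
    ht r < 16) r |>.not_ge (htF_rtv r ▸ hr.2), Sys.U_empty, Subgroup.mem_bot, ← pow_mul, ← pow_mul, ← pow_mul, conj_pow,
    mul_inv_eq_one, mul_eq_left] at h5
  exact (Nat.le_of_dvd (by decide) (orderOf_dvd_of_pow_eq_one (Subtype.ext h5))).trans (by decide)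

end Cfsg.Agent.S2370
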