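import Cfsg.Statements.S2371
import Cfsg.Agent.Chev.Torus
import Cfsg.Agent.Chev.CoxG2
import Cfsg.Agent.Chev.Zker

set_option autoImplicit false
open Cfsg

namespace Cfsg.Agent.S2371

open Cfsg.Agent.Chev Cfsg.Lie


theorem tor : TorOK chevG2 reflG2 (Sym.one chevG2).π [0, 1, 0, 1] (tab [[-1, -1], [-2, -1]])
    (tab [[1, -1], [-2, 1], [1, 0]]) (fun k => nth 0 [1, 1] k)
    (fun r k => (tbl 0x10000000000000000010000000000000101000000000000020100000000000001020000000000000301000000000000010300000000000003020000000000000203000000000000030300000000000004030000000000000304 k r : ℤ) - 2)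
    [⟨6, by decide⟩, ⟨7, by decide⟩] := by decide +kernel

/-- The group G₂(q), q ≥ 3, contains a cyclic subgroup of order q² + q + 1 which is its own centralizer. -/
theorem result {F : Type*} [Field F] [Fintype F] (q : ℕ) (hF : Fintype.card F = q) (hq : 3 ≤ q) :
    ∃ H : Subgroup ↥(Cfsg.Lie.chevG2.group F), IsCyclic ↥H ∧ Nat.card ↥H = q ^ 2 + q + 1 ∧
      Subgroup.centralizer (H : Set ↥(Cfsg.Lie.chevG2.group F)) = H := by
  obtain ⟨H, h1, h2, h3⟩ := (TwD.one_ok chevG2).exists_torus (Sym.one _) (fun _ => rfl) (hasRep_of_zker (zkerG2_eq_bot _)) 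
    ((stS_mult _ _).tor_injective (stCover _ _) (zkerG2_eq_bot _)) 
    ((stS_mult _ _).tor_injective (stCover _ _) (zkerG2_eq_bot _)) Nat.cast_zero
    (φ := RingHom.id F) (fun t => (hF ▸ FiniteField.pow_card t).symm) TwD.one_ord (by simp [hF]) (fun _ => rfl)
    isReflG2 tor (N := q ^ 2 + q + 1) (by change _ = _ ^ 2 + ∑ k : Fin 2, _; simp [Fin.sum_univ_succ, nth]; ring) (one_fix_map _ fun _ => rfl)
  rw [zkerG2_eq_bot, bot_inf_eq, Subgroup.card_bot, one_mul] at h2
  exact ⟨H, h1, h2, h3⟩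

end Cfsg.Agent.S2371
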