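import Cfsg.Statements.S2376
import Cfsg.Agent.Chev.Torus
import Cfsg.Agent.Chev.LangTw

set_option autoImplicit false
open Cfsg

namespace Cfsg.Agent.S2376

open Cfsg.Agent.Chev Cfsg.Lie


theorem tor : TorOK chevD4 reflD4 symD4.π [1] (tab [[0, 0, 1, 1], [1, 1, 1, 0], [1, 1, 0, 0], [0, 1, 1, 0]])
    (tab [[0, 1, 0, -1], [0, -1, 1, 1], [0, 1, -1, 0], [1, -1, 1, 0], [-1, 1, 0, 0]]) (fun k => nth 0 [-1, -1, 0, 1] k)
    (fun r k => (tbl 0x203030300000000030303020000000003020203000000000304020100000000030301020000000004030101000000000102040300000000010103040000000001030302000000000102020300000000020103030000000002030301000000000201010300000000020301010000000003020201000000000301010200000000030301000000000003020001000000000001030300000000010103020000000001000203000000000102020100000000010101020000000002010101 k r : ℤ) - 2)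
    [⟨12, by decide⟩, ⟨13, by decide⟩, ⟨14, by decide⟩, ⟨18, by decide⟩] := by decide +kernel

/-- The group ³D₄(q) contains a cyclic subgroup of order (q³ − 1)(q + 1) which is its own centralizer. -/
theorem result {K : Type*} [Field K] [Fintype K] (q : ℕ) (hq : IsPrimePow q) (hK : Fintype.card K = q ^ 3) :
    ∃ H : Subgroup ↥(Cfsg.Lie.twistedD4 K q), IsCyclic ↥H ∧ Nat.card ↥H = (q ^ 3 - 1) * (q + 1) ∧
      Subgroup.centralizer (H : Set ↥(Cfsg.Lie.twistedD4 K q)) = H := by
  obtain ⟨φ, h1, h2⟩ := exists_φD4 hq (Nat.card_eq_fintype_card.trans hK)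
  obtain ⟨H, h3, h4, h5⟩ := twD4_ok.exists_torus symD4 symD4_ρ (hasRepD4 _) (tor_injectiveD4 _) (tor_injectiveD4 _)
    Nat.cast_zero h1 ordD4 (Nat.card_eq_fintype_card.trans hK) (fun _ => rfl) isReflD4 tor (N := (q ^ 3 - 1) * (q + 1)) (by
      have := Nat.one_le_pow 3 q hq.pos
      change _ = _ ^ 4 + ∑ k : Fin 4, _; simp [Fin.sum_univ_succ, nth, this]; ring) (fix_mapD4 h1 h2)
  rw [zker_fixTD4, Subgroup.card_bot, one_mul] at h4
  exact ⟨H, h3, h4, h5⟩

end Cfsg.Agent.S2376
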