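import Cfsg.Statements.S2378
import Cfsg.Agent.Chev.InvOdd
import Cfsg.Agent.Chev.PoinB2
import Cfsg.Agent.Chev.PoinD4
import Cfsg.Agent.Chev.PoinE6
import Cfsg.Agent.Chev.PoinE7

set_option autoImplicit false
open Cfsg

namespace Cfsg.Agent.S2378

open Cfsg.Agent.Chev Cfsg.Lie

theorem local_zmod {r e : ℕ} (hr : r.Prime) (he : e ≠ 0) : IsLocalRing (ZMod (r ^ e)) := by
  have : Fact (1 < r ^ e) := ⟨Nat.one_lt_pow he hr.one_lt⟩
  refine .of_isUnit_or_isUnit_one_sub_self fun x => ?_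
  obtain ⟨n, rfl⟩ := ZMod.natCast_zmod_surjective x
  by_cases h : r ∣ n
  · exact .inr (IsNilpotent.isUnit_one_sub ⟨e, by rw [← Nat.cast_pow, ZMod.natCast_eq_zero_iff]; gcongr⟩)
  · exact .inl ((ZMod.isUnit_iff_coprime _ _).mpr (hr.coprime_pow_of_not_dvd h))

theorem free_fixed {R V : Type*} [CommRing R] [IsLocalRing R] [AddCommGroup V] [Module R V] [Module.Finite R V]
    [Module.Free R V] (φ : Module.End R V) {n : ℕ} (hn : IsUnit (n : R)) (h : φ ^ n = 1) :
    Module.Finite R (LinearMap.ker (φ - 1)) ∧ Module.Free R (LinearMap.ker (φ - 1)) := by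
  obtain ⟨u, hu⟩ := hn.exists_left_inv
  let s : V →ₗ[R] LinearMap.ker (φ - 1) := (u • ∑ i ∈ Finset.range n, φ ^ i).codRestrict _ fun v => by
    rw [LinearMap.mem_ker, ← Module.End.mul_apply, mul_smul_comm, mul_geom_sum, h]; simp
  have h1 : s.comp (Submodule.subtype _) = .id := LinearMap.ext fun v => Subtype.ext (by
    have h2 : ∀ i, (φ ^ i) v = v := fun i => (Module.End.pow_apply _ _ _).trans (Function.iterate_fixed (sub_eq_zero.mp v.2) i)
    simp [s, h2, ← Nat.cast_smul_eq_nsmul R, smul_smul, hu])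
  have := Module.Projective.of_split _ _ h1
  have := Module.Finite.of_surjective s fun v => ⟨v, congr($h1 v)⟩
  exact ⟨this, Module.free_of_flat_of_isLocalRing⟩

theorem exists_conj_of_index {G : Type*} [Group G] {r : ℕ} [Fact r.Prime] {P H : Subgroup G} (hP : IsPGroup r P)
    (h : ¬ r ∣ H.index) : ∃ z, ∀ s ∈ P, z * s * z⁻¹ ∈ H := by
  have := Nat.finite_of_card_ne_zero (α := G ⧸ H) fun e => h (e ▸ dvd_zero _ : r ∣ Nat.card _)
  obtain ⟨x, hx⟩ := hP.nonempty_fixed_point_of_prime_not_dvd_card (G ⧸ H) h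
  obtain ⟨z, rfl⟩ := QuotientGroup.mk_surjective x
  exact ⟨z⁻¹, fun s hs => by simpa [mul_assoc] using QuotientGroup.eq.mp (hx ⟨s, hs⟩).symm⟩

variable {D : ChevalleyDatum} [Good D]

theorem wz_cast (R : Type*) [CommRing R] (w : WG D) (v : Sm D → ℤ) :
    (∑ i, (LinearMap.proj i).smulRight fun j => (cov (w • sm i) j : R) : Module.End R (Sm D → R)) (fun i => v i) =
      fun j => (wc w v j : R) := funext fun j => by simp [wc_apply]

omit [Good D] in
theorem ext_cast {R : Type*} [CommRing R] {f g : Module.End R (Sm D → R)}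
    (h : ∀ v : Sm D → ℤ, f (fun i => v i) = g fun i => v i) : f = g := LinearMap.pi_ext' fun i => LinearMap.ext_ring (by
  convert h (Pi.single i 1) <;> exact congrArg _ (funext fun j => by simp [Pi.single_apply]))

/-- The action of the Weyl group on the coroot lattice with coefficients. -/
def wz (R : Type*) [CommRing R] : WG D →* Module.End R (Sm D → R) where
  toFun w := ∑ i, (LinearMap.proj i).smulRight fun j => (cov (w • sm i) j : R)
  map_one' := ext_cast fun v => by rw [wz_cast, wc_one]; rfl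
  map_mul' w w' := ext_cast fun v => by rw [Module.End.mul_apply, wz_cast, wz_cast, wz_cast, wc_mul]

theorem main [Conn D] {F K : Type*} [Field F] [Finite F] [Field K] [IsAlgClosed K] {p : ℕ} [Fact p.Prime] [CharP K p]
    (h : Big D K p) (ι : F →+* K) {N : ℕ} (hF : Nat.card F = p ^ N) {r d e : ℕ} [hr : Fact r.Prime] (hq : ¬ r ∣ Nat.card F)
    (hW : ¬ r ∣ Nat.card (WG D)) (hd : 0 < d) (hd' : ¬ r ∣ d) (he : e ≠ 0)
    (he' : ∀ j, r ^ j ∣ Nat.card F ^ d - 1 ↔ j ≤ e) (P : Sylow r (D.SteinbergGroup F)) :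
    ∃ a, ∃ f : (Fin a → Multiplicative (ZMod (r ^ e))) →* D.SteinbergGroup F,
      Function.Injective f ∧ Nat.card P ≤ (r ^ e) ^ a := by
  classical
  set q := Nat.card F
  set m := stS_mult D K
  have q1 : 1 < q := Finite.one_lt_card
  have N0 : 0 < N := Nat.pos_of_ne_zero (by rintro rfl; simp [hF] at q1)
  have a0 : q ^ d ≡ 1 [MOD r ^ e] := ((Nat.modEq_iff_dvd' (Nat.one_le_pow _ _ q1.le)).mpr ((he' e).mpr le_rfl)).symm
  obtain ⟨κ, hκ⟩ := h.exists_level (mul_pos N0 hd)
  have a1 : Nat.card (GaloisField p (N * d)) = q ^ d := by rw [GaloisField.card _ _ (by positivity), hF, pow_mul]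
  have := finite_st (D := D) (F := GaloisField p (N * d))
  have := finite_st (D := D) (F := F)
  have a2 := (stCover D (GaloisField p (N * d))).card_grp
  rw [stS_U_univ, Subgroup.card_top, ← (stS D _).H.card_mul_index, mul_comm (_ ^ _), mul_assoc,
    mul_right_inj' Nat.card_pos.ne', a1] at a2
  obtain ⟨z, hz⟩ := exists_conj_of_index (r := r) (H := (stS D _).H)
    ((P.2.map (stMap D ι)).comap_of_injective _ (stMap_injective h.inj κ)) (by
      rw [a2]
      refine hr.out.not_dvd_mul (fun e => hq (hr.out.dvd_of_dvd_pow (hr.out.dvd_of_dvd_pow e))) fun e => hW ?_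
      rw [card_WG]
      exact (Nat.ModEq.dvd_iff (Nat.ModEq.sum fun _ _ => (a0.of_dvd (dvd_pow_self r he)).pow _) dvd_rfl).mp e)
  obtain ⟨w, hw⟩ := exists_wt h.inj N (stMap D κ z)
  obtain ⟨n, -, hn⟩ := (stS D K).exists_mem_N w
  obtain ⟨x, hx⟩ := h.exists_twist' ι hF n
  have : NeZero ((r ^ e : ℕ) : K) := ⟨by
    rw [Ne, CharP.cast_eq_zero_iff K p]
    exact fun e => hq (by rw [hF, (Nat.prime_dvd_prime_iff_eq Fact.out hr.out).mp (Nat.Prime.dvd_of_dvd_pow Fact.out e)]
                          exact dvd_pow_self _ N0.ne')⟩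
  have : NeZero (r ^ e) := .of_neZero_natCast K
  obtain ⟨ζ, hζ⟩ := HasEnoughRootsOfUnity.exists_primitiveRoot K (r ^ e)
  lift ζ to Kˣ using hζ.isUnit (NeZero.ne _)
  rw [IsPrimitiveRoot.coe_units_iff] at hζ
  let η := ZMod.lift (r ^ e) ⟨zmultiplesHom _ (Additive.ofMul ζ), congrArg Additive.ofMul (by exact_mod_cast hζ.pow_eq_one)⟩
  let θ : Multiplicative (Sm D → ZMod (r ^ e)) →* (Sm D → Kˣ) := .mk' (fun v i => (η (v.toAdd i)).toMul) fun _ _ => by
    ext; simp
  have b1 : ∀ v : Sm D → ℤ, θ (.ofAdd fun i => v i) = fun i => ζ ^ v i := fun v => by ext; simp [θ, η]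
  have b2 : ∀ u : Sm D → ZMod (r ^ e), ∃ v : Sm D → ℤ, u = fun i => (v i : ZMod _) := fun u =>
    ⟨fun i => (u i).cast, by simp⟩
  have b3 : Function.Injective θ := (injective_iff_map_eq_one _).mpr fun u hu => by
    obtain ⟨v, rfl⟩ := (b2 u.toAdd).imp fun _ => Equiv.symm_apply_eq _ |>.mp
    exact funext fun i => (ZMod.intCast_zmod_eq_zero_iff_dvd _ _).mpr
      ((hζ.zpow_eq_one_iff_dvd _).mp (congrFun ((b1 v).symm.trans hu) i))
  let φ : Module.End (ZMod (r ^ e)) (Sm D → ZMod (r ^ e)) := (q : ZMod (r ^ e)) ^ (d - 1) • wz _ w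
  have b4 : (q : ZMod (r ^ e)) ^ d = 1 := by simpa using (ZMod.natCast_eq_natCast_iff _ _ _).mpr a0
  have b5 : ∀ u, u ∈ LinearMap.ker (φ - 1) ↔ wt w (θ (.ofAdd u)) = θ (.ofAdd u) ^ q := fun u => by
    obtain ⟨v, rfl⟩ := b2 u
    rw [b1, wt_zpow, ← b1, ← b1, ← map_pow, b3.eq_iff, ← ofAdd_nsmul, EmbeddingLike.apply_eq_iff_eq, ← wz_cast,
      LinearMap.mem_ker, LinearMap.sub_apply, sub_eq_zero, ← Nat.cast_smul_eq_nsmul (ZMod (r ^ e))]
    change (_ : ZMod (r ^ e)) • wz (ZMod (r ^ e)) w _ = _ ↔ wz (ZMod (r ^ e)) w _ = _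
    refine ⟨fun e' => ?_, fun e => by rw [e, smul_smul, ← pow_succ, Nat.sub_add_cancel hd, b4, one_smul]; rfl⟩
    rw [← one_smul (ZMod (r ^ e)) (wz _ w _), ← b4, ← Nat.sub_add_cancel hd, pow_succ', mul_smul, e']; rfl
  have := local_zmod hr.out he
  obtain ⟨_, _⟩ := free_fixed φ (n := d * Nat.card (WG D))
    ((ZMod.isUnit_iff_coprime _ _).mpr (hr.out.coprime_pow_of_not_dvd (hr.out.not_dvd_mul hd' hW))) (by
      rw [smul_pow, ← map_pow, pow_mul' w, pow_card_eq_one', ← pow_mul, mul_left_comm, pow_mul, b4]; simp)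
  let β := (Module.finBasis (ZMod (r ^ e)) (LinearMap.ker (φ - 1))).equivFun.symm
  let γ := ((Submodule.subtype _).toAddMonoidHom.comp β.toAddEquiv.toAddMonoidHom).toMultiplicative.comp
    (MulEquiv.funMultiplicative _ _).symm.toMonoidHom
  let f := (MulAut.conj x).toMonoidHom.comp (m.tor.comp (θ.comp γ))
  have b6 : ∀ v, f v ∈ (stMap D ι).range := fun v => (hx (m.tor (θ (γ v)))).mp ((m.conj_wt hn _).trans
    ((congrArg _ (((b5 (γ v).toAdd).mp (β _).2).trans (by rw [hF]; rfl))).trans (fr_tor _ _).symm))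
  refine ⟨_, (MonoidHom.ofInjective (stMap_injective h.inj ι)).symm.toMonoidHom.comp (f.codRestrict _ b6),
    fun a b e => (MulEquiv.funMultiplicative _ _).symm.injective (β.injective (Subtype.ext (b3 (h.inj
      ((MulAut.conj x).injective (congrArg Subtype.val ((MonoidHom.ofInjective
        (stMap_injective h.inj ι)).symm.injective e) :)))))), ?_⟩
  have b7 : ∀ s : P, ∃ u : LinearMap.ker (φ - 1), stMap D κ z * stMap D ι s * (stMap D κ z)⁻¹ = m.tor (θ (.ofAdd u)) := by
    intro s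
    have c1 := (h.fr_iff ι hF _).mpr ⟨s, rfl⟩
    obtain ⟨s', c2⟩ := (hκ _).mp (fr_of_dvd (dvd_mul_right N d) c1)
    obtain ⟨a, c3⟩ := (stS_mult D _).exists_tor (hz s' ⟨s, s.2, c2.symm⟩)
    have c4 := congrArg (stMap D κ) c3
    rw [map_mul, map_mul, map_inv, c2, stMap_tor] at c4
    obtain ⟨k, hk⟩ := P.2 s
    obtain ⟨j, -, c5⟩ := (Nat.dvd_prime_pow hr.out).mp (orderOf_dvd_of_pow_eq_one (x := a) (n := r ^ k)
      (tor_injective_of κ h.inj (stMap_injective h.inj κ (by
        rw [map_pow, ← c3, map_pow, map_mul, map_mul, map_inv, c2, conj_pow, ← map_pow, ← Subgroup.coe_pow, hk]; simp))))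
    have c6 : a ^ r ^ e = 1 := orderOf_dvd_iff_pow_eq_one.mp (c5 ▸ pow_dvd_pow _ ((he' j).mp (c5 ▸ orderOf_dvd_of_pow_eq_one
      (funext fun i => by rw [← a1, ← Nat.card_units]; exact pow_card_eq_one'))))
    choose v hv using fun i => hζ.eq_pow_of_mem_rootsOfUnity (ξ := Units.map (κ : _ →* K) (a i))
      (by rw [mem_rootsOfUnity, ← map_pow, ← Pi.pow_apply, c6]; simp)
    have c7 : (fun i => Units.map (κ : _ →* K) (a i)) = θ (.ofAdd fun i => (v i : ℤ)) := by
      rw [b1]; exact funext fun i => by simp [(hv i).2]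
    exact ⟨⟨_, (b5 _).mpr (by rw [← c7, hF]; exact hw _ _ c1 c4)⟩, c7 ▸ c4⟩
  choose u hu using b7
  refine (Nat.card_le_card_of_injective u fun s t e => Subtype.ext (stMap_injective h.inj ι ?_)).trans_eq ?_
  · exact mul_left_cancel (mul_right_cancel ((hu s).trans (e ▸ (hu t).symm)))
  · rw [← Nat.card_congr β.toEquiv]; simp

theorem val_prod {q r : ℕ} [hr : Fact r.Prime] (h2 : Odd r) (hq : ¬ r ∣ q) (q1 : 1 < q) (L : List ℕ) (hL : ¬ r ∣ L.prod) :
    (L.map (q ^ · - 1)).prod ≠ 0 ∧ padicValNat r (L.map (q ^ · - 1)).prod =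
      padicValNat r (q ^ orderOf (q : ZMod r) - 1) * (L.filter (orderOf (q : ZMod r) ∣ ·)).length := by
  have h1 : ∀ k, r ∣ q ^ k - 1 ↔ orderOf (q : ZMod r) ∣ k := fun k => by
    rw [orderOf_dvd_iff_pow_eq_one, ← Nat.modEq_iff_dvd' (Nat.one_le_pow _ _ q1.le), ← ZMod.natCast_eq_natCast_iff, eq_comm]
    simp
  induction L with
  | nil => simp
  | cons k L ih =>
    rw [List.prod_cons] at hL
    obtain ⟨h3, h4⟩ := ih fun e => hL (e.mul_left _)
    have h5 : k ≠ 0 := by rintro rfl; simp at hL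
    have h6 : q ^ k - 1 ≠ 0 := (Nat.sub_pos_of_lt (Nat.one_lt_pow h5 q1)).ne'
    rw [List.map_cons, List.prod_cons, padicValNat.mul h6 h3, h4, List.filter_cons]
    refine ⟨mul_ne_zero h6 h3, ?_⟩
    split_ifs with e
    · obtain ⟨c, rfl⟩ := of_decide_eq_true e
      rw [pow_mul, ← one_pow c, padicValNat.pow_sub_pow h2 (Nat.one_lt_pow (left_ne_zero_of_mul h5) q1) ((h1 _).mpr dvd_rfl)
        (fun e => hq (hr.out.dvd_of_dvd_pow e)) (right_ne_zero_of_mul h5),
        padicValNat.eq_zero_of_not_dvd fun e : r ∣ c => hL ((e.mul_left _).mul_right _), List.length_cons]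
      simp [mul_add, add_comm]
    · rw [padicValNat.eq_zero_of_not_dvd fun e' => e (decide_eq_true ((h1 _).mp e')), zero_add]

theorem val_cyc {q r : ℕ} [hr : Fact r.Prime] (q1 : 1 < q) (hd : 0 < orderOf (q : ZMod r)) :
    padicValNat r ((Polynomial.cyclotomic (orderOf (q : ZMod r)) ℤ).eval (q : ℤ)).natAbs =
      padicValNat r (q ^ orderOf (q : ZMod r) - 1) := by
  set d := orderOf (q : ZMod r)
  have h1 := congrArg (fun f => (f.eval (q : ℤ)).natAbs) (Polynomial.prod_cyclotomic_eq_X_pow_sub_one hd ℤ)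
  simp only [← Nat.cons_self_properDivisors hd.ne', Finset.prod_cons, Polynomial.eval_mul, Int.natAbs_mul] at h1
  have h2 : ((Polynomial.X ^ d - 1 : Polynomial ℤ).eval (q : ℤ)).natAbs = q ^ d - 1 := by
    zify [Nat.one_le_pow d _ q1.le]
    simpa using one_le_pow₀ (M₀ := ℤ) (by exact_mod_cast q1.le)
  have h3 := (Nat.sub_pos_of_lt (Nat.one_lt_pow hd.ne' q1)).ne'
  rw [← h2, ← h1] at h3 ⊢
  rw [padicValNat.mul (left_ne_zero_of_mul h3) (right_ne_zero_of_mul h3), eq_comm, add_eq_left]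
  refine padicValNat.eq_zero_of_not_dvd fun e => ?_
  rw [← Int.natCast_dvd, Polynomial.eval_prod, (Nat.prime_iff_prime_int.mp hr.out).dvd_finsetProd_iff] at e
  obtain ⟨k, h4, h5⟩ := e
  have h6 := (ZMod.intCast_zmod_eq_zero_iff_dvd _ _).mpr
    (h5.trans (Polynomial.eval_dvd (Polynomial.cyclotomic.dvd_X_pow_sub_one k ℤ)))
  exact (Nat.mem_properDivisors.mp h4).2.not_ge (Nat.le_of_dvd (Nat.pos_of_mem_properDivisors h4)
    (orderOf_dvd_of_pow_eq_one (by simpa [sub_eq_zero] using h6)))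

theorem final [Conn D] {F : Type*} [Field F] [Finite F] (h : ∀ p [CharP F p], Big D (AlgebraicClosure F) p) {L : List ℕ}
    (hP : ∀ t : ℕ, ((t : ℤ) - 1) ^ D.rank * poin (Sym.one D) Set.univ t = (L.map ((t : ℤ) ^ · - 1)).prod)
    (hW : Nat.card (WG D) = L.prod) (hZ : Nat.card (zker D F) ∣ L.prod) (h2 : 2 ∣ L.prod) {r : ℕ} [hr : Fact r.Prime]
    (hq : ¬ r ∣ Nat.card F) (hL : ¬ r ∣ L.prod) (P : Sylow r (D.group F)) :
    Nonempty (P ≃* (Fin (L.filter (orderOf (Nat.card F : ZMod r) ∣ ·)).length → Multiplicative (ZMod (r ^ padicValNat r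
      ((Polynomial.cyclotomic (orderOf (Nat.card F : ZMod r)) ℤ).eval (Nat.card F : ℤ)).natAbs)))) := by
  obtain ⟨p, N, _, _, hN⟩ := exists_char F
  have q1 : 1 < Nat.card F := Finite.one_lt_card
  have a1 : orderOf (Nat.card F : ZMod r) ∣ r - 1 :=
    orderOf_dvd_of_pow_eq_one (ZMod.pow_card_sub_one_eq_one (mt (ZMod.natCast_eq_zero_iff _ _).mp hq))
  have a2 := Nat.sub_pos_of_lt hr.out.one_lt
  have a3 := Nat.pos_of_dvd_of_pos a1 a2
  obtain ⟨a4, a5⟩ := val_prod (hr.out.odd_of_ne_two (by rintro rfl; exact hL h2)) hq q1 L hL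
  rw [val_cyc q1 a3]
  have a6 := (Nat.sub_pos_of_lt (Nat.one_lt_pow a3.ne' q1)).ne'
  set e := padicValNat r (Nat.card F ^ orderOf (Nat.card F : ZMod r) - 1)
  have a7 : e ≠ 0 := (dvd_iff_padicValNat_ne_zero a6).mp ((Nat.modEq_iff_dvd' (Nat.one_le_pow _ _ q1.le)).mp
    ((ZMod.natCast_eq_natCast_iff _ _ _).mp (by simp [pow_orderOf_eq_one])))
  have := finite_st (D := D) (F := F)
  have a8 : Function.Surjective (grS_mult D F).lift :=
    Sys.surjective_of_map (X := stS D F) (grS_U_univ D F) (grS_mult D F).lift_stGen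
  have := Finite.of_surjective _ a8
  obtain ⟨Q⟩ : Nonempty (Sylow r (D.SteinbergGroup F)) := inferInstance
  obtain ⟨a, f, b1, b2⟩ := main (h p) (algebraMap F _) hN hq (hW ▸ hL) a3
    (fun e => absurd (Nat.le_of_dvd a2 (e.trans a1)) (by omega)) a7 (fun j => padicValNat_dvd_iff_le a6) Q
  have b3 : Nat.card P = (r ^ e) ^ (L.filter (orderOf (Nat.card F : ZMod r) ∣ ·)).length := by
    have c1 : Nat.card (zker D F) * Nat.card (D.group F) = Nat.card F ^ (D.nroots / 2) * (L.map (Nat.card F ^ · - 1)).prod := by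
      zify
      rw [card_group, hP, List.map_map]
      exact congrArg _ (congrArg _ (List.map_congr_left fun k _ => by simp [Nat.one_le_pow _ _ q1.le]))
    apply_fun padicValNat r at c1
    rw [padicValNat.mul Nat.card_pos.ne' Nat.card_pos.ne', padicValNat.mul (by positivity) a4, a5,
      padicValNat.eq_zero_of_not_dvd fun e => hL (e.trans hZ),
      padicValNat.eq_zero_of_not_dvd fun e => hq (hr.out.dvd_of_dvd_pow e), zero_add, zero_add] at c1
    rw [P.card_eq_multiplicity, Nat.factorization_def _ hr.out, c1, pow_mul]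
  have b4 : IsPGroup r (Fin a → Multiplicative (ZMod (r ^ e))) := .of_card (n := e * a) (by simp [pow_mul])
  have b5 : Function.Injective ((grS_mult D F).lift.comp f) := (injective_iff_map_eq_one _).mpr fun y hy => by
    have := ((stCover D F).mem_center_iff (stS_U_univ D F)).mpr ((coe_lift _).symm.trans (congrArg Subtype.val hy))
    rw [(stS_mult D F).center_eq (stCover D F) (stS_U_univ D F)] at this
    obtain ⟨z, hz, e1⟩ := this
    obtain ⟨k, hk⟩ := b4 y
    refine b1 ((orderOf_eq_one_iff.mp (Nat.eq_one_of_dvd_coprimes (hr.out.coprime_pow_of_not_dvd (m := k) hL)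
      ((orderOf_dvd_of_pow_eq_one ?_).trans hZ) (orderOf_dvd_of_pow_eq_one (by rw [← map_pow, hk, map_one])))).trans
      (map_one f).symm)
    rw [← e1, ← map_pow, show z ^ _ = 1 from congrArg Subtype.val (pow_card_eq_one' (x := (⟨z, hz⟩ : zker D F))), map_one]
  obtain ⟨R, hR⟩ := (b4.of_equiv (MonoidHom.ofInjective b5)).exists_le_sylow
  have b6 : Nat.card ((grS_mult D F).lift.comp f).range = (r ^ e) ^ a := by
    rw [← Nat.card_congr (MonoidHom.ofInjective b5).toEquiv]; simp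
  have b7 : Nat.card R ≤ (r ^ e) ^ a := by
    rw [Nat.card_congr (R.equiv (Q.mapSurjective a8)).toEquiv]
    exact (Nat.le_of_dvd Nat.card_pos (Subgroup.card_map_dvd _ _)).trans b2
  have b8 := Subgroup.eq_of_le_of_card_ge hR (b6 ▸ b7)
  obtain rfl := Nat.pow_right_injective (Nat.one_lt_pow a7 hr.out.one_lt)
    (b6.symm.trans (b8 ▸ (Nat.card_congr (R.equiv P).toEquiv).trans b3) :)
  exact ⟨(P.equiv R).trans ((MulEquiv.subgroupCongr b8.symm).trans (MonoidHom.ofInjective b5).symm)⟩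

/-- Sylow subgroups for primes away from the characteristic and the Weyl group. Let `G` be the Chevalley group of type G₂, B₂, D₄, F₄, E₆, E₇ or E₈ over a field with `q` elements, with the degrees of its Weyl group listed beside the type (their product is the order of the Weyl group), and let `r` be a prime dividing the order of `G`, not dividing `q` and not dividing the order of the Weyl group. Let `d` be the multiplicative order of `q` modulo `r`, `a` the number of degrees divisible by `d`, and `m` the `r`-part of the value at `q` of the `d`-th cyclotomic polynomial. Then every Sylow `r`-subgroup of `G` is homocyclic: a direct product of `a` cyclic groups of order `m` (in particular abelian). -/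
theorem result {F : Type*} [Field F] [Fintype F] {q : ℕ} (hq : Fintype.card F = q)
    (c : Cfsg.Lie.ChevalleyDatum × List ℕ)
    (hc : c ∈ [(Cfsg.Lie.chevG2, [2, 6]), (Cfsg.Lie.chevB2, [2, 4]), (Cfsg.Lie.chevD4, [2, 4, 4, 6]), (Cfsg.Lie.chevF4, [2, 6, 8, 12]),
      (Cfsg.Lie.chevE6, [2, 5, 6, 8, 9, 12]), (Cfsg.Lie.chevE7, [2, 6, 8, 10, 12, 14, 18]), (Cfsg.Lie.chevE8, [2, 8, 12, 14, 18, 20, 24, 30])])
    (r : ℕ) [Fact r.Prime] (hrq : ¬ r ∣ q) (hrW : ¬ r ∣ c.2.prod) (hrG : r ∣ Nat.card ↥(c.1.group F)) (P : Sylow r ↥(c.1.group F)) :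
    Nonempty (↥(P : Subgroup ↥(c.1.group F)) ≃*
      (Fin (c.2.filter (fun e => orderOf (q : ZMod r) ∣ e)).length →
        Multiplicative (ZMod (r ^ padicValNat r ((Polynomial.cyclotomic (orderOf (q : ZMod r)) ℤ).eval (q : ℤ)).natAbs)))) := by
  obtain rfl := Nat.card_eq_fintype_card.trans hq
  simp only [List.mem_cons, List.not_mem_nil, or_false] at hc
  have h := fun k => Nat.gcd_dvd_left k (Nat.card F - 1)
  rcases hc with rfl | rfl | rfl | rfl | rfl | rfl | rfl
  · exact final (fun p _ => bigG2 F p) (fun t => (poinG2 t).trans (by simp)) (card_WGG2.trans (by norm_num)) (by simp [zkerG2_eq_bot]) (by decide) hrq hrW P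
  · exact final (fun p _ => bigB2 F p) (fun t => (poinB2 t).trans (by simp)) (card_WGB2.trans (by norm_num))
      (card_zkerB2 F ▸ (h 2).trans (by decide)) (by decide) hrq hrW P
  · exact final (fun p _ => bigD4 F p) (fun t => (poinD4 t).trans (by simp; ring)) (card_WGD4.trans (by norm_num))
      (card_zkerD4 F ▸ (pow_dvd_pow_of_dvd (h 2) 2).trans (by decide)) (by decide) hrq hrW P
  · exact final (fun p _ => bigF4 F p) (fun t => (poinF4 t).trans (by simp [mul_assoc])) (card_WGF4.trans (by norm_num))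
      (by simp [zkerF4_eq_bot]) (by decide) hrq hrW P
  · exact final (fun p _ => bigE6 F p) (fun t => (poinE6 t).trans (by simp [mul_assoc])) (card_WGE6.trans (by norm_num))
      (card_zkerE6 F ▸ (h 3).trans (by decide)) (by decide) hrq hrW P
  · exact final (fun p _ => bigE7 F p) (fun t => (poinE7 t).trans (by simp [mul_assoc])) (card_WGE7.trans (by norm_num))
      (card_zkerE7 F ▸ (h 2).trans (by decide)) (by decide) hrq hrW P
  · exact final (fun p _ => bigE8 F p) (fun t => (poinE8 t).trans (by simp [mul_assoc])) (card_WGE8.trans (by norm_num))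
      (by simp [zkerE8_eq_bot]) (by decide) hrq hrW P

end Cfsg.Agent.S2378
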