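import Cfsg.Statements.S2379
import Cfsg.Agent.Classical.HomoCyc

set_option autoImplicit false
open Cfsg

namespace Cfsg.Agent.S2379

open Cfsg.Agent.Classical Cfsg.Agent.Classical.HC

/-- Sylow subgroups of `SL_n(q)` for large primes. Let `F` be a field with `q` elements and `r` a prime with `r > n` and `r ∤ q` (so `r` does not divide the order `n!` of the Weyl group). Let `d` be the multiplicative order of `q` modulo `r`, `a` the number of integers `i` with `2 ≤ i ≤ n` divisible by `d` (the degrees of the Weyl group are `2, …, n`), and `m` the `r`-part of the value at `q` of the `d`-th cyclotomic polynomial. Then every Sylow `r`-subgroup of `SL_n(q)` is a direct product of `a` cyclic groups of order `m`. -/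
theorem result {F : Type*} [Field F] [Fintype F] {q : ℕ} (hq : Fintype.card F = q) (n : ℕ)
    (r : ℕ) [Fact r.Prime] (hrn : n < r) (hrq : ¬ r ∣ q) (P : Sylow r (Matrix.SpecialLinearGroup (Fin n) F)) :
    Nonempty (↥(P : Subgroup (Matrix.SpecialLinearGroup (Fin n) F)) ≃*
      (Fin ((Finset.Icc 2 n).filter (fun i => orderOf (q : ZMod r) ∣ i)).card →
        Multiplicative (ZMod (r ^ padicValNat r ((Polynomial.cyclotomic (orderOf (q : ZMod r)) ℤ).eval (q : ℤ)).natAbs)))) := by
  obtain rfl : Nat.card F = q := Nat.card_eq_fintype_card.trans hq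
  have h1 : 1 < Nat.card F := Finite.one_lt_card
  rw [val_Phi h1 hrq, card_filter_Icc]
  rcases n with _ | n
  · exact Hc.zero.sylow (by simp) P
  refine (hc_SL hrq n).sylow ?_ P
  have h2 := card_SL_mul (F := F) (n + 1) n.succ_pos
  rw [prod_GL, Finset.prod_range_succ', zero_add, pow_one, ← mul_assoc, mul_comm] at h2
  rw [Nat.eq_of_mul_eq_mul_right (Nat.sub_pos_of_lt h1) h2, val_prod_sub h1 hrq _ _
    (fun i hi => Nat.not_dvd_of_pos_of_lt (i + 1).succ_pos (by have := Finset.mem_range.1 hi; omega))
    (fun i hi h => by have := Finset.mem_range.1 hi; omega)]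

end Cfsg.Agent.S2379
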