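import Cfsg.Statements.S2380
import Cfsg.Agent.Classical.HomoCyc

set_option autoImplicit false
open scoped MatrixGroups
open Cfsg

namespace Cfsg.Agent.S2380

open Cfsg.Agent.Classical Cfsg.Agent.Classical.HC

/-- Sylow subgroups of `GL_n(q)` for large primes. Let `F` be a field with `q` elements and `r` a prime with `r > n` and `r ∤ q`. Let `d` be the multiplicative order of `q` modulo `r` and `m` the `r`-part of the value at `q` of the `d`-th cyclotomic polynomial. Then every Sylow `r`-subgroup of `GL_n(q)` is a direct product of `⌊n/d⌋` cyclic groups of order `m` (the degrees of the Weyl group being `1, …, n`). -/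
theorem result {F : Type*} [Field F] [Fintype F] {q : ℕ} (hq : Fintype.card F = q) (n : ℕ)
    (r : ℕ) [Fact r.Prime] (hrn : n < r) (hrq : ¬ r ∣ q) (P : Sylow r (GL (Fin n) F)) :
    Nonempty (↥(P : Subgroup (GL (Fin n) F)) ≃*
      (Fin (n / orderOf (q : ZMod r)) →
        Multiplicative (ZMod (r ^ padicValNat r ((Polynomial.cyclotomic (orderOf (q : ZMod r)) ℤ).eval (q : ℤ)).natAbs)))) := by
  obtain rfl : Nat.card F = q := Nat.card_eq_fintype_card.trans hq
  have h1 : 1 < Nat.card F := Finite.one_lt_card
  rw [val_Phi h1 hrq]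
  refine (hc_GL hrq n).sylow ?_ P
  rw [card_GL_fin, prod_GL, val_prod_sub h1 hrq _ _ (fun i hi => Nat.not_dvd_of_pos_of_lt i.succ_pos
    (by have := Finset.mem_range.1 hi; omega)) (fun i hi h => by have := Finset.mem_range.1 hi; omega),
    Nat.card_multiples]

end Cfsg.Agent.S2380
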