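import Cfsg.Statements.S2381
import Cfsg.Agent.Classical.HomoCyc

set_option autoImplicit false
open Cfsg

namespace Cfsg.Agent.S2381

open Cfsg.Agent.Classical Cfsg.Agent.Classical.HC

/-- Sylow subgroups of `Sp_{2n}(q)` for large primes. Let `F` be a field with `q` elements and `r` an odd prime with `r > n` and `r ∤ q` (so `r` does not divide the order `2^n n!` of the Weyl group). Let `d` be the multiplicative order of `q` modulo `r`, `a` the number of `i` with `1 ≤ i ≤ n` and `d ∣ 2i` (the degrees being `2, 4, …, 2n`), and `m` the `r`-part of the value at `q` of the `d`-th cyclotomic polynomial. Then every Sylow `r`-subgroup of the symplectic group `Sp_{2n}(q)` is a direct product of `a` cyclic groups of order `m`. -/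
theorem result {F : Type*} [Field F] [Fintype F] {q : ℕ} (hq : Fintype.card F = q) (n : ℕ)
    (r : ℕ) [Fact r.Prime] (hr2 : r ≠ 2) (hrn : n < r) (hrq : ¬ r ∣ q) (P : Sylow r ↥(Matrix.symplecticGroup (Fin n) F)) :
    Nonempty (↥(P : Subgroup ↥(Matrix.symplecticGroup (Fin n) F)) ≃*
      (Fin ((Finset.Icc 1 n).filter (fun i => orderOf (q : ZMod r) ∣ 2 * i)).card →
        Multiplicative (ZMod (r ^ padicValNat r ((Polynomial.cyclotomic (orderOf (q : ZMod r)) ℤ).eval (q : ℤ)).natAbs)))) := by
  obtain rfl : Nat.card F = q := Nat.card_eq_fintype_card.trans hq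
  have h1 : 1 < Nat.card F := Finite.one_lt_card
  have hr : r.Prime := Fact.out
  rw [val_Phi h1 hrq, card_filter_Icc, Nat.add_sub_cancel]
  refine (hc_Sp hr2 hrq n).sylow ?_ P
  rw [card_sp, val_prod_sub h1 hrq _ _ (fun i hi h => (hr.dvd_mul.1 h).elim
    (fun h => hr2 ((Nat.prime_dvd_prime_iff_eq hr Nat.prime_two).1 h)) (Nat.not_dvd_of_pos_of_lt
      i.succ_pos (by have := Finset.mem_range.1 hi; omega))) (fun _ _ h => (hr2 h).elim)]

end Cfsg.Agent.S2381
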