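import Cfsg.Statements.S2383
import Cfsg.Agent.Mult.CR3
import Cfsg.Agent.Chev.AllC
import Cfsg.Agent.Chev.Zker

set_option autoImplicit false
open Cfsg

namespace Cfsg.Agent.S2383

/-- Steinberg's count of semisimple classes in characteristic 2 for the types B₂, D₄, E₇, where the finite simply connected group has trivial centre and so coincides with the Chevalley group: for the Chevalley group of type B₂, D₄ or E₇ over a field with `q` elements of characteristic 2, the conjugacy classes of elements of odd order number exactly `q^l`, `l` the rank. -/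
theorem result {F : Type*} [Field F] [Fintype F] {q : ℕ} (hq : Fintype.card F = q) [CharP F 2]
    (D : Cfsg.Lie.ChevalleyDatum) (hD : D ∈ [Cfsg.Lie.chevB2, Cfsg.Lie.chevD4, Cfsg.Lie.chevE7]) :
    Nat.card {c : ConjClasses ↥(D.group F) // ∃ g : ↥(D.group F), ConjClasses.mk g = c ∧ Odd (orderOf g)} = q ^ D.rank := by
  have h : Nat.gcd 2 (Nat.card F - 1) = 1 := by
    obtain ⟨n, -, h⟩ := FiniteField.card F 2
    rw [Nat.card_eq_fintype_card, h, ← Nat.coprime_iff_gcd_eq_one, Nat.coprime_two_left]
    exact Nat.Even.sub_odd (Nat.one_le_two_pow) (Nat.even_pow.mpr ⟨even_two, n.2.ne'⟩) odd_one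
  simp only [List.mem_cons, List.not_mem_nil, or_false, ← Nat.coprime_two_right] at hD ⊢
  rw [← hq, ← Nat.card_eq_fintype_card (α := F)]
  rcases hD with rfl | rfl | rfl
  · exact (Mult.grFull _ F).card_reg 2 ((Mult.grFull _ F).tor_injective
      (Subgroup.card_eq_one.mp (by rw [Chev.card_zkerB2, h])))
  · exact (Mult.grFull _ F).card_reg 2 ((Mult.grFull _ F).tor_injective
      (Subgroup.card_eq_one.mp (by rw [Chev.card_zkerD4, h, one_pow])))
  · exact (Mult.grFull _ F).card_reg 2 ((Mult.grFull _ F).tor_injective
      (Subgroup.card_eq_one.mp (by rw [Chev.card_zkerE7, h])))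

end Cfsg.Agent.S2383
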