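import Cfsg.Statements.S2389
import Cfsg.Agent.S2385

set_option autoImplicit false
open Cfsg

namespace Cfsg.Agent.S2389

open Matrix Polynomial

theorem exists_symm {F : Type*} [Field F] [Finite F] {f : F[X]} (hf : f.Monic) :
    ∃ T P : Matrix (Fin f.natDegree) (Fin f.natDegree) F, T.charpoly = f ∧ Pᵀ = P ∧ IsUnit P.det ∧ Tᵀ * P = P * T := by
  let b := AdjoinRoot.powerBasis hf.ne_zero
  let T := Algebra.leftMulMatrix b.basis b.gen
  obtain ⟨c, hc⟩ := Classical.isConj_transpose T
  have h1 : ∀ j : Fin b.dim, (T ^ j.val) *ᵥ b.basis.repr 1 = Pi.single j 1 := fun j => by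
    rw [← map_pow, Algebra.leftMulMatrix_mulVec_repr, mul_one, ← b.basis_eq_pow, b.basis.repr_self,
      Finsupp.single_eq_pi_single]
  have h2 : ∀ i j, c.1 i j = b.basis.repr 1 ⬝ᵥ (c.1 * T ^ (i.val + j.val)) *ᵥ b.basis.repr 1 := fun i j => by
    rw [pow_add, ← mul_assoc, (hc.pow_right i).eq, mul_assoc, ← mulVec_mulVec, ← mulVec_mulVec, h1, ← transpose_pow,
      dotProduct_mulVec, vecMul_transpose, h1]
    simp
  exact ⟨T, c.1, (charpoly_leftMulMatrix b).trans (AdjoinRoot.minpoly_powerBasis_gen_of_monic hf),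
    Matrix.ext fun i j => (h2 j i).trans (add_comm j.val i ▸ (h2 i j).symm), (isUnit_iff_isUnit_det _).1 c.isUnit, hc.eq.symm⟩

theorem exists_sp {F : Type*} [Field F] [Finite F] {f : F[X]} (hf : f.Monic) {n : ℕ} (hn : f.natDegree = n) :
    ∃ g : symplecticGroup (Fin n) F, ∀ τ : AlgebraicClosure F, τ ≠ 0 →
      aeval τ g.1.charpoly = τ ^ n * aeval (τ + τ⁻¹) f := by
  subst hn
  obtain ⟨T, P, h1, h2, h3, h4⟩ := exists_symm hf
  refine ⟨⟨fromBlocks 0 (-P⁻¹) P Tᵀ, SymplecticGroup.fromBlocks_mem_iff.2 ⟨by simp, ?_, by simp [h2, mul_nonsing_inv _ h3]⟩⟩,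
    fun τ hτ => ?_⟩
  · rw [transpose_neg, transpose_nonsing_inv, h2, transpose_transpose, Matrix.neg_mul, Matrix.mul_neg, neg_inj,
      ← mul_nonsing_inv_cancel_right P Tᵀ h3, h4, ← Matrix.mul_assoc, nonsing_inv_mul_cancel_left _ _ h3]
  · have h5 := congrArg (algebraMap F (AlgebraicClosure F)).mapMatrix (mul_nonsing_inv _ h3)
    have : Invertible (scalar (Fin f.natDegree) τ) := ⟨scalar _ τ⁻¹, by rw [← map_mul, inv_mul_cancel₀ hτ, map_one],
      by rw [← map_mul, mul_inv_cancel₀ hτ, map_one]⟩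
    have h6 : ⅟(scalar (Fin f.natDegree) τ) = τ⁻¹ • 1 :=
      invOf_eq_left_inv (by rw [smul_mul_assoc, one_mul, scalar_apply, ← smul_one_eq_diagonal, smul_smul]; simp [hτ])
    conv_rhs => rw [← h1, ← charpoly_transpose]
    simp only [← eval_map_algebraMap, ← charpoly_map, eval_charpoly]
    rw [show scalar (Fin _ ⊕ Fin _) τ = fromBlocks (scalar _ τ) 0 0 (scalar _ τ) by simp, fromBlocks_map,
      sub_eq_add_neg, fromBlocks_neg, fromBlocks_add, Matrix.map_zero _ (map_zero _), neg_zero, add_zero,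
      det_fromBlocks₁₁, h6]
    simp only [map_mul, RingHom.mapMatrix_apply, map_one] at h5
    congr 1
    · simp
    · congr 1
      simp [Matrix.map_neg, h5, ← smul_one_eq_diagonal, add_smul]
      abel

/-- In the symplectic group `Sp_{2n}(q)`, `q` a power of the prime `p`, two elements of order prime to `p` with the same characteristic polynomial are conjugate in `Sp_{2n}(q)`. -/
theorem result {F : Type*} [Field F] [Fintype F] (p : ℕ) [Fact p.Prime] [CharP F p] (n : ℕ)
    (g h : ↥(Matrix.symplecticGroup (Fin n) F)) (hg : (orderOf g).Coprime p) (hh : (orderOf h).Coprime p)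
    (hc : (g : Matrix (Fin n ⊕ Fin n) (Fin n ⊕ Fin n) F).charpoly = (h : Matrix (Fin n ⊕ Fin n) (Fin n ⊕ Fin n) F).charpoly) :
    IsConj g h := by
  have hc' : ∀ {x y : symplecticGroup (Fin n) F}, IsConj x y → x.1.charpoly = y.1.charpoly := fun e => by
    simpa using Mult.charpoly_of_isConj (symplecticGroup (Fin n) F).subtype e
  choose r hr using fun f : {f : F[X] // f.Monic ∧ f.natDegree = n} => exists_sp f.2.1 f.2.2
  choose s hs using fun f => show ∃ s : symplecticGroup (Fin n) F, (orderOf s).Coprime p ∧ s.1.charpoly = (r f).1.charpoly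
    by simpa using Mult.exists_coprime_charpoly p (symplecticGroup (Fin n) F).subtype (r f)
  have key : ∀ f f', (s f).1.charpoly = (s f').1.charpoly → f = f' := fun f f' e => by
    refine Subtype.ext (map_injective _ (algebraMap F (AlgebraicClosure F)).injective (Polynomial.funext fun y => ?_))
    obtain ⟨τ, h⟩ := IsAlgClosed.exists_root (X ^ 2 - C y * X + 1 : (AlgebraicClosure F)[X])
      (by rw [show degree _ = 2 by compute_degree!]; decide)
    simp only [IsRoot, eval_add, eval_sub, eval_pow, eval_X, eval_mul, eval_C, eval_one] at h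
    have h0 : τ ≠ 0 := fun e => by simp [e] at h
    have h1 := (hr f τ h0).symm.trans ((congrArg _ ((hs f).2.symm.trans (e.trans (hs f').2))).trans (hr f' τ h0))
    rwa [mul_right_inj' (pow_ne_zero _ h0), show τ + τ⁻¹ = y by grind, ← eval_map_algebraMap,
      ← eval_map_algebraMap] at h1
  have hb := (Nat.bijective_iff_injective_and_card (fun f => (⟨_, s f, rfl, (hs f).1⟩ : {c : ConjClasses _ //
      ∃ g, ConjClasses.mk g = c ∧ (orderOf g).Coprime p}))).2 ⟨fun f f' e => key _ _ (hc'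
      (ConjClasses.mk_eq_mk_iff_isConj.1 (congrArg Subtype.val e))), by
    rw [S2385.result rfl, Nat.card_congr ((monicEquivDegreeLT n).trans (degreeLTEquiv F n).toEquiv), Nat.card_fun,
      Nat.card_fin, Nat.card_eq_fintype_card]⟩
  obtain ⟨f, e⟩ := hb.2 ⟨_, g, rfl, hg⟩
  obtain ⟨f', e'⟩ := hb.2 ⟨_, h, rfl, hh⟩
  replace e := ConjClasses.mk_eq_mk_iff_isConj.1 (congrArg Subtype.val e)
  replace e' := ConjClasses.mk_eq_mk_iff_isConj.1 (congrArg Subtype.val e')
  obtain rfl := key f f' ((hc' e).trans (hc.trans (hc' e').symm))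
  exact e.symm.trans e'

end Cfsg.Agent.S2389
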