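import Cfsg.Statements.S2391
import Cfsg.Agent.Mult.CR
import Cfsg.Agent.Classical.LowIso

set_option autoImplicit false
open Cfsg

namespace Cfsg.Agent.S2391

open Matrix

/-- The ascending series of fixed spaces. -/
def W {F : Type*} [Field F] {n : ℕ} (U : Subgroup (SpecialLinearGroup (Fin n) F)) : ℕ → Submodule F (Fin n → F)
  | 0 => ⊥
  | i + 1 => ⨅ u ∈ U, (W U i).comap (mulVecLin u.1 - 1)

theorem mem_W {F : Type*} [Field F] {n : ℕ} {U : Subgroup (SpecialLinearGroup (Fin n) F)} {i : ℕ} {v : Fin n → F} :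
    v ∈ W U (i + 1) ↔ ∀ u ∈ U, u.1 *ᵥ v - v ∈ W U i := by simp [W]

/-- The Borel–Tits property of `SL_n(q)` in flag form: for a field `F` of characteristic `p` with finitely many elements and a non-trivial `p`-subgroup `U` of `SL_n(F)`, there is a flag `0 = V₀ < V₁ < ⋯ < V_{k+1} = F^n` with at least one proper non-zero member such that every element of the normaliser of `U` maps each `V_i` onto itself and every element of `U` acts trivially on each quotient `V_{i+1}/V_i` (so the normaliser lies in the parabolic subgroup of the flag and `U` in its unipotent radical). -/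
theorem result {F : Type*} [Field F] [Fintype F] (p : ℕ) [Fact p.Prime] [CharP F p] (n : ℕ)
    (U : Subgroup (Matrix.SpecialLinearGroup (Fin n) F)) (hU : IsPGroup p ↥U) (hne : U ≠ ⊥) :
    ∃ (k : ℕ) (V : Fin (k + 2) → Submodule F (Fin n → F)), 1 ≤ k ∧ StrictMono V ∧ V 0 = ⊥ ∧ V (Fin.last (k + 1)) = ⊤ ∧
      (∀ g ∈ Subgroup.normalizer (U : Set (Matrix.SpecialLinearGroup (Fin n) F)), ∀ i, (V i).map (Matrix.mulVecLin (g : Matrix (Fin n) (Fin n) F)) = V i) ∧
      (∀ u ∈ U, ∀ i : Fin (k + 1), ∀ v ∈ V i.succ, (u : Matrix (Fin n) (Fin n) F).mulVec v - v ∈ V (Fin.castSucc i)) := by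
  have hm : ∀ (a b : SpecialLinearGroup (Fin n) F) v, (a * b).1 *ᵥ v = a.1 *ᵥ b.1 *ᵥ v := fun a b v =>
    (mulVec_mulVec _ _ _).symm
  have h1 : ∀ i, ∀ g ∈ Subgroup.normalizer (U : Set (SpecialLinearGroup (Fin n) F)), ∀ v ∈ W U i, g.1 *ᵥ v ∈ W U i := by
    intro i g hg
    induction i with
    | zero => intro v hv; simp [W] at hv ⊢; simp [hv]
    | succ i ih =>
      refine fun v hv => mem_W.2 fun u hu => ?_
      have := ih _ (mem_W.1 hv _ (((Subgroup.mem_normalizer_iff''.1 hg) u).1 hu))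
      rwa [mulVec_sub, ← hm, mul_assoc, mul_inv_cancel_left, hm] at this
  have h2 : ∀ i, W U i ≠ ⊤ → W U i < W U (i + 1) := fun i h => by
    have h3 := fun u : U => h1 i u (Subgroup.le_normalizer u.2)
    refine lt_of_le_of_ne (fun v hv => mem_W.2 fun u hu => sub_mem (h3 ⟨u, hu⟩ v hv) hv) fun e => ?_
    obtain ⟨w, -, h4, h5⟩ := Mult.exists_fixed (Representation.quotient
      ((toLinAlgEquiv' (R := F) (n := Fin n)).toAlgHom.toMonoidHom.comp ((Classical.slMat n F).comp U.subtype)) (W U i) h3) p (K := ⊤) (W := ⊤)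
      (hU.of_equiv Subgroup.topEquiv.symm) (fun _ _ _ _ => trivial) fun e => h (by
        simpa [Submodule.Quotient.subsingleton_iff] using (Submodule.subsingleton_iff F).1 (subsingleton_of_top_le_bot e.le))
    obtain ⟨w, rfl⟩ := (W U i).mkQ_surjective w
    exact h4 ((Submodule.Quotient.mk_eq_zero _).2 (e ▸ mem_W.2 fun u hu => (Submodule.Quotient.eq _).1 (h5 ⟨u, hu⟩ trivial)))
  have h3 : ∃ i, W U i = ⊤ := by_contra fun h => (Set.finite_univ.subset (Set.subset_univ _)).not_infinite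
    (Set.infinite_range_of_injective (strictMono_nat_of_lt_succ fun i => h2 i fun e => h ⟨i, e⟩).injective)
  classical
  have h4 : ∀ i ≤ 1, W U i ≠ ⊤ := fun i hi e => hne (eq_bot_iff.2 fun u hu => Subtype.ext (ext_of_mulVec_single
    fun j => by
      have h5 : W U 1 = ⊤ := by
        obtain rfl | rfl : i = 0 ∨ i = 1 := by omega
        exacts [top_le_iff.1 (e.ge.trans bot_le), e]
      simpa [W, sub_eq_zero, -mulVec_single] using mem_W.1 (h5.ge (Submodule.mem_top (x := Pi.single j 1))) u hu))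
  obtain ⟨k, hk⟩ : ∃ k, Nat.find h3 = k + 2 := ⟨Nat.find h3 - 2, by
    have : ¬ Nat.find h3 ≤ 1 := fun h => h4 _ h (Nat.find_spec h3); omega⟩
  refine ⟨k + 1, fun i => W U i, by omega, Fin.strictMono_iff_lt_succ.2 fun i => h2 _ (Nat.find_min h3
    (i.2.trans_eq hk.symm)), rfl, (congrArg _ hk).symm.trans (Nat.find_spec h3), fun g hg i => le_antisymm ?_ fun v hv => ?_, fun u hu i v hv =>
      mem_W.1 hv u hu⟩
  · rintro _ ⟨v, hv, rfl⟩; exact h1 _ g hg v hv
  · exact ⟨_, h1 _ _ (inv_mem hg) v hv, (hm _ _ _).symm.trans (by simp)⟩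

end Cfsg.Agent.S2391
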