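import Cfsg.Statements.S2393
import Cfsg.Agent.Deg.Sp
import Cfsg.Agent.Classical.PSL2Basic

set_option autoImplicit false
open scoped MatrixGroups
open Cfsg

namespace Cfsg.Agent.S2393

/-- A lower bound for representations in cross characteristic: for `n ≥ 2` and a field `F` with `q` elements, `q` odd, every homomorphism from the symplectic group `Sp_{2n}(F)` to `GL_d(K)`, `K` a field of characteristic different from that of `F`, whose kernel is central has `d ≥ q^(n-1)(q-1)/2`. -/
theorem result {F : Type*} [Field F] [Fintype F] {q : ℕ} (hq : Fintype.card F = q) (hodd : Odd q) (n : ℕ) (hn : 2 ≤ n)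
    {K : Type*} [Field K] (hK : ringChar K ≠ ringChar F) {d : ℕ}
    (ρ : ↥(Matrix.symplecticGroup (Fin n) F) →* GL (Fin d) K) (hker : ρ.ker ≤ Subgroup.center ↥(Matrix.symplecticGroup (Fin n) F)) :
    q ^ (n - 1) * (q - 1) / 2 ≤ d := by
  obtain ⟨K', _, ψ, ρ', hψ, hK', h⟩ := Deg.exists_ext hK ρ
  have := Deg.sp_bound (Classical.two_ne_zero_iff_odd.2 (by rwa [Nat.card_eq_fintype_card, hq])) (by omega) hψ hK'
    (h.trans hker)
  obtain ⟨m, rfl⟩ : ∃ m, n = m + 1 := ⟨n - 1, by omega⟩
  have h1 : 1 ≤ q ^ m := Nat.one_le_pow _ _ hodd.pos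
  rw [hq, Module.finrank_fin_fun, pow_succ] at this
  rw [Nat.add_sub_cancel, Nat.mul_sub_one]
  omega

end Cfsg.Agent.S2393
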