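import Cfsg.Statements.S2394
import Cfsg.Agent.Classical.Eig7

set_option autoImplicit false
open scoped MatrixGroups
open Cfsg

namespace Cfsg.Agent.S2394

open Cfsg.Agent.Classical Cfsg.Agent.Classical.Eig Cfsg.Agent.Elu Cfsg.Agent.Geom Module

/-- The smallest degree of a faithful representation of the symplectic group `Sp_{2n}(q)` over its own field `F_q` is `2n`: every injective homomorphism from `Sp_{2n}(F)` to `GL_d(F)`, `F` the field with `q` elements, has `d ≥ 2n`. -/
theorem result {F : Type*} [Field F] [Fintype F] (n : ℕ) {d : ℕ}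
    (ρ : ↥(Matrix.symplecticGroup (Fin n) F) →* GL (Fin d) F) (hρ : Function.Injective ρ) : 2 * n ≤ d := by
  by_contra! hd
  have h1 := Subgroup.card_dvd_of_injective ρ hρ
  rw [Nat.card_congr (spEquiv n F).toEquiv, (spu_symp n F).card_alt (sympFormed_nondeg n F) (k := n)
    (by simp [two_mul]), spOrd_eq, card_GL_fin] at h1
  have hq : 1 < Nat.card F := Finite.one_lt_card
  generalize Nat.card F = q at h1 hq
  obtain ⟨m, rfl⟩ : ∃ m, n = m + 1 := ⟨n - 1, by omega⟩
  by_cases h6 : q = 2 ∧ 2 * (m + 1) = 6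
  · obtain ⟨rfl, h6⟩ := h6
    obtain rfl : m = 2 := by omega
    interval_cases d <;> revert h1 <;> decide
  by_cases h2 : m = 0
  · subst h2
    have h3 : 2 * 2 ≤ q * q := Nat.mul_le_mul hq hq
    interval_cases d
    · simp [sq] at h1; omega
    · simp only [Fin.prod_univ_one, Fin.val_zero, pow_one, pow_zero, zero_add, one_pow] at h1
      have := (Nat.coprime_self_sub_right hq.le).2 (Nat.coprime_one_right q)
      have := this.eq_one_of_dvd ((dvd_mul_right _ _).trans h1)
      omega
  obtain ⟨r, hr, h3, h4⟩ := Cfsg.Agent.Num.zsigmondy hq (n := 2 * (m + 1)) (by omega) h6 (by omega)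
  obtain ⟨i, -, hi⟩ := (hr.prime.dvd_finsetProd_iff _).1 (h3.trans (((Finset.dvd_prod_of_mem
    (fun i : Fin (m + 1) => q ^ (2 * ((i : ℕ) + 1)) - 1) (Finset.mem_univ (Fin.last m))).mul_left
      _).trans h1))
  rw [show q ^ d - q ^ (i : ℕ) = q ^ (i : ℕ) * (q ^ (d - i) - 1) by
    rw [Nat.mul_sub_one, ← pow_add, Nat.add_sub_cancel' i.2.le], hr.dvd_mul] at hi
  rcases hi with hi | hi
  · have h5 := (hr.dvd_of_dvd_pow hi).pow (n := 2 * (m + 1)) (by omega)
    exact hr.one_lt.ne' (Nat.dvd_one.1 ((Nat.dvd_sub_iff_right (Nat.one_le_pow _ _ (by omega)) h5).1 h3))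
  · exact h4 _ (by have := i.2; omega) (by omega) hi

end Cfsg.Agent.S2394
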