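import Cfsg.Statements.S2395
import Cfsg.Agent.Chev.AllC
import Cfsg.Agent.Chev.AllL

set_option autoImplicit false
open Cfsg

namespace Cfsg.Agent.S2395

open Cfsg.Agent.Chev Cfsg.Lie

/-- The group presented by Steinberg's generators x̄_r(t) subject only to (R1) (additivity) and (R2) (the commutator formula) is perfect, for each of the types G₂, B₂, D₄, F₄, E₆, E₇, E₈ over any field (for types B₂ and G₂ the field must have more than two elements — the cases where the Chevalley group is not simple are set aside). -/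
theorem result {K : Type*} [Field K] (D : Cfsg.Lie.ChevalleyDatum) (hD : D ∈ [Cfsg.Lie.chevG2, Cfsg.Lie.chevB2, Cfsg.Lie.chevD4, Cfsg.Lie.chevF4, Cfsg.Lie.chevE6, Cfsg.Lie.chevE7, Cfsg.Lie.chevE8]) (hK : D ∈ [Cfsg.Lie.chevB2, Cfsg.Lie.chevG2] → ∃ x : K, x ≠ 0 ∧ x ≠ 1) :
    commutator (D.SteinbergCover K) = ⊤ := by
  obtain ⟨⟨_⟩, c⟩ := conn_of_mem hD
  exact (scS D K).perfect (presS_U_univ K _ _) (lace_or hD fun h => hK (by rcases h with rfl | rfl <;> simp))

end Cfsg.Agent.S2395
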