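import Cfsg.Statements.S2396
import Cfsg.Agent.Chev.AllC
import Cfsg.Agent.Chev.Bruhat

set_option autoImplicit false
open scoped MatrixGroups
open Cfsg

namespace Cfsg.Agent.S2396

open Cfsg.Agent.Chev Cfsg.Lie

/-- For each of the types G₂, B₂, D₄, F₄, E₆, E₇, E₈ and any field `K` (for types B₂ and G₂ the field must have more than two elements — the cases where the Chevalley group is not simple are set aside), the group presented by the generators x̄_r(t) subject only to (R1) and (R2) maps onto the Chevalley group by x̄_r(t) ↦ x_r(t), and this homomorphism is a central extension: it is surjective with kernel contained in the centre. -/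
theorem result {K : Type*} [Field K] (D : Cfsg.Lie.ChevalleyDatum) (hD : D ∈ [Cfsg.Lie.chevG2, Cfsg.Lie.chevB2, Cfsg.Lie.chevD4, Cfsg.Lie.chevF4, Cfsg.Lie.chevE6, Cfsg.Lie.chevE7, Cfsg.Lie.chevE8]) (hK : D ∈ [Cfsg.Lie.chevB2, Cfsg.Lie.chevG2] → ∃ x : K, x ≠ 0 ∧ x ≠ 1) :
    ∃ θ : D.SteinbergCover K →* ↥(D.group K), Function.Surjective θ ∧ θ.ker ≤ Subgroup.center (D.SteinbergCover K) ∧
      ∀ (r : ℕ) (t : K), r < D.nroots → ((θ (D.scGen K r t) : GL D.Idx K) : Matrix D.Idx D.Idx K) = D.x K r t := by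
  obtain ⟨⟨_⟩, c⟩ := conn_of_mem hD
  refine ⟨(grS D K).lift, ?_, fun y hy => ?_, fun r t hr => ?_⟩
  · rw [← MonoidHom.range_eq_top, MonoidHom.range_eq_map, ← presS_U_univ K (D.steinbergRelsAB K) subset_rfl]
    exact (Sys.map_U (scS D K) _ _).trans (by rw [scS_map_lift, grS_U_univ])
  · exact (Sys.Cover.mem_center_iff (X := scS D K) ⟨(grCover D K).π.comp (grS D K).lift, fun r t =>
      (congrArg (grCover D K).π ((grS D K).lift_scGen r t)).trans ((grCover D K).π_x r t)⟩
        (presS_U_univ K _ _)).mpr (by simp [MonoidHom.mem_ker.mp hy])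
  · rw [(grS D K).lift_scGen ⟨r, hr⟩ t]
    exact coe_grS_x ⟨r, hr⟩ t

end Cfsg.Agent.S2396
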