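import Cfsg.Statements.S2399
import Cfsg.Agent.Mult.Univ
import Cfsg.Agent.Chev.AllL

set_option autoImplicit false
open scoped MatrixGroups
open Cfsg

namespace Cfsg.Agent.S2399

open Cfsg.Agent.Chev Cfsg.Agent.Mult Cfsg.Agent.Schur

theorem pow_eq_self {L : Type*} [Field L] {n p : ℕ} (hp : p.Prime) [CharP L p] {a : GL (Fin n) L}
    (h : a ∈ Subgroup.center _) (h1 : a ∈ commutator (GL (Fin n) L)) : ∃ m, a ^ (p * m) = a := by
  rcases n with _ | n
  · exact ⟨0, Subsingleton.elim _ _⟩
  haveI := Fact.mk hp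
  have key : ∀ {b : GL (Fin (n + 1)) L}, b ∈ Subgroup.center _ → ∃ c : L, ∀ k : ℕ, (b ^ k = 1 ↔ c ^ k = 1) ∧
      (Matrix.GeneralLinearGroup.det b : L) = c ^ (n + 1) := fun {b} hb => by
    obtain ⟨c, hc⟩ := Matrix.GeneralLinearGroup.mem_center_iff_val_mem_range_scalar.1 hb
    refine ⟨c, fun k => ⟨?_, by simp [← hc]⟩⟩
    rw [← Units.val_eq_one, Units.val_pow_eq_pow_val, ← hc, ← map_pow, ← map_one (Matrix.scalar (Fin (n + 1))),
      (Matrix.scalar_inj)]
  obtain ⟨c, hc⟩ := key h
  have h2 : a ^ (n + 1) = 1 := (hc _).1.2 (by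
    rw [← (hc 0).2, show Matrix.GeneralLinearGroup.det a = 1 from
      Abelianization.commutator_subset_ker _ h1, Units.val_one])
  have h3 : p.Coprime (orderOf a) := (Nat.Prime.coprime_iff_not_dvd hp).2 fun hd => by
    have h4 := orderOf_pow_orderOf_div (orderOf_pos_iff.2 (isOfFinOrder_iff_pow_eq_one.2
      ⟨n + 1, n.succ_pos, h2⟩)).ne' hd
    obtain ⟨d, hd⟩ := key (pow_mem h (orderOf a / p))
    have h5 : d ^ p = 1 := (hd p).1.1 (by nth_rewrite 2 [← h4]; exact pow_orderOf_eq_one _)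
    have h6 : d = 1 := frobenius_inj L p (by rw [frobenius_def, h5, map_one])
    have h7 := (hd 1).1.2 (by rw [h6, one_pow])
    rw [pow_one] at h7
    rw [h7, orderOf_one] at h4
    exact hp.one_lt.ne h4
  simpa only [pow_mul] using exists_pow_eq_self_of_coprime h3

/-- Projective representations in the natural characteristic lift: for each of the types G₂, B₂, D₄, F₄, E₆, E₇, E₈ over any field `K` (for types B₂ and G₂ the field must have more than two elements — the cases where the Chevalley group is not simple are set aside), every homomorphism from the Chevalley group to `PGL_n(L) = GL_n(L)/Z`, `L` a field of the same characteristic as `K`, lifts uniquely to a homomorphism from the group Δ presented by (R1), (R2) to `GL_n(L)`, compatibly with the projection Δ → Chevalley group sending x̄_r(t) to x_r(t). -/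
theorem result {K : Type*} [Field K] (D : Cfsg.Lie.ChevalleyDatum) (hD : D ∈ [Cfsg.Lie.chevG2, Cfsg.Lie.chevB2, Cfsg.Lie.chevD4, Cfsg.Lie.chevF4, Cfsg.Lie.chevE6, Cfsg.Lie.chevE7, Cfsg.Lie.chevE8]) (hK : D ∈ [Cfsg.Lie.chevB2, Cfsg.Lie.chevG2] → ∃ x : K, x ≠ 0 ∧ x ≠ 1)
    (θ : D.SteinbergCover K →* ↥(D.group K))
    (hθ : ∀ (r : ℕ) (t : K), r < D.nroots → ((θ (D.scGen K r t) : GL D.Idx K) : Matrix D.Idx D.Idx K) = D.x K r t)
    {L : Type*} [Field L] (hL : ringChar L = ringChar K) {n : ℕ}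
    (φ : ↥(D.group K) →* GL (Fin n) L ⧸ Subgroup.center (GL (Fin n) L)) :
    ∃! ψ : D.SteinbergCover K →* GL (Fin n) L, (QuotientGroup.mk' (Subgroup.center (GL (Fin n) L))).comp ψ = φ.comp θ := by
  obtain ⟨⟨_⟩, c⟩ := conn_of_mem hD
  have hp := lace_or hD fun h => hK (by rcases h with rfl | rfl <;> simp)
  have E : IsCentralExt (QuotientGroup.mk' (Subgroup.center (GL (Fin n) L))) :=
    ⟨QuotientGroup.mk'_surjective _, (QuotientGroup.ker_mk' _).le⟩
  rcases CharP.char_is_prime_or_zero K (ringChar K) with h | h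
  swap
  · haveI : CharZero K := (CharP.ringChar_zero_iff_CharZero K).1 h
    obtain ⟨s, hs⟩ := Infinite.exists_subset_card_eq K 5
    exact (allLift_big ⟨s, by omega⟩).existsUnique hp E _
  haveI : CharP L (ringChar K) := hL ▸ ringChar.charP L
  have h1 := (scS D K).perfect scS_U_univ hp
  have E1 := isCentralExt_pullSnd E (φ.comp θ)
  have E2 : IsCentralExt ((pullSnd _ (φ.comp θ)).comp (commutator _).subtype) :=
    ⟨fun y => by
      obtain ⟨z, hz, e⟩ : y ∈ (commutator _).map _ := by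
        rw [map_commutator_of_surjective E1.surj, h1]; trivial
      exact ⟨⟨z, hz⟩, e⟩,
    fun a ha => Subgroup.mem_center_iff.2 fun b => Subtype.ext (ker_comm E1 ha b.1)⟩
  obtain ⟨Z, hZ⟩ := lifts_of_pow E2 (scCover D K) (ringChar.Nat.cast_ringChar (R := K)) fun a ha => by
    have h2 : a.1.1.2 = 1 := ha
    have h3 : QuotientGroup.mk' _ a.1.1.1 = φ (θ a.1.1.2) := a.1.2
    rw [h2, map_one, map_one, QuotientGroup.mk'_apply, QuotientGroup.eq_one_iff] at h3
    obtain ⟨m, hm⟩ := pow_eq_self h h3 (((map_commutator_eq _ (pullFst _ (φ.comp θ))).le.trans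
      (Subgroup.commutator_mono le_top le_top)) ⟨_, a.2, rfl⟩)
    exact ⟨m, Subtype.ext (Subtype.ext (Prod.ext hm (by simp [h2])))⟩
  have h2 : ((pullSnd _ (φ.comp θ)).comp (commutator _).subtype).comp Z.lift = MonoidHom.id _ :=
    Sys.hom_ext scS_U_univ fun r t => (congrArg _ (Z.lift_scGen r t)).trans (hZ r t)
  have h3 : (QuotientGroup.mk' (Subgroup.center (GL (Fin n) L))).comp
      (((pullFst _ (φ.comp θ)).comp (commutator _).subtype).comp Z.lift) = φ.comp θ := by
    rw [← MonoidHom.comp_assoc, ← MonoidHom.comp_assoc, pull_comm, MonoidHom.comp_assoc, MonoidHom.comp_assoc,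
      ← MonoidHom.comp_assoc Z.lift, h2, MonoidHom.comp_id]
  exact ⟨_, h3, fun τ h' => lift_unique_of_perfect (Group.isPerfect_def.2 h1) E.central (h'.trans h3.symm)⟩

end Cfsg.Agent.S2399
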