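import Cfsg.Statements.S2410
import Cfsg.Agent.Sz.Part

set_option autoImplicit false
open Cfsg

namespace Cfsg.Agent.S2410

open Sz in
theorem aux (F : Type*) [Field F] [Finite F] [Tits F] (G : Type*) [Group G] [SzRep F G] :
    ∃ a b : G, Subgroup.closure ({a, b} : Set G) = ⊤ := by
  obtain ⟨l, hl⟩ := IsCyclic.exists_generator (α := Fˣ)
  refine ⟨M G l, S G (1 : F) 0 * T F G, ?_⟩
  set K := Subgroup.closure ({M G l, S G (1 : F) 0 * T F G} : Set G)
  have h1 : M G l ∈ K := Subgroup.subset_closure (by simp)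
  have h2 : S G (1 : F) 0 * T F G ∈ K := Subgroup.subset_closure (by simp)
  have hH : H F G ≤ K := by
    rintro _ ⟨k, rfl⟩
    obtain ⟨n, rfl⟩ := hl k
    rw [map_zpow]; exact K.zpow_mem h1 n
  obtain ⟨a, ha0, ha1⟩ := Tits.big (F := F)
  have h3 := K.mul_mem (K.mul_mem (K.mul_mem h2 (hH (M_mem_H (Units.mk0 a ha0)⁻¹))) (K.inv_mem h2))
    (K.inv_mem (hH (M_mem_H (Units.mk0 a ha0))))
  have h4 : S G (1 : F) 0 * T F G * M G (Units.mk0 a ha0)⁻¹ * (S G (1 : F) 0 * T F G)⁻¹ * (M G (Units.mk0 a ha0))⁻¹ =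
      S G (1 : F) 0 * (M G (Units.mk0 a ha0) * (S G (1 : F) 0)⁻¹ * (M G (Units.mk0 a ha0))⁻¹) := by
    rw [mul_assoc (S G 1 0), T_mul_M, inv_inv, mul_inv_rev, T_inv]
    simp only [mul_assoc, T_mul_T_mul]
  rw [h4, S_inv, M_conj_S, S_mul_S] at h3
  have h5 : (1 : F) + Tits.θ ((Units.mk0 a ha0 : Fˣ) : F) * 1 ≠ 0 := by
    rw [mul_one, Units.val_mk0, ne_eq, add_eq_zero_iff', eq_comm, θ_eq_one]; exact ha1
  refine eq_top_of_U_le (U_le_of_H_le hH h5 h3) fun h => T_not_mem_B (F := F) (G := G) ?_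
  exact (mul_mem_cancel_left (S_mem_B 1 0)).1 (h h2)

/-- The Suzuki group over the field with `2^(2m+1)` elements, `m ≥ 1` (realised as the stabiliser in `SL₄` of the Suzuki–Tits ovoid), is generated by two of its elements. -/
theorem result {F : Type*} [Field F] [Fintype F] {m : ℕ} (hm : 1 ≤ m) (hF : Fintype.card F = 2 ^ (2 * m + 1)) :
    ∃ a b : ↥(Cfsg.Sz F m), Subgroup.closure ({a, b} : Set ↥(Cfsg.Sz F m)) = ⊤ := by
  let := Sz.titsOfCard hm hF
  let := Sz.ovoidRep (Sz.titsOfCard_θ hm hF)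
  exact aux F _

end Cfsg.Agent.S2410
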