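import Cfsg.Statements.S2413
import Cfsg.Agent.Pres.OmG2
import Cfsg.Agent.S0301
import Cfsg.Agent.S2411

set_option autoImplicit false
open Cfsg

namespace Cfsg.Agent.S2413

/-- The simple orthogonal group `PΩ_{2m+1}(q)` (commutator subgroup of the orthogonal group of `x₀² + Σ x_i y_i` modulo its centre) with `m ≥ 2` and `q` odd is generated by two of its elements. -/
theorem result {F : Type*} [Field F] [Fintype F] (hodd : Odd (Fintype.card F)) (m : ℕ) (hm : 2 ≤ m) :
    ∃ a b : Cfsg.POmega F (Cfsg.quadFormOdd m F), Subgroup.closure ({a, b} : Set (Cfsg.POmega F (Cfsg.quadFormOdd m F))) = ⊤ := by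
  have h2 : (2 : F) ≠ 0 := fun e => by
    have := ringChar.of_eq (CharP.ringChar_of_prime_eq_zero Nat.prime_two (R := F) (by exact_mod_cast e))
    exact Nat.not_even_iff_odd.2 hodd (even_iff_two_dvd.2 ((CharP.cast_eq_zero_iff F 2 _).1
      (FiniteField.cast_card_eq_zero F)))
  have hF : 2 < Fintype.card F := by
    have := Fintype.one_lt_card (α := F)
    obtain ⟨k, hk⟩ := hodd
    omega
  rcases hm.eq_or_lt with rfl | h3
  · obtain ⟨e⟩ := S0301.result hodd
    obtain ⟨a, b, h⟩ := S2411.result (F := F) 2 le_rfl fun _ => hF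
    exact ⟨e.symm a, e.symm b, by
      simpa [MonoidHom.map_closure, Set.image_pair] using congrArg (Subgroup.map e.symm.toMonoidHom) h⟩
  · exact Pres.OmG.two_gen_quot ((Mult.oddFull hm F h2).top ▸ Pres.OmG.two_gen_B (Mult.coB hm) h3
      (Mult.exists_ne_zero_ne_one hF.ne')) _

end Cfsg.Agent.S2413
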