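import Cfsg.Statements.S2416
import Cfsg.Agent.Chev.Cent

set_option autoImplicit false
open scoped MatrixGroups
open Cfsg

namespace Cfsg.Agent.S2416

open Cfsg.Agent.Chev Cfsg.Lie

/-- A Chevalley group of type G₂, B₂, D₄, F₄, E₆, E₇ or E₈ over a finite field lies in (indeed equals) the subgroup generated by its monomial subgroup `N` and a single fundamental root subgroup `X_p`, where `p` is a short fundamental root if there are two root lengths (any fundamental root otherwise), provided the characteristic is not 2 for types B₂, F₄ and not 3 for type G₂ (and the field has more than two elements for B₂, G₂). -/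
theorem result {K : Type*} [Field K] [Finite K] (D : Cfsg.Lie.ChevalleyDatum) (hD : D ∈ [Cfsg.Lie.chevG2, Cfsg.Lie.chevB2, Cfsg.Lie.chevD4, Cfsg.Lie.chevF4, Cfsg.Lie.chevE6, Cfsg.Lie.chevE7, Cfsg.Lie.chevE8])
    (hK : D ∈ [Cfsg.Lie.chevB2, Cfsg.Lie.chevG2] → ∃ x : K, x ≠ 0 ∧ x ≠ 1)
    (h2 : D ∈ [Cfsg.Lie.chevB2, Cfsg.Lie.chevF4] → ringChar K ≠ 2) (h3 : D = Cfsg.Lie.chevG2 → ringChar K ≠ 3)
    (i : ℕ) (hi : i < D.rank) (hshort : D.isLong (D.simple i) = false) :
    D.group K ≤ D.monomialSubgroup K ⊔ D.rootSubgroup K (D.simple i) := by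
  obtain ⟨⟨_⟩, c⟩ := conn_of_mem hD
  have key : ∀ {D : ChevalleyDatum} [Good D] [Conn D] (_ : DomU D) (i : Sm D) (r s k : Rt D) (ε : ℤ),
      (ε : K) ≠ 0 → (ln r = ln (sm i) ∧ ln s = ln (sm i) ∧ CommIs D 0 r s [(k, ε, 1, 1)] ∧
        ∀ a : Rt D, ln a = ln (sm i) ∨ ln a = ln k) →
      D.group K ≤ D.monomialSubgroup K ⊔ D.rootSubgroup K (D.simple i) := fun hU i r s k ε hε h => by
    rw [group_eq, monomial_eq, ← sm_val, rootSubgroup_eq]
    have h1 := fun a (e : ln (sm i) = ln a) => Sys.x_mem_of_ln hU le_sup_left e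
      fun t => Subgroup.mem_sup_right ((adS _ K).x_mem_single (sm i) t)
    refine Sys.U_le.mpr fun a _ => (h.2.2.2 a).elim (fun e => h1 a e.symm) fun e =>
      Sys.x_mem_of_ln hU le_sup_left e.symm fun t => ?_
    rw [← Sys.xN_val]
    exact Sys.xN_mem_of_comm Nat.cast_zero h.2.2.1 hε (by simpa [Sys.xN_val] using h1 r h.1.symm)
      (by simpa [Sys.xN_val] using h1 s h.2.1.symm) t
  have hU := domU_of_mem hD
  have e3 : ringChar K ≠ 3 → ((3 : ℤ) : K) ≠ 0 := fun h e =>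
    h (((Nat.dvd_prime Nat.prime_three).mp ((ringChar.spec K 3).mp (by simpa using e))).resolve_left
      CharP.ringChar_ne_one)
  simp only [List.mem_cons, List.not_mem_nil, or_false] at hD
  rcases hD with rfl | rfl | rfl | rfl | rfl | rfl | rfl
  · exact @key _ goodG2 _ hU ⟨i, hi⟩ ⟨7, by decide⟩ ⟨9, by decide⟩ ⟨10, by decide⟩ 3 (e3 (h3 rfl))
      (by revert i; decide +kernel)
  · exact @key _ goodB2 _ hU ⟨i, hi⟩ ⟨5, by decide⟩ ⟨6, by decide⟩ ⟨7, by decide⟩ 2
      (by simpa using Ring.two_ne_zero (h2 (by simp))) (by revert i; decide +kernel)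
  · exact @key _ goodD4 _ hU ⟨i, hi⟩ ⟨12, by decide⟩ ⟨14, by decide⟩ ⟨15, by decide⟩ 1 (by simp)
      (by clear hshort; revert i; decide +kernel)
  · exact @key _ goodF4 _ hU ⟨i, hi⟩ ⟨27, by decide⟩ ⟨28, by decide⟩ ⟨30, by decide⟩ 2
      (by simpa using Ring.two_ne_zero (h2 (by simp))) (by revert i; decide +kernel)
  · exact @key _ goodE6 _ hU ⟨i, hi⟩ ⟨36, by decide⟩ ⟨37, by decide⟩ ⟨38, by decide⟩ 1 (by simp)
      (by clear hshort; revert i; decide +kernel)
  · exact @key _ goodE7 _ hU ⟨i, hi⟩ ⟨63, by decide⟩ ⟨64, by decide⟩ ⟨65, by decide⟩ 1 (by simp)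
      (by clear hshort; revert i; decide +kernel)
  · exact @key _ goodE8 _ hU ⟨i, hi⟩ ⟨120, by decide⟩ ⟨121, by decide⟩ ⟨122, by decide⟩ 1 (by simp)
      (by clear hshort; revert i; decide +kernel)

end Cfsg.Agent.S2416
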