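import Cfsg.Statements.S2417
import Cfsg.Agent.Chev.Cent

set_option autoImplicit false
open scoped MatrixGroups
open Cfsg

namespace Cfsg.Agent.S2417

open Cfsg.Agent.Chev Cfsg.Lie

/-- In the characteristics with an exceptional graph symmetry — type B₂ or F₄ in characteristic 2 (field of more than two elements for B₂) and type G₂ in characteristic 3 — the Chevalley group lies in the subgroup generated by its monomial subgroup `N` and the two fundamental root subgroups `X_a`, `X_b` of a short root `a` and a long root `b` joined in the Dynkin diagram. -/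
theorem result {K : Type*} [Field K] [Finite K] (e : Cfsg.Lie.ChevalleyDatum × ℕ)
    (he : e ∈ [(Cfsg.Lie.chevB2, 2), (Cfsg.Lie.chevF4, 2), (Cfsg.Lie.chevG2, 3)]) [CharP K e.2]
    (hK : e.1 = Cfsg.Lie.chevB2 → ∃ x : K, x ≠ 0 ∧ x ≠ 1)
    (i j : ℕ) (hi : i < e.1.rank) (hj : j < e.1.rank) (hshort : e.1.isLong (e.1.simple i) = false)
    (hlong : e.1.isLong (e.1.simple j) = true) (hbond : e.1.bonds i j ≠ 0) :
    e.1.group K ≤ e.1.monomialSubgroup K ⊔ e.1.rootSubgroup K (e.1.simple i) ⊔ e.1.rootSubgroup K (e.1.simple j) := by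
  have key : ∀ {D : ChevalleyDatum} [Good D] [Conn D] (_ : DomU D) (i j : Sm D),
      (∀ a : Rt D, ln a = ln (sm i) ∨ ln a = ln (sm j)) → D.group K ≤ D.monomialSubgroup K ⊔
        D.rootSubgroup K (D.simple i) ⊔ D.rootSubgroup K (D.simple j) := fun hU i j h => by
    rw [group_eq, monomial_eq, ← sm_val, ← sm_val, rootSubgroup_eq, rootSubgroup_eq]
    exact Sys.U_le.mpr fun a _ => (h a).elim
      (fun e => Sys.x_mem_of_ln hU (le_sup_left.trans le_sup_left) e.symm
        fun t => Subgroup.mem_sup_left (Subgroup.mem_sup_right ((adS _ K).x_mem_single _ t)))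
      fun e => Sys.x_mem_of_ln hU (le_sup_left.trans le_sup_left) e.symm
        fun t => Subgroup.mem_sup_right ((adS _ K).x_mem_single _ t)
  simp only [List.mem_cons, List.not_mem_nil, or_false] at he
  clear hbond
  rcases he with rfl | rfl | rfl <;>
    exact key (domU_of_mem (by simp)) ⟨i, hi⟩ ⟨j, hj⟩ (by revert j; revert i; decide +kernel)

end Cfsg.Agent.S2417
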