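import Cfsg.Statements.S2418
import Cfsg.Agent.Chev.WGen
import Cfsg.Agent.Chev.CoxB2
import Cfsg.Agent.Chev.CoxG2
import Cfsg.Agent.Chev.CoxD4
import Cfsg.Agent.Chev.CoxF4
import Cfsg.Agent.Chev.CoxE6
import Cfsg.Agent.Chev.CoxE7
import Cfsg.Agent.Chev.CoxE8
import Cfsg.Agent.Chev.AllC

set_option autoImplicit false
open Cfsg

namespace Cfsg.Agent.S2418

open Cfsg.Agent.Chev Cfsg.Lie

/-- For the Coxeter groups of types B₂, G₂, D₄, F₄, E₇, E₈ the centre has order 2 (the element acting as −1 on the root system) and is generated by a power of the Coxeter element `s₁ s₂ ⋯ s_l`; the Coxeter group of type E₆ has trivial centre. -/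
theorem result (c : (Σ n : ℕ, CoxeterMatrix (Fin n)) × ℕ)
    (hc : c ∈ [(⟨2, CoxeterMatrix.B 2⟩, 2), (⟨2, CoxeterMatrix.G₂⟩, 2), (⟨4, Cfsg.Lie.coxeterD4⟩, 2), (⟨4, CoxeterMatrix.F₄⟩, 2),
      (⟨6, CoxeterMatrix.E₆⟩, 1), (⟨7, CoxeterMatrix.E₇⟩, 2), (⟨8, CoxeterMatrix.E₈⟩, 2)]) :
    Nat.card (Subgroup.center c.1.2.Group) = c.2 ∧
      Subgroup.center c.1.2.Group ≤ Subgroup.zpowers ((List.finRange c.1.1).map c.1.2.simple).prod := by
  simp only [List.mem_cons, List.not_mem_nil, or_false] at hc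
  rcases hc with rfl | rfl | rfl | rfl | rfl | rfl | rfl
  · exact isReflB2.center_cox coxB2 (m := 2) (by decide +kernel)
  · exact isReflG2.center_cox coxG2 (m := 3) (by decide +kernel)
  · exact isReflD4.center_cox coxD4 (m := 3) (by decide +kernel)
  · exact isReflF4.center_cox coxF4 (m := 6) (by decide +kernel)
  · have := isReflE6.center_cox_bot coxE6 (l := [0, 1, 2, 0, 3, 1, 2, 0, 3, 2, 4, 3, 1, 2, 0, 3, 2, 4, 3, 1, 5,
      4, 3, 1, 2, 0, 3, 2, 4, 3, 1, 5, 4, 3, 2, 0]) (by decide) (by decide +kernel) (by decide +kernel)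
    exact ⟨Subgroup.card_eq_one.mpr this, this.le.trans bot_le⟩
  · exact isReflE7.center_cox coxE7 (m := 9) (by decide +kernel)
  · exact isReflE8.center_cox coxE8 (m := 15) (by decide +kernel)

end Cfsg.Agent.S2418
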