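import Cfsg.Statements.S2425
import Cfsg.Agent.Elu.StSs

set_option autoImplicit false
open scoped MatrixGroups
open Cfsg

namespace Cfsg.Agent.S2425

/-- Values of the Steinberg character of `GL_n(q)` (the partition-indexed character for `ν = (1,…,1)`, of degree `q^(n(n−1)/2)`) at elements of order prime to the characteristic: if the characteristic polynomial of such an element is `∏ f^(m_f)` over distinct monic irreducible `f`, the value is `∏_f (−1)^((deg f − 1) m_f) q^(deg f · m_f (m_f − 1)/2)`. (At elements of order divisible by the characteristic the value is 0; that is not part of this statement.) -/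
theorem result {F : Type*} [Field F] [Fintype F] [DecidableEq F] {q : ℕ} (hq : Fintype.card F = q) (p : ℕ) [Fact p.Prime] [CharP F p]
    {n : ℕ} (x : GL (Fin n) F) (hx : (orderOf x).Coprime p) :
    Cfsg.unipotentCharacterGL n F (fun _ => 1) x =
      ∏ f ∈ (UniqueFactorizationMonoid.normalizedFactors (x : Matrix (Fin n) (Fin n) F).charpoly).toFinset,
        (-1 : ℂ) ^ ((f.natDegree - 1) * (UniqueFactorizationMonoid.normalizedFactors (x : Matrix (Fin n) (Fin n) F).charpoly).count f) *
          (q : ℂ) ^ (f.natDegree * (UniqueFactorizationMonoid.normalizedFactors (x : Matrix (Fin n) (Fin n) F).charpoly).count f *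
            ((UniqueFactorizationMonoid.normalizedFactors (x : Matrix (Fin n) (Fin n) F).charpoly).count f - 1) / 2) := by
  open Module Polynomial Finset Cfsg.Agent.Elu Cfsg.Agent.Classical in
  let f := Matrix.toLin' x.1
  have hr : ((orderOf x : ℕ) : F) ≠ 0 := fun h => (Nat.Prime.coprime_iff_not_dvd Fact.out).1 hx.symm
    ((CharP.cast_eq_zero_iff F p _).1 h)
  have hb := squarefree_X_pow_sub_one hr
  have h0 : aeval f (X ^ orderOf x - 1 : F[X]) = 0 := (aeval_X_pow_sub_one f _).2 (by
    rw [← Matrix.toLin'_pow, ← Units.val_pow_eq_pow_val, pow_orderOf_eq_one]; exact Matrix.toLin'_one)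
  have h1 : ∀ a ∈ elemDiv f, Irreducible a ∧ a.Monic := fun a ha =>
    (isPP_of_mem ha).irreducible_of_dvd hb (aeval_eq_zero_iff.1 h0 a ha)
  have h2 : UniqueFactorizationMonoid.normalizedFactors x.1.charpoly = elemDiv f := by
    rw [← Matrix.charpoly_toLin', charpoly_eq_prod, UniqueFactorizationMonoid.normalizedFactors_prod_eq _
      fun a ha => (h1 a ha).1, Multiset.map_congr rfl fun a ha => (h1 a ha).2.normalize_eq_self, Multiset.map_id']
  have h3 : ∀ g, Irreducible g → g.Monic → kd f g = g.natDegree * (elemDiv f).count g := fun g a b => by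
    classical
    rw [kd_eq, Multiset.map_congr rfl (g := fun c => if c = g then g.natDegree else 0) fun c hc => by
      rw [gdeg_irreducible (h1 c hc).1]
      exact if_ctx_congr ⟨fun e => eq_of_monic_of_associated (h1 c hc).2 b ((h1 c hc).1.associated_of_dvd a e),
        fun e => e ▸ dvd_rfl⟩ (fun e => e ▸ rfl) fun _ => rfl]
    induction elemDiv f using Multiset.induction_on with
    | empty => simp
    | cons c s ih => by_cases e : c = g <;> simp [ih, e, Ne.symm, mul_add, add_comm]
  have h6 := sum_mb (T := (elemDiv f).toFinset) hb h0 fun g => by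
    rw [Multiset.mem_toFinset]
    exact ⟨fun h => ⟨(h1 g h).1, (h1 g h).2, by simp [h3 g (h1 g h).1 (h1 g h).2, h, (h1 g h).1.natDegree_pos.ne']⟩,
      fun ⟨a, b, c⟩ => by_contra fun h => c (by simp [h3 g a b, h])⟩
  have h4 := jd_eq strictMono_IL (fun U => by convert h6 U) n ⟨⊥, Inv.bot _⟩
  have h5 := dsum_elemDiv f
  rw [if_pos (by rw [show (⊤ : IL f).1 = ⊤ from rfl]; simp), mb] at h4
  rw [finrank_fin_fun, dsum, Finset.sum_multiset_map_count] at h5
  rw [h2, unipotentCharacterGL, sum_congr rfl fun κ _ => if_ctx_congr Iff.rfl (fun h => by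
    rw [fix_eq (GLChar.sum_sub (by simp) h)]) fun _ => rfl]
  refine Eq.trans (by simp only [jd, ite_self, add_zero]; convert rfl) (h4.trans ?_)
  nth_rw 1 [← h5]
  rw [← prod_pow_eq_pow_sum, ← prod_mul_distrib]
  refine prod_congr rfl fun g hg => ?_
  obtain ⟨a, b⟩ := h1 g (Multiset.mem_toFinset.1 hg)
  obtain ⟨d, hd⟩ : ∃ d, g.natDegree = d + 1 := Nat.exists_eq_add_of_le' a.natDegree_pos
  rw [h3 g a b, inf_bot_eq, finrank_bot, Nat.sub_zero, Nat.mul_div_cancel_left _ a.natDegree_pos, hq,
    Nat.choose_two_right, mul_assoc g.natDegree, Nat.mul_div_assoc _ (Nat.even_mul_pred_self _).two_dvd, ← mul_assoc,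
    ← pow_add, hd, Nat.add_sub_cancel, smul_eq_mul, mul_add, mul_one, add_assoc, ← two_mul, pow_add, pow_mul (-1) 2,
    mul_comm d]
  simp

end Cfsg.Agent.S2425
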