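import Cfsg.Statements.S2426
import Cfsg.Agent.TwM.R1

set_option autoImplicit false
open Cfsg

namespace Cfsg.Agent.S2426

open Cfsg.Agent.Chev Cfsg.Lie

open Cfsg.Agent.TwM Cfsg.Agent.Classical

/-- The rank-one Steinberg presentation of `SL₂` over a finite field `K`: generators `x(t)`, `y(t)` (`t ∈ K`; the two opposite root subgroups) subject to additivity `x(t)x(u) = x(t+u)`, `y(t)y(u) = y(t+u)` and, with `w(t) = x(t) y(−t⁻¹) x(t)` and `w'(t) = y(t) x(−t⁻¹) y(t)` for `t ≠ 0`, the relations `w(t) x(u) w(t)⁻¹ = y(−t⁻² u)` and `w'(t) y(u) w'(t)⁻¹ = x(−t⁻² u)`, present `SL₂(K)`, with `x(t) ↦ (1 t; 0 1)` and `y(t) ↦ (1 0; t 1)`. -/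
theorem result {K : Type*} [Field K] [Finite K] :
    ∃ e : PresentedGroup
        ({g : FreeGroup (Bool × K) | ∃ (b : Bool) (t u : K), g = FreeGroup.of (b, t) * FreeGroup.of (b, u) * (FreeGroup.of (b, t + u))⁻¹} ∪
          {g | ∃ (b : Bool) (t u : K), t ≠ 0 ∧
            g = (FreeGroup.of (b, t) * FreeGroup.of (!b, -t⁻¹) * FreeGroup.of (b, t)) * FreeGroup.of (b, u) *
                  (FreeGroup.of (b, t) * FreeGroup.of (!b, -t⁻¹) * FreeGroup.of (b, t))⁻¹ * (FreeGroup.of (!b, -(t⁻¹ ^ 2 * u)))⁻¹})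
        ≃* Matrix.SpecialLinearGroup (Fin 2) K,
      (∀ t : K, ((e (PresentedGroup.of (true, t)) : Matrix (Fin 2) (Fin 2) K)) = !![1, t; 0, 1]) ∧
      (∀ t : K, ((e (PresentedGroup.of (false, t)) : Matrix (Fin 2) (Fin 2) K)) = !![1, 0; t, 1]) := by
  set R := ({g : FreeGroup (Bool × K) | ∃ (b : Bool) (t u : K), g = FreeGroup.of (b, t) * FreeGroup.of (b, u) * (FreeGroup.of (b, t + u))⁻¹} ∪
          {g | ∃ (b : Bool) (t u : K), t ≠ 0 ∧
            g = (FreeGroup.of (b, t) * FreeGroup.of (!b, -t⁻¹) * FreeGroup.of (b, t)) * FreeGroup.of (b, u) *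
                  (FreeGroup.of (b, t) * FreeGroup.of (!b, -t⁻¹) * FreeGroup.of (b, t))⁻¹ * (FreeGroup.of (!b, -(t⁻¹ ^ 2 * u)))⁻¹})
  let x : Bool → K → PresentedGroup R := fun b t => .of (b, t)
  have h1 : ∀ b t u, x b (t + u) = x b t * x b u := fun b t u =>
    (mul_inv_eq_one.1 (PresentedGroup.one_of_mem (rels := R) (.inl ⟨b, t, u, rfl⟩))).symm
  have h2 : ∀ b t, t ≠ 0 → ∀ u, x b t * x (!b) (-t⁻¹) * x b t * x b u =
      x (!b) (-(t⁻¹ ^ 2 * u)) * (x b t * x (!b) (-t⁻¹) * x b t) := fun b t ht u =>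
    mul_inv_eq_iff_eq_mul.1 (mul_inv_eq_one.1 (PresentedGroup.one_of_mem (rels := R) (.inr ⟨b, t, u, ht, rfl⟩)))
  let X : R1 K (PresentedGroup R) := ⟨x true, x false, h1 _, h1 _,
    fun t ht u => by rw [div_eq_inv_mul, ← inv_pow]; exact h2 true t ht u, fun t ht u => by
      have e1 := h2 true t ht t
      have e2 := h2 false (-t⁻¹) (by simpa) u
      rw [show -(t⁻¹ ^ 2 * t) = -t⁻¹ by field_simp, ← mul_assoc, ← mul_assoc, mul_left_inj] at e1
      simp only [inv_neg, inv_inv, neg_neg, neg_sq, Bool.not_false, Bool.not_true] at e1 e2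
      rw [e1, e2]⟩
  obtain ⟨φ, hφ, hφ'⟩ := X.exists_hom
  let f : Bool × K → Matrix.SpecialLinearGroup (Fin 2) K := fun p => if p.1 then uSL p.2 else lSL p.2
  have hf : ∀ r ∈ R, FreeGroup.lift f r = 1 := by
    rintro _ (⟨b, t, u, rfl⟩ | ⟨b, t, u, ht, rfl⟩)
    · cases b <;> simp [f, uSL_add, lSL_add]
    · simp only [map_mul, map_inv, FreeGroup.lift_apply_of, mul_inv_eq_one, mul_inv_eq_iff_eq_mul]
      cases b <;> ext i j <;> fin_cases i <;> fin_cases j <;> simp [f, ht] <;> field_simp <;> ring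
  refine ⟨MonoidHom.toMulEquiv (PresentedGroup.toGroup hf) φ (PresentedGroup.ext fun p => ?_)
    (Ree.SL2_hom_ext (fun t => ?_) fun t => ?_), fun t => ?_, fun t => ?_⟩
  · obtain ⟨_ | _, t⟩ := p <;> simp [f, hφ, hφ', X, x]
  all_goals simp [f, hφ, hφ', X, x]

end Cfsg.Agent.S2426
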