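import Cfsg.Statements.S2429
import Cfsg.Agent.Classical.SL2Norm

set_option autoImplicit false
open Cfsg

namespace Cfsg.Agent.S2429

open Cfsg.Agent.Classical

/-- Let F be a finite field with q elements, q odd. Then SL₂ over F contains a cyclic subgroup T′ of order q + 1 (a non-split torus) with the following properties: T′ is its own centraliser, and indeed the centraliser of each element of T′ other than 1 and −1 is exactly T′; every element of SL₂ having no eigenvector in F² is conjugate to an element of T′; the normaliser of T′ has order 2(q + 1) and exactly (q + 7)/2 conjugacy classes; and every element of that normaliser outside T′ has square −1. -/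
theorem result {F : Type*} [Field F] [Fintype F] (hodd : Odd (Fintype.card F)) :
    ∃ T' : Subgroup (Matrix.SpecialLinearGroup (Fin 2) F), IsCyclic T' ∧ Nat.card T' = Fintype.card F + 1 ∧
      Subgroup.centralizer ((T' : Set (Matrix.SpecialLinearGroup (Fin 2) F))) = T' ∧
      (∀ g : Matrix.SpecialLinearGroup (Fin 2) F, g ∈ T' → (g : Matrix (Fin 2) (Fin 2) F) ≠ 1 → (g : Matrix (Fin 2) (Fin 2) F) ≠ -1 → Subgroup.centralizer ({g} : Set (Matrix.SpecialLinearGroup (Fin 2) F)) = T') ∧
      (∀ g : Matrix.SpecialLinearGroup (Fin 2) F, (∀ (c : F) (v : Fin 2 → F), v ≠ 0 → (g : Matrix (Fin 2) (Fin 2) F).mulVec v ≠ c • v) → ∃ h : Matrix.SpecialLinearGroup (Fin 2) F, h * g * h⁻¹ ∈ T') ∧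
      Nat.card (Subgroup.normalizer (T' : Set (Matrix.SpecialLinearGroup (Fin 2) F))) = 2 * (Fintype.card F + 1) ∧
      Nat.card (ConjClasses (Subgroup.normalizer (T' : Set (Matrix.SpecialLinearGroup (Fin 2) F)))) = (Fintype.card F + 7) / 2 ∧
      ∀ g : Matrix.SpecialLinearGroup (Fin 2) F, g ∈ Subgroup.normalizer (T' : Set (Matrix.SpecialLinearGroup (Fin 2) F)) → g ∉ T' → ((g * g) : Matrix (Fin 2) (Fin 2) F) = -1 := by
  rw [← Nat.card_eq_fintype_card] at hodd ⊢
  obtain ⟨t, ht⟩ := sl_exists_noEig (F := F)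
  have hd := ht.disc_ne_zero
  have hc := sl_card_centralizer_noEig ht
  have h1 := sl_card_conjClasses_normalizer (two_ne_zero_iff_odd.2 hodd) hd
  refine ⟨_, sl_isCyclic_centralizer hd, hc, centralizer_centralizer_SL ht.not_isScal,
    fun g hg h1 h2 => sl_centralizer_eq_of_mem ht.not_isScal (fun h => ?_) hg,
    fun g hg => sl_exists_conj_mem_centralizer hd (noEig_iff.2 hg).disc_ne_zero
      (iff_of_true (noEig_iff.2 hg) ht), ?_, by omega,
    fun g h1 h2 => congrArg Subtype.val (sl_sq_of_mem_normalizer hd h1 h2)⟩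
  · rcases sl_isScal_iff.1 h with rfl | rfl
    exacts [h1 rfl, h2 rfl]
  · rw [sl_card_normalizer hd (sl_self_mem_centralizer _) le_rfl, hc]

end Cfsg.Agent.S2429
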