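import Cfsg.Statements.S2430
import Cfsg.Agent.Classical.SL2Norm

set_option autoImplicit false
open Cfsg

namespace Cfsg.Agent.S2430

open Cfsg.Agent.Classical

/-- Let F be a finite field with q elements, q odd, ℓ an odd prime, and P a Sylow ℓ-subgroup of SL₂ over F. If ℓ divides q − 1, the centraliser of P is cyclic of order q − 1 (a split torus) and the normaliser of P has order 2(q − 1); if ℓ divides q + 1, the centraliser of P is cyclic of order q + 1 (a non-split torus) and the normaliser of P has order 2(q + 1). -/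
theorem result {F : Type*} [Field F] [Fintype F] (hodd : Odd (Fintype.card F)) (ℓ : ℕ) [Fact ℓ.Prime] (hℓ : ℓ ≠ 2)
    (P : Sylow ℓ (Matrix.SpecialLinearGroup (Fin 2) F)) :
    (ℓ ∣ Fintype.card F - 1 →
      Nat.card (Subgroup.centralizer ((P : Subgroup (Matrix.SpecialLinearGroup (Fin 2) F)) : Set (Matrix.SpecialLinearGroup (Fin 2) F))) = Fintype.card F - 1 ∧
      IsCyclic (Subgroup.centralizer ((P : Subgroup (Matrix.SpecialLinearGroup (Fin 2) F)) : Set (Matrix.SpecialLinearGroup (Fin 2) F))) ∧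
      Nat.card (Subgroup.normalizer ((P : Subgroup (Matrix.SpecialLinearGroup (Fin 2) F)) : Set (Matrix.SpecialLinearGroup (Fin 2) F))) = 2 * (Fintype.card F - 1)) ∧
    (ℓ ∣ Fintype.card F + 1 →
      Nat.card (Subgroup.centralizer ((P : Subgroup (Matrix.SpecialLinearGroup (Fin 2) F)) : Set (Matrix.SpecialLinearGroup (Fin 2) F))) = Fintype.card F + 1 ∧
      IsCyclic (Subgroup.centralizer ((P : Subgroup (Matrix.SpecialLinearGroup (Fin 2) F)) : Set (Matrix.SpecialLinearGroup (Fin 2) F))) ∧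
      Nat.card (Subgroup.normalizer ((P : Subgroup (Matrix.SpecialLinearGroup (Fin 2) F)) : Set (Matrix.SpecialLinearGroup (Fin 2) F))) = 2 * (Fintype.card F + 1)) := by
  rw [← Nat.card_eq_fintype_card] at hodd ⊢
  have hq := one_lt_card_field (F := F)
  have hp : ℓ.Prime := Fact.out
  have h2 : ¬ ℓ ∣ 2 := fun h => hℓ ((Nat.prime_dvd_prime_iff_eq hp Nat.prime_two).1 h)
  have hn : ¬ (ℓ ∣ Nat.card F - 1 ∧ ℓ ∣ Nat.card F + 1) := fun h => h2 <| by
    have := Nat.dvd_sub h.2 h.1
    rwa [show Nat.card F + 1 - (Nat.card F - 1) = 2 by omega] at this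
  constructor <;> intro h
  · obtain ⟨t, hd, h1, h3, h4⟩ := sl_sylow_odd hℓ (fun h' => hp.one_lt.ne' (Nat.dvd_one.1 (by
      have := Nat.dvd_sub h' h
      rwa [show Nat.card F - (Nat.card F - 1) = 1 by omega] at this)))
      (card_SL2 (F := F) ▸ (h.mul_left _).mul_right _) P
    have hc := sl_card_centralizer_split hd fun h' =>
      hn ⟨h, h3.trans (orderOf_dvd_of_pow_eq_one (sl_pow_eq_one_noEig h'))⟩
    rw [h4, h1, sl_card_normalizer hd (Subgroup.mem_zpowers t)
      (Subgroup.zpowers_le.2 (sl_self_mem_centralizer t)), hc]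
    exact ⟨rfl, sl_isCyclic_centralizer hd, rfl⟩
  · obtain ⟨t, hd, h1, h3, h4⟩ := sl_sylow_odd hℓ (fun h' => hp.one_lt.ne' (Nat.dvd_one.1
      ((Nat.dvd_add_right h').1 h))) (card_SL2 (F := F) ▸ h.mul_left _) P
    have hc := sl_card_centralizer_noEig (g := t) (by_contra fun h' =>
      hn ⟨h3.trans (orderOf_dvd_of_pow_eq_one (sl_pow_eq_one_split hd h')), h⟩)
    rw [h4, h1, sl_card_normalizer hd (Subgroup.mem_zpowers t)
      (Subgroup.zpowers_le.2 (sl_self_mem_centralizer t)), hc]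
    exact ⟨rfl, sl_isCyclic_centralizer hd, rfl⟩

end Cfsg.Agent.S2430
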