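import Cfsg.Statements.S2434
import Cfsg.Agent.Classical.SL2CharDeg

set_option autoImplicit false
open Cfsg

namespace Cfsg.Agent.S2434

open Cfsg.Agent.Classical Cfsg.Agent.Char Cfsg.Agent.CharDeep Matrix

/-- Let F be a finite field with q elements, q odd, and C a cyclic subgroup of order q + 1 of SL₂ over F (a non-split torus; it contains the centre). For every homomorphism θ from C to the non-zero complex numbers with θ² ≠ 1 there is an irreducible complex character χ of degree q − 1 such that χ(c) = −θ(c) − θ(c)⁻¹ for every non-central c in C, χ(zg) = θ(z)χ(g) for central z in C, χ vanishes at diagonal elements with entry a, a² ≠ 1, and χ takes the value −1 at every upper unitriangular element other than 1. Conversely every irreducible character of degree q − 1 has, for some such θ, the values −θ(c) − θ(c)⁻¹ at the non-central elements c of C (for q ≥ 5 these are exactly the cuspidal characters of degree q − 1). -/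
theorem result {F : Type*} [Field F] [Fintype F] (hodd : Odd (Fintype.card F))
    (C : Subgroup (Matrix.SpecialLinearGroup (Fin 2) F)) (hC : IsCyclic C) (hcard : Nat.card C = Fintype.card F + 1) :
    (∀ θ : C →* ℂˣ, (∃ c : C, θ c ^ 2 ≠ 1) →
      ∃ χ : Matrix.SpecialLinearGroup (Fin 2) F → ℂ, Cfsg.IsIrrCharacter (Matrix.SpecialLinearGroup (Fin 2) F) χ ∧ χ 1 = (Fintype.card F : ℂ) - 1 ∧
        (∀ c : C, (c : Matrix.SpecialLinearGroup (Fin 2) F) ∉ Subgroup.center (Matrix.SpecialLinearGroup (Fin 2) F) → χ c = -((θ c).val + (θ c)⁻¹.val)) ∧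
        (∀ c : C, (c : Matrix.SpecialLinearGroup (Fin 2) F) ∈ Subgroup.center (Matrix.SpecialLinearGroup (Fin 2) F) → ∀ g : Matrix.SpecialLinearGroup (Fin 2) F, χ ((c : Matrix.SpecialLinearGroup (Fin 2) F) * g) = (θ c).val * χ g) ∧
        (∀ g : Matrix.SpecialLinearGroup (Fin 2) F, (g : Matrix (Fin 2) (Fin 2) F) 0 1 = 0 → (g : Matrix (Fin 2) (Fin 2) F) 1 0 = 0 → (g : Matrix (Fin 2) (Fin 2) F) 0 0 ^ 2 ≠ 1 → χ g = 0) ∧
        (∀ g : Matrix.SpecialLinearGroup (Fin 2) F, (g : Matrix (Fin 2) (Fin 2) F) 1 0 = 0 → (g : Matrix (Fin 2) (Fin 2) F) 0 0 = 1 → (g : Matrix (Fin 2) (Fin 2) F) 1 1 = 1 → (g : Matrix (Fin 2) (Fin 2) F) 0 1 ≠ 0 → χ g = -1)) ∧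
    (∀ χ : Matrix.SpecialLinearGroup (Fin 2) F → ℂ, Cfsg.IsIrrCharacter (Matrix.SpecialLinearGroup (Fin 2) F) χ → χ 1 = (Fintype.card F : ℂ) - 1 →
      ∃ θ : C →* ℂˣ, (∃ c : C, θ c ^ 2 ≠ 1) ∧
        ∀ c : C, (c : Matrix.SpecialLinearGroup (Fin 2) F) ∉ Subgroup.center (Matrix.SpecialLinearGroup (Fin 2) F) → χ c = -((θ c).val + (θ c)⁻¹.val)) := by
  classical
  have h2 : (2 : F) ≠ 0 := two_ne_zero_iff_odd.2 (by rwa [Nat.card_eq_fintype_card])
  obtain ⟨t, ht, rfl⟩ := exists_eq_centralizer_of_card_succ hC (by rwa [Nat.card_eq_fintype_card (α := F)])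
  have hq1 := Fintype.one_lt_card (α := F)
  refine ⟨fun θ hθ => ?_, fun χ hχ h => ?_⟩
  · have hθ' : θ ≠ θ⁻¹ := by simpa [hom_eq_inv_iff] using hθ
    refine ⟨Ps ht θ, isIrr_Ps ht hθ', Ps_one ht θ,
      fun c hc => Ps_torus ht θ (mt sl_mem_center_iff.2 hc), fun c hc g => ?_,
      fun g h01 h10 h => Ps_split ht θ h10 ((sl_diag_ne_iff h01).2 h),
      fun g h10 h00 h11 h01 => by rw [sl_eq_uSL h10 h00 h11]; exact Ps_uSL ht θ h01⟩
    obtain ⟨l, hl⟩ := (isIrr_Ps ht hθ').exists_hom_of_le_center _ le_rfl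
    have e := hl ⟨c, hc⟩ 1
    rw [mul_one, Ps_scal ht θ (sl_mem_center_iff.1 hc), Ps_one, mul_comm] at e
    rw [hl ⟨c, hc⟩ g, mul_right_cancel₀ cast_card_sub_one_ne_zero e]
  · obtain ⟨k, hk⟩ := hodd
    rcases sl_irr_cases' ht hχ (n := Fintype.card F - 1) (by simpa using h) with
        ⟨e, -⟩ | ⟨e, -⟩ | ⟨e, -⟩ | ⟨e, θ, h1, rfl⟩ | ⟨e1, α, -, -, e⟩ | ⟨e, -⟩
    any_goals omega
    · exact ⟨θ, by simpa [hom_eq_inv_iff] using h1,
        fun c hc => Ps_torus ht θ (mt sl_mem_center_iff.2 hc)⟩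
    · obtain ⟨θ, hθ⟩ := exists_hom_ne_inv ht
      refine ⟨θ, by simpa [hom_eq_inv_iff] using hθ, fun c hc => ?_⟩
      have hc' := mt sl_mem_center_iff.2 hc
      have hn := (sl_disc_of_mem_centralizer ht.disc_ne_zero hc' c.2).2.2 ht
      rw [three_hom_add_inv (by rw [Nat.card_eq_fintype_card]; omega) ht hθ hc']
      simpa [Rs_noEig _ hn] using e.two_mul_apply h2 (Or.inr hn.disc_ne_zero)

end Cfsg.Agent.S2434
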