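import Cfsg.Statements.S2435
import Cfsg.Agent.Classical.SL2CharDeg

set_option autoImplicit false
open Cfsg

namespace Cfsg.Agent.S2435

open Cfsg.Agent.Classical Cfsg.Agent.Char Cfsg.Agent.CharDeep Matrix

/-- Let F be a finite field with q elements, q odd and q ≥ 5, and χ an irreducible complex character of SL₂ over F. If χ has degree (q + 1)/2, then at a diagonal element with entry a, a² ≠ 1, χ takes the value 1 when a is a square in F and −1 otherwise. If χ has degree (q − 1)/2, then at an element g with no eigenvector in F² (so g has order dividing q + 1), χ takes the value −1 when g raised to the power (q + 1)/2 is the identity and the value 1 otherwise. -/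
theorem result {F : Type*} [Field F] [Fintype F] (hodd : Odd (Fintype.card F)) (hq : 5 ≤ Fintype.card F)
    (χ : Matrix.SpecialLinearGroup (Fin 2) F → ℂ) (hχ : Cfsg.IsIrrCharacter (Matrix.SpecialLinearGroup (Fin 2) F) χ) (g : Matrix.SpecialLinearGroup (Fin 2) F) :
    (χ 1 = (((Fintype.card F + 1) / 2 : ℕ) : ℂ) → (g : Matrix (Fin 2) (Fin 2) F) 0 1 = 0 → (g : Matrix (Fin 2) (Fin 2) F) 1 0 = 0 → (g : Matrix (Fin 2) (Fin 2) F) 0 0 ^ 2 ≠ 1 →
      (IsSquare ((g : Matrix (Fin 2) (Fin 2) F) 0 0) → χ g = 1) ∧ (¬ IsSquare ((g : Matrix (Fin 2) (Fin 2) F) 0 0) → χ g = -1)) ∧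
    (χ 1 = (((Fintype.card F - 1) / 2 : ℕ) : ℂ) → (∀ (c : F) (v : Fin 2 → F), v ≠ 0 → (g : Matrix (Fin 2) (Fin 2) F).mulVec v ≠ c • v) →
      (((g ^ ((Fintype.card F + 1) / 2)) : Matrix (Fin 2) (Fin 2) F) = 1 → χ g = -1) ∧ (((g ^ ((Fintype.card F + 1) / 2)) : Matrix (Fin 2) (Fin 2) F) ≠ 1 → χ g = 1)) := by
  classical
  have h2 : (2 : F) ≠ 0 := two_ne_zero_iff_odd.2 (by rwa [Nat.card_eq_fintype_card])
  refine ⟨fun h h01 h10 hne => ?_, fun h hg => ?_⟩
  · obtain ⟨α, h1, h3, e⟩ := sl_irr_deg_half_succ hodd hq hχ h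
    have hne' := (sl_diag_ne_iff h01).2 hne
    have hm := sl_diag_mul h01
    have e1 := e.two_mul_apply h2 (Or.inr (disc_ne_zero_of_diag h10 hne'))
    have e2 : α (g.1 0 0) * α (g.1 1 1) = 1 := by rw [← map_mul, hm, map_one]
    rw [Rs_split _ h10 hne'] at e1
    refine ⟨fun hs => ?_, fun hs => ?_⟩
    · rw [mulChar_apply_of_sq_eq_one h3 (left_ne_zero_of_mul_eq_one hm) hs] at e1 e2
      linear_combination e1 / 2 + e2 / 2
    · rw [mulChar_apply_of_not_isSquare h1 h3 hs] at e1 e2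
      linear_combination e1 / 2 - e2 / 2
  · have ht := noEig_iff.2 hg
    obtain ⟨θ, h1, h3, e⟩ := sl_irr_deg_half_pred ht hodd hq hχ h
    have e1 := e.two_mul_apply h2 (Or.inr ht.disc_ne_zero)
    have := sl_isCyclic_centralizer ht.disc_ne_zero
    have e2 := quadratic_hom_apply (m := (Fintype.card F + 1) / 2) (by
      rw [sl_card_centralizer_noEig ht, Nat.card_eq_fintype_card]
      obtain ⟨k, hk⟩ := hodd; omega) h1 h3 ⟨g, sl_self_mem_centralizer g⟩
    rw [Ps_torus ht θ (c := ⟨g, sl_self_mem_centralizer g⟩) ht.not_isScal] at e1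
    refine ⟨fun hs => ?_, fun hs => ?_⟩
    · rw [e2.1 (Subtype.ext (Subtype.ext hs))] at e1
      simp only [Units.val_one, inv_one] at e1
      linear_combination e1 / 2
    · rw [e2.2 fun h => hs (congrArg (fun x => x.1.1) h)] at e1
      simp only [Units.val_neg, Units.val_one, inv_neg, inv_one] at e1
      linear_combination e1 / 2

end Cfsg.Agent.S2435
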