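import Cfsg.Statements.S2436
import Cfsg.Agent.S2299
import Cfsg.Agent.S2431
import Cfsg.Agent.ABG.SL23
import Cfsg.Agent.Classical.SL2Norm
import Cfsg.Agent.Classical.SL2CharDeg
import Cfsg.Agent.CharDeep.Extend

set_option autoImplicit false
open Cfsg

namespace Cfsg.Agent.S2436

open Cfsg.Agent.Classical Cfsg.Agent.Char Cfsg.Agent.CharDeep Subgroup MatrixGroups

variable {G H : Type*} [Group G] [Group H] {l : ℕ}

/-- The number of irreducible characters of degree prime to `l`. -/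
noncomputable def np (l : ℕ) (G : Type*) [Group G] : ℕ :=
  Nat.card {χ : IrrCharacter G // ¬ l ∣ charDegree (χ : G → ℂ)}

/-- The number of irreducible characters of degree `d`. -/
noncomputable def cnt (G : Type*) [Group G] (d : ℕ) : ℕ := Nat.card {χ : IrrCharacter G // χ.1 1 = d}

theorem np_congr (e : G ≃* H) : np l G = np l H :=
  Nat.card_congr ⟨fun χ => ⟨⟨_, χ.1.2.comp_equiv e.symm⟩, by simpa [charDegree] using χ.2⟩,
    fun χ => ⟨⟨_, χ.1.2.comp_equiv e⟩, by simpa [charDegree] using χ.2⟩,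
    fun _ => by simp, fun _ => by simp⟩

theorem np_ab [Finite G] (A : Subgroup G) [A.Normal] (hA : ∀ a ∈ A, ∀ b ∈ A, a * b = b * a)
    (h : ¬ l ∣ A.index) : np l G = Nat.card (ConjClasses G) := by
  rw [← card_irr_eq_card_conjClasses]
  exact Nat.card_congr (Equiv.subtypeUnivEquiv fun χ e =>
    h (e.trans (charDegree_dvd_index_of_abelian A hA χ.2)))

theorem sum_deg [Fintype (IrrCharacter G)] {s : Finset ℕ} (hs : ∀ χ : IrrCharacter G, charDegree χ.1 ∈ s)
    (g : ℕ → ℕ) : ∑ χ : IrrCharacter G, g (charDegree χ.1) = ∑ d ∈ s, cnt G d * g d := by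
  classical
  rw [← Finset.sum_fiberwise_of_maps_to (fun χ _ => hs χ)]
  refine Finset.sum_congr rfl fun d _ => ?_
  rw [Finset.sum_congr rfl fun χ h => by rw [(Finset.mem_filter.1 h).2], Finset.sum_const, smul_eq_mul, cnt,
    Nat.card_eq_fintype_card, Fintype.card_subtype]
  congr 2
  ext χ
  simp [χ.2.apply_one_eq_charDegree]

theorem np_eq [Finite G] {s : Finset ℕ} (hs : ∀ χ : IrrCharacter G, charDegree χ.1 ∈ s) :
    np l G = ∑ d ∈ s, cnt G d * if l ∣ d then 0 else 1 := by
  classical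
  have := Fintype.ofFinite (IrrCharacter G)
  rw [← sum_deg hs fun d => if l ∣ d then 0 else 1, np, Nat.card_eq_fintype_card, Fintype.card_subtype,
    Finset.card_filter]
  simp

theorem np_quat {n : ℕ} [NeZero n]  : np 2 (QuaternionGroup n) = 4 := by
  open QuaternionGroup in
  let T := zpowers (a 1 : QuaternionGroup n)
  have mT : ∀ x, x ∈ T ↔ ∃ i, x = a i := fun x => ⟨by
    rw [← mem_powers_iff_mem_zpowers]; rintro ⟨k, rfl⟩; exact ⟨k, a_one_pow k⟩, by
    rintro ⟨i, rfl⟩; exact mem_powers_iff_mem_zpowers.1 ⟨i.val, (a_one_pow _).trans (by simp)⟩⟩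
  have c1 : Nat.card T = 2 * n := by rw [Nat.card_zpowers, orderOf_a_one]
  have c2 : Nat.card (QuaternionGroup n) = 4 * n := by rw [Nat.card_eq_fintype_card, QuaternionGroup.card]
  have c3 : T.index = 2 := by
    have := T.index_mul_card; have := NeZero.pos n
    rw [c1, c2] at *; nlinarith
  have cm : ∀ x ∈ T, ∀ y ∈ T, x * y = y * x := fun x hx y hy => setLike_mul_comm hx hy
  have c4 := two_mul_card_conjClasses_of_inverting T c3 cm fun x hx t ht => by
    obtain ⟨i, rfl⟩ := (mT t).1 ht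
    rcases x with j | j
    · exact (hx ((mT _).2 ⟨j, rfl⟩)).elim
    · rw [mul_inv_eq_iff_eq_mul, eq_inv_mul_iff_mul_eq]; simp
  have c5 : Nat.card {t : T // t ^ 2 = 1} = 2 := by
    letI := IsCyclic.commGroup (α := T)
    exact (IsCyclic.card_powMonoidHom_ker T 2).trans (by rw [c1]; simp)
  have := T.normal_of_index_eq_two c3
  have hs : ∀ χ : IrrCharacter (QuaternionGroup n), charDegree χ.1 ∈ ({1, 2} : Finset ℕ) := fun χ => by
    simpa using (Nat.dvd_prime Nat.prime_two).1 (c3 ▸ charDegree_dvd_index_of_abelian T cm χ.2)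
  have h1 := sum_deg hs fun _ => 1
  have h2 := sum_deg hs fun d => d ^ 2
  rw [sum_charDegree_sq, c2] at h2
  rw [Finset.sum_const, Finset.card_univ, ← Nat.card_eq_fintype_card, card_irr_eq_card_conjClasses] at h1
  rw [np_eq hs]
  rw [c1, c5] at c4
  simp only [Finset.mem_singleton, OfNat.one_ne_ofNat, not_false_eq_true, Finset.sum_insert,
    Finset.sum_singleton, smul_eq_mul] at h1 h2 ⊢
  simp
  omega

theorem np_syl [Finite G] [Fact l.Prime] (S : Sylow l G) (h : ∀ a ∈ S.1, ∀ b ∈ S.1, a * b = b * a) :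
    np l (normalizer (S.1 : Set G)) = Nat.card (ConjClasses (normalizer (S.1 : Set G))) :=
  np_ab (S.1.subgroupOf _) (fun a ha b hb => Subtype.ext (h _ ha _ hb)) fun e =>
    S.not_dvd_index (e.trans (relIndex_dvd_index_of_le le_normalizer))

/-- Let F be a finite field with q elements, q odd, ℓ any prime and S a Sylow ℓ-subgroup of SL₂ over F with normaliser N. Then SL₂ and N have the same number of irreducible complex characters of degree not divisible by ℓ (the McKay equality holds for SL₂ over F at every prime). -/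
theorem result {F : Type*} [Field F] [Fintype F] (hodd : Odd (Fintype.card F)) (ℓ : ℕ) [Fact ℓ.Prime] (S : Sylow ℓ (Matrix.SpecialLinearGroup (Fin 2) F)) :
    Nat.card {χ : Cfsg.IrrCharacter (Matrix.SpecialLinearGroup (Fin 2) F) // ¬ ℓ ∣ Cfsg.charDegree (χ : Matrix.SpecialLinearGroup (Fin 2) F → ℂ)} =
      Nat.card {ψ : Cfsg.IrrCharacter (Subgroup.normalizer ((S : Subgroup (Matrix.SpecialLinearGroup (Fin 2) F)) : Set (Matrix.SpecialLinearGroup (Fin 2) F))) //
        ¬ ℓ ∣ Cfsg.charDegree (ψ : Subgroup.normalizer ((S : Subgroup (Matrix.SpecialLinearGroup (Fin 2) F)) : Set (Matrix.SpecialLinearGroup (Fin 2) F)) → ℂ)} := by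
  classical
  change np ℓ _ = np ℓ _
  have hl : ℓ.Prime := Fact.out
  have h2 : (2 : F) ≠ 0 := two_ne_zero_iff_odd.2 (by rwa [Nat.card_eq_fintype_card])
  have hq := Fintype.one_lt_card (α := F)
  have hG := card_SL2 (F := F)
  have top : S.1.Normal → np ℓ SL(2, F) = np ℓ (normalizer (S.1 : Set SL(2, F))) := fun h =>
    (np_congr ((MulEquiv.subgroupCongr (normalizer_eq_top _)).trans topEquiv)).symm
  by_cases h0 : ¬ ℓ ∣ Nat.card SL(2, F)
  · refine top (by
      rw [eq_bot_of_card_eq S.1 (by rw [S.card_eq_multiplicity, Nat.factorization_eq_zero_of_not_dvd h0]; rfl)]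
      infer_instance)
  rw [not_not] at h0
  obtain ⟨d1, d2⟩ := S2299.result hodd
  obtain ⟨p, hc⟩ := CharP.exists F
  obtain ⟨n, hp, hn⟩ := FiniteField.card F p
  have := Fact.mk hp
  by_cases h1 : ℓ ∣ Fintype.card F
  · obtain rfl : ℓ = p := (Nat.prime_dvd_prime_iff_eq hl hp).1 (hl.dvd_of_dvd_pow (hn ▸ h1))
    have H := unipAct_SL (F := F) ℓ
    have hX := not_char_dvd_card_P1 F ℓ
    have a1 : ∀ (x : P1 F) (P : Sylow ℓ SL(2, F)), P.1 = H.U x →
        normalizer (P.1 : Set SL(2, F)) = MulAction.stabilizer _ x := fun x P hP => by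
      refine le_antisymm (fun y hy => ?_) (hP ▸ H.stabilizer_le_normalizer _)
      obtain ⟨u, a2, a3⟩ := (bot_or_exists_ne_one _).resolve_left (P.ne_bot_of_dvd_card h0)
      have a4 := (mem_normalizer_iff''.1 hy _).1 a2
      rw [hP, H.mem_U] at a2 a4
      refine sl_unique_fixed ℓ a3 a2.1 ?_ a2.2
      rw [← mul_smul, ← inv_smul_eq_iff, ← mul_smul, ← mul_assoc, a4.2]
    obtain ⟨P, hP⟩ := H.exists_sylow hX inf
    obtain ⟨x, hx⟩ := H.exists_sylow_eq hX S
    obtain ⟨g, hg⟩ := MulAction.exists_smul_eq SL(2, F) x inf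
    rw [a1 x S hx, np_congr (MulAction.stabilizerEquivStabilizer hg.symm), ← a1 _ P hP, np_syl P fun a ha b hb => by
      rw [hP, mem_unipSL_inf] at ha hb
      obtain ⟨a, rfl⟩ := ha
      obtain ⟨b, rfl⟩ := hb
      rw [← uSL_add, add_comm, uSL_add], a1 _ P hP, ← BSL_eq_stabilizer, card_conjClasses_BSL h2, np,
      card_ne_of_card_eq, card_irr_eq_card_conjClasses, card_conjClasses_SL2_odd h2,
      card_irr_eq_one (P := fun χ => ℓ ∣ charDegree χ) isIrr_Sts (charDegree_Sts (F := F) ▸ h1) fun χ a b =>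
        (charDegree_sl_dvd a).resolve_right (not_or.2 ⟨fun e => hp.not_dvd_one
          ((Nat.dvd_add_right h1).1 (b.trans e)), fun e => not_char_dvd_card_pred F ℓ
          (Nat.card_eq_fintype_card (α := F) ▸ b.trans e)⟩)]
    rfl
  obtain ⟨m, hm⟩ := hodd
  have hs : ∀ χ : IrrCharacter SL(2, F), charDegree χ.1 ∈ ({1, 2 * m + 1, 2 * m + 2, 2 * m, m + 1, m} : Finset ℕ) :=
    fun χ => by
      have := d1 _ χ.2
      rw [χ.2.apply_one_eq_charDegree, hm, show (2 * m + 1 + 1) / 2 = m + 1 by omega,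
        show (2 * m + 1 - 1) / 2 = m by omega, Nat.cast_add_one (2 * m), add_sub_cancel_right] at this
      simp only [Finset.mem_insert, Finset.mem_singleton]
      exact_mod_cast this
  have h5 : 2 ≤ m → np ℓ SL(2, F) = 2 + (m - 1) * (if ℓ ∣ 2 * m + 2 then 0 else 1) + m * (if ℓ ∣ 2 * m then 0 else 1)
      + 2 * (if ℓ ∣ m + 1 then 0 else 1) + 2 * (if ℓ ∣ m then 0 else 1) := fun h => by
    obtain ⟨b1, b2, b3, b4, b5, b6⟩ := d2 (by omega)
    rw [hm] at b2 b3 b4 b5 b6 h1
    rw [show (2 * m + 1 + 1) / 2 = m + 1 by omega] at b5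
    rw [show (2 * m + 1 - 1) / 2 = m by omega] at b4 b6
    rw [Nat.cast_add_one (2 * m), add_sub_cancel_right] at b4
    rw [← Nat.cast_add_one, show (2 * m + 1 - 3) / 2 = m - 1 by omega] at b3
    rw [← Nat.cast_one] at b1
    rw [np_eq hs]
    iterate 5 rw [Finset.sum_insert (by simp only [Finset.mem_insert, Finset.mem_singleton]; omega)]
    rw [Finset.sum_singleton, if_neg h1, if_neg hl.not_dvd_one, cnt, cnt, cnt, cnt, cnt, cnt, b1, b2, b3, b4, b5, b6]
    ring
  have hm' : Nat.card F = 2 * m + 1 := Nat.card_eq_fintype_card.trans hm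
  rcases eq_or_ne ℓ 2 with rfl | h3
  · rcases (show m = 1 ∨ 2 ≤ m by omega) with rfl | h4
    · exact top (sl23_sylow hm' S).1
    obtain ⟨c1, c2, c3⟩ := S2431.result ⟨m, hm⟩ S
    obtain ⟨k, hk, ⟨e⟩⟩ := sl_sylow_two_equiv h2 S
    refine ((h5 h4).trans (by split_ifs <;> omega)).trans (Eq.symm (b := 4) ?_)
    by_cases h6 : Fintype.card F % 8 = 1 ∨ Fintype.card F % 8 = 7
    · rw [c2 h6, np_congr e, np_quat]
    obtain rfl : k = 1 := by
      by_contra h7
      have := (isPGroup_normalizer_quaternion h2 (by omega) e).exists_card_eq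
      rw [c3 (by omega)] at this
      obtain ⟨j, hj⟩ := this
      exact absurd (Nat.prime_three.dvd_of_dvd_pow ⟨_, hj.symm⟩) (by decide)
    have c4 : Nat.card S = 8 := by rw [Nat.card_congr e.toEquiv, Nat.card_eq_fintype_card, QuaternionGroup.card]; rfl
    have := Fact.mk Nat.prime_three
    have c5 := c3 (by omega)
    obtain ⟨g, hg⟩ := exists_prime_orderOf_dvd_card' (G := normalizer (S.1 : Set SL(2, F))) 3 ⟨_, c5⟩
    rw [← orderOf_coe] at hg
    obtain ⟨f⟩ := ABG.equiv_SL23 (F := ZMod 3) (by simp) e g.2 hg fun h => by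
      have := Subgroup.orderOf_dvd_natCard _ (c1.le h)
      rw [hg, card_center_SL2] at this
      exact absurd (this.trans (Nat.gcd_dvd_left _ _)) (by decide)
    have c6 := card_SL23 (F := ZMod 3) (by simp)
    rw [← eq_of_le_of_card_ge (sup_le le_normalizer (zpowers_le.2 g.2)) (by
      rw [c5, c4, Nat.card_congr f.toEquiv, c6]), np_congr f]
    obtain ⟨T⟩ : Nonempty (Sylow 2 SL(2, ZMod 3)) := inferInstance
    have c7 := (T.1).index_mul_card
    rw [(sl23_sylow (by simp) T).2.1, c6, ← sl23_commutator (by simp) T, ← card_linear_irr] at c7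
    rw [np_eq (s := {1, 3, 4, 2}) fun χ => by
      have := (S2299.result (F := ZMod 3) (by decide)).1 _ χ.2
      rw [χ.2.apply_one_eq_charDegree, ZMod.card] at this
      norm_num at this ⊢
      norm_cast at this
      omega]
    have c8 : cnt SL(2, ZMod 3) 3 = 1 := card_irr_eq_one (P := fun χ => χ 1 = (3 : ℕ)) isIrr_Sts Sts_one
      fun χ a b => sl_irr_deg_card a b
    have c9 : cnt SL(2, ZMod 3) 1 = 3 := by rw [cnt, Nat.cast_one]; omega
    simp [c8, c9]
  obtain ⟨t, hd, a1, a2, -⟩ := sl_sylow_odd h3 (Nat.card_eq_fintype_card (α := F) ▸ h1) h0 S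
  have a3 := sl_card_conjClasses_normalizer h2 hd
  rw [np_syl S fun a ha b hb => setLike_mul_comm (a1 ▸ ha) (a1 ▸ hb), a1, show normalizer (zpowers t : Set SL(2, F)) =
    normalizer (centralizer ({t} : Set SL(2, F)) : Set SL(2, F)) from Subgroup.ext fun h => by
      rw [sl_mem_normalizer_iff hd (mem_zpowers t) (zpowers_le.2 (sl_self_mem_centralizer t)),
        sl_mem_normalizer_iff hd (sl_self_mem_centralizer t) le_rfl]]
  have a4 : ∀ k, ℓ ∣ 2 * k ↔ ℓ ∣ k := fun k => by
    simp [hl.dvd_mul, Nat.prime_dvd_prime_iff_eq hl Nat.prime_two, h3]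
  have a5 : ℓ ∣ m → ℓ ∣ m + 1 → False := fun a b => hl.not_dvd_one ((Nat.dvd_add_right a).1 b)
  have a6 := hl.two_le
  simp only [← mul_add_one 2 m, a4] at h5
  by_cases a7 : NoEig t.1
  · have a8 : ℓ ∣ m + 1 := (a4 _).1 (by
      simpa [hm, mul_add] using a2.trans (orderOf_dvd_of_pow_eq_one (sl_pow_eq_one_noEig a7)))
    have := Nat.le_of_dvd (by omega) a8
    rw [sl_card_centralizer_noEig a7] at a3
    rw [h5 (by omega), if_pos a8, if_neg fun h => a5 h a8]
    omega
  · have a8 : ℓ ∣ m := (a4 _).1 (by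
      simpa [hm] using a2.trans (orderOf_dvd_of_pow_eq_one (sl_pow_eq_one_split hd a7)))
    have := Nat.le_of_dvd (by omega) a8
    rw [sl_card_centralizer_split hd a7] at a3
    rw [h5 (by omega), if_pos a8, if_neg (a5 a8)]
    omega

end Cfsg.Agent.S2436
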