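import Cfsg.Statements.S2439
import Cfsg.Agent.Mult.Blk2

set_option autoImplicit false
open Cfsg

namespace Cfsg.Agent.S2439

/-- Let F be a finite field with q elements of odd characteristic p, and M a maximal ideal of the algebraic integers containing p. Then SL₂ over F has exactly three p-blocks relative to M: the irreducible character of degree q (the Steinberg character) alone; the other irreducible characters taking the same value at −1 as at 1 (the principal block); and the irreducible characters χ with χ(−1) = −χ(1). Every Sylow p-subgroup is a defect group of each of the last two blocks. -/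
theorem result {F : Type*} [Field F] [Fintype F] (p : ℕ) [Fact p.Prime] [CharP F p] (hp : p ≠ 2)
    (M : Ideal Cfsg.AlgInt) (hM : Cfsg.IsPModular p M) :
    (∀ B : Set (Cfsg.IrrCharacter (Matrix.SpecialLinearGroup (Fin 2) F)), Cfsg.IsPBlock M B ↔
      (B = {χ : Cfsg.IrrCharacter (Matrix.SpecialLinearGroup (Fin 2) F) | (χ : Matrix.SpecialLinearGroup (Fin 2) F → ℂ) 1 = (Fintype.card F : ℂ)} ∨
       B = {χ : Cfsg.IrrCharacter (Matrix.SpecialLinearGroup (Fin 2) F) | (χ : Matrix.SpecialLinearGroup (Fin 2) F → ℂ) (-1) = (χ : Matrix.SpecialLinearGroup (Fin 2) F → ℂ) 1 ∧ (χ : Matrix.SpecialLinearGroup (Fin 2) F → ℂ) 1 ≠ (Fintype.card F : ℂ)} ∨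
       B = {χ : Cfsg.IrrCharacter (Matrix.SpecialLinearGroup (Fin 2) F) | (χ : Matrix.SpecialLinearGroup (Fin 2) F → ℂ) (-1) = -(χ : Matrix.SpecialLinearGroup (Fin 2) F → ℂ) 1})) ∧
    Nat.card {B : Set (Cfsg.IrrCharacter (Matrix.SpecialLinearGroup (Fin 2) F)) // Cfsg.IsPBlock M B} = 3 ∧
    ∀ P : Sylow p (Matrix.SpecialLinearGroup (Fin 2) F),
      Cfsg.IsDefectGroup p M {χ : Cfsg.IrrCharacter (Matrix.SpecialLinearGroup (Fin 2) F) | (χ : Matrix.SpecialLinearGroup (Fin 2) F → ℂ) (-1) = (χ : Matrix.SpecialLinearGroup (Fin 2) F → ℂ) 1 ∧ (χ : Matrix.SpecialLinearGroup (Fin 2) F → ℂ) 1 ≠ (Fintype.card F : ℂ)} (P : Subgroup (Matrix.SpecialLinearGroup (Fin 2) F)) ∧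
      Cfsg.IsDefectGroup p M {χ : Cfsg.IrrCharacter (Matrix.SpecialLinearGroup (Fin 2) F) | (χ : Matrix.SpecialLinearGroup (Fin 2) F → ℂ) (-1) = -(χ : Matrix.SpecialLinearGroup (Fin 2) F → ℂ) 1} (P : Subgroup (Matrix.SpecialLinearGroup (Fin 2) F)) := by
  open Cfsg.Agent.Classical Cfsg.Agent.Char Cfsg.Agent.Block MatrixGroups in
  classical
  haveI : PMod p M := ⟨hM⟩
  have D := Mult.defBl_SL2 F p
  have hp' : p.Prime := Fact.out
  have h2 : (2 : F) ≠ 0 := fun h => hp ((Nat.prime_dvd_prime_iff_eq hp' Nat.prime_two).1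
    ((CharP.cast_eq_zero_iff F p 2).1 h))
  have hZ : Nat.card (Subgroup.center SL(2, F)) = 2 := by
    rw [card_center_SL2]
    exact Nat.gcd_eq_left (Nat.Odd.sub_odd (two_ne_zero_iff_odd.1 h2) odd_one).two_dvd
  have hm : (-1 : SL(2, F)) ∈ Subgroup.center SL(2, F) := Subgroup.mem_center_iff.2 fun g => by simp
  have sg : ∀ χ : IrrCharacter SL(2, F), χ.1 (-1) = -χ.1 1 ↔ χ.1 (-1) ≠ χ.1 1 := fun χ => by
    refine ⟨fun h e => χ.2.apply_one_ne_zero (by linear_combination (h - e) / 2), fun h => ?_⟩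
    obtain ⟨l, hl⟩ := χ.2.exists_hom_of_le_center _ le_rfl
    have a1 := hl ⟨-1, hm⟩ 1
    have a2 := hl ⟨-1, hm⟩ (-1)
    simp only [mul_one, neg_mul_neg] at a1 a2
    rw [a1, ← mul_assoc, eq_comm, mul_eq_right₀ χ.2.apply_one_ne_zero, mul_self_eq_one_iff] at a2
    rcases a2 with a2 | a2 <;> simp_all
  have sb : ∀ χ ψ : IrrCharacter SL(2, F), SameBlock M χ.1 ψ.1 → χ.1 (-1) = χ.1 1 → ψ.1 (-1) = ψ.1 1 :=
    fun χ ψ h e => apply_eq_of_sameBlock (p := p) (N := Subgroup.center _) (by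
      rw [hZ]; exact fun h => hp ((Nat.prime_dvd_prime_iff_eq hp' Nat.prime_two).1 h)) h (fun n hn => by
        rcases sl_mem_center_iff'.1 hn with rfl | rfl <;> simp [e]) _ hm
  let St : IrrCharacter SL(2, F) := ⟨_, isIrr_Sts⟩
  have f0 : ∀ χ : IrrCharacter SL(2, F), (charDegree χ.1).factorization p =
      (Nat.card SL(2, F)).factorization p ↔ χ = St := fun χ => by
    obtain ⟨P, -⟩ := D.cent
    have : (charDegree St.1).factorization p = (Nat.card SL(2, F)).factorization p := by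
      refine le_antisymm ((Nat.factorization_le_iff_dvd ?_ Nat.card_pos.ne').2
        (St.2.dvd_card_of_apply_one St.2.apply_one_eq_charDegree) p) ?_
      · rw [charDegree_Sts]; exact Fintype.card_ne_zero
      obtain ⟨ψ, a1, -⟩ := D.ex
      obtain ⟨n, -, hn⟩ := FiniteField.card F p
      have a2 : p ∣ charDegree ψ.1 := Nat.dvd_of_factorization_pos (by
        rw [a1]; exact (hp'.factorization_pos_of_dvd Nat.card_pos.ne' ((char_dvd_card F p).trans
          (Nat.card_eq_fintype_card (α := F) ▸ St.2.dvd_card_of_apply_one Sts_one))).ne')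
      have h3 : p ∣ Fintype.card F := Nat.card_eq_fintype_card (α := F) ▸ char_dvd_card F p
      rw [← a1, (charDegree_sl_dvd ψ.2).resolve_right (not_or.2 ⟨fun e => hp'.not_dvd_one
        ((Nat.dvd_add_right h3).1 (a2.trans e)), fun e => not_char_dvd_card_pred F p
          (Nat.card_eq_fintype_card (α := F) ▸ a2.trans e)⟩)]
    exact ⟨fun h => D.ex.unique h this, fun h => h ▸ this⟩
  have f1 : ∀ χ : IrrCharacter SL(2, F), χ.1 1 = Fintype.card F ↔ χ = St := fun χ =>
    ⟨fun h => Subtype.ext (sl_irr_deg_card χ.2 h), fun h => h ▸ Sts_one⟩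
  have b0 : blockOf M St.1 = {St} := (blockOf_eq_singleton_iff (p := p) St).2 ((f0 St).2 rfl)
  have s0 : St.1 (-1) = St.1 1 := (Sts_scal (by simp [IsScal])).trans Sts_one.symm
  let o : IrrCharacter SL(2, F) := ⟨_, isIrrCharacter_one⟩
  have n0 : o ≠ St := fun h => by
    have := (f1 o).2 h
    exact Fintype.one_lt_card.ne (Nat.cast_injective (R := ℂ) (by simpa using this))
  obtain ⟨ψ, hψ, h1⟩ := exists_irr_apply_ne (g := (-1 : SL(2, F))) fun h => h2 (by
    have := congrArg (fun g : SL(2, F) => g.1 0 0) h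
    simp at this; linear_combination -this)
  lift ψ to IrrCharacter SL(2, F) using hψ
  have c3 : Nat.card {B : Set (IrrCharacter SL(2, F)) // IsPBlock M B} = 3 := by rw [D.card hM, hZ]
  have n1 : blockOf M St.1 ≠ blockOf M o.1 := fun h => n0 (by
    simpa [← h, b0] using mem_blockOf_self (M := M) o)
  have n2 : ∀ χ : IrrCharacter SL(2, F), χ.1 (-1) = χ.1 1 → blockOf M χ.1 ≠ blockOf M ψ.1 := fun χ e h =>
    h1 (sb χ ψ (mem_blockOf.1 (h ▸ mem_blockOf_self ψ)) e)
  have all : ∀ B, IsPBlock M B → B = blockOf M St.1 ∨ B = blockOf M o.1 ∨ B = blockOf M ψ.1 := fun B hB => by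
    have : ({blockOf M St.1, blockOf M o.1, blockOf M ψ.1} : Set _) = {B | IsPBlock M B} :=
      Set.eq_of_subset_of_ncard_le (by simp [Set.insert_subset_iff, isPBlock_blockOf])
        (c3.trans (Set.ncard_eq_three.2 ⟨_, _, _, n1, n2 _ s0, n2 _ rfl, rfl⟩).symm).le
    exact this.ge hB
  have e0 : {χ : IrrCharacter SL(2, F) | χ.1 1 = Fintype.card F} = blockOf M St.1 := by
    rw [b0]; exact Set.ext f1
  have e1 : {χ : IrrCharacter SL(2, F) | χ.1 (-1) = χ.1 1 ∧ χ.1 1 ≠ Fintype.card F} = blockOf M o.1 := by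
    refine Set.ext fun χ => ⟨fun ⟨a1, a2⟩ => ?_, fun h => ⟨sb o χ h rfl, fun e => ?_⟩⟩
    · rcases all _ (isPBlock_blockOf χ) with h | h | h
      · exact (a2 ((f1 χ).2 (by simpa [h, b0] using mem_blockOf_self (M := M) χ))).elim
      · exact h ▸ mem_blockOf_self χ
      · exact (n2 χ a1 h).elim
    · exact n1 ((f1 χ).1 e ▸ blockOf_eq_of_sameBlock (SameBlock.symm' h))
  have e2 : {χ : IrrCharacter SL(2, F) | χ.1 (-1) = -χ.1 1} = blockOf M ψ.1 := by
    refine Set.ext fun χ => (sg χ).trans ⟨fun a1 => ?_, fun h e => h1 (sb χ ψ (SameBlock.symm' h) e)⟩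
    rcases all _ (isPBlock_blockOf χ) with h | h | h
    · exact (a1 (sb St χ (mem_blockOf.1 (h ▸ mem_blockOf_self χ)) s0)).elim
    · exact (a1 (sb o χ (mem_blockOf.1 (h ▸ mem_blockOf_self χ)) rfl)).elim
    · exact h ▸ mem_blockOf_self χ
  have df : ∀ χ : IrrCharacter SL(2, F), χ ≠ St → ∀ P : Sylow p SL(2, F), IsDefectGroup p M (blockOf M χ.1) P :=
    fun χ h P => (isDefectGroup_sylow_iff (isPBlock_blockOf χ) P).2 ((D.dich.block hM
      (isPBlock_blockOf χ)).resolve_left fun e => h ((f0 χ).1 ((blockDefect_eq_zero_iff (isPBlock_blockOf χ)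
        (mem_blockOf_self χ)).1 e)))
  rw [e0, e1, e2]
  refine ⟨fun B => ⟨all B, ?_⟩, c3, fun P => ⟨df o n0 P, df ψ (fun h => h1 (h ▸ s0)) P⟩⟩
  rintro (rfl | rfl | rfl) <;> exact isPBlock_blockOf _

end Cfsg.Agent.S2439
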