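import Cfsg.Statements.S2531


set_option autoImplicit false
open Cfsg

namespace Cfsg.Agent.S2531

open Projectivization in
lemma cardP {F V : Type*} [Field F] [Finite F] [AddCommGroup V] [Module F V] [Finite V]
    [Nontrivial V] : ((Nat.card (Projectivization F V) : ℕ) : F) = 1 := by
  have hp : 0 < Module.finrank F V := Module.finrank_pos
  rw [card_of_finrank F V rfl]
  push_cast
  have h0 : ((Nat.card F : ℕ) : F) = 0 := by
    have := Fintype.ofFinite F
    rw [Nat.card_eq_fintype_card]; exact FiniteField.cast_card_eq_zero F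
  rw [h0]
  obtain ⟨d, hd⟩ : ∃ d, Module.finrank F V = d + 1 := ⟨_, (Nat.succ_pred_eq_of_pos hp).symm⟩
  rw [hd, Finset.sum_range_succ']
  simp

open Projectivization in
lemma cardW {F V : Type*} [Field F] [Finite F] [AddCommGroup V] [Module F V] [Finite V]
    (W : Submodule F V) (hW : W ≠ ⊥) :
    ((Nat.card {x : Projectivization F V // x.rep ∈ W} : ℕ) : F) = 1 := by
  haveI : Nontrivial W := Submodule.nontrivial_iff_ne_bot.mpr hW
  rw [← cardP (F := F) (V := W)]
  congr 1
  symm
  have hinj : Function.Injective (Projectivization.map W.subtype W.subtype_injective) :=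
    map_injective (τ := RingHom.id F) _ _
  rw [← Nat.card_range_of_injective hinj]
  apply Nat.card_congr
  apply Equiv.subtypeEquivRight
  intro x
  constructor
  · rintro ⟨y, rfl⟩
    induction y using Projectivization.ind with
    | h v hv =>
      rw [map_mk]
      obtain ⟨a, ha⟩ := exists_smul_eq_mk_rep F (W.subtype v) (map_zero W.subtype ▸ W.subtype_injective.ne hv)
      rw [← ha]
      exact W.smul_mem _ v.2
  · intro hx
    refine ⟨mk F (⟨x.rep, hx⟩ : W) (fun h => x.rep_nonzero (congrArg Subtype.val h)), ?_⟩
    rw [map_mk]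
    exact mk_rep x

open Projectivization in
lemma rep_map {F V : Type*} [Field F] [AddCommGroup V] [Module F V] (σ : F →+* F)
    (f : V →ₛₗ[σ] V) (hf : Function.Injective f) (W : Submodule F V) (x : Projectivization F V) :
    (Projectivization.map f hf x).rep ∈ W ↔ f x.rep ∈ W := by
  have : Projectivization.map f hf x = mk F (f x.rep) (map_zero f ▸ hf.ne x.rep_nonzero) := by
    conv_lhs => rw [← mk_rep x]
    rfl
  rw [this]
  obtain ⟨a, ha⟩ := exists_smul_eq_mk_rep F (f x.rep) (map_zero f ▸ hf.ne x.rep_nonzero)
  rw [← ha, Units.smul_def, Submodule.smul_mem_iff _ a.ne_zero]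

/-- Let `F` be a finite field and `n ≥ 3`. No set of permutations of the points of the projective space of `Fⁿ`, each induced by an invertible semilinear transformation of `Fⁿ` (so a subset of the full projective semilinear group), is sharply 2-transitive on the points: it is impossible that for all pairs of distinct points `(a, b)` and `(c, d)` exactly one member of the set sends `a` to `c` and `b` to `d`. -/
theorem result {F : Type*} [Field F] [Finite F]
    (n : ℕ) (hn : 3 ≤ n) (S : Set (Equiv.Perm (Projectivization F (Fin n → F))))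
    (hS : ∀ s ∈ S, ∃ (σ : F ≃+* F) (f : (Fin n → F) →ₛₗ[(σ : F →+* F)] (Fin n → F)) (hf : Function.Injective f),
      ∀ x, s x = Projectivization.map f hf x) :
    ¬ (∀ a b c d : Projectivization F (Fin n → F), a ≠ b → c ≠ d →
        ∃! s, s ∈ S ∧ s a = c ∧ s b = d) := by
  classical
  intro h
  haveI := Fintype.ofFinite F
  haveI : Finite (Projectivization F (Fin n → F)) :=
    (Projectivization.finite_iff_of_finite F _).mpr inferInstance
  haveI := Fintype.ofFinite (Projectivization F (Fin n → F))
  have i0 : Fin n := ⟨0, by omega⟩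
  let H : Submodule F (Fin n → F) := LinearMap.ker (LinearMap.proj i0)
  have hHrank : Module.finrank F H + 1 = n := by
    have h1 := LinearMap.finrank_range_add_finrank_ker (LinearMap.proj (R := F) (φ := fun _ : Fin n => F) i0)
    rw [LinearMap.range_eq_top.mpr (fun a => ⟨Pi.single i0 a, by simp⟩)] at h1
    simp at h1
    simp only [H]; omega
  have he : (Pi.single i0 (1 : F) : Fin n → F) ≠ 0 := by
    intro h0; have := congrFun h0 i0; simp at this
  let x : Projectivization F (Fin n → F) := Projectivization.mk F _ he
  have hx : x.rep ∉ H := by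
    obtain ⟨a, ha⟩ := Projectivization.exists_smul_eq_mk_rep F _ he
    simp only [x]; rw [← ha]
    simp [H, Units.smul_def]
  let A : Finset (Projectivization F (Fin n → F)) := Finset.univ.filter (fun a => a.rep ∈ H)
  let T : Finset (Equiv.Perm (Projectivization F (Fin n → F))) :=
    Finset.univ.filter (fun s => s ∈ S ∧ s x = x)
  have hAx : ∀ a ∈ A, x ≠ a := by
    intro a ha hxa
    apply hx; rw [hxa]; simpa [A] using ha
  have hH0 : H ≠ ⊥ := by
    intro h0; rw [h0] at hHrank; simp at hHrank; omega
  have hA : ((A.card : ℕ) : F) = 1 := by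
    rw [← cardW H hH0, Nat.subtype_card A (by simp [A])]
  -- one for each pair
  have hone : ∀ a b, x ≠ a → x ≠ b → (T.filter (fun s => s a = b)).card = 1 := by
    intro a b ha hb
    obtain ⟨s, hs, hu⟩ := h x a x b ha hb
    rw [Finset.card_eq_one]
    refine ⟨s, ?_⟩
    ext t
    simp only [T, Finset.mem_filter, Finset.mem_univ, true_and, Finset.mem_singleton]
    constructor
    · rintro ⟨⟨h1, h2⟩, h3⟩; exact hu t ⟨h1, h2, h3⟩
    · rintro rfl; exact ⟨⟨hs.1, hs.2.1⟩, hs.2.2⟩
  have hcount : ∀ (a : Projectivization F (Fin n → F)) (B : Finset (Projectivization F (Fin n → F))), x ≠ a →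
      (∀ b ∈ B, x ≠ b) → (T.filter (fun s => s a ∈ B)).card = B.card := by
    intro a B ha hB
    rw [Finset.card_eq_sum_card_fiberwise (f := fun s => s a) (t := B)
      (by intro s hs; simpa using (Finset.mem_filter.mp hs).2)]
    rw [Finset.card_eq_sum_ones B]
    apply Finset.sum_congr rfl
    intro b hb
    rw [← hone a b ha (hB b hb), Finset.filter_filter]
    congr 1
    apply Finset.filter_congr
    intro s _
    constructor
    · exact fun h => h.2
    · intro h; exact ⟨h ▸ hb, h⟩
  obtain ⟨a0, ha0⟩ : A.Nonempty := by
    rw [Finset.nonempty_iff_ne_empty]; intro h0; rw [h0] at hA; simp at hA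
  have hT : ((T.card : ℕ) : F) = 0 := by
    have h1 := hcount a0 (Finset.univ.erase x) (hAx a0 ha0)
      (fun b hb => (Finset.ne_of_mem_erase hb).symm)
    haveI : Nonempty (Projectivization F (Fin n → F)) := ⟨x⟩
    rw [Finset.filter_true_of_mem] at h1
    · rw [h1, Finset.card_erase_of_mem (Finset.mem_univ _), Finset.card_univ,
        Nat.cast_sub Fintype.card_pos, ← Nat.card_eq_fintype_card]
      haveI : Nontrivial (Fin n → F) := ⟨⟨_, _, he⟩⟩
      rw [cardP]; simp
    · intro s hs
      simp only [T, Finset.mem_filter, Finset.mem_univ, true_and] at hs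
      simp only [Finset.mem_erase, Finset.mem_univ, and_true]
      intro h2
      exact hAx a0 ha0 (s.injective (hs.2.trans h2.symm))
  have hterm : ∀ s ∈ T, (((A.filter (fun a => s a ∈ A)).card : ℕ) : F) = 1 := by
    intro s hs
    simp only [T, Finset.mem_filter, Finset.mem_univ, true_and] at hs
    obtain ⟨σ, f, hf, hsf⟩ := hS s hs.1
    let W : Submodule F (Fin n → F) := H ⊓ H.comap f
    have hW : W ≠ ⊥ := by
      -- the semilinear functional `v ↦ σ⁻¹ (f v i0)` is linear
      let φ : (Fin n → F) →ₗ[F] F :=
        { toFun := fun v => σ.symm (f v i0)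
          map_add' := by intro u v; simp
          map_smul' := by intro c v; simp [map_smulₛₗ] }
      have hk : H.comap f = LinearMap.ker φ := by
        ext v; simp [H, φ]
      have h1 := LinearMap.finrank_range_add_finrank_ker φ
      have h2 : Module.finrank F (LinearMap.range φ) ≤ 1 := by
        simpa using Submodule.finrank_le (LinearMap.range φ)
      have h3 := Submodule.finrank_sup_add_finrank_inf_eq H (LinearMap.ker φ)
      have h4 := Submodule.finrank_le (H ⊔ LinearMap.ker φ)
      simp only [Module.finrank_fintype_fun_eq_card, Fintype.card_fin] at h1 h4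
      intro h0
      simp only [W, hk] at h0
      rw [h0] at h3
      simp at h3
      omega
    rw [← cardW W hW, Nat.subtype_card (A.filter (fun a => s a ∈ A))]
    intro a
    simp only [A, Finset.mem_filter, Finset.mem_univ, true_and, W, Submodule.mem_inf,
      Submodule.mem_comap]
    rw [hsf, rep_map]
  have hsum : ∑ s ∈ T, (A.filter (fun a => s a ∈ A)).card =
      ∑ a ∈ A, (T.filter (fun s => s a ∈ A)).card := by
    simp only [Finset.card_filter]
    exact Finset.sum_comm
  have hR : ∑ a ∈ A, (T.filter (fun s => s a ∈ A)).card = A.card * A.card := by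
    rw [Finset.sum_congr rfl (fun a ha => hcount a A (hAx a ha) hAx)]
    simp
  have h5 := congrArg (fun m : ℕ => (m : F)) (hsum.trans hR)
  simp only [Nat.cast_sum, Nat.cast_mul] at h5
  rw [Finset.sum_congr rfl hterm, hA] at h5
  simp [hT] at h5

end Cfsg.Agent.S2531
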