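import Cfsg.Statements.S2532

set_option autoImplicit false
open Cfsg

namespace Cfsg.Agent.S2532

open Equiv Equiv.Perm Subgroup MulAction Finset

/-- There is a function `f` of two natural-number arguments such that, whenever `m ≥ f(n, r)`, every subgroup of order `n` of the alternating group of degree `m` centralizes some subgroup of that alternating group isomorphic to the alternating group of degree `r`. -/
theorem result :
    ∃ f : ℕ → ℕ → ℕ, ∀ (m r : ℕ) (H : Subgroup ↥(alternatingGroup (Fin m))), f (Nat.card H) r ≤ m →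
      ∃ K : Subgroup ↥(alternatingGroup (Fin m)), Nonempty (↥K ≃* ↥(alternatingGroup (Fin r))) ∧
        K ≤ Subgroup.centralizer (H : Set ↥(alternatingGroup (Fin m))) := by
  classical
  refine ⟨fun n r => 2 ^ n * (n * r) + 1, fun m r H hm => ?_⟩
  haveI : Fintype H := Fintype.ofFinite _
  haveI : Fintype (Subgroup H) := Fintype.ofFinite _
  have h1 : Fintype.card (Subgroup H) ≤ 2 ^ Nat.card H := by
    rw [Nat.card_eq_fintype_card, ← Fintype.card_set]
    exact Fintype.card_le_of_injective _ SetLike.coe_injective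
  obtain ⟨S, hS⟩ := Fintype.exists_lt_card_fiber_of_mul_lt_card (fun x : Fin m => stabilizer H x) (n := Nat.card H * r) (by
    rw [Fintype.card_fin]
    exact lt_of_le_of_lt (Nat.mul_le_mul_right _ h1) hm)
  set F := univ.filter fun x : Fin m => stabilizer H x = S
  have h2 : r ≤ (F.image fun x => orbit H x).card := by
    have := card_le_mul_card_image (f := fun x => orbit H x) F (Nat.card H) fun o ho => by
      obtain ⟨x, -, rfl⟩ := mem_image.1 ho
      rw [Nat.card_eq_fintype_card, ← card_univ]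
      refine le_trans (card_le_card fun y hy => ?_) (card_image_le (f := fun h : H => h • x))
      obtain ⟨h, rfl⟩ : y ∈ orbit H x := (mem_filter.1 hy).2 ▸ mem_orbit_self y
      exact mem_image_of_mem _ (mem_univ h)
    exact Nat.le_of_mul_le_mul_left (hS.le.trans this) Nat.card_pos
  obtain ⟨T, hT, hTc⟩ := exists_subset_card_eq h2
  let o : Fin r ≃ T := (T.equivFinOfCardEq hTc).symm
  choose x hx ho using fun i => mem_image.1 (hT (o i).2)
  have hst : ∀ i, stabilizer H (x i) = S := fun i => (mem_filter.1 (hx i)).2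
  let ι : Fin r × (H ⧸ S) ↪ Fin m := ⟨fun q => q.2.out • x q.1, by
    rintro ⟨i, a⟩ ⟨j, b⟩ h
    obtain rfl : i = j := o.injective (Subtype.ext (by
      rw [← ho, ← ho, ← orbit_smul a.out (x i), ← orbit_smul b.out (x j)]
      exact congrArg _ h))
    have : b.out⁻¹ * a.out ∈ S := (hst i).le (by
      rw [mem_stabilizer_iff, mul_smul, inv_smul_eq_iff]; exact h)
    rw [← QuotientGroup.eq, QuotientGroup.out_eq', QuotientGroup.out_eq'] at this
    rw [this]⟩
  have hι : ∀ (h : H) i a, h • ι (i, a) = ι (i, h • a) := fun h i a => by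
    show h • a.out • x i = (h • a).out • x i
    obtain ⟨s, hs⟩ := QuotientGroup.mk_out_eq_mul S (h * a.out)
    have e : h • a = ((h * a.out : H) : H ⧸ S) := by
      conv_lhs => rw [← a.out_eq']
      rfl
    rw [e, hs, mul_smul, mul_smul, show (s : H) • x i = x i from (hst i ▸ s.2 : (s : H) ∈ stabilizer H (x i))]
  let ψ : Perm (Fin r) →* Perm (Fin m) := (viaEmbeddingHom ι).comp (MonoidHom.mk' (fun σ => Equiv.prodCongr σ (Equiv.refl _))
    fun _ _ => rfl)
  have hψ : ∀ σ i a, ψ σ (ι (i, a)) = ι (σ i, a) := fun σ i a => viaEmbedding_apply _ ι _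
  have hψ' : ∀ σ y, y ∉ Set.range ι → ψ σ y = y := fun σ y => viaEmbedding_apply_of_notMem _ ι y
  have hA : alternatingGroup (Fin r) ≤ (alternatingGroup (Fin m)).comap ψ := by
    rw [← closure_three_cycles_eq_alternating (α := Fin r), Subgroup.closure_le]
    intro σ hσ
    have h3 : sign (ψ σ) ^ 3 = 1 := by rw [← map_pow, ← map_pow, ← IsThreeCycle.orderOf hσ, pow_orderOf_eq_one, map_one, map_one]
    rcases Int.units_eq_one_or (sign (ψ σ)) with e | e
    · exact e
    · rw [e] at h3; exact absurd h3 (by decide)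
  let φ : alternatingGroup (Fin r) →* alternatingGroup (Fin m) := (ψ.comp (alternatingGroup _).subtype).codRestrict _ fun σ => hA σ.2
  have hφ : Function.Injective φ := fun σ τ h => Subtype.ext (Equiv.ext fun i => by
    have := DFunLike.congr_fun (congrArg Subtype.val h) (ι (i, ((1 : H) : H ⧸ S)))
    change ψ σ _ = ψ τ _ at this
    rw [hψ, hψ] at this
    exact congrArg Prod.fst (ι.injective this))
  refine ⟨φ.range, ⟨(MonoidHom.ofInjective hφ).symm⟩, ?_⟩
  rintro _ ⟨σ, rfl⟩ h hh
  refine Subtype.ext (Equiv.ext fun y => ?_)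
  change (⟨h, hh⟩ : H) • ψ σ y = ψ σ ((⟨h, hh⟩ : H) • y)
  by_cases hy : y ∈ Set.range ι
  · obtain ⟨⟨i, a⟩, rfl⟩ := hy
    rw [hψ, hι, hι, hψ]
  · rw [hψ' _ _ hy, hψ']
    rintro ⟨⟨i, a⟩, e⟩
    exact hy ⟨(i, (⟨h, hh⟩ : H)⁻¹ • a), by rw [← hι, e, inv_smul_smul]⟩

end Cfsg.Agent.S2532
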