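import Cfsg.Statements.S2533


set_option autoImplicit false
open Cfsg

namespace Cfsg.Agent.S2533

open Matrix Subgroup

/-- generalised dihedral group -/
@[ext] structure GD (p : ℕ) where
  x : Fin 3 → ZMod p
  u : ℤˣ

instance GD.instGroup (p : ℕ) : Group (GD p) where
  mul a b := ⟨(b.u : ℤ) • a.x + b.x, a.u * b.u⟩
  one := ⟨0, 1⟩
  inv a := ⟨-((a.u : ℤ) • a.x), a.u⟩
  mul_assoc a b c := GD.ext (by
    show (c.u : ℤ) • ((b.u : ℤ) • a.x + b.x) + c.x = ((b.u * c.u : ℤˣ) : ℤ) • a.x + ((c.u : ℤ) • b.x + c.x)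
    rw [smul_add, smul_smul, add_assoc, Units.val_mul, mul_comm]) (mul_assoc _ _ _)
  one_mul a := GD.ext (by show (a.u : ℤ) • 0 + a.x = a.x; simp) (one_mul _)
  mul_one a := GD.ext (by show ((1 : ℤˣ) : ℤ) • a.x + 0 = a.x; simp) (mul_one _)
  inv_mul_cancel a := GD.ext (by
    show (a.u : ℤ) • (-((a.u : ℤ) • a.x)) + a.x = 0
    rw [smul_neg, smul_smul, ← Units.val_mul, Int.units_mul_self]; simp) (Int.units_mul_self _)

section
variable {F : Type*} [Field F] {k : ℕ}

/-- the three maps -/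
def mA (F : Type*) [Field F] (k : ℕ) : Fin 3 → Matrix (Fin (k + 3)) (Fin (k + 2)) F :=
  ![of fun i j => if i = j.castSucc then 1 else 0, of fun i j => if i = j.succ then 1 else 0,
    of fun i j => if i = Fin.last _ ∧ j = 0 then 1 else 0]

lemma toep (S : Matrix (Fin (k + 1)) (Fin (k + 1)) F)
    (h : ∀ i j : Fin k, S i.castSucc j.castSucc = S i.succ j.succ) (d : ℕ) :
    ∀ i j (hi : i + d < k + 1) (hj : j + d < k + 1),
      S ⟨i + d, hi⟩ ⟨j + d, hj⟩ = S ⟨i, by omega⟩ ⟨j, by omega⟩ := by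
  induction d with
  | zero => intros; rfl
  | succ d ih =>
    intro i j hi hj
    rw [← ih i j (by omega) (by omega)]
    exact (h ⟨i + d, by omega⟩ ⟨j + d, by omega⟩).symm

lemma core (h2 : (2 : F) ≠ 0) (G : Matrix (Fin (k + 2) ⊕ Fin (k + 3)) (Fin (k + 2) ⊕ Fin (k + 3)) F)
    (hT : G * fromBlocks (-1) 0 0 1 = fromBlocks (-1) 0 0 1 * G)
    (hA : ∀ i, G * fromBlocks 1 0 (mA F k i) 1 = fromBlocks 1 0 (mA F k i) 1 * G) :
    ∃ c : F, G = c • (1 : Matrix _ _ F) := by
  rw [← fromBlocks_toBlocks G] at hT hA ⊢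
  generalize G.toBlocks₁₁ = P at *
  generalize G.toBlocks₁₂ = Q at *
  generalize G.toBlocks₂₁ = R at *
  generalize G.toBlocks₂₂ = S at *
  simp only [fromBlocks_multiply, fromBlocks_inj] at hT hA
  obtain rfl : Q = 0 := by
    have h : (2 : F) • Q = 0 := by
      have := hT.2.1; simp at this; rw [two_smul]; nth_rw 1 [this]; simp
    exact (smul_eq_zero.mp h).resolve_left h2
  obtain rfl : R = 0 := by
    have h : (2 : F) • R = 0 := by
      have := hT.2.2.1; simp at this; rw [two_smul]; nth_rw 1 [← this]; simp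
    exact (smul_eq_zero.mp h).resolve_left h2
  have a1 : ∀ i j, S i j.castSucc = ∑ l, (if i = l.castSucc then 1 else 0) * P l j := fun i j => by
    simpa [mA, mul_apply] using congrFun (congrFun (hA 0).2.2.1 i) j
  have a2 : ∀ i j, S i j.succ = ∑ l, (if i = l.succ then 1 else 0) * P l j := fun i j => by
    simpa [mA, mul_apply] using congrFun (congrFun (hA 1).2.2.1 i) j
  have b1 : ∀ i j, S i.castSucc j.castSucc = P i j := fun i j => by simp [a1]
  have b2 : ∀ i j, S i.succ j.succ = P i j := fun i j => by simp [a2]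
  have b3 : ∀ j : Fin (k + 2), S (Fin.last _) j.castSucc = 0 := fun j => by
    simp [a1, (Fin.castSucc_ne_last _).symm]
  have b4 : ∀ j : Fin (k + 2), S 0 j.succ = 0 := fun j => by
    simp [a2, (Fin.succ_ne_zero _).symm]
  have t := toep S fun i j => (b1 i j).trans (b2 i j).symm
  have hS : S = S 0 0 • (1 : Matrix _ _ F) := by
    ext ⟨i, hi⟩ ⟨j, hj⟩
    rcases lt_trichotomy i j with h | rfl | h
    · obtain ⟨d, rfl⟩ : ∃ d, j = d + 1 + i := ⟨j - i - 1, by omega⟩
      have := t i 0 (d + 1) (by omega) hj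
      simp only [zero_add] at this
      rw [this, Matrix.smul_apply, one_apply_ne (by simp), smul_zero]
      exact b4 ⟨d, by omega⟩
    · have := t i 0 0 (by omega) (by omega)
      simp only [zero_add] at this
      rw [this]; simp
    · have := t (k + 2 - i) i j (by omega) (by omega)
      rw [← this, Matrix.smul_apply, one_apply_ne (by simp; omega), smul_zero]
      convert b3 ⟨j + (k + 2 - i), by omega⟩ using 2
      · exact Fin.ext (by simp; omega)
      · rfl
  refine ⟨S 0 0, ?_⟩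
  rw [← fromBlocks_one, fromBlocks_smul, ← hS]
  congr 1
  · ext i j
    rw [← b1, hS]; simp [one_apply]
  all_goals simp
end

/-- For every odd prime `p` there is a finite group `H` of order `2p³` which, for infinitely many `n`, embeds in the projective special linear group `PSL(n, p)` as a subgroup with trivial centralizer. -/
theorem result
    (p : ℕ) [Fact p.Prime] (hp : p ≠ 2) :
    ∃ (H : Type) (_ : Group H) (_ : Finite H), Nat.card H = 2 * p ^ 3 ∧
      ∀ N : ℕ, ∃ n, N ≤ n ∧ ∃ φ : H →* Matrix.ProjectiveSpecialLinearGroup (Fin n) (ZMod p),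
        Function.Injective φ ∧ Subgroup.centralizer (φ.range : Set (Matrix.ProjectiveSpecialLinearGroup (Fin n) (ZMod p))) = ⊥ := by
  refine ⟨GD p, inferInstance, ?_, ?_, fun N => ⟨(2 * N + 2) + (2 * N + 3), by omega, ?_⟩⟩
  · exact Finite.of_injective (fun a : GD p => (a.x, a.u)) fun a b h =>
      GD.ext (congrArg Prod.fst h) (congrArg Prod.snd h)
  · rw [Nat.card_congr (⟨fun a => (a.u, a.x), fun a => ⟨a.2, a.1⟩, fun _ => rfl, fun _ => rfl⟩ :
      GD p ≃ ℤˣ × (Fin 3 → ZMod p))]
    simp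
  have h2 : (2 : ZMod p) ≠ 0 := fun h => hp ((Nat.prime_dvd_prime_iff_eq Fact.out Nat.prime_two).mp
    ((ZMod.natCast_eq_zero_iff 2 p).mp (by exact_mod_cast h)))
  let e := Matrix.reindexAlgEquiv (ZMod p) (ZMod p)
    (finSumFinEquiv (m := 2 * N + 2) (n := 2 * N + 3))
  let M : GD p → Matrix (Fin (2 * N + 2) ⊕ Fin (2 * N + 3)) (Fin (2 * N + 2) ⊕ Fin (2 * N + 3))
      (ZMod p) := fun a => fromBlocks ((a.u : ℤ) • 1) 0 (∑ i, a.x i • mA (ZMod p) (2 * N) i) 1
  let ρ : GD p →* SpecialLinearGroup (Fin (2 * N + 2 + (2 * N + 3))) (ZMod p) :=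
    MonoidHom.mk' (fun a => ⟨e (M a), by
      rw [det_reindexAlgEquiv, det_fromBlocks_zero₁₂]
      rcases Int.units_eq_one_or a.u with h | h <;> simp [h, det_neg, pow_succ, pow_mul]⟩)
      fun a b => Subtype.ext (by
        show e _ = e _ * e _
        rw [← map_mul]
        congr 1
        show fromBlocks (((a.u * b.u : ℤˣ) : ℤ) • 1) 0
          (∑ i, ((b.u : ℤ) • a.x + b.x) i • mA (ZMod p) (2 * N) i) 1 = _
        simp only [M, fromBlocks_multiply, Matrix.mul_smul, Matrix.smul_mul, Matrix.mul_one,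
          Matrix.one_mul, Matrix.mul_zero, Matrix.zero_mul, add_zero, zero_add, smul_zero, smul_smul,
          Pi.add_apply, Pi.smul_apply, add_smul, Finset.sum_add_distrib, Finset.smul_sum, smul_assoc,
          Units.val_mul, mul_comm])
  have hρ : ∀ a, (ρ a).1 = e (M a) := fun _ => rfl
  let π := QuotientGroup.mk' (center (SpecialLinearGroup (Fin (2 * N + 2 + (2 * N + 3))) (ZMod p)))
  refine ⟨π.comp ρ, ?_, ?_⟩
  · rw [injective_iff_map_eq_one]
    intro a ha
    obtain ⟨r, -, hr⟩ := Matrix.SpecialLinearGroup.mem_center_iff.mp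
      ((QuotientGroup.eq_one_iff _).mp ha)
    have h1 : M a = scalar _ r := e.injective (by rw [← hρ, ← hr]; simp [e])
    have f1 := congrFun (congrFun h1 (.inl 0)) (.inl 0)
    have f2 := congrFun (congrFun h1 (.inr 0)) (.inr 0)
    have f3 := congrFun (congrFun h1 (.inr 0)) (.inl 0)
    have f4 := congrFun (congrFun h1 (.inr 1)) (.inl 0)
    have f5 := congrFun (congrFun h1 (.inr (Fin.last _))) (.inl 0)
    have n1 : Fin.last (2 * N + 2) ≠ 0 := by simp [Fin.ext_iff]
    have n2 : Fin.last (2 * N + 2) ≠ 1 := by simp [Fin.ext_iff]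
    simp [M, mA, Fin.sum_univ_three, n1, n2, n1.symm, n2.symm] at f1 f2 f3 f4 f5
    refine GD.ext (funext fun i => ?_) ?_
    · fin_cases i
      exacts [f3, f4, f5]
    · refine (Int.units_eq_one_or a.u).resolve_right fun h => h2 ?_
      rw [h, ← f2] at f1
      simp at f1
      linear_combination -f1
  · rw [eq_bot_iff]
    intro g hg
    obtain ⟨g, rfl⟩ := QuotientGroup.mk'_surjective _ g
    have key : ∀ (a : GD p) (m : ℕ), a ^ m = 1 → (m = p ∨ m = 2) →
        e.symm g.1 * M a = M a * e.symm g.1 := by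
      intro a m ha hm
      have h1 : π (g * ρ a * g⁻¹ * (ρ a)⁻¹) = 1 := by
        have : π (ρ a) * π g = π g * π (ρ a) := hg _ ⟨a, rfl⟩
        rw [map_mul, map_mul, map_mul, ← this]; simp
      obtain ⟨z, hz⟩ : ∃ z, z = g * ρ a * g⁻¹ * (ρ a)⁻¹ := ⟨_, rfl⟩
      rw [← hz] at h1
      replace h1 := (QuotientGroup.eq_one_iff _).mp h1
      have h3 : g * ρ a * g⁻¹ = z * ρ a := by rw [hz]; group
      have h4 : z ^ m = 1 := by
        have := congrArg (· ^ m) h3
        simp only [conj_pow, Commute.mul_pow (mem_center_iff.mp h1 (ρ a)).symm] at this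
        rw [← map_pow, ha] at this
        simpa using this.symm
      obtain ⟨r, hr1, hr⟩ := Matrix.SpecialLinearGroup.mem_center_iff.mp h1
      have h5 : r ^ m = 1 := by
        have := congrArg Subtype.val h4
        rw [Matrix.SpecialLinearGroup.coe_pow, ← hr, ← map_pow] at this
        simpa using congrFun (congrFun this ⟨0, by omega⟩) ⟨0, by omega⟩
      have h6 : r = 1 := by
        rcases hm with rfl | rfl
        · rwa [ZMod.pow_card] at h5
        · rw [Fintype.card_fin, show 2 * N + 2 + (2 * N + 3) = 2 * (2 * N + 2) + 1 by ring,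
            pow_succ, pow_mul, h5] at hr1
          simpa using hr1
      have h7 : z = 1 := Subtype.ext (by rw [← hr, h6]; simp)
      rw [h7, one_mul, mul_inv_eq_iff_eq_mul] at h3
      apply e.injective
      rw [map_mul, map_mul, AlgEquiv.apply_symm_apply, ← hρ]
      exact congrArg Subtype.val h3
    obtain ⟨c, hc⟩ := core h2 (e.symm g.1) (by
      simpa [M] using key ⟨0, -1⟩ 2 (GD.ext (by
        show ((-1 : ℤˣ) : ℤ) • (((-1 : ℤˣ) : ℤ) • 0 + 0) + 0 = 0; simp) (by
        show (1 * -1 * -1 : ℤˣ) = 1; simp)) (Or.inr rfl)) fun i => by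
      have : ∀ m : ℕ, (⟨Pi.single i 1, 1⟩ : GD p) ^ m = ⟨m • Pi.single i 1, 1⟩ := fun m => by
        induction m with
        | zero => rw [zero_smul]; rfl
        | succ m ih =>
          rw [pow_succ, ih]
          exact GD.ext (by show ((1 : ℤˣ) : ℤ) • _ + _ = _; simp [add_mul]) (mul_one _)
      simpa [M, Pi.single_apply] using key ⟨Pi.single i 1, 1⟩ p (by
        rw [this, ← Nat.cast_smul_eq_nsmul (ZMod p), CharP.cast_eq_zero, zero_smul]; rfl) (Or.inl rfl)
    rw [mem_bot, QuotientGroup.mk'_apply, QuotientGroup.eq_one_iff, mem_center_iff]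
    intro h
    have h1 : g.1 = c • 1 := by
      rw [← e.apply_symm_apply g.1, hc]; simp
    apply Subtype.ext
    show h.1 * g.1 = g.1 * h.1
    rw [h1]; simp

end Cfsg.Agent.S2533
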