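import Cfsg.Statements.S2534
import Cfsg.Agent.FG.HallSym4

set_option autoImplicit false
open Cfsg

namespace Cfsg.Agent.S2534

open Cfsg.Agent.FG.HS Cfsg.Agent.Loc Equiv Equiv.Perm Finset

theorem small {n : ℕ} {π : Set ℕ} (hn : n = 7 ∨ n = 8) (hπ : ∀ u, u.Prime → u ≤ n → (u ∈ π ↔ u ≤ 4)) :
    IsPiSubgroup π (Aut fun x y : Fin n => x.val / 3 = y.val / 3) := by
  intro u hu h
  have h1 := le_of_dvd_card hu h
  rw [Fintype.card_fin] at h1
  rw [hπ u hu h1]
  by_contra h2
  have := le_of_dvd_Aut (r := fun x y : Fin n => x.val / 3 = y.val / 3) ⟨fun _ => rfl, Eq.symm, Eq.trans⟩ (d := 3)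
    (by simp only [cls_eq_filter]; rcases hn with rfl | rfl <;> decide)
    (by simp only [cls_eq_filter]; rcases hn with rfl | rfl <;> decide) hu h (by rw [Fintype.card_fin]; omega)
  omega

/-- For `n ≥ 5` and a set of primes `π`, the alternating group of degree `n` satisfies the full Sylow analogue for `π` (its maximal `π`-subgroups are pairwise conjugate; for a finite group this says Hall `π`-subgroups exist, are all conjugate, and contain every `π`-subgroup up to conjugacy) if and only if either at most one prime of `π` divides its order or every prime dividing its order lies in `π`. -/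
theorem result (n : ℕ) (hn : 5 ≤ n) (π : Set ℕ) :
    Cfsg.IsDPiGroup π ↥(alternatingGroup (Fin n)) ↔
      ((∀ r s : ℕ, r.Prime → s.Prime → r ∈ π → s ∈ π → r ∣ Nat.card ↥(alternatingGroup (Fin n)) → s ∣ Nat.card ↥(alternatingGroup (Fin n)) → r = s) ∨
        ∀ r : ℕ, r.Prime → r ∣ Nat.card ↥(alternatingGroup (Fin n)) → r ∈ π) := by
  refine ⟨fun hD => ?_, D_of_triv⟩
  by_contra hc
  have h := nontriv hc fun u => le_of_dvd_card
  obtain ⟨M, hM⟩ := E_of_D hD
  obtain ⟨Δ₀, -, h1, h2⟩ := alt_struct hM h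
  have key : ∀ K : Subgroup (Perm (Fin n)), IsPiSubgroup π K → ∃ Δ : Finset (Fin n), Δ.card = Δ₀.card ∧
      ∀ g ∈ K, sign g = 1 → g ∈ Bi Δ := by
    intro K hK
    obtain ⟨H, h3, h4⟩ := exists_hall_ge hD (K := K.subgroupOf (alternatingGroup (Fin n))) fun u hu h =>
      hK u hu (h.trans (by rw [Cfsg.Agent.Solv.card_subgroupOf']; exact Subgroup.card_dvd_of_le inf_le_left))
    obtain ⟨Δ, rfl, h5, h6⟩ := alt_struct h4 h
    exact ⟨Δ, typ_unique h6 h2 h5 h1, fun g hg hs => h3 (x := ⟨g, hs⟩) hg⟩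
  rw [Fintype.card_fin] at h1 h2
  rcases h2 with ⟨e1, e2, -⟩ | ⟨e1, e2⟩
  · obtain ⟨a, -, b, -, hab⟩ := one_lt_card.1 (show 1 < (univ : Finset (Fin n)).card by simp; omega)
    have hcab := card_pair hab
    obtain ⟨Δ, k1, k2⟩ := key (Bi {a, b}) fun u hu h => by
      have h3 := le_of_dvd_card hu h
      rw [Fintype.card_fin] at h3
      rw [h1 u hu h3]
      by_contra h4
      have := le_of_dvd_Bi (d := n - 2) (by omega) (by rw [card_compl, hcab, Fintype.card_fin]) (by omega) hu h (by simp; omega)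
      omega
    obtain ⟨c, hc⟩ := card_eq_one.1 (show Δᶜ.card = 1 by simp [card_compl]; omega)
    have hc' : ∀ x, x ∉ Δ ↔ x = c := fun x => by rw [← mem_compl, hc, mem_singleton]
    have hfix : ∀ g ∈ Bi Δ, g c = c := fun g hg => by
      by_contra hne
      obtain ⟨x, hx, y, hy, hxy⟩ := one_lt_card.1 (show 1 < Δ.card by omega)
      have h3 : ∀ x ∈ Δ, g x = c := fun x hx => by
        have h4 : (g x ∈ Δ ↔ g c ∈ Δ) ↔ (x ∈ Δ ↔ c ∈ Δ) := hg x c
        have := hc' (g x); have := hc' (g c); have := hc' c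
        tauto
      exact hxy (g.injective ((h3 x hx).trans (h3 y hy).symm))
    obtain ⟨u, hu, v, hv, huv⟩ := one_lt_card.1 (show 1 < ({a, b, c} : Finset (Fin n))ᶜ.card by
      have := card_le_three (a := a) (b := b) (c := c)
      rw [card_compl, Fintype.card_fin]; omega)
    simp only [mem_compl, mem_insert, mem_singleton, not_or] at hu hv
    by_cases hcm : c = a ∨ c = b
    · have := hfix _ (k2 (swap a b * swap u v) (mem_Bi_of_stab fun x => by
        simp only [Perm.mul_apply, swap_apply_def, mem_insert, mem_singleton]; split_ifs <;> simp_all) (by simp [hab, huv]))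
      rcases hcm with rfl | rfl <;> simp [swap_apply_def, Ne.symm hu.1, Ne.symm hv.1, Ne.symm hu.2.1, Ne.symm hv.2.1, hab, hab.symm] at this
    · rw [not_or] at hcm
      have := hfix _ (k2 (swap c u * swap u v) (mem_Bi_of_stab fun x => by
        simp only [Perm.mul_apply, swap_apply_def, mem_insert, mem_singleton]; split_ifs <;> simp_all)
        (by simp [Ne.symm hu.2.2, huv]))
      simp [swap_apply_def, Ne.symm hu.2.2, Ne.symm hv.2.2, hu.2.2] at this
  · rw [e2] at h1 key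
    obtain ⟨Δ, k1, k2⟩ := key _ (small e1 h1)
    rcases e1 with rfl | rfl
    · have h3 : ∀ a b, ((swap 0 1 * swap 1 2 : Perm (Fin 7)) a ∈ Δ ↔ (swap 0 1 * swap 1 2 : Perm (Fin 7)) b ∈ Δ) ↔ (a ∈ Δ ↔ b ∈ Δ) :=
        k2 (swap 0 1 * swap 1 2) (show ∀ _ _, _ by decide) (by decide)
      have h4 : ∀ a b, ((swap 0 3 * swap 1 4 * swap 2 5 * swap 0 1 : Perm (Fin 7)) a ∈ Δ ↔
          (swap 0 3 * swap 1 4 * swap 2 5 * swap 0 1 : Perm (Fin 7)) b ∈ Δ) ↔ (a ∈ Δ ↔ b ∈ Δ) :=
        k2 (swap 0 3 * swap 1 4 * swap 2 5 * swap 0 1) (show ∀ _ _, _ by decide) (by decide)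
      clear k2
      revert Δ
      decide +kernel
    · have h3 : ∀ a b, ((swap 0 1 * swap 1 2 : Perm (Fin 8)) a ∈ Δ ↔ (swap 0 1 * swap 1 2 : Perm (Fin 8)) b ∈ Δ) ↔ (a ∈ Δ ↔ b ∈ Δ) :=
        k2 (swap 0 1 * swap 1 2) (show ∀ _ _, _ by decide) (by decide)
      have h4 : ∀ a b, ((swap 0 3 * swap 1 4 * swap 2 5 * swap 0 1 : Perm (Fin 8)) a ∈ Δ ↔
          (swap 0 3 * swap 1 4 * swap 2 5 * swap 0 1 : Perm (Fin 8)) b ∈ Δ) ↔ (a ∈ Δ ↔ b ∈ Δ) :=
        k2 (swap 0 3 * swap 1 4 * swap 2 5 * swap 0 1) (show ∀ _ _, _ by decide) (by decide)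
      clear k2
      revert Δ
      decide +kernel

end Cfsg.Agent.S2534
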