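import Cfsg.Statements.S2535
import Cfsg.Agent.FG.HallSym4

set_option autoImplicit false
open Cfsg

namespace Cfsg.Agent.S2535

open Cfsg.Agent.FG.HS Cfsg.Agent.Loc

/-- For every `n` and every set of primes `π`, the following are equivalent for the symmetric group `S` of degree `n` and its alternating subgroup `A`: `S` has a Hall `π`-subgroup; `S` has a Hall `π`-subgroup and all of them are conjugate; `A` has a Hall `π`-subgroup; `A` has a Hall `π`-subgroup and all of them are conjugate. -/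
theorem result (n : ℕ) (π : Set ℕ) :
    (Cfsg.IsEPiGroup π (Equiv.Perm (Fin n)) ↔ Cfsg.IsCPiGroup π (Equiv.Perm (Fin n))) ∧
    (Cfsg.IsEPiGroup π (Equiv.Perm (Fin n)) ↔ Cfsg.IsEPiGroup π ↥(alternatingGroup (Fin n))) ∧
    (Cfsg.IsEPiGroup π ↥(alternatingGroup (Fin n)) ↔ Cfsg.IsCPiGroup π ↥(alternatingGroup (Fin n))) := by
  refine ⟨⟨fun hE => ?_, fun h => h.1⟩, ⟨fun ⟨_, h⟩ => ⟨_, hall_subgroupOf h _⟩, fun ⟨_, h⟩ =>
    let ⟨M, h1, _⟩ := alt_hall h; ⟨M, h1⟩⟩, ⟨fun hE => ?_, fun h => h.1⟩⟩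
  · by_contra hC
    have h := nontriv (fun h => hC (C_of_D (D_of_triv h))) fun u => le_of_dvd_perm
    refine hC ⟨hE, fun H K hH hK => ?_⟩
    obtain ⟨Δ, rfl, h1, h2⟩ := sym_struct hH h
    obtain ⟨Δ', rfl, h3, h4⟩ := sym_struct hK h
    obtain ⟨g, -, hg⟩ := conj_Bi (typ_unique h2 h4 h1 h3) (by have := h2.three_le; omega)
    exact ⟨g, hg.symm⟩
  · by_contra hC
    have h := nontriv (fun h => hC (C_of_D (D_of_triv h))) fun u => le_of_dvd_card
    refine hC ⟨hE, fun H K hH hK => ?_⟩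
    obtain ⟨Δ, rfl, h1, h2⟩ := alt_struct hH h
    obtain ⟨Δ', rfl, h3, h4⟩ := alt_struct hK h
    obtain ⟨g, hg', hg⟩ := conj_Bi (typ_unique h2 h4 h1 h3) (by have := h2.three_le; omega)
    exact ⟨⟨g, hg'⟩, by rw [← hg]; exact subgroupOf_cj (⟨g, hg'⟩ : alternatingGroup (Fin n)) _⟩

end Cfsg.Agent.S2535
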