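import Cfsg.Statements.S2536
import Cfsg.Agent.FG.HallSym4

set_option autoImplicit false
open Cfsg

namespace Cfsg.Agent.S2536

open Cfsg.Agent.FG.HS

/-- Let `π` be a set of primes and `n` a natural number such that at least two primes of `π` divide `n!` but not every prime dividing `n!` lies in `π`. Then the symmetric group of degree `n` has a Hall `π`-subgroup if and only if either `n` is prime and the primes of `π` dividing `n!` are exactly the primes smaller than `n` (a point stabilizer is then such a subgroup), or `n ∈ {7, 8}` and the primes of `π` dividing `n!` are exactly 2 and 3. -/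
theorem result (n : ℕ) (π : Set ℕ)
    (h2 : ∃ r s : ℕ, r.Prime ∧ s.Prime ∧ r ≠ s ∧ r ∈ π ∧ s ∈ π ∧ r ≤ n ∧ s ≤ n)
    (hns : ∃ r : ℕ, r.Prime ∧ r ≤ n ∧ r ∉ π) :
    Cfsg.IsEPiGroup π (Equiv.Perm (Fin n)) ↔
      ((n.Prime ∧ ∀ r : ℕ, r.Prime → r ≤ n → (r ∈ π ↔ r < n)) ∨
       ((n = 7 ∨ n = 8) ∧ ∀ r : ℕ, r.Prime → r ≤ n → (r ∈ π ↔ (r = 2 ∨ r = 3)))) := by
  obtain ⟨r, s, h1, h3, h4, h5, h6, h7, h8⟩ := h2
  obtain ⟨t, k1, k2, k3⟩ := hns
  constructor
  · rintro ⟨H, hH⟩
    obtain ⟨Δ, -, e1, e2⟩ := sym_struct hH (by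
      rw [Fintype.card_fin]
      rcases lt_or_gt_of_ne h4 with h | h
      · exact ⟨r, s, t, h1, h3, k1, h, h5, h6, k3, h8, k2⟩
      · exact ⟨s, r, t, h3, h1, k1, h, h6, h5, k3, h7, k2⟩)
    rw [Fintype.card_fin] at e1 e2
    refine e2.imp (fun h => ⟨h.1, fun u hu hn => by rw [e1 u hu hn]; omega⟩) fun h => ⟨h.1, fun u hu hn => ?_⟩
    rw [e1 u hu hn, h.2]
    refine ⟨fun h => ?_, by omega⟩
    have := hu.two_le
    interval_cases u
    · simp
    · simp
    · exact absurd hu (by decide)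
  · intro h
    have key : ∀ d, d ≤ n → Typ n d → (∀ u, u.Prime → u ≤ n → (u ∈ π ↔ u ≤ d)) → IsEPiGroup π (Equiv.Perm (Fin n)) := by
      intro d hd e1 e2
      obtain ⟨Δ, -, rfl⟩ := Finset.exists_subset_card_eq (s := (Finset.univ : Finset (Fin n))) (n := d) (by simpa using hd)
      exact ⟨_, hall_Bi (Δ := Δ) (by simpa using e1) (by simpa using e2)⟩
    rcases h with ⟨e1, e2⟩ | ⟨e1, e2⟩
    · have := (e2 r h1 h7).1 h5
      have := (e2 s h3 h8).1 h6
      have := h1.two_le
      have := h3.two_le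
      exact key (n - 1) (by omega) (Or.inl ⟨e1, by omega, by omega⟩) fun u hu hn => by rw [e2 u hu hn]; omega
    · refine key 4 (by omega) (Or.inr ⟨e1, rfl⟩) fun u hu hn => ?_
      rw [e2 u hu hn]
      refine ⟨by omega, fun h => ?_⟩
      have := hu.two_le
      interval_cases u
      · simp
      · simp
      · exact absurd hu (by decide)

end Cfsg.Agent.S2536
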