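import Cfsg.Statements.S2537
import Cfsg.Agent.Classical.PSL2Four
import Cfsg.Agent.Solv.Hall

set_option autoImplicit false
open Cfsg

namespace Cfsg.Agent.S2537

open Cfsg.Agent.Classical Matrix Subgroup MulAction

/-- Let `F` be a finite field with `q` elements of characteristic `p ≥ 5`, and `ε = 1` if `q ≡ 1 (mod 4)`, `ε = -1` otherwise. Then `PSL(2, F)` has a Hall `{2, 3}`-subgroup if and only if `3` divides `q − ε`, or the `{2,3}`-part of `q² − 1` is 24, or the `{2,3}`-part of `q² − 1` is 48 (the `{2,3}`-part of `m` being the largest divisor of `m` with no prime factor other than 2 and 3). -/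
theorem result {F : Type*} [Field F] [Fintype F] {p : ℕ} [Fact p.Prime] [CharP F p]
    (hp : 5 ≤ p) (q : ℕ) (hq : Fintype.card F = q) :
    (∃ H : Subgroup (Matrix.ProjectiveSpecialLinearGroup (Fin 2) F), Cfsg.IsPiHall ({2, 3} : Set ℕ) H) ↔
      (3 ∣ q - 1 ∧ q % 4 = 1) ∨ (3 ∣ q + 1 ∧ q % 4 = 3) ∨
        2 ^ (q ^ 2 - 1).factorization 2 * 3 ^ (q ^ 2 - 1).factorization 3 = 24 ∨
        2 ^ (q ^ 2 - 1).factorization 2 * 3 ^ (q ^ 2 - 1).factorization 3 = 48 := by
  rw [← Nat.card_eq_fintype_card] at hq
  subst hq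
  have hp' : p.Prime := Fact.out
  have h2 := two_ne_zero_of_char F p (by omega)
  have ho := two_ne_zero_iff_odd.1 h2
  have hg := gcd_two_pred_of_odd ho
  have hq2 := Nat.odd_iff.1 ho
  have hq3 : ¬ 3 ∣ Nat.card F := fun h => by
    obtain ⟨n, -, hn⟩ := exists_card_eq_pow F p
    have := (Nat.prime_dvd_prime_iff_eq Nat.prime_three hp').1
      (Nat.prime_three.dvd_of_dvd_pow (hn ▸ h))
    omega
  have hq1 := one_lt_card_field (F := F)
  have h12 : Nat.card F % 12 = 1 ∨ Nat.card F % 12 = 5 ∨ Nat.card F % 12 = 7 ∨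
      Nat.card F % 12 = 11 := by
    rcases (show Nat.card F % 3 = 1 ∨ Nat.card F % 3 = 2 by omega) with h | h <;> omega
  have hG := card_PSL2_mul (F := F)
  rw [hg] at hG
  have hN : Nat.card F ^ 2 - 1 = (Nat.card F - 1) * (Nat.card F + 1) := by
    rw [mul_comm, ← Nat.sq_sub_sq, one_pow]
  have hN0 : Nat.card F ^ 2 - 1 ≠ 0 := by rw [hN]; exact mul_ne_zero (by omega) (by omega)
  have hi : ∀ M : Subgroup (ProjectiveSpecialLinearGroup (Fin 2) F),
      2 * Nat.card M * M.index = Nat.card F * (Nat.card F ^ 2 - 1) := fun M => by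
    rw [mul_assoc, M.card_mul_index, hG, hN, mul_assoc]
  have hi1 : ∀ M : Subgroup (ProjectiveSpecialLinearGroup (Fin 2) F), Nat.card M = Nat.card F - 1 →
      2 * M.index = Nat.card F * (Nat.card F + 1) := fun M h => by
    have := hi M
    rw [h, hN] at this
    exact Nat.eq_of_mul_eq_mul_left (show 0 < Nat.card F - 1 by omega) (by linarith)
  have hi2 : ∀ M : Subgroup (ProjectiveSpecialLinearGroup (Fin 2) F), Nat.card M = Nat.card F + 1 →
      2 * M.index = Nat.card F * (Nat.card F - 1) := fun M h => by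
    have := hi M
    rw [h, hN] at this
    exact Nat.eq_of_mul_eq_mul_left (show 0 < Nat.card F + 1 by omega) (by linarith)
  have c4 : ∀ {n}, 4 ∣ Nat.card F * n ↔ 4 ∣ n :=
    (Nat.Coprime.pow_left 2 (Nat.coprime_two_left.2 ho)).dvd_mul_left
  have c3 : ∀ {n}, 3 ∣ Nat.card F * n ↔ 3 ∣ n :=
    ((Nat.Prime.coprime_iff_not_dvd Nat.prime_three).2 hq3).dvd_mul_left
  constructor
  · rintro ⟨H, h1, h3⟩
    have a2 := h3 2 Nat.prime_two (by simp)
    have a3 := h3 3 Nat.prime_three (by simp)
    have hpH : ¬ p ∣ Nat.card H := fun h => by have := h1 p hp' h; simp at this; omega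
    have hd : ∀ r ∈ H, r ≠ 1 → H ≤ extC r → (3 ∣ Nat.card F - 1 ∧ Nat.card F % 4 = 1) ∨
        (3 ∣ Nat.card F + 1 ∧ Nat.card F % 4 = 3) := fun r a b c => by
      have d := index_dvd_of_le c
      have b2 : ¬ 4 ∣ 2 * (extC r).index := fun h => a2 (Dvd.dvd.trans (by omega) d)
      have b3 : ¬ 3 ∣ 2 * (extC r).index := fun h => a3 (Dvd.dvd.trans (by omega) d)
      rcases card_extC_PSL (r := r) (kap_ne_four_of_coprime p
        (fun e => b (pslInj (e.trans (map_one _).symm))) fun e => hpH (e.trans
          ((orderOf_map_dvd _ _).trans (orderOf_dvd_natCard H a)))) with h | h <;> rw [hg] at h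
      · rw [hi1 _ (by omega), c4] at b2
        rw [hi1 _ (by omega), c3] at b3
        rcases h12 with h | h | h | h <;> omega
      · rw [hi2 _ (by omega), c4] at b2
        rw [hi2 _ (by omega), c3] at b3
        rcases h12 with h | h | h | h <;> omega
    have hf : ∀ r, r.Prime → ¬ r ∣ Nat.card F → ¬ r ∣ H.index →
        (Nat.card F ^ 2 - 1).factorization r = (2 * Nat.card H).factorization r := fun r a b c => by
      have := congrArg (fun n => n.factorization r) (hi H)
      rw [Nat.factorization_mul (mul_ne_zero two_ne_zero Nat.card_pos.ne') index_ne_zero_of_finite,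
        Nat.factorization_mul (a := Nat.card F) (by omega) hN0] at this
      simpa only [Finsupp.add_apply, Nat.factorization_eq_zero_of_not_dvd b,
        Nat.factorization_eq_zero_of_not_dvd c, add_zero, zero_add] using this.symm
    rw [hf 2 Nat.prime_two (by omega) a2, hf 3 Nat.prime_three hq3 a3]
    rcases dickson_coprime ((pslι F).comp H.subtype) (pslInj.comp H.subtype_injective)
      (by rwa [Ne, CharP.cast_eq_zero_iff F p]) with e | ⟨k, hk, ⟨e⟩⟩ | ⟨⟨e⟩⟩ | ⟨⟨e⟩⟩ | ⟨⟨e⟩⟩
    · obtain ⟨r, rfl⟩ := (Subgroup.isCyclic_iff_exists_zpowers_eq_top _).1 e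
      have := hd r (mem_zpowers r) (by
        rintro rfl
        rw [zpowers_one_eq_bot, index_bot] at a3
        have : 3 ∣ 2 * Nat.card (ProjectiveSpecialLinearGroup (Fin 2) F) := by
          rw [hG, mul_assoc, c3, Nat.prime_three.dvd_mul]
          rcases h12 with h | h | h | h <;> omega
        omega) (zpowers_le.2 (self_mem_extC r))
      tauto
    · obtain ⟨r, a, b, c⟩ := le_extC_of_dihedral e
      have := hd r a (by rintro rfl; simp at b; omega) c
      tauto
    · rw [Nat.card_congr e.toEquiv, card_alt4]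
      exact Or.inr (Or.inr (Or.inl (by decide +kernel)))
    · rw [Nat.card_congr e.toEquiv, card_perm4]
      exact Or.inr (Or.inr (Or.inr (by decide +kernel)))
    · have := h1 5 Nat.prime_five (by rw [Nat.card_congr e.toEquiv, card_alt5]; norm_num)
      simp at this
  · intro h
    suffices ∃ M : Subgroup (ProjectiveSpecialLinearGroup (Fin 2) F), Group.IsSolvable M ∧
        ¬ 2 ∣ M.index ∧ ¬ 3 ∣ M.index by
      obtain ⟨M, a, b, c⟩ := this
      obtain ⟨H, d, e, f⟩ := (Solv.HallOK.of_isSolvable {2, 3} M).exists_hallOf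
      refine ⟨H, e, fun r hr h => ?_⟩
      rw [← relIndex_mul_index d, hr.dvd_mul, not_or]
      exact ⟨f r hr h, by rcases h with rfl | rfl <;> assumption⟩
    have hw : disc (wSL : Matrix.SpecialLinearGroup (Fin 2) F).1 ≠ 0 := by
      rw [sl_disc]; convert neg_ne_zero.2 (mul_ne_zero h2 h2); simp; ring
    obtain ⟨e⟩ := extC_pslMk_equiv hw
    have hc := card_of_dihedral e
    have hn := noEig_iff_of_trace_zero (g := (wSL : Matrix.SpecialLinearGroup (Fin 2) F)) (by simp)
    have key : ∀ r k m, r.Prime → r ^ k ∣ Nat.card F * (Nat.card F ^ 2 - 1) → ¬ r ∣ Nat.card F →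
        r ^ (Nat.card F ^ 2 - 1).factorization r ∣ m → r ^ k ∣ m := fun r k m a b c d =>
      (pow_dvd_pow r ((a.pow_dvd_iff_le_factorization hN0).1 ((Nat.Coprime.pow_left k
        (a.coprime_iff_not_dvd.2 c)).dvd_of_dvd_mul_left b))).trans d
    rcases h with h | h | h | h
    · rw [sl_card_centralizer_split hw (by rw [hn]; omega), hg] at hc
      have := hi1 (extC (pslMk F wSL)) (by omega)
      have := c4 (n := Nat.card F + 1)
      have := c3 (n := Nat.card F + 1)
      exact ⟨_, isSolvable_of_dihedral e, by rcases h12 with h | h | h | h <;> omega,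
        by rcases h12 with h | h | h | h <;> omega⟩
    · rw [sl_card_centralizer_noEig (hn.2 h.2), hg] at hc
      have := hi2 (extC (pslMk F wSL)) (by omega)
      have := c4 (n := Nat.card F - 1)
      have := c3 (n := Nat.card F - 1)
      exact ⟨_, isSolvable_of_dihedral e, by rcases h12 with h | h | h | h <;> omega,
        by rcases h12 with h | h | h | h <;> omega⟩
    · obtain ⟨M, ⟨e⟩⟩ := exists_alt4_PSL h2
      have c : Nat.card M = 12 := by rw [Nat.card_congr e.toEquiv, card_alt4]
      have := c ▸ hi M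
      exact ⟨M, isSolvable_of_card_dvd_24 (by rw [c]; try norm_num),
        fun h' => by
          have := key 2 4 24 Nat.prime_two (by rw [← this]; omega) (by omega) (Dvd.intro _ h)
          omega,
        fun h' => by
          have := key 3 2 24 Nat.prime_three (by rw [← this]; omega) hq3 (Dvd.intro_left _ h)
          omega⟩
    · have h16 : 2 ^ 4 ∣ Nat.card F ^ 2 - 1 :=
        ((Nat.Coprime.pow 4 _ (show Nat.Coprime 2 3 by norm_num)).dvd_of_dvd_mul_right
          (by rw [h]; norm_num)).trans (Nat.ordProj_dvd _ 2)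
      have h8 : Nat.card F ^ 2 % 16 = (Nat.card F % 16) ^ 2 % 16 := Nat.pow_mod _ _ _
      obtain ⟨M, ⟨e⟩⟩ := exists_perm4_PSL (F := F) (by
        by_contra h'
        rcases (show Nat.card F % 16 = 3 ∨ Nat.card F % 16 = 5 ∨ Nat.card F % 16 = 11 ∨
          Nat.card F % 16 = 13 by omega) with h | h | h | h <;> rw [h] at h8 <;> omega)
      have c : Nat.card M = 24 := by rw [Nat.card_congr e.toEquiv, card_perm4]
      have := c ▸ hi M
      exact ⟨M, isSolvable_of_card_dvd_24 (by rw [c]; try norm_num),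
        fun h' => by
          have := key 2 5 48 Nat.prime_two (by rw [← this]; omega) (by omega) (Dvd.intro _ h)
          omega,
        fun h' => by
          have := key 3 2 48 Nat.prime_three (by rw [← this]; omega) hq3 (Dvd.intro_left _ h)
          omega⟩

end Cfsg.Agent.S2537
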