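import Cfsg.Statements.S2540
import Cfsg.Agent.Classical.LowIso

set_option autoImplicit false
open Cfsg

namespace Cfsg.Agent.S2540

open Cfsg.Agent.Classical Matrix Subgroup
open scoped commutatorElement

/-- Let F be a finite field and n ≥ 1, excluding the case n = 2 with #F ≤ 3. A subgroup of GL_n(F) that is normalized by every element of SL_n(F) either consists of scalar matrices or contains SL_n(F). -/
theorem result {F : Type*} [Field F] [Fintype F] (n : ℕ) (hn : 1 ≤ n) (hex : ¬ (n = 2 ∧ Fintype.card F ≤ 3)) (G : Subgroup (Matrix.GeneralLinearGroup (Fin n) F)) (hG : ∀ s : Matrix.SpecialLinearGroup (Fin n) F, ∀ g ∈ G, (Matrix.SpecialLinearGroup.toGL s) * g * (Matrix.SpecialLinearGroup.toGL s)⁻¹ ∈ G) : (∀ g ∈ G, ∃ c : F, (g : Matrix (Fin n) (Fin n) F) = c • (1 : Matrix (Fin n) (Fin n) F)) ∨ (Matrix.SpecialLinearGroup.toGL : Matrix.SpecialLinearGroup (Fin n) F →* _).range ≤ G := by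
  have H : ∀ g : GL (Fin n) F, (∀ s : SpecialLinearGroup (Fin n) F, s.1 * g.1 = g.1 * s.1) →
      ∃ c : F, g.1 = c • 1 := fun g h => by
    obtain ⟨c, hc⟩ := mem_range_scalar_of_commute_transvectionStruct (M := g.1) fun t =>
      h ⟨t.toMatrix, t.det⟩
    exact ⟨c, by rw [← hc, scalar_apply, smul_one_eq_diagonal]⟩
  rcases hn.eq_or_lt with rfl | hn
  · exact .inl fun g _ => H g fun s => by ext i j; simp [mul_apply, mul_comm, Subsingleton.elim i 0,
      Subsingleton.elim j 0]
  obtain ⟨h1, h2⟩ : commutator (SpecialLinearGroup (Fin n) F) = ⊤ ∧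
      IsSimpleGroup (ProjectiveSpecialLinearGroup (Fin n) F) := by
    rcases (Nat.succ_le_of_lt hn).eq_or_lt with rfl | hn
    · rw [← Nat.card_eq_fintype_card] at hex
      exact ⟨commutator_SL2 (by omega), ProjectiveSpecialLinearGroup.rank_two_simple (by omega)⟩
    · exact ⟨commutator_SL_eq_top (by simpa), isSimpleGroup_PSL (by simpa)⟩
  let N := G.comap (SpecialLinearGroup.toGL : SpecialLinearGroup (Fin n) F →* _)
  have hN : N.Normal := ⟨fun x hx s => by simpa [N] using hG s _ hx⟩
  rcases (hN.map _ (QuotientGroup.mk'_surjective (center _))).eq_bot_or_eq_top with h | h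
  · rw [Subgroup.map_eq_bot_iff, QuotientGroup.ker_mk'] at h
    refine .inl fun g hg => H g fun s => ?_
    set j : SpecialLinearGroup (Fin n) F →* GL (Fin n) F := SpecialLinearGroup.toGL
    have hj : Function.Injective j := SpecialLinearGroup.toGL_injective
    choose c hc using fun s => show j s * g * (j s)⁻¹ * g⁻¹ ∈ j.range by
      rw [range_toGL, MonoidHom.mem_ker]; simp
    have h3 : ∀ s, c s ∈ center _ := fun s => h (show j _ ∈ G from
      hc s ▸ mul_mem (hG s g hg) (inv_mem hg))
    let φ : SpecialLinearGroup (Fin n) F →* center (SpecialLinearGroup (Fin n) F) :=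
      MonoidHom.mk' (fun s => ⟨c s, h3 s⟩) fun s t => Subtype.ext (hj (by
        have h4 := congrArg j (mem_center_iff.1 (h3 t) s)
        change _ = j (c s * c t)
        rw [mem_center_iff.1 (h3 t), map_mul, hc s, ← mul_assoc, ← mul_assoc, ← mul_assoc,
          ← map_mul, ← h4, map_mul, hc, hc, map_mul]
        group))
    have h5 : commutator _ ≤ φ.ker := by
      refine commutator_le.2 fun a _ b _ => ?_
      rw [MonoidHom.mem_ker, map_commutatorElement, commutatorElement_eq_one_iff_mul_comm]
      exact Subtype.ext (mem_center_iff.1 (h3 b) _)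
    have h4 := hc s
    rw [show c s = 1 from congrArg Subtype.val (MonoidHom.mem_ker.1 (h5 (h1 ▸ mem_top s))),
      map_one, eq_comm, mul_inv_eq_one, mul_inv_eq_iff_eq_mul] at h4
    exact congrArg Units.val h4
  · right
    have h3 : N ⊔ center _ = ⊤ := by
      rw [← QuotientGroup.ker_mk' (center _), ← comap_map_eq, h, comap_top]
    have h4 : commutator _ ≤ N := by
      rw [← QuotientGroup.ker_mk' N]
      refine commutator_le.2 fun a _ b _ => ?_
      obtain ⟨a, ha, z, hz, rfl⟩ := (mem_sup_of_normal_right).1 (h3 ▸ mem_top a)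
      rw [MonoidHom.mem_ker, map_commutatorElement, map_mul,
        show QuotientGroup.mk' N a = 1 from (QuotientGroup.eq_one_iff a).2 ha,
        one_mul, ← map_commutatorElement, commutatorElement_eq_one_iff_mul_comm.2
          (mem_center_iff.1 hz b).symm, map_one]
    rintro _ ⟨s, rfl⟩
    exact h4 (h1 ▸ mem_top s)

end Cfsg.Agent.S2540
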