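import Cfsg.Statements.S2541
import Cfsg.Agent.Classical.PSL2Four

set_option autoImplicit false
open Cfsg

namespace Cfsg.Agent.S2541

open Cfsg.Agent.Classical Matrix Subgroup MulAction

/-- Let F be a field with 9 elements. The symmetric group S_6 is not isomorphic to PGL_2(F) (although both have index-2 subgroups isomorphic to A_6). -/
theorem result {F : Type*} [Field F] [Fintype F] (hF : Fintype.card F = 9) : ¬ Nonempty (Equiv.Perm (Fin 6) ≃* Matrix.ProjGenLinGroup (Fin 2) F) := by
  rw [← Nat.card_eq_fintype_card] at hF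
  rintro ⟨e⟩
  obtain ⟨a, ha⟩ := IsCyclic.exists_ofOrder_eq_natCard (α := Fˣ)
  rw [Nat.card_units, hF, ← orderOf_injective _ affHom_injective, ← e.symm.orderOf_eq] at ha
  have h : ∀ g : Equiv.Perm (Fin 6), orderOf g ∣ 60 := fun g => by
    rw [← Equiv.Perm.lcm_cycleType]
    refine Multiset.lcm_dvd.2 fun n hn => ?_
    have h1 := Equiv.Perm.two_le_of_mem_cycleType hn
    have h2 := (Equiv.Perm.le_card_support_of_mem_cycleType hn).trans (Finset.card_le_univ _)
    rw [Fintype.card_fin] at h2
    interval_cases n <;> norm_num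
  have := ha ▸ h (e.symm (affHom F a))
  omega

end Cfsg.Agent.S2541
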