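import Cfsg.Statements.S2542
import Cfsg.Agent.Classical.PSL2Four

set_option autoImplicit false
open Cfsg

namespace Cfsg.Agent.S2542

open Cfsg.Agent.Classical Matrix Subgroup MulAction

/-- Let F be a field with 11 elements. PSL_2(F) has a subgroup H of index 11 isomorphic to the alternating group A_5, and the action of PSL_2(F) on the cosets of H is 2-transitive (of degree 11). -/
theorem result {F : Type*} [Field F] [Fintype F] (hF : Fintype.card F = 11) : ∃ H : Subgroup (Matrix.ProjectiveSpecialLinearGroup (Fin 2) F), H.index = 11 ∧ Nonempty (H ≃* alternatingGroup (Fin 5)) ∧ MulAction.IsMultiplyPretransitive (Matrix.ProjectiveSpecialLinearGroup (Fin 2) F) ((Matrix.ProjectiveSpecialLinearGroup (Fin 2) F) ⧸ H) 2 := by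
  rw [← Nat.card_eq_fintype_card] at hF
  have := Fact.mk (show Nat.Prime 11 by norm_num)
  have : CharP F 11 := charP_of_card_eq_prime (by rwa [← Nat.card_eq_fintype_card])
  obtain ⟨H, ⟨e⟩⟩ := exists_alt5_PSL (F := F) (by omega)
  have := ProjectiveSpecialLinearGroup.rank_two_simple (F := F) (by omega)
  have c : Nat.card H = 60 := by rw [Nat.card_congr e.toEquiv, card_alt5]
  have hG := card_PSL2_mul (F := F)
  rw [hF] at hG
  norm_num only at hG
  have hi : H.index = 11 := by have := H.card_mul_index; rw [c] at this; omega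
  refine ⟨H, hi, ⟨e⟩, ?_⟩
  set G := ProjectiveSpecialLinearGroup (Fin 2) F
  obtain ⟨s, hs⟩ := exists_prime_orderOf_dvd_card' (G := G) 2 (by omega)
  obtain ⟨g, hg⟩ : ∃ g : G, g * s * g⁻¹ ∉ H := by
    by_contra! h
    rcases H.normalCore_normal.eq_bot_or_eq_top with h' | h'
    · rw [mem_bot.1 (h'.le h)] at hs; simp at hs
    · rw [top_le_iff.1 (h'.ge.trans H.normalCore_le), index_top] at hi; omega
  have ht : g * s * g⁻¹ * (g * s * g⁻¹) = 1 := by
    rw [← sq, conj_pow, orderOf_dvd_iff_pow_eq_one.1 hs.dvd, mul_one, mul_inv_cancel]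
  generalize g * s * g⁻¹ = t at hg ht
  let a : G ⧸ H := ((1 : G) : G ⧸ H)
  have ha : stabilizer G a = H := stabilizer_quotient H
  let D := stabilizer G a ⊓ stabilizer G (t • a)
  have htD : t ∈ normalizer (D : Set G) := by
    refine mem_normalizer_iff.2 fun d => ?_
    simp only [D, mem_inf, mem_stabilizer_iff, mul_smul, ← eq_inv_of_mul_eq_one_left ht,
      smul_smul t t, ht, one_smul, smul_left_cancel_iff]
    rw [and_comm, ← inv_smul_eq_iff (a := d • t • a), ← eq_inv_of_mul_eq_one_left ht,
      smul_eq_iff_eq_inv_smul t, ← eq_inv_of_mul_eq_one_left ht]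
  have hD : Nat.card D ≤ 6 := by
    by_contra! h
    have h1 : Nat.card D ∣ 60 := c ▸ card_dvd_of_le (inf_le_left.trans ha.le)
    have h2 : D < normalizer (D : Set G) :=
      lt_of_le_of_ne le_normalizer fun e => hg (ha.le (e.ge htD).1)
    have h3 : 2 * Nat.card D ≤ Nat.card (normalizer (D : Set G)) := by
      obtain ⟨m, hm⟩ := card_dvd_of_le h2.le
      have : m ≠ 1 := by rintro rfl; exact h2.ne (eq_of_le_of_card_ge h2.le (by omega))
      have : m ≠ 0 := by rintro rfl; exact Nat.card_pos.ne' hm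
      rw [hm, mul_comm]
      exact Nat.mul_le_mul_left _ (by omega)
    obtain ⟨M, hM, hle⟩ := (eq_top_or_exists_le_coatom (normalizer (D : Set G))).resolve_left
      fun e => (normalizer_eq_top_iff.1 e).eq_bot_or_eq_top.elim
        (fun e => by rw [e] at h; simp at h) fun e => h2.not_ge (e ▸ le_top)
    have h4 := card_le_of_le hle
    have h5 := card_dvd_of_le (h2.le.trans hle)
    rcases psl_coatom_odd 11 (by rw [hF]; decide) (by omega) hM with b | b | ⟨-, -, k, b, ⟨f⟩⟩ |
      ⟨K, _, _, b, -⟩ | ⟨K, _, _, r, b, -, d, -⟩ | ⟨-, -, ⟨f⟩⟩ | ⟨-, -, b, -⟩ | b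
    · rw [hF] at b
      rw [show Nat.card M = 55 by have : 2 * Nat.card M = 110 := b; omega] at h5
      have := Nat.le_of_dvd (by norm_num) (Nat.dvd_gcd h1 h5)
      norm_num at this; omega
    · omega
    · rw [card_of_dihedral f] at h4; omega
    · exact absurd (b ▸ hF ▸ (by norm_num : Nat.Prime 11)).eq_one_of_pow (by norm_num)
    · exact b.ne_one (d ▸ hF ▸ (by norm_num : Nat.Prime 11)).eq_one_of_pow
    · have := f.isSimpleGroup
      have c' : Nat.card M = 60 := by rw [Nat.card_congr f.toEquiv, card_alt5]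
      by_cases h6 : (normalizer (D : Set G)).subgroupOf M = ⊤
      · rcases ((normal_subgroupOf_iff_le_normalizer (h2.le.trans hle)).2
          (subgroupOf_eq_top.1 h6)).eq_bot_or_eq_top with h7 | h7
        · rw [← Nat.card_congr (subgroupOfEquivOfLe (h2.le.trans hle)).toEquiv, h7] at h
          simp at h
        · exact h2.not_ge (hle.trans (subgroupOf_eq_top.1 h7))
      · have h7 := card_dvd_factorial_index h6
        have h8 := ((normalizer (D : Set G)).subgroupOf M).card_mul_index
        rw [Nat.card_congr (subgroupOfEquivOfLe hle).toEquiv, c'] at h8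
        rw [c'] at h7
        have : ((normalizer (D : Set G)).subgroupOf M).index < 5 := by nlinarith
        interval_cases ((normalizer (D : Set G)).subgroupOf M).index <;> revert h7 <;> decide
    · omega
    · omega
  have hta : t • a ≠ a := fun e => hg (ha.le e)
  have ho : orbit (stabilizer G a) (t • a) = {a}ᶜ := by
    refine Set.eq_of_subset_of_ncard_le ?_ ?_
    · rintro _ ⟨h, rfl⟩ e
      exact hta ((MulAction.injective h) (e.trans h.2.symm))
    · have h1 := (stabilizer (stabilizer G a) (t • a)).card_mul_index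
      have h2 : Nat.card (stabilizer (stabilizer G a) (t • a)) = Nat.card D :=
        Nat.card_congr (subgroupOfEquivOfLe (H := D) inf_le_left).toEquiv ▸ by
          rw [inf_subgroupOf_left]; rfl
      have h3 := Set.ncard_add_ncard_compl ({a} : Set (G ⧸ H))
      rw [h2, index_stabilizer, Nat.card_congr (MulEquiv.subgroupCongr ha).toEquiv, c] at h1
      rw [Set.ncard_singleton, ← index, hi] at h3
      nlinarith
  refine is_two_pretransitive_iff.2 fun {x y z w} h1 h2 => ?_
  obtain ⟨u, rfl⟩ := exists_smul_eq G a x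
  obtain ⟨v, rfl⟩ := exists_smul_eq G a z
  obtain ⟨k, hk⟩ : u⁻¹ • y ∈ orbit (stabilizer G a) (t • a) := by
    rw [ho]; exact fun e => h1 (inv_smul_eq_iff.1 e).symm
  obtain ⟨l, hl⟩ : v⁻¹ • w ∈ orbit (stabilizer G a) (t • a) := by
    rw [ho]; exact fun e => h2 (inv_smul_eq_iff.1 e).symm
  replace hk : k.1 • t • a = u⁻¹ • y := hk
  replace hl : l.1 • t • a = v⁻¹ • w := hl
  refine ⟨v * (l.1 * k.1⁻¹) * u⁻¹, ?_, ?_⟩
  · rw [mul_smul, inv_smul_smul, mul_smul, mul_mem l.2 (inv_mem k.2)]
  · rw [mul_smul, ← hk, mul_smul, mul_smul, inv_smul_smul, hl, smul_inv_smul]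

end Cfsg.Agent.S2542
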