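import Cfsg.Statements.S2543
import Cfsg.Agent.Classical.PSL2Four

set_option autoImplicit false
open scoped Pointwise
open Cfsg

namespace Cfsg.Agent.S2543

open Cfsg.Agent.Classical Matrix Subgroup MulAction

/-- Let F be a field with 11 elements. PSL_2(F) has exactly 22 subgroups isomorphic to the alternating group A_5, and they form two conjugacy classes: there are two such subgroups that are not conjugate, and every such subgroup is conjugate to one of these two. -/
theorem result {F : Type*} [Field F] [Fintype F] (hF : Fintype.card F = 11) : Nat.card {H : Subgroup (Matrix.ProjectiveSpecialLinearGroup (Fin 2) F) // Nonempty (H ≃* alternatingGroup (Fin 5))} = 22 ∧ ∃ H K : Subgroup (Matrix.ProjectiveSpecialLinearGroup (Fin 2) F), Nonempty (H ≃* alternatingGroup (Fin 5)) ∧ Nonempty (K ≃* alternatingGroup (Fin 5)) ∧ (∀ g : Matrix.ProjectiveSpecialLinearGroup (Fin 2) F, MulAut.conj g • H ≠ K) ∧ ∀ L : Subgroup (Matrix.ProjectiveSpecialLinearGroup (Fin 2) F), Nonempty (L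 ≃* alternatingGroup (Fin 5)) → ∃ g : Matrix.ProjectiveSpecialLinearGroup (Fin 2) F, MulAut.conj g • L = H ∨ MulAut.conj g • L = K := by
  rw [← Nat.card_eq_fintype_card] at hF
  have hodd : Odd (Nat.card F) := by rw [hF]; decide
  have h2 := two_ne_zero_iff_odd.2 hodd
  obtain ⟨H, ⟨e⟩⟩ := exists_alt5_PSL (F := F) (by omega)
  have hX : ∀ K : Subgroup (ProjectiveSpecialLinearGroup (Fin 2) F),
      Nonempty (K ≃* alternatingGroup (Fin 5)) ↔
      ∃ g, (H.map (pslι F)).map (MulAut.conj g).toMonoidHom = K.map (pslι F) := fun K =>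
    ⟨fun ⟨e'⟩ => exists_conj_of_alt5 ((mapιEquiv H).trans e) ((mapιEquiv K).trans e'),
      fun ⟨_, h⟩ => ⟨(equivOfConj h).symm.trans e⟩⟩
  have := ProjectiveSpecialLinearGroup.rank_two_simple (F := F) (by omega)
  have c : Nat.card H = 60 := by rw [Nat.card_congr e.toEquiv, card_alt5]
  have h1 := normalizer_eq_of_isCoatom (isCoatom_alt5 (p := 11) (by norm_num) (by omega) e)
    (by rintro rfl; simp at c)
  have h3 := comap_normalizer_eq_of_le_range (H := H.map (pslι F)) (map_le_range _ _)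
  rw [comap_map_eq_self_of_injective pslInj, h1] at h3
  have hG := card_PGL2 (F := F)
  rw [hF] at hG
  have h4 : normalizer (H.map (pslι F) : Set (ProjGenLinGroup (Fin 2) F)) ≤ LP F := by
    by_contra h
    have h5 := two_mul_card_comap h2 h
    rw [h3, c] at h5
    obtain ⟨M, hM, hle⟩ := (eq_top_or_exists_le_coatom _).resolve_left
      (ne_top_of_card_lt (by rw [← h5, hG]; norm_num))
    have h6 := h5 ▸ card_dvd_of_le hle
    rcases pgl_coatom_cases hodd (by omega) hM (fun h' => h (hle.trans (((isCoatom_LP h2).le_iff_eq hM.1).1 h').le))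
      with ⟨x, rfl⟩ | ⟨-, ⟨f⟩⟩ | ⟨⟨f⟩⟩ |
      ⟨-, -, ⟨f⟩⟩ | ⟨-, K, _, _, -, r, a, -, b, -⟩
    · rw [card_stabilizer_PGL, hF] at h6; omega
    · rw [card_of_dihedral f, hF] at h6; omega
    · rw [card_of_dihedral f, hF] at h6; omega
    · rw [Nat.card_congr f.toEquiv, card_perm4] at h6; omega
    · exact a.ne_one (b ▸ hF ▸ (by norm_num : Nat.Prime 11)).eq_one_of_pow
  refine ⟨?_, ?_⟩
  · have h5 := (normalizer (H.map (pslι F) : Set (ProjGenLinGroup (Fin 2) F))).card_mul_index
    rw [← Nat.card_congr (comapEquivOfLe pslInj h4).toEquiv, h3, c] at h5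
    rw [card_class_eq_index hX]
    omega
  · obtain ⟨K, a, b, d⟩ := two_classes hX h2 h4
    refine ⟨H, K, ⟨e⟩, a, fun g h => b ⟨g, h.symm⟩, fun L hL => ?_⟩
    rcases d L hL with ⟨g, rfl⟩ | ⟨g, rfl⟩
    · exact ⟨g⁻¹, Or.inl (by rw [map_inv]; exact inv_smul_smul (MulAut.conj g) H)⟩
    · exact ⟨g⁻¹, Or.inr (by rw [map_inv]; exact inv_smul_smul (MulAut.conj g) K)⟩

end Cfsg.Agent.S2543
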