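import Cfsg.Statements.S2548
import Cfsg.Agent.Mult.St3
import Cfsg.Agent.S0299

set_option autoImplicit false
open Cfsg

namespace Cfsg.Agent.S2548

open Cfsg.Agent.Classical Cfsg.Agent.Geom Cfsg.Agent.Geom.Formed

/-- Let F be a finite field of characteristic p and consider the group PΩ⁺_{2m}(F) of the hyperbolic quadratic form Σ x_i y_i with m ≥ 1, where Ω denotes the commutator subgroup of the full isometry group. This group has an irreducible complex character χ whose degree equals the order of a Sylow p-subgroup (equal to q^(m(m−1)) when #F = q, except in the degenerate case m = 2, q = 2, where this commutator subgroup has order 18 and its Sylow 2-subgroups have order 2) and whose restriction to any Sylow p-subgroup P is the regular character of P: χ vanishes on the non-identity elements of P. (This is the Steinberg character.) -/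
theorem result {F : Type*} [Field F] [Fintype F] (p : ℕ) [Fact p.Prime] [CharP F p] (m : ℕ) (hm : 1 ≤ m) : ∃ χ : Cfsg.POmega F (Cfsg.quadFormPlus m F) → ℂ, Cfsg.IsIrrCharacter (Cfsg.POmega F (Cfsg.quadFormPlus m F)) χ ∧ ∀ P : Sylow p (Cfsg.POmega F (Cfsg.quadFormPlus m F)), χ 1 = Nat.card P ∧ ∀ x : Cfsg.POmega F (Cfsg.quadFormPlus m F), x ∈ P → x ≠ 1 → χ x = 0 := by
  have hfin : ∀ m, Finite (OG (quadPlus F m)) := fun m =>
    Finite.of_injective (fun g : OG (quadPlus F m) => (g.1 : _ → _)) fun _ _ e => Subtype.ext (DFunLike.coe_injective e)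
  obtain rfl | hm := hm.eq_or_lt
  · rw [← coe_quadPlus]
    refine Mult.HasSt.of_equiv (Mult.hasSt_of_not_dvd fun h => ?_) (pOmegaEquiv _)
    have h1 := h.trans (Subgroup.card_quotient_dvd_card _)
    have h2 := (commutator (OG (quadPlus F 1))).index_mul_card
    rw [card_isom_plus 0 (quadPlus_nondeg F 1) (quadPlus_wittIndex F 1) (by simp)] at h2
    simp only [mul_zero, pow_zero, mul_one, zero_add, pow_one, Finset.range_zero, Finset.prod_empty] at h2
    refine not_char_dvd_card_pred F p ?_
    by_cases h3 : (2 : F) = 0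
    · rw [index_commutator_even (quadPlus_nondeg F 1) (.inr (.inl (by simp))) h3 (by simp)] at h2
      exact Nat.eq_of_mul_eq_mul_left two_pos h2 ▸ h1
    · exact ((Fact.out : p.Prime).dvd_mul.1 (h2 ▸ h1.mul_left _)).resolve_left fun e =>
        h3 (by simpa using (CharP.cast_eq_zero_iff F p 2).2 e)
  obtain rfl | hm := (show 2 ≤ m from hm).eq_or_lt
  · by_cases h : 3 ≤ Fintype.card F
    · exact ((Mult.hasSt_PSL2 F p).prod (Mult.hasSt_PSL2 F p)).of_equiv (S0299.result h).some
    have h1 : Nat.card F = 2 := by have := Fintype.one_lt_card (α := F); rw [Nat.card_eq_fintype_card]; omega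
    obtain rfl : p = 2 := (Nat.prime_dvd_prime_iff_eq Fact.out Nat.prime_two).1 (h1 ▸ char_dvd_card F p)
    obtain ⟨f, hf⟩ := exists_hom_O4p (F := F)
    have h2 := sl_neg_one_eq (n := 2) (K := F) (by simpa using CharP.cast_eq_zero F 2)
    rw [← coe_quadPlus]
    exact (Mult.hasSt_of_index_two (by rw [card_SL2, h1]) (eq_bot_iff.2 fun g hg => by
      simpa [h2] using sl_mem_center_iff'.1 hg) (Mult.hasSt_SL2 F 2) f ((injective_iff_map_eq_one _).2 fun g hg =>
      (hf g hg).elim id fun e => e.trans (by rw [h2]; rfl)) (by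
      rw [card_isom_plus 1 (quadPlus_nondeg F 2) (quadPlus_wittIndex F 2) (by simp), h1]; rfl)).of_equiv (pOmegaEquiv _)
  exact (Mult.plusFull hm F).quot.hasSt p

end Cfsg.Agent.S2548
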