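import Cfsg.Statements.S2549
import Cfsg.Agent.Mult.StBN
import Cfsg.Agent.S0300
import Cfsg.Agent.S0303

set_option autoImplicit false
open Cfsg

namespace Cfsg.Agent.S2549

open Cfsg.Agent.Classical Cfsg.Agent.Geom Cfsg.Agent.Geom.Formed Cfsg.Agent.Mult Cfsg.Agent.Chev Cfsg.Agent.AutCl

attribute [local instance 100] LieRing.ofAssociativeRing

/-- Let F be a finite field of characteristic p and consider the group PΩ⁻_{2m+2}(F) of the quadratic form Σ_{i<m} x_i y_i + (z₁² + a z₁ z₂ + b z₂²) with anisotropic binary part, m ≥ 0. This group has an irreducible complex character χ whose degree equals the order of a Sylow p-subgroup (namely q^(m(m+1)) when #F = q) and whose restriction to any Sylow p-subgroup P is the regular character of P: χ vanishes on the non-identity elements of P. (This is the Steinberg character.) -/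
theorem result {F : Type*} [Field F] [Fintype F] (p : ℕ) [Fact p.Prime] [CharP F p] (m : ℕ) (a b : F) (hab : ∀ z₁ z₂ : F, z₁ ^ 2 + a * z₁ * z₂ + b * z₂ ^ 2 = 0 → z₁ = 0 ∧ z₂ = 0) : ∃ χ : Cfsg.POmega F (Cfsg.quadFormMinus m F a b) → ℂ, Cfsg.IsIrrCharacter (Cfsg.POmega F (Cfsg.quadFormMinus m F a b)) χ ∧ ∀ P : Sylow p (Cfsg.POmega F (Cfsg.quadFormMinus m F a b)), χ 1 = Nat.card P ∧ ∀ x : Cfsg.POmega F (Cfsg.quadFormMinus m F a b), x ∈ P → x ≠ 1 → χ x = 0 := by
  have hfin : Finite (OG (quadMinus F m a b)) :=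
    Finite.of_injective (fun g : OG (quadMinus F m a b) => (g.1 : _ → _)) fun _ _ e => Subtype.ext (DFunLike.coe_injective e)
  obtain ⟨K, _, _, hF, -⟩ := exists_quad_ext hab
  have := Module.finite_of_finrank_pos (hF ▸ two_pos)
  have := Module.finite_of_finite F (M := K)
  have := Fintype.ofFinite K
  have := charP_of_injective_algebraMap (algebraMap F K).injective p
  have hc : Nat.card K = Nat.card F ^ 2 := by rw [Module.natCard_eq_pow_finrank (K := F), hF]
  have hc' := Nat.card_eq_fintype_card.symm.trans hc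
  obtain rfl | rfl | rfl | hm : m = 0 ∨ m = 1 ∨ m = 2 ∨ 3 ≤ m := by omega
  · rw [← coe_quadMinus]
    refine HasSt.of_equiv (hasSt_of_not_dvd fun h => ?_) (pOmegaEquiv _)
    have h1 := h.trans (Subgroup.card_quotient_dvd_card _)
    have h2 := (commutator (OG (quadMinus F 0 a b))).index_mul_card
    rw [card_isom_minus 0 (quadMinus_nondeg F 0 (disc_ne_zero_of_anisotropic hab)) (quadMinus_wittIndex F 0 hab) (by simp)] at h2
    simp only [mul_zero, pow_zero, mul_one, zero_add, pow_one, Finset.range_zero, Finset.prod_empty] at h2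
    refine (Fact.out : p.Prime).not_dvd_one ((Nat.dvd_add_right (char_dvd_card F p)).1 ?_)
    by_cases h3 : (2 : F) = 0
    · rw [index_commutator_even (quadMinus_nondeg F 0 (disc_ne_zero_of_anisotropic hab)) (.inr (.inl (by simp))) h3 (by simp)] at h2
      exact Nat.eq_of_mul_eq_mul_left two_pos h2 ▸ h1
    · exact ((Fact.out : p.Prime).dvd_mul.1 (h2 ▸ h1.mul_left _)).resolve_left fun e =>
        h3 (by simpa using (CharP.cast_eq_zero_iff F p 2).2 e)
  · exact (hasSt_PSL2 K p).of_equiv (S0300.result Nat.card_eq_fintype_card.symm hc' a b hab).some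
  · exact (hasSt_PSU p (by decide) hc').of_equiv (S0303.result Nat.card_eq_fintype_card.symm hc' a b hab).some
  obtain ⟨τ, h1, -⟩ := exists_frobq hc'
  have hτ := orderOf_frobq hc' h1
  obtain ⟨f, hf⟩ := exists_isFix τ F (by rw [hτ, hc])
  have hl : 4 ≤ m + 1 := by omega
  obtain ⟨Γ, h2, h3, ⟨e⟩⟩ := exists_sub_minus hl p hf hτ hab
  have c := plusFull (Nat.le_of_succ_le hl) K
  have h := (invol_autOm hl τ hτ).fold c.c h2 (c.top ▸ le_top) (fun y hy => h3 y hy.2 (exists_pow_of_mem c.c p (.inl hy.1)))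
    fun y hy => h3 y hy.2 (exists_pow_of_mem c.c p (.inr hy.1))
  exact (Fold.hasSt (h.map c.c c.top) (Sys.adCover _ K) (adS_mult _ K) p).of_equiv
    ((Geom.quotCenterCongr e).trans (Fold.quotEquiv h c))

end Cfsg.Agent.S2549
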