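import Cfsg.Statements.S2550
import Cfsg.Agent.S0819
import Cfsg.Agent.S0256

set_option autoImplicit false
open Cfsg

namespace Cfsg.Agent.S2550

open Cfsg.Agent.Classical Matrix
open scoped MatrixGroups

/-- Let F be a field with 2 elements and K a field with 4 elements. PSL_4(F) and PSL_3(K) have the same order (20160) but are not isomorphic. -/
theorem result {F K : Type*} [Field F] [Fintype F] [Field K] [Fintype K] (hF : Fintype.card F = 2) (hK : Fintype.card K = 4) : Nat.card (Matrix.ProjectiveSpecialLinearGroup (Fin 4) F) = Nat.card (Matrix.ProjectiveSpecialLinearGroup (Fin 3) K) ∧ ¬ Nonempty (Matrix.ProjectiveSpecialLinearGroup (Fin 4) F ≃* Matrix.ProjectiveSpecialLinearGroup (Fin 3) K) := by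
  obtain ⟨e⟩ := S0256.result hF
  refine ⟨?_, fun ⟨e'⟩ => ?_⟩
  · have h1 := card_PSL_mul (F := K) (ι := Fin 3)
    have h2 := card_SL_mul (F := K) 3 (by simp)
    have h3 := card_PSL_mul (F := F) (ι := Fin 4)
    have h4 := card_SL_mul (F := F) 4 (by simp)
    simp [hF, hK, Fin.prod_univ_succ, -Nat.card_eq_fintype_card, Nat.card_eq_fintype_card (α := F),
      Nat.card_eq_fintype_card (α := K)] at h1 h2 h3 h4
    omega
  · let x : alternatingGroup (Fin 8) := ⟨c[0, 1, 2] * c[3, 4, 5, 6, 7],
      Equiv.Perm.mem_alternatingGroup.2 (by decide +kernel)⟩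
    refine S0819.result hK (e' (e.symm x)) ?_
    rw [MulEquiv.orderOf_eq, MulEquiv.orderOf_eq, orderOf_eq_iff (by simp)]
    decide +kernel

end Cfsg.Agent.S2550
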