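import Cfsg.Statements.S2551
import Cfsg.Agent.Perm.Ree
import Cfsg.Agent.Gen.GL42
import Cfsg.Agent.FG.Derange
import Cfsg.Agent.Classical.FieldCongr

set_option autoImplicit false
open Cfsg

namespace Cfsg.Agent.S2551

open Cfsg.Agent.Comp Cfsg.Agent.Ree MulAction Subgroup
open scoped Pointwise

theorem two_trans {G V : Type*} [Group G] [AddGroup V] [DistribMulAction G V] [FaithfulSMul G V] [IsSimpleGroup G]
    (hV : Nat.card V = 16) (hG : Nat.card G = 2520) : ∃ a b : V, ∀ v w : V, v ≠ 0 → w ≠ 0 → v ≠ w →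
      ∃ g : G, g • a = v ∧ g • b = w := by
  classical
  have : Finite V := Nat.finite_of_card_ne_zero (by omega)
  have : Finite G := Nat.finite_of_card_ne_zero (by omega)
  have ne1 : ∀ g : G, g ≠ 1 → ∃ v : V, g • v ≠ v := fun g hg => by_contra fun h => hg
    (eq_of_smul_eq_smul (α := V) fun v => by rw [one_smul]; exact by_contra fun e => h ⟨v, e⟩)
  have fx : ∀ g : G, g ≠ 1 → (fixedBy V g).ncard ∣ 16 ∧ (fixedBy V g).ncard < 16 := fun g hg => by
    let A : AddSubgroup V := ⟨⟨⟨fixedBy V g, fun {a b} ha hb => (smul_add g a b).trans (by rw [ha, hb])⟩, smul_zero g⟩,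
      fun {a} ha => (smul_neg g a).trans (by rw [ha])⟩
    obtain ⟨v, hv⟩ := ne1 g hg
    exact ⟨hV ▸ A.card_addSubgroup_dvd_card, by
      rw [← hV, ← Set.ncard_univ]; exact Set.ncard_lt_ncard (Set.ssubset_univ_iff.2 fun e => hv (e.ge trivial :))⟩
  have fr : ∀ {p : ℕ} {P : Subgroup G}, p.Prime → Nat.card P = p → ∀ g ∈ P, g ≠ 1 →
      p ∣ 16 + (p - 1) * (fixedBy V g).ncard := fun {p P} hp hP g hg h1 => by
    rw [← hV, ← orb_prime hp (((Nat.dvd_prime hp).1 (hP ▸ P.orderOf_dvd_natCard hg)).resolve_left (by simpa))]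
    exact dvd_mul_left _ _
  have : Fact (Nat.Prime 5) := ⟨by norm_num⟩
  have : Fact (Nat.Prime 7) := ⟨by norm_num⟩
  obtain ⟨P, hP⟩ := Sylow.exists_subgroup_card_pow_prime (G := G) 5 (n := 1) (by rw [hG]; norm_num)
  have f5 : ∀ g ∈ P, ∀ v : V, v ≠ 0 → g • v = v → g = 1 := fun g hg v hv e => by_contra fun h1 => by
    have h2 := fr Nat.prime_five hP g hg h1
    obtain ⟨h3, h4⟩ := fx g h1
    have h5 : 1 < (fixedBy V g).ncard := (Set.one_lt_ncard (Set.toFinite _)).2 ⟨v, e, 0, smul_zero g, hv⟩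
    generalize (fixedBy V g).ncard = m at *
    interval_cases m <;> omega
  have no5 : ∀ T : Set V, (∀ g : G, ∀ v ∈ T, g • v ∈ T) → 0 ∉ T → T.ncard ≠ 5 := fun T hT h0 h5 => by
    let U : SubMulAction G V := ⟨T, fun g v hv => hT g v hv⟩
    rcases (toPermHom G U).normal_ker.eq_bot_or_eq_top with e | e
    · have := Nat.card_le_card_of_injective _ ((MonoidHom.ker_eq_bot_iff _).1 e)
      rw [hG, Nat.card_perm, show Nat.card U = 5 from h5] at this
      exact absurd this (by decide)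
    · obtain ⟨v, hv⟩ := Set.nonempty_of_ncard_ne_zero (s := T) (by omega)
      have : P = ⊥ := eq_bot_iff.2 fun g hg => f5 g hg v (fun e => h0 (e ▸ hv))
        (congrArg Subtype.val (Equiv.congr_fun (e.ge (mem_top g) : toPermHom G U g = 1) ⟨v, hv⟩))
      rw [this, card_bot] at hP; omega
  have c0 : ({0}ᶜ : Set V).ncard = 15 := by rw [Set.ncard_compl, hV, Set.ncard_singleton]
  have tr : ∀ a : V, a ≠ 0 → orbit G a = {0}ᶜ := fun a ha => by
    have h1 : orbit G a ⊆ {0}ᶜ := by rintro _ ⟨g, rfl⟩; exact smul_ne_zero_iff_ne g |>.2 ha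
    have h2 := FG.card_dvd_ncard (H := P) (orbit G a) (fun g _ x hx => mem_orbit_of_mem_orbit g hx)
      fun g hg x hx => f5 g hg x (h1 hx)
    have h3 := no5 _ (fun g x hx => mem_orbit_of_mem_orbit g hx) fun h => h1 h rfl
    have h4 := no5 ({0}ᶜ \ orbit G a) (fun g x hx => ⟨smul_ne_zero_iff_ne g |>.2 hx.1, fun h => hx.2 (by
      simpa using mem_orbit_of_mem_orbit g⁻¹ h)⟩) fun h => h.1 rfl
    have h5 := Set.ncard_diff_add_ncard_of_subset h1
    have h6 := (Set.ncard_pos (Set.toFinite _)).2 (⟨a, mem_orbit_self a⟩ : (orbit G a).Nonempty)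
    refine Set.eq_of_subset_of_ncard_le h1 ?_
    rw [hP] at h2; omega
  obtain ⟨t, ht⟩ := exists_prime_orderOf_dvd_card' (G := G) 2 (by rw [hG]; norm_num)
  obtain ⟨a, ha⟩ := ne1 t fun e => by rw [e, orderOf_one] at ht; omega
  have ha0 : a ≠ 0 := fun e => ha (by rw [e, smul_zero])
  have htt : t • t • a = a := by rw [← mul_smul, ← pow_two, ← ht, pow_orderOf_eq_one, one_smul]
  have cS : Nat.card (stabilizer G a) = 168 := card_stabilizer_of_orbit (by rw [tr a ha0, c0]) (by norm_num) hG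
  have c1 : ({0, a}ᶜ : Set V).ncard = 14 := by rw [Set.ncard_compl, hV, Set.ncard_pair ha0.symm]
  have h1 : orbit (stabilizer G a) (t • a) ⊆ {0, a}ᶜ := by
    rintro _ ⟨g, rfl⟩ (e | e)
    · exact (smul_ne_zero_iff_ne g).2 ((smul_ne_zero_iff_ne t).2 ha0) e
    · exact ha (smul_left_cancel (g : G) (e.trans g.2.symm))
  obtain ⟨Q, hQ⟩ := Sylow.exists_subgroup_card_pow_prime (G := stabilizer G a) 7 (n := 1) (by rw [cS]; norm_num)
  have h2 := FG.card_dvd_ncard (H := Q) (orbit (stabilizer G a) (t • a)) (fun g _ x hx => mem_orbit_of_mem_orbit g hx)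
    fun g hg x hx e => by_contra fun h => by
      have h1' : (g : G) ≠ 1 := fun e => h (Subtype.ext e)
      have h2 := fr (by norm_num) ((card_subtype _ Q).trans hQ) g ⟨g, hg, rfl⟩ h1'
      obtain ⟨h3, h4⟩ := fx g h1'
      have h5 : 2 < (fixedBy V (g : G)).ncard := (Set.two_lt_ncard (Set.toFinite _)).2
        ⟨0, smul_zero _, a, g.2, x, e, ha0.symm, fun e => h1 hx (.inl e.symm), fun e => h1 hx (.inr e.symm)⟩
      generalize (fixedBy V (g : G)).ncard = m at *
      interval_cases m <;> omega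
  have h3 := card_eq_ncard_orbit_mul (stabilizer G a) (t • a)
  have h4 := card_eq_ncard_orbit_mul (stabilizer G ({a, t • a} : Set V)) a
  have h5 : orbit (stabilizer G ({a, t • a} : Set V)) a = {a, t • a} := by
    refine Set.Subset.antisymm ?_ ?_
    · rintro _ ⟨g, rfl⟩; exact g.2.le (Set.smul_mem_smul_set (Set.mem_insert _ _))
    · rintro _ (rfl | rfl)
      · exact mem_orbit_self _
      · exact ⟨⟨t, by rw [mem_stabilizer_iff, Set.smul_set_insert, Set.smul_set_singleton, htt, Set.pair_comm]⟩, rfl⟩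
  have h6 : stabilizer G ({a, t • a} : Set V) ⊓ stabilizer G a = stabilizer G a ⊓ stabilizer G (t • a) := by
    ext g
    refine ⟨fun h => ⟨h.2, ?_⟩, fun h => ⟨?_, h.1⟩⟩
    · exact (h.1.le (Set.smul_mem_smul_set (.inr rfl))).resolve_left fun e =>
        ha (smul_left_cancel g (e.trans (show g • a = a from h.2).symm))
    · exact mem_stabilizer_iff.2 (by rw [Set.smul_set_insert, Set.smul_set_singleton, h.1, h.2])
  have h7 := hG ▸ card_subgroup_dvd_card (stabilizer G ({a, t • a} : Set V))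
  rw [h4, h5, h6, Set.ncard_pair (Ne.symm ha)] at h7
  have h8 := Set.ncard_le_ncard h1
  have h9 : orbit (stabilizer G a) (t • a) = {0, a}ᶜ := by
    refine Set.eq_of_subset_of_ncard_le h1 ?_
    rw [hQ] at h2; rw [cS] at h3; rw [c1] at h8 ⊢
    generalize (orbit (stabilizer G a) (t • a)).ncard = m at *
    by_contra h
    obtain rfl | rfl : m = 0 ∨ m = 7 := by omega
    · omega
    · rw [show Nat.card ↥(stabilizer G a ⊓ stabilizer G (t • a)) = 24 by omega] at h7; omega
  refine ⟨a, t • a, fun v w hv hw h => ?_⟩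
  obtain ⟨g, rfl⟩ := (tr a ha0).ge hv
  obtain ⟨k, e⟩ := h9.ge (show g⁻¹ • w ∈ ({0, a}ᶜ : Set V) from by
    rintro (e | e)
    · exact (smul_ne_zero_iff_ne _).2 hw e
    · exact h (inv_smul_eq_iff.1 e).symm)
  exact ⟨g * k, by rw [mul_smul, k.2], by rw [mul_smul]; exact (eq_inv_smul_iff.1 e)⟩

/-- Let F be the field with 2 elements. GL_4(F) (≅ A_8) has a subgroup isomorphic to the alternating group A_7, and every such subgroup acts 2-transitively on the 15 non-zero vectors of F⁴: any ordered pair of distinct non-zero vectors is carried to any other by some element of the subgroup. -/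
theorem result {F : Type*} [Field F] [Fintype F] (hF : Fintype.card F = 2) : (∃ H : Subgroup (Matrix.GeneralLinearGroup (Fin 4) F), Nonempty (H ≃* alternatingGroup (Fin 7))) ∧ ∀ H : Subgroup (Matrix.GeneralLinearGroup (Fin 4) F), Nonempty (H ≃* alternatingGroup (Fin 7)) → ∀ v w v' w' : Fin 4 → F, v ≠ 0 → w ≠ 0 → v ≠ w → v' ≠ 0 → w' ≠ 0 → v' ≠ w' → ∃ g ∈ H, (g : Matrix (Fin 4) (Fin 4) F).mulVec v = v' ∧ (g : Matrix (Fin 4) (Fin 4) F).mulVec w = w' := by
  obtain ⟨e⟩ := Classical.nonempty_ringEquiv_zmod (F := F) (p := 2) (by rw [Nat.card_eq_fintype_card, hF])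
  obtain ⟨e2⟩ := Gen.gl4_equiv
  refine ⟨?_, fun H ⟨e3⟩ v w v' w' h1 h2 h3 h4 h5 h6 => ?_⟩
  · let φ : alternatingGroup (Fin 7) →* alternatingGroup (Fin 8) :=
      ((Equiv.Perm.extendDomainHom (finSuccAboveEquiv 7)).comp (alternatingGroup _).subtype).codRestrict _ fun g =>
        (Equiv.Perm.sign_extendDomain _ _).trans g.2
    have hφ : Function.Injective φ := fun _ _ e =>
      Subtype.ext (Equiv.Perm.extendDomainHom_injective _ (congrArg Subtype.val e))
    exact ⟨_, ⟨(MonoidHom.ofInjective (f := ((Classical.glCongr e).trans e2).symm.toMonoidHom.comp φ)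
      (((Classical.glCongr e).trans e2).symm.injective.comp hφ)).symm⟩⟩
  · have : IsSimpleGroup (alternatingGroup (Fin 7)) := alternatingGroup.isSimpleGroup (by simp)
    have := e3.isSimpleGroup
    have : FaithfulSMul H (Fin 4 → F) := ⟨fun h => Subtype.ext (Units.ext (Matrix.mulVec_injective (funext h)))⟩
    obtain ⟨a, b, h⟩ := two_trans (G := H) (V := Fin 4 → F) (by simp [hF])
      (by rw [Nat.card_congr e3.toEquiv, nat_card_alternatingGroup]; simp [Nat.factorial])
    obtain ⟨g, rfl, rfl⟩ := h v w h1 h2 h3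
    obtain ⟨k, rfl, rfl⟩ := h v' w' h4 h5 h6
    exact ⟨k * g⁻¹, (k * g⁻¹).2, (mul_smul k g⁻¹ _).trans (by rw [inv_smul_smul]),
      (mul_smul k g⁻¹ _).trans (by rw [inv_smul_smul])⟩

end Cfsg.Agent.S2551
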