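import Cfsg.Statements.S2552
import Cfsg.Agent.Classical.SLClass
import Cfsg.Agent.Geom.Split

set_option autoImplicit false
open Cfsg

namespace Cfsg.Agent.S2552

open Cfsg.Agent.Classical Matrix Subgroup MulAction Polynomial

/-- Let F be a finite field and n ≥ 1. For every k, the special linear group SL_n(F) acts transitively on the set of k-dimensional subspaces of F^n: any two subspaces of the same dimension are carried onto each other by some matrix of determinant 1. -/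
theorem result {F : Type*} [Field F] [Fintype F] (n : ℕ) (hn : 1 ≤ n) (U₁ U₂ : Submodule F (Fin n → F)) (h : Module.finrank F U₁ = Module.finrank F U₂) : ∃ g : Matrix.SpecialLinearGroup (Fin n) F, U₁.map ((Matrix.SpecialLinearGroup.toLin' g : (Fin n → F) ≃ₗ[F] (Fin n → F)) : (Fin n → F) →ₗ[F] (Fin n → F)) = U₂ := by
  obtain ⟨e, he⟩ := Submodule.exists_linearEquiv_restrict_eq (LinearEquiv.ofFinrankEq U₁ U₂ h)
  have h1 : U₁.map (e : (Fin n → F) →ₗ[F] (Fin n → F)) = U₂ := by
    refine Submodule.eq_of_le_of_finrank_eq ?_ (by rw [LinearEquiv.finrank_map_eq, h])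
    rintro _ ⟨x, hx, rfl⟩
    exact (he ⟨x, hx⟩) ▸ Subtype.prop _
  obtain ⟨v, φ, h2, h3⟩ : ∃ (v : Fin n → F) (φ : Module.Dual F (Fin n → F)), φ v = 1 ∧
      ∀ u ∈ U₁, φ u • v ∈ U₁ := by
    by_cases h0 : U₁ = ⊥
    · exact ⟨Pi.single ⟨0, hn⟩ 1, LinearMap.proj ⟨0, hn⟩, by simp, by simp [h0]⟩
    · obtain ⟨v, hv, hv0⟩ := Submodule.exists_mem_ne_zero_of_ne_bot h0
      obtain ⟨φ, hφ⟩ := Module.Projective.exists_dual_eq_one F hv0
      exact ⟨v, φ, hφ, fun u _ => U₁.smul_mem _ hv⟩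
  let c : Fˣ := (LinearEquiv.det e)⁻¹
  let d := LinearEquiv.dilatransvection (f := φ) (v := ((c : F) - 1) • v) (by simp [h2])
  have h4 : U₁.map (d : (Fin n → F) →ₗ[F] (Fin n → F)) = U₁ :=
    Geom.mem_stab_iff_map.1 (Geom.mem_stab_of_le fun u hu => by
      change LinearMap.transvection φ _ u ∈ _
      rw [LinearMap.transvection.apply, smul_comm]
      exact add_mem hu (U₁.smul_mem _ (h3 u hu)))
  have h5 : LinearMap.det ((e * d : _ ≃ₗ[F] _) : (Fin n → F) →ₗ[F] (Fin n → F)) = 1 := by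
    rw [← LinearEquiv.coe_det, map_mul, Units.val_mul, LinearEquiv.coe_det d]
    have := (LinearEquiv.det e).ne_zero
    rw [LinearEquiv.coe_det] at this
    simp [d, LinearMap.transvection.det, h2, c, this]
  refine ⟨⟨LinearMap.toMatrix' ((e * d : _ ≃ₗ[F] _) : (Fin n → F) →ₗ[F] (Fin n → F)), by
    rw [LinearMap.det_toMatrix', h5]⟩, ?_⟩
  rw [← h1]
  conv_rhs => rw [← h4, ← Submodule.map_comp]
  congr 1
  exact toLin'_toMatrix' _

end Cfsg.Agent.S2552
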