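import Cfsg.Statements.S2561
import Cfsg.Agent.Classical.QuadF2
import Cfsg.Agent.S0289

set_option autoImplicit false
open Cfsg

namespace Cfsg.Agent.S2561

open Cfsg.Agent.Classical Cfsg.Agent.Geom Cfsg.Agent.Geom.Formed Module

/-- Fix the non-singular alternating form on the 2m-dimensional space over the field of two elements obtained by polarizing the plus-type form Σ xᵢyᵢ (m ≥ 1). The functions q on the space with q(u + v) = q(u) + q(v) + f(u, v) (the quadratic forms polarizing to f) number 2^(2m); each is equivalent under an invertible linear map either to the plus-type form or to the minus-type form Σ xᵢyᵢ + (z₁² + z₁z₂ + z₂²); and those of plus type number 2^(2m−1) + 2^(m−1), those of minus type 2^(2m−1) − 2^(m−1). -/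
theorem result (m : ℕ) (hm : 1 ≤ m) :
    Nat.card {q : (Fin m ⊕ Fin m → ZMod 2) → ZMod 2 // (∀ u v : (Fin m ⊕ Fin m → ZMod 2), q (u + v) = q u + q v + (Cfsg.quadFormPlus m (ZMod 2) (u + v) - Cfsg.quadFormPlus m (ZMod 2) u - Cfsg.quadFormPlus m (ZMod 2) v))} = 2 ^ (2 * m) ∧
    (∀ q : (Fin m ⊕ Fin m → ZMod 2) → ZMod 2, (∀ u v : (Fin m ⊕ Fin m → ZMod 2), q (u + v) = q u + q v + (Cfsg.quadFormPlus m (ZMod 2) (u + v) - Cfsg.quadFormPlus m (ZMod 2) u - Cfsg.quadFormPlus m (ZMod 2) v)) →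
      (∃ g : (Fin m ⊕ Fin m → ZMod 2) ≃ₗ[ZMod 2] (Fin m ⊕ Fin m → ZMod 2), ∀ v, q v = Cfsg.quadFormPlus m (ZMod 2) (g v)) ∨
      (∃ g : (Fin m ⊕ Fin m → ZMod 2) ≃ₗ[ZMod 2] ((Fin (m - 1) ⊕ Fin (m - 1)) ⊕ Fin 2 → ZMod 2), ∀ v, q v = Cfsg.quadFormMinus (m - 1) (ZMod 2) 1 1 (g v))) ∧
    Nat.card {q : (Fin m ⊕ Fin m → ZMod 2) → ZMod 2 // (∀ u v : (Fin m ⊕ Fin m → ZMod 2), q (u + v) = q u + q v + (Cfsg.quadFormPlus m (ZMod 2) (u + v) - Cfsg.quadFormPlus m (ZMod 2) u - Cfsg.quadFormPlus m (ZMod 2) v)) ∧ ∃ g : (Fin m ⊕ Fin m → ZMod 2) ≃ₗ[ZMod 2] (Fin m ⊕ Fin m → ZMod 2), ∀ v, q v = Cfsg.quadFormPlus m (ZMod 2) (g v)} = 2 ^ (2 * m - 1) + 2 ^ (m - 1) ∧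
    Nat.card {q : (Fin m ⊕ Fin m → ZMod 2) → ZMod 2 // (∀ u v : (Fin m ⊕ Fin m → ZMod 2), q (u + v) = q u + q v + (Cfsg.quadFormPlus m (ZMod 2) (u + v) - Cfsg.quadFormPlus m (ZMod 2) u - Cfsg.quadFormPlus m (ZMod 2) v)) ∧ ∃ g : (Fin m ⊕ Fin m → ZMod 2) ≃ₗ[ZMod 2] ((Fin (m - 1) ⊕ Fin (m - 1)) ⊕ Fin 2 → ZMod 2), ∀ v, q v = Cfsg.quadFormMinus (m - 1) (ZMod 2) 1 1 (g v)} = 2 ^ (2 * m - 1) - 2 ^ (m - 1) := by
  obtain ⟨k, rfl⟩ : ∃ k, m = k + 1 := ⟨m - 1, by omega⟩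
  have h0 := S0289.result (ZMod.card 2) (k + 1) hm
  rw [← coe_quadPlus, ← coe_quadMinus] at *
  have hn := quadPlus_nondeg (ZMod 2) (k + 1)
  set P := quadPlus (ZMod 2) (k + 1) with hP
  have h1 : ∀ w u v, qw P w (u + v) = qw P w u + qw P w v + (P (u + v) - P u - P v) := fun w u v => by
    rw [quad_add, polar_qw]; rfl
  have key : ∀ T : ((Fin (k + 1) ⊕ Fin (k + 1) → ZMod 2) → ZMod 2) → Prop,
      Nat.card {q : (Fin (k + 1) ⊕ Fin (k + 1) → ZMod 2) → ZMod 2 //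
        (∀ u v, q (u + v) = q u + q v + (P (u + v) - P u - P v)) ∧ T q} =
        Nat.card {w // T (qw P w)} := fun T =>
    (Nat.card_congr (Equiv.ofBijective (fun w : {w // T (qw P w)} => ⟨qw P w, h1 w, w.2⟩)
      ⟨fun a b h => Subtype.ext (qw_injective hn (congrFun (congrArg Subtype.val h))), fun q => by
        obtain ⟨w, hw⟩ := exists_eq_qw hn q.2.1
        exact ⟨⟨w, hw ▸ q.2.2⟩, Subtype.ext hw.symm⟩⟩)).symm
  have h2 : ∀ w, (∃ g : _ ≃ₗ[ZMod 2] _, ∀ v, qw P w v = P (g v)) ∨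
      ∃ g : _ ≃ₗ[ZMod 2] _, ∀ v, qw P w v = quadMinus (ZMod 2) k 1 1 (g v) := fun w => by
    rcases wittIndex_even (qw_nondeg hn w) (m := k) (by simp; ring) with h | h
    · obtain ⟨e, he⟩ := exists_isIso_plus (qw_nondeg hn w) (by simp; ring) h
      exact .inl ⟨e, fun v => (he.2 v).symm⟩
    · obtain ⟨e, he⟩ := exists_isIso_minus (qw_nondeg hn w) (by simp; ring) h aniso_zmod2
      exact .inr ⟨e, fun v => (he.2 v).symm⟩
  have h3 := fun w => exists_equiv_qw_iff hn (by simp) w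
  have h4 : ∀ w, (∃ g : _ ≃ₗ[ZMod 2] _, ∀ v, qw P w v = quadMinus (ZMod 2) k 1 1 (g v)) ↔
      ¬ P w = 0 := fun w => by
    rw [← h3]
    refine ⟨fun ⟨g, hg⟩ ⟨g', hg'⟩ => ?_, (h2 w).resolve_left⟩
    have := ((isIso_ofQuad fun v => (hg' v).symm).symm.trans (isIso_ofQuad fun v =>
      (hg v).symm)).wittIndex (quadPlus_wittIndex (ZMod 2) (k + 1))
    have := this.unique (quadMinus_wittIndex (ZMod 2) k aniso_zmod2)
    omega
  have h5 : Nat.card (Fin (k + 1) ⊕ Fin (k + 1) → ZMod 2) = 2 ^ (2 * (k + 1)) := by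
    simp [two_mul]
  have h6 := card_subtype_add_card_not fun w => P w = 0
  have h7 : 2 ^ (2 * (k + 1)) = 2 * 2 ^ (2 * (k + 1) - 1) := by rw [← pow_succ']; rfl
  simp only [Nat.add_sub_cancel, pow_succ 2 k] at h0 ⊢
  refine ⟨?_, fun q hq => ?_, ?_, ?_⟩
  · simpa [two_mul] using key fun _ => True
  · obtain ⟨w, rfl⟩ := exists_eq_qw hn hq
    exact h2 w
  · rw [key fun q => ∃ g : _ ≃ₗ[ZMod 2] _, ∀ v, q v = P (g v)]
    simp only [h3]
    omega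
  · refine (key fun q => ∃ g : _ ≃ₗ[ZMod 2] _, ∀ v, q v = quadMinus (ZMod 2) k 1 1 (g v)).trans ?_
    simp only [h4]
    omega

end Cfsg.Agent.S2561
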