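import Cfsg.Statements.S2563
import Cfsg.Agent.Classical.Heart

set_option autoImplicit false
open Cfsg

namespace Cfsg.Agent.S2563

open Cfsg.Agent.Classical Cfsg.Agent.Geom Cfsg.Agent.Geom.Formed Module

/-- For k ≥ 1 the symmetric group of degree 4k + 4 embeds in a full orthogonal group in dimension 4k + 2 over the field of two elements: in the isometry group of the plus-type form Σ xᵢyᵢ when k is odd, and in that of the minus-type form Σ xᵢyᵢ + (z₁² + z₁z₂ + z₂²) when k is even (through its action on even partitions of a (4k+4)-set, with the form 'half the size of a part, modulo 2'). -/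
theorem result (k : ℕ) (hk : 1 ≤ k) :
    (Odd k → ∃ φ : Equiv.Perm (Fin (4 * k + 4)) →* ↥(Cfsg.isometryGroup (ZMod 2) (Cfsg.quadFormPlus (2 * k + 1) (ZMod 2))), Function.Injective φ) ∧
    (Even k → ∃ φ : Equiv.Perm (Fin (4 * k + 4)) →* ↥(Cfsg.isometryGroup (ZMod 2) (Cfsg.quadFormMinus (2 * k) (ZMod 2) 1 1)), Function.Injective φ) := by
  obtain ⟨φ, hφ⟩ := exists_perm_heartQ (F := ZMod 2) (n := 4 * k + 4) (m := 2 * k + 1) (by omega)
    (by omega) (by simp)
  have hn := nondeg_of_polar_symp (polar_heartQ (F := ZMod 2) (m := 2 * k + 1))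
  let w : Fin (2 * k + 1) ⊕ Fin (2 * k + 1) → ZMod 2 := Sum.elim 1 fun j => (j.1 + 1 : ℕ)
  have h1 : ∀ v, qw (quadPlus (ZMod 2) (2 * k + 1)) w v = heartQ (ZMod 2) (2 * k + 1) v := fun v => by
    rw [qw_apply, heartQ_apply, polar_quadPlus]
    simp only [w, pow_two, zmod2_mul_self, Sum.elim_inl, Sum.elim_inr, Pi.one_apply, one_mul, mul_comm]
  have h2 : quadPlus (ZMod 2) (2 * k + 1) w = (k + 1 : ℕ) := by
    rw [quadPlus_apply]
    simp only [w, Sum.elim_inl, Sum.elim_inr, Pi.one_apply, one_mul, ← Nat.cast_sum]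
    rw [Fin.sum_univ_eq_sum_range (fun j => j + 1), show ∑ j ∈ Finset.range (2 * k + 1), (j + 1) =
      2 * (k * (k + 1)) + (k + 1) by
        clear! φ w
        clear hn hk
        induction k with
        | zero => simp
        | succ k ih => rw [show 2 * (k + 1) + 1 = 2 * k + 1 + 1 + 1 by ring, Finset.sum_range_succ,
            Finset.sum_range_succ, ih]; ring]
    simp [show (2 : ZMod 2) = 0 from rfl]
  have h3 := exists_equiv_qw_iff (quadPlus_nondeg (ZMod 2) (2 * k + 1)) (by simp) w
  rw [h2, ZMod.natCast_eq_zero_iff_even, Nat.even_add_one, Nat.not_even_iff_odd] at h3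
  rw [← coe_quadPlus, ← coe_quadMinus]
  refine ⟨fun h => ?_, fun h => ?_⟩
  · obtain ⟨g, hg⟩ := h3.2 h
    have he : (ofQuad (heartQ (ZMod 2) (2 * k + 1))).IsIso (ofQuad (quadPlus (ZMod 2) (2 * k + 1))) g :=
      isIso_ofQuad fun v => by rw [← hg, h1]
    exact ⟨(he.isomCongr.trans (isometryEquiv _).symm).toMonoidHom.comp φ,
      (he.isomCongr.trans (isometryEquiv _).symm).injective.comp hφ⟩
  · rcases wittIndex_even hn (m := 2 * k) (by simp; omega) with hw | hw
    · obtain ⟨e, he⟩ := exists_isIso_plus hn (m := 2 * k + 1) (by simp; omega) hw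
      exact absurd (h3.1 ⟨e, fun v => (h1 v).trans (he.2 v).symm⟩) (Nat.not_odd_iff_even.2 h)
    · obtain ⟨e, he⟩ := exists_isIso_minus hn (m := 2 * k) (by simp; omega) hw aniso_zmod2
      exact ⟨(he.isomCongr.trans (isometryEquiv _).symm).toMonoidHom.comp φ,
        (he.isomCongr.trans (isometryEquiv _).symm).injective.comp hφ⟩

end Cfsg.Agent.S2563
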