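import Cfsg.Statements.S2565
import Cfsg.Agent.Classical.Heart

set_option autoImplicit false
open Cfsg

namespace Cfsg.Agent.S2565

open Cfsg.Agent.Classical Cfsg.Agent.Geom Cfsg.Agent.Geom.Formed Module

/-- The commutator subgroup of the full orthogonal group of the plus-type form Σ xᵢyᵢ in dimension 6 over the field of two elements (the group Ω⁺₆(2), of index 2) is isomorphic to the alternating group of degree 8. -/
theorem result :
    (Cfsg.Omega (ZMod 2) (Cfsg.quadFormPlus 3 (ZMod 2))).index = 2 ∧
    Nonempty (↥(Cfsg.Omega (ZMod 2) (Cfsg.quadFormPlus 3 (ZMod 2))) ≃* alternatingGroup (Fin 8)) := by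
  rw [← coe_quadPlus, index_Omega]
  obtain ⟨e⟩ := O6p_two (F := ZMod 2) (ZMod.card 2)
  exact ⟨index_commutator_even (quadPlus_nondeg _ 3) (notExc_of_finrank (by simp)) (by decide) (by simp),
    (commutator_equiv_alt e (by simp)).map fun e' => (omegaEquiv _).trans e'⟩

end Cfsg.Agent.S2565
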