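import Cfsg.Statements.S2566
import Cfsg.Agent.Classical.LowIso
import Cfsg.Agent.S0250

set_option autoImplicit false
open Cfsg

namespace Cfsg.Agent.S2566

open Cfsg.Agent.Classical Cfsg.Agent.Geom Cfsg.Agent.Geom.Formed Module Matrix
open scoped MatrixGroups

/-- The full orthogonal group of the plus-type form x₁y₁ + x₂y₂ in dimension 4 over the field of two elements has order 72 and is isomorphic to the wreath product of the symmetric group of degree 3 by a group of order 2: it has a normal subgroup isomorphic to the direct product of two symmetric groups of degree 3, of index 2, whose two direct factors are interchanged by conjugation by some element. -/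
theorem result :
    Nat.card ↥(Cfsg.isometryGroup (ZMod 2) (Cfsg.quadFormPlus 2 (ZMod 2))) = 72 ∧
    ∃ (A B : Subgroup ↥(Cfsg.isometryGroup (ZMod 2) (Cfsg.quadFormPlus 2 (ZMod 2)))),
      Nonempty (↥A ≃* Equiv.Perm (Fin 3)) ∧ Nonempty (↥B ≃* Equiv.Perm (Fin 3)) ∧ A ⊓ B = ⊥ ∧ (∀ a ∈ A, ∀ b ∈ B, a * b = b * a) ∧
      (A ⊔ B).index = 2 ∧ ∃ g : ↥(Cfsg.isometryGroup (ZMod 2) (Cfsg.quadFormPlus 2 (ZMod 2))), A.map (MulAut.conj g).toMonoidHom = B := by
  rw [← coe_quadPlus]
  let ι : (Fin 2 ⊕ Fin 2 → ZMod 2) →ₗ[ZMod 2] Matrix (Fin 2) (Fin 2) (ZMod 2) :=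
    { toFun := fun v => !![v (.inl 0), v (.inl 1); v (.inr 1), v (.inr 0)]
      map_add' := fun u v => by ext i j; fin_cases i <;> fin_cases j <;> simp
      map_smul' := fun c v => by ext i j; fin_cases i <;> fin_cases j <;> simp }
  have h1 : ∀ v, quadPlus (ZMod 2) 2 v = (ι v).det := fun v => by
    simp [ι, quadPlus_apply, det_fin_two, CharTwo.sub_eq_add]
  have h2 : ∀ X, ι (Sum.elim ![X 0 0, X 0 1] ![X 1 1, X 1 0]) = X :=
    fun X => by ext i j; fin_cases i <;> fin_cases j <;> simp [ι]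
  have hι : Function.Injective ι := fun u v h => by
    ext (i | i) <;> fin_cases i
    exacts [congrFun (congrFun h 0) 0, congrFun (congrFun h 0) 1, congrFun (congrFun h 1) 1,
      congrFun (congrFun h 1) 0]
  obtain ⟨f, hf⟩ := exists_hom_of_model (G := SL(2, ZMod 2) × SL(2, ZMod 2)) (Q := quadPlus (ZMod 2) 2) ι
    hι ((slMat 2 _).comp (MonoidHom.fst _ _)) ((slMat 2 _).comp (MonoidHom.snd _ _))
    fun g v => ⟨_, h2 _, by rw [h1, h1, h2]; simp⟩
  have h3 : ∀ a b : Matrix (Fin 2) (Fin 2) (ZMod 2), (∀ X, X = a * X * bᵀ) → a = 1 ∧ b = 1 := by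
    decide +kernel
  have h4 : Function.Injective f := (injective_iff_map_eq_one f).2 fun g hg => by
    have := h3 g.1.1 g.2.1 fun X => by
      have := hf g (Sum.elim ![X 0 0, X 0 1] ![X 1 1, X 1 0])
      rwa [hg, h2, show ∀ v, (1 : OG (quadPlus (ZMod 2) 2)).1 v = v from fun _ => rfl, h2] at this
    exact Prod.ext (Subtype.ext this.1) (Subtype.ext this.2)
  let e := (isometryEquiv (quadPlus (ZMod 2) 2)).symm
  let φ := e.toMonoidHom.comp f
  have h5 : Function.Injective φ := e.injective.comp h4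
  have h6 : Nat.card (isometryGroup (ZMod 2) (quadPlus (ZMod 2) 2)) = 72 := by
    rw [← Nat.card_congr e.toEquiv,
      card_isom_plus 1 (quadPlus_nondeg _ 2) (quadPlus_wittIndex _ 2) (by simp)]
    simp
  obtain ⟨s⟩ := S0250.result (F := ZMod 2) (ZMod.card 2)
  let t := refl (quadPlus (ZMod 2) 2) (Sum.elim ![0, 1] ![0, 1])
  have h7 : ∀ v, ι (t.1 v) = (ι v)ᵀ := by
    simp only [t, refl_apply, polar_quadPlus, quadPlus_apply]
    decide +kernel
  refine ⟨h6, (φ.comp (MonoidHom.inl _ _)).range, (φ.comp (MonoidHom.inr _ _)).range,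
    ⟨(MonoidHom.ofInjective (f := φ.comp (MonoidHom.inl _ _)) fun a b h => (Prod.ext_iff.1 (h5 h)).1).symm.trans s⟩,
    ⟨(MonoidHom.ofInjective (f := φ.comp (MonoidHom.inr _ _)) fun a b h => (Prod.ext_iff.1 (h5 h)).2).symm.trans s⟩,
    eq_bot_iff.2 ?_, ?_, ?_, e t, ?_⟩
  · rintro _ ⟨⟨a, rfl⟩, b, hb⟩
    rw [show a = 1 from (congrArg Prod.fst (h5 hb)).symm, map_one]; exact one_mem _
  · rintro _ ⟨a, rfl⟩ _ ⟨b, rfl⟩
    simp [← map_mul]
  · have h8 := φ.range.index_mul_card
    have h9 : (MonoidHom.inl SL(2, ZMod 2) SL(2, ZMod 2)).range ⊔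
        (MonoidHom.inr SL(2, ZMod 2) SL(2, ZMod 2)).range = ⊤ := eq_top_iff.2 fun g _ => by
      rw [← Prod.fst_mul_snd g]; exact Subgroup.mul_mem_sup ⟨g.1, rfl⟩ ⟨g.2, rfl⟩
    rw [MonoidHom.range_comp, MonoidHom.range_comp, ← Subgroup.map_sup, h9, ← MonoidHom.range_eq_map]
    rw [← Nat.card_congr (MonoidHom.ofInjective h5).toEquiv, Nat.card_prod, card_SL2, h6] at h8
    simp at h8
    omega
  · rw [← MonoidHom.range_comp]
    congr 1
    ext a : 1
    change e t * e (f (a, 1)) * (e t)⁻¹ = e (f (1, a))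
    rw [← map_inv, ← map_mul, ← map_mul, refl_inv]
    exact congrArg e (OG.ext fun v => hι (by
      rw [OG.mul_apply, OG.mul_apply, h7, hf, h7, hf]; simp))

end Cfsg.Agent.S2566
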