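import Cfsg.Statements.S2567
import Cfsg.Agent.Classical.SLClass

set_option autoImplicit false
open Cfsg

namespace Cfsg.Agent.S2567

open Cfsg.Agent.Classical Matrix Subgroup MulAction Polynomial

/-- Lifting elements of prime order from PGL to GL: let F be a finite field with q elements, r a prime not dividing q − 1, and x an element of order r in GL_n(F) modulo its centre (the scalar matrices). Then x has exactly one preimage in GL_n(F) of order r. -/
theorem result {F : Type*} [Field F] [Fintype F] {q n r : ℕ} (hF : Fintype.card F = q) (hr : r.Prime) (hdiv : ¬ r ∣ q - 1) (x : GL (Fin n) F ⧸ Subgroup.center (GL (Fin n) F)) (hx : orderOf x = r) : ∃! g : GL (Fin n) F, (QuotientGroup.mk g : GL (Fin n) F ⧸ Subgroup.center (GL (Fin n) F)) = x ∧ orderOf g = r := by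
  rcases Nat.eq_zero_or_pos n with rfl | hn
  · rw [Subsingleton.elim x 1, orderOf_one] at hx
    exact absurd hx hr.one_lt.ne
  have : Nonempty (Fin n) := ⟨⟨0, hn⟩⟩
  have := Fact.mk hr
  have hc : (Nat.card (center (GL (Fin n) F))).Coprime r := by
    rw [card_center_GL, Nat.card_units, Nat.card_eq_fintype_card, hF]
    exact (hr.coprime_iff_not_dvd.2 hdiv).symm
  obtain ⟨g, rfl⟩ := QuotientGroup.mk_surjective x
  have h1 : g ^ r ∈ center (GL (Fin n) F) := by
    rw [← QuotientGroup.eq_one_iff, QuotientGroup.mk_pow, ← hx, pow_orderOf_eq_one]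
  obtain ⟨z, hz⟩ := (powCoprime hc).surjective ⟨_, h1⟩⁻¹
  have hz' : z.1 ^ r = (g ^ r)⁻¹ := congrArg Subtype.val hz
  have h2 : (QuotientGroup.mk (g * z) : _ ⧸ center (GL (Fin n) F)) = g := QuotientGroup.mk_mul_of_mem _ z.2
  have h3 : ∀ y : center (GL (Fin n) F), (g * y) ^ r = g ^ r * y.1 ^ r := fun y =>
    Commute.mul_pow (mem_center_iff.1 y.2 g) r
  refine ⟨g * z, ⟨h2, orderOf_eq_prime (by rw [h3, hz', mul_inv_cancel]) fun h => ?_⟩, ?_⟩
  · rw [← h2, h, QuotientGroup.mk_one, orderOf_one] at hx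
    exact hr.one_lt.ne hx
  · rintro g' ⟨h4, h5⟩
    obtain ⟨y, rfl⟩ : ∃ y : center (GL (Fin n) F), g' = g * y :=
      ⟨⟨_, QuotientGroup.eq.1 h4.symm⟩, by simp⟩
    have h6 := orderOf_dvd_iff_pow_eq_one.1 h5.dvd
    rw [h3, mul_eq_one_iff_inv_eq, ← hz'] at h6
    rw [(powCoprime hc).injective (Subtype.ext h6 : powCoprime hc z = powCoprime hc y)]

end Cfsg.Agent.S2567
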