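import Cfsg.Statements.S2568
import Cfsg.Agent.Classical.ElemDiv

set_option autoImplicit false
open Cfsg

namespace Cfsg.Agent.S2568

open Cfsg.Agent.Classical Matrix Subgroup MulAction Polynomial

theorem card_le {α : Type*} [Fintype α] (N : ℕ) :
    Nat.card {E : Multiset α // E.card ≤ N} = (N + Fintype.card α).choose (Fintype.card α) := by
  classical
  have e : {E : Multiset α // E.card ≤ N} ≃ Σ k : Fin (N + 1), Sym α k :=
    ⟨fun E => ⟨⟨E.1.card, Nat.lt_succ_of_le E.2⟩, E.1, rfl⟩,
      fun x => ⟨x.2.1, x.2.2.le.trans (Nat.le_of_lt_succ x.1.2)⟩, fun _ => rfl, by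
        rintro ⟨⟨k, hk⟩, E, hE⟩
        obtain rfl : _ = k := hE
        rfl⟩
  rw [Nat.card_congr e, Nat.card_eq_fintype_card, Fintype.card_sigma, ← Nat.sum_range_multichoose,
    Finset.sum_range]
  simp only [Sym.card_sym_eq_multichoose]

/-- Number of conjugacy classes of elements of a given prime order r, coprime to the characteristic, in GL_n(q): if i is the multiplicative order of q modulo r and t = (r − 1)/i, the classes correspond to the non-zero t-tuples of natural numbers (a_1, …, a_t) with i(a_1 + ⋯ + a_t) ≤ n (a_j is the multiplicity of the j-th Frobenius orbit of nontrivial r-th roots of unity among the eigenvalues), so there are exactly C(⌊n/i⌋ + t, t) − 1 of them. -/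
theorem result {F : Type*} [Field F] [Fintype F] {p q : ℕ} [Fact p.Prime] [CharP F p] (hF : Fintype.card F = q) (n r i t : ℕ) (hr : r.Prime) (hrp : r ≠ p) (hi : i = orderOf (q : ZMod r)) (ht : t * i = r - 1) : Nat.card {C : ConjClasses (GL (Fin n) F) // ∃ g : GL (Fin n) F, ConjClasses.mk g = C ∧ orderOf g = r} = Nat.choose (n / i + t) t - 1 := by
  classical
  have := Fact.mk hr
  have hp : p.Prime := Fact.out
  obtain ⟨f, -, hf⟩ := FiniteField.card F p
  have hc : p.Coprime r := (Nat.coprime_primes hp hr).2 hrp.symm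
  have hr0 : (r : F) ≠ 0 := by
    rw [Ne, CharP.cast_eq_zero_iff F p, Nat.prime_dvd_prime_iff_eq hp hr]; exact hrp.symm
  have hi' : orderOf (ZMod.unitOfCoprime _ (hc.pow_left f)) = i := by
    rw [hi, ← orderOf_units, ZMod.coe_unitOfCoprime, ← hf, hF]
  have hi0 : 0 < i := hi' ▸ orderOf_pos _
  let T := (UniqueFactorizationMonoid.normalizedFactors (cyclotomic r F)).toFinset
  have hT : T.card = t := by
    rw [normalizedFactors_cyclotomic_card hf hc, hi', Nat.totient_prime hr, ← ht,
      Nat.mul_div_cancel _ hi0]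
  have hm : ∀ a, a ∈ T ↔ Irreducible a ∧ a.Monic ∧ a ∣ cyclotomic r F := fun a => by
    rw [Multiset.mem_toFinset, Polynomial.mem_normalizedFactors_iff (cyclotomic_ne_zero r F)]
  have hd : ∀ a ∈ T, a.natDegree = i := fun a ha =>
    hi' ▸ natDegree_of_dvd_cyclotomic_of_irreducible hf hc ((hm a).1 ha).2.2 ((hm a).1 ha).1
  have h1 : X - C 1 ∉ T := fun h => hr0 (by
    simpa [IsRoot, eval_one_cyclotomic_prime] using dvd_iff_isRoot.1 ((hm _).1 h).2.2)
  have h2 : (X ^ r - 1 : F[X]) = cyclotomic r F * (X - C 1) := by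
    rw [C_1, cyclotomic_prime_mul_X_sub_one]
  have hsum : ∀ E : Multiset T, ((E.map Subtype.val).map natDegree).sum = E.card * i := fun E => by
    rw [Multiset.map_map, Multiset.map_congr (f := natDegree ∘ Subtype.val) (g := fun _ => i) rfl
      fun (a : T) _ => hd a a.2]
    simp
  rw [card_classes_prime hr]
  congr 1
  simp only [GL_pow_eq_one_iff]
  rw [card_classes_GL (isCoprime_X_pow_sub_one hr.ne_zero), ← hT, ← Fintype.card_coe, ← card_le]
  symm
  refine Nat.card_eq_of_bijective (fun E => ⟨E.1.map Subtype.val +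
    Multiset.replicate (n - E.1.card * i) (X - C 1), fun a ha => ?_, ?_⟩) ⟨?_, ?_⟩
  · rcases Multiset.mem_add.1 ha with ha | ha
    · obtain ⟨a, -, rfl⟩ := Multiset.mem_map.1 ha
      obtain ⟨h3, h4, h5⟩ := (hm a).1 a.2
      exact ⟨isPP_of_irreducible h3 h4, h2 ▸ h5.mul_right _⟩
    · rw [Multiset.eq_of_mem_replicate ha, h2]
      exact ⟨isPP_of_irreducible (irreducible_X_sub_C 1) (monic_X_sub_C 1), dvd_mul_left _ _⟩
  · have := (Nat.le_div_iff_mul_le hi0).1 E.2
    rw [Multiset.map_add, Multiset.sum_add, hsum, Multiset.map_replicate, natDegree_X_sub_C]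
    simp [this]
  · intro E E' h
    have h3 : ∀ (E : Multiset T) k, (E.map Subtype.val + Multiset.replicate k (X - C 1)).filter
        (· ≠ X - C 1) = E.map Subtype.val := fun E k => by
      rw [Multiset.filter_add, Multiset.filter_eq_self.2, Multiset.filter_eq_nil.2, add_zero]
      · intro a ha; simp [Multiset.eq_of_mem_replicate ha]
      · intro a ha
        obtain ⟨a, -, rfl⟩ := Multiset.mem_map.1 ha
        exact fun h => h1 (h ▸ a.2)
    have := congrArg (fun D => D.1.filter (· ≠ X - C 1)) h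
    simp only [h3] at this
    exact Subtype.ext (Multiset.map_injective Subtype.val_injective this)
  · rintro ⟨D, h3, h4⟩
    have h5 : ∀ a ∈ D.filter (· ≠ X - C 1), a ∈ T := fun a ha => by
      obtain ⟨ha, hne⟩ := Multiset.mem_filter.1 ha
      obtain ⟨h6, h7⟩ := (h3 a ha).1.irreducible_of_dvd
        (X_pow_sub_one_separable_iff.2 hr0).squarefree (h3 a ha).2
      exact (hm a).2 ⟨h6, h7, (isCoprime_of_ne h6 h7 (irreducible_X_sub_C 1) (monic_X_sub_C 1)
        hne).dvd_of_dvd_mul_right (h2 ▸ (h3 a ha).2)⟩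
    obtain ⟨E, hE⟩ : ∃ E : Multiset T, E.map Subtype.val = D.filter (· ≠ X - C 1) :=
      ⟨(D.filter (· ≠ X - C 1)).pmap Subtype.mk h5, by
        rw [Multiset.map_pmap, Multiset.pmap_eq_map, Multiset.map_id']⟩
    have h6 : D = E.map Subtype.val + Multiset.replicate (D.count (X - C 1)) (X - C 1) := by
      rw [hE, ← Multiset.filter_eq', add_comm, Multiset.filter_add_not]
    rw [h6, Multiset.map_add, Multiset.sum_add, hsum, Multiset.map_replicate, natDegree_X_sub_C] at h4
    simp only [Multiset.sum_replicate, smul_eq_mul, mul_one, Fintype.card_fin] at h4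
    refine ⟨⟨E, (Nat.le_div_iff_mul_le hi0).2 (by omega)⟩, Subtype.ext ?_⟩
    refine Eq.trans ?_ h6.symm
    simp only
    congr 2
    omega

end Cfsg.Agent.S2568
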