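import Cfsg.Statements.S2569
import Cfsg.Agent.Classical.SLClass

set_option autoImplicit false
open Cfsg

namespace Cfsg.Agent.S2569

open Cfsg.Agent.Classical Matrix Subgroup MulAction Polynomial

/-- In GL_n over a finite field of characteristic p, the conjugacy class of a semisimple element (an element of order prime to p) under the special linear group is its whole GL-conjugacy class: for every such x and every invertible g there is h of determinant one with h x h⁻¹ = g x g⁻¹. -/
theorem result {F : Type*} [Field F] [Fintype F] {p : ℕ} [Fact p.Prime] [CharP F p] {n : ℕ} (x g : GL (Fin n) F) (hx : (orderOf x).Coprime p) : ∃ h : GL (Fin n) F, (h : Matrix (Fin n) (Fin n) F).det = 1 ∧ h * x * h⁻¹ = g * x * g⁻¹ := by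
  rcases Nat.eq_zero_or_pos n with rfl | hn
  · exact ⟨g, det_isEmpty, rfl⟩
  have h1 := sum_natDegree_elemDiv_mat x.1
  obtain ⟨a, ha⟩ := Multiset.exists_mem_of_ne_zero (s := elemDiv (toLin' x.1)) fun h => by
    simp [h] at h1; omega
  have h2 := aeval_mat_eq_zero_iff.1 ((GL_pow_eq_one_iff x _).1 (pow_orderOf_eq_one x)) a ha
  refine exists_det_one_conj ((isPP_of_mem ha).irreducible_of_dvd
    (X_pow_sub_one_separable_iff.2 ?_).squarefree h2).1 ha g
  rw [Ne, CharP.cast_eq_zero_iff F p]
  exact (Fact.out : p.Prime).coprime_iff_not_dvd.1 hx.symm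

end Cfsg.Agent.S2569
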