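import Cfsg.Statements.S2570
import Cfsg.Agent.Classical.ElemDiv

set_option autoImplicit false
open Cfsg

namespace Cfsg.Agent.S2570

open Cfsg.Agent.Classical Matrix Subgroup MulAction Polynomial

/-- Number of conjugacy classes of elements of order p in GL_n over a finite field of characteristic p: they correspond to the Jordan types, that is, to the partitions of n with all parts at most p other than the partition into ones, so there are (number of partitions of n with parts ≤ p) − 1 of them. -/
theorem result {F : Type*} [Field F] [Fintype F] {p : ℕ} [Fact p.Prime] [CharP F p] (n : ℕ) : Nat.card {C : ConjClasses (GL (Fin n) F) // ∃ g : GL (Fin n) F, ConjClasses.mk g = C ∧ orderOf g = p} = (Finset.univ.filter (fun μ : Nat.Partition n => ∀ a ∈ μ.parts, a ≤ p)).card - 1 := by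
  have hp : p.Prime := Fact.out
  rw [card_classes_prime hp]
  congr 1
  simp only [GL_pow_eq_one_iff]
  rw [card_classes_GL (isCoprime_X_pow_sub_one hp.ne_zero), ← Fintype.card_subtype,
    ← Nat.card_eq_fintype_card (α := {_μ : Nat.Partition n // _}), show (X ^ p - 1 : F[X]) = (X - C 1) ^ p by simp [sub_pow_char]]
  have hd : ∀ e : ℕ, ((X - C 1 : F[X]) ^ e).natDegree = e := fun e => by
    rw [natDegree_pow, natDegree_X_sub_C, mul_one]
  symm
  refine Nat.card_eq_of_bijective (fun μ => ⟨μ.1.parts.map ((X - C 1) ^ ·), ?_, ?_⟩) ⟨?_, ?_⟩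
  · exact Multiset.forall_mem_map_iff.2 fun e he =>
      ⟨isPP_X_sub_C_pow 1 (μ.1.parts_pos he), pow_dvd_pow _ (μ.2 e he)⟩
  · simp only [Multiset.map_map, Function.comp, hd, Multiset.map_id', μ.1.parts_sum, Fintype.card_fin]
  · intro μ ν h
    exact Subtype.ext (Nat.Partition.ext (Multiset.map_injective
      (fun a b hab => by rw [← hd a, ← hd b]; exact congrArg natDegree hab) (congrArg Subtype.val h)))
  · rintro ⟨D, h1, h2⟩
    have h3 := fun a ha => (h1 a ha).1.eq_pow_of_dvd (irreducible_X_sub_C 1) (monic_X_sub_C 1) (h1 a ha).2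
    refine ⟨⟨⟨D.map natDegree, fun {e} he => ?_, by simpa using h2⟩, fun e he => ?_⟩, Subtype.ext ?_⟩
    · obtain ⟨a, ha, rfl⟩ := Multiset.mem_map.1 he
      obtain ⟨e, h4, -, rfl⟩ := h3 a ha
      rwa [hd]
    · obtain ⟨a, ha, rfl⟩ := Multiset.mem_map.1 he
      obtain ⟨e, -, h4, rfl⟩ := h3 a ha
      rwa [hd]
    · simp only [Multiset.map_map]
      refine (Multiset.map_congr rfl fun a ha => ?_).trans (Multiset.map_id D)
      obtain ⟨e, -, -, rfl⟩ := h3 a ha
      simp only [Function.comp, hd, id]

end Cfsg.Agent.S2570
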