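import Cfsg.Statements.S2571
import Cfsg.Agent.Classical.Jordan

set_option autoImplicit false
open Cfsg

namespace Cfsg.Agent.S2571

open Cfsg.Agent.Classical Matrix Subgroup MulAction Polynomial

/-- Centraliser of a regular unipotent element in GL_n(q): if u is an invertible n × n matrix over the field with q elements, n ≥ 1, with (u − 1)^n = 0 and rank(u − 1) = n − 1 (a single unipotent Jordan block), then its centraliser in GL_n(q) has order (q − 1) q^(n−1). -/
theorem result {F : Type*} [Field F] [Fintype F] {q n : ℕ} (hF : Fintype.card F = q) (hn : 1 ≤ n) (u : GL (Fin n) F) (hnil : ((u : Matrix (Fin n) (Fin n) F) - 1) ^ n = 0) (hreg : ((u : Matrix (Fin n) (Fin n) F) - 1).rank = n - 1) : Nat.card ↥(Subgroup.centralizer ({u} : Set (GL (Fin n) F))) = (q - 1) * q ^ (n - 1) := by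
  have h1 := kd_X_sub_C_add_rank u.1 1
  rw [one_smul, hreg, Fintype.card_fin] at h1
  have h2 := elemDiv_of_reg (u := toLin' u.1) (n := n) (by
    rw [toLin'_sub_one_pow, hnil, map_zero]) (by omega)
  have hd : ∀ _ : Unit, 0 < n := fun _ => hn
  have h3 := card_cent_congr (h2.trans (show _ = elemDiv (toLin' (jord F fun _ : Unit => n)) by
    rw [elemDiv_jord hd]; simp))
  rw [card_cent_jord hd] at h3
  refine (Nat.card_congr (Equiv.subtypeEquivRight fun g => ?_)).trans (h3.trans ?_)
  · rw [mem_centralizer_singleton_iff, Units.ext_iff]; rfl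
  · rw [Finset.image_const Finset.univ_nonempty, Finset.prod_singleton, card_GL_of_card (n := 1) (by simp)]
    simp [hF]

end Cfsg.Agent.S2571
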