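import Cfsg.Statements.S2572
import Cfsg.Agent.Classical.Jordan

set_option autoImplicit false
open Cfsg

namespace Cfsg.Agent.S2572

open Cfsg.Agent.Classical Matrix Subgroup MulAction Polynomial

/-- Centraliser of a transvection in GL_n(q), n ≥ 2: if t − 1 has rank one and square zero, the centraliser of t in GL_n(q) has order q^(2n−3) (q − 1) |GL_(n−2)(q)| (a group of order q^(2n−3) extended by GL_1(q) × GL_(n−2)(q)). -/
theorem result {F : Type*} [Field F] [Fintype F] {q n : ℕ} (hF : Fintype.card F = q) (hn : 2 ≤ n) (t : GL (Fin n) F) (ht : Cfsg.IsTransvection (t : Matrix (Fin n) (Fin n) F)) : Nat.card ↥(Subgroup.centralizer ({t} : Set (GL (Fin n) F))) = q ^ (2 * n - 3) * (q - 1) * ∏ i : Fin (n - 2), (q ^ (n - 2) - q ^ (i : ℕ)) := by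
  obtain ⟨m, rfl⟩ : ∃ m, n = m + 2 := ⟨n - 2, by omega⟩
  let d : Option (Fin m) → ℕ := fun k => k.elim 2 fun _ => 1
  have hd : ∀ k, 0 < d k := by rintro (_ | _) <;> simp [d]
  have h3 := card_cent_congr ((elemDiv_transvection ht).trans (show _ = elemDiv (toLin' (jord F d)) by
    rw [elemDiv_jord hd]; simp [d, univ_option, Finset.insertNone, Function.comp_def, ← Multiset.coe_replicate]))
  rw [card_cent_jord hd, Finset.prod_subset (s₂ := {1, 2}), Finset.prod_pair (by norm_num),
    card_GL_of_card (n := m), card_GL_of_card (n := 1)] at h3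
  · refine (Nat.card_congr (Equiv.subtypeEquivRight fun g => ?_)).trans (h3.trans ?_)
    · rw [mem_centralizer_singleton_iff, Units.ext_iff]; rfl
    · simp [d, hF, show 2 * (m + 2) - 3 = 1 + m + m by omega]
      ring_nf
      exact mul_right_comm _ _ _
  · rw [Fintype.card_subtype, Finset.card_filter, Fintype.sum_option]; simp [d]
  · rw [Fintype.card_subtype, Finset.card_filter, Fintype.sum_option]; simp [d]
  · intro c hc
    obtain ⟨_ | _, -, rfl⟩ := Finset.mem_image.1 hc <;> simp [d]
  · intro c _ hc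
    have : IsEmpty {i // d i = c} := ⟨fun i => hc (Finset.mem_image.2 ⟨i.1, Finset.mem_univ _, i.2⟩)⟩
    exact Nat.card_unique

end Cfsg.Agent.S2572
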