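import Cfsg.Statements.S2574
import Cfsg.Agent.Classical.Jordan

set_option autoImplicit false
open Cfsg

namespace Cfsg.Agent.S2574

open Cfsg.Agent.Classical Matrix Subgroup MulAction Polynomial

/-- A regular unipotent element of the symplectic group has totally isotropic small invariant subspaces: over a finite field, if u ∈ Sp_2m(F) satisfies (u − 1)^(2m) = 0 and rank(u − 1) = 2m − 1, and W is a u-invariant subspace with 2 dim W ≤ 2m, then the alternating form vanishes identically on W. -/
theorem result {F : Type*} [Field F] [Finite F] {m : ℕ} (u : Matrix.symplecticGroup (Fin m) F) (hnil : ((u : Matrix (Fin m ⊕ Fin m) (Fin m ⊕ Fin m) F) - 1) ^ (2 * m) = 0) (hreg : ((u : Matrix (Fin m ⊕ Fin m) (Fin m ⊕ Fin m) F) - 1).rank = 2 * m - 1) (W : Submodule F (Fin m ⊕ Fin m → F)) (hW : ∀ v ∈ W, (u : Matrix (Fin m ⊕ Fin m) (Fin m ⊕ Fin m) F).mulVec v ∈ W) (hdim : 2 * Module.finrank F W ≤ 2 * m) : ∀ v ∈ W, ∀ w ∈ W, Cfsg.sympForm m F v w = 0 := by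
  have h1 := kd_X_sub_C_add_rank u.1 1
  rw [one_smul, hreg, Fintype.card_sum, Fintype.card_fin] at h1
  have h2 := fun U => eq_ker_of_reg (u := toLin' u.1) (n := 2 * m) (by
    rw [toLin'_sub_one_pow, hnil, map_zero]) (by omega) (U := U)
  have h3 := Geom.Formed.perp_mem_stab (Geom.spEquiv m F u).2 (Geom.mem_stab_of_le hW)
  have h4 := (Geom.sympFormed_nondeg m F).finrank_perp W
  simp only [Module.finrank_fintype_fun_eq_card, Fintype.card_sum, Fintype.card_fin] at h4
  have h5 : W ≤ (Geom.sympFormed m F).perp W := by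
    rw [h2 ((Geom.sympFormed m F).perp W) fun v hv => (h3 v).1 hv]
    exact (h2 W hW).le.trans ((LinearMap.iterateKer _).monotone (by omega))
  exact fun v hv w hw => by simpa using h5 hw v hv

end Cfsg.Agent.S2574
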