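import Cfsg.Statements.S2575
import Cfsg.Agent.Classical.SLClass

set_option autoImplicit false
open Cfsg

namespace Cfsg.Agent.S2575

open Cfsg.Agent.Classical Matrix Subgroup MulAction Polynomial

theorem aux {F : Type*} [Field F] [Fintype F] {q : ℕ} (hF : Fintype.card F = q) (n : ℕ) {x : F}
    (hx : x ≠ 0) : (∃ c : F, c ≠ 0 ∧ c ^ n * x = 1) ↔ orderOf x ∣ (q - 1) / (q - 1).gcd n := by
  have := exists_pow_eq_iff n (Units.mk0 x hx)⁻¹
  rw [Nat.card_units, Nat.card_eq_fintype_card, hF, inv_pow, inv_eq_one, ← orderOf_dvd_iff_pow_eq_one,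
    ← orderOf_units, Units.val_mk0] at this
  rw [← this]
  constructor
  · rintro ⟨c, hc, h⟩
    exact ⟨Units.mk0 c hc, eq_inv_of_mul_eq_one_left (Units.ext h)⟩
  · rintro ⟨c, hc⟩
    exact ⟨c, c.ne_zero, congrArg Units.val (mul_eq_one_iff_eq_inv.2 hc)⟩

theorem aux2 {N n k : ℕ} (hN : N ≠ 0) (hn : n ≠ 0) :
    2 ^ k ∣ N / N.gcd n ↔ k + min (padicValNat 2 N) (padicValNat 2 n) ≤ padicValNat 2 N := by
  have h1 := Nat.gcd_dvd_left N n
  have h2 : N / N.gcd n ≠ 0 := (Nat.div_pos (Nat.le_of_dvd (by omega) h1)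
    (Nat.gcd_pos_of_pos_left _ (by omega))).ne'
  rw [padicValNat_dvd_iff_le h2, padicValNat.div_of_dvd h1]
  have h3 : padicValNat 2 (N.gcd n) = min (padicValNat 2 N) (padicValNat 2 n) := by
    simp only [← Nat.factorization_def _ Nat.prime_two, Nat.factorization_gcd hN hn, Finsupp.inf_apply]
  rw [h3]
  omega

/-- Which diagonal involutions of PGL_n(q) lie in PSL_n(q), q odd: for the diagonal matrix t with i entries −1 and n − i entries 1, some non-zero scalar multiple of t has determinant one if and only if i is even or the 2-part of q − 1 exceeds the 2-part of n (that is, −1 is an n-th power in the field exactly in the latter case). -/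
theorem result {F : Type*} [Field F] [Fintype F] {q : ℕ} (hF : Fintype.card F = q) (hq : Odd q) {n : ℕ} (hn : 1 ≤ n) (i : ℕ) (hi : i ≤ n) : (∃ c : F, c ≠ 0 ∧ (c • Matrix.diagonal (fun j : Fin n => if (j : ℕ) < i then (-1 : F) else 1)).det = 1) ↔ (Even i ∨ padicValNat 2 n < padicValNat 2 (q - 1)) := by
  have h1 : 1 < q := hF ▸ Fintype.one_lt_card
  have h2 : ringChar F ≠ 2 := fun h => by
    have := FiniteField.even_card_iff_char_two.1 h
    rw [hF, Nat.odd_iff.1 hq] at this
    exact one_ne_zero this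
  have h3 : (Finset.univ.filter fun j : Fin n => (j : ℕ) < i).card = i := by
    simp [Fin.card_filter_val_lt, hi]
  simp only [det_smul, det_diagonal, Finset.prod_ite, Finset.prod_const, one_pow, mul_one, h3,
    Fintype.card_fin]
  rw [aux hF n (by simp)]
  rcases i.even_or_odd with h | h
  · simp [h]
  · have := @aux2 (q - 1) n 1 (by omega) (by omega)
    rw [h.neg_one_pow, orderOf_neg_one, if_neg h2, ← Nat.not_odd_iff_even]
    rw [pow_one] at this
    have h4 : 1 ≤ padicValNat 2 (q - 1) := one_le_padicValNat_of_dvd (by omega) (by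
      obtain ⟨k, rfl⟩ := hq; simp)
    simp only [this, h, not_true, false_or]
    omega

end Cfsg.Agent.S2575
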