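import Cfsg.Statements.S2576
import Cfsg.Agent.S2575

set_option autoImplicit false
open Cfsg

namespace Cfsg.Agent.S2576

open Cfsg.Agent.Classical Matrix Subgroup MulAction Polynomial

/-- Which involutions of PGL_2m(q) coming from a scalar of the quadratic extension field lie in PSL_2m(q), q odd: let μ generate the Sylow 2-subgroup of the multiplicative group of the field with q elements (μ has order the 2-part of q − 1) and let t be the block-diagonal matrix with m diagonal blocks [[0, 1], [μ, 0]] (so t² is the scalar μ and t is an involution modulo scalars). Then some non-zero scalar multiple of t has determinant one if and only if q ≡ 3 (mod 4) or the 2-part of q − 1 is less than the 2-part of 2m. -/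
theorem result {F : Type*} [Field F] [Fintype F] {q : ℕ} (hF : Fintype.card F = q) (hq : Odd q) {m : ℕ} (hm : 1 ≤ m) (μ : F) (hμ : orderOf μ = 2 ^ padicValNat 2 (q - 1)) : (∃ c : F, c ≠ 0 ∧ (c • Matrix.blockDiagonal (fun _ : Fin m => !![(0 : F), 1; μ, 0])).det = 1) ↔ (q % 4 = 3 ∨ padicValNat 2 (q - 1) < padicValNat 2 (2 * m)) := by
  have h1 : 1 < q := hF ▸ Fintype.one_lt_card
  have h2 : ringChar F ≠ 2 := fun h => by
    have := FiniteField.even_card_iff_char_two.1 h
    rw [hF, Nat.odd_iff.1 hq] at this
    exact one_ne_zero this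
  have h4 : 1 ≤ padicValNat 2 (q - 1) := one_le_padicValNat_of_dvd (by omega) (by
    obtain ⟨k, rfl⟩ := hq; simp)
  have h5 : 2 ≤ padicValNat 2 (q - 1) ↔ q % 4 = 1 := by
    rw [← padicValNat_dvd_iff_le (by omega)]; omega
  have h6 : padicValNat 2 (2 * m) = padicValNat 2 m + 1 := by
    rw [padicValNat.mul two_ne_zero (by omega), padicValNat.self one_lt_two, add_comm]
  have h0 : μ ≠ 0 := by
    rintro rfl
    rw [orderOf_zero] at hμ
    exact pow_ne_zero _ two_ne_zero hμ.symm
  simp only [det_smul, det_blockDiagonal, Finset.prod_const, det_fin_two_of, Fintype.card_prod,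
    Fintype.card_fin, Finset.card_univ, mul_zero, one_mul, zero_sub]
  rw [Cfsg.Agent.S2575.aux hF _ (by simp [h0])]
  obtain h | h : q % 4 = 3 ∨ q % 4 = 1 := by have := Nat.odd_iff.1 hq; omega
  · have : μ = -1 := by
      rw [show padicValNat 2 (q - 1) = 1 by omega, pow_one] at hμ
      have := (orderOf_eq_prime_iff.1 hμ)
      exact (sq_eq_one_iff.1 this.1).resolve_left this.2
    simp [h, this]
  · obtain ⟨v, hv⟩ : ∃ v, padicValNat 2 (q - 1) = v + 2 := ⟨padicValNat 2 (q - 1) - 2, by omega⟩
    have h7 : orderOf (-μ) = 2 ^ (v + 1 + 1) := by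
      refine orderOf_eq_prime_pow ?_ ?_
      · rw [Even.neg_pow (by simp [Nat.even_pow]), ← orderOf_dvd_iff_pow_eq_one, hμ, hv,
          Nat.pow_dvd_pow_iff_le_right one_lt_two]
        omega
      · rw [Even.neg_pow (by simp [Nat.even_pow]), ← orderOf_dvd_iff_pow_eq_one, hμ, hv]
    rw [orderOf_pow' _ (by omega), h7]
    obtain ⟨k, hk, h8⟩ := (Nat.dvd_prime_pow Nat.prime_two).1 (Nat.gcd_dvd_left (2 ^ (v + 1 + 1)) m)
    have h9 : k = min (v + 2) (padicValNat 2 m) := by
      have := congrArg (·.factorization 2) h8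
      simpa [Nat.factorization_gcd (show 2 ^ (v + 1 + 1) ≠ 0 by simp) (show m ≠ 0 by omega),
        Nat.factorization_def _ Nat.prime_two] using this.symm
    rw [h8, Nat.pow_div hk two_pos, Cfsg.Agent.S2575.aux2 (by omega) (by omega)]
    omega

end Cfsg.Agent.S2576
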