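import Cfsg.Statements.S2577
import Cfsg.Agent.Classical.SLClass

set_option autoImplicit false
open Cfsg

namespace Cfsg.Agent.S2577

open Cfsg.Agent.Classical Matrix Subgroup MulAction Polynomial

variable {F : Type*} [Field F] {n : ℕ}

theorem mk_conj_iff (a b : GL (Fin n) F) :
    IsConj (QuotientGroup.mk a : GL (Fin n) F ⧸ center (GL (Fin n) F)) (QuotientGroup.mk b) ↔
      ∃ c : F, IsConj (c • a.1) b.1 := by
  constructor
  · intro h
    obtain ⟨g, hg⟩ := isConj_iff.1 h
    obtain ⟨g, rfl⟩ := QuotientGroup.mk_surjective g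
    rw [← QuotientGroup.mk_inv, ← QuotientGroup.mk_mul, ← QuotientGroup.mk_mul, QuotientGroup.eq,
      GeneralLinearGroup.center_eq_range_scalar] at hg
    obtain ⟨c, hc⟩ := hg
    refine ⟨c, g, ?_⟩
    have := congrArg Units.val (eq_inv_mul_iff_mul_eq.1 hc)
    simp [SemiconjBy, ← this, mul_assoc, ← smul_one_eq_diagonal, scalar_apply]
  · rintro ⟨c, g, hg⟩
    by_cases hc : c = 0
    · have : b.1 = 0 := by simpa [hc, SemiconjBy, eq_comm] using hg
      rcases Nat.eq_zero_or_pos n with rfl | hn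
      · exact Subsingleton.elim a b ▸ IsConj.refl _
      · have _ : Nonempty (Fin n) := ⟨⟨0, hn⟩⟩
        exact absurd this b.ne_zero
    refine isConj_iff.2 ⟨g, ?_⟩
    rw [← QuotientGroup.mk_inv, ← QuotientGroup.mk_mul, ← QuotientGroup.mk_mul, QuotientGroup.eq,
      GeneralLinearGroup.center_eq_range_scalar]
    refine ⟨Units.mk0 c hc, eq_inv_mul_iff_mul_eq.2 (Units.ext ?_)⟩
    rw [← Units.mul_left_inj g, ← hg.eq]
    simp [mul_assoc, ← smul_one_eq_diagonal, scalar_apply]

theorem orderOf_mk (a : GL (Fin n) F) :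
    orderOf (QuotientGroup.mk a : GL (Fin n) F ⧸ center (GL (Fin n) F)) = 2 ↔
      (∃ s : F, a.1 * a.1 = s • 1) ∧ ∀ s : F, a.1 ≠ s • 1 := by
  have : ∀ b : GL (Fin n) F, b ∈ center (GL (Fin n) F) ↔ ∃ s : F, b.1 = s • 1 := fun b => by
    refine ⟨fun h => ?_, fun ⟨s, h⟩ => mem_center_iff.2 fun g => Units.ext (by simp [h])⟩
    rw [GeneralLinearGroup.center_eq_range_scalar] at h
    obtain ⟨c, rfl⟩ := h
    exact ⟨c, by simp [← smul_one_eq_diagonal, scalar_apply]⟩
  rw [orderOf_eq_prime_iff, ← QuotientGroup.mk_pow, QuotientGroup.eq_one_iff, Ne,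
    QuotientGroup.eq_one_iff, this, this, sq, not_exists]
  rfl

theorem rank_conj {A B : Matrix (Fin n) (Fin n) F} (h : IsConj A B) (c : F) :
    (A - c • 1).rank = (B - c • 1).rank := by
  have h1 := kd_X_sub_C_add_rank A c
  have h2 := kd_X_sub_C_add_rank B c
  rw [kd_of_isConj h] at h1
  omega

theorem sq_conj [NeZero n] {A B : Matrix (Fin n) (Fin n) F} {c s t : F} (h : IsConj (c • A) B)
    (hA : A * A = s • 1) (hB : B * B = t • 1) : c * c * s = t := by
  obtain ⟨g, hg⟩ := h
  have := (hg.mul_right hg).eq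
  rw [hB, smul_mul_smul_comm, hA, smul_smul, mul_smul_comm, smul_mul_assoc, mul_one, one_mul] at this
  exact smul_left_injective F g.ne_zero this

/-- The diagonal involutions. -/
noncomputable def dg (F : Type*) [Field F] (n k : ℕ) : GL (Fin n) F :=
  GeneralLinearGroup.mkOfDetNeZero (diagonal fun j => if (j : ℕ) < k then -1 else 1) (by
    rw [det_diagonal, Finset.prod_ne_zero_iff]; intro i _; split_ifs <;> simp)

theorem dg_sq (k : ℕ) : (dg F n k).1 * (dg F n k).1 = (1 : F) • 1 := by
  change diagonal _ * diagonal _ = _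
  rw [diagonal_mul_diagonal, one_smul, ← diagonal_one]
  congr 1; funext j; split_ifs <;> simp

theorem rank_dg (h2 : (-1 : F) ≠ 1) {k : ℕ} (hk : k ≤ n) : ((dg F n k).1 - (1 : F) • 1).rank = k := by
  classical
  change Matrix.rank (diagonal _ - _) = _
  rw [one_smul, ← diagonal_one, diagonal_sub, rank_diagonal]
  simp [Fintype.card_subtype, sub_eq_zero, h2, Fin.card_filter_val_lt, hk]

theorem two_fac {A : Matrix (Fin n) (Fin n) F} (h : A * A = (1 : F) • 1) :
    (A - (1 : F) • 1) * (A - (-1 : F) • 1) = 0 := by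
  simp [sub_mul, mul_add, h]

theorem rank_neg' [Finite F] (h2 : (-1 : F) ≠ 1) {A : Matrix (Fin n) (Fin n) F} (h : A * A = (1 : F) • 1) :
    (A - (1 : F) • 1).rank + ((-1 : F) • A - (1 : F) • 1).rank = n := by
  have := rank_add_rank_of_two_factors h2.symm (two_fac h)
  rw [← rank_smul_of_mem_nonZeroDivisors (c := -1) (A - (-1 : F) • 1) (by simp),
    Fintype.card_fin] at this
  refine Eq.trans ?_ this
  congr 2
  simp [sub_eq_add_neg]

/-- Number of conjugacy classes of involutions in PGL_n(q) for q odd and n ≥ 2: there are ⌊n/2⌋ classes represented by diagonal matrices with i entries −1 (1 ≤ i ≤ n/2) and, when n is even, one more class represented by a block-diagonal matrix of 2 × 2 blocks [[0, 1], [μ, 0]] with μ a non-square (a matrix squaring to a scalar but having no eigenvalue in the field); in all ⌊n/2⌋ + 1 classes if n is even and ⌊n/2⌋ if n is odd. -/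
theorem result {F : Type*} [Field F] [Fintype F] {q : ℕ} (hF : Fintype.card F = q) (hq : Odd q) {n : ℕ} (hn : 2 ≤ n) : Nat.card {C : ConjClasses (GL (Fin n) F ⧸ Subgroup.center (GL (Fin n) F)) // ∃ g : GL (Fin n) F ⧸ Subgroup.center (GL (Fin n) F), ConjClasses.mk g = C ∧ orderOf g = 2} = n / 2 + (if Even n then 1 else 0) := by
  classical
  have : NeZero n := ⟨by omega⟩
  have h0 : ringChar F ≠ 2 := fun h => by
    have := FiniteField.even_card_iff_char_two.1 h
    rw [hF, Nat.odd_iff.1 hq] at this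
    exact one_ne_zero this
  have h2 : (-1 : F) ≠ 1 := Ring.neg_one_ne_one_of_char_ne_two h0
  obtain ⟨ν, hν⟩ := FiniteField.exists_nonsquare h0
  have hν0 : ν ≠ 0 := fun h => hν (h ▸ IsSquare.zero)
  have hi : Irreducible (X ^ 2 - C ν) := X_pow_sub_C_irreducible_of_prime Nat.prime_two
    fun b hb => hν ⟨b, by rw [← hb, sq]⟩
  have hm : (X ^ 2 - C ν).Monic := monic_X_pow_sub_C ν two_ne_zero
  have hae : ∀ A : Matrix (Fin n) (Fin n) F, aeval A (X ^ 2 - C ν) = 0 ↔ A * A = ν • 1 := fun A => by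
    simp [sub_eq_zero, sq, Algebra.algebraMap_eq_smul_one]
  have hB : Even n → ∃ B : GL (Fin n) F, B.1 * B.1 = ν • 1 := fun ⟨m, h⟩ => by
    obtain ⟨B, hB⟩ := exists_GL_elemDiv_eq (ι := Fin n) (D := Multiset.replicate m (X ^ 2 - C ν))
      (fun a ha => Multiset.eq_of_mem_replicate ha ▸ isPP_of_irreducible hi hm)
      (fun a ha => Multiset.eq_of_mem_replicate ha ▸ (isCoprime_of_ne hi hm irreducible_X monic_X
        fun h => by simpa using congrArg natDegree h)) (by simp; omega)
    exact ⟨B, (hae _).1 (aeval_mat_eq_zero_iff.2 fun a ha => by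
      rw [hB] at ha; rw [Multiset.eq_of_mem_replicate ha])⟩
  choose B hB using hB
  rw [card_classes_eq _ (α := Fin (n / 2) ⊕ PLift (Even n))
    (Sum.elim (fun k => (dg F n (k + 1) : GL (Fin n) F ⧸ center (GL (Fin n) F))) fun h => B h.1)]
  · by_cases h : Even n <;> simp [h]
  · rintro (k | h)
    · refine (orderOf_mk _).2 ⟨⟨1, dg_sq _⟩, fun s hs => ?_⟩
      have h3 := congrFun (congrFun hs 0) 0
      have h4 := congrFun (congrFun hs ⟨n - 1, by omega⟩) ⟨n - 1, by omega⟩
      have : ¬ n ≤ k + 1 := by omega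
      simp [dg, this] at h3 h4
      exact h2 (h3.trans h4.symm)
    · refine (orderOf_mk _).2 ⟨⟨ν, hB h.1⟩, fun s hs => hν ⟨s, ?_⟩⟩
      have := hB h.1
      rw [hs, smul_mul_smul_comm, mul_one] at this
      exact (smul_left_injective F one_ne_zero this).symm
  · rintro (k | h) (l | h') hc <;> obtain ⟨c, hc⟩ := (mk_conj_iff _ _).1 hc
    · have h3 := sq_conj hc (dg_sq _) (dg_sq _)
      have h4 := rank_conj hc 1
      have h5 := rank_neg' h2 (dg_sq (F := F) (n := n) (k + 1))
      rw [rank_dg h2 (by omega)] at h4 h5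
      congr 1
      ext
      rcases mul_self_eq_one_iff.1 (by simpa using h3) with rfl | rfl
      · rw [one_smul, rank_dg h2 (by omega)] at h4
        omega
      · omega
    · exact absurd ⟨c, by simpa using (sq_conj hc (dg_sq _) (hB _)).symm⟩ hν
    · have := sq_conj hc (hB _) (dg_sq _)
      exact absurd ⟨c * ν, by linear_combination (-ν) * this⟩ hν
    · rw [Subsingleton.elim h h']
  · intro g hg
    obtain ⟨g, rfl⟩ := QuotientGroup.mk_surjective g
    obtain ⟨⟨s, hs⟩, h3⟩ := (orderOf_mk g).1 hg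
    have hs0 : s ≠ 0 := by
      rintro rfl
      exact (g * g).ne_zero (by simp at hs)
    have hsc : ∀ c : F, c * c * s = 1 → 2 * (c • g.1 - (1 : F) • 1).rank ≤ n → ∃ a, IsConj
        (Sum.elim (fun k : Fin (n / 2) => (dg F n (k + 1) : GL (Fin n) F ⧸ center (GL (Fin n) F)))
          (fun h : PLift (Even n) => B h.1) a) (g : GL (Fin n) F ⧸ center (GL (Fin n) F)) := by
      intro c hc h4
      have h5 : (c • g.1 - (1 : F) • 1).rank ≠ 0 := fun h => h3 c⁻¹ (by
        rw [Matrix.rank, Submodule.finrank_eq_zero, LinearMap.range_eq_bot, ← toLin'_apply',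
          map_eq_zero_iff _ toLin'.injective, sub_eq_zero] at h
        rw [← one_smul F (1 : Matrix (Fin n) (Fin n) F), ← h, inv_smul_smul₀ (by rintro rfl; simp at hc)])
      refine ⟨.inl ⟨(c • g.1 - (1 : F) • 1).rank - 1, by omega⟩, ((mk_conj_iff _ _).2 ⟨c, ?_⟩).symm⟩
      refine isConj_of_two_factors h2.symm (two_fac ?_) (two_fac (dg_sq _)) ?_
      · rw [smul_mul_smul_comm, hs, smul_smul, hc]
      · rw [rank_dg h2 (by simp only; omega)]
        simp only; omega
    by_cases hsq : IsSquare s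
    · obtain ⟨a, rfl⟩ := hsq
      have ha : a ≠ 0 := left_ne_zero_of_mul hs0
      have h4 := rank_neg' h2 (A := a⁻¹ • g.1) (by
        rw [smul_mul_smul_comm, hs, smul_smul]; congr 1; field_simp)
      by_cases h5 : 2 * (a⁻¹ • g.1 - (1 : F) • 1).rank ≤ n
      · exact hsc _ (by field_simp) h5
      · exact hsc (-1 * a⁻¹) (by field_simp) (by rw [← smul_smul]; omega)
    · obtain ⟨a, ha⟩ : IsSquare (s * ν) := by
        rw [← quadraticChar_one_iff_isSquare (mul_ne_zero hs0 hν0), map_mul,
          quadraticChar_neg_one_iff_not_isSquare.2 hsq, quadraticChar_neg_one_iff_not_isSquare.2 hν]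
        norm_num
      have h4 : (a / s) • g.1 * (a / s) • g.1 = ν • 1 := by
        rw [smul_mul_smul_comm, hs, smul_smul]; congr 1; field_simp; linear_combination -ha
      obtain ⟨k, h5, h6⟩ := elemDiv_of_irreducible hi hm (aeval_toLin'_eq_zero.2 ((hae _).2 h4))
      simp only [natDegree_X_pow_sub_C, Module.finrank_fintype_fun_eq_card, Fintype.card_fin] at h5
      have he : Even n := ⟨k, by omega⟩
      obtain ⟨k', h7, h8⟩ := elemDiv_of_irreducible hi hm (aeval_toLin'_eq_zero.2 ((hae _).2 (hB he)))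
      simp only [natDegree_X_pow_sub_C, Module.finrank_fintype_fun_eq_card, Fintype.card_fin] at h7
      refine ⟨.inr ⟨he⟩, ((mk_conj_iff _ _).2 ⟨a / s, isConj_iff_elemDiv.2 ?_⟩).symm⟩
      rw [h6, h8, show k = k' by omega]

end Cfsg.Agent.S2577
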