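import Cfsg.Statements.S2578
import Cfsg.Agent.Classical.Jordan

set_option autoImplicit false
open Cfsg

namespace Cfsg.Agent.S2578

open Cfsg.Agent.Classical Matrix Subgroup MulAction Polynomial

/-- Regular unipotent classes of SL_n(q): for n ≥ 2 over the field with q elements, the matrices u of determinant one with (u − 1)^n = 0 and rank(u − 1) = n − 1 form a single GL_n(q)-class which splits into exactly gcd(n, q − 1) conjugacy classes of SL_n(q). -/
theorem result {F : Type*} [Field F] [Fintype F] {q : ℕ} (hF : Fintype.card F = q) {n : ℕ} (hn : 2 ≤ n) : Nat.card {C : ConjClasses (Matrix.SpecialLinearGroup (Fin n) F) // ∃ u : Matrix.SpecialLinearGroup (Fin n) F, ConjClasses.mk u = C ∧ ((u : Matrix (Fin n) (Fin n) F) - 1) ^ n = 0 ∧ ((u : Matrix (Fin n) (Fin n) F) - 1).rank = n - 1} = Nat.gcd n (q - 1) := by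
  have : NeZero n := ⟨by omega⟩
  have h0 : ∀ u : Matrix (Fin n) (Fin n) F, (u - 1) ^ n = 0 ∧ (u - 1).rank = n - 1 ↔
      elemDiv (toLin' u) = {(X - C 1) ^ n} := fun u => by
    have h1 := kd_X_sub_C_add_rank u 1
    rw [one_smul, Fintype.card_fin] at h1
    constructor
    · rintro ⟨h2, h3⟩
      simpa using elemDiv_of_reg (u := toLin' u) (n := n) (by
        rw [toLin'_sub_one_pow, h2, map_zero]) (by omega)
    · intro h
      have h2 := (aeval_eq_zero_iff (f := toLin' u) (b := (X - C 1) ^ n)).2 (by simp [h])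
      have := kd_unip_eq_card ((aeval_X_sub_one_pow _ _).symm.trans h2)
      rw [aeval_toLin'_eq_zero, aeval_X_sub_one_pow] at h2
      rw [h, Multiset.card_singleton] at this
      exact ⟨h2, by omega⟩
  obtain ⟨A, hA⟩ := exists_mat_elemDiv_eq (ι := Fin n) (D := {(X - C (1 : F)) ^ n})
    (by simpa using isPP_X_sub_C_pow (1 : F) (e := n) (by omega)) (by simp [-map_one])
  obtain ⟨h1, h2⟩ := (h0 A).2 hA
  have h3 : (toLin' A - 1) ^ n = 0 := by
    rw [toLin'_sub_one_pow, h1, map_zero]
  have h4 : A.det = 1 := by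
    rw [← LinearMap.det_toLin', det_of_isNilpotent_sub (a := 1) ⟨n, by rwa [one_smul]⟩, one_pow]
  rw [card_classes_ker GeneralLinearGroup.det GeneralLinearGroup.det_surjective _
    Matrix.SpecialLinearGroup.toGL_injective range_toGL ⟨A, h4⟩ _ fun y => by
      rw [h0, isConj_GL_iff_elemDiv, ← hA, eq_comm]; rfl]
  rw [← hF, ← Nat.card_eq_fintype_card, ← Nat.card_units, Nat.gcd_comm,
    ← IsCyclic.index_powMonoidHom_range]
  congr 1
  ext c
  constructor
  · rintro ⟨g, hg, rfl⟩
    obtain ⟨a, ha⟩ := exists_det_eq_pow_of_reg (g := toLin' g.1) h3 (by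
      rw [kd_unip_eq_card h3, hA, Multiset.card_singleton]) (by
      simp only [Module.End.mul_eq_comp, ← toLin'_mul]
      exact congrArg (toLin' ·.1) (mem_centralizer_singleton_iff.1 hg))
    simp only [LinearMap.det_toLin', Module.finrank_fintype_fun_eq_card, Fintype.card_fin] at ha
    exact ⟨Units.mk0 a fun h => g.det_ne_zero (by simp [ha, h, NeZero.ne n]), Units.ext ha.symm⟩
  · rintro ⟨a, rfl⟩
    exact ⟨GeneralLinearGroup.scalar _ a, mem_centralizer_singleton_iff.2
      (GeneralLinearGroup.scalar_commute a _), by simp⟩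

end Cfsg.Agent.S2578
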