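import Cfsg.Statements.S2580
import Cfsg.Agent.Classical.Sim

set_option autoImplicit false
open Cfsg

namespace Cfsg.Agent.S2580

open Cfsg.Agent.Classical Matrix Subgroup MulAction

/-- Over a finite field, a square matrix is similar to its transpose: for every n × n matrix A there is an invertible matrix P with P A P⁻¹ = Aᵀ (stated as conjugacy in the monoid of matrices, whose units are the invertible matrices). -/
theorem result {F : Type*} [Field F] [Finite F] {n : ℕ} (A : Matrix (Fin n) (Fin n) F) : IsConj A A.transpose := by
  exact isConj_transpose A

end Cfsg.Agent.S2580
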