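import Cfsg.Statements.S2581
import Cfsg.Agent.Classical.Jordan

set_option autoImplicit false
open Cfsg

namespace Cfsg.Agent.S2581

open Cfsg.Agent.Classical Matrix Subgroup MulAction Polynomial

theorem aux (R : Finset ℕ) (a : ℕ → ℕ) :
    ∑ i ∈ R, a i * ∑ j ∈ R, a j * (min i j - if i = j then 1 else 0) =
      2 * (∑ i ∈ R, ∑ j ∈ R, if i < j then i * a i * a j else 0) + ∑ i ∈ R, (i - 1) * a i ^ 2 := by
  rw [two_mul]
  nth_rw 2 [Finset.sum_comm]
  simp only [Finset.mul_sum, ← Finset.sum_add_distrib]
  refine Finset.sum_congr rfl fun i hi => ?_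
  rw [← Finset.sum_ite_eq_of_mem R i (fun _ => (i - 1) * a i ^ 2) hi, ← Finset.sum_add_distrib]
  refine Finset.sum_congr rfl fun j _ => ?_
  rcases lt_trichotomy i j with h | rfl | h
  · simp [h, h.ne, h.le, h.not_gt]; ring
  · simp; ring
  · simp [h, h.ne', h.le, h.not_gt]; ring

/-- Order of the centraliser in GL of a unipotent matrix of given Jordan type over the field with q elements: if the type has a_i blocks of size i (all block sizes at least 1), the invertible matrices commuting with it number q^γ · Π_i |GL_(a_i)(q)| with γ = 2 Σ_(i<j) i a_i a_j + Σ_i (i − 1) a_i² (a group of order q^γ extended by Π GL_(a_i)(q)). -/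
theorem result {F : Type*} [Field F] [Fintype F] {q : ℕ} (hF : Fintype.card F = q) {t : ℕ} (d : Fin t → ℕ) (hd : ∀ k, 1 ≤ d k) : Nat.card {g : GL ((k : Fin t) × Fin (d k)) F // (g : Matrix ((k : Fin t) × Fin (d k)) ((k : Fin t) × Fin (d k)) F) * Cfsg.jordanTypeMatrix d F = Cfsg.jordanTypeMatrix d F * (g : Matrix ((k : Fin t) × Fin (d k)) ((k : Fin t) × Fin (d k)) F)} = q ^ (2 * (∑ i ∈ Finset.range (Finset.univ.sup d + 1), ∑ j ∈ Finset.range (Finset.univ.sup d + 1), if i < j then i * (Finset.univ.filter (fun k : Fin t => d k = i)).card * (Finset.univ.filter (fun k : Fin t => d k = j)).card else 0) + ∑ i ∈ Finset.range (Finset.univ.sup d + 1), (i - 1) * (Finset.univ.filter (fun k : Fin t => d k = i)).card ^ 2) * ∏ i ∈ Finset.range (Finset.univ.sup d + 1), ∏ j : Fin ((Finset.univ.filter (fun k : Fin t => d k = i)).card), (q ^ (Finset.univ.filter (fun k : Fin t => d k = i)).card - q ^ (j : ℕ)) := by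
  have hm : ∀ k ∈ Finset.univ, d k ∈ Finset.range (Finset.univ.sup d + 1) := fun k hk =>
    Finset.mem_range.2 (Nat.lt_succ_of_le (Finset.le_sup hk))
  refine (card_cent_jord hd).trans ?_
  rw [mul_comm, Nat.card_eq_fintype_card, hF]
  congr 1
  · congr 1
    have key : ∀ φ : ℕ → ℕ, ∑ k, φ (d k) = ∑ i ∈ Finset.range (Finset.univ.sup d + 1),
        (Finset.univ.filter fun k => d k = i).card * φ i := fun φ => by
      rw [← Finset.sum_fiberwise_of_maps_to' hm]
      simp
    rw [key fun i => ∑ l, (min i (d l) - if i = d l then 1 else 0)]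
    simp only [fun i => key fun j => (min i j - if i = j then 1 else 0)]
    exact aux _ fun i => (Finset.univ.filter fun k => d k = i).card
  · rw [Finset.prod_subset (s₂ := Finset.range (Finset.univ.sup d + 1))]
    · refine Finset.prod_congr rfl fun i _ => ?_
      rw [card_GL_of_card (Fintype.card_subtype _), Nat.card_eq_fintype_card, hF]
    · exact Finset.image_subset_iff.2 hm
    · intro c _ hc
      have : IsEmpty {i // d i = c} := ⟨fun i => hc (Finset.mem_image.2 ⟨i.1, Finset.mem_univ _, i.2⟩)⟩
      exact Nat.card_unique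

end Cfsg.Agent.S2581
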