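import Cfsg.Statements.S2582
import Cfsg.Agent.Classical.UnipAlt

set_option autoImplicit false
open Cfsg

namespace Cfsg.Agent.S2582

open Cfsg.Agent.Classical Cfsg.Agent.Classical.Eig Cfsg.Agent.Elu Cfsg.Agent.Geom Module

/-- Which unipotent Jordan types occur in the finite symplectic group: over a finite field, a unipotent matrix with Jordan block sizes d_1, …, d_t (sum 2m, all at least 1) is similar to an element of Sp_2m(F) if and only if every odd block size occurs an even number of times. -/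
theorem result {F : Type*} [Field F] [Fintype F] {m t : ℕ} (d : Fin t → ℕ) (hd : ∀ k, 1 ≤ d k) (hsum : ∑ k, d k = 2 * m) : (∃ e : ((k : Fin t) × Fin (d k)) ≃ (Fin m ⊕ Fin m), ∃ A : Matrix.symplecticGroup (Fin m) F, IsConj (Matrix.reindex e e (Cfsg.jordanTypeMatrix d F)) (A : Matrix (Fin m ⊕ Fin m) (Fin m ⊕ Fin m) F)) ↔ ∀ j : ℕ, Odd j → Even (Finset.univ.filter (fun k : Fin t => d k = j)).card := by
  simp only [isConj_jordan_iff hd, ← count_map_univ]
  refine ⟨fun ⟨_, A, h⟩ => alt_even _ rfl ((spu_symp m F).alt rfl) (sympFormed_nondeg m F)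
    (iso_symp.2 A.2) h, fun h => ?_⟩
  obtain ⟨f, h1, h2⟩ := alt_real (2 * m) (spu_symp m F) (sympFormed_nondeg m F) (by simp [two_mul])
    (μ := Finset.univ.val.map d) hsum (Multiset.forall_mem_map_iff.2 fun k _ => hd k) h
  obtain ⟨A, rfl⟩ := Matrix.toLin'.surjective f
  obtain ⟨e⟩ := exists_sigma_equiv (ι := Fin m ⊕ Fin m) (d := d) (by simp [hsum, two_mul])
  exact ⟨e, ⟨A, iso_symp.1 h1⟩, h2⟩

end Cfsg.Agent.S2582
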