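import Cfsg.Statements.S2583
import Cfsg.Agent.Classical.UnipAlt

set_option autoImplicit false
open Cfsg

namespace Cfsg.Agent.S2583

open Cfsg.Agent.Classical Cfsg.Agent.Classical.Eig Cfsg.Agent.Elu Cfsg.Agent.Geom Module

/-- Which unipotent Jordan types occur in a finite orthogonal group in odd characteristic: over a finite field of odd order, a unipotent matrix with Jordan block sizes d_1, …, d_t (sum n, all at least 1) is similar to an isometry of some quadratic form on F^n with non-degenerate polar form if and only if every even block size occurs an even number of times. -/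
theorem result {F : Type*} [Field F] [Fintype F] (h2 : (2 : F) ≠ 0) {n t : ℕ} (d : Fin t → ℕ) (hd : ∀ k, 1 ≤ d k) (hsum : ∑ k, d k = n) : (∃ Q : QuadraticForm F (Fin n → F), (QuadraticMap.polarBilin Q).Nondegenerate ∧ ∃ e : ((k : Fin t) × Fin (d k)) ≃ Fin n, ∃ A : ↥(Cfsg.isometryGroup F ⇑Q), IsConj (Matrix.reindex e e (Cfsg.jordanTypeMatrix d F)) ((A : Matrix.GeneralLinearGroup (Fin n) F) : Matrix (Fin n) (Fin n) F)) ↔ ∀ j : ℕ, Even j → 0 < j → Even (Finset.univ.filter (fun k : Fin t => d k = j)).card := by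
  simp only [isConj_jordan_iff hd, ← count_map_univ]
  refine ⟨fun ⟨Q, hQ, _, A, h⟩ j hj _ => Jt.even_count (orth_quad Q) ((Formed.nondeg_iff _).2 hQ) h2
    (isometryEquiv Q A).2 h j hj, fun h => ?_⟩
  obtain ⟨e⟩ := exists_sigma_equiv (ι := Fin n) (d := d) (by simp [hsum])
  have H : ∀ {ι : Type} [Fintype ι] [DecidableEq ι] (Q : QuadraticForm F (ι → F)),
      (Formed.ofQuad Q).Nondeg → Fintype.card ι = n → (Odd n ∨ Ty (Formed.ofQuad Q) 0) →
      ∃ Q : QuadraticForm F (Fin n → F), (QuadraticMap.polarBilin Q).Nondegenerate ∧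
        ∃ _ : ((k : Fin t) × Fin (d k)) ≃ Fin n, ∃ A : isometryGroup F ⇑Q,
          Jt (Matrix.toLin' A.1.1) (Finset.univ.val.map d) := fun {ι} _ _ Q hQ hι ho => by
    let x : (Fin n → F) ≃ₗ[F] (ι → F) := LinearEquiv.ofFinrankEq _ _ (by simp [hι])
    have hx : (Formed.ofQuad (Q.comp x.toLinearMap)).IsIso (Formed.ofQuad Q) x :=
      (orth_quad _).isIso (orth_quad _) fun _ => rfl
    have hn : (Formed.ofQuad (Q.comp x.toLinearMap)).Nondeg := hx.symm.nondeg hQ
    obtain ⟨f, h1, h3⟩ := Orth.real_unip h2 n (orth_quad _) hn (by simp)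
      (μ := Finset.univ.val.map d) hsum (Multiset.forall_mem_map_iff.2 fun k _ => hd k) (fun a ha => by
        rcases a.eq_zero_or_pos with rfl | h0
        · rw [Multiset.count_eq_zero.2 (by simpa using fun k => (show 0 < d k from hd k).ne')]
          exact Even.zero
        · exact h a ha h0) (ho.imp (fun ho => by
          by_contra! H
          exact Nat.not_even_iff_odd.2 ho (hsum ▸ Finset.even_sum _ fun k _ =>
            Nat.not_odd_iff_even.1 (H _ (by simp)))) (Ty.iso hx.symm))
    obtain ⟨g, rfl⟩ := h1.exists_isom hn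
    obtain ⟨A, rfl⟩ := (isometryEquiv _).surjective g
    exact ⟨_, (Formed.nondeg_iff _).1 hn, e, A, h3⟩
  rcases n.even_or_odd' with ⟨m, rfl | rfl⟩
  · exact H _ (quadPlus_nondeg F m) (by simp [two_mul]) (.inr ⟨m, quadPlus_wittIndex F m, by simp [two_mul]⟩)
  · exact H _ (quadOdd_nondeg F m h2) (by simp [two_mul, add_comm]) (.inl (by simp))

end Cfsg.Agent.S2583
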