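import Cfsg.Statements.S2585
import Cfsg.Agent.Classical.SpTwo

set_option autoImplicit false
open Cfsg

namespace Cfsg.Agent.S2585

open Cfsg.Agent.Classical Cfsg.Agent.Geom Cfsg.Agent.Geom.Formed Module

/-- Over a finite field of characteristic two every element of the symplectic group is orthogonal for a suitable quadratic form: for each A in Sp_2m(F) there is a quadratic form Q on F^(2m) whose polar form is the alternating form defining Sp_2m(F) (so Q is non-degenerate) and which A preserves. Equivalently, for m ≥ 1, Sp_2m(F) is the union of the conjugates of its two orthogonal subgroups O⁺_2m(F) and O⁻_2m(F). -/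
theorem result {F : Type*} [Field F] [Fintype F] [CharP F 2] {m : ℕ} (A : Matrix.symplecticGroup (Fin m) F) : ∃ Q : QuadraticForm F (Fin m ⊕ Fin m → F), (∀ u v : Fin m ⊕ Fin m → F, QuadraticMap.polar ⇑Q u v = Cfsg.sympForm m F u v) ∧ ∀ v : Fin m ⊕ Fin m → F, Q ((A : Matrix (Fin m ⊕ Fin m) (Fin m ⊕ Fin m) F).mulVec v) = Q v := by
  have h := sympFormed_nondeg m F
  obtain ⟨φ, hφ⟩ := exists_sp_defect (spEquiv m F A)
  obtain ⟨w, rfl⟩ := h.exists_eq_B φ
  simp only [← spEquiv_apply]
  generalize spEquiv m F A = g at hφ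
  obtain ⟨z, rfl⟩ : w ∈ mov g.1⁻¹ := by
    rw [mov_inv, ← perp_fixS h g.2]
    intro u hu
    have := hφ u
    rw [mem_fixS.1 hu, left_eq_add, pow_eq_zero_iff two_ne_zero] at this
    rw [(sympFormed m F).symm, this]; simp
  refine ⟨quadPlus F m + QuadraticMap.linMulLin ((sympFormed m F).B z) ((sympFormed m F).B z),
    fun u v => ?_, fun v => ?_⟩
  · rw [← polar_quadPlus_two]
    simp only [QuadraticMap.polar, _root_.add_apply, QuadraticMap.linMulLin_apply, map_add]
    linear_combination (sympFormed m F).B z u * (sympFormed m F).B z v * CharTwo.two_eq_zero (R := F)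
  · have h1 : (sympFormed m F).B z (g.1 v) = (sympFormed m F).B (g.1⁻¹ z) v := by
      rw [← g.2.1 (g.1⁻¹ z) v]; simp
    simp only [_root_.add_apply, QuadraticMap.linMulLin_apply, hφ, h1, LinearMap.sub_apply, map_sub,
      LinearMap.id_apply, LinearEquiv.coe_coe]
    linear_combination ((sympFormed m F).B (g.1⁻¹ z) v ^ 2 - (sympFormed m F).B z v *
      (sympFormed m F).B (g.1⁻¹ z) v) * CharTwo.two_eq_zero (R := F)

end Cfsg.Agent.S2585
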