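import Cfsg.Statements.S2584
import Cfsg.Agent.Classical.UnipAlt
import Cfsg.Agent.S2582
import Cfsg.Agent.S2585

set_option autoImplicit false
open Cfsg

namespace Cfsg.Agent.S2584

open Cfsg.Agent.Classical Cfsg.Agent.Classical.Eig Cfsg.Agent.Elu Cfsg.Agent.Geom Module

/-- Which unipotent Jordan types occur in a finite orthogonal group in characteristic two: over a finite field of characteristic 2 and in even dimension 2m, a unipotent matrix with Jordan block sizes d_1, …, d_t (sum 2m, all at least 1) is similar to an isometry of some quadratic form on F^(2m) with non-degenerate polar form if and only if every odd block size occurs an even number of times (the same condition as for the symplectic group, which contains these orthogonal groups). -/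
theorem result {F : Type*} [Field F] [Fintype F] [CharP F 2] {m t : ℕ} (d : Fin t → ℕ) (hd : ∀ k, 1 ≤ d k) (hsum : ∑ k, d k = 2 * m) : (∃ Q : QuadraticForm F (Fin (2 * m) → F), (QuadraticMap.polarBilin Q).Nondegenerate ∧ ∃ e : ((k : Fin t) × Fin (d k)) ≃ Fin (2 * m), ∃ A : ↥(Cfsg.isometryGroup F ⇑Q), IsConj (Matrix.reindex e e (Cfsg.jordanTypeMatrix d F)) ((A : Matrix.GeneralLinearGroup (Fin (2 * m)) F) : Matrix (Fin (2 * m)) (Fin (2 * m)) F)) ↔ ∀ j : ℕ, Odd j → Even (Finset.univ.filter (fun k : Fin t => d k = j)).card := by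
  constructor
  · simp only [isConj_jordan_iff hd, ← count_map_univ]
    exact fun ⟨Q, hQ, _, A, h⟩ => alt_even _ rfl (fun x => by
      rw [(orth_quad Q).B_self, CharTwo.two_eq_zero, zero_mul]) ((Formed.nondeg_iff _).2 hQ)
      (isometryEquiv Q A).2 h
  intro h
  obtain ⟨e, A, hA⟩ := (S2582.result (F := F) d hd hsum).2 h
  obtain ⟨Q, h1, h2⟩ := S2585.result A
  simp only [isConj_jordan_iff hd] at hA ⊢
  obtain ⟨e⟩ := exists_sigma_equiv (ι := Fin (2 * m)) (d := d) (by simp [hsum])
  let x : (Fin m ⊕ Fin m → F) ≃ₗ[F] (Fin (2 * m) → F) :=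
    LinearEquiv.ofFinrankEq _ _ (by simp [two_mul])
  have hx : (Formed.ofQuad Q).IsIso (Formed.ofQuad (Q.comp x.symm.toLinearMap)) x :=
    (orth_quad _).isIso (orth_quad _) fun _ => by simp
  have hQ : (Formed.ofQuad Q).Nondeg := fun v hv => sympFormed_nondeg m F v fun w => by
    simpa [h1] using hv w
  have hn := hx.nondeg hQ
  obtain ⟨g, hg⟩ := (Iso.conj hx (f := Matrix.toLin' A.1)
    ⟨fun u v => by simpa [h1] using mem_symplecticGroup_iff.1 A.2 u v, h2⟩).exists_isom hn
  obtain ⟨B, rfl⟩ := (isometryEquiv _).surjective g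
  refine ⟨_, (Formed.nondeg_iff _).1 hn, e, B, (elemDiv_congr x fun v => ?_).symm.trans hA⟩
  simpa using (LinearMap.congr_fun hg (x v)).symm

end Cfsg.Agent.S2584
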