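import Cfsg.Statements.S2588
import Cfsg.Agent.Classical.SSConj

set_option autoImplicit false
open Cfsg

namespace Cfsg.Agent.S2588

open Cfsg.Agent.Classical Cfsg.Agent.Geom Cfsg.Agent.Geom.Formed Module

/-- An invertible matrix A over the field with q² elements is conjugate in GL_n(q²) to an element of the general unitary group GU_n(q) (isometries of the Hermitian form Σ u_i v_i^q) if and only if A is similar to the inverse transpose of its entrywise q-th power (A ~ A^(−qT), the image of A under the map sending a matrix to the inverse transpose of its entrywise q-th power — inverse transpose composed with the field automorphism — whose fixed points form GU_n(q)). -/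
theorem result {K : Type*} [Field K] [Fintype K] {q n : ℕ} (hK : Fintype.card K = q ^ 2) (A : GL (Fin n) K) : (∃ B : ↥(Cfsg.GU n K q), IsConj A (B : GL (Fin n) K)) ↔ IsConj (A : Matrix (Fin n) (Fin n) K) (((A : Matrix (Fin n) (Fin n) K).map (fun x : K => x ^ q)).transpose)⁻¹ := by
  have h1 := exists_herm_iff (frobq_ne_id hK) (hermFormed_nondeg hK n) rfl (x := glEquiv _ K A)
  have h2 : ((glEquiv _ K A).symm : End K (Fin n → K)) = Matrix.toLin' (A⁻¹).1 := by
    change ((glEquiv _ K A)⁻¹ : _ ≃ₗ[K] _).toLinearMap = _
    rw [← map_inv]; rfl
  rw [h2, adj_hermFormed] at h1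
  have h3 : ((A⁻¹).1.map (frobq hK)).transpose = ((A.1.map fun x : K => x ^ q).transpose)⁻¹ := by
    refine (Matrix.inv_eq_left_inv ?_).symm
    change _ * (A.1.map (frobq hK)).transpose = 1
    rw [← Matrix.transpose_mul, ← Matrix.map_mul, Units.mul_inv, Matrix.map_one _ (map_zero _) (map_one _),
      Matrix.transpose_one]
  rw [isConj_iff_exists_equiv, ← h3]
  refine Iff.trans ?_ h1
  rw [(guEquiv hK n).surjective.exists]
  refine exists_congr fun B => ?_
  rw [isConj_units_iff, isConj_iff_exists_equiv]
  rfl

end Cfsg.Agent.S2588
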