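import Cfsg.Statements.S2591
import Cfsg.Agent.Classical.Uc2

set_option autoImplicit false
open Cfsg

namespace Cfsg.Agent.S2591

open Cfsg.Agent.Classical Cfsg.Agent.Classical.Uc Cfsg.Agent.Geom Cfsg.Agent.Elu

/-- Over a finite field of odd order and for m ≥ 1, the regular unipotent elements of Sp_2m(F) (u − 1 nilpotent of rank 2m − 1, a single Jordan block) form exactly two conjugacy classes of Sp_2m(F) (one class under the similarity group, which splits in two). -/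
theorem result {F : Type*} [Field F] [Fintype F] {q : ℕ} (hF : Fintype.card F = q) (hq : Odd q) {m : ℕ} (hm : 1 ≤ m) : Nat.card {C : ConjClasses ↥(Matrix.symplecticGroup (Fin m) F) // ∃ u : Matrix.symplecticGroup (Fin m) F, ConjClasses.mk u = C ∧ ((u : Matrix (Fin m ⊕ Fin m) (Fin m ⊕ Fin m) F) - 1) ^ (2 * m) = 0 ∧ ((u : Matrix (Fin m ⊕ Fin m) (Fin m ⊕ Fin m) F) - 1).rank = 2 * m - 1} = 2 := by
  have : NeZero (2 : F) := ⟨two_ne_zero_of_odd_card (hF ▸ hq)⟩
  have : Nonempty (Fin m) := ⟨⟨0, hm⟩⟩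
  have h0 : 2 * m - 1 + 1 = 2 * m := by omega
  have h1 : Odd (2 * m - 1) := ⟨m - 1, by omega⟩
  have h2 := sympFormed_nondeg m F
  simp only [jt_reg_iff (show Fintype.card (Fin m ⊕ Fin m) = 2 * m by simp [two_mul])]
  rw [card_classes_of_inv _ (fun u => Dl (sympFormed m F) (Matrix.toLin' u.1) (2 * m - 1)) (fun _ => True)
    (fun g h hg hh => ?_) fun t => iff_of_true trivial ?_]
  · simp
  · rw [isConj_sp, sim_unip h2 h2 (iso_symp.2 g.2) (iso_symp.2 h.2) hg hh, eq_iff_iff]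
    refine ⟨fun H => H _ (symp_eps.2 h1) (by simp [h0]), fun H k _ hk => ?_⟩
    rwa [show k = 2 * m - 1 by simp at hk; omega]
  · obtain ⟨f, h3, h4, h5⟩ := reg_both (spu_symp m F) h2 h1 (by rw [h0]; simp [two_mul]) t
    obtain ⟨A, rfl⟩ := Matrix.toLin'.surjective f
    exact ⟨⟨A, iso_symp.1 h3⟩, h0 ▸ h4, propext h5⟩

end Cfsg.Agent.S2591
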