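import Cfsg.Statements.S2592
import Cfsg.Agent.Classical.Uc2

set_option autoImplicit false
open Cfsg

namespace Cfsg.Agent.S2592

open Cfsg.Agent.Classical Cfsg.Agent.Classical.Uc Cfsg.Agent.Geom Cfsg.Agent.Elu

/-- Over a finite field with q elements, q odd, the centraliser in Sp_2m(F) (m ≥ 1) of a regular unipotent element (u − 1 nilpotent of rank 2m − 1) has order 2 q^m. -/
theorem result {F : Type*} [Field F] [Fintype F] {q : ℕ} (hF : Fintype.card F = q) (hq : Odd q) {m : ℕ} (hm : 1 ≤ m) (u : Matrix.symplecticGroup (Fin m) F) (hnil : ((u : Matrix (Fin m ⊕ Fin m) (Fin m ⊕ Fin m) F) - 1) ^ (2 * m) = 0) (hreg : ((u : Matrix (Fin m ⊕ Fin m) (Fin m ⊕ Fin m) F) - 1).rank = 2 * m - 1) : Nat.card ↥(Subgroup.centralizer ({u} : Set ↥(Matrix.symplecticGroup (Fin m) F))) = 2 * q ^ m := by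
  have : NeZero (2 : F) := ⟨two_ne_zero_of_odd_card (hF ▸ hq)⟩
  have : Nonempty (Fin m) := ⟨⟨0, hm⟩⟩
  have h0 : 2 * m = 2 * m - 1 + 1 := by omega
  rw [card_centralizer_congr (spEquiv m F), ← hF, Fintype.card_eq_nat_card]
  exact card_cent_reg (spu_symp m F) (sympFormed_nondeg m F) _ h0
    (h0 ▸ (jt_reg_iff (by simp [two_mul])).1 ⟨hnil, hreg⟩)

end Cfsg.Agent.S2592
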