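import Cfsg.Statements.S2594
import Cfsg.Agent.Classical.Inv2c

set_option autoImplicit false
open Cfsg

namespace Cfsg.Agent.S2594

open Cfsg.Agent.Classical Cfsg.Agent.Geom Cfsg.Agent.Geom.Formed Module

/-- Over a finite field with q elements, q even, an element t of Sp_2m(F) with rank(t − 1) = 1 (a symplectic transvection) has centraliser in Sp_2m(F) of order q^(2m−1) · |Sp_(2m−2)(q)| = q^(2m−1) · q^((m−1)²) · Π_(i=1)^(m−1) (q^(2i) − 1). -/
theorem result {F : Type*} [Field F] [Fintype F] [CharP F 2] {q : ℕ} (hF : Fintype.card F = q) {m : ℕ} (hm : 1 ≤ m) (t : Matrix.symplecticGroup (Fin m) F) (ht : ((t : Matrix (Fin m ⊕ Fin m) (Fin m ⊕ Fin m) F) - 1).rank = 1) : Nat.card ↥(Subgroup.centralizer ({t} : Set ↥(Matrix.symplecticGroup (Fin m) F))) = q ^ (2 * m - 1) * (q ^ ((m - 1) ^ 2) * ∏ i : Fin (m - 1), (q ^ (2 * ((i : ℕ) + 1)) - 1)) := by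
  have h := sympFormed_nondeg m F
  have h2 : finrank F (mov (spEquiv m F t).1) = 1 := ht ▸ finrank_mov_eq_rank fun _ => rfl
  have h1 : t ^ 2 = 1 := by
    refine (spEquiv m F).injective (Subtype.ext (LinearEquiv.ext fun v => ?_))
    set y := spEquiv m F t
    have h3 : ∀ a ∈ mov y.1, y.1 a = a := fun a ha => by
      rw [← mem_fixS, ← perp_mov h y.2]
      intro b hb
      obtain ⟨c, hc, hc'⟩ := finrank_eq_one_iff'.1 h2
      obtain ⟨r, hr⟩ := hc' ⟨a, ha⟩
      obtain ⟨u, hu⟩ := hc' ⟨b, hb⟩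
      rw [← show r • c.1 = a from congrArg Subtype.val hr, ← show u • c.1 = b from congrArg Subtype.val hu]
      simp only [map_smul, LinearMap.smul_apply, B_self_two, smul_zero]
    have h4 := h3 _ (sub_mem_mov y.1 v)
    rw [map_pow, map_one]
    change y.1 (y.1 v) = v
    rw [map_sub] at h4
    have h5 := add_self_two F (y.1 v)
    have h6 := add_self_two F (y.1 (y.1 v))
    have h7 := add_self_two F v
    linear_combination (exp := 1) -h4 + h5 - h7
  obtain ⟨-, h3, h4⟩ := card_cent_sp hF t h1 ht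
  rw [h4 fun h => by simpa using (h3 h).1, spOrd_eq q (m - 1)]
  simp [spOrd]

end Cfsg.Agent.S2594
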