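import Cfsg.Statements.S2599
import Cfsg.Agent.Geom.OBridge

set_option autoImplicit false
open Cfsg

namespace Cfsg.Agent.S2599

open Cfsg.Agent.Geom Cfsg.Agent.Geom.Formed Module QuadraticMap

/-- An irreducible invariant subspace of a semisimple isometry is non-degenerate or totally singular: let Q be a quadratic form on F^n (F finite of characteristic p) with non-degenerate polar form f, x an isometry of Q of order prime to p, and U a non-zero x-invariant subspace containing no x-invariant subspace other than 0 and U. Then U meets its f-orthogonal trivially, or Q vanishes on U, or p = 2, U is a line spanned by a non-singular vector and x fixes U pointwise. -/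
theorem result {F : Type*} [Field F] [Fintype F] {p : ℕ} [Fact p.Prime] [CharP F p] {n : ℕ} (Q : QuadraticForm F (Fin n → F)) (hQ : (QuadraticMap.polarBilin Q).Nondegenerate) (x : ↥(Cfsg.isometryGroup F ⇑Q)) (hx : (orderOf x).Coprime p) (U : Submodule F (Fin n → F)) (hU0 : U ≠ ⊥) (hUx : ∀ u ∈ U, ((x : Matrix.GeneralLinearGroup (Fin n) F) : Matrix (Fin n) (Fin n) F).mulVec u ∈ U) (hirr : ∀ W : Submodule F (Fin n → F), W ≤ U → (∀ w ∈ W, ((x : Matrix.GeneralLinearGroup (Fin n) F) : Matrix (Fin n) (Fin n) F).mulVec w ∈ W) → W = ⊥ ∨ W = U) : U ⊓ LinearMap.BilinForm.orthogonal (QuadraticMap.polarBilin Q) U = ⊥ ∨ (∀ u ∈ U, Q u = 0) ∨ (p = 2 ∧ Module.finrank F U = 1 ∧ (∃ u ∈ U, Q u ≠ 0) ∧ ∀ u ∈ U, ((x : Matrix.GeneralLinearGroup (Fin n) F) : Matrix (Fin n) (Fin n) F).mulVec u = u) := by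
  simp only [← isometryEquiv_apply] at hUx hirr ⊢
  generalize isometryEquiv Q x = g at hUx hirr
  have h1 : U.map g.1.toLinearMap = U := (hirr _ (by rintro _ ⟨u, hu, rfl⟩; exact hUx u hu)
    (by rintro _ ⟨u, hu, rfl⟩; exact ⟨_, hUx u hu, rfl⟩)).resolve_left (by simpa using hU0)
  refine (hirr _ inf_le_left fun w hw => ⟨hUx w hw.1, fun u hu => ?_⟩).imp_right fun h => ?_
  · obtain ⟨u, hu', rfl⟩ := h1.ge hu
    exact (OG.map_polar g u w).trans (hw.2 u hu')
  have h2 : ∀ a ∈ U, ∀ b ∈ U, polar Q a b = 0 := fun a ha b hb => (h.ge hb).2 a ha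
  by_cases hp : p = 2
  swap
  · refine .inl fun u hu => (mul_eq_zero.1 ((polar_self' Q u).symm.trans (h2 u hu u hu))).resolve_left
      fun h2 => hp ((Nat.prime_dvd_prime_iff_eq Fact.out Nat.prime_two).1
        ((CharP.cast_eq_zero_iff F p 2).1 h2))
  subst hp
  let U₀ : Submodule F (Fin n → F) :=
    { carrier := {a | a ∈ U ∧ Q a = 0}
      add_mem' := fun ha hb => ⟨U.add_mem ha.1 hb.1, by
        rw [quad_add, ha.2, hb.2, h2 _ ha.1 _ hb.1]; simp⟩
      zero_mem' := ⟨U.zero_mem, map_zero Q⟩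
      smul_mem' := fun c _ ha => ⟨U.smul_mem c ha.1, by rw [quad_smul, ha.2, mul_zero]⟩ }
  refine (hirr U₀ (fun _ h => h.1) fun w hw => ⟨hUx w hw.1, (OG.map_Q g w).trans hw.2⟩).symm.imp
    (fun h u hu => (h.ge hu).2) fun h0 => ?_
  have h3 : ∀ a ∈ U, ∀ b ∈ U, Q a = Q b → a = b := fun a ha b hb h => sub_eq_zero.1
    (h0.le ⟨U.sub_mem ha hb, by rw [quad_sub, h, h2 _ ha _ hb, CharTwo.add_self_eq_zero, sub_zero]⟩)
  obtain ⟨u, hu, hu0⟩ := (Submodule.ne_bot_iff U).1 hU0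
  have h4 : Q u ≠ 0 := fun h => hu0 (h0.le ⟨hu, h⟩)
  refine ⟨rfl, finrank_eq_one_iff'.2 ⟨⟨u, hu⟩, by simpa, fun w => ?_⟩, ⟨u, hu, h4⟩,
    fun u hu => h3 _ (hUx u hu) _ hu (OG.map_Q g u)⟩
  obtain ⟨t, ht⟩ := isSquare_of_charTwo' (Q w / Q u)
  exact ⟨t, Subtype.ext (h3 _ (U.smul_mem t hu) _ w.2 (by
    rw [quad_smul, pow_two, ← ht, div_mul_cancel₀ _ h4]))⟩

end Cfsg.Agent.S2599
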