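import Cfsg.Statements.S2602
import Cfsg.Agent.AutCl.PSLOut

set_option autoImplicit false
open Cfsg

namespace Cfsg.Agent.S2602

/-- Structure of the outer automorphism group of PSL_2(q), q = p^f ≥ 4: it has a normal cyclic subgroup of order gcd(2, q − 1) (diagonal automorphisms) with cyclic quotient of order f (field automorphisms); there is no graph automorphism in dimension 2. -/
theorem result {F : Type*} [Field F] [Fintype F] {p f : ℕ} [Fact p.Prime] (hf : 1 ≤ f) (hF : Fintype.card F = p ^ f) (h4 : 4 ≤ p ^ f) : ∃ φ : Cfsg.Out (Matrix.ProjectiveSpecialLinearGroup (Fin 2) F) →* Multiplicative (ZMod f), Function.Surjective φ ∧ IsCyclic φ.ker ∧ Nat.card φ.ker = Nat.gcd 2 (p ^ f - 1) := by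
  open Cfsg.Agent.AutCl in
  haveI := charP_of_card_eq hF
  obtain ⟨π, hs, hk, -⟩ := exists_autHom_two (F := F) (p := p)
  obtain ⟨φ, hφ, hker⟩ := exists_outHom π hs hk
  obtain ⟨e'⟩ := nonempty_ringAut_equiv hF
  have hk' : (e'.toMonoidHom.comp φ).ker = φ.ker := by
    ext x; simp [MonoidHom.mem_ker]
  have h2 : 2 ≤ Fintype.card (Fin 2) := by simp
  refine ⟨e'.toMonoidHom.comp φ, e'.surjective.comp hφ, ?_, ?_⟩
  · rw [hk', hker]; exact isCyclic_range_outDiag (p := p) h2
  · rw [hk', hker, card_range_outDiag (p := p) h2, Fintype.card_fin, hF]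

end Cfsg.Agent.S2602
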