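import Cfsg.Statements.S2605
import Cfsg.Agent.AutCl.OutO

set_option autoImplicit false
open Cfsg

namespace Cfsg.Agent.S2605

/-- Outer automorphism group of PΩ⁻_2m(q), m ≥ 4, q = 2^f: cyclic of order 2f, generated by a semilinear map inducing the Frobenius automorphism of the field (its f-th power is a graph automorphism, an orthogonal transvection). -/
theorem result {F : Type*} [Field F] [Fintype F] {f m : ℕ} (hf : 1 ≤ f) (hF : Fintype.card F = 2 ^ f) (hm : 4 ≤ m) (a b : F) (hab : ∀ z₁ z₂ : F, z₁ ^ 2 + a * z₁ * z₂ + b * z₂ ^ 2 = 0 → z₁ = 0 ∧ z₂ = 0) : IsCyclic (Cfsg.Out (Cfsg.POmega F (Cfsg.quadFormMinus (m - 1) F a b))) ∧ Nat.card (Cfsg.Out (Cfsg.POmega F (Cfsg.quadFormMinus (m - 1) F a b))) = 2 * f := by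
  open Cfsg.Agent.AutCl Cfsg.Agent.Geom in
  have := charP_of_card_eq hF
  obtain ⟨k, rfl⟩ : ∃ k, m = k + 1 := ⟨m - 1, by omega⟩
  rw [Nat.add_sub_cancel, ← coe_quadMinus]
  obtain ⟨hQ, h7, hs⟩ := minus_surj (k := k) (by omega) hab
  obtain ⟨c, hc, -, w, hw, hcf⟩ := exists_frob_minus hF k hab
  have he : Even (Fintype.card ((Fin k ⊕ Fin k) ⊕ Fin 2)) := ⟨k + 1, by simp; omega⟩
  have ho := oMap_out hQ h7 hs
  have h1 := (ho.card_eq hQ h7).trans (card_out_even hQ h7 he (surj_of_frob _ 2 hc))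
  rw [if_pos ((two_eq_zero_iff F 2).2 rfl), card_ringAut hF] at h1
  haveI := Nat.finite_of_card_ne_zero (h1.trans_ne (by omega))
  exact ⟨isCyclic_of_orderOf_eq_card _
    ((orderOf_frob_refl hQ h7 ho (card_ringAut hF) he hc hw hcf).trans h1.symm), h1⟩

end Cfsg.Agent.S2605
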