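import Cfsg.Statements.S2606
import Cfsg.Agent.AutCl.OutO

set_option autoImplicit false
open Cfsg

namespace Cfsg.Agent.S2606

/-- Outer automorphism group of PΩ⁻_2m(q), m ≥ 4, q = p^f odd: it is dihedral of order 8 times cyclic of order f when q ≡ 3 (mod 4) and m is odd, and otherwise the direct product of a group of order 2 with a cyclic group of order 2f. -/
theorem result {F : Type*} [Field F] [Fintype F] {p f m : ℕ} [Fact p.Prime] (hf : 1 ≤ f) (hF : Fintype.card F = p ^ f) (hp : p ≠ 2) (hm : 4 ≤ m) (a b : F) (hab : ∀ z₁ z₂ : F, z₁ ^ 2 + a * z₁ * z₂ + b * z₂ ^ 2 = 0 → z₁ = 0 ∧ z₂ = 0) : if p ^ f % 4 = 3 ∧ Odd m then Nonempty (Cfsg.Out (Cfsg.POmega F (Cfsg.quadFormMinus (m - 1) F a b)) ≃* DihedralGroup 4 × Multiplicative (ZMod f)) else Nonempty (Cfsg.Out (Cfsg.POmega F (Cfsg.quadFormMinus (m - 1) F a b)) ≃* Multiplicative (ZMod 2 × ZMod (2 * f))) := by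
  open Cfsg.Agent.AutCl Cfsg.Agent.Geom in
  have := charP_of_card_eq hF
  obtain ⟨k, rfl⟩ : ∃ k, m = k + 1 := ⟨m - 1, by omega⟩
  rw [Nat.add_sub_cancel, ← coe_quadMinus]
  obtain ⟨hQ, h7, hs⟩ := minus_surj (k := k) (by omega) hab
  obtain ⟨c, hc, hc1, w, hw, hcf⟩ := exists_frob_minus hF k hab
  have ho := oMap_out hQ h7 hs
  have C := clO hQ h7
  have h2 := (two_eq_zero_iff F p).not.2 hp
  have hneg := negOne_mem_minus_iff hQ h2 (m := k) (by simp; omega) (quadMinus_wittIndex F k hab)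
  rw [hF, pow_mod_four_eq_three_iff] at hneg
  split_ifs with h
  · have hf' : Odd f := (pow_mod_four_eq_three_iff.1 h.1).2
    obtain ⟨j, hj⟩ := hf'
    refine out_B (p := p) hQ h7 ho (card_ringAut hF) ⟨k + 1, by simp; omega⟩ h2 (hneg.2 h)
      (φ := c ^ (f + 1)) (by rw [map_pow, hc, pow_succ, frob_pow_card hF, one_mul]) ?_ ?_
    · generalize f + 1 = i
      induction i with
      | zero => exact C.mult_one
      | succ i ih => rw [pow_succ, C.mult_mul, ih, C.mult_eq hc1, map_one, mul_one]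
    · rw [← pow_mul, mul_comm, pow_mul, hcf, ← map_pow, show f + 1 = 2 * (j + 1) by omega, pow_mul, sq,
        refl_mul_self, one_pow, map_one]
  · exact out_A (p := p) hQ h7 ho (card_ringAut hF) (m := k + 1) (by simp; omega) h2
      (hneg.not.2 h) hc (C.mult_eq hc1) hw hcf

end Cfsg.Agent.S2606
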