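import Cfsg.Statements.S2608
import Cfsg.Agent.ChAut.OutD4

set_option autoImplicit false
open Cfsg

namespace Cfsg.Agent.S2608

/-- Outer automorphism group of PΩ⁺_2m(q), q = p^f odd: for m = 4 it is S_4 × C_f (triality); for m ≥ 5 it is C_2 × C_2 × C_f when q ≡ 3 (mod 4) and m is odd, and D_8 × C_f otherwise. -/
theorem result {F : Type*} [Field F] [Fintype F] {p f m : ℕ} [Fact p.Prime] (hf : 1 ≤ f) (hF : Fintype.card F = p ^ f) (hp : p ≠ 2) (hm : 4 ≤ m) : if m = 4 then Nonempty (Cfsg.Out (Cfsg.POmega F (Cfsg.quadFormPlus m F)) ≃* Equiv.Perm (Fin 4) × Multiplicative (ZMod f)) else if p ^ f % 4 = 3 ∧ Odd m then Nonempty (Cfsg.Out (Cfsg.POmega F (Cfsg.quadFormPlus m F)) ≃* Multiplicative (ZMod 2 × ZMod 2 × ZMod f)) else Nonempty (Cfsg.Out (Cfsg.POmega F (Cfsg.quadFormPlus m F)) ≃* DihedralGroup 4 × Multiplicative (ZMod f)) := by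
  open Cfsg.Agent.AutCl Cfsg.Agent.ChAut Cfsg.Agent.Chev Cfsg.Lie Cfsg.Agent.Geom in
  have := charP_of_card_eq hF
  by_cases h : m = 4
  · rw [if_pos h]
    subst h
    obtain ⟨e⟩ := equivD4 F
    obtain ⟨e'⟩ := outD4_odd hF hp
    exact ⟨(outCongr e).symm.trans e'⟩
  rw [if_neg h, ← coe_quadPlus]
  have hQ := quadPlus_nondeg F m
  have h7 : 7 ≤ Fintype.card (Fin m ⊕ Fin m) := by simp; omega
  have C := clO hQ h7
  have ho := oMap_out hQ h7 (clO_surj hQ h7 (Or.inl (by simp; omega)))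
  have h2 := (two_eq_zero_iff F p).not.2 hp
  have hneg := negOne_mem_plus_iff hQ h2 (m := m) (by simp; omega) (quadPlus_wittIndex F m)
  have hodd : Odd ((p ^ f) ^ m) := ((Fact.out : p.Prime).odd_of_ne_two hp).pow.pow
  have hm1 : mult ((std_plus (F := F) m).phi p) = 1 := C.mult_eq (semi_ofQuad_iff.2 ⟨one_ne_zero,
    (mult_spec ((std_plus (F := F) m).phi p)).smul, fun x => by
      change _ = 1 * fld _ ((std_plus (F := F) m).phi p) _
      rw [Std.act_phi, Std.fld_phi, one_mul, quadPlus_apply, quadPlus_apply, map_sum]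
      simp [frob_apply, mul_pow]⟩)
  rw [hF] at hneg
  split_ifs with h3 <;> rw [← pow_mod_four_eq_three_iff] at h3
  · have hf' : Odd f := (pow_mod_four_eq_three_iff.1 (pow_mod_four_eq_three_iff.1 h3).1).2
    let w : Fin m ⊕ Fin m → F := Sum.elim (Pi.single ⟨0, by omega⟩ 1) (Pi.single ⟨0, by omega⟩ 1)
    have hw : quadPlus F m w ≠ 0 := by simp [w, quadPlus_apply, Pi.single_apply]
    have : Nonempty (Fin m ⊕ Fin m) := ⟨.inl ⟨0, by omega⟩⟩
    have hc : Commute ((std_plus (F := F) m).phi p) (ogHom _ (refl (quadPlus F m) w)) := by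
      rw [Commute, SemiconjBy, ← mul_inv_eq_iff_eq_mul, conj_ogHom_refl, Std.act_phi]
      congr 2
      funext i
      rcases i with i | i <;> simp [w, Pi.single_apply, (Fact.out : p.Prime).ne_zero]
    obtain ⟨e⟩ := out_A (p := p) hQ h7 ho (card_ringAut hF) (m := m) (by simp; omega) h2 (by rw [hneg]; omega)
      (c := (std_plus m).phi p * ogHom _ (refl _ w)) (by rw [map_mul, Std.fld_phi, fld_ogHom, mul_one])
      (by rw [C.mult_mul, hm1, mult_ogHom hQ h7, map_one, mul_one]) hw (by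
        obtain ⟨j, rfl⟩ := hf'
        rw [hc.mul_pow, Std.phi_pow _ hF, one_mul, pow_succ, pow_mul, ← map_pow, sq, Geom.refl_mul_self, map_one, one_pow,
          one_mul])
    exact ⟨e.trans (AddEquiv.toMultiplicative ((AddEquiv.refl _).prodCongr
      (ZMod.chineseRemainder (Nat.coprime_two_left.2 hf')).toAddEquiv))⟩
  · exact out_B (p := p) hQ h7 ho (card_ringAut hF) ⟨m, by simp⟩ h2
      (by rw [hneg]; have := Nat.odd_iff.1 hodd; omega) (Std.fld_phi _ p) hm1 (Std.phi_pow _ hF)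

end Cfsg.Agent.S2608
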