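import Cfsg.Statements.S2612
import Cfsg.Agent.Geom.OSum

set_option autoImplicit false
open Cfsg

namespace Cfsg.Agent.S2612

/-- For the hyperbolic quadratic form Σ x_i y_i on F^(2m) (F finite, m ≥ 1, excluding m = 2 over the field of two elements), Ω⁺_2m(F) (the commutator subgroup of the orthogonal group) contains an element interchanging the two complementary maximal totally singular subspaces {y = 0} and {x = 0} if and only if m is even (dimension divisible by 4). -/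
theorem result {F : Type*} [Field F] [Fintype F] {m : ℕ} (hm : 1 ≤ m) (h : Fintype.card F ≠ 2 ∨ m ≠ 2) : (∃ g : ↥(Cfsg.isometryGroup F (Cfsg.quadFormPlus m F)), g ∈ Cfsg.Omega F (Cfsg.quadFormPlus m F) ∧ (∀ v : Fin m ⊕ Fin m → F, (∀ i, v (Sum.inr i) = 0) → ∀ i, (((g : Matrix.GeneralLinearGroup (Fin m ⊕ Fin m) F) : Matrix (Fin m ⊕ Fin m) (Fin m ⊕ Fin m) F).mulVec v) (Sum.inl i) = 0) ∧ (∀ v : Fin m ⊕ Fin m → F, (∀ i, v (Sum.inl i) = 0) → ∀ i, (((g : Matrix.GeneralLinearGroup (Fin m ⊕ Fin m) F) : Matrix (Fin m ⊕ Fin m) (Fin m ⊕ Fin m) F).mulVec v) (Sum.inr i) = 0)) ↔ Even m := by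
  have hQ := Geom.quadPlus_nondeg F m
  have hx := Geom.notExc_plus F m h
  have hU := Geom.maxTS_stdU F m
  have hW := Geom.maxTS_stdW F m
  have key : ∀ g : Geom.OG (Geom.quadPlus F m), (∀ v ∈ Geom.stdU F m, g.1 v ∈ Geom.stdW F m) →
      (Geom.dick g = 1 ↔ Even m) := fun g hg => by
    have : (Geom.stdU F m).map (g.1 : _ →ₗ[F] _) = Geom.stdW F m :=
      Submodule.eq_of_le_of_finrank_eq (by rintro _ ⟨v, hv, rfl⟩; exact hg v hv)
        (by rw [(hU.map g).1, hW.1])
    rw [Geom.dick_eq_one_iff_even hQ hx (Geom.finrank_plus F m) hU, this, Geom.stdU_inf_stdW]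
    simp
  rw [← Geom.coe_quadPlus]
  constructor
  · rintro ⟨g, hg, h1, -⟩
    rw [Geom.mem_Omega_iff, Geom.mem_commutator_iff hQ hx] at hg
    exact (key _ fun v hv => Geom.mem_stdW.2 (h1 v (Geom.mem_stdU.1 hv))).1 hg.1
  · intro he
    let s : Geom.OG (Geom.quadPlus F m) := ⟨LinearEquiv.funCongrLeft F F (Equiv.sumComm _ _),
      Geom.Formed.mem_isom_ofQuad.2 fun v => by
        simp only [Geom.quadPlus_apply]; exact Finset.sum_congr rfl fun i _ => mul_comm _ _⟩
    have hs : Geom.dick s = 1 := (key s fun v hv => Geom.mem_stdW.2 (Geom.mem_stdU.1 hv)).2 he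
    obtain ⟨c, hc⟩ := Geom.exists_sqSign_eq_spin hQ s
    let t := Geom.leviHom F m (Geom.diagAt ⟨0, hm⟩ c)
    have ht : s * t ∈ commutator _ := by
      rw [Geom.mem_commutator_iff hQ hx, Geom.dick_mul hQ hx, Geom.spin_mul hQ hx, hs,
        Geom.dick_leviHom hx, Geom.spin_leviHom hx, ← Matrix.GeneralLinearGroup.val_det_apply,
        Geom.det_diagAt, hc]
      simp
    refine ⟨(Geom.isometryEquiv _).symm (s * t), by rwa [Geom.mem_Omega_iff, MulEquiv.apply_symm_apply],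
      fun v hv i => ?_, fun v hv i => ?_⟩ <;> rw [Geom.isometryEquiv_symm_mulVec]
    · exact Geom.mem_stdU.1 ((Geom.mem_stab.1 (Geom.leviHom_mem_stabU _) v).1 (Geom.mem_stdU.2 hv)) i
    · exact Geom.mem_stdW.1 ((Geom.mem_stab.1 (Geom.leviHom_mem_stabW _) v).1 (Geom.mem_stdW.2 hv)) i

end Cfsg.Agent.S2612
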