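import Cfsg.Statements.S2613
import Cfsg.Agent.Geom.OSum

set_option autoImplicit false
open Cfsg

namespace Cfsg.Agent.S2613

/-- For the hyperbolic form Σ x_j y_j on F^(2m), F finite with q elements, q odd, and 1 ≤ i ≤ m: the involution negating the first i hyperbolic pairs (x_j, y_j ↦ −x_j, −y_j for j < i) and fixing the rest lies in Ω⁺_2m(q) (commutator subgroup of the orthogonal group) if and only if q^i ≡ 1 (mod 4); its (−1)-eigenspace is a hyperbolic 2i-space. -/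
theorem result {F : Type*} [Field F] [Fintype F] {q : ℕ} (hF : Fintype.card F = q) (hq : Odd q) {m : ℕ} (i : ℕ) (hi : 1 ≤ i) (him : i ≤ m) : (∃ g : ↥(Cfsg.isometryGroup F (Cfsg.quadFormPlus m F)), g ∈ Cfsg.Omega F (Cfsg.quadFormPlus m F) ∧ ((g : Matrix.GeneralLinearGroup (Fin m ⊕ Fin m) F) : Matrix (Fin m ⊕ Fin m) (Fin m ⊕ Fin m) F) = Matrix.diagonal (fun k : Fin m ⊕ Fin m => if (Sum.elim (fun j : Fin m => (j : ℕ)) (fun j : Fin m => (j : ℕ)) k) < i then (-1 : F) else 1)) ↔ q ^ i % 4 = 1 := by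
  have h2 := Geom.two_ne_zero_of_odd_card (hF ▸ hq : Odd (Fintype.card F))
  have hs := Geom.quadPlus_isHyp F m
  rw [← Geom.coe_quadPlus, Geom.exists_Omega_diagonal_iff (Geom.quadPlus_nondeg F m) h2 _
    (fun j : Fin i => .inl (j.castLE him)) (fun j => .inr (j.castLE him))
    ⟨fun _ _ => hs.ee _ _, fun _ _ => hs.ff _ _, fun a b => by simpa using hs.ef (a.castLE him) (b.castLE him),
      fun _ => hs.Qe _, fun _ => hs.Qf _⟩, hF, Fintype.card_fin]
  · rintro (k | k) <;> simp [Fin.ext_iff] <;>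
      exact ⟨fun h => ⟨⟨k, h⟩, rfl⟩, fun ⟨a, h⟩ => h ▸ a.2⟩
  · intro v
    simp only [Geom.quadPlus_apply, Matrix.mulVec_diagonal, Sum.elim_inl, Sum.elim_inr]
    exact Finset.sum_congr rfl fun j _ => by by_cases h : (j : ℕ) < i <;> simp [h]

end Cfsg.Agent.S2613
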