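import Cfsg.Statements.S2614
import Cfsg.Agent.Geom.OSum

set_option autoImplicit false
open Cfsg

namespace Cfsg.Agent.S2614

/-- For the form x_0² + Σ x_j y_j on F^(2m+1), F finite with q elements, q odd, and 1 ≤ i ≤ m: the involution of determinant one negating the first i hyperbolic pairs (and fixing x_0 and the other pairs) lies in Ω_(2m+1)(q) (commutator subgroup of the orthogonal group) if and only if q^i ≡ 1 (mod 4); its (−1)-eigenspace is a hyperbolic 2i-space. -/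
theorem result {F : Type*} [Field F] [Fintype F] {q : ℕ} (hF : Fintype.card F = q) (hq : Odd q) {m : ℕ} (i : ℕ) (hi : 1 ≤ i) (him : i ≤ m) : (∃ g : ↥(Cfsg.isometryGroup F (Cfsg.quadFormOdd m F)), g ∈ Cfsg.Omega F (Cfsg.quadFormOdd m F) ∧ ((g : Matrix.GeneralLinearGroup (Unit ⊕ (Fin m ⊕ Fin m)) F) : Matrix (Unit ⊕ (Fin m ⊕ Fin m)) (Unit ⊕ (Fin m ⊕ Fin m)) F) = Matrix.diagonal (fun k : Unit ⊕ (Fin m ⊕ Fin m) => if (Sum.elim (fun _ : Unit => i) (Sum.elim (fun j : Fin m => (j : ℕ)) (fun j : Fin m => (j : ℕ))) k) < i then (-1 : F) else 1)) ↔ q ^ i % 4 = 1 := by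
  have h2 := Geom.two_ne_zero_of_odd_card (hF ▸ hq : Odd (Fintype.card F))
  have hs := Geom.quadOdd_isHyp F m
  rw [← Geom.coe_quadOdd, Geom.exists_Omega_diagonal_iff (Geom.quadOdd_nondeg F m h2) h2 _
    (fun j : Fin i => .inr (.inl (j.castLE him))) (fun j => .inr (.inr (j.castLE him)))
    ⟨fun _ _ => hs.ee _ _, fun _ _ => hs.ff _ _, fun a b => by simpa using hs.ef (a.castLE him) (b.castLE him),
      fun _ => hs.Qe _, fun _ => hs.Qf _⟩, hF, Fintype.card_fin]
  · rintro (k | k | k) <;> simp [Fin.ext_iff] <;>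
      exact ⟨fun h => ⟨⟨k, h⟩, rfl⟩, fun ⟨a, h⟩ => h ▸ a.2⟩
  · intro v
    simp only [Geom.quadOdd_apply, Matrix.mulVec_diagonal, Sum.elim_inl, Sum.elim_inr, lt_irrefl,
      if_false, one_mul, add_right_inj]
    exact Finset.sum_congr rfl fun j _ => by by_cases h : (j : ℕ) < i <;> simp [h]

end Cfsg.Agent.S2614
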