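import Cfsg.Statements.S2615
import Cfsg.Agent.Geom.OSum

set_option autoImplicit false
open Cfsg

namespace Cfsg.Agent.S2615

/-- For an elliptic form Σ_(j<m−1) x_j y_j + (z₁² + a z₁z₂ + b z₂²) (anisotropic binary part) on F^(2m), F finite with q elements, q odd, and 1 ≤ i ≤ m − 1: the involution negating the first i hyperbolic pairs and fixing the rest lies in Ω⁻_2m(q) (commutator subgroup of the orthogonal group) if and only if q^i ≡ 1 (mod 4). -/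
theorem result {F : Type*} [Field F] [Fintype F] {q : ℕ} (hF : Fintype.card F = q) (hq : Odd q) {m : ℕ} (a b : F) (hab : ∀ z₁ z₂ : F, z₁ ^ 2 + a * z₁ * z₂ + b * z₂ ^ 2 = 0 → z₁ = 0 ∧ z₂ = 0) (i : ℕ) (hi : 1 ≤ i) (him : i + 1 ≤ m) : (∃ g : ↥(Cfsg.isometryGroup F (Cfsg.quadFormMinus (m - 1) F a b)), g ∈ Cfsg.Omega F (Cfsg.quadFormMinus (m - 1) F a b) ∧ ((g : Matrix.GeneralLinearGroup ((Fin (m - 1) ⊕ Fin (m - 1)) ⊕ Fin 2) F) : Matrix ((Fin (m - 1) ⊕ Fin (m - 1)) ⊕ Fin 2) ((Fin (m - 1) ⊕ Fin (m - 1)) ⊕ Fin 2) F) = Matrix.diagonal (fun k : (Fin (m - 1) ⊕ Fin (m - 1)) ⊕ Fin 2 => if (Sum.elim (Sum.elim (fun j : Fin (m - 1) => (j : ℕ)) (fun j : Fin (m - 1) => (j : ℕ))) (fun _ : Fin 2 => i) k) < i then (-1 : F) else 1)) ↔ q ^ i % 4 = 1 := by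
  have h2 := Geom.two_ne_zero_of_odd_card (hF ▸ hq : Odd (Fintype.card F))
  have hs := Geom.quadMinus_isHyp F (m - 1) a b
  have him' : i ≤ m - 1 := by omega
  rw [← Geom.coe_quadMinus, Geom.exists_Omega_diagonal_iff
    (Geom.quadMinus_nondeg F (m - 1) (Geom.disc_ne_zero_of_anisotropic hab)) h2 _
    (fun j : Fin i => .inl (.inl (j.castLE him'))) (fun j => .inl (.inr (j.castLE him')))
    ⟨fun _ _ => hs.ee _ _, fun _ _ => hs.ff _ _, fun a b => by simpa using hs.ef (a.castLE him') (b.castLE him'),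
      fun _ => hs.Qe _, fun _ => hs.Qf _⟩, hF, Fintype.card_fin]
  · rintro ((k | k) | k) <;> simp [Fin.ext_iff] <;>
      exact ⟨fun h => ⟨⟨k, h⟩, rfl⟩, fun ⟨a, h⟩ => h ▸ a.2⟩
  · intro v
    simp only [Geom.quadMinus_apply, Matrix.mulVec_diagonal, Sum.elim_inl, Sum.elim_inr, lt_irrefl,
      if_false, one_mul, add_left_inj]
    exact Finset.sum_congr rfl fun j _ => by by_cases h : (j : ℕ) < i <;> simp [h]

end Cfsg.Agent.S2615
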