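import Cfsg.Statements.S2616
import Cfsg.Agent.Geom.Classify
import Cfsg.Agent.Geom.OBridge

set_option autoImplicit false
open Cfsg

namespace Cfsg.Agent.S2616

/-- Standard bases of a non-degenerate quadratic space of even dimension 2m over a finite field: either there is a hyperbolic basis e_i, f_i (Q(e_i) = Q(f_i) = 0, B(e_i, f_j) = δ_ij, the e's pairwise orthogonal and the f's pairwise orthogonal, B the polar form), or there is an elliptic basis: hyperbolic pairs e_i, f_i for i < m − 1 together with x, y orthogonal to them with Q(x) = 1, B(x, y) = 1, Q(y) = ζ where t² + t + ζ has no root in the field. -/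
theorem result {F V : Type*} [Field F] [Finite F] [AddCommGroup V] [Module F V] [FiniteDimensional F V] {m : ℕ} (hm : 1 ≤ m) (hV : Module.finrank F V = 2 * m) (Q : QuadraticForm F V) (hQ : (QuadraticMap.polarBilin Q).Nondegenerate) : (∃ b : Module.Basis (Fin m ⊕ Fin m) F V, (∀ i, Q (b (Sum.inl i)) = 0 ∧ Q (b (Sum.inr i)) = 0) ∧ (∀ i j, QuadraticMap.polar ⇑Q (b (Sum.inl i)) (b (Sum.inr j)) = if i = j then 1 else 0) ∧ (∀ i j, QuadraticMap.polar ⇑Q (b (Sum.inl i)) (b (Sum.inl j)) = 0 ∧ QuadraticMap.polar ⇑Q (b (Sum.inr i)) (b (Sum.inr j)) = 0)) ∨ (∃ (b : Module.Basis ((Fin (m - 1) ⊕ Fin (m - 1)) ⊕ Fin 2) F V) (ζ : F), (∀ t : F, t ^ 2 + t + ζ ≠ 0) ∧ (∀ i, Q (b (Sum.inl (Sum.inl i))) = 0 ∧ Q (b (Sum.inl (Sum.inr i))) = 0) ∧ (∀ i j, QuadraticMap.polar ⇑Q (b (Sum.inl (Sum.inl i))) (b (Sum.inl (Sum.inr j))) = if i = j then 1 else 0) ∧ (∀ i j, QuadraticMap.polar ⇑Q (b (Sum.inl (Sum.inl i))) (b (Sum.inl (Sum.inl j)))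 = 0 ∧ QuadraticMap.polar ⇑Q (b (Sum.inl (Sum.inr i))) (b (Sum.inl (Sum.inr j))) = 0) ∧ (∀ i (k : Fin 2), QuadraticMap.polar ⇑Q (b (Sum.inl (Sum.inl i))) (b (Sum.inr k)) = 0 ∧ QuadraticMap.polar ⇑Q (b (Sum.inl (Sum.inr i))) (b (Sum.inr k)) = 0) ∧ Q (b (Sum.inr 0)) = 1 ∧ QuadraticMap.polar ⇑Q (b (Sum.inr 0)) (b (Sum.inr 1)) = 1 ∧ Q (b (Sum.inr 1)) = ζ) := by
  have h := Geom.nondeg_of_polarBilin hQ
  obtain ⟨k, rfl⟩ : ∃ k, m = k + 1 := ⟨m - 1, by omega⟩
  rcases Geom.wittIndex_even h hV with hw | hw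
  · left
    obtain ⟨e, he⟩ := Geom.exists_isIso_plus h hV hw
    have hs := Geom.quadPlus_isHyp F (k + 1)
    have hB := he.symm.1
    have hq := he.symm.2
    simp only [Geom.ofQuad_B_apply, Geom.Formed.ofQuad_Q] at hB hq
    refine ⟨(Pi.basisFun F _).map e.symm, fun i => ?_, fun i j => ?_, fun i j => ?_⟩ <;>
      simp only [Module.Basis.map_apply, Pi.basisFun_apply, hB, hq]
    exacts [⟨hs.Qe i, hs.Qf i⟩, hs.ef i j, ⟨hs.ee i j, hs.ff i j⟩]
  · right
    obtain ⟨ζ, hζ⟩ := Geom.exists_irreducible_quad F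
    obtain ⟨e, he⟩ := Geom.exists_isIso_minus h (m := k) (by omega) hw (Geom.aniso_of_irreducible hζ)
    have hs := Geom.quadMinus_isHyp F k 1 ζ
    have hB := he.symm.1
    have hq := he.symm.2
    simp only [Geom.ofQuad_B_apply, Geom.Formed.ofQuad_Q] at hB hq
    refine ⟨(Pi.basisFun F _).map e.symm, ζ, hζ, fun i => ?_, fun i j => ?_, fun i j => ?_,
      fun i j => ?_, ?_, ?_, ?_⟩ <;>
      simp only [Module.Basis.map_apply, Pi.basisFun_apply, hB, hq]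
    · exact ⟨hs.Qe i, hs.Qf i⟩
    · exact hs.ef i j
    · exact ⟨hs.ee i j, hs.ff i j⟩
    · simp [Geom.polar_quadMinus, Pi.single_apply]
    · simp [Geom.quadMinus_apply, Pi.single_apply]
    · simp [Geom.polar_quadMinus, Pi.single_apply]
    · simp [Geom.quadMinus_apply, Pi.single_apply]

end Cfsg.Agent.S2616
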