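import Cfsg.Statements.S2617
import Cfsg.Agent.Geom.Classify

set_option autoImplicit false
open Cfsg

namespace Cfsg.Agent.S2617

/-- The two standard quadratic forms of even dimension 2m over a finite field are not isometric: there is no linear isomorphism carrying the elliptic form Σ_(i<m−1) x_i y_i + z₁² + z₁z₂ + ζ z₂² (t² + t + ζ without roots) to the hyperbolic form Σ_(i<m) x_i y_i (they have different Witt index). -/
theorem result {F : Type*} [Field F] [Finite F] {m : ℕ} (hm : 1 ≤ m) (ζ : F) (hζ : ∀ t : F, t ^ 2 + t + ζ ≠ 0) (g : (Fin m ⊕ Fin m → F) ≃ₗ[F] ((Fin (m - 1) ⊕ Fin (m - 1)) ⊕ Fin 2 → F)) : ¬ (∀ v : Fin m ⊕ Fin m → F, Cfsg.quadFormMinus (m - 1) F 1 ζ (g v) = Cfsg.quadFormPlus m F v) := by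
  intro hg
  rw [← Geom.coe_quadMinus, ← Geom.coe_quadPlus] at hg
  have h1 := (Geom.Formed.isIso_ofQuad hg).wittIndex (Geom.quadPlus_wittIndex F m)
  have := h1.unique (Geom.quadMinus_wittIndex F (m - 1) (Geom.aniso_of_irreducible hζ))
  omega

end Cfsg.Agent.S2617
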