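import Cfsg.Statements.S2618
import Cfsg.Agent.Geom.Classify
import Cfsg.Agent.Geom.OBridge

set_option autoImplicit false
open Cfsg

namespace Cfsg.Agent.S2618

/-- Standard (parabolic) basis of a non-degenerate quadratic space of odd dimension 2m + 1 over a finite field (the non-degeneracy of the polar form forces the characteristic to be odd): there is a basis e_i, f_i (i < m), x with Q(e_i) = Q(f_i) = 0, B(e_i, f_j) = δ_ij (B the polar form), the e's pairwise orthogonal and the f's pairwise orthogonal, x orthogonal to all of them and Q(x) ≠ 0. -/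
theorem result {F V : Type*} [Field F] [Finite F] [AddCommGroup V] [Module F V] [FiniteDimensional F V] {m : ℕ} (hV : Module.finrank F V = 2 * m + 1) (Q : QuadraticForm F V) (hQ : (QuadraticMap.polarBilin Q).Nondegenerate) : ∃ b : Module.Basis (Unit ⊕ (Fin m ⊕ Fin m)) F V, Q (b (Sum.inl ())) ≠ 0 ∧ (∀ i, QuadraticMap.polar ⇑Q (b (Sum.inl ())) (b (Sum.inr (Sum.inl i))) = 0 ∧ QuadraticMap.polar ⇑Q (b (Sum.inl ())) (b (Sum.inr (Sum.inr i))) = 0) ∧ (∀ i, Q (b (Sum.inr (Sum.inl i))) = 0 ∧ Q (b (Sum.inr (Sum.inr i))) = 0) ∧ (∀ i j, QuadraticMap.polar ⇑Q (b (Sum.inr (Sum.inl i))) (b (Sum.inr (Sum.inr j))) = if i = j then 1 else 0) ∧ (∀ i j, QuadraticMap.polar ⇑Q (b (Sum.inr (Sum.inl i))) (b (Sum.inr (Sum.inl j))) = 0 ∧ QuadraticMap.polar ⇑Q (b (Sum.inr (Sum.inr i))) (b (Sum.inr (Sum.inr j))) = 0) := by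
  have h := Geom.nondeg_of_polarBilin hQ
  obtain ⟨e, f, x, hef, hx, hp⟩ := Geom.exists_odd_basis h hV
  have hc := h.isCompl_perp hef.nondeg_span
  have hx0 : x ≠ 0 := by rintro rfl; simp at hx
  have hxp : x ∈ (Geom.Formed.ofQuad Q).perp _ := hp ▸ Submodule.mem_span_singleton_self x
  rw [Geom.Formed.mem_perp_span_elim] at hxp
  obtain ⟨b, hb⟩ := Geom.exists_basis_sum hc.symm (u := fun _ : Unit => x) (c := Sum.elim e f)
    (by simpa [linearIndependent_unique_iff] using hx0) (by rw [hp]; simp) hef.linearIndependent rfl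
  refine ⟨b, by simpa [hb] using hx, fun i => ?_, fun i => ?_, fun i j => ?_, fun i j => ?_⟩ <;>
    simp only [hb, Sum.elim_inl, Sum.elim_inr]
  · rw [QuadraticMap.polar_comm _ x, QuadraticMap.polar_comm _ x]
    exact ⟨hxp.1 i, hxp.2 i⟩
  exacts [⟨hef.Qe i, hef.Qf i⟩, hef.ef i j, ⟨hef.ee i j, hef.ff i j⟩]

end Cfsg.Agent.S2618
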