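import Cfsg.Statements.S2620
import Cfsg.Agent.Geom.OBridge

set_option autoImplicit false
open Cfsg

namespace Cfsg.Agent.S2620

theorem aux (k m : ℕ) : (2 * k + 1) ^ m % 4 = if Even (m * k) then 1 else 3 := by
  induction m with
  | zero => simp
  | succ m ih =>
    rw [pow_succ, Nat.mul_mod, ih, add_mul, one_mul]
    simp only [Nat.even_add, Nat.even_iff (n := k)]
    by_cases h : Even (m * k) <;> rcases Nat.mod_two_eq_zero_or_one k with hk | hk <;>
      simp [h, hk] <;> omega

/-- Discriminant of the hyperbolic quadratic form Σ_(i<m) x_i y_i over a field with q elements, q odd, m ≥ 1: the determinant of the Gram matrix of its polar form in any basis is a square if and only if m(q − 1)/2 is even (equivalently q^m ≡ 1 (mod 4)). -/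
theorem result {F : Type*} [Field F] [Fintype F] {q : ℕ} (hF : Fintype.card F = q) (hq : Odd q) {m : ℕ} (hm : 1 ≤ m) {ι : Type*} [Fintype ι] [DecidableEq ι] (b : Module.Basis ι F (Fin m ⊕ Fin m → F)) : IsSquare (Matrix.of (fun i j : ι => QuadraticMap.polar (Cfsg.quadFormPlus m F) (b i) (b j))).det ↔ Even (m * (q - 1) / 2) := by
  have h2 := Geom.two_ne_zero_of_odd_card (hF ▸ hq : Odd (Fintype.card F))
  have := Geom.isSquare_det_gram_plus (Geom.quadPlus_nondeg F m) h2 (by simp [two_mul])
    (Geom.quadPlus_wittIndex F m) b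
  rw [hF] at this
  rw [← Geom.coe_quadPlus]
  refine this.trans ?_
  obtain ⟨k, rfl⟩ := hq
  rw [show m * (2 * k + 1 - 1) / 2 = m * k by rw [Nat.add_sub_cancel, mul_left_comm]; simp,
    aux]
  split_ifs with h <;> simp [h]

end Cfsg.Agent.S2620
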