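import Cfsg.Statements.S2621
import Cfsg.Agent.Geom.OBridge

set_option autoImplicit false
open Cfsg

namespace Cfsg.Agent.S2621

theorem aux (k m : ℕ) : (2 * k + 1) ^ m % 4 = if Even (m * k) then 1 else 3 := by
  induction m with
  | zero => simp
  | succ m ih =>
    rw [pow_succ, Nat.mul_mod, ih, add_mul, one_mul]
    simp only [Nat.even_add, Nat.even_iff (n := k)]
    by_cases h : Even (m * k) <;> rcases Nat.mod_two_eq_zero_or_one k with hk | hk <;>
      simp [h, hk] <;> omega

/-- Discriminant of an elliptic quadratic form Σ_(i<m−1) x_i y_i + z₁² + a z₁z₂ + c z₂² (binary part anisotropic) in dimension 2m over a field with q elements, q odd, m ≥ 1: the determinant of the Gram matrix of its polar form in any basis is a square if and only if m(q − 1)/2 is odd (equivalently q^m ≡ 3 (mod 4)). -/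
theorem result {F : Type*} [Field F] [Fintype F] {q : ℕ} (hF : Fintype.card F = q) (hq : Odd q) {m : ℕ} (hm : 1 ≤ m) (a c : F) (hac : ∀ z₁ z₂ : F, z₁ ^ 2 + a * z₁ * z₂ + c * z₂ ^ 2 = 0 → z₁ = 0 ∧ z₂ = 0) {ι : Type*} [Fintype ι] [DecidableEq ι] (b : Module.Basis ι F ((Fin (m - 1) ⊕ Fin (m - 1)) ⊕ Fin 2 → F)) : IsSquare (Matrix.of (fun i j : ι => QuadraticMap.polar (Cfsg.quadFormMinus (m - 1) F a c) (b i) (b j))).det ↔ ¬ Even (m * (q - 1) / 2) := by
  have h2 := Geom.two_ne_zero_of_odd_card (hF ▸ hq : Odd (Fintype.card F))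
  obtain ⟨m, rfl⟩ : ∃ k, m = k + 1 := ⟨m - 1, by omega⟩
  have := Geom.isSquare_det_gram_minus (Geom.quadMinus_nondeg F m (Geom.disc_ne_zero_of_anisotropic hac)) h2 (by simp; ring)
    (Geom.quadMinus_wittIndex F m hac) b
  rw [hF] at this
  rw [← Geom.coe_quadMinus]
  refine this.trans ?_
  generalize m + 1 = m
  obtain ⟨k, rfl⟩ := hq
  rw [show m * (2 * k + 1 - 1) / 2 = m * k by rw [Nat.add_sub_cancel, mul_left_comm]; simp,
    aux]
  split_ifs with h <;> simp [h]

end Cfsg.Agent.S2621
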