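import Cfsg.Statements.S2623
import Cfsg.Agent.Geom.OBridge

set_option autoImplicit false
open Cfsg

namespace Cfsg.Agent.S2623

/-- Over a finite field of odd order, two quadratic forms on F^n with non-degenerate polar forms are isometric (related by an invertible linear change of variables) if and only if their discriminants (determinants of the Gram matrices of their polar forms) lie in the same square class. -/
theorem result {F : Type*} [Field F] [Fintype F] (h2 : (2 : F) ≠ 0) {n : ℕ} (Q₁ Q₂ : QuadraticForm F (Fin n → F)) (h₁ : (QuadraticMap.polarBilin Q₁).Nondegenerate) (h₂ : (QuadraticMap.polarBilin Q₂).Nondegenerate) : (∃ g : (Fin n → F) ≃ₗ[F] (Fin n → F), ∀ v, Q₂ (g v) = Q₁ v) ↔ IsSquare ((Matrix.of (fun i j : Fin n => QuadraticMap.polar ⇑Q₁ (Pi.single i 1) (Pi.single j 1))).det * (Matrix.of (fun i j : Fin n => QuadraticMap.polar ⇑Q₂ (Pi.single i 1) (Pi.single j 1))).det) := by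
  have h₁' := Geom.nondeg_of_polarBilin h₁
  have h₂' := Geom.nondeg_of_polarBilin h₂
  rw [← Geom.gram_basisFun, ← Geom.gram_basisFun]
  constructor
  · rintro ⟨g, hg⟩
    have he := Geom.Formed.isIso_ofQuad hg
    obtain ⟨u, hu, h⟩ := (Geom.Formed.ofQuad Q₂).det_gram_basis (Pi.basisFun F (Fin n))
      ((Pi.basisFun F (Fin n)).map g)
    have : (Geom.Formed.ofQuad Q₂).gram ((Pi.basisFun F (Fin n)).map g) =
        (Geom.Formed.ofQuad Q₁).gram (Pi.basisFun F (Fin n)) := by
      ext i j; simp only [Geom.Formed.gram_apply, Module.Basis.map_apply, he.1]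
    rw [← this, h]
    exact ⟨u * ((Geom.Formed.ofQuad Q₂).gram (Pi.basisFun F (Fin n))).det, by ring⟩
  · intro h
    obtain ⟨e, he⟩ := h₁'.exists_equiv_of_disc h₂' h2 rfl rfl rfl _ _ h
    refine ⟨e, fun v => mul_left_cancel₀ h2 ?_⟩
    rw [← Geom.polar_self', ← Geom.polar_self']
    exact he v v

end Cfsg.Agent.S2623
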