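import Cfsg.Statements.S2625
import Cfsg.Agent.Geom.Classify
import Cfsg.Agent.Geom.OBridge

set_option autoImplicit false
open Cfsg

namespace Cfsg.Agent.S2625

/-- For a quadratic form Q on F^n with non-degenerate polar form, F finite and n odd (so |F| is odd), the multiplier of any similarity is a square: if g is an invertible linear map with Q(g v) = c·Q(v) for all v then c is a square. -/
theorem result {F : Type*} [Field F] [Fintype F] {n : ℕ} (hn : Odd n) (Q : QuadraticForm F (Fin n → F)) (hQ : (QuadraticMap.polarBilin Q).Nondegenerate) (g : (Fin n → F) ≃ₗ[F] (Fin n → F)) (c : F) (hg : ∀ v, Q (g v) = c * Q v) : IsSquare c := by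
  have h := Geom.nondeg_of_polarBilin hQ
  by_cases hc : c = 0
  · rw [hc]; exact IsSquare.zero
  have he : (Geom.Formed.ofQuad (c • Q)).IsIso (Geom.Formed.ofQuad Q) g :=
    Geom.Formed.isIso_ofQuad (by simpa using hg)
  obtain ⟨u, hu, h1⟩ := (Geom.Formed.ofQuad Q).det_gram_basis (Pi.basisFun F (Fin n))
      ((Pi.basisFun F (Fin n)).map g)
  have : (Geom.Formed.ofQuad Q).gram ((Pi.basisFun F (Fin n)).map g) =
      c • (Geom.Formed.ofQuad Q).gram (Pi.basisFun F (Fin n)) := by
    ext i j
    simp only [Geom.Formed.gram_apply, Module.Basis.map_apply, he.1, Matrix.smul_apply,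
      Geom.ofQuad_B_apply, Geom.polar_smul_quad, smul_eq_mul]
  rw [this, Matrix.det_smul, Fintype.card_fin] at h1
  have hd := ((Geom.Formed.ofQuad Q).nondeg_iff_det_gram (Pi.basisFun F (Fin n))).1 h
  have h2 := mul_right_cancel₀ hd h1
  obtain ⟨k, rfl⟩ := hn
  rw [← Geom.isSquare_sq_mul_iff (pow_ne_zero k hc)]
  exact ⟨u, by rw [← sq, ← h2]; ring⟩

end Cfsg.Agent.S2625
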