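import Cfsg.Statements.S2634
import Cfsg.Agent.Geom.Family
import Cfsg.Agent.Geom.OBridge

set_option autoImplicit false
open Cfsg

namespace Cfsg.Agent.S2634

/-- Over a finite field of characteristic two, Ω (the commutator subgroup of the orthogonal group of a quadratic form Q on F^n with non-degenerate polar form; excluding dimension 4 over the field of two elements) acts transitively on the non-singular 1-spaces: for u, v with Q(u) ≠ 0 and Q(v) ≠ 0 some element of Ω carries the line through u to the line through v. -/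
theorem result {F : Type*} [Field F] [Fintype F] [CharP F 2] {n : ℕ} (h : Fintype.card F ≠ 2 ∨ n ≠ 4) (Q : QuadraticForm F (Fin n → F)) (hQ : (QuadraticMap.polarBilin Q).Nondegenerate) (u v : Fin n → F) (hu : Q u ≠ 0) (hv : Q v ≠ 0) : ∃ g : ↥(Cfsg.isometryGroup F ⇑Q), g ∈ Cfsg.Omega F ⇑Q ∧ (F ∙ ((g : Matrix.GeneralLinearGroup (Fin n) F) : Matrix (Fin n) (Fin n) F).mulVec u) = F ∙ v := by
  have hQ' := Geom.nondeg_of_polarBilin hQ
  have hx : Geom.NotExc Q := Geom.notExc_of_or (by simp) h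
  have h2 : (2 : F) = 0 := CharTwo.two_eq_zero
  obtain ⟨t, ht, hvu⟩ := Geom.exists_sq_mul_of_sqSign_eq hv hu (by
    rw [Geom.sqSign_of_two_eq_zero h2, Geom.sqSign_of_two_eq_zero h2])
  have hu0 : u ≠ 0 := by rintro rfl; simp at hu
  have hv0 : v ≠ 0 := by rintro rfl; simp at hv
  obtain ⟨g, hg, hgu⟩ := hQ'.witt_vec (smul_ne_zero ht hu0) hv0
    (by simp [Geom.ofQuad_B_apply, Geom.polar_self', h2]) (by simp [Geom.quad_smul, hvu])
  obtain ⟨x, hx1, hx2⟩ : ∃ x ∈ commutator (Geom.OG Q), x.1 (t • u) = v ∨ x.1 (t • u) = -v := by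
    by_cases hd : Geom.dick (Q := Q) ⟨g, hg⟩ = 1
    · exact ⟨_, (Geom.mem_commutator_iff_of_two hQ' hx h2 _).2 hd, .inl hgu⟩
    · refine ⟨Geom.refl Q v * ⟨g, hg⟩, (Geom.mem_commutator_iff_of_two hQ' hx h2 _).2 ?_, .inr ?_⟩
      · rw [Geom.dick_refl_mul hQ' hv, Int.units_ne_iff_eq_neg.1 hd, neg_neg]
      · rw [Geom.OG.mul_apply, hgu, Geom.refl_self hv]
  refine ⟨(Geom.isometryEquiv _).symm x, by rwa [Geom.mem_Omega_iff, MulEquiv.apply_symm_apply], ?_⟩
  rw [Geom.isometryEquiv_symm_mulVec, ← Submodule.span_singleton_smul_eq ht.isUnit, ← map_smul]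
  rcases hx2 with h | h <;> rw [h]
  rw [← neg_one_smul F v, Submodule.span_singleton_smul_eq (by simp)]

end Cfsg.Agent.S2634
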