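import Cfsg.Statements.S2635
import Cfsg.Agent.Geom.OBridge

set_option autoImplicit false
open Cfsg

namespace Cfsg.Agent.S2635

/-- Over a finite field of characteristic two, for a quadratic form Q on F^n with non-degenerate polar form, n ≥ 2, other than dimension 4 over the field of two elements, Ω (the commutator subgroup of the orthogonal group) is exactly the subgroup generated by the products of two reflections (orthogonal transvections) x ↦ x − Q(v)⁻¹ f(x, v) v, Q(v) ≠ 0: the products of an even number of reflections. -/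
theorem result {F : Type*} [Field F] [Fintype F] [CharP F 2] {n : ℕ} (hn : 2 ≤ n) (h : Fintype.card F ≠ 2 ∨ n ≠ 4) (Q : QuadraticForm F (Fin n → F)) (hQ : (QuadraticMap.polarBilin Q).Nondegenerate) : Cfsg.Omega F ⇑Q = Subgroup.closure {g : ↥(Cfsg.isometryGroup F ⇑Q) | ∃ u v : Fin n → F, Q u ≠ 0 ∧ Q v ≠ 0 ∧ ((g : Matrix.GeneralLinearGroup (Fin n) F) : Matrix (Fin n) (Fin n) F) = Cfsg.reflectionMatrix ⇑Q u * Cfsg.reflectionMatrix ⇑Q v} := by
  have hN := Geom.nondeg_of_polarBilin hQ
  have hx : Geom.NotExc Q := Geom.notExc_of_or (by simp) h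
  ext g
  rw [Geom.closure_comap_equiv (Geom.isometryEquiv Q) _
    {g | ∃ u v, Q u ≠ 0 ∧ Q v ≠ 0 ∧ g = Geom.refl Q u * Geom.refl Q v} (fun g => by
    simp only [Set.mem_setOf_eq, ← Geom.omat_refl, ← Geom.omat_mul, Geom.coe_eq_omat_iff]),
    Geom.mem_Omega_iff, Geom.mem_commutator_iff_of_two hN hx CharTwo.two_eq_zero]
  refine ⟨Geom.mem_of_dick_eq_one hN hx fun u v hu hv => by
      apply Subgroup.subset_closure; exact ⟨u, v, hu, hv, rfl⟩,
    fun hg => (Subgroup.closure_le (Geom.dickHom hN hx).ker).2 ?_ hg⟩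
  rintro _ ⟨u, v, hu, hv, rfl⟩
  simp [Geom.dick_refl_mul hN hu, Geom.dick_refl hN hv]

end Cfsg.Agent.S2635
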