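import Cfsg.Statements.S2636
import Cfsg.Agent.Classical.ScalFix
import Cfsg.Agent.Classical.Mono

set_option autoImplicit false
open Cfsg

namespace Cfsg.Agent.S2636

open Cfsg.Agent.Classical Cfsg.Agent.Geom Cfsg.Agent.AutCl Matrix

/-- Centraliser of a field automorphism in PGL_n: let F be the field with q = q₀^r elements, σ a field automorphism of F of prime order r (so its fixed field has q₀ elements) and n ≥ 1. The invertible matrices g whose entrywise image under σ is a scalar multiple of g — those whose coset modulo scalars is fixed by σ — number (q − 1)/(q₀ − 1) · |GL_n(q₀)|; equivalently the centraliser in PGL_n(q) of the induced automorphism has the order of PGL_n(q₀). -/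
theorem result {F : Type*} [Field F] [Fintype F] {q₀ r n : ℕ} (hr : r.Prime) (hn : 1 ≤ n) (hF : Fintype.card F = q₀ ^ r) (σ : F ≃+* F) (hσ : orderOf σ = r) : Nat.card {g : GL (Fin n) F // ∃ c : F, c ≠ 0 ∧ (g : Matrix (Fin n) (Fin n) F).map σ = c • (g : Matrix (Fin n) (Fin n) F)} = (q₀ ^ r - 1) / (q₀ - 1) * ∏ i : Fin n, (q₀ ^ n - q₀ ^ (i : ℕ)) := by
  have : Nonempty (Fin n) := ⟨⟨0, hn⟩⟩
  obtain ⟨K, hf, hK⟩ := exists_isFix_card σ
  rw [hσ, Nat.card_eq_fintype_card (α := F), hF] at hK
  have hK' := Nat.pow_left_injective hr.ne_zero hK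
  have h1 := card_scal_map (ι := Fin n) (f := K.subtype) ⊤ ⊤ fun _ _ => trivial
  rw [Subgroup.comap_top, Subgroup.card_top, Subgroup.card_top, Subgroup.card_top] at h1
  simp only [Subgroup.mem_top, true_and, Nat.card_units,
    ← map_eq_smul_iff hf, hK', card_GL_fin, Nat.card_eq_fintype_card (α := F), hF] at h1
  have h2 : 1 < q₀ := hK' ▸ Finite.one_lt_card
  obtain ⟨k, hk⟩ : q₀ - 1 ∣ q₀ ^ r - 1 := Nat.sub_one_dvd_pow_sub_one q₀ r
  rw [hk, Nat.mul_div_cancel_left _ (by omega)]
  rw [hk, mul_comm, mul_assoc] at h1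
  exact Nat.eq_of_mul_eq_mul_left (by omega) h1

end Cfsg.Agent.S2636
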