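import Cfsg.Statements.S2637
import Cfsg.Agent.Classical.ScalFix
import Cfsg.Agent.Classical.FieldRed
import Cfsg.Agent.Geom.Classify

set_option autoImplicit false
open Cfsg

namespace Cfsg.Agent.S2637

open Cfsg.Agent.Classical Cfsg.Agent.Geom Cfsg.Agent.Geom.Formed Module QuadraticAlgebra

theorem card_cent3 {F V : Type*} [Field F] [Fintype F] [AddCommGroup V] [Module F V]
    [FiniteDimensional F V] {q : ℕ} (hF : Fintype.card F = q) (hq : q % 3 = 2)
    {Φ : Formed (RingHom.id F) V} (hn : Φ.Nondeg) (hε : Φ.ε = -1) (hQ : ∀ v, Φ.Q v = 0) (x : Φ.isom)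
    (hx : ∀ v, x.1 (x.1 v) = -v - x.1 v) {m : ℕ} (hm : finrank F V = 2 * m) :
    Nat.card (Subgroup.centralizer ({x} : Set Φ.isom)) = q ^ (m * (m - 1) / 2) *
      ∏ i ∈ Finset.range m, (if Even i then q ^ (i + 1) + 1 else q ^ (i + 1) - 1) := by
  obtain ⟨k, hk⟩ : ∃ k, q = 3 * k + 2 := ⟨q / 3, by omega⟩
  have h3 : ∀ {R : Type _} [CommRing R] (r : R), r ^ 2 = -1 - r → r ^ q = -1 - r := fun r h => by
    rw [hk, pow_add, pow_mul, show r ^ 3 = 1 by linear_combination (r - 1) * h, one_pow, one_mul, h]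
  have : Fact (∀ r : F, r ^ 2 ≠ -1 + -1 * r) := ⟨fun r h => by
    have h1 := h3 r (by linear_combination h)
    rw [← hF, FiniteField.pow_card] at h1
    have h2 : (3 : F) = 0 := by linear_combination 4 * h - (2 * r + 1) * h1
    have h4 : ((q : ℕ) : F) = 0 := hF ▸ FiniteField.cast_card_eq_zero F
    rw [hk] at h4
    push_cast at h4
    exact one_ne_zero (α := F) (by linear_combination h2 - h4 + k * h2)⟩
  let K := QuadraticAlgebra F (-1) (-1)
  let _ : Fintype K := Fintype.ofEquiv _ (equivProd (-1 : F) (-1)).symm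
  have hK : Fintype.card K = q ^ 2 := by
    rw [Fintype.ofEquiv_card, Fintype.card_prod, hF, sq]
  have hσ : ∀ z : K, frobq hK z = ⟨z.re - z.im, -z.im⟩ := fun z => by
    have h1 : ∀ c : F, frobq hK (algebraMap F K c) = algebraMap F K c := fun c => by
      rw [frobq_apply, ← map_pow, ← hF, FiniteField.pow_card]
    conv_lhs => rw [← mk_eta z, mk_eq_add_smul_omega, Algebra.smul_def]
    rw [map_add, map_mul, h1, h1, frobq_apply, h3 omega (by ext <;> simp [sq])]
    ext <;> simp [K]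
    ring
  let φ : K →ₐ[F] End F V := lift ⟨x.1, by ext v; simp [hx, sub_eq_add_neg]⟩
  let _ : Module K V := Module.compHom V φ.toRingHom
  have hs : ∀ (z : K) (v : V), z • v = z.re • v + z.im • x.1 v := fun _ _ => rfl
  have : IsScalarTower F K V := ⟨fun c z v => by simp [K, hs, mul_smul]⟩
  have : FiniteDimensional K V := Module.Finite.of_restrictScalars_finite F K V
  have h5 : ∀ u v, Φ.B (x.1 u) v = -Φ.B u v - Φ.B u (x.1 v) := fun u v => by
    have := x.2.1 u (x.1 (x.1 v))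
    rw [hx (x.1 v), hx v] at this
    simp only [map_sub, map_neg] at this ⊢
    linear_combination this
  let B : V →ₛₗ[frobq hK] V →ₗ[K] K := LinearMap.mk₂'ₛₗ _ (RingHom.id K)
    (fun u v => ⟨Φ.B u (x.1 v) + Φ.B u v, Φ.B u v⟩) (fun _ _ _ => by ext <;> simp [K]; ring)
    (fun c u v => by ext <;> simp [K, hs, hσ, h5, hx] <;> ring) (fun _ _ _ => by ext <;> simp [K]; ring)
    (fun c u v => by ext <;> simp [K, hs, hx] <;> ring)
  have hB : ∀ u v, B u v = ⟨Φ.B u (x.1 v) + Φ.B u v, Φ.B u v⟩ := fun _ _ => rfl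
  let Ψ := ofHerm (frobq_ne_id hK) (frobq_frobq hK) B ⟨fun u v => by
    rw [hσ, hB, hB, Φ.symm (x.1 u) v, Φ.symm u v, hε, h5]
    ext <;> simp⟩
  have hΨ : Ψ.Nondeg := fun u h => hn u fun v => congrArg QuadraticAlgebra.im (h v)
  rw [← card_isom_herm hK hΨ rfl (n := m) (by
    have := Module.finrank_mul_finrank F K V
    rw [hm, finrank_eq_two] at this
    omega)]
  have h6 : ∀ g ∈ Ψ.isom, g.restrictScalars F ∈ Φ.isom := fun g hg =>
    ⟨fun u v => congrArg QuadraticAlgebra.im (hg.1 u v), fun u => by rw [hQ, hQ]⟩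
  refine (Nat.card_congr (Equiv.ofBijective ((resHom Ψ Φ h6).codRestrict _ fun g =>
    Subgroup.mem_centralizer_singleton_iff.2 (Subtype.ext (LinearEquiv.ext fun v => ?_)))
    ⟨fun a b h => resHom_injective Ψ Φ h6 (congrArg Subtype.val h), fun g => ?_⟩)).symm
  · have := g.1.map_smul (omega : K) v
    change g.1 (x.1 v) = x.1 (g.1 v)
    simpa [hs] using this
  · have h7 : ∀ v, g.1.1 (x.1 v) = x.1 (g.1.1 v) := fun v =>
      congrArg (·.1 v) (Subgroup.mem_centralizer_singleton_iff.1 g.2)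
    refine ⟨⟨{ g.1.1 with map_smul' := fun c v => by simp [hs, h7] }, fun u v => ?_, fun _ => rfl⟩, rfl⟩
    change B (g.1.1 u) (g.1.1 v) = B u v
    rw [hB, hB, ← h7, g.1.2.1, g.1.2.1]

/-- Centraliser of a fixed-point-free element of order three in Sp_2m(q) when q ≡ 2 (mod 3): if x ∈ Sp_2m(F) (|F| = q, m ≥ 1) satisfies x³ = 1 and x − 1 is invertible, then its centraliser in Sp_2m(F) has the order of the unitary group GU_m(q), namely q^(m(m−1)/2) Π_(i=1)^m (q^i − (−1)^i) (x lies in the centre of a subgroup GU_m(q) of Sp_2m(q)). -/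
theorem result {F : Type*} [Field F] [Fintype F] {q : ℕ} (hF : Fintype.card F = q) (hq : q % 3 = 2) {m : ℕ} (hm : 1 ≤ m) (x : Matrix.symplecticGroup (Fin m) F) (hx3 : x ^ 3 = 1) (hfpf : IsUnit ((x : Matrix (Fin m ⊕ Fin m) (Fin m ⊕ Fin m) F) - 1)) : (Nat.card ↥(Subgroup.centralizer ({x} : Set ↥(Matrix.symplecticGroup (Fin m) F))) : ℤ) = (q : ℤ) ^ (m * (m - 1) / 2) * ∏ i : Fin m, ((q : ℤ) ^ ((i : ℕ) + 1) - (-1) ^ ((i : ℕ) + 1)) := by
  have h1 : Nat.card (Subgroup.centralizer {x}) = Nat.card (Subgroup.centralizer {spEquiv m F x}) :=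
    Nat.card_congr ((spEquiv m F).toEquiv.subtypeEquiv fun g => by
      simp only [Subgroup.mem_centralizer_singleton_iff, MulEquiv.toEquiv_eq_coe, EquivLike.coe_coe,
        ← map_mul, EmbeddingLike.apply_eq_iff_eq])
  have h2 : x.1 * x.1 = -1 - x.1 := by
    have h3 : x.1 ^ 3 = 1 := congrArg Subtype.val hx3
    refine hfpf.mul_left_cancel ?_
    rw [← sub_eq_zero, ← sub_eq_zero.2 h3]
    noncomm_ring
  rw [h1, card_cent3 hF hq (sympFormed_nondeg m F) rfl (fun _ => rfl) _ (fun v => by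
    simp [h2, Matrix.sub_mulVec, Matrix.neg_mulVec]) (m := m) (by simp [two_mul]), Nat.cast_mul,
    cast_gu_prod (by omega)]
  simp

end Cfsg.Agent.S2637
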