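import Cfsg.Statements.S2638
import Cfsg.Agent.Classical.Eig7

set_option autoImplicit false
open Cfsg

namespace Cfsg.Agent.S2638

open Cfsg.Agent.Classical Cfsg.Agent.Elu Module Polynomial

/-- If an element x of GL_n(q), n ≥ 1, has prime order r and the multiplicative order of q modulo r is n (r is a primitive prime divisor of q^n − 1, so x acts irreducibly), then the centraliser of x in GL_n(q) is cyclic of order q^n − 1 (the multiplicative group of the field with q^n elements, a Singer cycle). -/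
theorem result {F : Type*} [Field F] [Fintype F] {p q : ℕ} [Fact p.Prime] [CharP F p] (hF : Fintype.card F = q) {n r : ℕ} (hn : 1 ≤ n) (hr : r.Prime) (hrp : r ≠ p) (hi : orderOf (q : ZMod r) = n) (x : GL (Fin n) F) (hx : orderOf x = r) : IsCyclic ↥(Subgroup.centralizer ({x} : Set (GL (Fin n) F))) ∧ Nat.card ↥(Subgroup.centralizer ({x} : Set (GL (Fin n) F))) = q ^ n - 1 := by
  have := Fact.mk hr
  have h0 : (r : F) ≠ 0 := cast_ne_zero_of_ne hrp
  have h1 : Matrix.toLin' x.1 ^ r = 1 := by
    rw [← Matrix.toLin'_pow, ← Units.val_pow_eq_pow_val, ← hx, pow_orderOf_eq_one, Units.val_one,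
      Matrix.toLin'_one]; rfl
  obtain ⟨k, D, h2, h3, h4⟩ := split_of_pow h0 h1
  rw [Nat.card_eq_fintype_card, hF, hi, finrank_fin_fun] at h4
  obtain ⟨g, rfl⟩ : ∃ g, D = {g} := Multiset.card_eq_one.1 (by
    by_contra h5
    rcases Nat.lt_or_gt_of_ne h5 with h5 | h5
    · obtain rfl : D = 0 := Multiset.card_eq_zero.1 (by omega)
      have h6 := eq_smul_one_of_forall (f := Matrix.toLin' x.1) (c := 1) fun a ha => by
        rw [h2, add_zero] at ha; exact Multiset.eq_of_mem_replicate ha
      rw [one_smul] at h6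
      obtain rfl : x = 1 := Units.ext (Matrix.toLin'.injective (h6.trans Matrix.toLin'_one.symm))
      exact hr.one_lt.ne (by simpa using hx)
    · nlinarith)
  obtain rfl : k = 0 := by simpa using h4
  obtain ⟨g1, g2, g3⟩ := h3 g (by simp)
  have g4 : g.natDegree = n := by
    rw [Cyc.natDegree h0 ⟨g1, g2, g3⟩, Nat.card_eq_fintype_card, hF, hi]
  have h5 : aeval x.1 g = 0 := aeval_mat_eq_zero_iff.2 (by simp [h2])
  have := Fact.mk g1
  let φ : AdjoinRoot g →+* Matrix (Fin n) (Fin n) F :=
    Ideal.Quotient.lift _ (aeval x.1).toRingHom fun a ha => by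
      obtain ⟨b, rfl⟩ := Ideal.mem_span_singleton.1 ha
      simp [h5]
  have hφ : ∀ a, φ (AdjoinRoot.mk g a) = aeval x.1 a := fun _ => rfl
  have : NeZero n := ⟨by omega⟩
  have h6 : ∀ a, φ a * x.1 = x.1 * φ a := fun a => by
    obtain ⟨a, rfl⟩ := AdjoinRoot.mk_surjective a
    have := congrArg (aeval x.1) (mul_comm a X)
    simpa [hφ] using this
  let v : Fin n → F := Pi.single 0 1
  have hv : v ≠ 0 := by simp [v]
  have h7 : cyc (Matrix.toLin' x.1) v = ⊤ := Submodule.eq_top_of_finrank_eq (by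
    rw [finrank_cyc g1 g2 (by rw [aeval_eq_zero_iff.2 (by simp [h2])]; rfl) hv, g4, finrank_fin_fun])
  let ψ : (AdjoinRoot g)ˣ →* Subgroup.centralizer ({x} : Set (GL (Fin n) F)) :=
    (Units.map φ.toMonoidHom).codRestrict _ fun a =>
      Subgroup.mem_centralizer_singleton_iff.2 (Units.ext (h6 a))
  have h8 : Function.Bijective ψ := by
    refine ⟨fun a b h => Units.ext (φ.injective (congrArg (·.1.1) h)), fun y => ?_⟩
    have h9 : Commute (Matrix.toLin' y.1.1) (Matrix.toLin' x.1) := by
      simp only [Commute, SemiconjBy, End.mul_eq_comp, ← Matrix.toLin'_mul]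
      exact congrArg (Matrix.toLin' ·.1) (Subgroup.mem_centralizer_singleton_iff.1 y.2)
    have h10 : ∀ a : F[X], Commute (Matrix.toLin' y.1.1) (aeval (Matrix.toLin' x.1) a) := fun a => by
      rw [aeval_eq_sum_range]
      exact Commute.sum_right _ _ _ fun i _ => (h9.pow_right i).smul_right _
    obtain ⟨a, ha⟩ := mem_cyc.1 (h7 ▸ Submodule.mem_top (x := Matrix.toLin' y.1.1 v))
    have h11 : aeval x.1 a = y.1.1 := Matrix.toLin'.injective (LinearMap.ext fun w => by
      obtain ⟨b, rfl⟩ := mem_cyc.1 (h7 ▸ Submodule.mem_top (x := w))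
      rw [← End.mul_apply (Matrix.toLin' y.1.1), (h10 b).eq, End.mul_apply, ← ha, aeval_comm_apply,
        ← aeval_toLin'])
    refine ⟨Units.mk0 (AdjoinRoot.mk g a) fun h => y.1.ne_zero ?_, Subtype.ext (Units.ext h11)⟩
    rw [← h11, ← hφ, h, map_zero]
  have := (AdjoinRoot.powerBasis g1.ne_zero).finite
  have := Module.finite_of_finite F (M := AdjoinRoot g)
  refine ⟨isCyclic_of_surjective ψ h8.2, ?_⟩
  rw [← Nat.card_eq_of_bijective _ h8, Nat.card_units, Module.natCard_eq_pow_finrank (K := F),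
    (AdjoinRoot.powerBasis g1.ne_zero).finrank, Nat.card_eq_fintype_card, hF,
    AdjoinRoot.powerBasis_dim, g4]

end Cfsg.Agent.S2638
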