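import Cfsg.Statements.S2639
import Cfsg.Agent.Classical.FieldRed

set_option autoImplicit false
open Cfsg

namespace Cfsg.Agent.S2639

open Cfsg.Agent.Classical Cfsg.Agent.Geom Cfsg.Agent.Geom.Formed Module

/-- The unitary group embeds in the symplectic group of twice the dimension over the subfield: for a field K with q² elements and a field F with q elements (isomorphic to the subfield of K of order q), there is an injective homomorphism GU_m(q) → Sp_2m(F). -/
theorem result {K F : Type*} [Field K] [Fintype K] [Field F] [Fintype F] {q : ℕ} (hK : Fintype.card K = q ^ 2) (hF : Fintype.card F = q) (m : ℕ) : ∃ φ : ↥(Cfsg.GU m K q) →* ↥(Matrix.symplecticGroup (Fin m) F), Function.Injective φ := by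
  obtain ⟨_, h2, hf⟩ := exists_algebra_sq hK hF
  obtain ⟨L, hL, hL'⟩ := Submodule.exists_dual_map_eq_bot_of_lt_top
    (p := LinearMap.range (Algebra.linearMap F K)) (lt_top_iff_ne_top.2 fun h => frobq_ne_id hK
      (RingHom.ext fun x => (hf x).1 (show x ∈ LinearMap.range (Algebra.linearMap F K) from h ▸ trivial)))
    inferInstance
  obtain ⟨φ, hφ⟩ := exists_hom_sp (hermFormed_nondeg hK m) (fun c => (hf _).1 ⟨c, rfl⟩) hL (m := m)
    (fun v => by
      have : (hermFormed hK m).B v v ∈ LinearMap.range (Algebra.linearMap F K) :=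
        (hf _).2 (hermForm_pow hK m v v)
      exact (Submodule.eq_bot_iff _).1 hL' _ ⟨_, this, rfl⟩)
    (by rw [← Module.finrank_mul_finrank F K, h2]; simp)
  exact ⟨φ.comp (guEquiv hK m).toMonoidHom, hφ.comp (guEquiv hK m).injective⟩

end Cfsg.Agent.S2639
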