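import Cfsg.Statements.S2641
import Cfsg.Agent.Classical.FieldRed

set_option autoImplicit false
open Cfsg

namespace Cfsg.Agent.S2641

open Cfsg.Agent.Classical Cfsg.Agent.Geom Cfsg.Agent.Geom.Formed Module

/-- For m odd, the unitary group GU_m(q) (over the field with q² elements) embeds in the orthogonal group O⁻_2m(q) of an elliptic form (Σ_(i<m−1) x_i y_i plus an anisotropic binary form) over the field with q elements (there is an injective homomorphism). -/
theorem result {K F : Type*} [Field K] [Fintype K] [Field F] [Fintype F] {q : ℕ} (hK : Fintype.card K = q ^ 2) (hF : Fintype.card F = q) (m : ℕ) (hm : Odd m) (a b : F) (hab : ∀ z₁ z₂ : F, z₁ ^ 2 + a * z₁ * z₂ + b * z₂ ^ 2 = 0 → z₁ = 0 ∧ z₂ = 0) : ∃ φ : ↥(Cfsg.GU m K q) →* ↥(Cfsg.isometryGroup F (Cfsg.quadFormMinus (m - 1) F a b)), Function.Injective φ := by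
  obtain ⟨_, h2, hf⟩ := exists_algebra_sq hK hF
  obtain ⟨Q, hQ, -, hn, hw⟩ := exists_quad_of_herm (hermFormed_nondeg hK m) hf (frobq_ne_id hK) rfl
  obtain ⟨k, hk⟩ := (hermFormed_nondeg hK m).exists_wittIndex
  have hd : finrank F (Fin m → K) = 2 * m := by rw [← Module.finrank_mul_finrank F K, h2]; simp
  have h3 := hw k hk
  have h4 := finrank_le_of_wittIndex hn h3
  have h5 := h3.two_mul_le hn
  rw [h2] at h3 h4 h5
  obtain ⟨l, hl⟩ := hm
  obtain ⟨e, he⟩ := exists_isIso_minus hn (m := m - 1) (by omega) (by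
    rwa [show 2 * k = m - 1 by omega] at h3) hab
  rw [← coe_quadMinus]
  have h6 : ∀ g ∈ (hermFormed hK m).isom, g.restrictScalars F ∈ (ofQuad Q).isom :=
    fun g hg => mem_isom_ofQuad.2 fun x => (algebraMap F K).injective (by
      rw [hQ, hQ]; exact hg.1 x x)
  exact ⟨(he.isomCongr.trans (isometryEquiv _).symm).toMonoidHom.comp ((resHom _ _ h6).comp
    (guEquiv hK m).toMonoidHom), (he.isomCongr.trans (isometryEquiv _).symm).injective.comp
      ((resHom_injective _ _ h6).comp (guEquiv hK m).injective)⟩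

end Cfsg.Agent.S2641
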