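import Cfsg.Statements.S2642
import Cfsg.Agent.Classical.UnipAlt
import Cfsg.Agent.S2570

set_option autoImplicit false
open Cfsg

namespace Cfsg.Agent.S2642

open Cfsg.Agent.Classical Cfsg.Agent.Classical.Eig Cfsg.Agent.Elu Cfsg.Agent.Geom Module Polynomial

/-- Number of conjugacy classes of elements of order p in the general unitary group GU_n(q), q a power of p: every unipotent Jordan type occurs and the classes correspond to the partitions of n with all parts at most p other than the all-ones partition, exactly as in GL_n; so there are (number of partitions of n with parts ≤ p) − 1 classes. -/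
theorem result {K : Type*} [Field K] [Fintype K] {p q n : ℕ} [Fact p.Prime] [CharP K p] (hK : Fintype.card K = q ^ 2) : Nat.card {C : ConjClasses ↥(Cfsg.GU n K q) // ∃ g : ↥(Cfsg.GU n K q), ConjClasses.mk g = C ∧ orderOf g = p} = (Finset.univ.filter (fun μ : Nat.Partition n => ∀ a ∈ μ.parts, a ≤ p)).card - 1 := by
  have hp : p.Prime := Fact.out
  rw [card_classes_prime hp, ← S2570.result (F := K) n, card_classes_prime hp]
  congr 1
  simp only [GL_pow_eq_one_iff]
  rw [card_classes_GL (isCoprime_X_pow_sub_one hp.ne_zero)]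
  refine card_classes_of_inv (fun g : GU n K q => g ^ p = 1) (fun g => elemDiv (Matrix.toLin' g.1.1)) _
    (fun g h _ _ => (isConj_GU_iff hK).trans isConj_iff_elemDiv) fun D => ⟨fun ⟨h1, h2⟩ => ?_, ?_⟩
  · obtain ⟨A, hA⟩ := exists_mat_elemDiv_eq (fun a ha => (h1 a ha).1) h2
    have h3 : Matrix.toLin' A ^ p = 1 := (aeval_X_pow_sub_one _ p).1
      (aeval_eq_zero_iff.2 fun a ha => (h1 a (hA ▸ ha)).2)
    obtain ⟨μ, h4, h5, h6⟩ := exists_jordan (pow_char_iff.1 h3)
    obtain ⟨f, h7, h8⟩ := Spu.real_unip (Φ := hermFormed hK n) (fun h => absurd h (frobq_ne_id hK)) _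
      (.inr ⟨frobq_ne_id hK, rfl⟩) (hermFormed_nondeg hK n) rfl h5 (fun a ha => (h4 a ha).1)
      fun a ha => absurd ha.1 (frobq_ne_id hK)
    obtain ⟨g, rfl⟩ := h7.exists_isom (hermFormed_nondeg hK n)
    obtain ⟨g, rfl⟩ := (guEquiv hK n).surjective g
    rw [coe_guEquiv, coe_glEquiv] at h8
    have h9 : elemDiv (Matrix.toLin' g.1.1) = D := h8.trans (h6.symm.trans hA)
    exact ⟨g, Subtype.ext ((GL_pow_eq_one_iff _ _).2
      (aeval_mat_eq_zero_iff.2 fun a ha => (h1 a (h9 ▸ ha)).2)), h9⟩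
  · rintro ⟨g, hg, rfl⟩
    exact ⟨fun a ha => ⟨isPP_of_mem ha, aeval_mat_eq_zero_iff.1
      ((GL_pow_eq_one_iff g.1 p).1 (congrArg Subtype.val hg)) a ha⟩, sum_natDegree_elemDiv_mat _⟩

end Cfsg.Agent.S2642
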