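import Cfsg.Statements.S2643
import Cfsg.Agent.Classical.Eig7

set_option autoImplicit false
open Cfsg

namespace Cfsg.Agent.S2643

open Cfsg.Agent.Classical Cfsg.Agent.Classical.Eig Cfsg.Agent.Elu Cfsg.Agent.Geom Module Polynomial Matrix Subgroup

/-- Regular unipotent classes of SU_n(q), n ≥ 2: the elements u of the special unitary group (isometries of Σ u_i v_i^q of determinant one over the field with q² elements) with (u − 1)^n = 0 and rank(u − 1) = n − 1 form exactly gcd(n, q + 1) conjugacy classes of SU_n(q). -/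
theorem result {K : Type*} [Field K] [Fintype K] {q n : ℕ} (hK : Fintype.card K = q ^ 2) (hn : 2 ≤ n) : Nat.card {C : ConjClasses ↥(Cfsg.SU n K q) // ∃ u : ↥(Cfsg.SU n K q), ConjClasses.mk u = C ∧ (((u : GL (Fin n) K) : Matrix (Fin n) (Fin n) K) - 1) ^ n = 0 ∧ (((u : GL (Fin n) K) : Matrix (Fin n) (Fin n) K) - 1).rank = n - 1} = Nat.gcd n (q + 1) := by
  have : NeZero n := ⟨by omega⟩
  have := Fact.mk hK
  have hq := two_le_of_card_eq_sq hK
  have h0 : ∀ u : Matrix (Fin n) (Fin n) K, (u - 1) ^ n = 0 ∧ (u - 1).rank = n - 1 ↔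
      elemDiv (toLin' u) = {(X - C 1) ^ n} := fun u => by
    have h1 := kd_X_sub_C_add_rank u 1
    rw [one_smul, Fintype.card_fin] at h1
    constructor
    · rintro ⟨h2, h3⟩
      simpa using elemDiv_of_reg (u := toLin' u) (n := n) (by
        rw [toLin'_sub_one_pow, h2, map_zero]) (by omega)
    · intro h
      have h2 := (aeval_eq_zero_iff (f := toLin' u) (b := (X - C 1) ^ n)).2 (by simp [h])
      have := kd_unip_eq_card ((aeval_X_sub_one_pow _ _).symm.trans h2)
      rw [aeval_toLin'_eq_zero, aeval_X_sub_one_pow] at h2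
      rw [h, Multiset.card_singleton] at this
      exact ⟨h2, by omega⟩
  obtain ⟨A, hA, -⟩ : ∃ g : GU n K q, elemDiv (toLin' g.1.1) = {(X - C 1) ^ n} ∧ True := by
    obtain ⟨g, hg⟩ := exists_GU_hasF hK (n := n) (A := {(1, n)}) (by simp; omega) (by simp)
    exact ⟨g, by simpa [ex, Cj.refl, blk] using hg.2, trivial⟩
  obtain ⟨h1, h2⟩ := (h0 _).2 hA
  have h3 : (toLin' A.1.1 - 1) ^ n = 0 := by
    rw [toLin'_sub_one_pow, h1, map_zero]
  have h4 : A.1.1.det = 1 := by
    rw [← LinearMap.det_toLin', det_of_isNilpotent_sub (a := 1) ⟨n, by rwa [one_smul]⟩, one_pow]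
  have h5 := range_guDet (F := K) (q := q) (n := n) (by omega)
  rw [card_classes_ker (guDet n K q).rangeRestrict (MonoidHom.rangeRestrict_surjective _) _
    suToGU_injective (range_suToGU.trans (MonoidHom.ker_rangeRestrict _).symm) ⟨⟨A.1.1, h4⟩, A.2⟩ _
    fun y => by rw [h0, isConj_GU_iff hK, isConj_iff_elemDiv, ← hA, eq_comm]; rfl]
  have h6 : Nat.card (guDet n K q).range = q + 1 := by
    rw [h5, card_rootsOfUnity_eq_gcd, Nat.card_eq_fintype_card, hK,
      Nat.gcd_eq_left ⟨q - 1, by simpa using Nat.sq_sub_sq q 1⟩]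
  rw [← h6, Nat.gcd_comm, ← IsCyclic.index_powMonoidHom_range]
  congr 1
  ext c
  constructor
  · rintro ⟨g, hg, rfl⟩
    have h7 : Commute (toLin' g.1.1) (toLin' A.1.1 - 1) := Commute.sub_right (by
      simp only [Commute, SemiconjBy, Module.End.mul_eq_comp, ← toLin'_mul]
      exact congrArg (toLin' ·.1.1) (mem_centralizer_singleton_iff.1 hg)) (Commute.one_right _)
    have h8 := (kd_unip_eq_card h3).trans (congrArg _ hA)
    rw [← pow_one (X - C 1), kd, aeval_X_sub_one_pow, pow_one, Multiset.card_singleton,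
      finrank_eq_one_iff'] at h8
    generalize toLin' A.1.1 - 1 = N at h3 h7 h8
    obtain ⟨v, hv, h8⟩ := h8
    obtain ⟨a, ha⟩ := h8 ⟨toLin' g.1.1 v, by
      rw [LinearMap.mem_ker, ← End.mul_apply, ← h7.eq, End.mul_apply, v.2, map_zero]⟩
    have h9 : ∀ (k : ℕ) x, (N ^ k) x = 0 → ((toLin' g.1.1 - a • 1) ^ k) x = 0 := fun k => by
      induction k with
      | zero => simp
      | succ k ih =>
        intro x hx
        rw [pow_succ, End.mul_apply]
        refine ih _ ?_
        rw [← End.mul_apply, ← ((h7.sub_left ((Commute.one_left _).smul_left a)).pow_right k).eq,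
          End.mul_apply]
        obtain ⟨c, hc⟩ := h8 ⟨(N ^ k) x, by rwa [pow_succ'] at hx⟩
        rw [← show c • v.1 = (N ^ k) x from congrArg Subtype.val hc, map_smul, LinearMap.sub_apply,
          ← show a • v.1 = toLin' g.1.1 v from congrArg Subtype.val ha]
        simp
    have h10 : (toLin' g.1.1 - a • 1) ^ n = 0 := LinearMap.ext fun x => h9 n x (by simp [h3])
    have h11 := det_of_isNilpotent_sub ⟨n, h10⟩
    rw [LinearMap.det_toLin', finrank_fin_fun] at h11
    obtain ⟨p, _⟩ := CharP.exists K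
    have hp := Fact.mk (CharP.char_is_prime K p)
    have h12 : toLin' g.1.1 ^ p ^ n = a ^ p ^ n • 1 := by
      have : CharP (End K (Fin n → K)) p := charP_of_injective_algebraMap' K _
      rw [← sub_eq_zero, ← one_pow (M := End K _) (p ^ n), ← _root_.smul_pow,
        ← sub_pow_char_pow_of_commute _ _ ((Commute.one_right _).smul_right a)]
      exact pow_eq_zero_of_le (Nat.lt_pow_self hp.out.one_lt).le h10
    have h13 := Iso.norm_eq (hermFormed_nondeg hK n) (h12 ▸ (iso_coe.2 (guEquiv hK n g).2).pow _)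
    rw [map_pow, ← mul_pow, ← sub_eq_zero, ← one_pow (p ^ n), ← sub_pow_char_pow,
      pow_eq_zero_iff (pow_ne_zero _ hp.out.ne_zero), sub_eq_zero, frobq_apply, ← pow_succ] at h13
    exact ⟨⟨Units.mk0 a fun h => by simp [h] at h13, h5 ▸ (mem_rootsOfUnity' _ _).2 h13⟩,
      Subtype.ext (Units.ext h11.symm)⟩
  · rintro ⟨⟨a, ha⟩, rfl⟩
    refine ⟨guScalar a.1 ((mem_rootsOfUnity' _ _).1 (h5 ▸ ha)), mem_centralizer_singleton_iff.2
      ((mem_center_iff.1 ((mem_center_GU_iff hn).2 ⟨a.1, rfl⟩) _).symm), Subtype.ext (Units.ext ?_)⟩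
    exact (det_smul _ _).trans (by simp)

end Cfsg.Agent.S2643
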