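import Cfsg.Statements.S2646
import Cfsg.Agent.Classical.UCent
import Cfsg.Agent.S2581

set_option autoImplicit false
open Cfsg

namespace Cfsg.Agent.S2646

open Cfsg.Agent.Classical Cfsg.Agent.Classical.UCent Cfsg.Agent.Geom Cfsg.Agent.Geom.Formed Module Matrix

theorem card_comm {F ι : Type*} [Field F] [Fintype ι] [DecidableEq ι] (A : Matrix ι ι F) :
    Nat.card {g : GL ι F // g.1 * A = A * g.1} =
      Nat.card {g : End F (ι → F) // Commute g (toLin' A) ∧ IsUnit g} := by
  refine Nat.card_eq_of_bijective (fun g => ⟨toLin' g.1.1, (toLin'_mul _ _).symm.trans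
    ((congrArg toLin' g.2).trans (toLin'_mul _ _)), g.1.isUnit.map toLinAlgEquiv'⟩)
    ⟨fun a b h => Subtype.ext (Units.ext (toLin'.injective (congrArg Subtype.val h))), fun ⟨g, h1, h2⟩ => ?_⟩
  obtain ⟨g, rfl⟩ := toLin'.surjective g
  obtain ⟨g, rfl⟩ : IsUnit g := by simpa using h2.map toLinAlgEquiv'.symm
  exact ⟨⟨g, toLin'.injective ((toLin'_mul _ _).trans (h1.eq.trans (toLin'_mul _ _).symm))⟩, rfl⟩

/-- Order of the centraliser in the general unitary group GU_n(q) of a unipotent element of given Jordan type: if u ∈ GU_n(q) (isometries of Σ u_i v_i^q over the field with q² elements) is similar to the unipotent matrix with a_i Jordan blocks of size i (all sizes at least 1), then its centraliser in GU_n(q) has order q^γ · Π_i |GU_(a_i)(q)| with γ = 2 Σ_(i<j) i a_i a_j + Σ_i (i − 1) a_i², the same exponent as in GL_n(q), where |GU_a(q)| = q^(a(a−1)/2) Π_(k=1)^a (q^k − (−1)^k). -/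
theorem result {K : Type*} [Field K] [Fintype K] {q n t : ℕ} (hK : Fintype.card K = q ^ 2) (d : Fin t → ℕ) (hd : ∀ k, 1 ≤ d k) (e : ((k : Fin t) × Fin (d k)) ≃ Fin n) (u : ↥(Cfsg.GU n K q)) (hu : IsConj (Matrix.reindex e e (Cfsg.jordanTypeMatrix d K)) ((u : GL (Fin n) K) : Matrix (Fin n) (Fin n) K)) : (Nat.card ↥(Subgroup.centralizer ({u} : Set ↥(Cfsg.GU n K q))) : ℤ) = (q : ℤ) ^ (2 * (∑ i ∈ Finset.range (Finset.univ.sup d + 1), ∑ j ∈ Finset.range (Finset.univ.sup d + 1), if i < j then i * (Finset.univ.filter (fun k : Fin t => d k = i)).card * (Finset.univ.filter (fun k : Fin t => d k = j)).card else 0) + ∑ i ∈ Finset.range (Finset.univ.sup d + 1), (i - 1) * (Finset.univ.filter (fun k : Fin t => d k = i)).card ^ 2) * ∏ i ∈ Finset.range (Finset.univ.sup d + 1), ((q : ℤ) ^ ((Finset.univ.filter (fun k : Fin t => d k = i)).card * ((Finset.univ.filter (fun k : Fin t => d k = i)).card - 1) / 2) * ∏ j : Fin (Finset.univ.filter (fun k : Fin t => d k = i)).card, ((q : ℤ) ^ ((j : ℕ) + 1) - (-1)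 ^ ((j : ℕ) + 1))) := by
  have := Fact.mk hK
  have h0 := two_le_of_card_eq_sq hK
  obtain ⟨e', he'⟩ := isConj_iff_exists_equiv.1 hu
  let ψ := (LinearEquiv.funCongrLeft K K e.symm).trans e'
  have hψ : ((hermFormed hK n).comap ψ.toLinearMap).IsIso (hermFormed hK n) ψ := ⟨fun _ _ => rfl, fun _ => rfl⟩
  let φ := (guEquiv hK n).trans hψ.isomCongr.symm
  have h1 : Nat.card (Subgroup.centralizer {u}) = Nat.card (Subgroup.centralizer {φ u}) :=
    Nat.card_congr (φ.toEquiv.subtypeEquiv fun g => by
      simp only [Subgroup.mem_centralizer_singleton_iff, MulEquiv.toEquiv_eq_coe, EquivLike.coe_coe,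
        ← map_mul, EmbeddingLike.apply_eq_iff_eq])
  obtain ⟨m, h2, h3⟩ := card_cent_unip hK hd ((hermFormed_nondeg hK n).comap_equiv ψ) rfl (φ u)
    (LinearMap.ext fun v => ψ.symm_apply_eq.2 ((he' _).symm.trans (congrArg e' (by
      change (jord K d).submatrix e.symm e.symm *ᵥ (v ∘ e.symm) = (jord K d *ᵥ v) ∘ e.symm
      simp [submatrix_mulVec_equiv, Function.comp_def])))) (D := Finset.univ.sup d) fun k => Finset.le_sup (Finset.mem_univ k)
  have h4 : ∀ c, Nat.card {g : End K ({k // d k = c} → K) // IsUnit g} = Nat.card (GL {k // d k = c} K) :=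
    fun c => by simpa [show ∀ g : End K ({k // d k = c} → K), Commute g LinearMap.id from
      Commute.one_right] using (card_comm (1 : Matrix {k // d k = c} _ K)).symm
  have h5 : (Finset.univ.filter fun k => d k = 0).card = 0 := by simpa using fun k => Nat.ne_of_gt (hd k)
  have h6 := (S2581.result hK d hd).symm.trans ((card_comm _).trans h2)
  simp only [h4, fun c => card_GL_of_card (F := K) (Fintype.card_subtype fun k => d k = c),
    Nat.card_eq_fintype_card, hK] at h6
  rw [Finset.prod_range_succ', Finset.prod_range, Finset.prod_eq_one (s := Finset.univ (α := Fin (Finset.card _)))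
    fun j _ => absurd j.2 (by omega), mul_one, mul_comm, Nat.mul_right_inj (Finset.prod_ne_zero_iff.2 fun s _ =>
      Finset.prod_ne_zero_iff.2 fun j _ => (Nat.sub_pos_of_lt (Nat.pow_lt_pow_right (by nlinarith) j.2)).ne'),
    ← pow_mul, mul_comm, pow_mul, Nat.pow_left_inj two_ne_zero] at h6
  rw [h1, h3, ← h6, Finset.prod_range_succ', Finset.prod_range, h5, mul_comm]
  simp only [card_GU, Nat.cast_mul, Nat.cast_pow, Nat.cast_prod, Fintype.card_subtype]
  simp [← cast_gu_prod (q := q) (by omega)]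

end Cfsg.Agent.S2646
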