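import Cfsg.Statements.S2653
import Cfsg.Agent.AltRep.D

set_option autoImplicit false
open scoped MatrixGroups
open Cfsg

namespace Cfsg.Agent.S2653

open Cfsg.Agent.AltRep

/-- Alternating sections of finite linear groups. Let `F` be a finite field of characteristic `p` and `n` a natural number, and suppose some subgroup `H` of GL_n(F) has a normal subgroup `K` with `H ⧸ K` isomorphic to the alternating group of degree `r ≥ 9`. Then `n ≥ r - 2` when `p` divides `r`, and `n ≥ r - 1` otherwise (the smallest degree of a nontrivial projective representation of that alternating group in characteristic `p`). The same bound follows for every classical group with natural module of dimension `n` over `F`, since each is a section of a subgroup of GL_n(F). -/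
theorem result {F : Type*} [Field F] [Fintype F] (p : ℕ) [Fact p.Prime] [CharP F p]
    (n : ℕ) (r : ℕ) (H : Subgroup (GL (Fin n) F)) (K : Subgroup ↥H) [K.Normal]
    (h : Nonempty (↥H ⧸ K ≃* ↥(alternatingGroup (Fin r)))) (hr : 9 ≤ r) :
    r - 1 - (if p ∣ r then 1 else 0) ≤ n := by
  obtain ⟨e⟩ := h
  let π : ↥H →* Equiv.Perm (Fin r) := (alternatingGroup (Fin r)).subtype.comp (e.toMonoidHom.comp (QuotientGroup.mk' K))
  have hπ : π.range = alternatingGroup (Fin r) := by
    refine le_antisymm (by rintro _ ⟨g, rfl⟩; exact (e _).2) fun σ hσ => ?_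
    obtain ⟨x, hx⟩ := e.surjective ⟨σ, hσ⟩
    obtain ⟨g, rfl⟩ := QuotientGroup.mk'_surjective K x
    exact ⟨g, congrArg Subtype.val hx⟩
  let ρ : ↥H →* Module.End F (Fin n → F) :=
    (Matrix.toLinAlgEquiv' : Matrix (Fin n) (Fin n) F ≃ₐ[F] _).toMonoidHom.comp ((Units.coeHom _).comp H.subtype)
  have := sec_bound p hπ (by rwa [Fintype.card_fin]) ρ fun g hg => by
    apply Subtype.ext; apply Units.ext
    exact (Matrix.toLinAlgEquiv' : Matrix (Fin n) (Fin n) F ≃ₐ[F] _).injective (hg.trans (map_one _).symm)
  rwa [Fintype.card_fin, Module.finrank_fin_fun] at this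

end Cfsg.Agent.S2653
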