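import Cfsg.Statements.S2657
import Cfsg.Agent.AltSec.Tor
import Cfsg.Agent.ChAut.Fix
import Cfsg.Agent.Chev.PoinF4
import Cfsg.Agent.Chev.Zker
import Cfsg.Agent.Chev.AllC

set_option autoImplicit false
open scoped MatrixGroups
open Cfsg

namespace Cfsg.Agent.S2657

open Cfsg.Agent.Chev Cfsg.Lie

theorem annF4 : certF4.allW chevF4 (certF4.ann chevF4 [[-1, 0, 0, 0, 0, 0, 1], [1, 0, 0, 0, 0, 0, 1],
    [-1, 0, 0, 0, 0, 0, 0, 0, 1]]) chevF4.rank [] = true := by
  decide +kernel

/-- Alternating sections of the groups of type F₄. Let `F` be a finite field of characteristic `p` and let `G` be the Chevalley group of type F₄ over `F`. If some subgroup of `G` has a quotient isomorphic to the alternating group of degree `r`, then `r` is at most 10, or 11 in characteristic 11. (Only an upper bound is asserted.) -/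
theorem result {F : Type*} [Field F] [Fintype F] (p : ℕ) [Fact p.Prime] [CharP F p]
    (r : ℕ) (H : Subgroup ↥(Cfsg.Lie.chevF4.group F)) (K : Subgroup ↥H) [K.Normal]
    (h : Nonempty (↥H ⧸ K ≃* ↥(alternatingGroup (Fin r)))) :
    r ≤ 10 + (if p = 11 then 1 else 0) := by
  by_contra! hr
  have hs := h.some.surjective.comp (QuotientGroup.mk'_surjective K)
  let E := FiniteField.Extension F p 120
  let ι := (ChAut.emb chevF4 (algebraMap F E)).comp H.subtype
  have hι : Function.Injective ι := (ChAut.emb_injective _).comp Subtype.val_injective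
  have key (l : ℕ) (hl : l.Prime) (h1 : p ≠ l) (h2 : l.totient ∣ 120) (h3 : ¬ l ∣ 1152) :
      ¬ l ∣ (grS chevF4 E).H.relIndex ((grS chevF4 E).U Set.univ) := AltSec.not_dvd_relIndex (grCover _ _)
    (AltSec.exists_ext F p ((Nat.coprime_primes Fact.out hl).2 h1) 120 h2) (card_WGF4 ▸ h3)
  split_ifs at hr with hp
  · obtain ⟨M, ψ, hψ⟩ := AltSec.exists_alt (k := 12) hr (h.some.toMonoidHom.comp (QuotientGroup.mk' K)) hs
    have : Fact (Nat.Prime 5) := ⟨by decide⟩
    have : Fact (Nat.Prime 7) := ⟨by decide⟩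
    simp only [grS_U_univ, Subgroup.relIndex_top_right] at key
    obtain ⟨w, a, h1, h2⟩ := AltSec.exists_wt_two (grCover chevF4 E) (grS_mult _ _) (grS_U_univ _ _)
      ((grS_mult _ _).tor_injective (grCover _ _) (zkerF4_eq_bot _)) (l := 5) (l' := 7) (q := 17) (by decide)
      (key 5 (by decide) (by omega) (by decide) (by decide)) (key 7 (by decide) (by omega) (by decide) (by decide))
      (card_WGF4 ▸ by decide) (ι := ι.comp M.subtype) (hι.comp Subtype.val_injective) hψ
      (x := ⟨c[0, 1, 2, 3, 4], Equiv.Perm.mem_alternatingGroup.2 (by decide +kernel)⟩) (y := ⟨c[5, 6, 7, 8, 9, 10, 11], Equiv.Perm.mem_alternatingGroup.2 (by decide +kernel)⟩)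
      (n := ⟨c[1, 2, 4, 3] * c[6, 8, 7, 11, 9, 10], Equiv.Perm.mem_alternatingGroup.2 (by decide +kernel)⟩)
      (orderOf_eq_prime (by decide +kernel) (by decide +kernel)) (orderOf_eq_prime (by decide +kernel) (by decide +kernel))
      (by decide +kernel) (by decide +kernel) (by decide +kernel)
    obtain ⟨f, h3, h4⟩ := certF4_ok.pow_eq_one (fun _ => rfl) annF4 h1
    exact absurd ((Int.natCast_dvd_natCast.2 h2).trans h4) (by clear h4; revert f; decide +kernel)
  · obtain ⟨M, ψ, hψ⟩ := AltSec.exists_alt (k := 11) hr (h.some.toMonoidHom.comp (QuotientGroup.mk' K)) hs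
    have : Fact (Nat.Prime 11) := ⟨by decide⟩
    exact absurd (AltSec.modEq_of_sec (grCover chevF4 E) (grS_mult _ _) le_rfl (l := 11) (k := 1152) (q := 3)
      (key 11 (by decide) hp (by decide) (by decide)) (fun y hy w hw => card_WGF4 ▸ pow_card_eq_one')
      (ι := ι.comp M.subtype) (hι.comp Subtype.val_injective) (fun y => grS_U_univ chevF4 E ▸ Subgroup.mem_top _) hψ
      (x := ⟨finRotate 11, Equiv.Perm.mem_alternatingGroup.2 (by decide +kernel)⟩) (n := ⟨⟨(3 * ·), (4 * ·), by decide, by decide⟩, Equiv.Perm.mem_alternatingGroup.2 (by decide +kernel)⟩)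
      (orderOf_eq_prime (by decide +kernel) (by decide +kernel)) (by decide +kernel)) (by decide +kernel)

end Cfsg.Agent.S2657
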