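import Cfsg.Statements.S2658
import Cfsg.Agent.AltSec.D4
import Cfsg.Agent.Chev.Folding

set_option autoImplicit false
open scoped MatrixGroups
open Cfsg

namespace Cfsg.Agent.S2658

open Cfsg.Agent.Chev Cfsg.Lie


/-- Alternating sections of the groups of type G₂. Let `F` be a finite field of characteristic `p` and let `G` be the Chevalley group of type G₂ over `F`. If some subgroup of `G` has a quotient isomorphic to the alternating group of degree `r`, then `r` is at most 6, or 7 in characteristic 5. (Only an upper bound is asserted.) -/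
theorem result {F : Type*} [Field F] [Fintype F] (p : ℕ) [Fact p.Prime] [CharP F p]
    (r : ℕ) (H : Subgroup ↥(Cfsg.Lie.chevG2.group F)) (K : Subgroup ↥H) [K.Normal]
    (h : Nonempty (↥H ⧸ K ≃* ↥(alternatingGroup (Fin r)))) :
    r ≤ 6 + (if p = 5 then 1 else 0) := by
  obtain ⟨e, -⟩ := exists_foldG2 F
  let := Fintype.ofFinite F
  obtain ⟨a, -, ha⟩ := FiniteField.card F p
  exact AltSec.le_of_sec p (k := 12) (a := a) (φ := RingHom.id F) (by simp) (by simp) a.ne_zero
    (by rw [Nat.card_eq_fintype_card, ha, ← pow_mul _ 4]) (fun t => by rw [← ha, FiniteField.pow_card_pow]; rfl)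
    (ψ := h.some.toMonoidHom.comp ((QuotientGroup.mk' K).comp (e.subgroupMap H).symm.toMonoidHom))
    (h.some.surjective.comp ((QuotientGroup.mk'_surjective K).comp (e.subgroupMap H).symm.surjective))

end Cfsg.Agent.S2658
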