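import Cfsg.Statements.S2660
import Cfsg.Agent.AltSec.D4

set_option autoImplicit false
open scoped MatrixGroups
open Cfsg

namespace Cfsg.Agent.S2660

open Cfsg.Agent.Chev Cfsg.Lie


/-- Alternating sections of the triality-twisted groups ³D₄. Let `q = p^a` be a prime power and `K` a field with `q³` elements, and let `G` be the twisted group ³D₄(q) realised over `K`. If some subgroup of `G` has a quotient isomorphic to the alternating group of degree `r`, then `r` is at most 6, or 7 in characteristic 5. (Only an upper bound is asserted.) -/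
theorem result {K : Type*} [Field K] [Fintype K] (p a : ℕ) [Fact p.Prime] [CharP K p]
    (ha : 1 ≤ a) (hK : Fintype.card K = (p ^ a) ^ 3) (r : ℕ) (H : Subgroup ↥(Cfsg.Lie.twistedD4 K (p ^ a))) (N : Subgroup ↥H) [N.Normal]
    (h : Nonempty (↥H ⧸ N ≃* ↥(alternatingGroup (Fin r)))) :
    r ≤ 6 + (if p = 5 then 1 else 0) := by
  rw [← Nat.card_eq_fintype_card] at hK
  obtain ⟨φ, hφ, h2⟩ := exists_φD4 ((Fact.out : p.Prime).isPrimePow.pow (by omega)) hK
  exact AltSec.le_of_sec p (k := 4) (a := a) hφ h2 (by omega) (by rw [hK, pow_right_comm])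
    (fun t => by rw [pow_succ, pow_mul, ← hK, pow_natCard_eq, hφ])
    (ψ := h.some.toMonoidHom.comp (QuotientGroup.mk' N)) (h.some.surjective.comp (QuotientGroup.mk'_surjective N))

end Cfsg.Agent.S2660
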