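import Cfsg.Statements.S2661
import Cfsg.Agent.AltSec.Tor
import Cfsg.Agent.Chev.TwF4

set_option autoImplicit false
open scoped MatrixGroups
open Cfsg

namespace Cfsg.Agent.S2661

open Cfsg.Agent.Chev Cfsg.Lie


/-- Alternating sections of the large Ree groups ²F₄. Let `m ≥ 1`, let `K` be a field with `2^(2m+1)` elements and let `G` be the large Ree group ²F₄(2^(2m+1)) realised over `K`. If some subgroup of `G` has a quotient isomorphic to the alternating group of degree `r`, then `r ≤ 6`. (Only an upper bound is asserted.) -/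
theorem result {K : Type*} [Field K] [Fintype K] {m : ℕ} (hm : 1 ≤ m)
    (hK : Fintype.card K = 2 ^ (2 * m + 1)) (r : ℕ) (H : Subgroup ↥(Cfsg.Lie.twistedF4 K (2 ^ m))) (N : Subgroup ↥H) [N.Normal]
    (h : Nonempty (↥H ⧸ N ≃* ↥(alternatingGroup (Fin r)))) :
    r ≤ 6 := by
  by_contra! hr
  rw [← Nat.card_eq_fintype_card] at hK
  obtain ⟨hp, φ, hφ, h2⟩ := exists_sqrt_hom Nat.prime_two hK
  obtain ⟨M, ψ, hψ⟩ := AltSec.exists_alt (k := 7) hr (h.some.toMonoidHom.comp (QuotientGroup.mk' N))
    (h.some.surjective.comp (QuotientGroup.mk'_surjective N))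
  have hf := foldF4 hp hφ h2
  have : Fact (Nat.Prime 7) := ⟨by decide⟩
  have := AltSec.modEq_of_sec (Sys.adCover chevF4 K) (adS_mult _ _) hf.le (l := 7) (k := 16) (q := 2) (fun e => ?_)
    (fun y hy w hw => ?_) (ι := (Subgroup.subtype _).comp (H.subtype.comp M.subtype))
    (Subtype.val_injective.comp (Subtype.val_injective.comp Subtype.val_injective)) (fun y => y.1.1.2) hψ
    (x := ⟨finRotate 7, Equiv.Perm.mem_alternatingGroup.2 (by decide +kernel)⟩) (n := ⟨⟨(2 * ·), (4 * ·), by decide, by decide⟩, Equiv.Perm.mem_alternatingGroup.2 (by decide +kernel)⟩)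
    (orderOf_eq_prime (by decide +kernel) (by decide +kernel)) (by decide +kernel)
  · exact absurd this (by decide)
  · have h1 := (((adS chevF4 K).H ⊓ twistedF4 K (2 ^ m)).subgroupOf (twistedF4 K (2 ^ m))).index_mul_card
    rw [Nat.card_congr (Subgroup.subgroupOfEquivOfLe inf_le_right).toEquiv, card_twistedF4 hp hφ h2, card_HF4 hp hφ h2,
      mul_right_comm, mul_left_inj' (card_HF4 hp hφ h2 ▸ Nat.card_pos.ne'), Subgroup.inf_subgroupOf_right] at h1
    have h3 : Nat.card K % 7 = 1 ∨ Nat.card K % 7 = 2 ∨ Nat.card K % 7 = 4 := by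
      rw [hK]
      generalize 2 * m + 1 = n
      induction n with
      | zero => simp
      | succ n ih => omega
    have h4 := Nat.mod_eq_zero_of_dvd (e.trans (dvd_of_eq h1))
    generalize Nat.card K = k at h3 h4
    rcases h3 with h3 | h3 | h3 <;> simp [Nat.mul_mod, Nat.add_mod, Nat.pow_mod, h3] at h4
  · have h1 := pow_card_eq_one' (x := (⟨w, (hf.stable.exists_canon (Sys.adCover _ _) hy hw).1⟩ : symF4.W1))
    rw [Nat.card_congr weyl2F4.some.toEquiv, DihedralGroup.nat_card] at h1
    exact congrArg Subtype.val h1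

end Cfsg.Agent.S2661
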