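import Cfsg.Statements.S2665
import Cfsg.Agent.Chev.Lang
import Cfsg.Agent.Geom.OSum

set_option autoImplicit false
open scoped MatrixGroups
open Cfsg

namespace Cfsg.Agent.S2665

open Cfsg.Agent.Classical Cfsg.Agent.Chev.Lang Cfsg.Agent.Geom Matrix

/-- The Lang–Steinberg Theorem for the general linear group. Let `K` be an algebraically closed field of prime characteristic `p`, let `q = p^f` with `f ≥ 1`, and let `σ` be the endomorphism of GL_n(K) raising every matrix entry to the `q`-th power. Then every element `g` of GL_n(K) can be written `g = x · σ(x)⁻¹` for some `x` in GL_n(K): the map `x ↦ x σ(x)⁻¹` is surjective. -/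
theorem result {K : Type*} [Field K] [IsAlgClosed K] (p : ℕ) [Fact p.Prime] [CharP K p]
    (f : ℕ) (hf : 1 ≤ f) (n : ℕ) (g : GL (Fin n) K) :
    ∃ x : GL (Fin n) K, g = x * (Matrix.GeneralLinearGroup.map (iterateFrobenius K p f) x)⁻¹ := by
  classical
  have hq : 1 < p ^ f := Nat.one_lt_pow (by omega) (Fact.out : p.Prime).one_lt
  let σ := Matrix.GeneralLinearGroup.map (n := Fin n) (iterateFrobenius K p f)
  have hσ : ∀ (j : ℕ) (g : GL (Fin n) K) a b, (σ^[j] g) a b = g a b ^ (p ^ f) ^ j := by
    intro j
    induction j with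
    | zero => simp
    | succ j ih =>
      intro g a b
      rw [Function.iterate_succ_apply', pow_succ, pow_mul, ← ih]
      rfl
  let φ : (Fin n ⊕ {x : Fin n × Fin n × K // x.1 ≠ x.2.1}) → (Unit → Kˣ) → GL (Fin n) K :=
    Sum.elim (fun i t => diagAt i (t ())) fun x t =>
      SpecialLinearGroup.toGL (SpecialLinearGroup.transvection x.2 (x.1.2.2 * (t () - 1)))
  have hu : ∀ k : ℤ, (fun t : Unit → Kˣ => (t () : K) ^ k) ∈ Lau K Unit := mem_lau ()
  have h3 : ∀ i a b, (fun t => φ i t a b) ∈ Lau K Unit ∧ (fun t => (φ i t)⁻¹ a b) ∈ Lau K Unit := by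
    rintro (i | ⟨⟨i, j, c⟩, h⟩) a b
    · have e : ∀ t : Kˣ, (diagAt i t)⁻¹ = diagAt i t⁻¹ := fun t => inv_eq_of_mul_eq_one_right (by
        ext a b
        simp only [diagAt, Units.val_mul, GeneralLinearGroup.val_mkOfDetNeZero, diagonal_mul_diagonal,
          diagonal_apply, Units.val_one, one_apply]
        by_cases h : a = i <;> simp [h])
      have e2 : ∀ k : ℤ, (fun t : Unit → Kˣ => diagAt i (t () ^ k) a b) ∈ Lau K Unit := fun k => by
        by_cases h : a = b
        · subst h
          by_cases h : a = i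
          · simpa [diagAt, h] using hu k
          · simp only [diagAt, GeneralLinearGroup.val_mkOfDetNeZero, diagonal_apply_eq, Function.update_of_ne h]
            exact one_mem (Lau K Unit)
        · simp only [diagAt, GeneralLinearGroup.val_mkOfDetNeZero, diagonal_apply_ne _ h]
          exact zero_mem (Lau K Unit)
      simp only [φ, Sum.elim_inl, e]
      exact ⟨by simpa using e2 1, by simpa using e2 (-1)⟩
    · have e2 : ∀ c : K, (fun t : Unit → Kˣ => (SpecialLinearGroup.toGL
          (SpecialLinearGroup.transvection h (c * (t () - 1))) : GL (Fin n) K) a b) ∈ Lau K Unit := by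
        intro c
        have := (Lau K Unit).add_mem ((Lau K Unit).algebraMap_mem ((1 : Matrix (Fin n) (Fin n) K) a b))
          ((Lau K Unit).smul_mem (sub_mem (hu 1) (one_mem _)) (c * single i j (1 : K) a b))
        convert this using 2 with t
        change (1 + single i j (c * ((t () : K) - 1)) : Matrix (Fin n) (Fin n) K) a b = _
        by_cases h' : i = a ∧ j = b <;> simp [single_apply, h']
      simp only [φ, Sum.elim_inr, ← map_inv, SpecialLinearGroup.transvection_inv, ← neg_mul]
      exact ⟨e2 c, e2 _⟩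
  obtain ⟨y, hy⟩ := lang (MonoidHom.id _) σ Function.injective_id (k := 1) one_pos hq
    (fun g i j => by simpa using hσ 1 g i j) φ (by
      rintro (i | x)
      · ext a b; simp [φ, diagAt]
      · simp [φ]) (by
      rw [eq_top_iff]
      intro g _
      rcases Nat.eq_zero_or_pos n with rfl | hn
      · rw [Subsingleton.elim g 1]; exact one_mem _
      have h1 : ∀ A : SpecialLinearGroup (Fin n) K, SpecialLinearGroup.toGL A ∈
          Subgroup.closure (⋃ i, Set.range (φ i)) := by
        refine SL_transvection_induction _ (by simp) (fun i j h c => ?_) fun A B hA hB => by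
          rw [map_mul]; exact mul_mem hA hB
        obtain ⟨t, ht⟩ := Infinite.exists_notMem_finset ({0, 1} : Finset K)
        simp only [Finset.mem_insert, Finset.mem_singleton, not_or] at ht
        refine Subgroup.subset_closure (Set.mem_iUnion.2 ⟨.inr ⟨(i, j, c / (t - 1)), h⟩,
          fun _ => Units.mk0 t ht.1, ?_⟩)
        simp [φ, sub_ne_zero.2 ht.2]
      have h2 : g * (diagAt ⟨0, hn⟩ (GeneralLinearGroup.det g))⁻¹ ∈
          Subgroup.closure (⋃ i, Set.range (φ i)) := by
        convert h1 ⟨(g * (diagAt (⟨0, hn⟩ : Fin n) (GeneralLinearGroup.det g))⁻¹).1, by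
          rw [← GeneralLinearGroup.val_det_apply, map_mul, map_inv, det_diagAt]; simp⟩
        exact Units.ext rfl
      refine (Subgroup.mul_mem_cancel_right _ (inv_mem (Subgroup.subset_closure ?_))).1 h2
      exact Set.mem_iUnion.2 ⟨.inl ⟨0, hn⟩, fun _ => _, rfl⟩)
    (fun i j a b => by
      simp only [MonoidHom.id_apply, hσ]
      exact ⟨pow_mem (h3 i a b).1 _, pow_mem (h3 i a b).2 _⟩) g
  exact ⟨y⁻¹, by rw [← hy, map_inv, inv_inv]⟩

end Cfsg.Agent.S2665
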