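import Cfsg.Statements.S2669
import Cfsg.Agent.Classical.Shintani

set_option autoImplicit false
open Cfsg

namespace Cfsg.Agent.S2669

open Cfsg.Agent.Classical

/-- Shintani descent preserves numbers of fixed points on coset spaces (abstract form). Let `σ` be an automorphism of a group `X` and `e ≥ 1`; write `G` for the fixed points of `σᵉ` and `H` for the fixed points of `σ`, and assume `G` is finite. Let `Y` be a `σ`-stable subgroup of `X` on which the maps `a ↦ a σ(a)⁻¹` and `a ↦ a σᵉ(a)⁻¹` are surjective (as for a closed connected `σ`-stable subgroup of an algebraic group). Let `g ∈ G`, let `a ∈ X` satisfy `g = a σ(a)⁻¹` and put `x = σᵉ(a)⁻¹ a` (the Shintani image, an element of `H`). The element `g σ` of the semidirect product acts on the cosets of `Y ∩ G` in `G` by `k (Y ∩ G) ↦ g σ(k) (Y ∩ G)`, fixing that coset exactly when `k⁻¹ g σ(k) ∈ Y`; and `x` fixes the coset `h (Y ∩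 H)` of `H` exactly when `h⁻¹ x h ∈ Y`. Then the two numbers of fixed cosets agree; in cross-multiplied form, `#{k ∈ G : k⁻¹ g σ(k) ∈ Y} · |Y ∩ H| = #{h ∈ H : h⁻¹ x h ∈ Y} · |Y ∩ G|`. -/
theorem result {X : Type*} [Group X] (σ : MulAut X) (e : ℕ) (he : 1 ≤ e)
    [Finite ↥((MulEquiv.toMonoidHom (σ ^ e)).eqLocus (MonoidHom.id X))]
    (Y : Subgroup X) (hY : ∀ y : X, y ∈ Y ↔ σ y ∈ Y)
    (hYL : ∀ y ∈ Y, ∃ a ∈ Y, y = a * (σ a)⁻¹) (hYLe : ∀ y ∈ Y, ∃ a ∈ Y, y = a * ((σ ^ e) a)⁻¹)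
    (g : X) (hg : g ∈ (MulEquiv.toMonoidHom (σ ^ e)).eqLocus (MonoidHom.id X)) (a : X) (ha : g = a * (σ a)⁻¹) :
    Nat.card {k : ↥((MulEquiv.toMonoidHom (σ ^ e)).eqLocus (MonoidHom.id X)) // (k : X)⁻¹ * g * σ k ∈ Y} *
        Nat.card ↥(Y ⊓ (MulEquiv.toMonoidHom σ).eqLocus (MonoidHom.id X)) =
      Nat.card {h : ↥((MulEquiv.toMonoidHom σ).eqLocus (MonoidHom.id X)) // (h : X)⁻¹ * (((σ ^ e) a)⁻¹ * a) * h ∈ Y} *
        Nat.card ↥(Y ⊓ (MulEquiv.toMonoidHom (σ ^ e)).eqLocus (MonoidHom.id X)) := by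
  subst ha
  have hYe : ∀ (n : ℕ) (y : X), y ∈ Y → (σ ^ n) y ∈ Y := by
    intro n
    induction n with
    | zero => intro y hy; exact hy
    | succ n ih => intro y hy; rw [pow_succ, MulAut.mul_apply]; exact ih _ ((hY y).1 hy)
  rw [← card_rel_fib (β := Y) (fun k : ↥((MulEquiv.toMonoidHom (σ ^ e)).eqLocus (MonoidHom.id X)) =>
      (k : X)⁻¹ * (a * (σ a)⁻¹) * σ k ∈ Y)
      (fun k y => (k : X)⁻¹ * (a * (σ a)⁻¹) * σ k = y * (σ y)⁻¹),
    ← card_rel_fib (β := Y) (fun h : ↥((MulEquiv.toMonoidHom σ).eqLocus (MonoidHom.id X)) =>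
      (h : X)⁻¹ * (((σ ^ e) a)⁻¹ * a) * h ∈ Y)
      (fun h y => (h : X)⁻¹ * (((σ ^ e) a)⁻¹ * a) * h = ((σ ^ e) y)⁻¹ * y)]
  · have key : ∀ k y : X, ((σ ^ e) k = k ∧ k⁻¹ * (a * (σ a)⁻¹) * σ k = y * (σ y)⁻¹) ↔
        (σ (a⁻¹ * k * y) = a⁻¹ * k * y ∧
          (a⁻¹ * k * y)⁻¹ * (((σ ^ e) a)⁻¹ * a) * (a⁻¹ * k * y) = ((σ ^ e) y)⁻¹ * y) := by
      intro k y
      have := shin_key σ e y a k
      rw [eq_mul_inv_iff_mul_eq, mul_assoc _ _ (a⁻¹ * k * y)⁻¹, ← inv_mul_eq_iff_eq_mul,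
        ← inv_mul_eq_iff_eq_mul (a := a⁻¹ * k * y), eq_mul_inv_iff_mul_eq (a := _ * (_ * a)),
        ← mul_assoc k⁻¹] at this
      exact this
    refine Nat.card_congr
      { toFun := fun p => ⟨(⟨a⁻¹ * p.1.1 * p.1.2, ((key _ _).1 ⟨p.1.1.2, p.2⟩).1⟩, p.1.2),
          ((key _ _).1 ⟨p.1.1.2, p.2⟩).2⟩
        invFun := fun p => ⟨(⟨a * p.1.1 * (p.1.2 : X)⁻¹, ((key _ p.1.2).2 ?_).1⟩, p.1.2),
          ((key _ p.1.2).2 ?_).2⟩
        left_inv := fun p => Subtype.ext (Prod.ext (Subtype.ext (by simp [mul_assoc])) rfl)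
        right_inv := fun p => Subtype.ext (Prod.ext (Subtype.ext (by simp [mul_assoc])) rfl) }
    all_goals
      have e1 : a⁻¹ * (a * p.1.1 * (p.1.2 : X)⁻¹) * p.1.2 = p.1.1 := by group
      rw [e1]
      exact ⟨p.1.1.2, p.2⟩
  · intro h y hy
    rw [hy]
    exact Y.mul_mem (Y.inv_mem (hYe e _ y.2)) y.2
  · intro h hh
    obtain ⟨c, hc, h1⟩ := hYLe _ (Y.inv_mem hh)
    have h2 : (h : X)⁻¹ * (((σ ^ e) a)⁻¹ * a) * h = ((σ ^ e) c⁻¹)⁻¹ * c⁻¹ := by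
      rw [← inv_inv (_ * (h : X)), h1, map_inv]; group
    refine ⟨{ toFun := fun y => ⟨y.1 * c, Y.mul_mem y.1.2 hc, ?_⟩
              invFun := fun z => ⟨⟨z * c⁻¹, Y.mul_mem z.2.1 (Y.inv_mem hc)⟩, ?_⟩
              left_inv := fun y => Subtype.ext (Subtype.ext (by simp))
              right_inv := fun y => Subtype.ext (by simp) }⟩
    · have := (lang_eq_iff' (σ ^ e) c⁻¹ y.1).1 (h2.symm.trans y.2)
      rwa [inv_inv] at this
    · rw [h2, lang_eq_iff']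
      have := (mem_fixLocus _ _).1 z.2.2
      simpa using this
  · intro k y hy
    rw [hy]
    exact Y.mul_mem y.2 (Y.inv_mem ((hY _).1 y.2))
  · intro k hk
    obtain ⟨c, hc, h1⟩ := hYL _ hk
    refine ⟨{ toFun := fun y => ⟨c⁻¹ * y.1, Y.mul_mem (Y.inv_mem hc) y.1.2, ?_⟩
              invFun := fun z => ⟨⟨c * z, Y.mul_mem hc z.2.1⟩, ?_⟩
              left_inv := fun y => Subtype.ext (Subtype.ext (by simp))
              right_inv := fun y => Subtype.ext (by simp) }⟩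
    · exact (lang_eq_iff σ c y.1).1 (h1.symm.trans y.2)
    · rw [h1, lang_eq_iff]
      have := (mem_fixLocus _ _).1 z.2.2
      simpa using this

end Cfsg.Agent.S2669
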