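import Cfsg.Statements.S2671
import Cfsg.Agent.Classical.PrimeCl

set_option autoImplicit false
open Cfsg

namespace Cfsg.Agent.S2671

open Cfsg.Agent.Classical Cfsg.Agent.Geom Cfsg.Agent.Geom.Formed Module Polynomial

/-- Number of conjugacy classes of elements of odd prime order r in the general unitary group GU_n(q), for r not dividing q(q + 1): let i be the multiplicative order of q modulo r, b = i if i is odd and b = i/2 if i is even, and s = (r − 1)/b. If i ≢ 2 (mod 4) the eigenvalue orbits pair off into dual pairs of totally isotropic blocks and there are C(⌊n/(2b)⌋ + s/2, s/2) − 1 classes; if i ≡ 2 (mod 4) each orbit gives a non-degenerate block of dimension i/2 and there are C(⌊2n/i⌋ + s, s) − 1 classes. -/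
theorem result {K : Type*} [Field K] [Fintype K] {p q n r i b s : ℕ} [Fact p.Prime] [CharP K p] (hK : Fintype.card K = q ^ 2) (hr : r.Prime) (hr2 : r ≠ 2) (hrp : r ≠ p) (hi : i = orderOf (q : ZMod r)) (hi2 : i ≠ 2) (hb : b = if Odd i then i else i / 2) (hs : s * b = r - 1) : Nat.card {C : ConjClasses ↥(Cfsg.GU n K q) // ∃ g : ↥(Cfsg.GU n K q), ConjClasses.mk g = C ∧ orderOf g = r} = if i % 4 = 2 then Nat.choose (2 * n / i + s) s - 1 else Nat.choose (n / (2 * b) + s / 2) (s / 2) - 1 := by
  have hr0 := natCast_ne_zero_of_prime (F := K) hr hrp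
  have := Fact.mk hr
  have : Fact (2 < r) := ⟨lt_of_le_of_ne hr.two_le hr2.symm⟩
  have h0 := hr.two_le
  have hb0 : 0 < b := Nat.pos_of_ne_zero fun h => by rw [h] at hs; omega
  have hi0 : 0 < i := by split_ifs at hb <;> omega
  have hq : (q : ZMod r) ≠ 0 := fun h => by
    rw [hi, h, orderOf_pos_iff, isOfFinOrder_iff_pow_eq_one] at hi0
    obtain ⟨k, h1, h2⟩ := hi0
    simp [h1.ne'] at h2
  have h1 : b = orderOf (Fintype.card K : ZMod r) := by
    rw [hK, Nat.cast_pow, orderOf_pow' _ two_ne_zero, ← hi, hb]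
    split_ifs with h
    · rw [Nat.coprime_two_right.2 h, Nat.div_one]
    · rw [Nat.gcd_eq_right (even_iff_two_dvd.1 (Nat.not_odd_iff_even.1 h))]
  rw [card_classes_congr (guEquiv hK n) _ (orderOf · = r) fun g => by rw [MulEquiv.orderOf_eq],
    card_classes_order (hermFormed_nondeg hK n) hr hr0 hr2 (fun a ha => ha.map_frobq hK) h1 hs
      (n := n) (by simp) (P := True) (Z := i % 4 = 2) ?_ (fun _ _ _ => trivial) ?_]
  · split_ifs with h <;> rw [← cnt_le] <;> congr 1 <;> refine cnt_congr fun c => ?_
    · rw [Nat.le_div_iff_mul_le hi0, show i = 2 * b by split_ifs at hb <;> grind, mul_left_comm]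
      simp
    · rw [Nat.le_div_iff_mul_le (by omega), mul_left_comm, mul_assoc]
      simp
  · rw [hK, Nat.cast_pow]
    constructor
    · intro h
      obtain ⟨l, hl⟩ : ∃ l, i = (2 * l + 1) + (2 * l + 1) := ⟨i / 4, by omega⟩
      have h2 : (q : ZMod r) ^ (2 * l + 1) = -1 := (mul_self_eq_one_iff.1 (by
        rw [← pow_add, ← hl, hi, pow_orderOf_eq_one])).resolve_left
          (pow_ne_one_of_lt_orderOf (by omega) (by omega))
      exact ⟨l + 1, by linear_combination -q * h2⟩
    · rintro ⟨j, hj⟩
      have h2 : (q : ZMod r) ^ (2 * j + (2 * i - 1)) = -1 := by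
        refine mul_left_cancel₀ hq ?_
        rw [← pow_succ', add_assoc, Nat.sub_add_cancel (by omega), pow_add, pow_mul, ← hj, pow_mul',
          hi, pow_orderOf_eq_one]
        ring
      have h3 : i ∣ 2 * (2 * j + (2 * i - 1)) := hi.dvd.trans (orderOf_dvd_of_pow_eq_one (by
        rw [pow_mul', h2]; simp))
      have h4 : ¬ i ∣ 2 * j + (2 * i - 1) := fun h => ZMod.neg_one_ne_one
        (h2.symm.trans (orderOf_dvd_iff_pow_eq_one.1 (hi.symm.dvd.trans h)))
      have h5 : Even i := by_contra fun h => h4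
        ((Nat.coprime_two_right.2 (Nat.not_even_iff_odd.1 h)).dvd_of_dvd_mul_left h3)
      have h6 : ¬ 4 ∣ i := fun h => by have := h.trans h3; omega
      grind
  · intro D h2 h3 _ h4 _
    refine exists_herm_elemDiv (frobq_ne_id hK) (hermFormed_nondeg hK n) rfl hr hr0
      (fun a ha => ha.map_frobq hK) (fun a ha => ?_) (by
        rw [Multiset.map_add, h3, Multiset.map_replicate, pw_X_sub_one]) (by
        rw [degSum_add_replicate]; simp [h4])
    rcases Multiset.mem_add.1 ha with ha | ha
    exacts [(h2 a ha).1, Multiset.eq_of_mem_replicate ha ▸ isFac_X_sub_one r]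

end Cfsg.Agent.S2671
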