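import Cfsg.Statements.S2672
import Cfsg.Agent.Classical.PCl

set_option autoImplicit false
open Cfsg

namespace Cfsg.Agent.S2672

open Cfsg.Agent.Classical Cfsg.Agent.Classical.PCl Cfsg.Agent.Geom Cfsg.Agent.Elu Matrix Polynomial

/-- Number of conjugacy classes of elements of odd prime order r in PGU_n(q) = GU_n(q)/scalars (n ≥ 3) when r divides q + 1: as in the linear case with q − 1 replaced by q + 1, the classes correspond to the rotation orbits on r-tuples of eigenvalue multiplicities summing to n with every entry < n, plus r − 1 further classes when r divides n; in all (C(n+r−1, r−1) − r − [r ∣ n])/r + r·[r ∣ n]. -/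
theorem result {K : Type*} [Field K] [Fintype K] {q n r : ℕ} (hK : Fintype.card K = q ^ 2) (hn : 3 ≤ n) (hr : r.Prime) (hr2 : r ≠ 2) (hrq : r ∣ q + 1) : Nat.card {C : ConjClasses (↥(Cfsg.GU n K q) ⧸ Subgroup.center ↥(Cfsg.GU n K q)) // ∃ g : ↥(Cfsg.GU n K q) ⧸ Subgroup.center ↥(Cfsg.GU n K q), ConjClasses.mk g = C ∧ orderOf g = r} = (Nat.choose (n + r - 1) (r - 1) - r - (if r ∣ n then 1 else 0)) / r + r * (if r ∣ n then 1 else 0) := by
  have := Fact.mk hK
  have := Fact.mk hr
  have h0 := two_le_of_card_eq_sq hK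
  have h1 : Nat.card Kˣ = (q + 1) * (q - 1) := by
    rw [Nat.card_units, Nat.card_eq_fintype_card, hK, ← Nat.sq_sub_sq, one_pow]
  have h2 : Nat.card (powMonoidHom (q + 1) : Kˣ →* Kˣ).ker = q + 1 := by
    rw [IsCyclic.card_powMonoidHom_ker, h1, Nat.gcd_mul_right_left]
  have h3 : ∀ c : (powMonoidHom (q + 1) : Kˣ →* Kˣ).ker, c.1.1 ^ q * c.1.1 = 1 := fun c => by
    simpa [pow_succ] using congrArg Units.val c.2
  refine card_classes_mat (GU n K q).subtype Subtype.val_injective (fun a b => (isConj_GU_iff hK).2)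
    (powMonoidHom (q + 1) : Kˣ →* Kˣ).ker (fun g hg => ?_)
    (fun v => ⟨guMk (diagonal fun i => (v i).1.1) fun a b => ?_, rfl⟩) hr (by omega) (h2.symm ▸ hrq :)
    (fun c ⟨a, ha⟩ => ?_) fun c x hx h => ?_
  · obtain ⟨a, ha⟩ := (mem_center_GU_iff (by omega)).1 hg
    have h4 := pow_succ_of_gu_eq_smul (by omega) ha
    exact ⟨Units.mk0 a fun h => by simp [h] at h4, Units.ext h4, ha⟩
  · refine Finset.sum_congr rfl fun i _ => ?_
    simp only [mulVec_diagonal, mul_pow]
    linear_combination a i * b i ^ q * h3 (v i)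
  · obtain ⟨k, hk⟩ := hr.odd_of_ne_two hr2
    obtain ⟨a, rfl⟩ : IsUnit a := .mk0 _ fun h => c.1.ne_zero (by rw [← ha, h, zero_pow hr.ne_zero])
    replace ha : a ^ r = c := Units.ext ha
    refine ⟨c * ⟨a ^ (q - 1), by
      rw [MonoidHom.mem_ker, powMonoidHom_apply, ← pow_mul, mul_comm, ← h1, pow_card_eq_one']⟩ ^ k,
      Subtype.ext ?_⟩
    · have h4 : c.1 ^ (q - 1) * c.1 ^ 2 = 1 := by
        rw [← pow_add, show q - 1 + 2 = q + 1 by omega]
        exact c.2
      change (c.1 * (a ^ (q - 1)) ^ k) ^ r = c.1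
      rw [mul_pow, ← pow_mul, ← pow_mul, mul_comm k, ← mul_assoc, mul_comm _ r, pow_mul, pow_mul, ha,
        eq_inv_of_mul_eq_one_left h4, hk]
      group
  · have h4 : x.det ≠ 0 := fun h => by
      have := congrArg det hx
      rw [det_pow, h, zero_pow hr.ne_zero] at this
      simpa using this.symm
    let y := glEquiv _ K (GeneralLinearGroup.mkOfDetNeZero x h4)
    have h5 : (y : Module.End K (Fin n → K)) ^ r = c.1.1 • 1 := by
      rw [coe_glEquiv, ← toLin'_pow]
      exact (congrArg toLin' hx).trans (by rw [map_smul, toLin'_one]; rfl)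
    have h6 : adj (hermFormed_nondeg hK n) (y.symm : Module.End K (Fin n → K)) ^ r = c.1.1 • 1 := by
      have h6 : (y.symm : Module.End K (Fin n → K)) ^ r * (y : Module.End K (Fin n → K)) ^ r = 1 := by
        rw [← Commute.mul_pow (by ext; simp), show (y.symm : Module.End K (Fin n → K)) * y = 1 by ext; simp,
          one_pow]
      rw [h5, mul_smul_comm, mul_one, ← eq_inv_smul_iff₀ c.1.ne_zero] at h6
      rw [← adj_pow, h6, adj_smul, adj_one, map_inv₀, frobq_apply, inv_eq_of_mul_eq_one_right (h3 c)]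
    obtain ⟨k, h7, h8⟩ := ((cases_pow c.1.ne_zero h5).resolve_left fun ⟨w, hw, _⟩ => h ⟨w, hw⟩).2
    obtain ⟨l, h9, h10⟩ := ((cases_pow c.1.ne_zero h6).resolve_left fun ⟨w, hw, _⟩ => h ⟨w, hw⟩).2
    obtain ⟨g, e, he⟩ := (exists_herm_iff (frobq_ne_id hK) (hermFormed_nondeg hK n) rfl (x := y)).2
      (exists_equiv_iff.2 (by rw [h8, h10, Nat.eq_of_mul_eq_mul_right hr.pos (h7.trans h9.symm)]))
    obtain ⟨g, rfl⟩ := (guEquiv hK n).surjective g
    exact ⟨g, isConj_iff_exists_equiv.2 ⟨e, he⟩⟩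

end Cfsg.Agent.S2672
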