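import Cfsg.Statements.S2673
import Cfsg.Agent.Classical.PrimeCl

set_option autoImplicit false
open Cfsg

namespace Cfsg.Agent.S2673

open Cfsg.Agent.Classical Cfsg.Agent.Geom Cfsg.Agent.Geom.Formed Module Polynomial

/-- Number of conjugacy classes of elements of odd prime order r ≠ p in the orthogonal group O_(2m+1)(q) of x_0² + Σ x_j y_j, q odd: with i the multiplicative order of q mod r and t = (r − 1)/i, there are C(⌊m/i⌋ + t/2, t/2) − 1 classes if i is odd (dual pairs of totally singular i-blocks) and C(⌊(2m+1)/i⌋ + t, t) − 1 if i is even (elliptic i-blocks). -/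
theorem result {F : Type*} [Field F] [Fintype F] {p q : ℕ} [Fact p.Prime] [CharP F p] (hF : Fintype.card F = q) (hq : Odd q) (m r i t : ℕ) (hr : r.Prime) (hr2 : r ≠ 2) (hrp : r ≠ p) (hi : i = orderOf (q : ZMod r)) (ht : t * i = r - 1) : Nat.card {C : ConjClasses ↥(Cfsg.isometryGroup F (Cfsg.quadFormOdd m F)) // ∃ g : ↥(Cfsg.isometryGroup F (Cfsg.quadFormOdd m F)), ConjClasses.mk g = C ∧ orderOf g = r} = if Odd i then Nat.choose (m / i + t / 2) (t / 2) - 1 else Nat.choose ((2 * m + 1) / i + t) t - 1 := by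
  have hr0 := natCast_ne_zero_of_prime (F := F) hr hrp
  have hn := quadOdd_nondeg F m (two_ne_zero_of_odd_card (hF ▸ hq))
  have hd : finrank F (Unit ⊕ (Fin m ⊕ Fin m) → F) = 2 * m + 1 := by simp; omega
  obtain ⟨h1, -, -, h2⟩ := card_classes_bilin hn hr hr0 hr2 (hF ▸ hi) ht
    rfl (P := True) (fun _ _ _ => trivial)
    fun D h1 h2 h3 h4 _ => exists_orth_elemDiv hn hr hr0 hr2 h1 h2 h3 h4 fun h => by grind
  rw [← coe_quadOdd, card_classes_congr (isometryEquiv _) _ (orderOf · = r) fun g => by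
    rw [MulEquiv.orderOf_eq], h2, hd]
  split_ifs <;> rw [← cnt_le] <;> congr 1 <;> refine cnt_congr fun c => ?_ <;>
    rw [Nat.le_div_iff_mul_le h1] <;> simp [mul_assoc]
  omega

end Cfsg.Agent.S2673
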