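import Cfsg.Statements.S2674
import Cfsg.Agent.Classical.PrimeCl

set_option autoImplicit false
open Cfsg

namespace Cfsg.Agent.S2674

open Cfsg.Agent.Classical Cfsg.Agent.Geom Cfsg.Agent.Geom.Formed Module Polynomial

/-- Number of conjugacy classes of elements of odd prime order r ≠ p in the orthogonal group O⁺_2m(q) of Σ x_j y_j (m ≥ 1): with i the multiplicative order of q mod r and t = (r − 1)/i — if i is odd, C(⌊m/i⌋ + t/2, t/2) − 1; if i is even, C(⌊2m/i⌋ + t, t) − 1 minus, when i divides 2m with odd quotient, the C(2m/i + t − 1, t − 1) tuples using the whole space (an odd number of elliptic i-blocks fills an elliptic, not a hyperbolic, space). -/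
theorem result {F : Type*} [Field F] [Fintype F] {p q : ℕ} [Fact p.Prime] [CharP F p] (hF : Fintype.card F = q) (m r i t : ℕ) (hm : 1 ≤ m) (hr : r.Prime) (hr2 : r ≠ 2) (hrp : r ≠ p) (hi : i = orderOf (q : ZMod r)) (ht : t * i = r - 1) : Nat.card {C : ConjClasses ↥(Cfsg.isometryGroup F (Cfsg.quadFormPlus m F)) // ∃ g : ↥(Cfsg.isometryGroup F (Cfsg.quadFormPlus m F)), ConjClasses.mk g = C ∧ orderOf g = r} = if Odd i then Nat.choose (m / i + t / 2) (t / 2) - 1 else Nat.choose (2 * m / i + t) t - 1 - (if i ∣ 2 * m ∧ Odd (2 * m / i) then Nat.choose (2 * m / i + t - 1) (t - 1) else 0) := by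
  have hr0 := natCast_ne_zero_of_prime (F := F) hr hrp
  have hn := quadPlus_nondeg F m
  have hw := quadPlus_wittIndex F m
  obtain ⟨m, rfl⟩ := Nat.exists_eq_add_of_le' hm
  have hd := finrank_plus F (m + 1)
  obtain ⟨h1, h3, -, h2⟩ := card_classes_bilin hn hr hr0 hr2 (hF ▸ hi) ht
    rfl (P := (Fintype.card F : ZMod r) ^ (m + 1) = 1)
    (fun _ h1 h2 => (pow_eq_of_fpf hn hd hr hr0 hr2 h1 h2).1 hw)
    fun D h1 h2 h3 h4 h5 => exists_orth_elemDiv hn hr hr0 hr2 h1 h2 h3 h4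
      fun h => ⟨m, hd, .inl ⟨hw, h5 h⟩⟩
  rw [← coe_quadPlus, card_classes_congr (isometryEquiv _) _ (orderOf · = r) fun g => by
    rw [MulEquiv.orderOf_eq], h2, hd, hF, ← orderOf_dvd_iff_pow_eq_one, ← hi]
  generalize m + 1 = m
  by_cases h : Odd i
  · rw [if_pos h, if_pos h, ← cnt_le]
    refine congrArg (· - 1) (cnt_congr fun c => ?_)
    rw [Nat.le_div_iff_mul_le h1, mul_assoc]
    exact ⟨fun h => by omega, fun h => ⟨by omega, fun h => ⟨c, by grind⟩⟩⟩
  · rw [if_neg h, if_neg h, Nat.sub_right_comm, ← cnt_le_sub h3]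
    refine congrArg (· - 1) (cnt_congr fun c => ?_)
    obtain ⟨l, rfl⟩ := even_iff_two_dvd.1 (Nat.not_odd_iff_even.1 h)
    rw [Nat.le_div_iff_mul_le h1]
    refine and_congr_right fun _ => ⟨fun h4 ⟨h5, ⟨d, h6⟩, h7⟩ => ?_, fun h4 h5 => ?_⟩
    · rw [h6, Nat.mul_div_cancel_left _ h1] at h5 h7
      obtain ⟨e, he⟩ := h4 (by rw [h5, h6, mul_comm])
      obtain rfl : d = 2 * e := Nat.eq_of_mul_eq_mul_left h1 (by grind)
      grind
    · rw [← h5, Nat.mul_div_cancel _ h1] at h4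
      obtain ⟨e, rfl⟩ : Even c := by simpa using h4
      exact ⟨e, by grind⟩

end Cfsg.Agent.S2674
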