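import Cfsg.Statements.S2675
import Cfsg.Agent.Classical.PrimeCl

set_option autoImplicit false
open Cfsg

namespace Cfsg.Agent.S2675

open Cfsg.Agent.Classical Cfsg.Agent.Geom Cfsg.Agent.Geom.Formed Module Polynomial

/-- Number of conjugacy classes of elements of odd prime order r ≠ p in the orthogonal group O⁻_2m(q) of an elliptic form Σ_(j<m−1) x_j y_j + z₁² + a z₁z₂ + c z₂² (binary part anisotropic, m ≥ 1): with i the multiplicative order of q mod r and t = (r − 1)/i — if i is odd, C(⌊m/i⌋ + t/2, t/2) − 1 minus, when i divides m, the C(m/i + t/2 − 1, t/2 − 1) tuples filling the whole space (dual pairs of totally singular blocks fill a hyperbolic space); if i is even, C(⌊2m/i⌋ + t, t) − 1 minus, when i divides 2m with even quotient, the C(2m/i + t − 1, t − 1) tuples filling the whole space with an even number of elliptic blocks. -/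
theorem result {F : Type*} [Field F] [Fintype F] {p q : ℕ} [Fact p.Prime] [CharP F p] (hF : Fintype.card F = q) (m r i t : ℕ) (hm : 1 ≤ m) (a c : F) (hac : ∀ z₁ z₂ : F, z₁ ^ 2 + a * z₁ * z₂ + c * z₂ ^ 2 = 0 → z₁ = 0 ∧ z₂ = 0) (hr : r.Prime) (hr2 : r ≠ 2) (hrp : r ≠ p) (hi : i = orderOf (q : ZMod r)) (ht : t * i = r - 1) : Nat.card {C : ConjClasses ↥(Cfsg.isometryGroup F (Cfsg.quadFormMinus (m - 1) F a c)) // ∃ g : ↥(Cfsg.isometryGroup F (Cfsg.quadFormMinus (m - 1) F a c)), ConjClasses.mk g = C ∧ orderOf g = r} = if Odd i then Nat.choose (m / i + t / 2) (t / 2) - 1 - (if i ∣ m then Nat.choose (m / i + t / 2 - 1) (t / 2 - 1) else 0) else Nat.choose (2 * m / i + t) t - 1 - (if i ∣ 2 * m ∧ Even (2 * m / i) then Nat.choose (2 * m / i + t - 1) (t - 1) else 0) := by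
  have hr0 := natCast_ne_zero_of_prime (F := F) hr hrp
  have := Fact.mk hr
  have : Fact (2 < r) := ⟨lt_of_le_of_ne hr.two_le hr2.symm⟩
  obtain ⟨m, rfl⟩ := Nat.exists_eq_add_of_le' hm
  have hn := quadMinus_nondeg F m (disc_ne_zero_of_anisotropic hac)
  have hw := quadMinus_wittIndex F m hac
  have hd : finrank F ((Fin m ⊕ Fin m) ⊕ Fin 2 → F) = 2 * (m + 1) := by simp; omega
  obtain ⟨h1, h3, h3', h2⟩ := card_classes_bilin hn hr hr0 hr2 (hF ▸ hi) ht
    rfl (P := (Fintype.card F : ZMod r) ^ (m + 1) = -1)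
    (fun _ h1 h2 => (pow_eq_of_fpf hn hd hr hr0 hr2 h1 h2).2 hw)
    fun D h1 h2 h3 h4 h5 => exists_orth_elemDiv hn hr hr0 hr2 h1 h2 h3 h4
      fun h => ⟨m, hd, .inr ⟨hw, h5 h⟩⟩
  rw [Nat.add_sub_cancel, ← coe_quadMinus, card_classes_congr (isometryEquiv _) _ (orderOf · = r)
    fun g => by rw [MulEquiv.orderOf_eq], h2, hd, hF]
  generalize m + 1 = m
  have key : 2 * m % i = 0 → ((q : ZMod r) ^ m = -1 ↔ ¬ i ∣ m) := fun h => by
    have := mul_self_eq_one_iff.1 (show (q : ZMod r) ^ m * q ^ m = 1 by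
      rw [← pow_add, ← two_mul, ← orderOf_dvd_iff_pow_eq_one, ← hi]; omega)
    rw [hi, orderOf_dvd_iff_pow_eq_one]
    exact ⟨fun h h' => ZMod.neg_one_ne_one (h.symm.trans h'), this.resolve_left⟩
  by_cases h : Odd i
  · rw [if_pos h, if_pos h, Nat.sub_right_comm, ← cnt_le_sub (h3' h)]
    refine congrArg (· - 1) (cnt_congr fun c => ?_)
    rw [Nat.le_div_iff_mul_le h1, mul_assoc, Nat.mul_le_mul_left_iff two_pos]
    refine and_congr_right fun _ => ⟨fun h4 ⟨h5, d, h6⟩ => ?_, fun h4 h5 => (h4 ?_).elim⟩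
    · rw [h6, Nat.mul_div_cancel_left _ h1] at h5
      exact (key (by simp [h6, mul_left_comm])).1 (h4 (by grind)) ⟨d, h6⟩
    · obtain rfl : m = c * i := by omega
      simp [h1]
  · rw [if_neg h, if_neg h, Nat.sub_right_comm, ← cnt_le_sub h3]
    refine congrArg (· - 1) (cnt_congr fun c => ?_)
    obtain ⟨l, rfl⟩ := even_iff_two_dvd.1 (Nat.not_odd_iff_even.1 h)
    rw [Nat.le_div_iff_mul_le h1]
    refine and_congr_right fun _ => ⟨fun h4 ⟨h5, ⟨d, h6⟩, h7⟩ => ?_, fun h4 h5 => ?_⟩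
    · rw [h6, Nat.mul_div_cancel_left _ h1] at h5 h7
      obtain ⟨e, rfl⟩ := h7
      exact (key (by simp [h6])).1 (h4 (by grind)) ⟨e, by grind⟩
    · rw [← h5, Nat.mul_div_cancel _ h1] at h4
      refine (key (by simp [← h5])).2 fun ⟨e, he⟩ => h4 ⟨rfl, by simp, e, ?_⟩
      exact Nat.eq_of_mul_eq_mul_left h1 (by grind)

end Cfsg.Agent.S2675
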