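import Cfsg.Statements.S2676
import Cfsg.Agent.Classical.Uc2

set_option autoImplicit false
open Classical
open Cfsg

namespace Cfsg.Agent.S2676

open Cfsg.Agent.Classical Cfsg.Agent.Classical.Uc Cfsg.Agent.Geom Cfsg.Agent.Elu

/-- Number of conjugacy classes of elements of order p in Sp_2m(q), q a power of the odd prime p: the classes correspond to the signed partitions of 2m — partitions with all parts at most p in which every odd part has even multiplicity, each even part size that occurs carrying a sign — other than the all-ones partition; so the count is the sum over such partitions of 2^(number of distinct even parts), minus one. -/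
theorem result {F : Type*} [Field F] [Fintype F] {p : ℕ} [Fact p.Prime] [CharP F p] (hp : p ≠ 2) (m : ℕ) : Nat.card {C : ConjClasses ↥(Matrix.symplecticGroup (Fin m) F) // ∃ g : Matrix.symplecticGroup (Fin m) F, ConjClasses.mk g = C ∧ orderOf g = p} = (∑ μ ∈ Finset.univ.filter (fun μ : Nat.Partition (2 * m) => (∀ a ∈ μ.parts, a ≤ p) ∧ ∀ j : ℕ, Odd j → Even (μ.parts.count j)), 2 ^ ((μ.parts.toFinset.filter (fun j : ℕ => Even j)).card)) - 1 := by
  classical
  have : NeZero (2 : F) := ⟨cast_two_ne hp⟩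
  have h2 := sympFormed_nondeg m F
  have h0 : ∀ g : Matrix.symplecticGroup (Fin m) F, g ^ p = 1 ↔ (Matrix.toLin' g.1 - 1) ^ p = 0 := fun g => by
    rw [← pow_char_iff, Subtype.ext_iff, ← Matrix.toLin'.injective.eq_iff, SubmonoidClass.coe_pow, Matrix.toLin'_pow,
      OneMemClass.coe_one, Matrix.toLin'_one]; rfl
  have h1 : ∀ {V : Type _} [AddCommGroup V] [Module F V] [FiniteDimensional F V] {f : Module.End F V} {μ},
      Jt f μ → (elemDiv f).map Polynomial.natDegree = μ := fun h => by rw [h]; simp [-map_one]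
  rw [card_classes_prime Fact.out, card_classes_of_inv _ (fun g => ((elemDiv (Matrix.toLin' g.1)).map
      Polynomial.natDegree, (((elemDiv (Matrix.toLin' g.1)).map Polynomial.natDegree).toFinset.filter Even).filter
        fun j => Dl (sympFormed m F) (Matrix.toLin' g.1) (j - 1)))
    (fun a => ((∀ x ∈ a.1, 0 < x) ∧ a.1.sum = 2 * m) ∧ ((∀ x ∈ a.1, x ≤ p) ∧ ∀ j, Odd j → Even (a.1.count j)) ∧
      a.2 ⊆ a.1.toFinset.filter Even) (fun g h hg hh => ?_) fun a => ⟨?_, ?_⟩]
  · congr 1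
    rw [← Finset.sum_coe_sort]
    simp only [← Finset.card_powerset]
    simp only [← Nat.card_eq_finsetCard]
    rw [← Nat.card_sigma]
    exact Nat.card_congr
      { toFun := fun a => ⟨⟨⟨a.1.1, fun h => a.2.1.1 _ h, a.2.1.2⟩, by simpa using a.2.2.1⟩,
          ⟨a.1.2, Finset.mem_powerset.2 a.2.2.2⟩⟩
        invFun := fun a => ⟨(a.1.1.parts, a.2.1), ⟨fun _ => a.1.1.parts_pos, a.1.1.parts_sum⟩,
          (Finset.mem_filter.1 a.1.2).2, Finset.mem_powerset.1 a.2.2⟩
        left_inv := fun _ => rfl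
        right_inv := fun _ => rfl }
  · obtain ⟨μ, -, -, h3⟩ := exists_jordan ((h0 g).1 hg)
    obtain ⟨ν, -, -, h4⟩ := exists_jordan ((h0 h).1 hh)
    rw [isConj_sp, h1 h3, h1 h4, Prod.mk.injEq]
    refine ⟨fun H => ?_, fun ⟨e, H⟩ => ?_⟩
    · obtain rfl : μ = ν := Jt.unique h3 (H.1.trans h4)
      refine ⟨rfl, Finset.filter_congr fun j hj => ?_⟩
      rw [Finset.mem_filter, Multiset.mem_toFinset] at hj
      exact (H.2 _ (symp_eps.2 (Nat.Even.sub_odd (Jt.pos h3 hj.1) hj.2 odd_one))).1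
    · subst e
      refine (sim_unip h2 h2 (iso_symp.2 g.2) (iso_symp.2 h.2) h3 h4).2 fun k hk hm => ?_
      simpa [hm, (symp_eps.1 hk).add_one] using Finset.ext_iff.1 H (k + 1)
  · rintro ⟨⟨h3, h4⟩, ⟨h5, h6⟩, h7⟩
    obtain ⟨f, h8, h9, h10⟩ := alt_real' (fun k => k + 1 ∈ a.2) _ (spu_symp m F) h2 rfl
      (h4.trans (by simp [two_mul])) h3 h6
    obtain ⟨A, rfl⟩ := Matrix.toLin'.surjective f
    refine ⟨⟨A, iso_symp.1 h8⟩, (h0 _).2 (unip_pow h9 h5), Prod.ext (h1 h9) (Finset.ext fun j => ?_)⟩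
    simp only [h1 h9, Finset.mem_filter (s := Finset.filter _ _)]
    refine (and_congr_right fun hj => ?_).trans (and_iff_right_of_imp fun h => h7 h)
    rw [Finset.mem_filter, Multiset.mem_toFinset] at hj
    have h11 := Nat.sub_add_cancel (h3 j hj.1)
    rw [h10 _ (Nat.Even.sub_odd (h3 j hj.1) hj.2 odd_one) (h11.symm ▸ hj.1), h11]
  · rintro ⟨g, hg, rfl⟩
    obtain ⟨μ, h3, h4, h5⟩ := exists_jordan ((h0 g).1 hg)
    simp only [h1 h5]
    exact ⟨⟨fun x hx => (h3 x hx).1, h4.trans (by simp [two_mul])⟩, ⟨fun x hx => (h3 x hx).2,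
      Eig.alt_even _ rfl ((spu_symp m F).alt rfl) h2 (iso_symp.2 g.2) h5⟩, Finset.filter_subset _ _⟩

end Cfsg.Agent.S2676
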