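import Cfsg.Statements.S2677
import Cfsg.Agent.Classical.ScalFix

set_option autoImplicit false
open Cfsg

namespace Cfsg.Agent.S2677

open Cfsg.Agent.Classical Cfsg.Agent.Geom Cfsg.Agent.AutCl Matrix

/-- Centraliser of a field automorphism of odd prime order in PGU_n(q): let q = q₀^r with r an odd prime, K the field with q² elements and σ a field automorphism of K of order r (fixed field of order q₀²). The elements g of GU_n(q) whose entrywise image under σ is a scalar multiple of g — those whose coset modulo the q + 1 unitary scalars is fixed by σ — number (q + 1)/(q₀ + 1) · |GU_n(q₀)|; equivalently the centraliser in PGU_n(q) of the induced automorphism has the order of PGU_n(q₀). -/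
theorem result {K : Type*} [Field K] [Fintype K] {q₀ q r n : ℕ} (hr : r.Prime) (hr2 : r ≠ 2) (hn : 1 ≤ n) (hq : q = q₀ ^ r) (hK : Fintype.card K = q ^ 2) (σ : K ≃+* K) (hσ : orderOf σ = r) : (Nat.card {g : ↥(Cfsg.GU n K q) // ∃ c : K, c ≠ 0 ∧ ((g : GL (Fin n) K) : Matrix (Fin n) (Fin n) K).map σ = c • ((g : GL (Fin n) K) : Matrix (Fin n) (Fin n) K)} : ℤ) = ((q + 1) / (q₀ + 1) : ℕ) * ((q₀ : ℤ) ^ (n * (n - 1) / 2) * ∏ i : Fin n, ((q₀ : ℤ) ^ ((i : ℕ) + 1) - (-1) ^ ((i : ℕ) + 1))) := by
  have : Nonempty (Fin n) := ⟨⟨0, hn⟩⟩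
  obtain ⟨L, hf, hL⟩ := exists_isFix_card σ
  rw [hσ, Nat.card_eq_fintype_card (α := K), hK, hq, ← pow_mul, mul_comm, pow_mul] at hL
  have := Fintype.ofFinite L
  have hL' : Fintype.card L = q₀ ^ 2 := by
    rw [← Nat.card_eq_fintype_card]; exact Nat.pow_left_injective hr.ne_zero hL
  have hc := frobq_compat hK hL' (hr.odd_of_ne_two hr2) hq L.subtype
  have D := isDesc_herm hK hL' hc n
  have h0 : (rootsOfUnity (q + 1) K).comap (Units.map (L.subtype : L →* K)) =
      rootsOfUnity (q₀ + 1) L := by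
    ext c
    rw [Subgroup.mem_comap, mem_rootsOfUnity', mem_rootsOfUnity', pow_succ, pow_succ,
      ← frobq_apply hK, ← frobq_apply hL', ← L.subtype.injective.eq_iff, map_mul, hc]
    rfl
  have h1 := card_scal_map (ι := Fin n) (f := L.subtype) (rootsOfUnity (q + 1) K) (GU n L q₀)
    fun c hc => (scal_mem_GU_iff hL' hn c).2 (h0 ▸ hc)
  have h2 : ∀ g : GL (Fin n) K, (g ∈ GU n K q ∧ ∃ c : K, c ≠ 0 ∧ g.1.map σ = c • g.1) ↔
      ∃ d ∈ rootsOfUnity (q + 1) K, ∃ h ∈ GU n L q₀,
        g = scal d * GeneralLinearGroup.map L.subtype h := by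
    intro g
    rw [map_eq_smul_iff hf]
    have h3 : ∀ h, rh 1 L.subtype h = GeneralLinearGroup.map (n := Fin n) L.subtype h := by
      simp [rh_apply]
    constructor
    · rintro ⟨hg, d, h, rfl⟩
      have h4 := (simi_scal d⁻¹).mul ((mem_GU_iff_simi hK).1 hg)
      rw [scal_inv, inv_mul_cancel_left, ← h3] at h4
      obtain ⟨c, hc1, hc2⟩ := D.exists_simi (hermFormed_nondeg hK n) h4
      obtain ⟨e, he⟩ := exists_norm_eq (frobq_ne_id hL') (frobq_frobq hL') (a := c)
        (L.subtype.injective (by rw [hc, hc1, map_mul, map_mul, frobq_frobq, map_one]; ring))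
      have he0 : e ≠ 0 := by rintro rfl; exact hc2.ne (by simpa using he.symm)
      have h5 := (simi_scal (Units.mk0 e he0)⁻¹).mul hc2
      refine ⟨d * Units.map (L.subtype : L →* K) (Units.mk0 e he0), ?_, _,
        (mem_GU_iff_simi hL').2 (by
          convert h5
          rw [← he]
          simp only [Units.val_inv_eq_inv_val, Units.val_mk0, map_inv₀]
          field_simp), ?_⟩
      · rw [mem_rootsOfUnity', pow_succ, ← frobq_apply hK]
        rw [← he, map_mul, hc] at hc1
        simp only [Units.val_inv_eq_inv_val, map_inv₀, mul_one] at hc1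
        have : frobq hK d ≠ 0 := by simp
        simp only [Units.val_mul, Units.coe_map, MonoidHom.coe_coe, Units.val_mk0, map_mul]
        rw [mul_mul_mul_comm, hc1]
        field_simp
      · rw [map_mul, map_scal, scal_mul, map_inv, scal_inv]; group
    · rintro ⟨d, hd, h, hh, rfl⟩
      refine ⟨mul_mem ((scal_mem_GU_iff hK hn d).2 hd) ((mem_GU_iff_simi hK).2 ?_), d, h, rfl⟩
      simpa [h3] using D.simi ((mem_GU_iff_simi hL').1 hh)
  have : Fact (Fintype.card K = q ^ 2) := ⟨hK⟩
  have : Fact (Fintype.card L = q₀ ^ 2) := ⟨hL'⟩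
  rw [h0, card_GU, card_rootsOfUnity_succ, card_rootsOfUnity_succ] at h1
  obtain ⟨k, hk⟩ : q₀ + 1 ∣ q + 1 := by
    simpa [hq] using (hr.odd_of_ne_two hr2).nat_add_dvd_pow_add_pow q₀ 1
  rw [hk, mul_comm, mul_assoc] at h1
  rw [hk, Nat.mul_div_cancel_left _ q₀.succ_pos, ← cast_gu_prod (by
    have := two_le_of_card_eq_sq hL'; omega), ← Nat.cast_pow, ← Nat.cast_mul, ← Nat.cast_mul,
    ← Nat.eq_of_mul_eq_mul_left q₀.succ_pos h1]
  congr 1
  exact Nat.card_congr ((Equiv.subtypeSubtypeEquivSubtypeInter _ fun g : GL (Fin n) K =>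
    ∃ c : K, c ≠ 0 ∧ g.1.map σ = c • g.1).trans (Equiv.subtypeEquivRight (hk ▸ h2)))

end Cfsg.Agent.S2677
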