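import Cfsg.Statements.S2678
import Cfsg.Agent.Classical.FieldRed

set_option autoImplicit false
open Cfsg

namespace Cfsg.Agent.S2678

open Cfsg.Agent.Classical Cfsg.Agent.Geom Cfsg.Agent.Geom.Formed Module

/-- Field-extension embedding of symplectic groups: for a field K with q² elements and a field F with q elements there is an injective homomorphism Sp_2a(K) → Sp_4a(F). -/
theorem result {K F : Type*} [Field K] [Fintype K] [Field F] [Fintype F] {q : ℕ} (hK : Fintype.card K = q ^ 2) (hF : Fintype.card F = q) (a : ℕ) : ∃ φ : ↥(Matrix.symplecticGroup (Fin a) K) →* ↥(Matrix.symplecticGroup (Fin (2 * a)) F), Function.Injective φ := by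
  obtain ⟨_, h2, hf⟩ := exists_algebra_sq hK hF
  obtain ⟨L, hL, -⟩ := Submodule.exists_dual_map_eq_bot_of_lt_top (p := (⊥ : Submodule F K)) bot_lt_top
    inferInstance
  obtain ⟨φ, hφ⟩ := exists_hom_sp (F := F) (sympFormed_nondeg a K) (fun c => rfl) hL (m := 2 * a)
    (fun v => by rw [show (sympFormed a K).B v v = 0 from sympB_isAlt a K v, map_zero])
    (by rw [← Module.finrank_mul_finrank F K, h2]; simp [two_mul])
  exact ⟨φ.comp (spEquiv a K).toMonoidHom, hφ.comp (spEquiv a K).injective⟩

end Cfsg.Agent.S2678
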