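import Cfsg.Statements.S2679
import Cfsg.Agent.Classical.FieldRed

set_option autoImplicit false
open Cfsg

namespace Cfsg.Agent.S2679

open Cfsg.Agent.Classical Cfsg.Agent.Geom Cfsg.Agent.Geom.Formed Module Cfsg.Agent.AutCl

/-- An elliptic orthogonal group embeds in the hyperbolic orthogonal group of the same dimension over the quadratic extension: for a field F with q elements and a field K with q² elements there is an injective homomorphism from O⁻_2m(F) (isometries of Σ_(j<m−1) x_j y_j + z₁² + a z₁z₂ + c z₂², binary part anisotropic) to O⁺_2m(K) (isometries of Σ_(j<m) x_j y_j over K). -/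
theorem result {F K : Type*} [Field F] [Fintype F] [Field K] [Fintype K] {q : ℕ} (hF : Fintype.card F = q) (hK : Fintype.card K = q ^ 2) {m : ℕ} (hm : 1 ≤ m) (a c : F) (hac : ∀ z₁ z₂ : F, z₁ ^ 2 + a * z₁ * z₂ + c * z₂ ^ 2 = 0 → z₁ = 0 ∧ z₂ = 0) : ∃ φ : ↥(Cfsg.isometryGroup F (Cfsg.quadFormMinus (m - 1) F a c)) →* ↥(Cfsg.isometryGroup K (Cfsg.quadFormPlus m K)), Function.Injective φ := by
  obtain ⟨_, h2, -⟩ := exists_algebra_sq hK hF
  obtain ⟨z, hz⟩ := exists_root_of_finrank hac (K := K) (h2 ▸ dvd_rfl)
  have hd := disc_map_ne (algebraMap F K) (disc_ne_zero_of_anisotropic hac)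
  have hw := wittIndex_minus_of_root (m := m - 1) hd hz
  have D := isDesc_minus (algebraMap F K) (m - 1) a c
  have hn : (ofQuad (qM K (m - 1) (algebraMap F K a) (algebraMap F K c))).Nondeg := by
    rw [qM_eq]; exact quadMinus_nondeg K (m - 1) hd
  obtain ⟨e, he⟩ := exists_isIso_plus hn (m := m)
    (by simp; omega) (by rwa [Nat.sub_add_cancel hm] at hw)
  rw [← coe_quadPlus]
  let ψ : isometryGroup F (quadFormMinus (m - 1) F a c) →*
      isometryGroup K (qM K (m - 1) (algebraMap F K a) (algebraMap F K c)) :=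
    ((rh 1 (algebraMap F K)).comp (Subgroup.subtype _)).codRestrict _ fun g => mem_isometryGroup.2 fun v => by
      have := (D.simi (c := 1) (simi_quad_iff.2 ⟨one_ne_zero, fun x => by
        rw [one_mul]; exact mem_isometryGroup.1 g.2 x⟩)).Q v
      rwa [map_one, one_mul] at this
  exact ⟨((isometryEquiv _).trans (he.isomCongr.trans (isometryEquiv _).symm)).toMonoidHom.comp ψ,
    ((isometryEquiv _).trans (he.isomCongr.trans (isometryEquiv _).symm)).injective.comp
      fun x y h => Subtype.ext (D.rho_inj (congrArg Subtype.val h))⟩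

end Cfsg.Agent.S2679
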