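import Cfsg.Statements.S2682
import Cfsg.Agent.Classical.Inv2c

set_option autoImplicit false
open Cfsg

namespace Cfsg.Agent.S2682

open Cfsg.Agent.Classical Cfsg.Agent.Geom Cfsg.Agent.Geom.Formed Module

/-- Centraliser order of an involution t of Sp_2m(q), q even, with s = rank(t − 1) even and f(v, tv) ≠ 0 for some v, f the symplectic form (type c_s): |C(t)| = q^(2ms − (3s² − 3s)/2 − 1) · |Sp_(s−2)(q)| · |Sp_(2m−2s)(q)|. -/
theorem result {F : Type*} [Field F] [Fintype F] [CharP F 2] {q : ℕ} (hF : Fintype.card F = q) {m s : ℕ} (t : Matrix.symplecticGroup (Fin m) F) (ht : t ^ 2 = 1) (hs : ((t : Matrix (Fin m ⊕ Fin m) (Fin m ⊕ Fin m) F) - 1).rank = s) (heven : Even s) (hna : ∃ v : Fin m ⊕ Fin m → F, Cfsg.sympForm m F v ((t : Matrix (Fin m ⊕ Fin m) (Fin m ⊕ Fin m) F).mulVec v) ≠ 0) : Nat.card ↥(Subgroup.centralizer ({t} : Set ↥(Matrix.symplecticGroup (Fin m) F))) = q ^ (2 * m * s -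 (3 * s ^ 2 - 3 * s) / 2 - 1) * ((q : ℕ) ^ (((s - 2) / 2) ^ 2) * ∏ i : Fin ((s - 2) / 2), (q ^ (2 * ((i : ℕ) + 1)) - 1)) * ((q : ℕ) ^ ((m - s) ^ 2) * ∏ i : Fin (m - s), (q ^ (2 * ((i : ℕ) + 1)) - 1)) := by
  obtain ⟨h0, -, h2⟩ := card_cent_sp hF t ht hs
  obtain ⟨k, rfl⟩ : ∃ k, s = 2 * (k + 1) := by
    obtain ⟨k, rfl⟩ := heven
    rcases k with _ | k
    · obtain ⟨v, hv⟩ := hna
      have h1 := mov_eq_bot_iff.1 (Submodule.finrank_eq_zero.1
        ((finrank_mov_eq_rank (g := (spEquiv m F t).1) fun _ => rfl).trans hs))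
      rw [← spEquiv_apply, h1, ← sympFormed_B, LinearEquiv.coe_one, id, B_self_two] at hv
      simp at hv
    · exact ⟨k, by ring⟩
  rw [h2 (by simpa using hna), if_pos heven, ← mul_assoc, ← pow_add,
    show (2 * (k + 1) - 1) / 2 = (2 * (k + 1) - 2) / 2 by omega, spOrd_eq, spOrd_eq]
  congr 3
  have h3 : 3 * (2 * (k + 1)) ^ 2 = 2 * (6 * k * k + 12 * k + 6) := by ring
  have h4 : 2 * (2 * (k + 1)) * (2 * (k + 1)) ≤ 2 * m * (2 * (k + 1)) := by gcongr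
  have h5 : 2 * (2 * (k + 1)) * (2 * (k + 1)) = 8 * (k * k) + 16 * k + 8 := by ring
  rw [h3, mul_assoc 6]
  omega

end Cfsg.Agent.S2682
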