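import Cfsg.Statements.S2692
import Cfsg.Agent.AutCl.OutCl

set_option autoImplicit false
open Cfsg

namespace Cfsg.Agent.S2692

/-- Every automorphism of a simple PSU_n(q), n ≥ 3, (n, q) ≠ (3, 2), realised over the field F with q² elements, is a product δ φ of an inner-diagonal automorphism δ (induced by a general unitary matrix) and a standard field automorphism φ (one automorphism of F applied to every entry, possibly the identity; the standard field automorphisms of even order are the graph automorphisms here). -/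
theorem result {F : Type*} [Field F] [Fintype F] {p f q : ℕ} [Fact p.Prime] (hq : q = p ^ f) (hf : 1 ≤ f) (hF : Fintype.card F = q ^ 2) {n : ℕ} (hn : 3 ≤ n) (hs : ¬ (n = 3 ∧ q = 2)) (β : MulAut (Cfsg.PSU n F q)) :
    ∃ (δ φ : MulAut (Cfsg.PSU n F q)) (σ : F ≃+* F), Cfsg.IsInnerDiagonalAutPSU δ ∧ Cfsg.IsFieldAutPSUOf σ φ ∧ β = δ * φ := by
  open Cfsg.Agent.AutCl SemidirectProduct in
  obtain ⟨x, rfl⟩ := clSU_surj hF hn hs β
  haveI : Fact (Fintype.card F = q ^ 2) := ⟨hF⟩
  have C := clSU hF hn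
  have h := (std_herm hF n).semi_left (mult_spec x)
  obtain ⟨t, ht⟩ := Classical.exists_norm_eq (q := q) (C.semi_sigma h)
  have ht0 : t ≠ 0 := by rintro rfl; exact h.ne (by simpa using ht.symm)
  obtain ⟨g, hg, e⟩ := Semi.exists_isom (t := Units.mk0 t ht0) (by
    rw [Units.val_mk0, Geom.frobq_apply, mul_comm, ht]; exact h)
  refine ⟨C.theta ⟨_, _, semi_of_isom hg⟩, C.theta ⟨_, _, std_herm hF n x.1.right⟩, x.1.right,
    ⟨g, (Geom.mem_hermFormed_isom hF n).1 hg, fun s s' e =>
      (C.eq_theta_iff _ _).2 rfl s s' (e.trans (by simp [coe_jSU]))⟩,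
    fun s s' e => (C.eq_theta_iff _ _).2 rfl s s' (e.trans (by simp [coe_jSU])), ?_⟩
  rw [← map_mul, ← one_mul (C.theta (_ * _)),
    ← (C.theta_eq_one_iff ⟨_, scal_mem_GamS (Units.mk0 t ht0)⟩).2 ⟨_, rfl⟩, ← map_mul]
  congr 1
  refine Subtype.ext ?_
  change _ = inl _ * (inl g * inr _)
  rw [← mul_assoc, ← map_mul, ← e, inl_left_mul_inr_right]

end Cfsg.Agent.S2692
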