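import Cfsg.Statements.S2698
import Cfsg.Agent.AutCl.LangPSL

set_option autoImplicit false
open Cfsg

namespace Cfsg.Agent.S2698

/-- Let T = PSL_n(F) be simple over the field F with p^f elements (n ≥ 2; p^f ≥ 4 when n = 2), G = Inndiag(T) the image of PGL_n(F) in Aut(T), and x a field automorphism of T of prime order r. Then r divides f; the centralizer C_G(x) is isomorphic to PGL_n(F₀) for the subfield size |F₀| = p^(f/r); and the G-class of x is the union of exactly gcd(n, (p^f − 1)/(p^(f/r) − 1)) classes under conjugation by T (the inner automorphism group). -/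
theorem result {F : Type*} [Field F] [Fintype F] {p f : ℕ} [Fact p.Prime] (hF : Fintype.card F = p ^ f) (hf : 1 ≤ f) {n : ℕ} (hn : 2 ≤ n) (hs : n = 2 → 4 ≤ Fintype.card F) (x : MulAut (Matrix.ProjectiveSpecialLinearGroup (Fin n) F)) (hx : Cfsg.IsFieldAutClassPSL x) {r : ℕ} (hr : r.Prime) (hxr : orderOf x = r) (F₀ : Type*) [Field F₀] [Fintype F₀] (hF₀ : Fintype.card F₀ = p ^ (f / r)) :
    r ∣ f ∧ Nonempty (↥(Cfsg.inndiagPSL n F ⊓ Subgroup.centralizer {x}) ≃* Matrix.ProjGenLinGroup (Fin n) F₀) ∧ Cfsg.splitClassCount (Cfsg.inndiagPSL n F) (Cfsg.Inn (Matrix.ProjectiveSpecialLinearGroup (Fin n) F)) x = Nat.gcd n ((p ^ f - 1) / (p ^ (f / r) - 1)) := by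
  open Cfsg.Agent.AutCl in
  have := charP_of_card_eq hF
  have h2 : 2 ≤ Fintype.card (Fin n) := by simpa
  rw [inndiagPSL_eq]
  have := normal_range_diagAut (F := F) (p := p) hn
  obtain ⟨α, σ, hσ, h⟩ := hx
  rw [isStdField_iff] at h
  have ho : orderOf σ = r := by
    rw [← orderOf_fieldAut h2, ← h, ← hxr]; exact (MulAut.conj α).orderOf_eq x
  obtain ⟨φ, hφ⟩ := exists_isFix' hF ho F₀ hF₀
  refine ⟨ho ▸ orderOf_dvd_of_card hF σ, ?_, ?_⟩
  · obtain ⟨e₁⟩ := conj_cen_equiv (H := diagAut.range) α x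
    obtain ⟨e₂⟩ := (pMod_psl (F := F) h2).cen_equiv hφ (n := ⟨SemidirectProduct.inr σ, trivial⟩)
      (d := 1) (g := 1) (by simp [scal_one]) ⊤ (by simp)
    rw [h, fieldAut_eq] at e₁
    exact ⟨e₁.trans (e₂.trans projQuotTop)⟩
  · rw [← splitClassCount_conj inn_le_range_diagAut α, h, split_field_psl h2 hφ,
      Nat.card_eq_fintype_card, Nat.card_eq_fintype_card, hF, hF₀, Fintype.card_fin]

end Cfsg.Agent.S2698
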