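import Cfsg.Statements.S2704
import Cfsg.Agent.AutCl.LangPSL

set_option autoImplicit false
open Cfsg

namespace Cfsg.Agent.S2704

/-- Let T = PSL_n(F) over the field F with p^f elements, n ≥ 3, and G = Inndiag(T) the image of PGL_n(F). If x is an involutory graph-field automorphism of T then f is even; x is G-conjugate to every other involutory graph-field automorphism; C_G(x) is isomorphic to the projective general unitary group PGU_n(q₀) with q₀² = p^f, realised over F itself through the Hermitian form Σ uᵢ vᵢ^{q₀}; and the G-class of x is the union of exactly gcd(n, q₀ − 1) T-classes. -/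
theorem result {F : Type*} [Field F] [Fintype F] {p f : ℕ} [Fact p.Prime] (hF : Fintype.card F = p ^ f) (hf : 1 ≤ f) {n : ℕ} (hn : 3 ≤ n) (x : MulAut (Matrix.ProjectiveSpecialLinearGroup (Fin n) F)) (hx : Cfsg.IsGraphFieldAutClassPSL x) (hx2 : orderOf x = 2) :
    Even f ∧ (∀ y : MulAut (Matrix.ProjectiveSpecialLinearGroup (Fin n) F), Cfsg.IsGraphFieldAutClassPSL y → orderOf y = 2 → Cfsg.IsConjUnder (Cfsg.inndiagPSL n F) x y) ∧ Nonempty (↥(Cfsg.inndiagPSL n F ⊓ Subgroup.centralizer {x}) ≃* Cfsg.PGU n F (p ^ (f / 2))) ∧ Cfsg.splitClassCount (Cfsg.inndiagPSL n F) (Cfsg.Inn (Matrix.ProjectiveSpecialLinearGroup (Fin n) F)) x = Nat.gcd n (p ^ (f / 2) - 1) := by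
  open Cfsg.Agent.AutCl in
  have := charP_of_card_eq hF
  have h2 : 2 ≤ n := by omega
  have h3 : 3 ≤ Fintype.card (Fin n) := by simpa
  rw [inndiagPSL_eq]
  have := normal_range_diagAut (F := F) (p := p) h2
  have key : ∀ y : MulAut (Matrix.ProjectiveSpecialLinearGroup (Fin n) F),
      Cfsg.IsGraphFieldAutClassPSL y → orderOf y = 2 → ∃ α σ, orderOf σ = 2 ∧
        α * y * α⁻¹ = fieldAut σ * itAut := by
    rintro y ⟨-, α, φ, γ, σ, hσ, hφ, hγ, h⟩ hy
    rw [isStdField_iff] at hφ
    rw [isInverseTranspose_iff] at hγ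
    subst hφ hγ
    exact ⟨α, σ, (gf_order h3 (σ := σ) hσ Nat.prime_two (by
      rw [← h, ← hy]; exact (MulAut.conj α).orderOf_eq y)).2, h⟩
  obtain ⟨α, σ, ho, h⟩ := key x hx hx2
  obtain ⟨he, hq, hσq⟩ := eq_frobq_of_order hF ho
  obtain ⟨π, -, hk, -⟩ := exists_autHom_three (F := F) (p := p) hn
  have := isCyclic_ringAut (F := F)
  have := finite_ringAut (F := F)
  have : IsMulCommutative (F ≃+* F) := IsCyclic.isMulCommutative
  refine ⟨he, fun y hy hy2 => ?_, ?_, ?_⟩
  · obtain ⟨β, τ, ho', h'⟩ := key y hy hy2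
    obtain rfl := eq_of_orderOf_two ho ho'
    have hc : ∀ a b, π a * π b = π b * π a := fun a b =>
      Prod.ext (mul_comm' _ _) (mul_comm _ _)
    have hm : y * x⁻¹ ∈ diagAut.range := by
      have h1 := congrArg π (h.trans h'.symm)
      simp only [map_mul, map_inv] at h1
      rw [hc, hc β, mul_assoc, mul_assoc, mul_inv_cancel, mul_inv_cancel, mul_one, mul_one] at h1
      rw [← hk, MonoidHom.mem_ker, map_mul, map_inv, h1, mul_inv_cancel]
    have := (lang_conj (α := α) hm hx2 fun δ' hδ' h'' => by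
      rw [h] at h'' ⊢
      exact lang_gf hq hσq h2 hδ' h'').1 (by simpa)
    simpa using this
  · obtain ⟨e₁⟩ := conj_cen_equiv (H := diagAut.range) α x
    obtain ⟨e₂⟩ := cen_gf_equiv hq hσq h2
    rw [h] at e₁
    exact ⟨e₁.trans e₂⟩
  · rw [← splitClassCount_conj inn_le_range_diagAut α, h, split_gf hq hσq h2]

end Cfsg.Agent.S2704
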