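import Cfsg.Statements.S2705
import Cfsg.Agent.AutCl.LangCl

set_option autoImplicit false
open Cfsg

namespace Cfsg.Agent.S2705

/-- Let T = PSU_n(q) be simple (n ≥ 3, (n, q) ≠ (3, 2), q = p^f), realised over the field F with q² elements, G = Inndiag(T) the image of PGU_n(q) in Aut(T), and x a field automorphism of T (conjugate to a standard field automorphism of odd order) of odd prime order r. Then r divides f; C_G(x) is isomorphic to PGU_n(q₀) with q₀ = p^(f/r), realised over a field F₀ with q₀² elements; and the G-class of x is the union of exactly gcd(n, (q + 1)/(q₀ + 1)) T-classes. -/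
theorem result {F : Type*} [Field F] [Fintype F] {p f q : ℕ} [Fact p.Prime] (hq : q = p ^ f) (hf : 1 ≤ f) (hF : Fintype.card F = q ^ 2) {n : ℕ} (hn : 3 ≤ n) (hs : ¬ (n = 3 ∧ q = 2)) (x : MulAut (Cfsg.PSU n F q)) (hx : Cfsg.IsFieldAutClassPSU x) {r : ℕ} (hr : r.Prime) (hro : Odd r) (hxr : orderOf x = r) (F₀ : Type*) [Field F₀] [Fintype F₀] (hF₀ : Fintype.card F₀ = p ^ (2 * (f / r))) :
    r ∣ f ∧ Nonempty (↥(Cfsg.inndiagPSU n F q ⊓ Subgroup.centralizer {x}) ≃* Cfsg.PGU n F₀ (p ^ (f / r))) ∧ Cfsg.splitClassCount (Cfsg.inndiagPSU n F q) (Cfsg.Inn (Cfsg.PSU n F q)) x = Nat.gcd n ((q + 1) / (p ^ (f / r) + 1)) := by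
  open Cfsg.Agent.AutCl Cfsg.Agent.Geom in
  obtain ⟨α, φ, τ, -, hτ, h, rfl⟩ := hx
  rw [inndiagPSU_eq hF hn]
  have : Nonempty (Fin n) := ⟨⟨0, by omega⟩⟩
  have P := (clSU hF hn).pSim
  have := P.normal (clSU_surj hF hn hs) fun _ hn _ => conj_mem_Sim hn
  have h : α * x * α⁻¹ = (clSU hF hn).theta ((std_herm hF n).fa τ) := ((clSU hF hn).field_iff _ _).1 h
  have ho : orderOf τ = r := by
    rw [← P.orderOf_eq ((std_herm hF n).fa_eq τ), ← h, ← hxr]; exact (MulAut.conj α).orderOf_eq x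
  have hF' : Fintype.card F = p ^ (2 * f) := by rw [hF, hq, pow_mul']
  have hd : r ∣ f := (Nat.coprime_two_right.2 hro).dvd_of_dvd_mul_left
    (ho ▸ orderOf_dvd_of_card hF' τ)
  obtain ⟨φ, hφ⟩ := exists_isFix' hF' ho F₀ (by rw [hF₀, Nat.mul_div_assoc _ hd])
  rw [pow_mul'] at hF₀
  have hq' : q = (p ^ (f / r)) ^ r := by rw [← pow_mul, Nat.div_mul_cancel hd, hq]
  have hσ := frobq_compat hF hF₀ hro hq' φ
  refine ⟨hd, ?_, ?_⟩
  · obtain ⟨e₁⟩ := conj_cen_equiv (H := (clSU hF hn).inD (Sim (hermFormed hF n))) α x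
    obtain ⟨e₂⟩ := P.cen_equiv hφ ((std_herm hF n).fa_eq τ) (Sim (hermFormed hF₀ n)) fun g =>
      (isDesc_herm hF hF₀ hσ n).mem_Sim_iff (hermFormed_nondeg hF n) g
    obtain ⟨e₃⟩ := projQuot_equiv_of_le (gu_le_Sim hF₀) (exists_GU hF₀ hn) scal_mem_Sim
    rw [h] at e₁
    exact ⟨e₁.trans (e₂.trans e₃.symm)⟩
  · rw [← splitClassCount_conj ((clSU hF hn).inn_le_inD (clSU hF hn).inl_mem) α, h,
      split_herm hF hF₀ hφ hσ hn (by simpa [← hq'] using hro.nat_add_dvd_pow_add_pow (p ^ (f / r)) 1)]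

end Cfsg.Agent.S2705
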