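import Cfsg.Statements.S2711
import Cfsg.Agent.AutCl.LangCl

set_option autoImplicit false
open Cfsg

namespace Cfsg.Agent.S2711

/-- Let T = PSU_n(q) be simple (n ≥ 3, (n,q) ≠ (3,2)), realised over the field F with q² elements, and let x be a field automorphism of T (conjugate to a standard field automorphism of odd order) of prime order r. Then an element y of the coset Inndiag(T)·x (y = δ x with δ in the image of PGU_n(q)) has order r if and only if y is conjugate to x by an element of Inndiag(T). (T has no graph-field automorphisms.) -/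
theorem result {F : Type*} [Field F] [Fintype F] {p f q : ℕ} [Fact p.Prime] (hq : q = p ^ f) (hf : 1 ≤ f) (hF : Fintype.card F = q ^ 2) {n : ℕ} (hn : 3 ≤ n) (hs : ¬ (n = 3 ∧ q = 2)) (x δ : MulAut (Cfsg.PSU n F q)) (hx : Cfsg.IsFieldAutClassPSU x) {r : ℕ} (hr : r.Prime) (hxr : orderOf x = r) (hδ : δ ∈ Cfsg.inndiagPSU n F q) :
    orderOf (δ * x) = r ↔ Cfsg.IsConjUnder (Cfsg.inndiagPSU n F q) x (δ * x) := by
  open Cfsg.Agent.AutCl Cfsg.Agent.Geom in
  obtain ⟨α, φ, τ, -, hτ, h, rfl⟩ := hx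
  rw [inndiagPSU_eq hF hn] at hδ ⊢
  have P := (clSU hF hn).pSim
  have := P.normal (clSU_surj hF hn hs) fun _ hn _ => conj_mem_Sim hn
  have h : α * x * α⁻¹ = (clSU hF hn).theta ((std_herm hF n).fa τ) := ((clSU hF hn).field_iff _ _).1 h
  have ho : orderOf τ = r := by
    rw [← P.orderOf_eq ((std_herm hF n).fa_eq τ), ← h, ← hxr]; exact (MulAut.conj α).orderOf_eq x
  have hF' : Fintype.card F = p ^ (2 * f) := by rw [hF, hq, pow_mul']
  have hd : r ∣ f := (Nat.coprime_two_right.2 (ho ▸ hτ)).dvd_of_dvd_mul_left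
    (ho ▸ orderOf_dvd_of_card hF' τ)
  obtain ⟨K, hK, hc⟩ := exists_isFix_pf hF' τ
  have := Fintype.ofFinite K
  rw [ho, Nat.mul_div_assoc _ hd, pow_mul', Nat.card_eq_fintype_card] at hc
  refine lang_conj (α := α) hδ hxr fun δ' hδ' h' => ?_
  rw [h] at h' ⊢
  exact P.lang hK ((std_herm hF n).fa_eq τ) (fun s hs d g e => good_herm hF hc hK
    (frobq_compat hF hc (ho ▸ hτ) (by rw [← pow_mul, Nat.div_mul_cancel hd, hq]) _) (by omega)
    (good_of_mul hs e)) hδ' (ho ▸ h')

end Cfsg.Agent.S2711
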