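import Cfsg.Statements.S2713
import Cfsg.Agent.AutCl.LangCl

set_option autoImplicit false
open Cfsg

namespace Cfsg.Agent.S2713

/-- Let T = PSp_{2m}(F) be simple over a finite field (m ≥ 2, (2m, |F|) ≠ (4, 2)) and let x be a field automorphism of T of prime order r. Then an element y of the coset Inndiag(T)·x (y = δ x with δ in the image of the projective conformal symplectic group) has order r if and only if y is conjugate to x by an element of Inndiag(T). -/
theorem result {F : Type*} [Field F] [Fintype F] {m : ℕ} (hm : 2 ≤ m) (hs : m = 2 → 3 ≤ Fintype.card F) (x δ : MulAut (Cfsg.PSp m F)) (hx : Cfsg.IsFieldAutClassPSp x) {r : ℕ} (hr : r.Prime) (hxr : orderOf x = r) (hδ : δ ∈ Cfsg.inndiagPSp m F) :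
    orderOf (δ * x) = r ↔ Cfsg.IsConjUnder (Cfsg.inndiagPSp m F) x (δ * x) := by
  open Cfsg.Agent.AutCl Cfsg.Agent.Geom in
  obtain ⟨α, τ, -, h⟩ := hx
  rw [inndiagPSp_eq hm] at hδ ⊢
  have := normal_inD_symp (F := F) hm
  have P := (clSp (F := F) hm).pSim
  have h : α * x * α⁻¹ = (clSp hm).theta ((std_symp m).fa τ) := ((clSp hm).field_iff _ _).1 h
  have ho : orderOf τ = r := by
    rw [← P.orderOf_eq ((std_symp m).fa_eq τ), ← h, ← hxr]; exact (MulAut.conj α).orderOf_eq x
  obtain ⟨K, hf, -⟩ := exists_isFix_card τ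
  refine lang_conj (α := α) hδ hxr fun δ' hδ' h' => ?_
  rw [h] at h' ⊢
  exact P.lang hf ((std_symp m).fa_eq τ) (fun s hs d g e => good_symp hf (by omega)
    (good_of_mul hs e)) hδ' (ho ▸ h')

end Cfsg.Agent.S2713
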