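import Cfsg.Statements.S2714
import Cfsg.Agent.AutCl.OSplit

set_option autoImplicit false
open Cfsg

namespace Cfsg.Agent.S2714

/-- Let T = Ω_{2m+1}(F) (m ≥ 3, |F| = p^f odd; realised as PΩ of the form x₀² + Σ xᵢ yᵢ), G = Inndiag(T) the image of the conformal orthogonal group in Aut(T), and x a field automorphism of T of prime order r. Then r divides f; C_G(x) is isomorphic to Inndiag(Ω_{2m+1}(F₀)) for a field F₀ with p^(f/r) elements; and the G-class of x is a single T-class when r is odd and the union of exactly two T-classes when r = 2. -/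
theorem result {F : Type*} [Field F] [Fintype F] {p f : ℕ} [Fact p.Prime] (hF : Fintype.card F = p ^ f) (hf : 1 ≤ f) (hodd : Odd (Fintype.card F)) {m : ℕ} (hm : 3 ≤ m) (x : MulAut (Cfsg.POmega F (Cfsg.quadFormOdd m F))) (hx : Cfsg.IsFieldAutClassPOmega (Cfsg.quadFormOdd m F) x) {r : ℕ} (hr : r.Prime) (hxr : orderOf x = r) (F₀ : Type*) [Field F₀] [Fintype F₀] (hF₀ : Fintype.card F₀ = p ^ (f / r)) :
    r ∣ f ∧ Nonempty (↥(Cfsg.inndiagPOmegaOdd m F ⊓ Subgroup.centralizer {x}) ≃* ↥(Cfsg.inndiagPOmegaOdd m F₀)) ∧ (Odd r → Cfsg.splitClassCount (Cfsg.inndiagPOmegaOdd m F) (Cfsg.Inn (Cfsg.POmega F (Cfsg.quadFormOdd m F))) x = 1) ∧ (r = 2 → Cfsg.splitClassCount (Cfsg.inndiagPOmegaOdd m F) (Cfsg.Inn (Cfsg.POmega F (Cfsg.quadFormOdd m F))) x = 2) := by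
  open Cfsg.Agent.AutCl Cfsg.Agent.Geom Cfsg.Agent.Geom.Formed in
  obtain ⟨α, φ, σ, hσ, h1, h⟩ := hx
  have h2 := two_ne_zero_of_odd_card hodd
  have hQ := qO_nondeg m h2
  have h7 := qO_h7 hm
  have P := (clO hQ h7).pSim
  have := P.ne
  obtain ⟨ho, hs, ⟨e₁⟩⟩ := conj_transfer hQ h7 (P.normal (qO_surj hm h2) fun _ hn _ => conj_mem_Sim hn)
    Zs_le_Sim (h.trans (((clO hQ h7).field_iff ((std_qO m).fa σ).2 _).1 h1))
  have ho : orderOf σ = r := (P.orderOf_inr _).symm.trans (ho.trans hxr)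
  obtain ⟨f, hf⟩ := exists_isFix' hF ho F₀ hF₀
  have hQ₀ := qO_nondeg m (two_ne_of_map f h2)
  have hs := hs.trans (split_odd_dim hQ h7 (isDesc_odd f m) (qO_odd m) hf ((std_qO m).fa_eq σ))
  rw [ho] at hs
  obtain ⟨e₂⟩ := P.cen_equiv hf ((std_qO m).fa_eq σ) _ ((isDesc_odd f m).mem_Sim_iff hQ)
  obtain ⟨e₃⟩ := (clO hQ₀ h7).pSim.nonempty_equiv
  have e₄ := MulEquiv.subgroupCongr (pgoAut_eq hQ₀ h7)
  rw [show inndiagPOmegaOdd m F = _ from pgoAut_eq hQ h7]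
  exact ⟨ho ▸ orderOf_dvd_of_card hF σ, ⟨(e₁.trans (e₂.trans (e₃.symm.trans e₄.symm)) :)⟩, fun h => hs.trans (if_pos h),
    fun h => hs.trans (if_neg (by simp [h]))⟩

end Cfsg.Agent.S2714
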