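import Cfsg.Statements.S2715
import Cfsg.Agent.AutCl.OD4

set_option autoImplicit false
open Cfsg

namespace Cfsg.Agent.S2715

/-- Let T = PΩ⁺_{2m}(F) (m ≥ 4, |F| = p^f; the form Σ xᵢ yᵢ), G = Inndiag(T) the image of the class-preserving similarities in Aut(T), and x a field automorphism of T of prime order r. Then r divides f; C_G(x) is isomorphic to Inndiag(PΩ⁺_{2m}(F₀)) for a field F₀ with p^(f/r) elements; and the G-class of x is the union of exactly c T-classes, where c = 1 if r is odd or p = 2, and otherwise (r = 2, p odd) c = 2 when m is odd and p^(f/2) ≡ 1 (mod 4), and c = 4 in the remaining cases. -/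
theorem result {F : Type*} [Field F] [Fintype F] {p f : ℕ} [Fact p.Prime] (hF : Fintype.card F = p ^ f) (hf : 1 ≤ f) {m : ℕ} (hm : 4 ≤ m) (x : MulAut (Cfsg.POmega F (Cfsg.quadFormPlus m F))) (hx : Cfsg.IsFieldAutClassPOmega (Cfsg.quadFormPlus m F) x) {r : ℕ} (hr : r.Prime) (hxr : orderOf x = r) (F₀ : Type*) [Field F₀] [Fintype F₀] (hF₀ : Fintype.card F₀ = p ^ (f / r)) :
    r ∣ f ∧ Nonempty (↥(Cfsg.inndiagPOmegaPlus m F ⊓ Subgroup.centralizer {x}) ≃* ↥(Cfsg.inndiagPOmegaPlus m F₀)) ∧ ((Odd r ∨ p = 2) → Cfsg.splitClassCount (Cfsg.inndiagPOmegaPlus m F) (Cfsg.Inn (Cfsg.POmega F (Cfsg.quadFormPlus m F))) x = 1) ∧ ((r = 2 ∧ p ≠ 2 ∧ Odd m ∧ p ^ (f / 2) % 4 = 1) → Cfsg.splitClassCount (Cfsg.inndiagPOmegaPlus m F) (Cfsg.Inn (Cfsg.POmega F (Cfsg.quadFormPlus m F))) x = 2) ∧ ((r = 2 ∧ p ≠ 2 ∧ ¬ (Odd m ∧ p ^ (f / 2) % 4 = 1)) → Cfsg.splitClassCount (Cfsg.inndiagPOmegaPlus m F) (Cfsg.Inn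 (Cfsg.POmega F (Cfsg.quadFormPlus m F))) x = 4) := by
  open Cfsg.Agent.AutCl Cfsg.Agent.Geom Cfsg.Agent.Geom.Formed in
  obtain ⟨α, φ, σ, hσ, h1, h⟩ := hx
  have E := evO_plus (F := F) hm
  have := E.ne
  haveI := charP_of_card_eq hF
  obtain ⟨ho, hs, ⟨e₁⟩⟩ := conj_transfer E.nd E.h7 (normal_plus hm) E.Om_le_SimP
    (h.trans (((clP F hm).field_iff ((std_qP m).fa σ).2 _).1 h1))
  have ho : orderOf σ = r := E.pMod.orderOf_right (n := (std_qP m).fa σ) hσ hr (ho.trans hxr)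
  obtain ⟨φ, hφ⟩ := exists_isFix' hF ho F₀ hF₀
  obtain ⟨e₂⟩ := E.cen_equiv hφ ((std_qP m).fa_eq σ) (isDesc_plus φ m) (evO_plus hm) rfl (qP_witt m) (qP_witt m)
  have h2 := fun (h : r = 2) (h' : p ≠ 2) => hs.trans (split_field_two hm (mt (two_eq_zero_iff F p).1 h') hφ (ho.trans h))
  rw [inndiagPlus_eq hm, inndiagPlus_eq hm]
  refine ⟨ho ▸ orderOf_dvd_of_card hF σ, ⟨(e₁.trans e₂ :)⟩, ?_, fun h => (h2 h.1 h.2.1).trans (if_pos ?_),
    fun h => (h2 h.1 h.2.1).trans (if_neg ?_)⟩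
  · rintro (h | h)
    · exact hs.trans (E.split_odd (isDesc_plus φ m) hφ (ho ▸ h) ((std_qP m).fa_eq σ))
    · exact E.split_char_two ((two_eq_zero_iff F p).2 h) _
  · rw [hF₀, h.1]; exact h.2.2
  · rw [hF₀, h.1]; exact h.2.2

end Cfsg.Agent.S2715
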