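import Cfsg.Statements.S2716
import Cfsg.Agent.AutCl.OSplit

set_option autoImplicit false
open Cfsg

namespace Cfsg.Agent.S2716

/-- Let T = PΩ⁻_{2m+2}(F) (m ≥ 3, |F| = p^f; the form Σ xᵢ yᵢ + z₁² + a z₁ z₂ + b z₂² with anisotropic binary part), G = Inndiag(T), and x a field automorphism of T of prime order r. Then r is odd and divides f; C_G(x) is isomorphic to Inndiag(PΩ⁻_{2m+2}(F₀)) for a field F₀ with p^(f/r) elements and some anisotropic binary part over F₀; and the G-class of x is a single T-class. -/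
theorem result {F : Type*} [Field F] [Fintype F] {p f : ℕ} [Fact p.Prime] (hF : Fintype.card F = p ^ f) (hf : 1 ≤ f) {m : ℕ} (hm : 3 ≤ m) (a b : F) (hab : (∀ z₁ z₂ : F, z₁ ^ 2 + a * z₁ * z₂ + b * z₂ ^ 2 = 0 → z₁ = 0 ∧ z₂ = 0)) (x : MulAut (Cfsg.POmega F (Cfsg.quadFormMinus m F a b))) (hx : Cfsg.IsFieldAutClassPOmegaMinus m x) {r : ℕ} (hr : r.Prime) (hxr : orderOf x = r) (F₀ : Type*) [Field F₀] [Fintype F₀] (hF₀ : Fintype.card F₀ = p ^ (f / r)) :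
    Odd r ∧ r ∣ f ∧ (∃ a₀ b₀ : F₀, (∀ z₁ z₂ : F₀, z₁ ^ 2 + a₀ * z₁ * z₂ + b₀ * z₂ ^ 2 = 0 → z₁ = 0 ∧ z₂ = 0) ∧ Nonempty (↥(Cfsg.inndiagPOmegaMinus m F a b ⊓ Subgroup.centralizer {x}) ≃* ↥(Cfsg.inndiagPOmegaMinus m F₀ a₀ b₀))) ∧ Cfsg.splitClassCount (Cfsg.inndiagPOmegaMinus m F a b) (Cfsg.Inn (Cfsg.POmega F (Cfsg.quadFormMinus m F a b))) x = 1 := by
  open Cfsg.Agent.AutCl Cfsg.Agent.Geom in
  obtain ⟨hodd, n, hn, hx⟩ := minus_field hm hab hx hr hxr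
  have E := evO_minus hm hab
  have := E.ne
  have hxr : orderOf ((clO E.nd E.h7).theta n) = r := hx ▸ hxr
  have ho := E.pMod.orderOf_right hn hr hxr
  obtain ⟨d, g, e⟩ := E.pMod.exists_descent ho (hxr ▸ pow_orderOf_eq_one _)
  obtain ⟨φ, hφ⟩ := exists_isFix' (τ := n.1.right) (r := r) hF ho F₀ hF₀
  obtain ⟨Q₁, μ, D⟩ := hφ.desc_quad E.nd (good_of_eq (n := n) e)
  obtain ⟨k, hk⟩ := (D.nondeg E.nd).exists_wittIndex
  rw [(D.witt_odd hφ (ho ▸ hodd) E hk).unique (qM_witt m hab)] at hk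
  obtain ⟨ζ, hζ⟩ := exists_irreducible_quad F₀
  have h0 := aniso_of_irreducible hζ
  have e₁ := E.cen_equiv hφ e D (evO_minus hm h0) rfl hk (qM_witt m h0)
  have hs := E.split_odd D hφ (ho ▸ hodd) e
  have hd : r ∣ f := ho ▸ orderOf_dvd_of_card hF _
  rw [inndiagMinus_eq hm hab, hx]
  refine ⟨hodd, hd, ⟨1, ζ, h0, ?_⟩, hs⟩
  rw [inndiagMinus_eq hm h0]
  exact e₁

end Cfsg.Agent.S2716
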