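import Cfsg.Statements.S2717
import Cfsg.Agent.AutCl.OGF

set_option autoImplicit false
open Cfsg

namespace Cfsg.Agent.S2717

/-- Let T = PΩ⁺_{2m}(F) with m ≥ 5 (dimension 2m ≠ 8) and |F| = p^f, G = Inndiag(T), and x an involutory graph-field automorphism of T. Then f is even; any two involutory graph-field automorphisms of T are G-conjugate; C_G(x) is isomorphic to Inndiag(PΩ⁻_{2m}(F₀)) for a field F₀ with p^(f/2) elements (some anisotropic binary part over F₀); and the G-class of x is the union of exactly c T-classes with c = 1 if p = 2, c = 4 if p is odd, m is odd and p^(f/2) ≡ 1 (mod 4), and c = 2 otherwise. -/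
theorem result {F : Type*} [Field F] [Fintype F] {p f : ℕ} [Fact p.Prime] (hF : Fintype.card F = p ^ f) (hf : 1 ≤ f) {m : ℕ} (hm : 5 ≤ m) (x : MulAut (Cfsg.POmega F (Cfsg.quadFormPlus m F))) (hx : Cfsg.IsGraphFieldAutClassPOmegaPlus m x) (hx2 : orderOf x = 2) (F₀ : Type*) [Field F₀] [Fintype F₀] (hF₀ : Fintype.card F₀ = p ^ (f / 2)) :
    Even f ∧ (∀ y : MulAut (Cfsg.POmega F (Cfsg.quadFormPlus m F)), Cfsg.IsGraphFieldAutClassPOmegaPlus m y → orderOf y = 2 → Cfsg.IsConjUnder (Cfsg.inndiagPOmegaPlus m F) x y) ∧ (∃ a₀ b₀ : F₀, (∀ z₁ z₂ : F₀, z₁ ^ 2 + a₀ * z₁ * z₂ + b₀ * z₂ ^ 2 = 0 → z₁ = 0 ∧ z₂ = 0) ∧ Nonempty (↥(Cfsg.inndiagPOmegaPlus m F ⊓ Subgroup.centralizer {x}) ≃* ↥(Cfsg.inndiagPOmegaMinus (m - 1) F₀ a₀ b₀))) ∧ (p = 2 → Cfsg.splitClassCount (Cfsg.inndiagPOmegaPlus m F) (Cfsg.Inn (Cfsg.POmega F (Cfsg.quadFormPlus m F))) x = 1) ∧ ((p ≠ 2 ∧ Odd m ∧ p ^ (f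 / 2) % 4 = 1) → Cfsg.splitClassCount (Cfsg.inndiagPOmegaPlus m F) (Cfsg.Inn (Cfsg.POmega F (Cfsg.quadFormPlus m F))) x = 4) ∧ ((p ≠ 2 ∧ ¬ (Odd m ∧ p ^ (f / 2) % 4 = 1)) → Cfsg.splitClassCount (Cfsg.inndiagPOmegaPlus m F) (Cfsg.Inn (Cfsg.POmega F (Cfsg.quadFormPlus m F))) x = 2) := by
  open Cfsg.Agent.AutCl Cfsg.Agent.Geom in
  have h4 : 4 ≤ m := by omega
  have E := evO_plus (F := F) h4
  have := E.ne
  haveI := charP_of_card_eq hF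
  obtain ⟨n, hn, hx⟩ := exists_GF h4 (qP_surj hm) hx
  have hx2 : orderOf ((clP F h4).theta n) = 2 := hx ▸ hx2
  have ho := E.pMod.orderOf_right hn.1 Nat.prime_two hx2
  obtain ⟨d, g, e⟩ := E.pMod.exists_descent ho (hx2 ▸ pow_orderOf_eq_one _)
  obtain ⟨φ, hφ⟩ := exists_isFix' hF ho F₀ hF₀
  obtain ⟨Q₁, μ, D⟩ := hφ.desc_quad E.nd (good_of_eq e)
  obtain ⟨ζ, hζ⟩ := exists_irreducible_quad F₀
  have h0 := aniso_of_irreducible hζ
  have h3 : 3 ≤ m - 1 := by omega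
  have e₁ := E.cen_equiv hφ e D (evO_minus h3 h0) (by simp; omega) (hn.witt hφ e D) (qM_witt _ h0)
  obtain ⟨n₁, hn₁, -, ho₁, hs⟩ := exists_gf_two h4 hφ ho
  obtain ⟨a, -, ha⟩ := hn.isConj hn₁ hx2 ho₁
  have hs := fun h : p ≠ 2 => (conj_transfer E.nd E.h7 (E.normal (qP_surj hm)) E.Om_le_SimP
    ha.symm).2.1.trans (hs (mt (two_eq_zero_iff F p).1 h))
  have hd : 2 ∣ f := ho ▸ orderOf_dvd_of_card hF _
  rw [hF₀] at hs
  rw [inndiagPlus_eq h4, hx]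
  refine ⟨even_iff_two_dvd.2 hd, fun y hy hy2 => ?_, ⟨1, ζ, h0, ?_⟩,
    fun h => E.split_char_two ((two_eq_zero_iff F p).2 h) _, fun h => (hs h.1).trans (if_pos h.2),
    fun h => (hs h.1).trans (if_neg h.2)⟩
  · obtain ⟨n', hn', hy⟩ := exists_GF h4 (qP_surj hm) hy
    rw [hy] at hy2 ⊢
    exact hn.isConj hn' hx2 hy2
  · rw [inndiagMinus_eq h3 h0]
    exact e₁

end Cfsg.Agent.S2717
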