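import Cfsg.Statements.S2718
import Cfsg.Agent.Mult.Bal10

set_option autoImplicit false
open Cfsg

namespace Cfsg.Agent.S2718

/-- Let T = PΩ⁺_{2m}(F) with m ≥ 4 and |F| = q odd, G = Inndiag(T), and γ an involutory graph automorphism of T induced by a similarity (one interchanging the two classes of maximal totally singular subspaces). Then the G-class of γ is either a single T-class or the union of exactly two T-classes, and it is the union of two unless m is odd and q ≡ 3 (mod 4). -/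
theorem result {F : Type*} [Field F] [Fintype F] (hodd : Odd (Fintype.card F)) {m : ℕ} (hm : 4 ≤ m) (γ : MulAut (Cfsg.POmega F (Cfsg.quadFormPlus m F))) (hγ : Cfsg.IsSimilarityGraphAutPOmegaPlus m γ) (hγ2 : orderOf γ = 2) :
    (Cfsg.splitClassCount (Cfsg.inndiagPOmegaPlus m F) (Cfsg.Inn (Cfsg.POmega F (Cfsg.quadFormPlus m F))) γ = 1 ∨ Cfsg.splitClassCount (Cfsg.inndiagPOmegaPlus m F) (Cfsg.Inn (Cfsg.POmega F (Cfsg.quadFormPlus m F))) γ = 2) ∧ (¬ (Odd m ∧ Fintype.card F % 4 = 3) → Cfsg.splitClassCount (Cfsg.inndiagPOmegaPlus m F) (Cfsg.Inn (Cfsg.POmega F (Cfsg.quadFormPlus m F))) γ = 2) := by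
  open Cfsg.Agent.AutCl Cfsg.Agent.Geom in
  obtain ⟨g, hg, h1, h2⟩ := hγ
  have E := evO_plus (F := F) hm
  have hg : g ∈ Sim (Formed.ofQuad (qP F m)) := (sim_quad_eq (qP F m)).le hg
  have h3 : γ = _ := ((clO E.nd E.h7).eq_theta_iff ⟨_, hg⟩ _).1 h2
  have h4 := @Mult.Bal.graph_split' _ _ _ F _ _ (qP F m) E (two_ne_zero_of_odd_card hodd) ⟨_, hg⟩ rfl γ h3 _
    (inndiagPlus_eq hm) (fun h => h1 ((E.preserves_iff (by simp; ring) (qP_witt m) hg).2
      (((clO E.nd E.h7).theta_mem_inD E.scal_mem_SimP hg).1 (by rwa [inndiagPlus_eq hm, h3] at h)))) hγ2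
  exact ⟨h4.1, fun h => h4.2 (.inl (not_not.1 (mt (neg_plus_iff hodd hm).1 h)))⟩

end Cfsg.Agent.S2718
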