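import Cfsg.Statements.S2725
import Cfsg.Agent.AutCl.OQuot

set_option autoImplicit false
open Cfsg

namespace Cfsg.Agent.S2725

/-- Let T = PΩ⁺_{2m}(F) with m ≥ 4 and |F| = q odd. The inner-diagonal group G = Inndiag(T) (image of the class-preserving similarities) taken modulo the inner automorphism group T is cyclic of order 2 when m is odd and q ≡ 3 (mod 4), cyclic of order 4 when m is odd and q ≡ 1 (mod 4), and elementary abelian of order 4 when m is even. -/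
theorem result {F : Type*} [Field F] [Fintype F] (hodd : Odd (Fintype.card F)) {m : ℕ} (hm : 4 ≤ m) :
    ((Odd m ∧ Fintype.card F % 4 = 3) → (∃ φ : ↥(Cfsg.inndiagPOmegaPlus m F) →* Multiplicative (ZMod 2), Function.Surjective φ ∧ φ.ker = (Cfsg.Inn (Cfsg.POmega F (Cfsg.quadFormPlus m F))).subgroupOf (Cfsg.inndiagPOmegaPlus m F))) ∧ ((Odd m ∧ Fintype.card F % 4 = 1) → (∃ φ : ↥(Cfsg.inndiagPOmegaPlus m F) →* Multiplicative (ZMod 4), Function.Surjective φ ∧ φ.ker = (Cfsg.Inn (Cfsg.POmega F (Cfsg.quadFormPlus m F))).subgroupOf (Cfsg.inndiagPOmegaPlus m F))) ∧ (Even m → (∃ φ : ↥(Cfsg.inndiagPOmegaPlus m F) →* Multiplicative (ZMod 2 × ZMod 2), Function.Surjective φ ∧ φ.ker = (Cfsg.Inn (Cfsg.POmega F (Cfsg.quadFormPlus m F))).subgroupOf (Cfsg.inndiagPOmegaPlus m F))) := by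
  open Cfsg.Agent.AutCl Cfsg.Agent.Geom Cfsg.Agent.Geom.Formed in
  have h2 := two_ne_zero_of_odd_card hodd
  obtain ⟨κ, h0, hκ⟩ := exists_not_isSquare h2
  obtain ⟨ρ, h1, h3, h4⟩ := exists_rho_plus hm h2 (Units.mk0 κ h0)
  have hn := neg_plus_iff hodd hm
  rw [inndiagPlus_eq hm]
  refine ⟨fun h => (evO_plus hm).inn_c2 h2 (hn.2 h), fun h => ?_, fun h => ?_⟩
  · exact (evO_plus hm).inn_c4 h2 (not_not.1 fun h' => by have := (hn.1 h').2; omega) hκ h1 h3
      (mt h4.1 (Nat.not_even_iff_odd.2 h.1))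
  · exact (evO_plus hm).inn_v4 h2 (not_not.1 fun h' => Nat.not_even_iff_odd.2 (hn.1 h').1 h) hκ h1 h3
      (h4.2 h)

end Cfsg.Agent.S2725
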