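import Cfsg.Statements.S2734
import Cfsg.Agent.ChAut.FoldEmb

set_option autoImplicit false
open Cfsg

namespace Cfsg.Agent.S2734

/-- In the Chevalley group of type D₄ over a finite field F (the matrix group generated by the root elements), a graph automorphism attached to a symmetry π of the Dynkin diagram (sending each fundamental root element x_p(t) to x_{π(p)}(t) and each x_{−p}(t) to x_{−π(p)}(t)) that has order 3 — a standard triality graph automorphism, π being a 3-cycle of the three outer nodes — has fixed-point subgroup isomorphic to the Chevalley group of type G₂ over F. -/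
theorem result {F : Type*} [Field F] [Fintype F] (τ : MulAut ↥(Cfsg.Lie.chevD4.group F)) (hτ : Cfsg.Lie.chevD4.IsGraphAut τ) (hτ3 : orderOf τ = 3) :
    Nonempty (↥(MonoidHom.eqLocus τ.toMonoidHom (MonoidHom.id ↥(Cfsg.Lie.chevD4.group F))) ≃* ↥(Cfsg.Lie.chevG2.group F)) := by
  open Cfsg.Agent.ChAut Cfsg.Agent.Chev in
  obtain ⟨π, h2, h3⟩ := isGraphAut_iff.1 hτ
  have h4 := h3.mul ChAut.oneLenD4 h3
  rcases (by decide +kernel : ∀ π ∈ _, π * π = 1 ∨ π = Chev.symD4.π ∨ π * π = Chev.symD4.π) π (ChAut.symsD4 h2)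
    with e | rfl | e
  · exact absurd (hτ3 ▸ orderOf_dvd_of_pow_eq_one (n := 2) ((sq τ).trans ((e ▸ h4).unique ChAut.isGr_one))) (by decide)
  · exact ChAut.fix_triality h3
  · obtain ⟨f⟩ := ChAut.fix_triality (e ▸ h4)
    have h5 : ∀ y, τ (τ (τ y)) = y := DFunLike.congr_fun (show τ * (τ * τ) = 1 by
      rw [← pow_orderOf_eq_one τ, hτ3, pow_three])
    exact ⟨(MulEquiv.subgroupCongr (Subgroup.ext fun y => ⟨fun h : τ y = y => show τ (τ y) = y by rw [h, h],
      fun h : τ (τ y) = y => (congrArg τ h).symm.trans (h5 y)⟩)).trans f⟩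

end Cfsg.Agent.S2734
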