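import Cfsg.Statements.S2736
import Cfsg.Agent.AutCl.OSplit

set_option autoImplicit false
open Cfsg

namespace Cfsg.Agent.S2736

/-- Let T = PΩ⁺_{2m}(F) with m ≥ 5 (dimension ≠ 8) and x a field automorphism or a graph-field automorphism of T of prime order r. Then an element y of the coset Inndiag(T)·x (y = δ x with δ induced by a class-preserving similarity) has order r if and only if y is conjugate to x by an element of Inndiag(T). -/
theorem result {F : Type*} [Field F] [Fintype F] {m : ℕ} (hm : 5 ≤ m) (x δ : MulAut (Cfsg.POmega F (Cfsg.quadFormPlus m F))) (hx : Cfsg.IsFieldAutClassPOmega (Cfsg.quadFormPlus m F) x ∨ Cfsg.IsGraphFieldAutClassPOmegaPlus m x) {r : ℕ} (hr : r.Prime) (hxr : orderOf x = r) (hδ : δ ∈ Cfsg.inndiagPOmegaPlus m F) :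
    orderOf (δ * x) = r ↔ Cfsg.IsConjUnder (Cfsg.inndiagPOmegaPlus m F) x (δ * x) := by
  open Cfsg.Agent.AutCl Cfsg.Agent.Geom in
  have E := evO_plus (F := F) (m := m) (by omega)
  have hs := clO_surj E.nd E.h7 (Or.inl (by simp; omega))
  obtain ⟨n, hn, rfl⟩ : ∃ n : GamS _, n.1.right ≠ 1 ∧ x = (clO E.nd E.h7).theta n := by
    rcases hx with ⟨α, φ, σ, hσ, h1, h⟩ | ⟨α, γ, φ, σ, v, s, hσ, -, -, h0, h2, h1, h⟩
    · exact exists_theta_of_conj hs (n := (std_qP m).fa σ) hσ
        (h.trans (((clO E.nd E.h7).field_iff _ _).1 h1))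
    · obtain rfl : s = ogl _ (refl (qP F m) v) := Units.ext (h0.trans (omat_refl (Q := qP F m) v).symm)
      refine exists_theta_of_conj hs (n := ogHom _ (refl (qP F m) v) * (std_qP m).fa σ)
        (fun e => hσ ((one_mul σ).symm.trans e)) (h.trans ?_)
      rw [map_mul, ((clO E.nd E.h7).field_iff ((std_qP m).fa σ).2 _).1 h1,
        ((clO E.nd E.h7).eq_theta_iff (ogHom _ (refl (qP F m) v)) _).1 h2]; rfl
  rw [inndiagPlus_eq (by omega)] at hδ ⊢
  exact E.lang hn hr hxr hδ

end Cfsg.Agent.S2736
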