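import Cfsg.Statements.S2738
import Cfsg.Agent.Classical.L34

set_option autoImplicit false
open Cfsg

namespace Cfsg.Agent.S2738

open Cfsg.Agent.Classical Matrix
open scoped MatrixGroups commutatorElement

/-- The special linear group SL(3, 4) has centre of order 3 and does not split over it: no subgroup is a complement to the centre (so SL(3, 4) is a non-split central extension of PSL(3, 4) by a group of order 3). -/
theorem result (F : Type*) [Field F] [Fintype F] (hF : Fintype.card F = 4) : Nat.card ↥(Subgroup.center (Matrix.SpecialLinearGroup (Fin 3) F)) = 3 ∧ ¬ ∃ K : Subgroup (Matrix.SpecialLinearGroup (Fin 3) F), Subgroup.IsComplement' (Subgroup.center (Matrix.SpecialLinearGroup (Fin 3) F)) K := by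
  have h1 := card_center_SL (F := F) (ι := Fin 3)
  rw [Nat.card_eq_fintype_card (α := F), hF] at h1
  refine ⟨h1, fun ⟨K, hK⟩ => ?_⟩
  have h2 : K = ⊤ := by
    rw [eq_top_iff, ← commutator_SL_eq_top (by simp), commutator_def, Subgroup.commutator_le]
    intro a _ b _
    obtain ⟨⟨z, a⟩, rfl⟩ := hK.2 a
    obtain ⟨⟨w, b⟩, rfl⟩ := hK.2 b
    have h3 := Subgroup.mem_center_iff.1 z.2
    have h4 := Subgroup.mem_center_iff.1 w.2
    rw [show ⁅z.1 * a.1, w.1 * b.1⁆ = ⁅a.1, b.1⁆ by
      have h5 : ∀ x g : SL(3, F), z.1 * x * g * (z.1 * x)⁻¹ = x * g * x⁻¹ := fun x g => by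
        rw [mul_assoc z.1, mul_assoc z.1, ← h3]; group
      rw [commutatorElement_def, h5, mul_assoc a.1, mul_assoc a.1, mul_assoc w.1, mul_assoc w.1, ← h4]
      simp [commutatorElement_def, mul_assoc]]
    exact K.mul_mem (K.mul_mem (K.mul_mem a.2 b.2) (K.inv_mem a.2)) (K.inv_mem b.2)
  have := hK.disjoint
  rw [h2, disjoint_top] at this
  simp [this] at h1

end Cfsg.Agent.S2738
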