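import Cfsg.Statements.S2739
import Cfsg.Agent.Classical.L34

set_option autoImplicit false
open scoped Pointwise
open Cfsg

namespace Cfsg.Agent.S2739

open scoped Pointwise
open Cfsg.Agent.Classical Matrix
open scoped MatrixGroups

/-- In the projective special linear group PSL(3, 4) all subgroups of order 3 are conjugate. -/
theorem result (F : Type*) [Field F] [Fintype F] (hF : Fintype.card F = 4) (X Y : Subgroup (Matrix.ProjectiveSpecialLinearGroup (Fin 3) F)) (hX : Nat.card ↥X = 3) (hY : Nat.card ↥Y = 3) : ∃ g : Matrix.ProjectiveSpecialLinearGroup (Fin 3) F, MulAut.conj g • X = Y := by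
  have : Fact (Nat.Prime 3) := ⟨Nat.prime_three⟩
  have key : ∀ X : Subgroup PSL(3, F), Nat.card X = 3 → ∃ x, orderOf x = 3 ∧ X = Subgroup.zpowers x := by
    intro X hX
    have := isCyclic_of_prime_card hX
    obtain ⟨x, hx⟩ := (Subgroup.isCyclic_iff_exists_zpowers_eq_top X).1 this
    exact ⟨x, by rw [← Nat.card_zpowers, hx, hX], hx.symm⟩
  obtain ⟨x, hx, rfl⟩ := key X hX
  obtain ⟨y, hy, rfl⟩ := key Y hY
  obtain ⟨g, rfl⟩ := isConj_iff.1 (isConj_psl34_three hF hx hy)
  exact ⟨g, (MulAut.conj g).toMonoidHom.map_zpowers x⟩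

end Cfsg.Agent.S2739
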