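import Cfsg.Statements.S2751
import Cfsg.Agent.Sig.GA8

set_option autoImplicit false
open Cfsg

namespace Cfsg.Agent.S2751

/-- Goldschmidt's bound for amalgams of index (3, 3): let M₁ and M₂ be finite subgroups of a group G such that M₁ ⊓ M₂ is a Sylow 2-subgroup of both M₁ and M₂, each quotient Mᵢ / O₂(Mᵢ) is isomorphic to the symmetric group of degree 3, and no nontrivial subgroup of M₁ ⊓ M₂ is normal in both M₁ and M₂. Then M₁ ⊓ M₂ has order at most 2^7. -/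
theorem result {G : Type*} [Group G] (M₁ M₂ : Subgroup G) [Finite M₁] [Finite M₂] (ha₁ : ∃ P : Sylow 2 M₁, (P : Subgroup M₁) = (M₁ ⊓ M₂).subgroupOf M₁) (ha₂ : ∃ P : Sylow 2 M₂, (P : Subgroup M₂) = (M₁ ⊓ M₂).subgroupOf M₂) (hb₁ : Nonempty (M₁ ⧸ Cfsg.pCore 2 M₁ ≃* Equiv.Perm (Fin 3))) (hb₂ : Nonempty (M₂ ⧸ Cfsg.pCore 2 M₂ ≃* Equiv.Perm (Fin 3))) (hc : ∀ N : Subgroup G, N ≤ M₁ ⊓ M₂ → (N.subgroupOf M₁).Normal → (N.subgroupOf M₂).Normal → N = ⊥) : Nat.card ↥(M₁ ⊓ M₂) ≤ 2 ^ 7 := by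
  open Cfsg.Agent.Loc Subgroup in
  set T := M₁ ⊓ M₂ with hT
  have l1 : T ≤ M₁ := inf_le_left
  have l2 : T ≤ M₂ := inf_le_right
  obtain ⟨S₁, hS₁⟩ := ha₁
  obtain ⟨S₂, hS₂⟩ := ha₂
  have k1 : S3 (T.subgroupOf M₁) ⊤ := s3_of_quot_top (hS₁ ▸ sylIn_top S₁) hb₁
  have k2 : S3 (T.subgroupOf M₂) ⊤ := s3_of_quot_top (hS₂ ▸ sylIn_top S₂) hb₂
  haveI : Finite T := finite_of_le l1
  obtain ⟨f₁, i1, e1⟩ := exists_completion (T.subgroupOf M₁) ((relIndex_top_right _).symm.trans k1.idx) (by norm_num)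
    (subgroupOfEquivOfLe l1)
  obtain ⟨f₂, i2, e2⟩ := exists_completion (T.subgroupOf M₂) ((relIndex_top_right _).symm.trans k2.idx) (by norm_num)
    (subgroupOfEquivOfLe l2)
  have e : ∀ t (ht : t ∈ T), f₁ ⟨t, l1 ht⟩ = f₂ ⟨t, l2 ht⟩ := fun t ht => Equiv.ext fun x =>
    (e1 ⟨⟨t, l1 ht⟩, ht⟩ x).trans (e2 ⟨⟨t, l2 ht⟩, ht⟩ x).symm
  have eT : (T.subgroupOf M₁).map f₁ = (T.subgroupOf M₂).map f₂ := le_antisymm
    (by rintro _ ⟨x, hx, rfl⟩; exact ⟨⟨x, l2 hx⟩, hx, (e x hx).symm⟩)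
    (by rintro _ ⟨x, hx, rfl⟩; exact ⟨⟨x, l1 hx⟩, hx, e x hx⟩)
  have s := Sig.GA.bound ((s3_map_iff i1).2 k1) (eT ▸ (s3_map_iff i2).2 k2) fun N hN n1 n2 => by
    have a1 : ∀ x ∈ (N.comap f₁).map M₁.subtype, x ∈ T := by
      rintro _ ⟨x, hx, rfl⟩
      exact (mem_map_iff_mem i1).1 (hN hx)
    have a2 : (N.comap f₁).map M₁.subtype = (N.comap f₂).map M₂.subtype := le_antisymm
      (fun x hx => by
        have ht := a1 x hx
        obtain ⟨y, hy, rfl⟩ := hx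
        exact ⟨⟨y, l2 ht⟩, mem_comap.2 (e y ht ▸ hy), rfl⟩)
      (by
        rintro _ ⟨y, hy, rfl⟩
        have ht : (y : G) ∈ T := (mem_map_iff_mem i2).1 (eT ▸ hN hy)
        exact ⟨⟨y, l1 ht⟩, mem_comap.2 ((e y ht).symm ▸ hy), rfl⟩)
    have nn : ∀ {P : Subgroup G} {f : P →* Equiv.Perm (T × Fin 3)}, (⊤ : Subgroup P).map f ≤ normalizer (N : Set _) →
        (((N.comap f).map P.subtype).subgroupOf P).Normal := fun {P f} h => by
      rw [subgroupOf, comap_map_eq_self_of_injective P.subtype_injective]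
      exact normal_of_top_le_normalizer ((map_le_iff_le_comap.1 h).trans (le_normalizer_comap _))
    have a3 := hc _ a1 (nn n1) (a2 ▸ nn n2)
    rw [map_eq_bot_iff_of_injective _ M₁.subtype_injective] at a3
    rw [← map_comap_eq_self (hN.trans (map_le_range _ _)), a3, Subgroup.map_bot]
  rwa [card_map_of_injective i1, card_subgroupOf l1] at s

end Cfsg.Agent.S2751
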