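import Cfsg.Statements.S2760
import Cfsg.Agent.Loc.SE

set_option autoImplicit false
open Cfsg

namespace Cfsg.Agent.S2760

/-- Let G be a finite group with C_G(O₂(G)) ≤ O₂(G) and H a subgroup of G such that H is normal in G, or the subgroup O²(H) generated by the elements of H of odd order is normal in G. Then C_H(O₂(H)) ≤ O₂(H). -/
theorem result {G : Type*} [Group G] [Finite G] (hchar : Subgroup.centralizer (Cfsg.pCore 2 G : Set G) ≤ Cfsg.pCore 2 G) (H : Subgroup G) (hH : H.Normal ∨ ((Cfsg.pResidual 2 ↥H).map H.subtype).Normal) : Subgroup.centralizer (Cfsg.pCore 2 ↥H : Set ↥H) ≤ Cfsg.pCore 2 ↥H := by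
  open Cfsg.Agent.Loc Subgroup in
  open scoped commutatorElement in
  have h := chP_top.2 hchar
  rcases hH with hH | hH
  · exact chP_iff.1 (h.subnIn (Sig.SubnIn.top_iff.2 hH.isSubnormal))
  · have h1 : ChP 2 (pResidualOf 2 H) := h.subnIn (Sig.SubnIn.top_iff.2 hH.isSubnormal)
    refine chP_iff.1 (chP_iff_xeIn.2 ?_)
    have h2 : Sig.xeIn 2 H ≤ pResidualOf 2 H :=
      Sig.xeIn_le_of_forall_coprime fun x hx hc => mem_pResidualOf (Sig.xeIn_le hx) hc
    exact eq_bot_iff.2 ((Sig.xeIn_le_xeIn_of_le h2 (pResidualOf_le _ _)).trans (chP_iff_xeIn.1 h1).le)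

end Cfsg.Agent.S2760
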