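import Cfsg.Statements.S2762
import Cfsg.Agent.PLocal.Qd
import Cfsg.Agent.Solv.Core

set_option autoImplicit false
open Cfsg

namespace Cfsg.Agent.S2762

open Cfsg.Agent.PLocal Cfsg.Agent.Solv Matrix

theorem pCore_SL2 {F : Type*} [Field F] [Fintype F] {p : ℕ} [Fact p.Prime] [CharP F p] :
    pCore p (SL2 F) = ⊥ := by
  obtain ⟨n, -, hn⟩ := FiniteField.card F p
  obtain ⟨v, hv, hv0⟩ := (isPGroup_pCore p (SL2 F)).exists_fixed_point_of_prime_dvd_card_of_fixed_point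
    (Fin 2 → F) (by simp [hn, ← pow_mul]) (a := 0) fun g => smul_zero g
  let S : Submodule F (Fin 2 → F) :=
    { carrier := {v | ∀ g ∈ pCore p (SL2 F), g.1 *ᵥ v = v}
      add_mem' := fun ha hb g hg => by rw [mulVec_add, ha g hg, hb g hg]
      zero_mem' := fun g _ => by simp
      smul_mem' := fun c _ ha g hg => by rw [mulVec_smul, ha g hg] }
  have := sl2_invariant_eq_top (S := S) (fun g y hy k hk => by
    have := hy _ (Subgroup.Normal.conj_mem' inferInstance k hk g)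
    conv_rhs => rw [← this]
    rw [mulVec_mulVec, mulVec_mulVec]
    exact congrArg (fun x : SL2 F => x.1 *ᵥ y) (by group : k * g = g * (g⁻¹ * k * g)))
    (y := v) (fun g hg => hv ⟨g, hg⟩) hv0.symm
  exact eq_bot_iff.2 fun g hg => Subtype.ext (Matrix.toLin'.injective (LinearMap.ext fun z => by
    simpa using this z g hg))

/-- Structure of Qd over a finite field F of characteristic p (the affine subgroup of SL₃(F)): its largest normal p-subgroup is the group of translations (matrices with upper-left block the identity), the block-diagonal matrices form a complement isomorphic to SL₂(F), and the translation subgroup is a natural SL₂(F)-module for that complement. -/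
theorem result {F : Type*} [Field F] [Fintype F] {p : ℕ} [Fact p.Prime] [CharP F p] : (∀ M : ↥(Cfsg.qdOver F), M ∈ Cfsg.pCore p ↥(Cfsg.qdOver F) ↔ ((M : Matrix.SpecialLinearGroup (Fin 3) F) : Matrix (Fin 3) (Fin 3) F) 0 0 = 1 ∧ ((M : Matrix.SpecialLinearGroup (Fin 3) F) : Matrix (Fin 3) (Fin 3) F) 0 1 = 0 ∧ ((M : Matrix.SpecialLinearGroup (Fin 3) F) : Matrix (Fin 3) (Fin 3) F) 1 0 = 0 ∧ ((M : Matrix.SpecialLinearGroup (Fin 3) F) : Matrix (Fin 3) (Fin 3) F) 1 1 = 1) ∧ ∃ K : Subgroup ↥(Cfsg.qdOver F), (∀ M : ↥(Cfsg.qdOver F), M ∈ K ↔ ((M : Matrix.SpecialLinearGroup (Fin 3) F) : Matrix (Fin 3) (Fin 3) F) 0 2 = 0 ∧ ((M : Matrix.SpecialLinearGroup (Fin 3) F) : Matrix (Fin 3) (Fin 3) F) 1 2 = 0) ∧ K ⊓ Cfsg.pCore p ↥(Cfsg.qdOver F) = ⊥ ∧ K ⊔ Cfsg.pCore p ↥(Cfsg.qdOver F) = ⊤ ∧ Nonempty (↥K ≃* Matrix.SpecialLinearGroup (Fin 2) F) ∧ Cfsg.IsNaturalSL2Module F (Cfsg.pCore p ↥(Cfsg.qdOver F)) K := by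
  choose y g hM using fun M : qdOver F => mem_qdOver.1 M.2
  let mk : (Fin 2 → F) → SL2 F → qdOver F := fun y g => ⟨qdM y g, mem_qdOver.2 ⟨y, g, rfl⟩⟩
  have h1 : ∀ a b, y (mk a b) = a ∧ g (mk a b) = b := fun a b => qdM_inj.1 (hM (mk a b)).symm
  have h2 : ∀ M, mk (y M) (g M) = M := fun M => Subtype.ext (hM M).symm
  have h3 : ∀ a b a' b', mk a b * mk a' b' = mk (a + b.1 *ᵥ a') (b * b') := fun a b a' b' =>
    Subtype.ext (qdM_mul a a' b b')
  have h0 : mk 0 1 = 1 := Subtype.ext qdM_one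
  let π : qdOver F →* SL2 F := MonoidHom.mk' g fun M N => by rw [← h2 M, ← h2 N, h3]; simp [h1]
  have hπ : ∀ M, π M = g M := fun _ => rfl
  have h4 : pCore p (qdOver F) = π.ker := by
    rw [← comap_pCore (f := π) (fun b => ⟨mk 0 b, (h1 0 b).2⟩) fun M => ⟨1, Subtype.ext ?_⟩, pCore_SL2]
    · rfl
    have : ∀ k : ℕ, M.1 ^ k = mk (k • y M) 1 := fun k => by
      induction k with
      | zero => simp [h0]
      | succ k ih => rw [pow_succ, ih, ← h2 M, h3, show g M = 1 from M.2, (h1 _ _).1]; simp [add_smul]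
    simp [this, ← Nat.cast_smul_eq_nsmul F, h0]
  let j : SL2 F →* qdOver F := MonoidHom.mk' (mk 0) fun a b => by simp [h3]
  have hj : Function.Injective j := fun a b h => (qdM_inj.1 (congrArg Subtype.val h)).2
  have h5 : ∀ M, M ∈ j.range ↔ y M = 0 := fun M =>
    ⟨by rintro ⟨b, rfl⟩; exact (h1 0 b).1, fun h => ⟨g M, by rw [← h2 M, h, (h1 _ _).2]; rfl⟩⟩
  have h6 : ∀ a (b : SL2 F), mk 0 b * mk a 1 * (mk 0 b)⁻¹ = mk (b.1 *ᵥ a) 1 := fun a b => by
    rw [mul_inv_eq_iff_eq_mul, h3, h3]; simp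
  rw [h4]
  refine ⟨fun M => ?_, j.range, fun M => ?_, eq_bot_iff.2 ?_, eq_top_iff.2 fun M _ => ?_,
    ⟨(MonoidHom.ofInjective hj).symm⟩, Subgroup.le_normalizer_of_normal, π.comp (Subgroup.subtype _),
    { toFun := fun v => y v.toMul
      invFun := fun a => .ofMul ⟨mk a 1, (h1 a 1).2⟩
      left_inv := fun v => Subtype.ext ((congrArg (mk _) (show g v.toMul = 1 from v.toMul.2).symm).trans (h2 _))
      right_inv := fun a => (h1 a 1).1
      map_add' := fun u v => by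
        change y (u.toMul * v.toMul) = _
        rw [← h2 u.toMul, ← h2 v.toMul, h3, show g u.toMul = 1 from u.toMul.2]; simp [h1] },
    fun b => ⟨⟨j b, b, rfl⟩, (h1 0 b).2⟩, ?_, ?_⟩
  · rw [MonoidHom.mem_ker, hπ, hM M, coe_qdM, Matrix.SpecialLinearGroup.ext_iff]
    simp [Fin.forall_fin_two, and_assoc]
  · rw [h5, hM M, coe_qdM, funext_iff]
    simp [Fin.forall_fin_two]
  · rintro _ ⟨⟨b, rfl⟩, hb⟩
    rw [show b = 1 from (h1 0 b).2.symm.trans hb, map_one]; exact one_mem _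
  · rw [← h2 M, sup_comm, show mk (y M) (g M) = mk (y M) 1 * mk 0 (g M) by simp [h3]]
    exact Subgroup.mul_mem_sup (h1 _ 1).2 ⟨_, rfl⟩
  · ext ⟨_, b, rfl⟩
    rw [MonoidHom.mem_ker, Subgroup.mem_subgroupOf, Subgroup.mem_centralizer_iff]
    change g (mk 0 b) = 1 ↔ ∀ h ∈ π.ker, h * mk 0 b = mk 0 b * h
    rw [(h1 0 b).2]
    refine ⟨by rintro rfl; simp [h0], fun h => Subtype.ext (Matrix.toLin'.injective
      (LinearMap.ext fun a => ?_))⟩
    have := h _ (h1 a 1).2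
    rw [h3, h3] at this
    simpa using (qdM_inj.1 (congrArg Subtype.val this)).1.symm
  · rintro ⟨_, b, rfl⟩ v
    refine ⟨⟨_, Subgroup.Normal.conj_mem inferInstance _ v.2 _⟩, rfl, ?_⟩
    change y (mk 0 b * v * (mk 0 b)⁻¹) = (g (mk 0 b)).1 *ᵥ y v
    rw [← h2 v, show g v = 1 from v.2, h6, (h1 _ _).1, (h1 _ _).1, (h1 _ _).2]

end Cfsg.Agent.S2762
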