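import Cfsg.Statements.S2766
import Cfsg.Agent.PLocal.PU8
import Cfsg.Agent.PLocal.ZJD
import Cfsg.Agent.PLocal.Qd
import Cfsg.Agent.Classical.LowIso
import Cfsg.Agent.Transfer.Hall
-- import your own Cfsg.Agent.* helpers here

set_option autoImplicit false
open Cfsg

namespace Cfsg.Agent.S2766


open Subgroup Cfsg Cfsg.Agent.Transfer Cfsg.Agent.BG Cfsg.Agent.PLocal Pointwise
open scoped commutatorElement

open Matrix Loc PU in
open scoped MatrixGroups in
theorem qd_split {G F : Type*} [Group G] [Finite G] [Field F] [Finite F] {p : ℕ} [Fact p.Prime] [CharP F p] (hp : p ≠ 2)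
    (h3 : 3 < Nat.card F) {φ : G →* SL(2, F)} {ψ : G → Fin 2 → F} {V : Subgroup G} (hV : IsElementaryAbelian p V)
    (h : Nat2 φ ψ V (V ⊓ centralizer ((⊤ : Subgroup G) : Set G))) (hk : φ.ker = V) (S : Sylow p G) (hS : V ≤ S)
    (hc : ⁅(S : Subgroup G), (S : Subgroup G)⁆ ≤ ⁅V, ⊤⁆) :
    commutator G ⊓ (V ⊓ centralizer ((⊤ : Subgroup G) : Set G)) = ⊥ ∧
      commutator G ⊔ (V ⊓ centralizer ((⊤ : Subgroup G) : Set G)) = ⊤ ∧ Nonempty (commutator G ≃* qdOver F) := by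
  haveI := h.nm; haveI := h.nm₀
  have ab := (isElementaryAbelian_iff.1 hV).1
  have h2 : (2 : F) ≠ 0 := fun e => hp ((Nat.prime_dvd_prime_iff_eq Fact.out Nat.prime_two).1
    ((CharP.cast_eq_zero_iff F p 2).1 (by exact_mod_cast e)))
  obtain ⟨t, ht⟩ := h.sφ (-1)
  have ct : ∀ g, ⁅g, t⁆ ∈ V := fun g => by
    rw [← hk, MonoidHom.mem_ker, map_commutatorElement, ht, commutatorElement_def]; simp
  have at' : ∀ v ∈ V, ψ (t * v * t⁻¹) = -ψ v := fun v hv => by rw [h.act t v hv, ht]; simp [neg_mulVec]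
  let U : Subgroup G :=
    { carrier := {v | v ∈ V ∧ t * v * t⁻¹ = v⁻¹}
      one_mem' := ⟨one_mem _, by simp⟩
      mul_mem' := fun {a b} ha hb => ⟨mul_mem ha.1 hb.1, by
        rw [← ab ha.1 b hb.1, _root_.mul_inv_rev, ← ha.2, ← hb.2, ab ha.1 b hb.1]; group⟩
      inv_mem' := fun {a} ha => ⟨inv_mem ha.1, by rw [← conj_inv, ha.2]⟩ }
  have hU : ⁅V, ⊤⁆ ≤ U := commutator_le.2 fun v hv g _ => comm_inv_mem ⟨h.comm_mem g hv, by
    have hb := h.conj_mem t hv
    have ha := h.conj_mem g hv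
    have z := ((h.ker _ (mul_mem hv hb)).1 (by rw [h.add _ hv _ hb, at' v hv, add_neg_cancel])).2 g trivial
    have e := ab (ct t⁻¹ |> fun _ => inv_mem (ct g⁻¹)) _ hb
    have e1 : t * (g * v * g⁻¹) * t⁻¹ = g * (t * v * t⁻¹) * g⁻¹ := by
      calc _ = g * (⁅g⁻¹, t⁆ * (t * v * t⁻¹) * ⁅g⁻¹, t⁆⁻¹) * g⁻¹ := by simp only [commutatorElement_def]; group
        _ = _ := by rw [mul_assoc ⁅g⁻¹, t⁆, e, mul_inv_cancel_left]
    have e2 : g * (t * v * t⁻¹) * g⁻¹ = (g * v * g⁻¹)⁻¹ * (v * (t * v * t⁻¹)) := by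
      calc _ = (g * v * g⁻¹)⁻¹ * (g * (v * (t * v * t⁻¹)) * g⁻¹) := by group
        _ = _ := by rw [z, mul_inv_cancel_right]
    calc _ = t * (g * v * g⁻¹) * t⁻¹ * (t * v * t⁻¹)⁻¹ := by simp only [commutatorElement_def]; group
      _ = (g * v * g⁻¹)⁻¹ * v := by rw [e1, e2]; group
      _ = _ := by rw [← ab (inv_mem ha) v hv, commutatorElement_def]; group⟩
  have e1 : commutator G ⊓ (V ⊓ centralizer ((⊤ : Subgroup G) : Set G)) = ⊥ := eq_bot_iff.2 fun z hz => by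
    have h1 := (hU (hc (mem_commutator_sylow_of_mem_center S (mem_center_iff.2 fun g => hz.2.2 g trivial) hz.1
      (hS hz.2.1)))).2
    rw [hz.2.2 t trivial, mul_inv_cancel_right, eq_inv_iff_mul_eq_one, ← sq] at h1
    exact orderOf_eq_one_iff.1 (Nat.eq_one_of_dvd_coprimes ((Nat.coprime_primes Nat.prime_two Fact.out).2 hp.symm)
      (orderOf_dvd_of_pow_eq_one h1) (orderOf_dvd_of_pow_eq_one (hV.2 z hz.2.1)))
  have e2 : commutator G ⊔ (V ⊓ centralizer ((⊤ : Subgroup G) : Set G)) = ⊤ := by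
    have h1 := h.irr (N := commutator G ⊔ (V ⊓ centralizer ((⊤ : Subgroup G) : Set G))) le_sup_right fun e =>
      h.not_cent (le_trans (le_inf (commutator_le_left _ _) (le_sup_of_le_left (commutator_mono le_top le_rfl))) e)
    have h2 : (commutator G).map φ = ⊤ := by
      rw [commutator_def, Subgroup.map_commutator, map_top_of_surjective _ h.sφ]; exact Classical.commutator_SL2 h3
    have h4 := comap_map_eq φ (commutator G)
    rw [h2, comap_top, hk] at h4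
    exact top_le_iff.1 (h4.le.trans (sup_le le_sup_left h1))
  have cv : ∀ v ∈ V, (2 : F)⁻¹ • ψ ⁅v, t⁆ = ψ v := fun v hv => by
    rw [← commutatorElement_inv, h.inv (h.comm_mem t hv), h.comm t hv, at' v hv, neg_sub, sub_neg_eq_add, ← two_smul F,
      smul_smul, inv_mul_cancel₀ h2, one_smul]
  let Θ : G →* qdOver F := MonoidHom.mk' (fun g => ⟨qdM ((2 : F)⁻¹ • ψ ⁅g, t⁆) (φ g), mem_qdOver.2 ⟨_, _, rfl⟩⟩)
    fun a b => Subtype.ext (by
      rw [coe_mul, qdM_mul, comm_mul_left', h.add _ (h.conj_mem a (ct b)) _ (ct a), h.act a _ (ct b), map_mul, smul_add,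
        add_comm, mulVec_smul])
  have hΘ : ∀ g, Θ g = 1 ↔ g ∈ V ⊓ centralizer ((⊤ : Subgroup G) : Set G) := fun g => by
    rw [Subtype.ext_iff, coe_one, ← qdM_one]
    refine qdM_inj.trans ⟨fun e => ?_, fun e => ⟨by rw [cv g e.1, h.zero e], (hk.ge e.1 :)⟩⟩
    have hg : g ∈ V := hk.le e.2
    exact (h.ker g hg).1 (cv g hg ▸ e.1)
  refine ⟨e1, e2, ⟨MulEquiv.ofBijective (Θ.comp (_root_.commutator G).subtype) ⟨(injective_iff_map_eq_one _).2 fun a ha =>
    Subtype.ext (mem_bot.1 (e1 ▸ ⟨a.2, (hΘ a).1 ha⟩)), fun M => ?_⟩⟩⟩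
  obtain ⟨y, A, e⟩ := mem_qdOver.1 M.2
  obtain ⟨g, rfl⟩ := h.sφ A
  obtain ⟨v, hv, e'⟩ := h.surj (y - (2 : F)⁻¹ • ψ ⁅g, t⁆)
  obtain ⟨a, ha, z, hz, e3⟩ := mem_sup_of_normal_right.1 (e2.ge (mem_top (v * g)))
  refine ⟨⟨a, ha⟩, ?_⟩
  show Θ a = M
  rw [← mul_one (Θ _), ← (hΘ z).2 hz, ← map_mul, e3, map_mul]
  refine Subtype.ext (e ▸ (qdM_mul _ _ _ _).trans ?_)
  rw [cv v hv, e', show φ v = 1 from hk.ge hv]; simp

open Loc PU in
theorem Phi_le_of_b1 {G : Type*} [Group G] [Finite G] {p : ℕ} [Fact p.Prime] {M M' S P P' V V' : Subgroup G}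
    (hS : IsPGroup p S) (h : R1 p M S P V) (h' : R1 p M' S P' V') (hn : ¬ V' ≤ centralizer (V : Set G)) : Phi P ≤ Phi P' := by
  have key : ∀ x ∈ P, ∃ v ∈ V, ∃ d ∈ P ⊓ P', v * d = x := fun x hx => by
    obtain ⟨v, hv, d, hd, rfl⟩ := h'.crit h h'.VS h.VS hn x (h.PS hx)
    exact ⟨v, hv, d, ⟨(P.mul_mem_cancel_left (h.VP hv)).1 hx, hd⟩, rfl⟩
  have hP := (Phi_min (hS.to_le h'.PS)).1 le_rfl
  refine (Phi_min (hS.to_le h.PS)).2 ⟨commutator_le.2 fun x hx y hy => ?_, fun x hx => ?_⟩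
  · obtain ⟨v, hv, d, hd, rfl⟩ := key x hx
    obtain ⟨v', hv', d', hd', rfl⟩ := key y hy
    rw [comm_mul_left (h.cP hv d hd.1).symm (h.cP hv _ hy).symm, ← h.cP hv' d' hd'.1,
      comm_mul_right (h.cP hv' d hd.1).symm]
    exact hP.1 (commutator_mem_commutator hd.2 hd'.2)
  · obtain ⟨v, hv, d, hd, rfl⟩ := key x hx
    rw [Commute.mul_pow (h.cP hv d hd.1).symm, h.ea v hv, one_mul]; exact hP.2 d hd.2

/-- Let p ≥ 5 be prime and G a maximal p-local subgroup of a finite group H (G is the normalizer of a nontrivial p-subgroup and lies in no other such normalizer). Suppose C_G(O_p(G)) ≤ O_p(G), G/K ≅ PSL₂(p^n) for some normal K and n ≥ 1, a Sylow p-subgroup S of G lies in exactly one maximal subgroup of G, and N_H(S) is not contained in G. Then G = G₀ × E for subgroups G₀ ≅ Qd(p^n) (the natural semidirect product of the plane over the field with p^n elements by SL₂) and E an elementary abelian p-group. -/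
theorem result {H : Type*} [Group H] [Finite H] {p : ℕ} [Fact p.Prime] (hp : 5 ≤ p) (G : Subgroup H) (hloc : ∃ R : Subgroup H, IsPGroup p ↥R ∧ R ≠ ⊥ ∧ G = Subgroup.normalizer (R : Set H)) (hmax : ∀ R : Subgroup H, IsPGroup p ↥R → R ≠ ⊥ → G ≤ Subgroup.normalizer (R : Set H) → Subgroup.normalizer (R : Set H) = G) (S : Sylow p ↥G) (hE₁ : Subgroup.centralizer (Cfsg.pCore p ↥G : Set ↥G) ≤ Cfsg.pCore p ↥G) (hE₂ : ∃! M : Subgroup ↥G, IsCoatom M ∧ (S : Subgroup ↥G) ≤ M) (K : Subgroup ↥G) [K.Normal] (F : Type) [Field F] [Fintype F] (n : ℕ) (hn : 1 ≤ n) (hF : Fintype.card F = p ^ n) (hE₃ : Nonempty (↥G ⧸ K ≃* Matrix.ProjectiveSpecialLinearGroup (Fin 2) F)) (hN : ¬ Subgroup.normalizer (((S : Subgroup ↥G).map G.subtype : Subgroup H) : Set H) ≤ G) : ∃ G₀ E : Subgroup H, Cfsg.IsInternalDirectProduct G₀ E G ∧ Cfsg.IsElementaryAbelian p E ∧ Nonempty (↥G₀ ≃* ↥(Cfsg.qdOver F)) := by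
  obtain ⟨M, h, hq⟩ := PU.pu_of_hyp (Loc.sylIn_top S) hE₁ hE₂ hF hE₃
  have hi := G.subtype_injective
  have e0 : (⊤ : Subgroup G).map G.subtype = G := by rw [← MonoidHom.range_eq_map, range_subtype]
  have hp' := h.syl.pg.map G.subtype
  have key : ∀ R ≤ (S : Subgroup G).map G.subtype, G ≤ normalizer (R : Set H) → R ≠ ⊥ → normalizer (R : Set H) = G :=
    fun R h1 h2 h3 => hmax R (hp'.to_le h1) h3 h2
  have hd : PU.NC (S : Subgroup G) := fun T h0 hT hn => by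
    let e := (S : Subgroup G).equivMapOfInjective _ hi
    haveI : (T.map e.toMonoidHom).Characteristic := characteristic_iff_map_le.2 fun α => by
      rintro _ ⟨_, ⟨x, hx, rfl⟩, rfl⟩
      exact ⟨_, (characteristic_iff_map_le.1 hT) (e.trans (α.trans e.symm)) ⟨x, hx, rfl⟩, e.apply_symm_apply _⟩
    have e1 : (T.map e.toMonoidHom).map (Subgroup.subtype _) = (T.map (S : Subgroup G).subtype).map G.subtype := by
      rw [map_map, map_map]; rfl
    refine hN ((char_norm (T.map e.toMonoidHom)).trans (e1 ▸ (key _ (map_mono (map_subtype_le T))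
      (e0.ge.trans (Loc.map_le_normalizer_map le_normalizer_of_normal _)) fun e => h0 ?_).le))
    rwa [map_eq_bot_iff_of_injective _ hi, map_eq_bot_iff_of_injective _ (subtype_injective _)] at e
  have r := h.nc_r1 hd
  have e1 : pCoreOf p G = (pCore p G).map G.subtype := rfl
  have e2 : PU.VV p G = (OZ p (pCore p G)).map G.subtype := by rw [PU.VV, e1, PU.map_OZ' hi]
  have r' := r.map hi
  rw [e0] at r'
  have hS := h.syl.map G.subtype
  rw [e0] at hS
  obtain ⟨g, hg, h1⟩ := (PU.single hS (e2 ▸ e1 ▸ r') fun R h1 h2 h3 => by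
    by_contra h0; exact hN (key R h1 h3 h0 ▸ h2)).resolve_right fun h1 => by
      rw [e2, e1] at h1
      obtain ⟨_, _, _, _, _, _, _, t⟩ := (PU.B2.of_map hi le_top le_top (e0.symm ▸ h1)).t2 r
      have := (h.t2 (h.nc_Z hd) (h.nc_J hd) t).1
      omega
  have r2 := r'.conj g
  rw [Loc.cj_eq_of_mem_normalizer hg] at r2
  have h2 : Phi ((pCore p G).map G.subtype) = ⊥ := by
    by_contra h0
    have e3 := le_antisymm (Phi_le_of_b1 hp' r' r2 fun e => h1 (e2 ▸ le_centralizer_iff.1 e)) (Phi_le_of_b1 hp' r2 r' (e2 ▸ h1))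
    have e4 := (norms_Phi r2.nP).trans (e3 ▸ (key _ ((Phi_sub _).trans r'.PS) (norms_Phi r'.nP) h0).le)
    rw [PU.cj_VV, Loc.cj_eq_of_cj_le e4, e2] at h1
    exact h1 r'.comm
  have h3 := PU.ea_of_map hi ((trivg_Phi (hp'.to_le r'.PS)).1 h2)
  have h4 : pCore p G = OZ p (pCore p G) :=
    le_antisymm (fun y hy => r.om y hy ((Loc.isElementaryAbelian_iff.1 h3).1 hy) (h3.2 y hy)) r.VP
  obtain ⟨W, h5⟩ := PU.B1.of_map hi (r'.b1 r2 (e2 ▸ h1))
  obtain ⟨φ, ψ, hk, hN'⟩ := h.nc_nat hd hq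
  haveI := PU.charP_of_card hF
  have hn' : (S : Subgroup G) ≤ normalizer ((⁅OZ p (pCore p G), (⊤ : Subgroup G)⁆ : Subgroup G) : Set G) := le_normalizer_of_normal
  have h6 : ⁅pCore p G, (S : Subgroup G)⁆ ≤ ⁅OZ p (pCore p G), (⊤ : Subgroup G)⁆ := commutator_mono h4.le le_top
  obtain ⟨f1, f2, ⟨f3⟩⟩ := qd_split (by omega) (by
    rw [Nat.card_eq_fintype_card, hF]; exact lt_of_lt_of_le (by omega) (Nat.le_self_pow (by omega) p)) r.isEA hN'
    (hk.trans h4) S r.VS ((commutator_mono (h5.S_le r) le_rfl).trans (Loc.commutator_sup_left_le (h5.le.trans hn')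
      (r.PS.trans hn') ((commutator_mono le_rfl (h5.S_le r)).trans (Loc.commutator_sup_right_le (h5.le.trans hn')
        (r.PS.trans hn') (Loc.commutator_le_of_le_centralizer (Loc.isElementaryAbelian_iff.1 h5.ea).1 _)
        (commutator_comm _ W ▸ (commutator_mono le_rfl h5.le).trans h6))) h6))
  refine ⟨(commutator G).map G.subtype, (OZ p (pCore p G) ⊓ centralizer ((⊤ : Subgroup G) : Set G)).map G.subtype,
    ⟨map_subtype_le _, map_subtype_le _, ?_, by rw [← Subgroup.map_inf _ _ _ hi, f1, Subgroup.map_bot],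
      by rw [← Subgroup.map_sup, f2, e0]⟩, Loc.isElementaryAbelian_iff.2 ⟨(map_mono inf_le_left).trans (r'.comm.trans
      (Loc.centralizer_anti (map_mono inf_le_left))), fun x hx => r'.ea x (map_mono inf_le_left hx)⟩,
    ⟨((commutator G).equivMapOfInjective _ hi).symm.trans f3⟩⟩
  rintro _ ⟨a, -, rfl⟩ _ ⟨b, hb, rfl⟩
  exact congrArg Subtype.val (hb.2 a trivial)


end Cfsg.Agent.S2766
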