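import Cfsg.Statements.S2772
import Cfsg.Agent.Loc.Sims4

set_option autoImplicit false
open Cfsg

namespace Cfsg.Agent.S2772

/-- Sims' Theorem in local form: let H be a finite non-abelian simple group and G a maximal subgroup of H with C_G(O₂(G)) ≤ O₂(G), such that N_H(S) is not contained in G for a Sylow 2-subgroup S of G and G/O₂(G) is dihedral of order 2q for a prime q. Then G is isomorphic to the symmetric group of degree 4 or to its direct product with a group of order 2. -/
theorem result {H : Type*} [Group H] [Finite H] [IsSimpleGroup H] (hna : ¬ IsMulCommutative H) (G : Subgroup H) (hG : IsCoatom G) (hchar : Subgroup.centralizer (Cfsg.pCore 2 ↥G : Set ↥G) ≤ Cfsg.pCore 2 ↥G) (S : Sylow 2 ↥G) (hN : ¬ Subgroup.normalizer (((S : Subgroup ↥G).map G.subtype : Subgroup H) : Set H) ≤ G) (q : ℕ) (hq : q.Prime) (hD : Nonempty (↥G ⧸ Cfsg.pCore 2 ↥G ≃* DihedralGroup q)) : Nonempty (↥G ≃* Equiv.Perm (Fin 4)) ∨ Nonempty (↥G ≃* Equiv.Perm (Fin 4) × Multiplicative (ZMod 2)) := by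
  open Cfsg.Agent.Loc Subgroup in
  open scoped commutatorElement in
  obtain ⟨e⟩ := hD
  obtain ⟨y, hy, hn⟩ := SetLike.not_le_iff_exists.1 hN
  have nn : ∀ N ≤ G, N.Normal → N = ⊥ := fun N l h => h.eq_bot_or_eq_top.resolve_right fun k => hG.1 (top_le_iff.1 (k ▸ l))
  have c2 := (Nat.card_congr e.toEquiv).trans DihedralGroup.nat_card
  have := hq.two_le
  have hO : pCore 2 G ≠ ⊥ := fun k => by
    rw [k, centralizer_bot', top_le_iff, eq_comm, ← card_eq_one, card_top] at hchar
    have := Nat.le_of_dvd Nat.card_pos (card_quotient_dvd_card (pCore 2 G))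
    omega
  obtain ⟨-, np, h⟩ := sims_dih hq.two_le e (sylIn_map_subtype S) hy (fun N l1 l2 l3 => nn N (l1.trans (map_subtype_le _))
    (normal_of_top_le_normalizer ((hG.le_iff.1 l2).resolve_right fun k => by
      have := nn G le_rfl (normal_of_top_le_normalizer ((hG.le_iff.1 le_normalizer).resolve_right fun k' =>
        hn (k'.le (mem_normalizer_of_cj_le (l3.trans k.le)))).ge)
      subst this
      exact hO (Subsingleton.elim _ _)).ge)) hO
  have O : oddCore G = ⊥ := le_bot_iff.1 ((le_inf (commutator_eq_bot_iff_le_centralizer.1 (le_bot_iff.1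
    ((commutator_le_inf _ _).trans (by rw [inf_comm]; exact Solv.pCore_inf_pPrimeCore.le))) |>.trans hchar)
    le_rfl).trans (Solv.pCore_inf_pPrimeCore (p := 2)).le)
  have f := ((QuotientGroup.quotientMulEquivOfEq O).trans QuotientGroup.quotientBot).symm
  exact (h.resolve_left fun ⟨k⟩ => np (IsPGroup.of_card (n := 2) ((Nat.card_congr (f.trans k).toEquiv).trans
    (by simp)))).imp (fun ⟨k⟩ => ⟨f.trans k⟩) fun ⟨k⟩ => ⟨f.trans k⟩

end Cfsg.Agent.S2772
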