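import Cfsg.Statements.S2774
import Cfsg.Agent.PLocal.BB2
import Cfsg.Agent.PLocal.FuncTr
-- import your own Cfsg.Agent.* helpers here

set_option autoImplicit false
open Cfsg

namespace Cfsg.Agent.S2774


open Subgroup Cfsg Cfsg.Agent.Transfer Cfsg.Agent.BG Cfsg.Agent.PLocal Pointwise
open scoped commutatorElement

universe u

theorem exists_functor {p : ℕ} {S : Type u} [Group S] (K : Subgroup S) [hK : K.Characteristic] (h0 : K ≠ ⊥) :
    ∃ W : CF.{u}, IsCharPFunctor p W ∧ W S = K := by
  classical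
  refine ⟨fun Q _ => if Nonempty (S ≃* Q) then ⨆ e : S ≃* Q, K.map e.toMonoidHom else ⊤, ⟨fun Q _ _ _ _ => ?_,
    fun Q R _ _ _ _ φ => ?_⟩, ?_⟩
  · dsimp only
    split_ifs with h
    · exact fun e => h0 ((Subgroup.map_eq_bot_iff_of_injective _ h.some.injective).1 (eq_bot_iff.2 ((le_iSup
        (fun e : S ≃* Q => K.map e.toMonoidHom) h.some).trans e.le)))
    · exact top_ne_bot
  · dsimp only
    by_cases h : Nonempty (S ≃* Q)
    · rw [if_pos h, if_pos ⟨h.some.trans φ⟩, Subgroup.map_iSup]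
      refine le_antisymm (iSup_le fun e => le_iSup_of_le (e.trans φ) (Subgroup.map_map _ _ _).le)
        (iSup_le fun e => le_iSup_of_le (e.trans φ.symm) ?_)
      rintro _ ⟨k, hk, rfl⟩
      exact ⟨_, ⟨k, hk, rfl⟩, φ.apply_symm_apply _⟩
    · rw [if_neg h, if_neg fun h' => h ⟨h'.some.trans φ.symm⟩, map_top_of_surjective _ φ.surjective]
  · dsimp only
    rw [if_pos ⟨MulEquiv.refl S⟩]
    exact le_antisymm (iSup_le fun e => characteristic_iff_map_le.1 hK e) (le_iSup_of_le (MulEquiv.refl S) (map_id K).ge)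

theorem not_tmin {p : ℕ} [Fact p.Prime] (hp : p ≠ 2) {G : Type u} [Group G] [Finite G] {T : Subgroup G}
    (h : TMin p {W : CF.{u} | IsCharPFunctor p W} T) : False := by
  have hT := IsSylowIn.sylIn h.syl
  have key : ∀ K ≤ T, (K.subgroupOf T).Characteristic → K.Normal → K = ⊥ := fun K a b c => by
    by_contra h0
    obtain ⟨W, h1, h2⟩ := exists_functor (p := p) (K.subgroupOf T) fun e => h0 (by
      rw [← map_subgroupOf_eq_of_le a, e, Subgroup.map_bot])
    exact h.not_normal h1 (by rwa [inducedFunctor, h2, map_subgroupOf_eq_of_le a])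
  have hQ : pCore p G ≤ T := pCore_le_isSylowIn h.syl
  have h0 : T ≠ ⊥ := fun e => h.pcore_ne (eq_bot_iff.2 (hQ.trans e.le))
  have hSP : ¬ T ≤ pCore p G := fun e => h0 (key T le_rfl (by rw [subgroupOf_self]; infer_instance)
    (le_antisymm hQ e ▸ inferInstance))
  have k2 : ∀ K ≤ T, (K.subgroupOf T).Characteristic → K ≠ ⊥ →
      normalizer (K : Set G) ≤ normalizer ((transT (fam {W | IsCharPFunctor p W} G) ⊤ T ⊓ pCore p G : Subgroup G) : Set G) :=
    fun K a b c => h.le_M (le_normalizer.trans (map_subgroupOf_eq_of_le a ▸ Loc.normalizer_le_normalizer_map_subtype _))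
      fun e => c (key K a b (Loc.normal_of_top_le_normalizer e.ge))
  have pm : PU.PMG p T _ := ⟨hT, ⟨h.le_M le_rfl fun e => hSP (e ▸ (Loc.pCore_eq_top (by
      have := hT.pg; rw [e] at this; exact this.of_equiv topEquiv)).ge), lt_top_iff_ne_top.2 (h.M_ne_top hSP),
      fun X a b => h.le_M a b.ne⟩, h.constr,
    (centralizer_le_normalizer _).trans (k2 _ (OZ_le p T) (PU.char_of_map (OZ_le p T) fun f hf e => by
      rw [← map_subtype_omega_center, Loc.subgroupOf_map_subtype', map_omega_center_of_injective hf, e, map_subtype_omega_center])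
      (OZ_ne_bot hT.pg h0)),
    k2 _ (J_le p T) (PU.char_of_map (J_le p T) fun f hf e => by
      rw [thompsonSubgroupOf, Loc.subgroupOf_map_subtype', map_thompson_of_injective hf, e]; rfl) (J_ne_bot_of_isPGroup hT.pg h0)⟩
  obtain ⟨u, h1, h2, h3⟩ := pm.quad hp fun K a b => key K (a.trans (PU.BB_le p T)) (PU.char_trans a (PU.BB_le p T) b (PU.BB_char p T))
  obtain ⟨U, V, h4, h5, h6⟩ := h.exists_chief hSP h1 h2
  haveI := h4.2.2.1
  exact h6 (iter_le_of_le le_normalizer_of_normal (h3 U V h4 h5) (by have := (Fact.out : p.Prime).two_le; omega))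


/-- Let p be an odd prime and S a nontrivial Sylow p-subgroup of a finite group G. Then S ∩ G' is generated by the subgroups S ∩ (N_G(K))' as K ranges over the nontrivial characteristic subgroups of S (derived subgroups of the normalizers). -/
theorem result {G : Type*} [Group G] [Finite G] {p : ℕ} [Fact p.Prime] (hp : p ≠ 2) (S : Sylow p G) (hS : (S : Subgroup G) ≠ ⊥) : (S : Subgroup G) ⊓ commutator G = ⨆ K : {K : Subgroup ↥(S : Subgroup G) // K ≠ ⊥ ∧ K.Characteristic}, (S : Subgroup G) ⊓ ⁅Subgroup.normalizer ((((K : Subgroup ↥(S : Subgroup G))).map (S : Subgroup G).subtype : Subgroup G) : Set G), Subgroup.normalizer ((((K : Subgroup ↥(S : Subgroup G))).map (S : Subgroup G).subtype : Subgroup G) : Set G)⁆ := by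
  have h := (tcok_iff (𝓦 := {W | IsCharPFunctor p W}) (fun _ h => h) (isSylowIn_top S)).1 (tcok_of_tmin (fun _ h => h) (fun K R _ T h => not_tmin hp h) G
    (involves_self G))
  refine le_antisymm (h.trans ?_) (iSup_le fun K => inf_le_inf_left _ (commutator_mono le_top le_top))
  rw [transT_fam]
  haveI := (nontrivial_iff_ne_bot _).2 hS
  refine iSup₂_le fun W hW => le_iSup_of_le ⟨W S, hW.1 _ S.2 inferInstance,
    characteristic_iff_map_eq.2 (hW.2 _ _ S.2)⟩ ?_
  rw [top_inf_eq]; rfl


end Cfsg.Agent.S2774
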