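import Cfsg.Statements.S2779
import Cfsg.Agent.Gen2.NatSL2

set_option autoImplicit false
open Cfsg

namespace Cfsg.Agent.S2779

open Subgroup Matrix Cfsg.Agent.Classical Cfsg.Agent.Gen2.NatSL2

/-- Let L act on the elementary abelian p-group V (inside a finite group, by conjugation, faithfully) as SL₂(F) on its natural module, F a field with p^n elements, and let S be a Sylow p-subgroup of L. Then [V, S, S] = 1; |V| = p^(2n) and |C_V(S)| = p^n; and for every nonidentity s ∈ S and every v ∈ V outside C_V(S): C_V(s) = C_V(S) = [V, S] = [V, s] = the subgroup generated by the commutators [v, t], t ∈ S. -/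
theorem result {G : Type*} [Group G] [Finite G] {p : ℕ} [Fact p.Prime] {F : Type*} [Field F] [Fintype F] (n : ℕ) (hF : Fintype.card F = p ^ n) (V L : Subgroup G) (hnat : Cfsg.IsNaturalSL2Module F V L) (hf : L ⊓ Subgroup.centralizer (V : Set G) = ⊥) (S : Sylow p ↥L) (T : Subgroup G) (hT : T = ((S : Subgroup ↥L).map L.subtype)) : ⁅⁅V, T⁆, T⁆ = ⊥ ∧ Nat.card V = p ^ (2 * n) ∧ Nat.card ↥(V ⊓ Subgroup.centralizer ((T : Subgroup G) : Set G)) = p ^ n ∧ ∀ s ∈ T, s ≠ 1 → (V ⊓ Subgroup.centralizer ({s} : Set G)) = (V ⊓ Subgroup.centralizer ((T : Subgroup G) : Set G)) ∧ ⁅V, T⁆ = (V ⊓ Subgroup.centralizer ((T : Subgroup G) : Set G)) ∧ ⁅V, Subgroup.zpowers s⁆ = (V ⊓ Subgroup.centralizer ((T : Subgroup G) : Set G)) ∧ ∀ v ∈ V, v ∉ Subgroup.centralizer (T : Set G) → Subgroup.closure {x : G | ∃ t ∈ T, x = v * t * v⁻¹ * t⁻¹} = (V ⊓ Subgroup.centralizer ((T : Subgroup G) : Set G)) := by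
  have := charP_of_card_eq_prime_pow hF
  obtain ⟨a, e, h⟩ := exists_co hnat hf S
  rw [← hT] at h
  have h1 : ⁅V, T⁆ ≤ V ⊓ centralizer (T : Set G) := commutator_le.2 fun v hv t ht => by
    obtain ⟨y, rfl⟩ := (h.mV v).1 hv
    obtain ⟨b, rfl⟩ := (h.mT t).1 ht
    rw [commutatorElement_def, h.comm]
    exact h.mem_C.2 ⟨_, rfl⟩
  have h2 : ∀ s ∈ T, s ≠ 1 → V ⊓ centralizer (T : Set G) ≤ ⁅V, zpowers s⁆ := fun s hs h0 v hv => by
    obtain ⟨b, rfl⟩ := (h.mT s).1 hs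
    obtain ⟨c, rfl⟩ := h.mem_C.1 hv
    have hb : b ≠ 0 := fun hb => h0 (by rw [hb, uSL_zero, map_one])
    have := commutator_mem_commutator (h.eV ![0, -(b⁻¹ * c)]) (mem_zpowers (a (uSL b)))
    rw [commutatorElement_def, h.comm] at this
    simpa [hb] using this
  refine ⟨commutator_eq_bot_iff_le_centralizer.2 (h1.trans inf_le_right), ?_, ?_, fun s hs h0 => ⟨?_, ?_, ?_, ?_⟩⟩
  · rw [← Nat.card_congr (Equiv.ofBijective (fun y => (⟨e y, h.eV y⟩ : V))
      ⟨fun y z hyz => h.ie (congrArg Subtype.val hyz), fun v => ((h.mV v).1 v.2).imp fun y hy => Subtype.ext hy⟩),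
      Nat.card_fun, Nat.card_eq_fintype_card, hF, ← pow_mul, mul_comm]
    simp
  · rw [← Nat.card_congr (Equiv.ofBijective (fun c => (⟨e ![c, 0], h.mem_C.2 ⟨c, rfl⟩⟩ : ↥(V ⊓ centralizer (T : Set G))))
      ⟨fun y z hyz => congrFun (h.ie (congrArg Subtype.val hyz)) 0,
        fun v => (h.mem_C.1 v.2).imp fun y hy => Subtype.ext hy⟩), Nat.card_eq_fintype_card, hF]
  · refine le_antisymm ?_ (inf_le_inf_left _ (centralizer_le (Set.singleton_subset_iff.2 hs)))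
    rintro v ⟨hv, hc⟩
    obtain ⟨y, rfl⟩ := (h.mV v).1 hv
    obtain ⟨b, rfl⟩ := (h.mT s).1 hs
    have hb : b ≠ 0 := fun hb => h0 (by rw [hb, uSL_zero, map_one])
    exact ⟨hv, h.mC.2 ((mul_eq_zero.1 (h.fixu.1 (mem_centralizer_iff.1 hc _ rfl))).resolve_left hb)⟩
  · exact le_antisymm h1 ((h2 s hs h0).trans (commutator_mono le_rfl (zpowers_le.2 hs)))
  · exact le_antisymm ((commutator_mono le_rfl (zpowers_le.2 hs)).trans h1) (h2 s hs h0)
  · intro v hv hc
    obtain ⟨y, rfl⟩ := (h.mV v).1 hv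
    have hy : y 1 ≠ 0 := fun hy => hc (h.mC.2 hy)
    refine le_antisymm (closure_le _ |>.2 ?_) fun w hw => ?_
    · rintro _ ⟨t, ht, rfl⟩
      exact h1 (commutator_mem_commutator hv ht)
    · obtain ⟨c, rfl⟩ := h.mem_C.1 hw
      refine subset_closure ⟨_, h.uT (-(c * (y 1)⁻¹)), ?_⟩
      rw [h.comm]; simp [hy]

end Cfsg.Agent.S2779
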