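import Cfsg.Statements.S2780
import Cfsg.Agent.Gen2.NatSL2

set_option autoImplicit false
open Cfsg

namespace Cfsg.Agent.S2780

open Subgroup Matrix Cfsg.Agent.Classical Cfsg.Agent.Gen2.NatSL2
open scoped MatrixGroups

/-- Let L act on the elementary abelian p-group V (inside a finite group, faithfully) as SL₂(F) on its natural module, F a field with p^n elements, S a Sylow p-subgroup of L. Then: for every g ∈ L not normalizing S, V is the internal direct product of C_V(S) and C_V(gSg⁻¹); every nonidentity element of L of order prime to p acts on V without nonidentity fixed points; and C_V(S) and V/C_V(S) are irreducible for N_L(S): the only N_L(S)-invariant subgroups of C_V(S) are 1 and C_V(S), and the only N_L(S)-invariant subgroups between C_V(S) and V are those two. -/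
theorem result {G : Type*} [Group G] [Finite G] {p : ℕ} [Fact p.Prime] {F : Type*} [Field F] [Fintype F] (n : ℕ) (hF : Fintype.card F = p ^ n) (V L : Subgroup G) (hnat : Cfsg.IsNaturalSL2Module F V L) (hf : L ⊓ Subgroup.centralizer (V : Set G) = ⊥) (S : Sylow p ↥L) (T : Subgroup G) (hT : T = ((S : Subgroup ↥L).map L.subtype)) : (∀ g ∈ L, g ∉ Subgroup.normalizer (T : Set G) → Cfsg.IsInternalDirectProduct (V ⊓ Subgroup.centralizer ((T : Subgroup G) : Set G)) (V ⊓ Subgroup.centralizer ((T.map (MulAut.conj g).toMonoidHom : Subgroup G) : Set G)) V) ∧ (∀ x ∈ L, x ≠ 1 → (orderOf x).Coprime p → (V ⊓ Subgroup.centralizer ({x} : Set G)) = ⊥) ∧ (∀ U : Subgroup G, U ≤ (V ⊓ Subgroup.centralizer ((T : Subgroup G) : Set G)) → L ⊓ Subgroup.normalizer (T : Set G) ≤ Subgroup.normalizer (U : Set G) → U = ⊥ ∨ U = (V ⊓ Subgroup.centralizer ((T : Subgroup G) : Set G))) ∧ (∀ U : Subgroup G, (V ⊓ Subgroup.centralizer ((T : Subgroup G) : Set G)) ≤ U → U ≤ V →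 L ⊓ Subgroup.normalizer (T : Set G) ≤ Subgroup.normalizer (U : Set G) → U = (V ⊓ Subgroup.centralizer ((T : Subgroup G) : Set G)) ∨ U = V) := by
  have := charP_of_card_eq_prime_pow hF
  obtain ⟨a, e, h⟩ := exists_co hnat hf S
  rw [← hT] at h
  have hN : ∀ g : SL(2, F), g.1 1 0 = 0 → a g ∈ normalizer (T : Set G) := fun g hg => by
    refine mem_normalizer_fintype fun t ht => ?_
    obtain ⟨b, rfl⟩ := (h.mT t).1 ht
    obtain ⟨c, hc⟩ := (mem_unipSL_inf p).1 ((mem_normalizer_iff.1 ((unipAct_SL (F := F) p).stabilizer_le_normalizer inf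
      ((sl_smul_inf_eq_inf g).2 hg)) (uSL b)).1 ((mem_unipSL_inf p).2 ⟨b, rfl⟩))
    rw [← map_inv, ← map_mul, ← map_mul, hc]
    exact h.uT c
  have hd : ∀ (c : Fˣ) (y : Fin 2 → F), a (dSL c) * e y * (a (dSL c))⁻¹ = e ![c * y 0, (c : F)⁻¹ * y 1] := fun c y => by
    rw [h.act]; congr 1
    ext i; fin_cases i <;> simp [dSL_val, mulVec, dotProduct]
  have hdN : ∀ c : Fˣ, a (dSL c) ∈ L ⊓ normalizer (T : Set G) := fun c => ⟨h.aL _, hN _ (by simp [dSL_val])⟩
  refine ⟨fun g hg hn => ?_, fun x hx h0 hc => ?_, fun U hU hn => ?_, fun U hU hUV hn => ?_⟩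
  · obtain ⟨g, rfl⟩ := (h.mL g).1 hg
    have hg : g.1 1 0 ≠ 0 := fun h0 => hn (hN g h0)
    have key : ∀ y, e (g.1 *ᵥ y) ∈ centralizer ((T.map (MulAut.conj (a g)).toMonoidHom : Subgroup G) : Set G) ↔
        y 1 = 0 := fun y => by
      rw [← h.mC, ← h.act, mem_centralizer_iff, mem_centralizer_iff]
      constructor
      · intro H t ht
        have := H _ ⟨t, ht, rfl⟩
        apply (MulAut.conj (a g)).injective
        rw [map_mul, map_mul]; exact this
      · rintro H _ ⟨t, ht, rfl⟩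
        have := congrArg (MulAut.conj (a g)) (H t ht)
        rw [map_mul, map_mul] at this; exact this
    refine ⟨inf_le_left, inf_le_left, fun u hu v hv => ?_, eq_bot_iff.2 ?_, le_antisymm (sup_le inf_le_left inf_le_left) ?_⟩
    · obtain ⟨y, rfl⟩ := (h.mV u).1 hu.1
      obtain ⟨z, rfl⟩ := (h.mV v).1 hv.1
      rw [← h.add, ← h.add, add_comm]
    · rintro v ⟨hv, hv'⟩
      obtain ⟨y, rfl⟩ := (h.mV v).1 hv.1
      have h1 := h.mC.1 hv.2
      have e1 : g.1 *ᵥ g⁻¹.1 *ᵥ y = y := by rw [mv, mul_inv_cancel, mv1]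
      have h2 := (key (g⁻¹.1 *ᵥ y)).1 (by rw [e1]; exact hv'.2)
      have h3 : (g⁻¹.1 *ᵥ y) = 0 := by
        have := congrFun e1 1
        rw [h1] at this
        simp only [mulVec, dotProduct, Fin.sum_univ_two] at this h2
        rw [h2, mul_zero, add_zero] at this
        ext i; fin_cases i
        · simpa [mulVec, dotProduct] using (mul_eq_zero.1 this).resolve_left hg
        · simpa [mulVec, dotProduct] using h2
      rw [← e1, h3, mulVec_zero, h.zero]; exact one_mem _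
    · intro v hv
      obtain ⟨y, rfl⟩ := (h.mV v).1 hv
      have : y = ![y 0 - g.1 0 0 * ((g.1 1 0)⁻¹ * y 1), 0] + g.1 *ᵥ ![(g.1 1 0)⁻¹ * y 1, 0] := by
        ext i; fin_cases i <;> simp [mulVec, dotProduct, hg]
      rw [this, h.add]
      exact mul_mem_sup (h.mem_C.2 ⟨_, rfl⟩) ⟨h.eV _, (key _).2 rfl⟩
  · obtain ⟨g, rfl⟩ := (h.mL x).1 hx
    rw [eq_bot_iff]
    rintro v ⟨hv, hv'⟩
    obtain ⟨y, rfl⟩ := (h.mV v).1 hv
    have h1 := h.fix.1 (mem_centralizer_iff.1 hv' _ rfl)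
    by_contra hy
    have hy : y ≠ 0 := fun h0 => hy (by rw [h0, h.zero]; exact one_mem _)
    have h2 : (g.1 - 1).det = 0 := exists_mulVec_eq_zero_iff.1 ⟨y, hy, by rw [sub_mulVec, h1, one_mulVec, sub_self]⟩
    have h3 := g.2
    rw [det_fin_two] at h2 h3
    have h4 : g ^ p = 1 := (sl_pow_char_eq_one_iff p).2 (by
      rw [trace_fin_two]
      simp at h2
      linear_combination h3 - h2)
    have h5 : orderOf (a g) ∣ p := orderOf_dvd_of_pow_eq_one (by rw [← map_pow, h4, map_one])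
    exact h0 (orderOf_eq_one_iff.1 (Nat.Coprime.eq_one_of_dvd hc h5))
  · by_cases h0 : U = ⊥
    · exact .inl h0
    refine .inr (le_antisymm hU fun v hv => ?_)
    obtain ⟨⟨u, hu⟩, hu0⟩ := ne_bot_iff_exists_ne_one.1 h0
    obtain ⟨c, rfl⟩ := h.mem_C.1 (hU hu)
    obtain ⟨d, rfl⟩ := h.mem_C.1 hv
    have hc : c ≠ 0 := fun hc => hu0 (Subtype.ext (by
      show e ![c, 0] = 1
      rw [← h.zero, hc]; congr 1; ext i; fin_cases i <;> rfl))
    by_cases hd0 : d = 0
    · rw [show ![d, 0] = 0 by ext i; fin_cases i <;> simp [hd0], h.zero]; exact one_mem _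
    have := (mem_normalizer_iff.1 (hn (hdN (Units.mk0 (d * c⁻¹) (by simp [hc, hd0])))) _).1 hu
    rw [hd] at this
    simpa [hc] using this
  · by_cases h0 : U ≤ V ⊓ centralizer (T : Set G)
    · exact .inl (le_antisymm h0 hU)
    refine .inr (le_antisymm hUV fun v hv => ?_)
    obtain ⟨u, hu, hu0⟩ := SetLike.not_le_iff_exists.1 h0
    obtain ⟨y, rfl⟩ := (h.mV u).1 (hUV hu)
    obtain ⟨z, rfl⟩ := (h.mV v).1 hv
    have hy : y 1 ≠ 0 := fun hy => hu0 ⟨h.eV _, h.mC.2 hy⟩
    by_cases hz : z 1 = 0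
    · exact hU ⟨hv, h.mC.2 hz⟩
    have := (mem_normalizer_iff.1 (hn (hdN (Units.mk0 (y 1 * (z 1)⁻¹) (by simp [hy, hz])))) _).1 hu
    rw [hd] at this
    have e1 : z = ![z 0 - y 1 * (z 1)⁻¹ * y 0, 0] + ![y 1 * (z 1)⁻¹ * y 0, (y 1 * (z 1)⁻¹)⁻¹ * y 1] := by
      ext i; fin_cases i <;> simp [hy]
    rw [e1, h.add]
    exact mul_mem (hU (h.mem_C.2 ⟨_, rfl⟩)) this

end Cfsg.Agent.S2780
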