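import Cfsg.Statements.S2781
import Cfsg.Agent.PLocal.OpMod

set_option autoImplicit false
open Cfsg

namespace Cfsg.Agent.S2781

open Subgroup Cfsg.Agent.Loc Cfsg.Agent.PLocal
open scoped IsMulCommutative commutatorElement

theorem avg {G : Type*} [Group G] [Finite G] {V R : Subgroup G} [IsMulCommutative V] (hR : R ≤ normalizer (V : Set G))
    (S : Subgroup R) {v : G} (hv : v ∈ V) (hc : ∀ s ∈ S, (s : G) * v = v * s) :
    v ^ S.index ∈ ⁅V, R⁆ ⊔ (V ⊓ centralizer (R : Set G)) := by
  classical
  let φ : R →* MulAut V := V.normalizerMonoidHom.comp (inclusion hR)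
  have hφ : ∀ (r : R) (x : V), ((φ r x : V) : G) = r * x * (r : G)⁻¹ := fun r x => rfl
  let f : R ⧸ S → V := Quotient.lift (fun r => φ r ⟨v, hv⟩) fun a b hab => by
    have h : a⁻¹ * b ∈ S := QuotientGroup.leftRel_apply.1 hab
    apply Subtype.ext
    rw [hφ, hφ]
    have := hc _ h
    simp only [coe_mul, coe_inv] at this
    calc (a : G) * v * (a : G)⁻¹ = a * (v * ((a : G)⁻¹ * b)) * (b : G)⁻¹ := by group
      _ = b * v * (b : G)⁻¹ := by rw [← this]; group
  have hf : ∀ (g : R) (q : R ⧸ S), φ g (f q) = f (g • q) := fun g q => by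
    induction q using QuotientGroup.induction_on with
    | H r => show φ g (φ r _) = φ (g * r) _; rw [map_mul]; rfl
  letI := Fintype.ofFinite (R ⧸ S)
  have h1 : ((∏ q, f q : V) : G) ∈ V ⊓ centralizer (R : Set G) := by
    refine ⟨(∏ q, f q : V).2, mem_centralizer_iff.2 fun g hg => ?_⟩
    have : φ ⟨g, hg⟩ (∏ q, f q) = ∏ q, f q := by
      rw [map_prod]
      simp only [hf]
      exact Equiv.prod_comp (MulAction.toPerm (⟨g, hg⟩ : R)) f
    have := congrArg Subtype.val this
    rw [hφ] at this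
    exact mul_inv_eq_iff_eq_mul.1 this
  have h2 : (∏ q : R ⧸ S, (⟨v, hv⟩ * (f q)⁻¹ : V)) ∈ (⁅V, R⁆ : Subgroup G).subgroupOf V := by
    refine Subgroup.prod_mem _ fun q _ => ?_
    induction q using QuotientGroup.induction_on with
    | H r =>
      have := commutator_mem_commutator hv r.2
      rw [commutatorElement_def] at this
      show v * ((φ r ⟨v, hv⟩ : V) : G)⁻¹ ∈ ⁅V, R⁆
      rw [hφ]
      convert this using 1
      group
  rw [Finset.prod_mul_distrib, Finset.prod_const, Finset.prod_inv_distrib, Finset.card_univ,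
    ← Nat.card_eq_fintype_card, mem_subgroupOf, coe_mul, coe_inv, coe_pow] at h2
  have := mul_mem (mem_sup_left h2 : _ ∈ ⁅V, R⁆ ⊔ (V ⊓ centralizer (R : Set G))) (mem_sup_right h1)
  rwa [inv_mul_cancel_right] at this

/-- Let H act faithfully by conjugation on the elementary abelian p-subgroup V of a finite group, let O^p(H) be the subgroup of H generated by its elements of order prime to p, and T a Sylow p-subgroup of O^p(H). If V is generated by the H-conjugates of C_V(T) (V is the smallest H-invariant subgroup containing C_V(T)), then V = [V, O^p(H)]·C_V(O^p(H)). -/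
theorem result {G : Type*} [Group G] [Finite G] {p : ℕ} [Fact p.Prime] (V H : Subgroup G) (hV : Cfsg.IsElementaryAbelian p V) (hHV : H ≤ Subgroup.normalizer (V : Set G)) (hf : H ⊓ Subgroup.centralizer (V : Set G) = ⊥) (R : Subgroup G) (hR : R = (Cfsg.pResidual p ↥H).map H.subtype) (S : Sylow p ↥R) (T : Subgroup G) (hT : T = ((S : Subgroup ↥R).map R.subtype)) (hgen : ∀ W : Subgroup G, H ≤ Subgroup.normalizer (W : Set G) → (V ⊓ Subgroup.centralizer ((T : Subgroup G) : Set G)) ≤ W → V ≤ W) : ⁅V, R⁆ ⊔ (V ⊓ Subgroup.centralizer ((R : Subgroup G) : Set G)) = V := by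
  have := hV.1
  have hRH : R ≤ H := hR ▸ map_subtype_le _
  have hHR : H ≤ normalizer (R : Set G) := by
    have : (pResidual p H).Normal := ⟨fun x hx g => by
      induction hx using closure_induction with
      | mem x hx => exact subset_closure (by
          show (orderOf (g * x * g⁻¹)).Coprime p
          rw [show orderOf (g * x * g⁻¹) = orderOf x from (MulAut.conj g).orderOf_eq x]; exact hx)
      | one => simp
      | mul x y _ _ hx hy => 
        rw [show g * (x * y) * g⁻¹ = (g * x * g⁻¹) * (g * y * g⁻¹) by group]; exact mul_mem hx hy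
      | inv x _ hx => rw [show g * x⁻¹ * g⁻¹ = (g * x * g⁻¹)⁻¹ by group]; exact inv_mem hx⟩
    rw [← normal_subgroupOf_iff_le_normalizer hRH, hR, subgroupOf, comap_map_eq_self_of_injective (subtype_injective _)]
    exact this
  refine le_antisymm (sup_le ?_ inf_le_left) (hgen _ ?_ ?_)
  · refine commutator_le.2 fun v hv r hr => ?_
    rw [commutatorElement_def, show v * r * v⁻¹ * r⁻¹ = v * (r * v⁻¹ * r⁻¹) by group]
    exact mul_mem hv ((mem_normalizer_iff.1 (hHV (hRH hr)) _).1 (inv_mem hv))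
  · refine le_normalizer_of_forall_conj fun h hh x hx => ?_
    have e : (⁅V, R⁆ ⊔ (V ⊓ centralizer (R : Set G))).map (MulAut.conj h).toMonoidHom ≤
        ⁅V, R⁆ ⊔ (V ⊓ centralizer (R : Set G)) := by
      have e1 : V.map (MulAut.conj h).toMonoidHom ≤ V := by
        rintro _ ⟨v, hv, rfl⟩; exact (mem_normalizer_iff.1 (hHV hh) v).1 hv
      have e2 : R.map (MulAut.conj h).toMonoidHom ≤ R := by
        rintro _ ⟨v, hv, rfl⟩; exact (mem_normalizer_iff.1 (hHR hh) v).1 hv
      rw [Subgroup.map_sup, map_commutator]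
      refine sup_le_sup (commutator_mono e1 e2) ?_
      rintro _ ⟨v, hv, rfl⟩
      refine ⟨e1 ⟨v, hv.1, rfl⟩, mem_centralizer_iff.2 fun r hr => ?_⟩
      have := mem_centralizer_iff.1 hv.2 _ ((mem_normalizer_iff.1 (hHR (H.inv_mem hh)) r).1 hr)
      show r * (h * v * h⁻¹) = h * v * h⁻¹ * r
      calc r * (h * v * h⁻¹) = h * (h⁻¹ * r * h⁻¹⁻¹ * v) * h⁻¹ := by group
        _ = _ := by rw [this]; group
    exact e ⟨x, hx, rfl⟩
  · intro v hv
    have h1 := avg (hRH.trans hHV) (S : Subgroup R) hv.1 fun s hs =>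
      mem_centralizer_iff.1 hv.2 _ (hT ▸ ⟨s, hs, rfl⟩)
    have h2 : (S : Subgroup R).index.Coprime p := ((Nat.Prime.coprime_iff_not_dvd Fact.out).2 S.not_dvd_index).symm
    have h3 : v ^ p = 1 := by
      have := hV.2 v hv.1
      exact this
    obtain ⟨m, hm⟩ := exists_pow_eq_self_of_coprime (x := v) (h2.coprime_dvd_right (orderOf_dvd_of_pow_eq_one h3))
    rw [← hm]
    exact pow_mem h1 m

end Cfsg.Agent.S2781
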