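import Cfsg.Statements.S2788
import Cfsg.Agent.PLocal.Zsig
-- import your own Cfsg.Agent.* helpers here

set_option autoImplicit false
open Cfsg

namespace Cfsg.Agent.S2788


open Subgroup Cfsg Cfsg.Agent.Transfer Cfsg.Agent.BG Cfsg.Agent.PLocal Pointwise
open scoped commutatorElement

/-- Let H act faithfully by conjugation on the elementary abelian p-subgroup V of a finite group with H ≅ SL₂(F), F a field with p^n elements, S a Sylow p-subgroup of H, and A ≤ S a subgroup of order at least 3 acting quadratically on V ([V, A, A] = 1). Then |V/C_V(a)| ≥ p^n for every nonidentity a ∈ A. -/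
theorem result {G : Type*} [Group G] [Finite G] {p : ℕ} [Fact p.Prime] (V H : Subgroup G) (hV : Cfsg.IsElementaryAbelian p V) (hHV : H ≤ Subgroup.normalizer (V : Set G)) (hf : H ⊓ Subgroup.centralizer (V : Set G) = ⊥) {F : Type*} [Field F] [Fintype F] (n : ℕ) (hF : Fintype.card F = p ^ n) (hiso : Nonempty (↥H ≃* Matrix.SpecialLinearGroup (Fin 2) F)) (S : Sylow p ↥H) (T : Subgroup G) (hT : T = ((S : Subgroup ↥H).map H.subtype)) (A : Subgroup G) (hA : A ≤ T) (hA3 : 3 ≤ Nat.card A) (hquad : ⁅⁅V, A⁆, A⁆ = ⊥) : ∀ a ∈ A, a ≠ 1 → p ^ n ≤ ((V ⊓ Subgroup.centralizer ({a} : Set G))).relIndex V := by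
  intro a ha h1
  obtain ⟨s, hs, rfl⟩ := hT.le (hA ha)
  obtain ⟨m, hm⟩ := Loc.exists_pow_of_isPGroup S.isPGroup' hs
  obtain ⟨e⟩ := hiso
  have h2 : s ≠ 1 := fun e => h1 (by simp [e])
  have := PU.charP_of_card hF
  by_cases hn : 2 ≤ n
  · refine (FF.psl_bound hV hHV hf (Nat.card_eq_fintype_card.trans hF) hn (f := (Classical.pslMk F).comp e.toMonoidHom)
      (Classical.pslMk_surjective.comp e.surjective) s (m := m) (by rw [← map_pow, hm, map_one]) fun h => ?_).1
    have h3 : e s ^ p ^ m = 1 := by rw [← map_pow, hm, map_one]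
    have h4 := (Classical.m2_unip_of_pow p (n := m) (congrArg Subtype.val h3)).1
    rcases Classical.sl_isScal_iff.1 (Classical.pslMk_eq_one_iff.1 h) with h | h
    · exact h2 (e.map_eq_one_iff.1 h)
    by_cases h5 : (2 : F) = 0
    · exact h2 (e.map_eq_one_iff.1 (h.trans (Classical.sl_neg_one_eq_one h5)))
    · change e s = -1 at h
      rw [h] at h4
      simp [Matrix.trace_fin_two] at h4
      exact mul_ne_zero h5 h5 (by linear_combination -h4)
  obtain ⟨k, hk⟩ := (ea_isPGroup hV).index ((V ⊓ centralizer {(s : G)}).subgroupOf V)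
  refine le_of_le_of_eq (Nat.pow_le_pow_right (Fact.out : p.Prime).pos ((by omega : n ≤ 1).trans
    (Nat.pos_of_ne_zero fun h => ?_))) hk.symm
  rw [h, pow_zero, index_eq_one, subgroupOf_eq_top] at hk
  exact h1 (mem_bot.1 (hf ▸ ⟨s.2, fun v hv => mem_centralizer_singleton_iff.1 (hk hv).2⟩))


end Cfsg.Agent.S2788
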