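import Cfsg.Statements.S2792
import Cfsg.Agent.FG.Coc

set_option autoImplicit false
open Cfsg

namespace Cfsg.Agent.S2792

open Subgroup Cfsg.Agent.Loc in
theorem aux {G : Type*} [Group G] [Finite G] {p : ℕ} [Fact p.Prime] (S : Sylow p G) {H : Subgroup G}
    (hS : (S : Subgroup G) ≤ H) (h : pResidualOf p H = pResidual p G ⊓ H) :
    (S : Subgroup G) ⊓ commutator G = (S : Subgroup G) ⊓ ⁅H, H⁆ := by
  refine le_antisymm (fun u hu => ⟨hu.1, ?_⟩) (inf_le_inf_left _ (commutator_mono le_top le_top))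
  haveI := Transfer.pResidual_normal p G
  have h1 : (S : Subgroup G).map (QuotientGroup.mk' (pResidual p G)) = ⊤ := by
    rw [eq_top_iff]
    intro x _
    obtain ⟨x, rfl⟩ := QuotientGroup.mk_surjective x
    obtain ⟨n, hn, s, hs, rfl⟩ := Transfer.exists_pResidual_mul_sylow S x
    exact ⟨s, hs, by simp [(QuotientGroup.eq_one_iff n).2 hn]⟩
  have h2 : QuotientGroup.mk' (pResidual p G) u ∈
      (⁅(S : Subgroup G), (S : Subgroup G)⁆).map (QuotientGroup.mk' (pResidual p G)) := by
    rw [map_commutator, h1]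
    have := mem_map_of_mem (QuotientGroup.mk' (pResidual p G)) (mem_inf.1 hu).2
    rw [commutator_def, map_commutator] at this
    exact commutator_mono le_top le_top this
  obtain ⟨w, hw, e⟩ := h2
  have hwS : w ∈ (S : Subgroup G) := commutator_le_left_of_le_normalizer le_normalizer hw
  have h3 : w⁻¹ * u ∈ pResidualOf p H := by
    rw [h]
    exact ⟨QuotientGroup.eq.1 e, hS ((S : Subgroup G).mul_mem ((S : Subgroup G).inv_mem hwS) hu.1)⟩
  have h4 : pResidual p (pResidualOf p H) = ⊤ := by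
    rw [← pResidualOf_subgroupOf, pResidualOf_pResidualOf, subgroupOf_self]
  have h5 := Transfer.isPGroup_le_commutator_of_pResidual_eq_top h4 (isPGroup_subgroupOf S.2 _)
    (x := ⟨_, h3⟩) ((S : Subgroup G).mul_mem ((S : Subgroup G).inv_mem hwS) hu.1)
  have h6 := mem_map_of_mem (pResidualOf p H).subtype h5
  rw [map_subtype_commutator] at h6
  have h7 := mul_mem (commutator_mono hS hS hw) (commutator_mono (pResidualOf_le p H) (pResidualOf_le p H) h6)
  simpa using h7

/-- Let S be a Sylow p-subgroup of the finite group G and W a subgroup of S weakly closed in S with respect to G. If S ∩ G' ≠ S ∩ (N_G(W))', then there are x ∈ S, z ∈ W and a maximal subgroup W₀ of W such that the iterated commutator [x, z; p−1] (with [x, z] = x⁻¹z⁻¹xz and [x, z; i+1] = [[x, z; i], z]) lies in W₀ but not in the Frattini subgroup of W₀; in particular [x, z; p−1] ≠ 1. -/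
theorem result {G : Type*} [Group G] [Finite G] {p : ℕ} [Fact p.Prime] (S : Sylow p G) (W : Subgroup G) (hW : Cfsg.IsWeaklyClosed W (S : Subgroup G)) (h : (S : Subgroup G) ⊓ commutator G ≠ (S : Subgroup G) ⊓ ⁅Subgroup.normalizer (W : Set G), Subgroup.normalizer (W : Set G)⁆) : ∃ x ∈ (S : Subgroup G), ∃ z ∈ W, ∃ W₀ : Subgroup ↥W, IsCoatom W₀ ∧ (fun y : G => y⁻¹ * z⁻¹ * y * z)^[p - 1] x ∈ W₀.map W.subtype ∧ (fun y : G => y⁻¹ * z⁻¹ * y * z)^[p - 1] x ∉ ((frattini ↥W₀).map W₀.subtype).map W.subtype := by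
  by_contra hne
  push Not at hne
  exact h (aux S (fun g hg => Loc.mem_normalizer_iff_cj.2 (hW.2 g (Loc.cj_le_of_mem hg hW.1)))
    (FG.Coc.hall_wielandt S hW hne))

end Cfsg.Agent.S2792
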