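import Cfsg.Statements.S2793
import Cfsg.Agent.LieM.Suff
import Mathlib.Tactic.Group

set_option autoImplicit false
open Cfsg

namespace Cfsg.Agent.S2793
open scoped commutatorElement

open Subgroup Cfsg.Agent.BG Cfsg.Agent.LieM

/-- Let p be an odd prime, S a Sylow p-subgroup of the finite group G, J(S) the subgroup generated by the abelian subgroups of S of largest order, and suppose Z(J(S)) does not control strong fusion in G. Put H = N_G(Z(J(S))). Then the group F(p) of upper triangular 3 × 3 matrices (a b c; 0 a⁻¹ d; 0 0 1) over the field with p elements is involved in H, and Z(J(S)) contains a subgroup C of order p with |N_H(C) : C_H(C)| = p − 1. -/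
theorem result {G : Type*} [Group G] [Finite G] {p : ℕ} [Fact p.Prime] (hp : p ≠ 2) (S : Sylow p G) (h : ¬ Cfsg.ControlsStrongFusion p (Cfsg.centerThompsonAOf (S : Subgroup G))) (H : Subgroup G) (hH : H = Subgroup.normalizer ((Cfsg.centerThompsonAOf (S : Subgroup G)) : Set G)) : Cfsg.Involves ↥(Cfsg.fOver (ZMod p)) ↥H ∧ ∃ C : Subgroup G, C ≤ (Cfsg.centerThompsonAOf (S : Subgroup G)) ∧ Nat.card C = p ∧ (H ⊓ Subgroup.centralizer (C : Set G)).relIndex (H ⊓ Subgroup.normalizer (C : Set G)) = p - 1 := by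
  subst hH
  obtain ⟨a, ha⟩ := IsCyclic.exists_monoid_generator (α := (ZMod p)ˣ)
  obtain ⟨h1, g, hg, c, hc, oc, e⟩ := suff_main hp ha _ G rfl S (sylowIn_top S) fun hgood => h ⟨S, PLocal.ZJA_le _,
    fun A hA => ⟨hA, fun g hg => by
      obtain ⟨x, hx, e⟩ := hgood g (mem_top g) (closure A) ((closure_le _).2 hA)
        (by rw [cj_closure]; exact (closure_le _).2 hg)
      exact ⟨x, hx, fun a ha => e a (subset_closure ha)⟩⟩⟩
  exact ⟨PLocal.involves_iff_sub.2 h1, zpowers c, zpowers_le.2 hc, (Nat.card_zpowers c).trans oc,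
    suff_relIndex hg oc ha e⟩

end Cfsg.Agent.S2793
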