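import Cfsg.Statements.S2794
import Cfsg.Agent.PLocal.Qd2
-- import your own Cfsg.Agent.* helpers here

set_option autoImplicit false
open Cfsg

namespace Cfsg.Agent.S2794


open Subgroup Cfsg Cfsg.Agent.Transfer Cfsg.Agent.BG Cfsg.Agent.PLocal Pointwise
open scoped commutatorElement

/-- For an odd prime p and a finite group G, the group Qd(p) is not involved in G if and only if in every section K/R of G, for every Sylow p-subgroup S* of K/R, the centre of J(S*) (J generated by the abelian subgroups of largest order) controls strong fusion in K/R. -/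
theorem result {G : Type*} [Group G] [Finite G] {p : ℕ} [Fact p.Prime] (hp : p ≠ 2) : ¬ Cfsg.Involves ↥(Cfsg.qd p) G ↔ ∀ (K R : Subgroup G) [hR : (R.subgroupOf K).Normal], ∀ T : Sylow p (K ⧸ R.subgroupOf K), Cfsg.ControlsStrongFusion p (Cfsg.centerThompsonAOf (T : Subgroup (K ⧸ R.subgroupOf K))) := by
  refine ⟨fun h K R _ T => ?_, fun h => not_involves_qd_of_sfok (single_char ZJAF_char) fun K R _ => ?_⟩
  · rw [← ind_ZJAF, ← sfok_single_iff ZJAF_char (isSylowIn_top T)]
    exact (sfok_ZJ hp (fun X _ _ hX => nstab_of_not_qd hp fun h' =>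
      h (involves_iff_top.2 (hX.trans' h'))) _ (involves_sec K R)).1
  · obtain ⟨T⟩ : Nonempty (Sylow p (K ⧸ R.subgroupOf K)) := inferInstance
    rw [sfok_single_iff ZJAF_char (isSylowIn_top T), ind_ZJAF]
    exact h K R T


end Cfsg.Agent.S2794
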