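import Cfsg.Statements.S2795
import Cfsg.Agent.PLocal.Qd2
-- import your own Cfsg.Agent.* helpers here

set_option autoImplicit false
open Cfsg

namespace Cfsg.Agent.S2795


open Subgroup Cfsg Cfsg.Agent.Transfer Cfsg.Agent.BG Cfsg.Agent.PLocal Pointwise
open scoped commutatorElement

/-- For an odd prime p and a finite group G, the group Qd(p) is not involved in G if and only if every section of G is p-stable in the normalizer form (for every p-subgroup P of the section and every g in its normalizer acting quadratically on P, the image of g in N(P)/C(P) lies in O_p(N(P)/C(P))). -/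
theorem result {G : Type*} [Group G] [Finite G] {p : ℕ} [Fact p.Prime] (hp : p ≠ 2) : ¬ Cfsg.Involves ↥(Cfsg.qd p) G ↔ ∀ (K R : Subgroup G) [hR : (R.subgroupOf K).Normal], Cfsg.IsNormalizerPStable p (K ⧸ R.subgroupOf K) := by
  refine ⟨fun h K R _ => nstab_iff.2 (nstab_of_not_qd hp fun h' =>
    h (involves_iff_top.2 ((involves_sec K R).trans' h'))), fun h =>
    not_involves_qd_of_sfok (single_char ZJAF_char) fun K R _ => ?_⟩
  exact (sfok_ZJ hp (fun X _ _ hX => nstab_of_sec h hX) _ (involves_sec K R)).1


end Cfsg.Agent.S2795
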