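import Cfsg.Statements.S2800
import Cfsg.Agent.PLocal.FF9
-- import your own Cfsg.Agent.* helpers here

set_option autoImplicit false
open Cfsg

namespace Cfsg.Agent.S2800


open Subgroup Cfsg Cfsg.Agent.Transfer Cfsg.Agent.BG Cfsg.Agent.PLocal Pointwise
open scoped commutatorElement

/-- Let S be a Sylow p-subgroup of the finite group G and J(S) the subgroup generated by the abelian subgroups of S of largest order. Suppose p is odd, or the symmetric group of degree 4 is not involved in G. If both C_G(Z(S)) and N_G(J(S)) have normal p-complements, then G has a normal p-complement. -/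
theorem result {G : Type*} [Group G] [Finite G] {p : ℕ} [Fact p.Prime] (S : Sylow p G) (h : p ≠ 2 ∨ ¬ Cfsg.Involves (Equiv.Perm (Fin 4)) G) (hC : Cfsg.HasNormalPComplement p ↥(Subgroup.centralizer (((S : Subgroup G) ⊓ Subgroup.centralizer ((S : Subgroup G) : Set G) : Subgroup G) : Set G))) (hN : Cfsg.HasNormalPComplement p ↥(Subgroup.normalizer ((Cfsg.thompsonSubgroupAOf (S : Subgroup G)) : Set G))) : Cfsg.HasNormalPComplement p G := by
  refine npc_J_Z JAF_char (fun X _ _ hX hc hq T hT hC => ?_) (isSylowIn_top S) (by rwa [ind_JAF]) hC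
  rw [ind_JAF]
  have hT' := isSylowIn_top T
  by_cases hp : p = 2
  · subst hp
    exact (FF.J_normal_of_umax (M := T) ⟨le_rfl, hT.1.lt_top, fun K a b => (hT.le_iff.1 a).elim
      (fun e => absurd e b.ne) fun e => e.le⟩ (IsSylowIn.sylIn hT')
      ((centS (Loc.omegaOne_le 2 _)).trans (hC.trans (pCore_le_isSylowIn hT')))
      fun e => FF.not_qd_of_S4 (h.resolve_left fun h => h rfl) (hX.trans' e)).1
  have hQ := pCore_le_isSylowIn hT'
  haveI : (OZ p (pCore p X)).Normal := FF.omegaOneCenter_normal p _
  rw [← JA_eq_of_le hQ (by_contra fun hn => ?_)]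
  · infer_instance
  have hV := Loc.isElementaryAbelian_omegaOne_center p (pCore p X)
  obtain ⟨A, hA, h1, h2⟩ := exists_quad_JA (V := OZ p (pCore p X)) hT'.isPGroup
    ⟨(Loc.omegaOne_center_le p _).trans hQ, norm_of_normal _ _⟩ hV.1 fun e => hn (e.trans hC)
  exact h1 ((((nstab_of_max hp hT' hT hq X (involves_self X)).normal _ (ea_isPGroup hV)).le_of_cent hC h2).trans
    (Loc.le_centralizer_omegaOne_center p _))


end Cfsg.Agent.S2800
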