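import Cfsg.Statements.S2856
import Cfsg.Agent.Loc.VIter

set_option autoImplicit false
open Cfsg

namespace Cfsg.Agent.S2856

/-- Let (M₁, M₂) be an amalgam pair in X satisfying the rank-two standing hypothesis (characteristic p, the normalizers in M₁ and in M₂ of a Sylow p-subgroup of M₁ ∩ M₂ equal and contained in M₁ ∩ M₂, and strongly p-embedded residues), λ a vertex of the coset graph, L_λ the subgroup of its stabilizer generated by the p-elements, Q_λ = O_p of the stabilizer, O^p(L_λ) the subgroup of L_λ generated by its elements of order prime to p, and V_λ^{(k)} the subgroup generated by the Z_μ over the vertices μ at distance at most k from λ (Z_μ being generated by the Ω₁(Z(S)), S a Sylow p-subgroup of the stabilizer of μ). If n ≥ 1 and V_λ^{(n)} ≤ Q_λ, then O^p(L_λ) does not centralize V_λ^{(n)}/[V_λ^{(n)}, Q_λ], that is, [V_λ^{(n)}, O^p(L_λ)] is not contained in [V_λ^{(n)}, Q_λ]. -/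
theorem result {X : Type*} [Group X] {p : ℕ} [Fact p.Prime] (M₁ M₂ : Subgroup X) (h : Cfsg.IsSpeAmalgamPair p M₁ M₂) (lam : Cfsg.CosetVertex M₁ M₂) (n : ℕ) (hn : 1 ≤ n) (V : Subgroup X) (hV : V = Cfsg.vertexVIter p M₁ M₂ n lam) (hVQ : V ≤ Cfsg.vertexQ p lam) : ¬ ⁅V, ((Cfsg.pResidual p ↥(Cfsg.pElementClosure p (MulAction.stabilizer X lam))).map (Cfsg.pElementClosure p (MulAction.stabilizer X lam)).subtype)⁆ ≤ ⁅V, Cfsg.vertexQ p lam⁆ := by
  open Cfsg.Agent.Loc Subgroup in
  open scoped commutatorElement in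
  intro hc
  obtain ⟨n, rfl⟩ := Nat.exists_eq_add_of_le' hn
  obtain ⟨μ, hμ⟩ := exists_coset_adj lam
  have hp := charPair_of_adj h.1 hμ
  haveI := hp.finA
  have hU : vertexVIter p M₁ M₂ n μ ≤ V := hV ▸ vIter_le_of_adj h.1.1.1 hμ
  have hVn : MulAction.stabilizer X lam ≤ normalizer (V : Set X) :=
    hV ▸ stabilizer_le_normalizer_vIter
  have hQ := pCoreOf_le p (MulAction.stabilizer X lam)
  have hW := le_normalizer_commutator hVn (le_normalizer_pCoreOf p _)
  have hWV : ⁅V, vertexQ p lam⁆ ≤ V := commutator_le_left_of_le_normalizer (hQ.trans hVn)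
  have h1 : V ≤ vertexVIter p M₁ M₂ n μ ⊔ ⁅V, vertexQ p lam⁆ := by
    conv_lhs => rw [hV]
    exact vIter_succ_le h.1 hμ le_sup_left (stabilizer_le_of_spe h hμ
      (le_normalizer_of_commutator_le' (((commutator_mono (sup_le hU hWV) le_rfl).trans hc).trans
        le_sup_right)) (le_normalizer_sup (inf_le_right.trans stabilizer_le_normalizer_vIter)
          (inf_le_left.trans hW)))
  haveI := finite_of_le hQ
  have h2 := le_antisymm (le_of_le_sup_commutator (isPGroup_pCoreOf p _).isNilpotent hVQ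
    (hU.trans hVQ) (hp.pCoreOf_le.trans stabilizer_le_normalizer_vIter) h1) hU
  exact vIter_ne_bot h.1 (hV.symm.trans (hp.eq_bot (hVQ.trans (le_inf hQ hp.pCoreOf_le)) hVn
    (h2 ▸ stabilizer_le_normalizer_vIter)))

end Cfsg.Agent.S2856
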