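import Cfsg.Statements.S2954
import Cfsg.Agent.Loc.JC7

set_option autoImplicit false
open Cfsg

namespace Cfsg.Agent.S2954

/-- Let G be a finite group of characteristic 2 type in which every 2-local subgroup is solvable and the centralizer of Ω₁(Z(S)) lies in N_G(S) for every Sylow 2-subgroup S; suppose O₂(G) = 1, fix a Sylow 2-subgroup S and a 2-local subgroup M containing N_G(J(S)) (J the Thompson subgroup generated by the elementary abelian 2-subgroups of largest order). If T is maximal (for the order of a largest elementary abelian subgroup, then the order of J(T), then the order of T) among the nontrivial 2-subgroups of M lying in a 2-local subgroup not inside M, then there are two distinct maximal 2-local subgroups P₁, P₂ of G, each having T as a Sylow 2-subgroup, that are both isomorphic to the symmetric group on four letters or both isomorphic to its direct product with a group of order 2. -/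
theorem result {G : Type*} [Group G] [Finite G] (hL : Cfsg.IsCharacteristicTwoType G) (hN : ∀ N : Subgroup G, Cfsg.IsTwoLocal N → Group.IsSolvable ↥N)
    (hZ : ∀ S : Sylow 2 G, Subgroup.centralizer (Cfsg.omegaCenterOf (S : Subgroup G) : Set G) ≤ Subgroup.normalizer ((S : Subgroup G) : Set G)) (hO : Cfsg.pCore 2 G = ⊥) (S : Sylow 2 G) (M : Subgroup G) (hM : Cfsg.IsTwoLocal M)
    (hMJ : Subgroup.normalizer (Cfsg.thompsonSubgroupOf 2 (S : Subgroup G) : Set G) ≤ M) (T : Subgroup G) (hT : T ∈ Cfsg.maxStraddlingTwoSubgroups M) :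
    ∃ P₁ P₂ : Subgroup G, P₁ ≠ P₂ ∧ Cfsg.IsMaximalTwoLocal P₁ ∧ Cfsg.IsMaximalTwoLocal P₂ ∧
      Cfsg.IsSylowTwoIn T P₁ ∧ Cfsg.IsSylowTwoIn T P₂ ∧
      ((Nonempty (↥P₁ ≃* Equiv.Perm (Fin 4)) ∧ Nonempty (↥P₂ ≃* Equiv.Perm (Fin 4))) ∨
        (Nonempty (↥P₁ ≃* Equiv.Perm (Fin 4) × Multiplicative (ZMod 2)) ∧
          Nonempty (↥P₂ ≃* Equiv.Perm (Fin 4) × Multiplicative (ZMod 2)))) := by
  open Cfsg.Agent.Loc Subgroup in
  open scoped commutatorElement in
  have h : ZN G := ⟨hL, hN, hZ⟩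
  obtain ⟨K, L, K', L', u, u', ne⟩ := h.exists_pair hO (mx_of hT (sylIn_top S) hMJ)
  obtain ⟨s1, e1⟩ := h.small u u' ne
  obtain ⟨s2, e2⟩ := h.small u' u ne.symm
  have a1 := h.l3 u
  have a2 := h.l3 u'
  rw [e1] at s1 a1
  rw [e2] at s2 a2
  have c1 := Solv.card_mul_relIndex a1.syl.le
  have c2 := Solv.card_mul_relIndex a2.syl.le
  rw [a1.idx] at c1
  rw [a2.idx] at c2
  refine ⟨L, L', ne, u.maxl, u'.maxl, isSylowTwoIn_iff.2 u.syl, isSylowTwoIn_iff.2 u'.syl, ?_⟩
  rcases iso_of_small a1.toS3 a1.ch s1 with ⟨b1, f⟩ | ⟨b1, ⟨f⟩⟩ <;>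
    rcases iso_of_small a2.toS3 a2.ch s2 with ⟨b2, f'⟩ | ⟨b2, ⟨f'⟩⟩
  · exact Or.inl ⟨f, f'⟩
  · omega
  · omega
  · exact Or.inr ⟨⟨f.trans MulEquiv.prodComm⟩, ⟨f'.trans MulEquiv.prodComm⟩⟩

end Cfsg.Agent.S2954
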