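import Cfsg.Statements.S3084
import Cfsg.Agent.Low.Cliff
import Mathlib.Algebra.Group.Shrink

set_option autoImplicit false
open Cfsg

namespace Cfsg.Agent.S3084

/-- Let K be a group acting faithfully and linearly on a finite-dimensional vector space U of dimension 2n ≥ 2 over the field with two elements, preserving a quadratic form q whose polar bilinear form is non-degenerate and which vanishes on some n-dimensional subspace (a non-singular form of plus type). Then there is a finite group R with a normal extraspecial 2-subgroup Q of order 2^(2n+1), an isomorphism of R/Q with K, and a surjective homomorphism χ from Q onto (the additive group of) U with kernel the centre of Q, such that χ carries conjugation by any r in R to the action of the image of r in K, and an element a of Q squares to the identity exactly when q vanishes at χ(a). -/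
theorem result {K : Type*} [Group K] {U : Type*} [AddCommGroup U] [Module (ZMod 2) U] [Module.Finite (ZMod 2) U] (n : ℕ) (hn1 : 1 ≤ n) (hn : Module.finrank (ZMod 2) U = 2 * n) (ρ : Representation (ZMod 2) K U) (hρ : Function.Injective ρ) (q : QuadraticForm (ZMod 2) U) (hq : ∀ (k : K) (u : U), q (ρ k u) = q u) (hnd : (QuadraticMap.polarBilin q).Nondegenerate) (hplus : ∃ W : Submodule (ZMod 2) U, Module.finrank (ZMod 2) ↥W = n ∧ ∀ w ∈ W, q w = 0) : ∃ (R : Type) (_ : Group R) (_ : Finite R) (Q : Subgroup R) (hN : Q.Normal) (e : R ⧸ Q ≃* K) (χ : ↥Q →* Multiplicative U), Cfsg.IsExtraspecial 2 ↥Q ∧ Nat.card ↥Q = 2 ^ (2 * n + 1) ∧ Function.Surjective χ ∧ χ.ker = Subgroup.center ↥Q ∧ (∀ (r : R) (a : ↥Q), χ ⟨r * a * r⁻¹, hN.conj_mem (a : R) a.2 r⟩ = Multiplicative.ofAdd (ρ (e (r : R ⧸ Q)) (Multiplicative.toAdd (χ a)))) ∧ ∀ a : ↥Q, a * a = 1 ↔ q (Multiplicative.toAdd (χ a)) = 0 := by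
  classical
  haveI : Finite U := Module.finite_of_finite (ZMod 2)
  haveI : Finite (Module.End (ZMod 2) U) := Finite.of_injective _ DFunLike.coe_injective
  haveI : Finite K := Finite.of_injective _ hρ
  let eK : Shrink.{0} K ≃* K := Shrink.mulEquiv
  let b := Module.finBasis (ZMod 2) U
  let eU : (Fin (Module.finrank (ZMod 2) U) → ZMod 2) ≃ₗ[ZMod 2] U := b.equivFun.symm
  haveI : Finite (Shrink.{0} K) := Finite.of_equiv _ eK.symm.toEquiv
  haveI : Nontrivial U := Module.nontrivial_of_finrank_pos (R := ZMod 2) (by omega)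
  haveI : Nontrivial (Fin (Module.finrank (ZMod 2) U) → ZMod 2) := eU.toEquiv.nontrivial
  let c0 := q.toBilin b
  have hc0 : ∀ u, c0 u u = q u := fun u => by
    have := congrArg (fun Q : QuadraticForm (ZMod 2) U => Q u) (QuadraticMap.toQuadraticMap_toBilin q b)
    simpa using this
  let c : LinearMap.BilinForm (ZMod 2) (Fin (Module.finrank (ZMod 2) U) → ZMod 2) := LinearMap.BilinForm.comp c0 eU.toLinearMap eU.toLinearMap
  have hcq : ∀ u, c u u = q (eU u) := fun u => hc0 _
  let ρ0 : Shrink.{0} K →* Module.End (ZMod 2) (Fin (Module.finrank (ZMod 2) U) → ZMod 2) :=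
    (eU.symm.conjRingEquiv.toRingHom.toMonoidHom.comp ρ).comp eK.toMonoidHom
  have hρ0 : ∀ k u, eU (ρ0 k u) = ρ (eK k) (eU u) := fun k u => by simp [ρ0]
  obtain ⟨R, _, _, φ, χ, h1, h2, h3, h4, h5, h6, h7⟩ := Low.Cliff.core (c := c) ρ0
    (fun k u => by rw [hcq, hcq, hρ0, hq]) fun v hv => by
      apply eU.injective
      rw [map_zero]
      refine hnd.1 _ fun u => ?_
      have := hv (eU.symm u)
      rw [QuadraticMap.polarBilin_apply_apply, QuadraticMap.polar, ← hc0, ← hc0, ← hc0]
      simp only [c, LinearMap.BilinForm.comp_apply, LinearEquiv.coe_coe, LinearEquiv.apply_symm_apply] at this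
      simp only [map_add, LinearMap.add_apply]
      linear_combination this
  let f : Multiplicative (Fin (Module.finrank (ZMod 2) U) → ZMod 2) ≃* Multiplicative U := eU.toAddEquiv.toMultiplicative
  refine ⟨R, inferInstance, inferInstance, φ.ker, φ.normal_ker,
    (QuotientGroup.quotientKerEquivOfSurjective φ h1).trans eK, f.toMonoidHom.comp χ, h2, ?_,
    f.surjective.comp h4, ?_, fun r a => ?_, fun a => ?_⟩
  · rw [h3, Nat.card_congr eU.toEquiv, Module.natCard_eq_pow_finrank (K := ZMod 2), hn, Nat.card_zmod, pow_succ']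
  · rw [← h5]; ext a; simp
  · show Multiplicative.ofAdd (eU (Multiplicative.toAdd (χ _))) = _
    rw [h6, toAdd_ofAdd, hρ0]
    rfl
  · rw [h7, hcq]; rfl

end Cfsg.Agent.S3084
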