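import Cfsg.Statements.S3085
import Cfsg.Agent.PGrp.ES
import Cfsg.Agent.BG.Base5

set_option autoImplicit false
open Cfsg

namespace Cfsg.Agent.S3085

open PGrp Subgroup BG
open scoped commutatorElement

variable {Q : Type*} [Group Q] [Finite Q] {z v : Q}

theorem two (a : ZMod 2) : a = 0 ∨ a = 1 := by revert a; decide

theorem exists_r (h : IsES 2 z) (hv : v * v = z) : ∃ r : MulAut Q, (∀ x, h.B (h.π x) (h.π v) = 0 → r x = x) ∧
    (∀ x, h.B (h.π x) (h.π v) = 1 → r x = x * v) ∧ r * r = MulAut.conj v := by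
  have hz : z * z = 1 := by rw [← pow_two, ← h.ord, pow_orderOf_eq_one]
  have h1 : ∀ x, h.B (h.π x) (h.π v) = 1 → v * x * v = x := fun x e => by
    have e1 := h.ez_B x v
    rw [e, h.ez_one, commutatorElement_def] at e1
    have e2 := mem_center_iff.1 h.cen
    calc v * x * v = (x * v * x⁻¹ * v⁻¹)⁻¹ * (x * (v * v)) := by group
      _ = x := by rw [← e1, hv, e2 x, inv_mul_cancel_left]
  let f : Q →* Q := MonoidHom.mk' (fun x => x * v ^ (h.B (h.π x) (h.π v)).val) fun x y => by
    rw [h.mk_mul, map_add, LinearMap.add_apply]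
    rcases two (h.B (h.π x) (h.π v)) with e | e <;> rcases two (h.B (h.π y) (h.π v)) with e' | e' <;> rw [e, e']
    · simp
    · simp [mul_assoc]
    · simp [mul_assoc, show (1 : ZMod 2).val = 1 from rfl, (h.B_eq_zero.1 e').eq]
    · rw [show ((1 : ZMod 2) + 1).val = 0 from rfl, show (1 : ZMod 2).val = 1 from rfl, pow_zero, pow_one, mul_one, mul_assoc,
        ← mul_assoc v, h1 y e']
  have f0 : ∀ x, h.B (h.π x) (h.π v) = 0 → f x = x := fun x e => by simp [f, e]
  have f1 : ∀ x, h.B (h.π x) (h.π v) = 1 → f x = x * v := fun x e => by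
    change x * v ^ _ = _; rw [e, show (1 : ZMod 2).val = 1 from rfl, pow_one]
  have ff : ∀ x, f (f x) = v * x * v⁻¹ := fun x => by
    rcases two (h.B (h.π x) (h.π v)) with e | e
    · rw [f0 x e, f0 x e, ← (h.B_eq_zero.1 e).eq, mul_inv_cancel_right]
    · rw [f1 x e, map_mul, f1 x e, f0 v (h.isAlt _), show v * x * v⁻¹ = v * x * v * (v * v)⁻¹ by group, h1 x e, mul_assoc, hv,
        inv_eq_of_mul_eq_one_right hz]
  exact ⟨MulEquiv.ofBijective f (Finite.injective_iff_bijective.1 fun x y e => (MulAut.conj v).injective (by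
    simp only [MulAut.conj_apply, ← ff, e])), f0, f1, MulEquiv.ext ff⟩

theorem conj_mul (r : MulAut Q) (w : Q) : r * MulAut.conj w = MulAut.conj (r w) * r := by ext; simp

/-- Let Q be an extraspecial 2-group of order 2^(2n+1) with n ≥ 3 that is of plus type (it contains an elementary abelian subgroup of order 2^(n+1)). Then the group of inner automorphisms of Q has no complement in the full automorphism group of Q: the extension of the inner automorphism group (elementary abelian of order 2^(2n)) by the outer automorphism group (the orthogonal group of plus type) does not split. -/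
theorem result {Q : Type*} [Group Q] [Finite Q] (n : ℕ) (hn : 3 ≤ n) (hQ : Cfsg.IsExtraspecial 2 Q) (hcard : Nat.card Q = 2 ^ (2 * n + 1)) (hplus : ∃ E : Subgroup Q, Cfsg.IsElementaryAbelian 2 E ∧ Nat.card ↥E = 2 ^ (n + 1)) (L : Subgroup (MulAut Q)) : ¬ (Cfsg.Inn Q).IsComplement' L := by
  intro hL
  obtain ⟨z, h, hZ⟩ := exists_isES hQ
  have hI : ∀ w, MulAut.conj w ∈ L → h.π w = 0 := fun w hw => h.mk_eq_zero.2 (hZ ▸ mem_center_iff.2 fun g => by
    have := DFunLike.congr_fun (mem_bot.1 (hL.disjoint.le_bot ⟨⟨w, rfl⟩, hw⟩)) g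
    exact (mul_inv_eq_iff_eq_mul.1 this).symm)
  have add (a : h.V) : a + a = 0 := by rw [← two_smul (ZMod 2), show (2 : ZMod 2) = 0 from rfl, zero_smul]
  have nz : ∀ v, v * v = z → h.π v ≠ 0 := fun v hv e => h.ne_one (by
    rw [← hv, ← pow_two]; exact h.pow_eq_one (h.mk_eq_zero.1 e))
  have ex : ∀ v, v * v = z → ∃ r : MulAut Q, (∀ x, h.B (h.π x) (h.π v) = 0 → r x = x) ∧
      (∀ x, h.B (h.π x) (h.π v) = 1 → r x = x * v) ∧ ∃ w, MulAut.conj w * r ∈ L ∧ h.B (h.π w) (h.π v) = 1 := fun v hv => by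
    obtain ⟨r, h0, h1, h2⟩ := exists_r h hv
    obtain ⟨⟨⟨_, w, rfl⟩, l⟩, e, -⟩ := hL.existsUnique r
    have hl : MulAut.conj w⁻¹ * r ∈ L := by rw [← e, map_inv, inv_mul_cancel_left]; exact l.2
    refine ⟨r, h0, h1, w⁻¹, hl, (two _).resolve_left fun e => nz v hv ?_⟩
    have := L.mul_mem hl hl
    rw [mul_assoc, ← mul_assoc r, conj_mul, mul_assoc, h2, ← map_mul, ← map_mul, h0 _ e] at this
    have := hI _ this
    rwa [h.mk_mul, h.mk_mul, ← add_assoc, add, zero_add] at this
  obtain ⟨u, hu⟩ : ∃ u : Q, u * u = z := by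
    by_contra! H
    have : ∀ x : Q, x * x = 1 := fun x => by
      obtain ⟨s, hs⟩ := h.exists_ez (h.pow x)
      rcases two s with rfl | rfl
      · rw [← pow_two, ← hs, h.ez_zero]
      · exact absurd (by rw [← pow_two, ← hs, h.ez_one]) (H x)
    exact ES_not_comm hQ ⟨⟨fun a b => by
      rw [← inv_eq_of_mul_eq_one_right (this (a * b)), mul_inv_rev, inv_eq_of_mul_eq_one_right (this a),
        inv_eq_of_mul_eq_one_right (this b)]⟩⟩
  obtain ⟨r, r0, r1, w, hw, hw1⟩ := ex u hu
  have key : ∀ a, a * a = 1 → Commute a u → h.π a ≠ 0 → h.B (h.π w) (h.π u + h.π a) = 0 := fun a ha hc hne => by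
    have hv : u * a * (u * a) = z := by rw [mul_assoc, ← mul_assoc a, hc.eq, mul_assoc, ha, mul_one, hu]
    rw [← h.mk_mul]
    have hvu : h.π (u * a) ≠ h.π u := fun e => hne (by rwa [h.mk_mul, add_eq_left] at e)
    have hc : Commute (u * a) u := (Commute.refl u).mul_left hc
    generalize u * a = v at *
    obtain ⟨s, s0, s1, y, hy, hy1⟩ := ex v hv
    have b1 := h.B_eq_zero.2 hc
    have b2 := h.B_eq_zero.2 hc.symm
    have e : r * s = s * r := MulEquiv.ext fun x => by
      rcases two (h.B (h.π x) (h.π u)) with e | e <;> rcases two (h.B (h.π x) (h.π v)) with e' | e' <;>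
        simp [r0 v b1, s0 u b2, r0 x, r1 x, s0 x, s1 x, e, e', mul_assoc, hc.eq]
    have := L.mul_mem (L.mul_mem hw hy) (L.inv_mem (L.mul_mem hy hw))
    rw [mul_assoc _ r, ← mul_assoc r, conj_mul, mul_assoc _ s, ← mul_assoc s, conj_mul, mul_assoc _ r, mul_assoc _ s, e,
      show ∀ a b c d x : MulAut Q, a * (b * x) * (c * (d * x))⁻¹ = a * b * (c * d)⁻¹ by intros; group, ← map_mul, ← map_mul,
      ← map_inv, ← map_mul] at this
    have := hI _ this
    refine (two _).resolve_right fun e1 => ?_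
    rw [s1 w e1, h.mk_mul, h.mk_inv, add_neg_eq_zero, h.mk_mul, h.mk_mul, h.mk_mul] at this
    rcases two (h.B (h.π y) (h.π u)) with e2 | e2
    · rw [r0 y e2, add_comm, add_right_inj, left_eq_add] at this; exact nz v hv this
    · rw [r1 y e2, h.mk_mul, add_left_comm, add_right_inj, add_right_inj] at this; exact hvu this.symm
  obtain ⟨E, hE, hc⟩ := hplus
  have h8 : 8 ≤ #(E ⊓ C1[u] : Subgroup Q) := by
    have e1 := card_inf_mul_relIndex C1[u] E
    have e2 : (C1[u]).relIndex E ≤ 2 := by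
      let f : Q →* Multiplicative (ZMod 2) := MonoidHom.mk' (fun x => .ofAdd (h.B (h.π x) (h.π u))) fun x y => by
        simp [h.mk_mul]
      rw [show C1[u] = f.ker from Subgroup.ext fun x => mem_cent1.trans h.B_eq_zero.symm, relIndex_ker]
      simpa using (E.map f).card_le_card_group
    have : 2 ^ 4 ≤ 2 ^ (n + 1) := Nat.pow_le_pow_right two_pos (by omega)
    rw [inf_comm, hc] at e1
    nlinarith
  have pick : ∀ T : Subgroup Q, #T ≤ 4 → ∃ a ∈ E ⊓ C1[u], a ∉ T := fun T hT => by
    by_contra! H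
    have := card_le_of_le H
    omega
  obtain ⟨a, ha, ha'⟩ := pick (zpowers z) (by rw [h.card_zpowers]; omega)
  have a2 : a * a = 1 := by rw [← pow_two]; exact hE.pow ha.1
  obtain ⟨b, hb, hb'⟩ := pick (zpowers a ⊔ zpowers z) (Nat.le_of_dvd (by omega) ((card_sup_dvd (.inr (cents_norm (h.le_center.trans
    (center_le_centralizer _))))).trans (by
      rw [h.card_zpowers, Nat.card_zpowers]; exact mul_dvd_mul_right (orderOf_dvd_of_pow_eq_one (hE.pow ha.1)) 2)))
  have b2 : b * b = 1 := by rw [← pow_two]; exact hE.pow hb.1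
  have k1 := key a a2 (mem_cent1.1 ha.2) (mt h.mk_eq_zero.1 ha')
  have k2 := key b b2 (mem_cent1.1 hb.2) fun e => hb' (mem_sup_right (h.mk_eq_zero.1 e))
  have k3 := key (a * b) (by rw [← pow_two]; exact hE.pow (mul_mem ha.1 hb.1)) (mem_cent1.1 (mul_mem ha.2 hb.2)) fun e => hb' (by
    simpa using mul_mem (inv_mem (mem_sup_left (mem_zpowers a))) (mem_sup_right (h.mk_eq_zero.1 e)))
  simp only [h.mk_mul, map_add, hw1] at k1 k2 k3
  revert k1 k2 k3
  generalize h.B (h.π w) (h.π a) = x
  generalize h.B (h.π w) (h.π b) = y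
  revert x y; decide

end Cfsg.Agent.S3085
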