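import Cfsg.Statements.S3103
import Cfsg.Agent.Gen.GL42
import Cfsg.Agent.Sig.PComp
import Mathlib.Tactic.Group

set_option autoImplicit false
open Cfsg

namespace Cfsg.Agent.S3103
open scoped commutatorElement

open Subgroup Cfsg.Agent.BG Cfsg.Agent.Sig

/-- Let X be a finite 2-constrained group with no nontrivial normal subgroup of odd order such that O₂(X) has sectional 2-rank at most 4. Then X/O₂(X) is isomorphic to a subgroup of the alternating group of degree 8. -/
theorem result {X : Type*} [Group X] [Finite X] (hc : Cfsg.IsPConstrained 2 X) (hO : Cfsg.oddCore X = ⊥)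
    (h4 : Cfsg.SectionalPRankLE 2 4 ↥(Cfsg.pCore 2 X)) :
    ∃ f : X ⧸ Cfsg.pCore 2 X →* ↥(alternatingGroup (Fin 8)), Function.Injective f := by
  haveI : Fact (Nat.Prime 2) := ⟨Nat.prime_two⟩
  set Q := pCore 2 X with hQ
  have hQp : IsPGroup 2 Q := Solv.isPGroup_pCore 2 X
  have hC : C[Q] ≤ Q := by
    have h1 : xeIn 2 (⊤ : Subgroup X) = ⊥ := by
      rw [xeIn, pLayerIn_top, ppIn_top, isPConstrained_iff_pLayer.1 hc, bot_sup_eq]
      exact hO
    have h2 := fstarIn_eq_pcIn_iff.1 (fstarIn_eq_pcIn_iff_xeIn.2 h1)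
    rwa [pcIn_top, top_inf_eq] at h2
  haveI : (Phi Q).Normal := NormalIn.normal (normal_top Q).Phi
  set π := QuotientGroup.mk' (Phi Q) with hπ
  haveI : (Q.map π).Normal := Normal.map inferInstance _ (QuotientGroup.mk'_surjective _)
  have hV : ∀ v : Q.map π, v ^ 2 = 1 := by
    rintro ⟨_, x, hx, rfl⟩
    refine Subtype.ext ?_
    show π x ^ 2 = 1
    rw [← map_pow]
    exact (QuotientGroup.eq_one_iff _).2 (pow_mem_Phi hQp hx)
  have hcard : #(Q.map π) ≤ 16 := by
    let f : (⊤ : Subgroup Q) →* Q.map π := (π.subgroupMap Q).comp (⊤ : Subgroup Q).subtype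
    have hf : Function.Surjective f := (π.subgroupMap_surjective Q).comp fun x => ⟨⟨x, mem_top x⟩, rfl⟩
    let e := QuotientGroup.quotientKerEquivOfSurjective f hf
    have h2 : ∀ a : (⊤ : Subgroup Q) ⧸ f.ker, a ^ 2 = 1 := fun a => e.injective (by rw [map_pow, hV, map_one])
    have := h4 ⊤ f.ker ⊤ (abelian_of_cent (le_cent_iff.2 fun a _ b _ => by
      have h : ∀ v : (⊤ : Subgroup Q) ⧸ f.ker, v⁻¹ = v := fun v =>
        inv_eq_of_mul_eq_one_right (by rw [← pow_two, h2])
      rw [← h (a * b), mul_inv_rev, h, h])) (fun a _ => h2 a)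
    rwa [card_top, Nat.card_congr e.toEquiv] at this
  obtain ⟨f, hf⟩ := Gen.aut_embed hV hcard
  let ψ : X →* alternatingGroup (Fin 8) := f.comp ((MulAut.conjNormal (H := Q.map π)).comp π)
  have hk : ∀ g, g ∈ ψ.ker ↔ ∀ x ∈ Q, ⁅x, g⁆ ∈ Phi Q := by
    intro g
    rw [MonoidHom.mem_ker, MonoidHom.comp_apply, map_eq_one_iff f hf, MonoidHom.comp_apply]
    have key : ∀ x, ⁅x, g⁆ ∈ Phi Q ↔ π g * π x * (π g)⁻¹ = π x := fun x => by
      rw [← QuotientGroup.eq_one_iff, ← QuotientGroup.mk'_apply, map_commutatorElement,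
        commutatorElement_eq_one_iff_mul_comm, mul_inv_eq_iff_eq_mul, eq_comm]
    constructor
    · intro h x hx
      have := congrArg Subtype.val (DFunLike.congr_fun h ⟨π x, mem_map_of_mem _ hx⟩)
      rw [MulAut.conjNormal_apply] at this
      exact (key x).2 this
    · intro h
      ext ⟨_, x, hx, rfl⟩
      exact (key x).1 (h x hx)
  have hker : ψ.ker = Q := by
    refine le_antisymm (Solv.le_pCore ?_) fun g hg => (hk g).2 fun x hx =>
      der1_sub_Phi (pgroup_nil hQp) (commutator_mem_commutator hx hg)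
    refine PiNat.pg fun q hq hd => ?_
    by_contra h2
    obtain ⟨g, hg, hgq⟩ := Cauchy hq hd
    have hz : PiGrp {2}ᶜ (zpowers g) := p_elt_zpowers.2 (by rw [PiElt, hgq, pnat_prime hq]; exact h2)
    have h3 := coprime_cent_Phi (norm_of_normal Q (zpowers g)) (pnat_coprime (IsPGroup.pi hQp) hz)
      (commutator_le.2 fun x hx y hy => (hk y).1 (zpowers_le.2 hg hy) x hx)
    have h5 := (pgroup_p'_TI hQp hz).le ⟨hC (h3 (mem_zpowers g)), mem_zpowers g⟩
    rw [mem_bot.1 h5, orderOf_one] at hgq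
    exact hq.one_lt.ne hgq
  exact ⟨(QuotientGroup.kerLift ψ).comp (QuotientGroup.quotientMulEquivOfEq hker.symm).toMonoidHom,
    (QuotientGroup.kerLift_injective ψ).comp (QuotientGroup.quotientMulEquivOfEq hker.symm).injective⟩

end Cfsg.Agent.S3103
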