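import Cfsg.Statements.S3105
import Cfsg.Agent.Loc.SR7d
import Cfsg.Agent.Sig.PComp
import Cfsg.Agent.Classical.SLCard
import Cfsg.Agent.Classical.SLGen
import Cfsg.Agent.Classical.FieldCongr

set_option autoImplicit false
open Cfsg

namespace Cfsg.Agent.S3105
open Subgroup Cfsg.Agent.BG Cfsg.Agent.Sig Cfsg.Agent.Loc Cfsg.Agent.Classical

/-- Let X be a finite nonsolvable 2-constrained group with no nontrivial normal subgroup of odd order and of sectional 2-rank at most 4, and suppose X/O₂(X) is isomorphic to the projective special linear group of dimension 3 over the field with 2 elements. Then O₂(X) is elementary abelian of order 8 or 16, or is isomorphic to the direct product of a cyclic group of order 4 and an elementary abelian group of order 8. -/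
theorem result {X : Type*} [Group X] [Finite X] (hns : ¬ Group.IsSolvable X) (hc : Cfsg.IsPConstrained 2 X) (hO : Cfsg.oddCore X = ⊥)
    (h4 : Cfsg.SectionalPRankLE 2 4 X) {F : Type*} [Field F] [Fintype F] (hF : Fintype.card F = 2)
    (hQ : Nonempty (X ⧸ Cfsg.pCore 2 X ≃* Matrix.ProjectiveSpecialLinearGroup (Fin 3) F)) :
    (Cfsg.IsElementaryAbelian 2 (Cfsg.pCore 2 X) ∧ (Nat.card ↥(Cfsg.pCore 2 X) = 8 ∨ Nat.card ↥(Cfsg.pCore 2 X) = 16)) ∨
      Nonempty (↥(Cfsg.pCore 2 X) ≃* Multiplicative (ZMod 4) × (Fin 3 → Multiplicative (ZMod 2))) := by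
  haveI : Fact (Nat.Prime 2) := ⟨Nat.prime_two⟩
  set Q := pCore 2 X with hQ'
  have hC : C[Q] ≤ Q := by
    have h1 : xeIn 2 (⊤ : Subgroup X) = ⊥ := by
      rw [xeIn, pLayerIn_top, ppIn_top, isPConstrained_iff_pLayer.1 hc, bot_sup_eq]
      exact hO
    have h2 := fstarIn_eq_pcIn_iff.1 (fstarIn_eq_pcIn_iff_xeIn.2 h1)
    rwa [pcIn_top, top_inf_eq] at h2
  obtain ⟨e⟩ := hQ
  obtain ⟨r⟩ := nonempty_ringEquiv_zmod (F := F) (p := 2) (by rw [Nat.card_eq_fintype_card, hF])
  have h1 : center SR7.L = ⊥ := by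
    rw [← card_eq_one, card_center_SL]
    simp
  let ε := (pslCongr r).trans ((QuotientGroup.quotientMulEquivOfEq h1).trans QuotientGroup.quotientBot)
  have := isSimpleGroup_PSL (ι := Fin 3) (F := F) (by simp)
  have : IsSimpleGroup SR7.L := ε.symm.isSimpleGroup
  have cL := card_SL_mul (F := ZMod 2) 3 (by decide)
  simp only [Nat.card_zmod, Fin.prod_univ_succ, Fin.prod_univ_zero] at cL
  refine (SR7.main (Q := Q) (by simpa using cL) ((e.trans ε).toMonoidHom.comp (QuotientGroup.mk' Q))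
    ((e.trans ε).surjective.comp (QuotientGroup.mk'_surjective Q))
    (Subgroup.ext fun x => (map_eq_one_iff _ (e.trans ε).injective).trans (QuotientGroup.eq_one_iff x))
    (Solv.isPGroup_pCore 2 X) hC fun H N a b => Gen2.sr_le h4 a b).imp_left fun ⟨a, b⟩ => ⟨?_, b⟩
  have s : ∀ x ∈ Q, x * x = 1 := fun x hx => congrArg Subtype.val (a ⟨x, hx⟩)
  exact ⟨⟨⟨fun x y => Subtype.ext (SR4.comm_of_sq s x.2 y.2)⟩⟩, fun x hx => pow_two x ▸ s x hx⟩

end Cfsg.Agent.S3105
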