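import Cfsg.Statements.S3106
import Cfsg.Agent.Loc.SR4
import Cfsg.Agent.Sig.PComp

set_option autoImplicit false
open Cfsg

namespace Cfsg.Agent.S3106
open Subgroup Cfsg.Agent.BG Cfsg.Agent.Sig Cfsg.Agent.Loc

/-- Let X be a finite nonsolvable 2-constrained group with no nontrivial normal subgroup of odd order and of sectional 2-rank at most 4, and suppose X/O₂(X) contains a subgroup isomorphic to the alternating group of degree 5. Then O₂(X) is elementary abelian of order 16, or O₂(X) is a central product of a quaternion group of order 8 and a dihedral group of order 8 (it has order 32 and is generated by two elementwise-commuting subgroups, one quaternion of order 8 and one dihedral of order 8, meeting in the centre). -/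
theorem result {X : Type*} [Group X] [Finite X] (hns : ¬ Group.IsSolvable X) (hc : Cfsg.IsPConstrained 2 X) (hO : Cfsg.oddCore X = ⊥)
    (h4 : Cfsg.SectionalPRankLE 2 4 X)
    (hQ : ∃ A : Subgroup (X ⧸ Cfsg.pCore 2 X), Nonempty (↥A ≃* ↥(alternatingGroup (Fin 5)))) :
    (Cfsg.IsElementaryAbelian 2 (Cfsg.pCore 2 X) ∧ Nat.card ↥(Cfsg.pCore 2 X) = 16) ∨
      (Nat.card ↥(Cfsg.pCore 2 X) = 32 ∧ ∃ A B : Subgroup ↥(Cfsg.pCore 2 X),
        Nonempty (↥A ≃* QuaternionGroup 2) ∧ Nonempty (↥B ≃* DihedralGroup 4) ∧ (∀ a ∈ A, ∀ b ∈ B, a * b = b * a) ∧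
          A ⊔ B = ⊤ ∧ A ⊓ B = Subgroup.center ↥(Cfsg.pCore 2 X)) := by
  haveI : Fact (Nat.Prime 2) := ⟨Nat.prime_two⟩
  set Q := pCore 2 X with hQ'
  have hC : C[Q] ≤ Q := by
    have h1 : xeIn 2 (⊤ : Subgroup X) = ⊥ := by
      rw [xeIn, pLayerIn_top, ppIn_top, isPConstrained_iff_pLayer.1 hc, bot_sup_eq]
      exact hO
    have h2 := fstarIn_eq_pcIn_iff.1 (fstarIn_eq_pcIn_iff_xeIn.2 h1)
    rwa [pcIn_top, top_inf_eq] at h2
  obtain ⟨A, ⟨e⟩⟩ := hQ
  set Y := A.comap (QuotientGroup.mk' Q)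
  have l : Q ≤ Y := fun x hx => mem_comap.2 (by rw [QuotientGroup.mk'_apply, (QuotientGroup.eq_one_iff x).2 hx]; exact one_mem A)
  let ε := subgroupOfEquivOfLe l
  rcases SR4.main (Q := Q.subgroupOf Y) (e.toMonoidHom.comp ((QuotientGroup.mk' Q).subgroupComap A))
    (e.surjective.comp (MonoidHom.subgroupComap_surjective_of_surjective _ _ (QuotientGroup.mk'_surjective Q)))
    (Subgroup.ext fun x => (map_eq_one_iff _ e.injective).trans (Subtype.ext_iff.trans (QuotientGroup.eq_one_iff x.1)))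
    ((Solv.isPGroup_pCore 2 X).of_equiv ε.symm)
    (fun x hx => hC fun y hy => congrArg Subtype.val (hx ⟨y, l hy⟩ hy)) (fun H N a b => by
      rw [← card_map_of_injective Y.subtype_injective, ← card_map_of_injective (K := N) Y.subtype_injective]
      exact Gen2.sr_le h4 (map_mono a) (by rintro _ ⟨x, hx, rfl⟩; exact mem_map_of_mem _ (b x hx)))
    with ⟨a, b⟩ | ⟨a, b, c⟩
  · have s : ∀ x ∈ Q, x * x = 1 := fun x hx => congrArg (·.1.1) (a ⟨⟨x, l hx⟩, hx⟩)
    exact .inl ⟨⟨⟨⟨fun x y => Subtype.ext (SR4.comm_of_sq s x.2 y.2)⟩⟩, fun x hx => pow_two x ▸ s x hx⟩,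
      Nat.card_congr ε.toEquiv ▸ b⟩
  · rw [Nat.card_congr ε.toEquiv] at a
    exact .inr ⟨a, SR4.decomp (PGrp.ES_of_mulEquiv b ε) a ((Nat.card_congr
      (ε.toEquiv.subtypeEquiv (p := fun x => x * x = 1) fun x => by simp [← map_mul])).symm.trans c)⟩

end Cfsg.Agent.S3106
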