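import Cfsg.Statements.S3110
import Cfsg.Agent.Sig.Sf5

set_option autoImplicit false
open Cfsg

namespace Cfsg.Agent.S3110

open Subgroup Cfsg.Agent.BG Cfsg.Agent.Sig

/-- Let G be a finite group in which every 2-local subgroup is 2-constrained and some Sylow 2-subgroup has a self-centralizing abelian normal subgroup of 2-rank at least 3, and let S be any Sylow 2-subgroup of G. Then there is a subgroup W of G of odd order such that, for every subgroup B of S of 2-rank at least 2, W is generated by the largest normal odd-order subgroups O(C_G(b)) of the centralizers of the non-identity elements b of B, and W is normalized by the normalizer of every such B. -/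
theorem result {G : Type*} [Group G] [Finite G]
    (h2c : ∀ T : Subgroup G, IsPGroup 2 T → T ≠ ⊥ → Cfsg.IsPConstrained 2 ↥(Subgroup.normalizer (T : Set G)))
    (S : Sylow 2 G) (A : Subgroup ↥(S : Subgroup G)) (hAn : A.Normal) (hAab : IsMulCommutative ↥A)
    (hAC : Subgroup.centralizer (A : Set ↥(S : Subgroup G)) = A) (hA3 : ¬ Cfsg.PRankLE 2 2 ↥A) (S' : Sylow 2 G) :
    ∃ W : Subgroup G, Odd (Nat.card ↥W) ∧
      ∀ B : Subgroup G, B ≤ (S' : Subgroup G) → ¬ Cfsg.PRankLE 2 1 ↥B →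
        W = (⨆ b : {b : G // b ∈ B ∧ b ≠ 1}, Cfsg.centralizerPPrimeCore 2 (b : G)) ∧
        Subgroup.normalizer (B : Set G) ≤ Subgroup.normalizer (W : Set G) := by
  have hc : ∀ x : G, IsPGroup 2 (zpowers x) → x ≠ 1 → pLayerIn 2 C1[x] = ⊥ := fun x => pLayerIn_C1_eq_bot h2c
  have hc' : ∀ t : G, orderOf t = 2 → pLayerIn 2 C1[t] = ⊥ := fun t ht =>
    hc t (pgroup_zpowers ht) fun e => by simp [e] at ht
  obtain ⟨E, hn, hE, h3⟩ := exists_normal_abelem hAn hAab hA3
  obtain ⟨g, -, e⟩ := Sylow_trans (sylowIn_top S) (sylowIn_top S')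
  have hn' : BG.cj g E ⊴ S' := e ▸ hn.cj g
  have hE' := abelemJ g hE
  have h3' : 2 ^ 3 ≤ #(BG.cj g E) := by rwa [card_cj]
  have hU := uni_of_normal (fun A _ hA => sf_two hc' hA) S'.2 hE' hn' h3'
  refine ⟨_, pnat_odd.1 ((sf_two hc' hE').complete_two h3').pp, fun B hB h1 => ?_⟩
  obtain ⟨V, hV, hA, h2⟩ := exists_abelem_of_rank h1
  refine ⟨le_antisymm ((hU V (hV.trans hB) hA h2).ge.trans (Cl_le fun a ha ha1 => ?_)) (iSup_le fun ⟨b, hb, hb1⟩ => ?_),
    hU.norm_le (Op'_C1_conj 2) hB hV hA h2⟩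
  · rw [← cpc_eq]
    exact le_iSup (fun b : {b : G // b ∈ B ∧ b ≠ 1} => centralizerPPrimeCore 2 (b : G)) ⟨a, hV ha, ha1⟩
  · have hb2 : IsPGroup 2 (zpowers b) := S'.2.to_le (zpowers_le.2 (hB hb))
    obtain ⟨t, ht, ht1, ht2⟩ := PLocal.exists_mem_ne_one_pow_eq_one hb2 (zpowers_ne_bot.2 hb1)
    obtain ⟨U, hUS, hUA, hU2, htU⟩ := exists_rank_two S'.2 hE' hn'.1 (sq_le_of_cube h3') (zpowers_le.2 (hB hb) ht) ht2
    have l : C1[b] ≤ C1[t] := C_zpowers b ▸ cent_le_cent1 ht
    rw [cpc_eq, ← hU U hUS hUA hU2]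
    exact ((le_inf le_rfl ((pcore_sub _ _).trans l)).trans (Op'_bal (hc' t (orderOf_eq_prime ht2 ht1)) hb2
      (l (cent1_self b)))).trans (le_Cl (θ := fun a => Op' 2 C1[a]) htU ht1)

end Cfsg.Agent.S3110
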