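import Cfsg.Statements.S3117
import Cfsg.Agent.Loc.Q3

set_option autoImplicit false
open Cfsg

namespace Cfsg.Agent.S3117

/-- If X is a finite 2-group containing exactly three involutions, then the automorphism group of X is solvable. -/
theorem result {X : Type*} [Group X] [Finite X] (h2 : IsPGroup 2 X) (h3 : Nat.card {x : X // orderOf x = 2} = 3) : Group.IsSolvable (MulAut X) :=
  Loc.Q3.solvable h2 h3

end Cfsg.Agent.S3117
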