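import Cfsg.Statements.S3356
import Cfsg.Agent.Neu.Half32

set_option autoImplicit false
open Cfsg

namespace Cfsg.Agent.S3356

/-- Let G be a finite 3/2-transitive permutation group: G acts faithfully and transitively on a finite set, the point stabilizers are non-trivial, and for each point a all orbits of G_a on the remaining points have the same size. Suppose G has a regular normal subgroup N and G is not a Frobenius group (some two-point stabilizer is non-trivial). Then N is an elementary abelian p-group for some prime p, and every non-trivial normal subgroup of G contains N (so N is the unique minimal normal subgroup). -/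
theorem result {G Ω : Type*} [Group G] [Finite G]
    [MulAction G Ω] [FaithfulSMul G Ω] [Finite Ω] (htrans : MulAction.IsPretransitive G Ω)
    (hne : ∀ a : Ω, MulAction.stabilizer G a ≠ ⊥)
    (hhalf : ∀ a b c : Ω, b ≠ a → c ≠ a →
      Nat.card (MulAction.orbit (MulAction.stabilizer G a) b) = Nat.card (MulAction.orbit (MulAction.stabilizer G a) c))
    (N : Subgroup G) [hN : N.Normal] (hNt : MulAction.IsPretransitive N Ω) (hNr : ∀ a : Ω, MulAction.stabilizer N a = ⊥)
    (hnotF : ∃ a b : Ω, a ≠ b ∧ MulAction.stabilizer G a ⊓ MulAction.stabilizer G b ≠ ⊥) :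
    (∃ p : ℕ, p.Prime ∧ IsMulCommutative N ∧ ∀ x ∈ N, x ^ p = 1) ∧
    (∀ M : Subgroup G, M.Normal → M ≠ ⊥ → N ≤ M) := by
  open MulAction Subgroup Neu.H32 in
  obtain ⟨a, b, hab, hst⟩ := hnotF
  letI : MulDistribMulAction (stabilizer G a) N :=
    MulDistribMulAction.compHom N ((MulAut.conjNormal (H := N)).comp (stabilizer G a).subtype)
  have hsm : ∀ (g : stabilizer G a) (x : N), ((g • x : N) : G) = g * x * (g : G)⁻¹ := fun _ _ => rfl
  have hreg : ∀ x y : N, (x : G) • a = (y : G) • a → x = y := fun x y h => by
    have : y⁻¹ * x ∈ stabilizer N a := by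
      rw [mem_stabilizer_iff, mul_smul, inv_smul_eq_iff]; exact h
    rw [hNr, mem_bot, inv_mul_eq_one] at this
    exact this.symm
  have hact : ∀ (g : stabilizer G a) (x : N), ((g • x : N) : G) • a = g • (x : G) • a :=
    fun g x => by
      have : (g : G)⁻¹ • a = a := (g⁻¹).2
      rw [hsm, mul_smul, mul_smul, this]; rfl
  have hstab : ∀ x : N, stabilizer (stabilizer G a) x = stabilizer (stabilizer G a) ((x : G) • a) :=
    fun x => by
      ext g
      rw [mem_stabilizer_iff, mem_stabilizer_iff, ← hact]
      exact ⟨fun h => by rw [h], hreg _ _⟩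
  have hS : HS N (stabilizer G a) (Nat.card (stabilizer (stabilizer G a) b)) := by
    refine ⟨fun x hx => ?_, fun h => hst ?_, fun g hg => ?_⟩
    · have h1 := hhalf a ((x : G) • a) b (fun h => hx (hreg x 1 (by simpa using h))) hab.symm
      rw [Nat.card_coe_set_eq, Nat.card_coe_set_eq, ← index_stabilizer, ← index_stabilizer] at h1
      have h2 := (stabilizer (stabilizer G a) ((x : G) • a)).card_mul_index
      rw [← (stabilizer (stabilizer G a) b).card_mul_index, h1] at h2
      rw [hstab]
      exact Nat.eq_of_mul_eq_mul_right (Nat.pos_of_ne_zero index_ne_zero_of_finite) h2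
    · rw [card_eq_one] at h
      refine (eq_bot_iff_forall _).2 fun g hg => ?_
      have : (⟨g, hg.1⟩ : stabilizer G a) ∈ stabilizer (stabilizer G a) b := hg.2
      rw [h, mem_bot] at this
      exact congrArg Subtype.val this
    · refine Subtype.ext (eq_of_smul_eq_smul (α := Ω) fun w => ?_)
      obtain ⟨x, rfl⟩ := hNt.exists_smul_eq a w
      have := hact g x
      rw [hg] at this
      rw [OneMemClass.coe_one, one_smul]; exact this.symm
  haveI : Nontrivial N := by
    obtain ⟨x, hx⟩ := hNt.exists_smul_eq a b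
    exact ⟨x, 1, fun h => hab (by rw [← hx, h, one_smul])⟩
  obtain ⟨p, hp, hcm, hpow⟩ := hS.elem
  refine ⟨⟨p, hp, ⟨⟨hcm⟩⟩, fun x hx => congrArg Subtype.val (hpow ⟨x, hx⟩)⟩, fun M hM hM1 => ?_⟩
  rcases hS.simple (M.subgroupOf N) (fun g x hx => hM.conj_mem _ hx g) with h | h
  · exfalso
    obtain ⟨⟨m, hm⟩, hm1⟩ := ne_bot_iff_exists_ne_one.1 hM1
    have hd : Disjoint M N := disjoint_iff.2 (subgroupOf_eq_bot.1 h).eq_bot
    obtain ⟨y, hy⟩ := hNt.exists_smul_eq a (m • a)
    have hy : (y : G) • a = m • a := hy
    have e : m = y := eq_of_smul_eq_smul (α := Ω) fun w => by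
      obtain ⟨x, rfl⟩ := hNt.exists_smul_eq a w
      have h1 := (commute_of_normal_of_disjoint M N hM hN hd m x hm x.2).eq
      have h2 : (y : G) * x = x * y := congrArg Subtype.val (hcm y x)
      show m • (x : G) • a = (y : G) • (x : G) • a
      rw [← mul_smul, h1, mul_smul, ← hy, ← mul_smul, ← h2, mul_smul]
    exact hm1 (Subtype.ext (disjoint_def.1 hd hm (e ▸ y.2)))
  · exact subgroupOf_eq_top.1 h

end Cfsg.Agent.S3356
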