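import Cfsg.Statements.S3357
import Cfsg.Agent.Gen2.FCLift

set_option autoImplicit false
open Cfsg

namespace Cfsg.Agent.S3357

theorem aux {G K V : Type*} [Group G] [Field K] [AddCommGroup V] [Module K V]
    [FiniteDimensional K V] [Nontrivial V] (σ : Representation K G V)
    (hσ : ∀ g, g ≠ 1 → ∀ v, σ g v = v → v = 0) :
    ∃ (n : ℕ) (ρ : G →* GL (Fin n) K), 0 < n ∧ Function.Injective ρ ∧
      (∀ W : Submodule K (Fin n → K), (∀ g : G, ∀ w ∈ W,
        ((ρ g : GL (Fin n) K) : Matrix (Fin n) (Fin n) K).mulVec w ∈ W) → W = ⊥ ∨ W = ⊤) ∧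
      ∀ g : G, g ≠ 1 → ∀ v : Fin n → K,
        ((ρ g : GL (Fin n) K) : Matrix (Fin n) (Fin n) K).mulVec v = v → v = 0 := by
  obtain ⟨U, ⟨hU0, hU⟩, hmin⟩ := exists_minimal_of_wellFoundedLT
    (fun U : Submodule K V => U ≠ ⊥ ∧ ∀ g, ∀ u ∈ U, σ g u ∈ U)
    ⟨⊤, top_ne_bot, fun _ _ _ => trivial⟩
  let τ : G →* Module.End K U :=
    { toFun := fun g => (σ g).restrict (hU g)
      map_one' := by ext; simp
      map_mul' := fun a b => by ext; simp }
  let b := Module.finBasis K U
  let ρ : G →* GL (Fin (Module.finrank K U)) K :=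
    ((LinearMap.toMatrixAlgEquiv b).toMonoidHom.comp τ).toHomUnits
  have h1 : ∀ g (v : Fin (Module.finrank K U) → K),
      b.equivFun.symm ((ρ g).val.mulVec v) = τ g (b.equivFun.symm v) := fun g v => by
    obtain ⟨u, rfl⟩ := b.equivFun.surjective v
    rw [LinearEquiv.symm_apply_apply, LinearEquiv.symm_apply_eq]
    exact LinearMap.toMatrix_mulVec_repr b b (τ g) u
  have h2 : ∀ g : G, g ≠ 1 → ∀ v, (ρ g).val.mulVec v = v → v = 0 := fun g hg v hv => by
    have h3 := h1 g v
    rw [hv] at h3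
    exact b.equivFun.symm.map_eq_zero_iff.1
      (Subtype.ext (hσ g hg _ (congrArg Subtype.val h3).symm))
  have := Submodule.nontrivial_iff_ne_bot.2 hU0
  have h3 : 0 < Module.finrank K U := Module.finrank_pos
  refine ⟨_, ρ, h3, (injective_iff_map_eq_one _).2 fun g hg => ?_, fun W hW => ?_, h2⟩
  · by_contra h
    have := h2 g h (fun _ => 1) (by rw [hg]; simp)
    exact one_ne_zero (congrFun this ⟨0, h3⟩)
  · rw [or_iff_not_imp_left]
    intro hW0
    let f := U.subtype ∘ₗ b.equivFun.symm.toLinearMap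
    have hf : Function.Injective f := Subtype.val_injective.comp b.equivFun.symm.injective
    have h4 : W.map f ≤ U := by
      rintro _ ⟨v, -, rfl⟩
      exact (b.equivFun.symm v).2
    have h5 := hmin (y := W.map f)
      ⟨fun h => hW0 (Submodule.map_injective_of_injective hf (h.trans (Submodule.map_bot f).symm)), by
        rintro g _ ⟨v, hv, rfl⟩
        exact ⟨_, hW g v hv, congrArg Subtype.val (h1 g v)⟩⟩ h4
    rw [eq_top_iff]
    intro v _
    obtain ⟨u, hu, huv⟩ := h5 (b.equivFun.symm v).2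
    exact hf huv ▸ hu

/-- Let G be a finite group that occurs as a Frobenius complement. Then G has a faithful irreducible representation over an algebraic closure of the rationals in which no non-identity element of G has 1 as an eigenvalue: there are n ≥ 1 and an injective homomorphism ρ from G to GL(n) over that field, with no invariant subspace other than 0 and the whole space, such that for g ≠ 1 the only vector fixed by ρ(g) is 0. -/
theorem result {G : Type*} [Group G] [Finite G]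
    (hFC : ∃ (L : Type) (_ : Group L) (_ : Finite L) (H : Subgroup L), Cfsg.IsFrobeniusComplement H ∧ Nonempty (G ≃* H)) :
    ∃ (n : ℕ) (ρ : G →* GL (Fin n) (AlgebraicClosure ℚ)), 0 < n ∧ Function.Injective ρ ∧
      (∀ W : Submodule (AlgebraicClosure ℚ) (Fin n → AlgebraicClosure ℚ),
        (∀ g : G, ∀ w ∈ W, ((ρ g : GL (Fin n) (AlgebraicClosure ℚ)) : Matrix (Fin n) (Fin n) (AlgebraicClosure ℚ)).mulVec w ∈ W) → W = ⊥ ∨ W = ⊤) ∧
      ∀ g : G, g ≠ 1 → ∀ v : Fin n → AlgebraicClosure ℚ,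
        ((ρ g : GL (Fin n) (AlgebraicClosure ℚ)) : Matrix (Fin n) (Fin n) (AlgebraicClosure ℚ)).mulVec v = v → v = 0 := by
  have hG : Gen2.IsFC G := hFC
  obtain ⟨w, h0, hw⟩ := hG.exists_nz
  have hnt : Nontrivial (Gen2.nzSub (AlgebraicClosure ℚ) G) :=
    ⟨⟨fun x => (w x : AlgebraicClosure ℚ), hw.map (Int.castAddHom (AlgebraicClosure ℚ))⟩, 0, fun h =>
      h0 (funext fun x => Int.cast_eq_zero.1 (congrFun (congrArg Subtype.val h) x))⟩
  exact aux (Gen2.nzRep (AlgebraicClosure ℚ) G) fun g hg v hv =>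
    Gen2.nzRep_fpf (Nat.cast_ne_zero.2 Nat.card_pos.ne') hg hv

end Cfsg.Agent.S3357
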