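import Cfsg.Statements.S3379

set_option autoImplicit false
open Cfsg

namespace Cfsg.Agent.S3379

open Subgroup

/-- Let G be a finite group all of whose Sylow subgroups are cyclic. Then G is generated by two elements x and y of coprime orders n and m with x⁻¹yx = y^r, where gcd(r − 1, m) = 1 and r^n ≡ 1 (mod m). -/
theorem result {G : Type*} [Group G] [Finite G]
    (hZ : ∀ (p : ℕ) [Fact p.Prime] (P : Sylow p G), IsCyclic (P : Subgroup G)) :
    ∃ (x y : G) (n m r : ℕ), Subgroup.closure {x, y} = ⊤ ∧ orderOf x = n ∧ orderOf y = m ∧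
      x⁻¹ * y * x = y ^ r ∧ Nat.Coprime (r - 1) m ∧ Nat.Coprime n m ∧ 1 ≤ r ∧ r ^ n % m = 1 % m := by
  haveI : IsZGroup G := ⟨fun p hp P => by haveI : Fact p.Prime := ⟨hp⟩; exact hZ p P⟩
  set N := commutator G with hN
  haveI hNc : IsCyclic N := IsZGroup.isCyclic_commutator G
  have hcop : (Nat.card N).Coprime N.index := IsZGroup.coprime_commutator_index G
  obtain ⟨H, hH⟩ := Subgroup.exists_right_complement'_of_coprime hcop
  haveI hHc : IsCyclic H := by
    haveI : IsCyclic (G ⧸ N) := IsZGroup.isCyclic_abelianization (G := G)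
    exact isCyclic_of_surjective _ hH.symm.QuotientMulEquiv.surjective
  obtain ⟨y, hy⟩ := (Subgroup.isCyclic_iff_exists_zpowers_eq_top N).1 hNc
  obtain ⟨x, hx⟩ := (Subgroup.isCyclic_iff_exists_zpowers_eq_top H).1 hHc
  have hox : orderOf x = Nat.card H := by rw [← Nat.card_zpowers, hx]
  have hoy : orderOf y = Nat.card N := by rw [← Nat.card_zpowers, hy]
  have hgen : closure ({x, y} : Set G) = ⊤ := by
    rw [eq_top_iff, ← hH.sup_eq_top, ← hx, ← hy]
    refine sup_le ?_ ?_ <;> rw [zpowers_le] <;> exact subset_closure (by simp)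
  have hconj : ∀ g : G, ∃ k : ℕ, g * y * g⁻¹ = y ^ k := by
    intro g
    have : g * y * g⁻¹ ∈ zpowers y := by
      rw [hy]; exact (inferInstance : N.Normal).conj_mem y (hy ▸ mem_zpowers y) g
    obtain ⟨k, hk⟩ := (mem_powers_iff_mem_zpowers).2 this
    exact ⟨k, hk.symm⟩
  obtain ⟨k, hk⟩ := hconj x⁻¹
  set r := k + orderOf y with hr
  have hxy : x⁻¹ * y * x = y ^ r := by
    rw [hr, pow_add, pow_orderOf_eq_one, mul_one, ← hk, inv_inv]
  have hr1 : 1 ≤ r := by have := orderOf_pos y; omega
  refine ⟨x, y, orderOf x, orderOf y, r, hgen, rfl, rfl, hxy, ?_, ?_, hr1, ?_⟩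
  · set K := zpowers (y ^ (r - 1)) with hK
    haveI : K.Normal := ⟨by
      rintro _ ⟨i, rfl⟩ g
      obtain ⟨j, hj⟩ := hconj g
      have : g * (y ^ (r - 1)) ^ i * g⁻¹ = ((y ^ (r - 1)) ^ j) ^ i := by
        rw [← conj_zpow, ← conj_pow, hj, ← pow_mul, ← pow_mul, mul_comm]
      simp only
      rw [this]
      exact zpow_mem (pow_mem (mem_zpowers _) _) _⟩
    let f := QuotientGroup.mk' K
    have hc : f x * f y = f y * f x := by
      have h1 : f (y ^ (r - 1)) = 1 := (QuotientGroup.eq_one_iff _).2 (mem_zpowers _)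
      have h2 : y * x = x * y * y ^ (r - 1) := by
        rw [mul_assoc, ← pow_succ', Nat.sub_add_cancel hr1, ← hxy]; group
      rw [← map_mul, ← map_mul, h2, map_mul _ (x * y), h1, mul_one]
    have hall : ∀ a : G, f x * f a = f a * f x → f y * f a = f a * f y → ∀ b, f b * f a = f a * f b := by
      intro a h1 h2 b
      have : (⊤ : Subgroup G) ≤ (centralizer {f a}).comap f := by
        rw [← hgen, closure_le]
        rintro z (rfl | rfl)
        · exact mem_centralizer_singleton_iff.2 h1
        · exact mem_centralizer_singleton_iff.2 h2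
      exact mem_centralizer_singleton_iff.1 (this (mem_top b))
    have hle : N ≤ K := by
      rw [hN, commutator_def, commutator_le]
      intro a _ b _
      rw [← QuotientGroup.eq_one_iff]
      show f _ = 1
      rw [map_commutatorElement, commutatorElement_eq_one_iff_mul_comm]
      exact hall b (hall x rfl hc.symm b).symm (hall y hc rfl b).symm a
    have h3 : orderOf y ∣ orderOf (y ^ (r - 1)) := by
      rw [hoy, ← Nat.card_zpowers]; exact card_dvd_of_le hle
    rw [orderOf_pow] at h3
    have h4 := Nat.le_of_dvd (Nat.div_pos (Nat.gcd_le_left _ (orderOf_pos y)) (Nat.gcd_pos_of_pos_left _ (orderOf_pos y))) h3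
    rw [Nat.Coprime, Nat.gcd_comm]
    by_contra h5
    have h6 : 1 < (orderOf y).gcd (r - 1) := by
      have := Nat.gcd_pos_of_pos_left (r - 1) (orderOf_pos y); omega
    exact absurd (Nat.div_lt_self (orderOf_pos y) h6) (not_lt.2 h4)
  · rw [hox, hoy, ← hH.symm.index_eq_card]; exact hcop.symm
  · have : ∀ i : ℕ, (x ^ i)⁻¹ * y * x ^ i = y ^ r ^ i := by
      intro i
      induction i with
      | zero => simp
      | succ i ih =>
        have : (x ^ (i + 1))⁻¹ * y * x ^ (i + 1) = x⁻¹ * ((x ^ i)⁻¹ * y * x ^ i) * x := by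
          rw [pow_succ]; group
        rw [this, ih]
        have h2 : x⁻¹ * y ^ r ^ i * x = (x⁻¹ * y * x) ^ r ^ i := by
          have := conj_pow (a := x⁻¹) (b := y) (i := r ^ i)
          simpa using this.symm
        rw [h2, hxy, ← pow_mul, ← pow_succ']
    have h := this (orderOf x)
    rw [pow_orderOf_eq_one] at h
    have h' : y ^ r ^ orderOf x = y ^ 1 := by rw [← h]; simp
    exact pow_eq_pow_iff_modEq.1 h'

end Cfsg.Agent.S3379
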