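import Cfsg.Statements.S3358
import Cfsg.Agent.Gen2.FCStruct
import Cfsg.Agent.S3379

set_option autoImplicit false
open Cfsg

namespace Cfsg.Agent.S3358

open Subgroup Cfsg.Agent.Gen2 Cfsg.Agent.Perm

theorem le_cent {G : Type*} [Group G] (h : IsFC G) {y : G} {W : Subgroup G} (hW : (Nat.card W).Prime)
    (hn : W ≤ normalizer (zpowers y : Set G)) : W ≤ centralizer {y} := by
  haveI := h.finite
  haveI := Fintype.ofFinite W
  haveI := Fact.mk hW
  obtain ⟨V, _, _, _, _, ρ, hρ⟩ := exists_isFpf h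
  obtain ⟨c, hc⟩ := Module.End.exists_eigenvalue (ρ y)
  obtain ⟨v, hv⟩ := hc.exists_hasEigenvector
  have hk : ∀ g : W, ∃ k : ℕ, y ^ k = (g : G)⁻¹ * y * g := fun g => by
    have := (mem_normalizer_iff.1 (hn (inv_mem g.2)) y).1 (mem_zpowers y)
    rw [inv_inv] at this
    exact mem_powers_iff_mem_zpowers.2 this
  choose k hk using hk
  have hp : ∀ n : ℕ, ρ (y ^ n) v = c ^ n • v := fun n => by rw [map_pow]; exact hv.pow_apply n
  intro w hw
  by_contra hwc
  have hw1 : w ≠ 1 := fun e => hwc (e ▸ one_mem _)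
  have hli := (ρ y).eigenvectors_linearIndependent' (fun g : W => c ^ k g) (fun g g' e => by
    have h1 : (y ^ k g')⁻¹ * y ^ k g = 1 := hρ.eq_one_of_apply hv.2 (by
      rw [map_mul, Module.End.mul_apply, hp, show c ^ k g = c ^ k g' from e, ← hp, ← Module.End.mul_apply, ← map_mul,
        inv_mul_cancel, map_one, Module.End.one_apply])
    by_contra hne
    have h2 : ((g * g'⁻¹ : W) : G) ∈ centralizer {y} := by
      rw [inv_mul_eq_one, hk, hk] at h1
      rw [mem_centralizer_singleton_iff, coe_mul, coe_inv]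
      calc _ = g * ((g' : G)⁻¹ * y * g') * (g' : G)⁻¹ := by group
        _ = _ := by rw [h1]; group
    obtain ⟨j, hj⟩ := mem_zpowers_of_prime_card rfl (g := g * g'⁻¹) (g' := ⟨w, hw⟩) (mt mul_inv_eq_one.1 hne)
    exact hwc ((show ((g * g'⁻¹ : W) : G) ^ j = w from congrArg Subtype.val hj) ▸ zpow_mem h2 j)) (fun g : W => ρ g v) fun g => ⟨by
      rw [Module.End.mem_eigenspace_iff, ← map_smul, ← hp, hk, ← Module.End.mul_apply, ← Module.End.mul_apply, ← map_mul,
        ← map_mul]
      congr 2; group, fun e => hv.2 (by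
        have := congrArg (ρ (g : G)⁻¹) e
        rwa [← Module.End.mul_apply, ← map_mul, inv_mul_cancel, map_one, map_zero] at this)⟩
  have h0 : ∑ g : W, ρ g v = 0 := by
    by_contra e
    refine hw1 (hρ.eq_one_of_apply e ?_)
    rw [map_sum]
    exact Fintype.sum_equiv (Equiv.mulLeft (⟨w, hw⟩ : W)) _ _ fun g => by simp
  exact one_ne_zero (Fintype.linearIndependent_iff.1 hli (fun _ => 1) (by simpa using h0) 1)

theorem le_cent' {G : Type*} [Group G] (h : IsFC G) {y : G} {U : Subgroup G} (hU : Squarefree (Nat.card U))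
    (hn : U ≤ normalizer (zpowers y : Set G)) : U ≤ centralizer {y} := by
  haveI := h.finite
  by_contra hc
  obtain ⟨q, hq, hd⟩ := Nat.exists_prime_and_dvd (mt relIndex_eq_one.1 hc)
  haveI := Fact.mk hq
  obtain ⟨w, hw⟩ := exists_prime_orderOf_dvd_card' (G := U) q (hd.trans (relIndex_dvd_card _ _))
  have h1 : w ∈ (centralizer {y}).subgroupOf U := le_cent h (W := zpowers (w : G))
    (by rwa [Nat.card_zpowers, orderOf_coe, hw]) (zpowers_le.2 (hn w.2)) (mem_zpowers _)
  have h2 := mul_dvd_mul (hw ▸ orderOf_dvd_natCard _ h1) hd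
  rw [relIndex, card_mul_index] at h2
  exact hq.one_lt.ne' (Nat.isUnit_iff.1 (hU q h2))

theorem card_le {J : Type*} [Group J] {a b : J} {n m r : ℕ} (hn : 0 < n) (hm : 0 < m) (ha : a ^ n = 1) (hb : b ^ m = 1)
    (h : a⁻¹ * b * a = b ^ r) (hg : closure {a, b} = ⊤) : Finite J ∧ Nat.card J ≤ n * m := by
  haveI : Finite (zpowers a) := finite_zpowers.2 (isOfFinOrder_iff_pow_eq_one.2 ⟨n, hn, ha⟩)
  haveI : Finite (zpowers b) := finite_zpowers.2 (isOfFinOrder_iff_pow_eq_one.2 ⟨m, hm, hb⟩)
  haveI : (zpowers b).Normal := normalizer_eq_top_iff.1 (eq_top_iff.2 (hg ▸ (closure_le _).2 (by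
    rintro _ (rfl | rfl)
    · refine inv_mem_iff.1 (mem_normalizer_fintype (S := (zpowers b : Set J)) ?_)
      rintro _ ⟨k, rfl⟩
      rw [← conj_zpow, inv_inv, h]
      exact zpow_mem (pow_mem (mem_zpowers b) r) k
    · exact le_normalizer (mem_zpowers _))))
  have hs : Function.Surjective fun x : zpowers a × zpowers b => (x.1 : J) * x.2 := fun g => by
    have : g ∈ zpowers a ⊔ zpowers b := by
      rw [zpowers_eq_closure, zpowers_eq_closure, ← Subgroup.closure_union]; exact hg.ge (mem_top g)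
    rw [← SetLike.mem_coe, mul_normal] at this
    obtain ⟨u, hu, v, hv, e⟩ := this
    exact ⟨(⟨u, hu⟩, ⟨v, hv⟩), e⟩
  refine ⟨.of_surjective _ hs, (Nat.card_le_card_of_surjective _ hs).trans ?_⟩
  rw [Nat.card_prod, Nat.card_zpowers, Nat.card_zpowers]
  exact Nat.mul_le_mul (orderOf_le_of_pow_eq_one hn ha) (orderOf_le_of_pow_eq_one hm hb)

/-- Structure of solvable Frobenius complements. Let G be a finite solvable group that occurs as a Frobenius complement. Then G has a normal subgroup G₀ such that G/G₀ is isomorphic to a subgroup of Sym(4) (G₀ is the kernel of a homomorphism to Sym(4)), all Sylow subgroups of G₀ are cyclic, and G₀ has a presentation ⟨x, y | x^n = 1, y^m = 1, x⁻¹ y x = y^r⟩ with n, m ≥ 1, gcd(r − 1, m) = gcd(n, m) = 1 and r^(n/n′) ≡ 1 (mod m), where n′ is the product of the distinct primes dividing n. -/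
theorem result {G : Type*} [Group G] [Finite G] (hsol : Group.IsSolvable G)
    (hFC : ∃ (L : Type) (_ : Group L) (_ : Finite L) (H : Subgroup L), Cfsg.IsFrobeniusComplement H ∧ Nonempty (G ≃* H)) :
    ∃ G₀ : Subgroup G, G₀.Normal ∧
      (∃ f : G →* Equiv.Perm (Fin 4), f.ker = G₀) ∧
      (∀ (p : ℕ) [Fact p.Prime] (P : Sylow p G₀), IsCyclic P) ∧
      ∃ n m r : ℕ, 0 < n ∧ 0 < m ∧ Nat.Coprime (r - 1) m ∧ Nat.Coprime n m ∧ 1 ≤ r ∧
        r ^ (n / ∏ p ∈ n.primeFactors, p) % m = 1 % m ∧
        Nonempty (G₀ ≃* PresentedGroup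
          ({FreeGroup.of (0 : Fin 2) ^ n, FreeGroup.of (1 : Fin 2) ^ m,
            (FreeGroup.of (0 : Fin 2))⁻¹ * FreeGroup.of 1 * FreeGroup.of 0 * (FreeGroup.of (1 : Fin 2) ^ r)⁻¹} :
            Set (FreeGroup (Fin 2)))) := by
  have h : IsFC G := hFC
  obtain ⟨f, hf⟩ : ∃ f : G →* Equiv.Perm (Fin 4), IsZGroup f.ker := by
    rcases h.struct_solvable hsol with h1 | ⟨f, -, h2⟩ | ⟨f, -, h2⟩
    · exact ⟨1, inferInstance⟩
    · let e : DihedralGroup 2 ≃ Fin 4 := Fintype.equivFinOfCardEq (by decide)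
      refine ⟨(e.permCongrHom.toMonoidHom.comp (MulAction.toPermHom _ _)).comp f, ?_⟩
      rwa [MonoidHom.ker_comp_of_injective _ _ (e.permCongrHom.injective.comp MulAction.toPerm_injective)]
    · exact ⟨f, h2⟩
  refine ⟨f.ker, inferInstance, ⟨f, rfl⟩, fun p _ P => inferInstance, ?_⟩
  obtain ⟨x, y, n, m, r, hg, rfl, rfl, hr, h1, h2, h3, -⟩ := S3379.result (G := f.ker) fun p _ P => inferInstance
  refine ⟨_, _, r, orderOf_pos x, orderOf_pos y, h1, h2, h3, ?_, ?_⟩
  · have hx : x ∈ normalizer (zpowers y : Set f.ker) := by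
      refine inv_mem_iff.1 (mem_normalizer_fintype (S := (zpowers y : Set f.ker)) ?_)
      rintro _ ⟨k, rfl⟩
      rw [← conj_zpow, inv_inv, hr]
      exact zpow_mem (pow_mem (mem_zpowers y) r) k
    have hk : ∀ k : ℕ, (x ^ k)⁻¹ * y * x ^ k = y ^ r ^ k := fun k => by
      induction k with
      | zero => simp
      | succ k ih => 
        have := conj_pow (i := r) (a := (x ^ k)⁻¹) (b := y)
        rw [inv_inv, ih, ← hr, ← pow_mul] at this
        rw [pow_succ r, this]; group
    generalize hk' : orderOf x / ∏ p ∈ (orderOf x).primeFactors, p = k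
    have h4 : x ^ k ∈ centralizer {y} := by
      by_cases e : Nontrivial f.ker
      · refine le_cent' (h.of_injective f.ker.subtype f.ker.subtype_injective) (U := zpowers (x ^ k)) ?_
          (zpowers_le.2 (pow_mem hx k)) (mem_zpowers _)
        rw [Nat.card_zpowers, ← hk', orderOf_pow_orderOf_div (orderOf_pos x).ne' (Nat.prod_primeFactors_dvd _)]
        exact Finset.squarefree_prod_of_pairwise_isCoprime (fun p hp q hq hpq => Nat.coprime_iff_isRelPrime.1
          ((Nat.coprime_primes (Nat.prime_of_mem_primeFactors hp) (Nat.prime_of_mem_primeFactors hq)).2 hpq))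
          fun p hp => (Nat.prime_of_mem_primeFactors hp).squarefree
      · rw [not_nontrivial_iff_subsingleton] at e
        exact mem_centralizer_singleton_iff.2 (Subsingleton.elim _ _)
    refine pow_eq_pow_iff_modEq.1 ?_
    rw [← hk, mul_assoc, ← mem_centralizer_singleton_iff.1 h4, inv_mul_cancel_left, pow_one]
  · generalize hR : (insert _ _ : Set (FreeGroup (Fin 2))) = R
    have h4 : ∀ r ∈ R, PresentedGroup.mk R r = 1 := fun r hr => PresentedGroup.one_of_mem hr
    conv at h4 => enter [r, 1]; rw [← hR]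
    simp only [Set.mem_insert_iff, Set.mem_singleton_iff, forall_eq_or_imp, forall_eq, map_pow, map_mul, map_inv] at h4
    obtain ⟨h5, h6⟩ := card_le (orderOf_pos x) (orderOf_pos y) h4.1 h4.2.1 (mul_inv_eq_one.1 h4.2.2) (by
      rw [eq_top_iff, ← PresentedGroup.closure_range_of, closure_le]
      rintro _ ⟨i, rfl⟩
      fin_cases i
      · exact subset_closure (.inl rfl)
      · exact subset_closure (.inr rfl))
    let φ : PresentedGroup R →* f.ker := PresentedGroup.toGroup (f := ![x, y]) (by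
      subst hR
      simp [hr])
    have hs : Function.Surjective φ := MonoidHom.range_eq_top.1 (eq_top_iff.2 (hg ▸ (closure_le _).2 (by
      rintro _ (rfl | rfl)
      exacts [⟨.of 0, PresentedGroup.toGroup.of _⟩, ⟨.of 1, PresentedGroup.toGroup.of _⟩])))
    exact ⟨(MulEquiv.ofBijective φ (hs.bijective_of_nat_card_le (h6.trans (Nat.le_of_dvd Nat.card_pos
      (h2.mul_dvd_of_dvd_of_dvd (orderOf_dvd_natCard x) (orderOf_dvd_natCard y)))))).symm⟩

end Cfsg.Agent.S3358
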