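import Cfsg.Statements.S3361
import Cfsg.Agent.Perm.Huppert2
import Cfsg.Agent.Perm.Sharp3Even
import Cfsg.Agent.Perm.SL23
import Cfsg.Agent.FG.SameOrder

set_option autoImplicit false
open Cfsg

namespace Cfsg.Agent.S3361

open Subgroup Perm BG

theorem index_two_of_quot {H : Type*} [Group H] [Finite H] (N : Subgroup H) [N.Normal] {m : ℕ} (hm : Odd m)
    (h : N.index = 2 * m) : ∃ M : Subgroup H, M.index = 2 := by
  let P : Sylow 2 (H ⧸ N) := default
  have hc : Nat.card (H ⧸ N) = 2 * m := h
  have hP : Nat.card P = 2 := by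
    rw [P.card_eq_multiplicity, hc, Nat.factorization_mul two_ne_zero hm.pos.ne', Finsupp.add_apply,
      Nat.prime_two.factorization_self, Nat.factorization_eq_zero_of_not_dvd hm.not_two_dvd_nat, pow_one]
  haveI := isCyclic_of_prime_card hP
  have := (this.isComplement' (P := P) ((Nat.minFac_eq_two_iff _).2 (hc ▸ dvd_mul_right 2 m))).symm.index_eq_card
  exact ⟨_, (index_comap_of_surjective _ (QuotientGroup.mk'_surjective N)).trans (this.trans hP)⟩

theorem equiv_120 {H : Type*} [Group H] (hs : Group.IsSolvable H) (hH : Nat.card H = 120) {N : Subgroup H} [N.Normal]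
    (e : N ≃* QuaternionGroup 2) (h : ∀ M : Subgroup H, M.index ≠ 2) :
    Nonempty (H ≃* Matrix.SpecialLinearGroup (Fin 2) (ZMod 3) × Multiplicative (ZMod 5)) := by
  haveI : Finite H := Nat.finite_of_card_ne_zero (by omega)
  haveI := Fact.mk Nat.prime_five
  have hN : Nat.card N = 8 := by rw [Nat.card_congr e.toEquiv, Nat.card_eq_fintype_card, QuaternionGroup.card]
  let P : Sylow 5 H := default
  have hP : Nat.card P = 5 := by
    rw [P.card_eq_multiplicity, hH, show 120 = 5 * 24 from rfl, Nat.factorization_mul (by norm_num) (by norm_num),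
      Finsupp.add_apply, Nat.prime_five.factorization_self, Nat.factorization_eq_zero_of_not_dvd (by norm_num), pow_one]
  have hPN : (P : Subgroup H) ≤ C[N] := fun g hg => by
    obtain ⟨k, hk⟩ := P.isPGroup' ⟨g, hg⟩
    exact mem_centralizer_two (IsPGroup.of_card (n := 3) hN) (Or.inr ⟨1, one_ne_zero, ⟨e⟩⟩)
      Nat.prime_five (by norm_num) (by norm_num) (congrArg Subtype.val hk) (normalizer_eq_top N ▸ mem_top g)
  have h3 : (N ⊔ P).index = 3 := by
    have := card_mul_index (N ⊔ P)
    rw [card_sup_TI (.inr (cents_norm hPN)) (coprime_TI (by rw [hN, hP]; norm_num)), hN, hP, hH] at this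
    omega
  have hC : N ⊔ P ≤ centralizer ((P : Subgroup H) : Set H) := sup_le (cents_symm hPN) (cyclic_abelian (isCyclic_of_prime_card hP)).cent
  have hn : (normalizer (P : Set H)).index = 1 := by
    have h1 := card_sylow_modEq_one 5 H
    rw [P.card_eq_index_normalizer] at h1
    rcases (Nat.dvd_prime Nat.prime_three).1 (h3 ▸ index_dvd_of_le (hC.trans (cent_sub _))) with e | e
    · exact e
    · exact absurd (e ▸ h1) (by decide)
  have hZ : centralizer ((P : Subgroup H) : Set H) = ⊤ := by
    have h1 := relIndex_cent_prime_dvd (B := (P : Subgroup H)) (A := ⊤) (by rw [hP]; exact Nat.prime_five) (index_eq_one.1 hn).ge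
    rw [relIndex_top_right, hP] at h1
    exact index_eq_one.1 (Nat.eq_one_of_dvd_coprimes (by norm_num : Nat.Coprime 3 4) (h3 ▸ index_dvd_of_le hC) h1)
  obtain ⟨M, hM⟩ := Hall_exists (M := (⊤ : Subgroup H)) {5}ᶜ (solvable_of ⊤)
  have hc := (compl_of_pHall (sylowIn_top P) hM).symm
  have hd : Dprod M P ⊤ := ⟨hc.sup, cents_symm (hZ ▸ le_top), hc.inf⟩
  have hM24 : Nat.card M = 24 := by
    have := hd.card
    rw [hP, card_top, hH] at this; omega
  have hNM : N ≤ M := normal_sub_Hall hM (normal_top N)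
    (show PiNat _ _ from (p'natE Nat.prime_five).2 (by rw [hN]; norm_num))
  obtain ⟨f⟩ := equiv_SL23_of_no_index_two hM24 ((subgroupOfEquivOfLe hNM).trans e) fun L hL => h (L.map M.subtype ⊔ P) (by
    have h1 := card_mul_index L
    have h2 := card_mul_index (L.map M.subtype ⊔ P)
    rw [card_sup_TI (.inl (cents_norm (hZ ▸ le_top))) (le_bot_iff.1 (hd.inf ▸ inf_le_inf_right _ (map_subtype_le L))),
      card_map_subtype, hP, hH] at h2
    rw [hL, hM24] at h1
    rw [show Nat.card L = 12 by omega] at h2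
    omega)
  obtain ⟨f'⟩ := FG.Dprod.isog hd
  haveI := isCyclic_of_prime_card hP
  exact ⟨(topEquiv.symm.trans f'.symm).trans (f.prodCongr (mulEquivOfCyclicCardEq (by rw [hP]; simp)))⟩

/-- Let q be a prime and V a non-trivial finite vector space over the field with q elements, and let G be a finite solvable group acting faithfully and linearly on V and regularly on the non-zero vectors (transitively, with only the identity fixing a non-zero vector). Then either V can be identified with the additive group of a finite field F so that every element of G acts as x ↦ a·σ(x) (a ∈ F, σ a field automorphism), or V has 5^2, 7^2, 11^2 or 23^2 elements. Moreover, if q ≠ 2 then G has a normal subgroup of index 2, except that when V has 25 elements G may be isomorphic to SL(2,3) and when V has 121 elements G may be isomorphic to SL(2,3) × C₅. -/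
theorem result
    (q : ℕ) [Fact q.Prime] {V : Type*} [AddCommGroup V] [Module (ZMod q) V] [Finite V] [Nontrivial V]
    {G : Type*} [Group G] [Finite G] (hsol : Group.IsSolvable G)
    (ρ : G →* (V ≃ₗ[ZMod q] V)) (hρ : Function.Injective ρ)
    (htrans : ∀ v w : V, v ≠ 0 → w ≠ 0 → ∃ g : G, ρ g v = w)
    (hreg : ∀ v : V, v ≠ 0 → ∀ g : G, ρ g v = v → g = 1) :
    ((∃ (F : Type) (_ : Field F) (_ : Fintype F) (e : V ≃+ F),
        ∀ g : G, ∃ (a : F) (σ : F ≃+* F), ∀ v : V, e (ρ g v) = a * σ (e v)) ∨
      Nat.card V ∈ ({25, 49, 121, 529} : Set ℕ)) ∧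
    (q ≠ 2 → (∃ N : Subgroup G, N.Normal ∧ N.index = 2) ∨
      (Nat.card V = 25 ∧ Nonempty (G ≃* Matrix.SpecialLinearGroup (Fin 2) (ZMod 3))) ∨
      (Nat.card V = 121 ∧ Nonempty (G ≃* Matrix.SpecialLinearGroup (Fin 2) (ZMod 3) × Multiplicative (ZMod 5)))) := by
  letI : DistribMulAction G V := DistribMulAction.compHom V ρ
  have h : NF.Reg G V := fun v w hv hw => by
    obtain ⟨g, hg⟩ := htrans v w hv hw
    refine ⟨g, hg, fun k hk => (inv_mul_eq_one.1 (hreg v hv (g⁻¹ * k) ?_)).symm⟩
    change ρ k v = w at hk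
    rw [map_mul, LinearEquiv.mul_apply, hk, ← hg, ← LinearEquiv.mul_apply, ← map_mul, inv_mul_cancel, map_one]
    rfl
  obtain ⟨-, hH⟩ := h.card_eq
  by_cases hI : ∀ A : Subgroup G, A.Normal → IsCyclic A → ¬ NF.Irr V A
  · have hV := h.card_of_isSolvable hI
    refine ⟨.inr (by simpa using hV), fun _ => ?_⟩
    by_cases h2 : ∃ M : Subgroup G, M.index = 2
    · obtain ⟨M, hM⟩ := h2
      exact .inl ⟨M, normal_of_index_eq_two hM, hM⟩
    obtain ⟨N, hN, ⟨⟨e⟩⟩ | ⟨⟨e⟩⟩⟩ := h.exists_minimal hI
    swap
    · exact absurd (solvable_of_surjective (f := e.toMonoidHom) e.surjective) NF.not_isSolvable_SL25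
    have h8 : Nat.card N = 8 := by rw [Nat.card_congr e.toEquiv, Nat.card_eq_fintype_card, QuaternionGroup.card]
    have hi := card_mul_index N
    rw [h8, hH] at hi
    rcases hV with hV | hV | hV | hV
    · exact .inr (.inl ⟨hV, equiv_SL23_of_no_index_two (by rw [hH, hV]) e (not_exists.1 h2)⟩)
    · exact absurd (index_two_of_quot N (m := 3) (by decide) (by omega)) h2
    · exact .inr (.inr ⟨hV, equiv_120 hsol (by rw [hH, hV]) e (not_exists.1 h2)⟩)
    · exact absurd (index_two_of_quot N (m := 33) (by decide) (by omega)) h2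
  push Not at hI
  obtain ⟨A, hA, hc, hirr⟩ := hI
  obtain ⟨F, i1, i2, e, he, -⟩ := semilinear_of_irr ρ (cyclic_abelian hc) hirr
  refine ⟨.inl ⟨F, i1, i2, e, he⟩, fun hq => .inl ?_⟩
  have h2 : 2 ∣ Nat.card G := by
    rw [hH, Module.natCard_eq_pow_finrank (K := ZMod q), Nat.card_zmod]
    exact even_iff_two_dvd.1 (Nat.Odd.sub_odd ((Fact.out : q.Prime).odd_of_ne_two hq).pow odd_one)
  suffices pResidual 2 G ≠ ⊤ from Transfer.pResidual_ne_top_iff.mp this
  intro htop
  have hn : ¬ HasNormalPComplement 2 G := fun hc =>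
    Transfer.hasNormalPComplement_iff_not_dvd_card_pResidual.mp hc (by rwa [htop, card_top])
  obtain ⟨-, -, -, -, -, hcyc, -⟩ := h.exists_field hirr
  have h4 : commutator G ≤ C[A] := der_top.ge.trans (der1_cent_cyclic hc (norm_of_normal A ⊤))
  let P : Sylow 2 G := default
  have hP : IsCyclic P := isCyclic_of_injective _ (inclusion_injective
    ((Transfer.isPGroup_le_commutator_of_pResidual_eq_top htop P.isPGroup').trans h4))
  exact hn ⟨P, _, inferInstance, hP.isComplement' ((Nat.minFac_eq_two_iff _).mpr h2)⟩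

end Cfsg.Agent.S3361
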