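import Cfsg.Statements.S3362
import Cfsg.Agent.Golay.Witt

set_option autoImplicit false
open Cfsg

namespace Cfsg.Agent.S3362

open MulAction Comp Golay
def hx : List ℕ := [63, 219, 237, 246, 350, 363, 373, 413, 430, 435, 455, 504, 591, 627, 636, 670, 679, 697, 725, 746, 791, 813, 826, 857, 870, 907, 948, 972, 978, 993, 1117, 1127, 1146, 1175, 1195, 1212, 1230, 1265, 1295, 1334, 1337, 1363, 1388, 1434, 1445, 1481, 1492, 1506, 1563, 1582, 1589, 1622, 1641, 1677, 1714, 1731, 1752, 1764, 1820, 1827, 1861, 1866, 1904, 1926, 1937, 1960, 2135, 2158, 2169, 2191, 2229, 2234, 2268, 2275, 2331, 2343, 2364, 2381, 2418, 2454, 2473, 2506, 2513, 2532, 2589, 2603, 2614, 2650, 2661, 2707, 2732, 2758, 2761, 2800, 2830, 2865, 2883, 2900, 2920, 2949, 2968, 2978, 3102, 3117, 3123, 3147, 3188, 3225, 3238, 3269, 3282, 3304, 3349, 3370, 3398, 3416, 3425, 3459, 3468, 3504, 3591, 3640, 3660, 3665, 3682, 3722, 3732, 3745, 3849, 3858, 3876, 4032]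

theorem card_aut {α : Type*} [Fintype α] [DecidableEq α] (hα : Fintype.card α = 12) {B : Set (Finset α)}
    (hB : IsSteinerSystem 5 6 B) : Nat.card (setSystemAut B) = 95040 := by
  obtain ⟨E, rfl⟩ := uniq12 hα hB
  exact (card_closure12 E).1

/-- An explicit construction of the Mathieu groups of degrees 11 and 12. On the points 0, …, 11 let s = (3 4 5)(6 7 8)(9 10 11), t = (3 6 9)(4 7 10)(5 8 11), u = (4 6 5 9)(7 8 11 10), v = (4 7 5 11)(6 10 9 8), w = (4 10 5 8)(6 11 9 7), x₁ = (0 3)(6 7)(8 10)(9 11), x₂ = (0 1)(6 9)(7 10)(8 11), x₃ = (1 2)(6 11)(7 9)(8 10) (each written as a product of transpositions). Then the group M₁₂ generated by all eight permutations is sharply 5-transitive on the 12 points and has order 95040, and the group M₁₁ generated by the first seven has order 7920 and is the stabilizer of the point 2 in M₁₂. -/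
theorem result
    (s t u v w x₁ x₂ x₃ : Equiv.Perm (Fin 12))
    (hs : s = Equiv.swap (3 : Fin 12) 5 * Equiv.swap (3 : Fin 12) 4 * Equiv.swap (6 : Fin 12) 8 * Equiv.swap (6 : Fin 12) 7 * Equiv.swap (9 : Fin 12) 11 * Equiv.swap (9 : Fin 12) 10) (ht : t = Equiv.swap (3 : Fin 12) 9 * Equiv.swap (3 : Fin 12) 6 * Equiv.swap (4 : Fin 12) 10 * Equiv.swap (4 : Fin 12) 7 * Equiv.swap (5 : Fin 12) 11 * Equiv.swap (5 : Fin 12) 8)
    (hu : u = Equiv.swap (4 : Fin 12) 9 * Equiv.swap (4 : Fin 12) 5 * Equiv.swap (4 : Fin 12) 6 * Equiv.swap (7 : Fin 12) 10 * Equiv.swap (7 : Fin 12) 11 * Equiv.swap (7 : Fin 12) 8) (hv : v = Equiv.swap (4 : Fin 12) 11 * Equiv.swap (4 : Fin 12) 5 * Equiv.swap (4 : Fin 12) 7 * Equiv.swap (6 : Fin 12) 8 * Equiv.swap (6 : Fin 12) 9 * Equiv.swap (6 : Fin 12) 10) (hw : w = Equiv.swap (4 : Fin 12) 8 * Equiv.swap (4 : Fin 12) 5 * Equiv.swap (4 : Fin 12) 10 * Equiv.swap (6 : Fin 12) 7 * Equiv.swap (6 : Fin 12) 9 * Equiv.swap (6 : Fin 12) 11)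
    (hx₁ : x₁ = Equiv.swap (0 : Fin 12) 3 * Equiv.swap (6 : Fin 12) 7 * Equiv.swap (8 : Fin 12) 10 * Equiv.swap (9 : Fin 12) 11) (hx₂ : x₂ = Equiv.swap (0 : Fin 12) 1 * Equiv.swap (6 : Fin 12) 9 * Equiv.swap (7 : Fin 12) 10 * Equiv.swap (8 : Fin 12) 11)
    (hx₃ : x₃ = Equiv.swap (1 : Fin 12) 2 * Equiv.swap (6 : Fin 12) 11 * Equiv.swap (7 : Fin 12) 9 * Equiv.swap (8 : Fin 12) 10)
    (M₁₂ M₁₁ : Subgroup (Equiv.Perm (Fin 12))) (hM₁₂ : M₁₂ = Subgroup.closure {s, t, u, v, w, x₁, x₂, x₃})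
    (hM₁₁ : M₁₁ = Subgroup.closure {s, t, u, v, w, x₁, x₂}) :
    MulAction.IsMultiplyPretransitive M₁₂ (Fin 12) 5 ∧ (∀ y : Fin 5 ↪ Fin 12, MulAction.stabilizer M₁₂ y = ⊥) ∧
    Nat.card M₁₂ = 95040 ∧ Nat.card M₁₁ = 7920 ∧
    M₁₁ = M₁₂ ⊓ MulAction.stabilizer (Equiv.Perm (Fin 12)) (2 : Fin 12) := by
  have r : ∀ {c : ℕ} {g : Equiv.Perm (Fin 12)}, (∀ a : Fin 12, get 5 31 c a.val = (g a).val) →
      PRep (encFin 11) 5 31 c g := fun h => h
  have c1 := @r 337002795436738592 s (by subst hs; decide +kernel)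
  have c2 := @r 184765586003396640 t (by subst ht; decide +kernel)
  have c3 := @r 368322382208796704 u (by subst hu; decide +kernel)
  have c4 := @r 154536542196566048 v (by subst hv; decide +kernel)
  have c5 := @r 330139579604633632 w (by subst hw; decide +kernel)
  have c6 := @r 333664609481263139 x₁ (by subst hx₁; decide +kernel)
  have c7 := @r 296335229793175553 x₂ (by subst hx₂; decide +kernel)
  have c8 := @r 225437588310295616 x₃ (by subst hx₃; decide +kernel)
  clear hs ht hu hv hw hx₁ hx₂ hx₃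
  have k11 : CodesIn (PRep (encFin 11) 5 31) [337002795436738592, 184765586003396640, 368322382208796704, 154536542196566048, 330139579604633632, 333664609481263139, 296335229793175553] M₁₁ := by
    subst hM₁₁
    refine .cons ?_ c1 (.cons ?_ c2 (.cons ?_ c3 (.cons ?_ c4 (.cons ?_ c5 (.cons ?_ c6 (.cons ?_ c7
      (.nil _))))))) <;> exact Subgroup.subset_closure (by simp)
  have k12 : CodesIn (PRep (encFin 11) 5 31) [337002795436738592, 184765586003396640, 368322382208796704, 154536542196566048, 330139579604633632, 333664609481263139, 296335229793175553, 225437588310295616] M₁₂ := by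
    subst hM₁₂
    refine .cons ?_ c1 (.cons ?_ c2 (.cons ?_ c3 (.cons ?_ c4 (.cons ?_ c5 (.cons ?_ c6 (.cons ?_ c7
      (.cons ?_ c8 (.nil _)))))))) <;> exact Subgroup.subset_closure (by simp)
  have hB : IsSteinerSystem 5 6 (sysOf (encFin 11) hx) :=
    isSteiner_sysOf _ (by norm_num) (by decide +kernel) (by decide +kernel) (by decide +kernel)
  have hA : CodesIn (PRep (encFin 11) 5 31) [337002795436738592, 184765586003396640, 368322382208796704, 154536542196566048, 330139579604633632, 333664609481263139, 296335229793175553, 225437588310295616] (setSystemAut (sysOf (encFin 11) hx)) :=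
    codes_sysOf _ (by decide +kernel)
  have hA' : ∀ {c : ℕ} {g : Equiv.Perm (Fin 12)}, c ∈ [337002795436738592, 184765586003396640, 368322382208796704, 154536542196566048, 330139579604633632, 333664609481263139, 296335229793175553, 225437588310295616] → PRep (encFin 11) 5 31 c g →
      g ∈ setSystemAut (sysOf (encFin 11) hx) := fun h1 h2 => by
    obtain ⟨k, k1, k2⟩ := hA _ h1
    exact k2.unique h2 ▸ k1
  have hle : M₁₂ ≤ setSystemAut (sysOf (encFin 11) hx) := by
    rw [hM₁₂, Subgroup.closure_le]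
    rintro g (rfl | rfl | rfl | rfl | rfl | rfl | rfl | rfl)
    exacts [hA' (by simp) c1, hA' (by simp) c2, hA' (by simp) c3, hA' (by simp) c4, hA' (by simp) c5,
      hA' (by simp) c6, hA' (by simp) c7, hA' (by simp) c8]
  have hc := card_aut (by simp) hB
  have he := eq_of_chainP (B := [2, 1, 0, 3, 4]) (by decide) hle k12 30 (by rw [hc]; decide +kernel)
  have h12 : Nat.card M₁₂ = 95040 := he ▸ hc
  have ht : TransOn M₁₂ ((encFin 11).ofMask 4095 : Set (Fin 12)) 5 :=
    transOn_of_chainP (B := [2, 1, 0, 3, 4]) 30 k12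
      (fun g _ a _ => by rw [show 4095 = 2 ^ 12 - 1 from rfl, Enc.ofMask_full]; simp) (by decide +kernel)
  rw [show 4095 = 2 ^ 12 - 1 from rfl, Enc.ofMask_full, Finset.coe_univ] at ht
  have h5 := ht.isMultiplyPretransitive
  have hs : Nat.card ↥(M₁₂ ⊓ stabilizer (Equiv.Perm (Fin 12)) (2 : Fin 12)) = 7920 :=
    card_inf_stabilizer_of_orbit (a := 12) (by
      rw [(ht.mono (j := 1) (by norm_num) (by simp)).orbit_point (fun _ _ _ _ => trivial) trivial]
      simp) (by norm_num) h12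
  have h11 : M₁₁ = M₁₂ ⊓ stabilizer (Equiv.Perm (Fin 12)) (2 : Fin 12) := by
    refine eq_of_chainP (B := [1, 0, 3, 4]) (by decide) (le_inf ?_ ?_) k11 30
      (by rw [hs]; decide +kernel)
    · rw [hM₁₁, hM₁₂]
      exact Subgroup.closure_mono fun g hg => by simp only [Set.mem_insert_iff, Set.mem_singleton_iff] at *; tauto
    · rw [hM₁₁, Subgroup.closure_le]
      have f : ∀ {c : ℕ} {g : Equiv.Perm (Fin 12)}, PRep (encFin 11) 5 31 c g → get 5 31 c 2 = 2 →
          g ∈ stabilizer (Equiv.Perm (Fin 12)) (2 : Fin 12) := fun h1 h2 =>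
        Fin.ext ((h1 2).symm.trans h2)
      rintro g (rfl | rfl | rfl | rfl | rfl | rfl | rfl)
      exacts [f c1 (by decide), f c2 (by decide), f c3 (by decide), f c4 (by decide), f c5 (by decide),
        f c6 (by decide), f c7 (by decide)]
  refine ⟨h5, fun y => ?_, h12, h11 ▸ hs, h11⟩
  rw [← Subgroup.card_eq_one]
  have := card_stabilizer_embedding (G := M₁₂) y
  rw [h12, Fintype.card_fin] at this
  rw [show Nat.descFactorial 12 5 = 95040 from rfl] at this
  exact (Nat.eq_of_mul_eq_mul_left (by norm_num : 0 < 95040) ((mul_one _).trans this)).symm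

end Cfsg.Agent.S3362
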