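import Cfsg.Statements.S3371
import Cfsg.Agent.Neu.HalfP
import Cfsg.Agent.S1160
import Cfsg.Agent.S0519
import Cfsg.Agent.PGrp.MaxClass

set_option autoImplicit false
open Cfsg

namespace Cfsg.Agent.S3371

open MulAction Subgroup Neu.HP PGrp

section
variable {G V : Type*} [Group G] [Finite G] [AddCommGroup V] [Finite V] [DistribMulAction G V]

theorem mc_case {c n : ℕ} (h : HT G V c) [Nontrivial V] (hc : c ≠ 1) {a x : G} (m : MC a x n)
    (hx : x ^ 2 = 1) (B : Subgroup G) (hB : ∀ y, y ∈ B ↔ y ∈ zpowers a ∧ x * y * (x * y) = 1) :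
    ∃ r, r ^ 2 = Nat.card V ∧ Nat.card B = r + 1 := by
  have hz := h.central m.z_mem_center m.z_ne_one (by rw [← sq]; exact m.z_sq)
  obtain ⟨v, hv⟩ := exists_ne (0 : V)
  obtain rfl : c = 2 := by
    haveI := m.normal
    have h1 := ((zpowers a).subgroupOf (stabilizer G v)).card_mul_index
    have h2 : (zpowers a).subgroupOf (stabilizer G v) = ⊥ := (eq_bot_iff_forall _).2 fun y hy => by
      by_contra h1
      have := m.z_mem_of_ne_one hy y.2 fun e => h1 (Subtype.ext e)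
      exact hv (h.odd v ((mem_stabilizer_iff.1 this).symm.trans (hz v)))
    have h3 := relIndex_dvd_index_of_normal (zpowers a) (stabilizer G v)
    rw [h.card v hv, h2, card_bot, one_mul] at h1
    rw [m.idx, relIndex, h2, h1] at h3
    exact ((Nat.dvd_prime Nat.prime_two).1 h3).resolve_left hc
  have hconj : ∀ t, t ∉ zpowers a → t * t = 1 → ∃ g, g * t * g⁻¹ = t * a ^ 2 ^ (n - 1) := by
    intro t ht tt
    obtain ⟨u, ⟨w, rfl⟩, hu, -⟩ := m.exists_k
    have h1 := conj_zpow_eq ((m.conj_eq ht).trans hu) (2 ^ (n - 2))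
    have ti := inv_eq_of_mul_eq_one_right tt
    refine ⟨a ^ (2 ^ (n - 2) : ℤ), ?_⟩
    have h2 : a ^ (2 ^ (n - 2) : ℤ) * t * (a ^ (2 ^ (n - 2) : ℤ))⁻¹ =
        t * ((t * a ^ (2 ^ (n - 2) : ℤ) * t⁻¹) * (a ^ (2 ^ (n - 2) : ℤ))⁻¹) := by
      rw [ti, ← mul_assoc, ← mul_assoc, ← mul_assoc, tt, one_mul]
    rw [h2, h1, ← zpow_sub, mul_right_inj, ← zpow_natCast, eq_comm, ← mul_inv_eq_one, ← zpow_sub,
      m.zpow_eq_one]
    obtain ⟨k, rfl⟩ : ∃ k, n = k + 2 := ⟨n - 2, by have := m.two_le; omega⟩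
    exact ⟨-w, by simp only [Nat.add_sub_cancel, show k + 2 - 1 = k + 1 from rfl]; push_cast; ring⟩
  have hx2 : x * x = 1 := by rw [← sq, hx]
  obtain ⟨g, hg⟩ := hconj x m.nmem hx2
  have h2 := (h.card_sq hz hx2 hg).2
  have hJ : ∀ t, t ≠ 1 → t ≠ a ^ 2 ^ (n - 1) → t * t = 1 → t ∉ zpowers a := fun t t1 tz tt ht =>
    tz (m.eq_z_of_sq ht t1 (by rw [sq, tt]))
  refine ⟨_, h2, ?_⟩
  rw [← h.cnt hz h2 fun t t1 tz tt => hconj t (hJ t t1 tz tt) tt]
  refine Nat.card_congr ((Equiv.mulLeft x).subtypeEquiv fun y => (hB y).trans ⟨fun hy => ?_, fun hy => ?_⟩)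
  · have : x * y ∉ zpowers a := fun e => m.nmem ((mul_mem_cancel_right hy.1).1 e)
    exact ⟨fun e : x * y = 1 => this (e ▸ one_mem _),
      fun e : x * y = _ => this (e ▸ npow_mem_zpowers _ _), hy.2⟩
  · obtain ⟨i, hi⟩ := m.exists_eq_of_not_mem (hJ _ hy.1 hy.2.1 hy.2.2)
    exact ⟨⟨i, (mul_left_cancel hi).symm⟩, hy.2.2⟩

theorem exists_nf {c : ℕ} (h : HT G V c) (hG : IsPGroup 2 G) {z : G} (hz : ∀ v : V, z • v = -v)
    {A : Subgroup G} (hA : A.Normal) (hAc : IsMulCommutative A) (hA' : ¬ IsCyclic A) :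
    ∃ u, NF V z u := by
  haveI := Fact.mk Nat.prime_two
  haveI := hG.isNilpotent
  have hc := h.zc hz
  have hzz := h.zz hz
  have hm : ∀ y ∈ zpowers z, y = 1 ∨ y = z := by
    rintro _ ⟨k, rfl⟩
    rcases Int.even_or_odd' k with ⟨i, rfl | rfl⟩
    · left; simp [zpow_mul, sq, hzz]
    · right; simp [zpow_add, zpow_mul, sq, hzz]
  let N : Subgroup G :=
    { carrier := {y | y ∈ A ∧ y * y = 1}
      one_mem' := ⟨one_mem _, one_mul _⟩
      mul_mem' := fun {a b} ha hb => ⟨mul_mem ha.1 hb.1, by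
        have : b * a = a * b := congrArg Subtype.val (hAc.1.1 ⟨b, hb.1⟩ ⟨a, ha.1⟩)
        rw [mul_assoc, ← mul_assoc b, this, mul_assoc, hb.2, mul_one, ha.2]⟩
      inv_mem' := fun {a} ha => ⟨inv_mem ha.1, by rw [← mul_inv_rev, ha.2, inv_one]⟩ }
  haveI : N.Normal := ⟨fun y hy g => ⟨hA.conj_mem y hy.1 g, by
    rw [conj_mul, hy.2]; simp⟩⟩
  haveI : (zpowers z).Normal := ⟨fun y hy g => by
    rcases hm y hy with rfl | rfl
    · simp
    · rw [hc, mul_assoc]; simp⟩
  obtain ⟨u, hu, hu1, hu2⟩ := exists_central_mod (M := zpowers z) (N := N) fun hle => by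
    have key : ∀ H : Subgroup A, Nat.card H = 2 → ∀ y, y ∈ H ↔ y = 1 ∨ (y : G) = z := by
      intro H hH
      have k : ∀ y ∈ H, y = 1 ∨ (y : G) = z := fun y hy => by
        have := pow_card_eq_one' (x := (⟨y, hy⟩ : H))
        rw [hH, sq] at this
        exact (hm y (hle ⟨y.2, congrArg (fun w : H => ((w : A) : G)) this⟩)).imp_left Subtype.ext
      obtain ⟨w, hw, -⟩ := (Nat.card_eq_two_iff' (1 : H)).1 hH
      refine fun y => ⟨k y, ?_⟩
      rintro (rfl | e)
      · exact one_mem _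
      · have := (k w w.2).resolve_left fun e => hw (Subtype.ext e)
        rw [show y = w from Subtype.ext (e.trans this.symm)]; exact w.2
    rcases isCyclic_or_quaternion (hG.to_subgroup A) (fun H K hH hK =>
      Subgroup.ext fun y => (key H hH y).trans (key K hK y).symm) with e | ⟨-, n, hn, ⟨e⟩⟩
    · exact hA' e
    · obtain ⟨a, x, k, m⟩ := isMC_of_quaternion e hn
      exact m.not_comm hAc
  refine ⟨u, hz, hu.2, fun g => ?_, ?_⟩
  · have ui := inv_eq_of_mul_eq_one_right hu.2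
    rcases hm _ (hu2 g) with e | e
    · exact Or.inl (commutatorElement_eq_one_iff_mul_comm.1 e).symm
    · right
      rw [← e, commutatorElement_def, ui, ← mul_assoc, ← mul_assoc, ← mul_assoc, hu.2]; group
  · by_contra hh
    push Not at hh
    have hu1' : u ≠ 1 := fun e => hu1 (e ▸ one_mem _)
    have := h.central (mem_center_iff.2 hh) hu1' hu.2
    refine hu1 ((show u = z from ?_) ▸ mem_zpowers u)
    exact (inv_mul_eq_one.1 (h.faith (z⁻¹ * u) fun v => by
      rw [mul_smul, this, inv_smul_eq_iff, hz])).symm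

theorem coord {F : Type*} [Field F] [Finite F] [Module F V] [SMulCommClass G F V] [Nontrivial V]
    {c : ℕ} (h : HT G V c) (hG : IsPGroup 2 G) {z u : G} (n : NF V z u)
    (hr : Nat.card {v : V // u • v = v} = Nat.card F) :
    ∃ e : (Fin 2 → F) ≃ₗ[F] V, ∀ f : (Fin 2 → F) → (Fin 2 → F), (∃ g : G, ∀ v, e (f v) = g • e v) ↔
      ∃ a s : F, a ≠ 0 ∧ (s = 1 ∨ s = -1) ∧
        ((∀ v, f v = ![a * v 0, s * a⁻¹ * v 1]) ∨ (∀ v, f v = ![s * a⁻¹ * v 1, a * v 0])) := by
  obtain ⟨h2, h1, h3, -⟩ := n.count h hG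
  obtain ⟨e1, h10, he1⟩ := n.exists_a h
  have hF : 1 < Nat.card F := Finite.one_lt_card
  obtain ⟨⟨t0, ht0, tt0⟩⟩ : Nonempty {t : G // t * u ≠ u * t ∧ t * t = 1} :=
    (Nat.card_pos_iff.1 (by omega)).1
  obtain ⟨e2, h12⟩ : ∃ e2, t0 • e1 = e2 := ⟨_, rfl⟩
  have h21 : t0 • e2 = e1 := by rw [← h12, ← mul_smul, tt0, one_smul]
  have h20 : e2 ≠ 0 := h12 ▸ (smul_ne_zero_iff_ne t0).2 h10
  have he2 : u • e2 = -e2 := by rw [← h12, n.swap ht0, he1]
  have s1 : ∀ v, u • v = v → ∃ a : F, a • e1 = v := fun v hv => by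
    obtain ⟨a, ha⟩ := ((Nat.bijective_iff_injective_and_card (fun a : F =>
      (⟨a • e1, by rw [smul_comm, he1]⟩ : {v : V // u • v = v}))).2
      ⟨fun a b e => smul_left_injective F h10 (congrArg Subtype.val e), hr.symm⟩).2 ⟨v, hv⟩
    exact ⟨a, congrArg Subtype.val ha⟩
  have s2 : ∀ v, u • v = -v → ∃ a : F, a • e2 = v := fun v hv => by
    obtain ⟨a, ha⟩ := s1 (t0 • v) (by rw [n.swap ht0, hv, smul_neg, neg_neg])
    exact ⟨a, by rw [← h12, ← smul_comm, ha, ← mul_smul, tt0, one_smul]⟩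
  let L : (Fin 2 → F) →ₗ[F] V :=
    { toFun := fun x => x 0 • e1 + x 1 • e2
      map_add' := fun x y => by simp only [Pi.add_apply, add_smul]; abel
      map_smul' := fun a x => by simp [mul_smul] }
  have hL : Function.Surjective L := fun v => by
    obtain ⟨a, b, ha, hb, rfl⟩ := h.split n.sq v
    obtain ⟨a, rfl⟩ := s1 a ha
    obtain ⟨b, rfl⟩ := s2 b hb
    exact ⟨![a, b], rfl⟩
  have hL' : Function.Bijective L := (Nat.bijective_iff_surjective_and_card L).2
    ⟨hL, by rw [← h2, hr, Nat.card_fun]; simp⟩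
  have K2 : ∀ a : F, a ≠ 0 → ∃ k : G, k • e1 = a • e1 ∧ k • e2 = a⁻¹ • e2 := by
    have : ∀ t : {t : G // t * u ≠ u * t ∧ t * t = 1}, ∃ a : {a : F // a ≠ 0 ∧ True},
        t.1 • e2 = a.1 • e1 ∧ t.1 • e1 = a.1⁻¹ • e2 := fun t => by
      obtain ⟨a, ha⟩ := s1 (t.1 • e2) (by rw [n.swap t.2.1, he2, smul_neg, neg_neg])
      have a0 : a ≠ 0 := fun e => (smul_ne_zero_iff_ne t.1).2 h20 (by rw [← ha, e, zero_smul])
      refine ⟨⟨a, a0, trivial⟩, ha.symm, ?_⟩
      rw [eq_inv_smul_iff₀ a0, ← smul_comm, ha, ← mul_smul, t.2.2, one_smul]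
    choose φ hφ using this
    have hc := card_ne_zero (V := F) (fun _ => True) trivial
    rw [Nat.card_congr (Equiv.subtypeUnivEquiv (p := fun _ : F => True) fun _ => trivial)] at hc
    have hb := ((Nat.bijective_iff_injective_and_card φ).2 ⟨fun s t e => Subtype.ext
      (inv_mul_eq_one.1 (h.faith (s.1⁻¹ * t.1) fun v => by
        obtain ⟨x, rfl⟩ := hL v
        rw [mul_smul, inv_smul_eq_iff]
        show t.1 • (x 0 • e1 + x 1 • e2) = s.1 • (x 0 • e1 + x 1 • e2)
        simp only [smul_add, smul_comm t.1, smul_comm s.1, (hφ s).1, (hφ s).2, (hφ t).1, (hφ t).2,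
          e])), by omega⟩).2
    intro a ha
    obtain ⟨t, ht⟩ := hb ⟨a, ha, trivial⟩
    have := hφ t
    rw [ht] at this
    exact ⟨t.1 * t0, by rw [mul_smul, h12, this.1], by rw [mul_smul, h21, this.2]⟩
  have K2' : ∀ a s : F, a ≠ 0 → (s = 1 ∨ s = -1) →
      ∃ k : G, k • e1 = a • e1 ∧ k • e2 = (s * a⁻¹) • e2 := fun a s ha hs => by
    obtain ⟨k, k1, k2⟩ := K2 a ha
    rcases hs with rfl | rfl
    · exact ⟨k, k1, by rw [k2, one_mul]⟩
    · exact ⟨k * u, by rw [mul_smul, he1, k1], by rw [mul_smul, he2, smul_neg, k2]; simp⟩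
  have K1 : ∀ k : G, k * u = u * k → ∃ a s : F, a ≠ 0 ∧ (s = 1 ∨ s = -1) ∧
      k • e1 = a • e1 ∧ k • e2 = (s * a⁻¹) • e2 := fun k hk => by
    obtain ⟨a, ha⟩ := s1 (k • e1) (by rw [← mul_smul, ← hk, mul_smul, he1])
    have a0 : a ≠ 0 := fun e => (smul_ne_zero_iff_ne k).2 h10 (by rw [← ha, e, zero_smul])
    obtain ⟨g, g1, g2⟩ := K2 a a0
    rcases n.stab h he1 h10 (g := g⁻¹ * k) (by rw [mul_smul, inv_smul_eq_iff, g1, ha]) with e | e
    · exact ⟨a, 1, a0, Or.inl rfl, ha.symm, by rw [← inv_mul_eq_one.1 e, g2, one_mul]⟩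
    · exact ⟨a, -1, a0, Or.inr rfl, ha.symm, by
        rw [inv_mul_eq_iff_eq_mul.1 e, mul_smul, he2, smul_neg, g2]; simp⟩
  have D : ∀ (k : G) (a b : F), k • e1 = a • e1 → k • e2 = b • e2 → ∀ v,
      k • L v = L ![a * v 0, b * v 1] ∧ (t0 * k) • L v = L ![b * v 1, a * v 0] := by
    intro k a b k1 k2 v
    have : k • L v = L ![a * v 0, b * v 1] := by
      show k • (v 0 • e1 + v 1 • e2) = (a * v 0) • e1 + (b * v 1) • e2
      rw [smul_add, smul_comm k, smul_comm k, k1, k2, smul_smul, smul_smul, mul_comm a, mul_comm b]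
    refine ⟨this, ?_⟩
    rw [mul_smul, this]
    show t0 • ((a * v 0) • e1 + (b * v 1) • e2) = (b * v 1) • e1 + (a * v 0) • e2
    rw [smul_add, smul_comm t0, smul_comm t0, h12, h21, add_comm]
  refine ⟨LinearEquiv.ofBijective L hL', fun f => ⟨fun ⟨g, hg⟩ => ?_, fun ⟨a, s, ha, hs, hf⟩ => ?_⟩⟩
  · by_cases hgu : g * u = u * g
    · obtain ⟨a, s, ha, hs, k1, k2⟩ := K1 g hgu
      exact ⟨a, s, ha, hs, Or.inl fun v => hL'.1 ((hg v).trans (D g _ _ k1 k2 v).1)⟩
    · obtain ⟨a, s, ha, hs, k1, k2⟩ := K1 (t0 * g) (mem_centralizer_singleton_iff.1 (by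
        rw [mul_mem_iff_of_index_two (n.index h), mem_centralizer_singleton_iff,
          mem_centralizer_singleton_iff]
        exact iff_of_false ht0 hgu))
      refine ⟨a, s, ha, hs, Or.inr fun v => hL'.1 ((hg v).trans ?_)⟩
      have := (D _ _ _ k1 k2 v).2
      rwa [← mul_assoc, tt0, one_mul] at this
  · obtain ⟨k, k1, k2⟩ := K2' a s ha hs
    rcases hf with hf | hf
    · exact ⟨k, fun v => by rw [hf]; exact (D k _ _ k1 k2 v).1.symm⟩
    · exact ⟨t0 * k, fun v => by rw [hf]; exact (D k _ _ k1 k2 v).2.symm⟩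

end

/-- Let q be a prime, V a non-trivial finite vector space over the field with q elements, and G a finite p-group (p prime) acting faithfully and linearly on V such that all G-orbits on the non-zero vectors have the same size. Then one of the following holds: G is cyclic or generalized quaternion and acts semiregularly on the non-zero vectors; or V has q² elements with q = 2^m − 1 and G is dihedral of order 2^(m+1) or semidihedral of order 2^(m+2); or V has q² elements with q = 2^m + 1 and, in suitable coordinates V = F_q², G is exactly the group of maps (x, y) ↦ (a x, ± a⁻¹ y) and (x, y) ↦ (± a⁻¹ y, a x) with a ≠ 0; or V has 81 elements (q = 3) and G is a 2-group. -/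
theorem result (q : ℕ) [Fact q.Prime] {V : Type*} [AddCommGroup V] [Module (ZMod q) V] [Finite V] [Nontrivial V]
    {G : Type*} [Group G] [Finite G] (p : ℕ) [Fact p.Prime] (hG : IsPGroup p G)
    (ρ : G →* (V ≃ₗ[ZMod q] V)) (hρ : Function.Injective ρ)
    (hhalf : ∀ v w : V, v ≠ 0 → w ≠ 0 → Nat.card {u : V | ∃ g : G, ρ g v = u} = Nat.card {u : V | ∃ g : G, ρ g w = u}) :
    ((IsCyclic G ∨ ∃ n : ℕ, Nonempty (G ≃* QuaternionGroup n)) ∧ ∀ v : V, v ≠ 0 → ∀ g : G, ρ g v = v → g = 1) ∨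
    (Nat.card V = q ^ 2 ∧ ∃ m : ℕ, q = 2 ^ m - 1 ∧
      (Nonempty (G ≃* DihedralGroup (2 ^ m)) ∨ (Cfsg.IsQuasiDihedral G ∧ Nat.card G = 2 ^ (m + 2)))) ∨
    (Nat.card V = q ^ 2 ∧ (∃ m : ℕ, q = 2 ^ m + 1) ∧
      ∃ e : V ≃ₗ[ZMod q] (Fin 2 → ZMod q), ∀ f : (Fin 2 → ZMod q) ≃ₗ[ZMod q] (Fin 2 → ZMod q),
        (∃ g : G, f = e.symm.trans ((ρ g).trans e)) ↔
        ∃ a s : ZMod q, a ≠ 0 ∧ (s = 1 ∨ s = -1) ∧
          ((∀ v, f v = ![a * v 0, s * a⁻¹ * v 1]) ∨ (∀ v, f v = ![s * a⁻¹ * v 1, a * v 0]))) ∨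
    (Nat.card V = 81 ∧ q = 3 ∧ p = 2) := by
  letI : DistribMulAction G V := DistribMulAction.compHom V ρ
  haveI : SMulCommClass G (ZMod q) V := ⟨fun g a v => map_smul (ρ g) a v⟩
  have hq : q.Prime := Fact.out
  have hf : ∀ g : G, (∀ v : V, g • v = v) → g = 1 := fun g hg =>
    hρ (by rw [map_one]; exact LinearEquiv.ext hg)
  have hst : ∀ v w : V, v ≠ 0 → w ≠ 0 → Nat.card (stabilizer G v) = Nat.card (stabilizer G w) := by
    intro v w hv hw
    have h1 : (orbit G v).ncard = (orbit G w).ncard := hhalf v w hv hw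
    rw [← index_stabilizer, ← index_stabilizer] at h1
    have h2 := (stabilizer G v).card_mul_index
    rw [← (stabilizer G w).card_mul_index, h1] at h2
    exact Nat.eq_of_mul_eq_mul_right (Nat.pos_of_ne_zero index_ne_zero_of_finite) h2
  have hqV : ∀ v : V, q • v = 0 := fun v => by
    rw [← Nat.cast_smul_eq_nsmul (ZMod q), ZMod.natCast_self, zero_smul]
  by_cases hp2 : p = 2
  swap
  · haveI : FaithfulSMul G V := ⟨fun {a b} h => inv_mul_eq_one.1 (hf _ fun v => by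
      rw [mul_smul, ← h, inv_smul_smul])⟩
    obtain ⟨h1, h2⟩ := S1160.result hp2 hG hq hqV hst
    exact Or.inl ⟨Or.inl h1, fun v hv g hg => by_contra fun h => hv (h2 g h v hg)⟩
  subst hp2
  have hV : Nat.card V = q ^ Module.finrank (ZMod q) V := by
    rw [Module.natCard_eq_pow_finrank (K := ZMod q), Nat.card_zmod]
  by_cases hq2 : q = 2
  · obtain ⟨w, hw, hw0⟩ := hG.exists_fixed_point_of_prime_dvd_card_of_fixed_point V (a := 0)
      (hV ▸ hq2 ▸ dvd_pow_self _ Module.finrank_pos.ne') fun g => smul_zero g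
    have h1 : ∀ g : G, g = 1 := fun g => hf g fun v => by
      by_cases hv : v = 0
      · rw [hv, smul_zero]
      · have : stabilizer G v = ⊤ := eq_top_of_card_eq _ (by
          rw [hst v w hv hw0.symm, (eq_top_iff' (stabilizer G w)).2 fun g => hw g, card_top])
        exact mem_stabilizer_iff.1 (this ▸ mem_top g)
    haveI : Subsingleton G := subsingleton_of_forall_eq 1 h1
    exact Or.inl ⟨Or.inl inferInstance, fun _ _ g _ => h1 g⟩
  have hqo : Odd q := hq.odd_of_ne_two hq2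
  obtain ⟨v0, hv0⟩ := exists_ne (0 : V)
  have h : HT G V (Nat.card (stabilizer G v0)) := ⟨fun v hv => hst v v0 hv hv0, hf, fun v hv => by
    obtain ⟨k, hk⟩ := hqo
    have := hqV v
    rwa [hk, add_smul, one_smul, mul_comm, mul_smul, two_smul, ← eq_neg_iff_add_eq_zero.1 hv,
      eq_neg_iff_add_eq_zero.1 hv, smul_zero, zero_add] at this⟩
  have pw : ∀ r, r ^ 2 = Nat.card V → ∃ j, j ≠ 0 ∧ r = q ^ j := fun r hr => by
    obtain ⟨j, -, rfl⟩ := (Nat.dvd_prime_pow hq).1 (hV ▸ hr ▸ dvd_pow_self r two_ne_zero)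
    refine ⟨j, ?_, rfl⟩
    rintro rfl
    exact (Finite.one_lt_card (α := V)).ne (by simpa using hr)
  have semi : (∀ s t : G, s ≠ 1 → t ≠ 1 → s * s = 1 → t * t = 1 → s = t) →
      (IsCyclic G ∨ ∃ n : ℕ, Nonempty (G ≃* QuaternionGroup n)) := fun hu => by
    have key : ∀ H K : Subgroup G, Nat.card H = 2 → Nat.card K = 2 → H ≤ K := fun H K hH hK x hx => by
      obtain ⟨w, hw, -⟩ := (Nat.card_eq_two_iff' (1 : K)).1 hK
      have e1 := pow_card_eq_one' (x := (⟨x, hx⟩ : H))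
      have e2 := pow_card_eq_one' (x := w)
      rw [hH, sq] at e1
      rw [hK, sq] at e2
      by_cases h1 : x = 1
      · exact h1 ▸ one_mem _
      · exact hu x w h1 (fun e => hw (Subtype.ext e)) (congrArg Subtype.val e1)
          (congrArg Subtype.val e2) ▸ w.2
    exact (isCyclic_or_quaternion hG fun H K hH hK =>
      le_antisymm (key H K hH hK) (key K H hK hH)).imp_right fun ⟨_, n, _, e⟩ => ⟨_, e⟩
  by_cases hc : Nat.card (stabilizer G v0) = 1
  · have hs : ∀ v : V, v ≠ 0 → ∀ g : G, g • v = v → g = 1 := fun v hv g hg =>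
      (eq_bot_iff_forall _).1 (card_eq_one.1 ((h.card v hv).trans hc)) g hg
    have hn : ∀ t : G, t ≠ 1 → t * t = 1 → ∀ v : V, t • v = -v := fun t t1 tt v => by
      obtain ⟨a, b, ha, hb, rfl⟩ := h.split tt v
      rw [by_contra fun e : ¬ a = 0 => t1 (hs a e t ha), zero_add, hb]
    exact Or.inl ⟨semi fun s t s1 t1 ss tt => inv_mul_eq_one.1 (hf _ fun v => by
      rw [mul_smul, inv_smul_eq_iff, hn s s1 ss, hn t t1 tt]), hs⟩
  right
  have inv : ∀ H : Subgroup G, Nat.card H ≠ 1 → ∃ t ∈ H, t ≠ 1 ∧ t * t = 1 := fun H hH => by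
    obtain ⟨k, hk⟩ := (hG.to_subgroup H).exists_card_eq
    obtain ⟨t, ht⟩ := exists_prime_orderOf_dvd_card' (G := H) 2
      (hk ▸ dvd_pow_self 2 (by rintro rfl; exact hH hk))
    have := pow_orderOf_eq_one t
    rw [ht, sq] at this
    exact ⟨t, t.2, fun e => by simp [show t = 1 from Subtype.ext e] at ht, congrArg Subtype.val this⟩
  obtain ⟨t, ht, t1, tt⟩ := inv _ hc
  haveI : Nontrivial G := ⟨t, 1, t1⟩
  obtain ⟨z, hz, z1, zz⟩ := inv (center G) (Finite.one_lt_card_iff_nontrivial.2 hG.center_nontrivial).ne'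
  have hzn := h.central hz z1 zz
  have tz : t ≠ z := fun e => hv0 (h.odd v0 ((mem_stabilizer_iff.1 ht).symm.trans (e ▸ hzn v0)))
  by_cases hn : ∀ A : Subgroup G, A.Normal → IsMulCommutative A → IsCyclic A
  · left
    have fin : ∀ k r, r ^ 2 = Nat.card V → 2 ^ k = r + 1 → Nat.card V = q ^ 2 ∧ q = 2 ^ k - 1 :=
      fun k r hr hk => by
        obtain ⟨j, hj, rfl⟩ := pw r hr
        obtain rfl := pow_add_one hqo hq.one_lt hj hk.symm
        rw [pow_one] at hr hk
        exact ⟨hr.symm, by omega⟩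
    rcases (S0519.result 2 hG hn ⟨closure {z, t}, isMulCommutative_closure (by
        rintro x (e | e) y (e' | e') <;> rw [e, e'] <;> simp [mem_center_iff.1 hz t]), fun hB => by
        obtain ⟨k, hk⟩ := S0519.mem_of_cyclic (p := 2) hB (subset_closure (by simp))
          (subset_closure (by simp)) z1 (by rw [sq, zz]) (show t ^ 2 = 1 by rw [sq, tt])
        rcases Int.even_or_odd' k with ⟨i, rfl | rfl⟩
        · exact t1 (by simpa [zpow_mul, sq, zz] using hk.symm)
        · exact tz (by simpa [zpow_add, zpow_mul, sq, zz] using hk.symm)⟩).2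
      with ⟨n, ⟨e⟩⟩ | ⟨n, hn8, ⟨e⟩⟩ | hQ
    · exfalso
      have k : ∀ s : G, s ≠ 1 → s * s = 1 → e s = QuaternionGroup.a n := fun s s1 ss => by
        have n0 : n ≠ 0 := by
          rintro rfl
          haveI := Finite.of_equiv _ e.toEquiv
          haveI : Finite ℤ := Finite.of_injective (QuaternionGroup.a : ZMod (2 * 0) → QuaternionGroup 0)
            fun _ _ h => by injection h
          exact not_finite ℤ
        haveI : NeZero n := ⟨n0⟩
        have h1 : e s * e s = 1 := by rw [← map_mul, ss, map_one]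
        have h2 : e s ≠ 1 := by simpa using s1
        rcases hs : e s with i | i <;> rw [hs] at h1 h2
        · rw [QuaternionGroup.a_mul_a, ← QuaternionGroup.a_zero, QuaternionGroup.a.injEq,
            ← neg_eq_iff_add_eq_zero, ZMod.neg_eq_self_iff] at h1
          rcases h1 with h1 | h1
          · exact absurd (by rw [h1]; rfl) h2
          · rw [← ZMod.natCast_zmod_val i, show i.val = n by omega]
        · have := QuaternionGroup.orderOf_xa i
          have h3 := orderOf_dvd_of_pow_eq_one (show QuaternionGroup.xa i ^ 2 = 1 by rw [sq, h1])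
          rw [this] at h3; omega
      exact tz (e.injective ((k t t1 tt).trans (k z z1 zz).symm))
    · obtain ⟨a, x, k, m, rfl, hx, hxa⟩ := exists_mc_of_dihedral hG e (by omega)
      obtain ⟨r, hr, hB⟩ := mc_case h hc m hx (zpowers a) fun y => ⟨fun ⟨i, hi⟩ => ⟨⟨i, hi⟩, by
        have := conj_zpow_eq (k := -1) (hxa.trans (zpow_neg_one a).symm) i
        rw [inv_eq_of_mul_eq_one_right (by rw [← sq, hx] : x * x = 1)] at this
        rw [← hi, ← mul_assoc, this, ← zpow_add]; simp⟩, fun hy => hy.1⟩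
      rw [Nat.card_zpowers, m.ord] at hB
      exact ⟨(fin k r hr hB).1, k, (fin k r hr hB).2, Or.inl ⟨e⟩⟩
    · obtain ⟨a, x, k, m, hk, hx, hxa⟩ := exists_mc_of_qd hQ
      obtain ⟨k, rfl⟩ : ∃ j, k = j + 1 := ⟨k - 1, by omega⟩
      have key : ∀ i : ℤ, x * a ^ i * (x * a ^ i) = 1 ↔ 2 ∣ i := fun i => by
        have := conj_zpow_eq (k := 2 ^ k - 1) (by
          rw [hxa, ← zpow_natCast, Nat.cast_sub Nat.one_le_two_pow]; simp) i
        rw [inv_eq_of_mul_eq_one_right (by rw [← sq, hx] : x * x = 1)] at this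
        rw [← mul_assoc, this, ← zpow_add, m.zpow_eq_one,
          show (2 ^ k - 1) * i + i = 2 ^ k * i by ring, pow_succ]
        exact mul_dvd_mul_iff_left (by positivity)
      obtain ⟨r, hr, hB⟩ := mc_case h hc m hx (zpowers (a ^ 2)) fun y => ⟨fun ⟨i, hi⟩ => by
        have e : y = a ^ (2 * i) := by rw [← hi, zpow_mul]; norm_cast
        rw [e, key]; exact ⟨⟨_, rfl⟩, dvd_mul_right _ _⟩, fun ⟨⟨i, hi⟩, hy⟩ => by
        rw [← hi, key] at hy
        obtain ⟨j, rfl⟩ := hy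
        exact ⟨j, by rw [← hi]; simp only [zpow_mul]; norm_cast⟩⟩
      rw [Nat.card_zpowers, m.orderOf_sq] at hB
      exact ⟨(fin k r hr hB).1, k, (fin k r hr hB).2, Or.inr ⟨hQ, m.card⟩⟩
  · right
    push Not at hn
    obtain ⟨A, hA, hAc, hA'⟩ := hn
    obtain ⟨u, n⟩ := exists_nf h hG hzn hA hAc hA'
    obtain ⟨h2, -, -, m, hm⟩ := n.count h hG
    obtain ⟨j, hj, hr⟩ := pw _ h2
    rcases pow_sub_one hqo hq.one_lt hj (hr.symm.trans hm) with rfl | ⟨rfl, rfl⟩
    · rw [pow_one] at hr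
      obtain ⟨e, he⟩ := coord (F := ZMod q) h hG n (by rw [hr, Nat.card_zmod])
      refine Or.inl ⟨by rw [← h2, hr], ⟨m, hr.symm.trans hm⟩, e.symm, fun f => Iff.trans ?_ (he f)⟩
      refine exists_congr fun g => ⟨fun hg v => by rw [hg]; simp; rfl, fun hg => ?_⟩
      ext1 v
      exact e.injective ((hg v).trans (by simp; rfl))
    · exact Or.inr ⟨by rw [← h2, hr]; rfl, rfl, rfl⟩

end Cfsg.Agent.S3371
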