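import Cfsg.Statements.S3375
import Cfsg.Agent.BG.Base6

set_option autoImplicit false
open Cfsg

namespace Cfsg.Agent.S3375

open Subgroup

theorem aux {H : Type*} [Group H] [Finite H] (γ : MulAut H) (hγ : ∀ x, γ (γ x) = x) (A : Subgroup H)
    (hA : ∀ x, x * (γ x)⁻¹ ∈ A)
    (hc : Nat.card {h : H // γ h = h} ≤ A.index) :
    (∀ a ∈ A, ∀ b ∈ A, a * b = b * a) ∧ ∀ a ∈ A, γ a = a⁻¹ := by
  let C := γ.toMonoidHom.eqLocus (MonoidHom.id H)
  have h1 : ∀ x y : H, x⁻¹ * y ∈ C ↔ x * (γ x)⁻¹ = y * (γ y)⁻¹ := fun x y => by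
    change γ (x⁻¹ * y) = x⁻¹ * y ↔ _
    rw [map_mul, map_inv, eq_mul_inv_iff_mul_eq, mul_assoc, eq_inv_mul_iff_mul_eq]
  have h2 : ∀ a ∈ A, γ a = a⁻¹ := fun a ha => by
    obtain ⟨b, hb⟩ := (Function.Injective.bijective_of_nat_card_le (f := fun x : H ⧸ C => x.liftOn'
      (fun x => (⟨x * (γ x)⁻¹, hA x⟩ : A)) fun x y h => Subtype.ext ((h1 x y).1 (QuotientGroup.leftRel_apply.1 h)))
      (fun x y => Quotient.inductionOn₂' x y fun x y h => QuotientGroup.eq.2 ((h1 x y).2 (congrArg Subtype.val h)))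
      (Nat.le_of_mul_le_mul_left (c := Nat.card C) (by
        rw [← index, C.card_mul_index, ← A.card_mul_index, mul_comm]; exact Nat.mul_le_mul_left _ hc) Nat.card_pos)).2 ⟨a, ha⟩
    obtain ⟨b, rfl⟩ := QuotientGroup.mk_surjective b
    obtain rfl : b * (γ b)⁻¹ = a := congrArg Subtype.val hb
    simp [hγ]
  exact ⟨fun a ha b hb => inv_injective (by rw [← h2 _ (A.mul_mem ha hb), map_mul, h2 a ha, h2 b hb, mul_inv_rev]), h2⟩

/-- Let γ be an automorphism of order 2 of a finite group H. (i) If γ fixes only the identity, then H is abelian and γ inverts every element. (ii) If γ has exactly two fixed points and H has a subgroup of index 2, then H has a γ-invariant abelian subgroup of index 2 on which γ acts by inversion. -/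
theorem result {H : Type*} [Group H] [Finite H] (γ : MulAut H) (hγ : orderOf γ = 2) :
    ((∀ h : H, γ h = h → h = 1) → (∀ a b : H, a * b = b * a) ∧ ∀ h : H, γ h = h⁻¹) ∧
    ((Nat.card {h : H // γ h = h} = 2 ∧ ∃ M : Subgroup H, M.index = 2) →
      ∃ A : Subgroup H, A.index = 2 ∧ IsMulCommutative A ∧ (∀ a ∈ A, γ a ∈ A) ∧ ∀ a ∈ A, γ a = a⁻¹) := by
  have h1 : ∀ x, γ (γ x) = x := fun x => by rw [← MulAut.mul_apply, ← sq, ← hγ, pow_orderOf_eq_one]; rfl
  refine ⟨fun h => ?_, fun ⟨h2, M, hM⟩ => ?_⟩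
  · have := aux γ h1 ⊤ (fun _ => trivial) ((Finite.card_le_one_iff_subsingleton.2
      ⟨fun a b => Subtype.ext ((h _ a.2).trans (h _ b.2).symm)⟩).trans_eq index_top.symm)
    exact ⟨fun a b => this.1 a trivial b trivial, fun a => this.2 a trivial⟩
  obtain ⟨A, hA, h3⟩ : ∃ A : Subgroup H, A.index = 2 ∧ ∀ x, x * (γ x)⁻¹ ∈ A := by
    by_cases h : ∀ x, x ∈ M ↔ γ x ∈ M
    · exact ⟨M, hM, fun x => by rw [mul_mem_iff_of_index_two hM, inv_mem_iff]; exact h x⟩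
    obtain ⟨x, hx⟩ := not_forall.1 h
    refine ⟨⟨⟨⟨{x | x ∈ M ↔ γ x ∈ M}, fun {a b} ha hb => ?_⟩, by simp⟩, fun {a} ha => by simpa using ha⟩,
      index_eq_two_iff_exists_notMem_and.2 ⟨x, hx, fun b => ?_⟩, fun x => ?_⟩
    all_goals simp only [mem_mk, Submonoid.mem_mk, Subsemigroup.mem_mk, Set.mem_ofPred_eq, map_mul, map_inv, h1,
      mul_mem_iff_of_index_two hM, inv_mem_iff] at *; tauto
  obtain ⟨h4, h5⟩ := aux γ h1 A h3 (h2.trans hA.symm).le
  exact ⟨A, hA, ⟨⟨fun a b => Subtype.ext (h4 a a.2 b b.2)⟩⟩, fun a ha => h5 a ha ▸ A.inv_mem ha, h5⟩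

end Cfsg.Agent.S3375
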