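import Cfsg.Statements.S3377
import Cfsg.Agent.Perm.SL25
import Cfsg.Agent.Classical.DicksonSL

set_option autoImplicit false
open Cfsg

namespace Cfsg.Agent.S3377

def xa : alternatingGroup (Fin 5) := ⟨Equiv.swap 1 3 * Equiv.swap 1 0, by
  rw [Equiv.Perm.mem_alternatingGroup]; decide⟩
def ya : alternatingGroup (Fin 5) := ⟨finRotate 5, by
  rw [Equiv.Perm.mem_alternatingGroup]; decide⟩

theorem xa3 : xa ^ 3 = 1 := by apply Subtype.ext; decide
theorem ya5 : ya ^ 5 = 1 := by apply Subtype.ext; decide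
theorem xy2 : (xa * ya) ^ 2 = 1 := by apply Subtype.ext; decide
theorem xa1 : xa ≠ 1 := by intro h; have := congrArg Subtype.val h; revert this; decide
theorem ya1 : ya ≠ 1 := by intro h; have := congrArg Subtype.val h; revert this; decide
theorem xy1 : xa * ya ≠ 1 := by intro h; have := congrArg Subtype.val h; revert this; decide

theorem eq_top (H : Subgroup (alternatingGroup (Fin 5))) (hx : xa ∈ H) (hy : ya ∈ H) : H = ⊤ := by
  haveI : Fact (Nat.Prime 3) := ⟨by norm_num⟩
  haveI : Fact (Nat.Prime 5) := ⟨by norm_num⟩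
  have h3 : 3 ∣ Nat.card H := by
    rw [← orderOf_eq_prime xa3 xa1]; exact H.orderOf_dvd_natCard hx
  have h5 : 5 ∣ Nat.card H := by
    exact (orderOf_eq_prime ya5 ya1).symm.dvd.trans (H.orderOf_dvd_natCard hy)
  have h2 : 2 ∣ Nat.card H := by
    rw [← orderOf_eq_prime xy2 xy1]; exact H.orderOf_dvd_natCard (H.mul_mem hx hy)
  have hc := H.card_mul_index
  rw [Cfsg.Agent.Classical.card_alt5] at hc
  obtain ⟨k, hk⟩ : 30 ∣ Nat.card H := by omega
  rw [hk] at hc
  have h1 : k * H.index = 2 := by nlinarith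
  have h4 : H.index ∣ 2 := Dvd.intro_left k h1
  rcases (Nat.dvd_prime Nat.prime_two).1 h4 with h | h
  · exact Subgroup.index_eq_one.1 h
  · haveI := H.normal_of_index_eq_two h
    rcases IsSimpleGroup.eq_bot_or_eq_top_of_normal H inferInstance with h' | h'
    · rw [h'] at hx; exact absurd (Subgroup.mem_bot.1 hx) xa1
    · exact h'

/-- The alternating group of degree 5 has the presentation ⟨x, y | x³ = 1, y⁵ = 1, (xy)² = 1⟩: the group so presented is isomorphic to Alt(5). -/
theorem result :
    Nonempty (PresentedGroup ({FreeGroup.of (0 : Fin 2) ^ 3, FreeGroup.of (1 : Fin 2) ^ 5,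
        (FreeGroup.of (0 : Fin 2) * FreeGroup.of 1) ^ 2} : Set (FreeGroup (Fin 2))) ≃* alternatingGroup (Fin 5)) := by
  set R : Set (FreeGroup (Fin 2)) := {FreeGroup.of (0 : Fin 2) ^ 3, FreeGroup.of (1 : Fin 2) ^ 5,
        (FreeGroup.of (0 : Fin 2) * FreeGroup.of 1) ^ 2} with hR
  let f : Fin 2 → alternatingGroup (Fin 5) := ![xa, ya]
  have hf : ∀ r ∈ R, FreeGroup.lift f r = 1 := by
    intro r hr
    simp only [hR, Set.mem_insert_iff, Set.mem_singleton_iff] at hr
    rcases hr with rfl | rfl | rfl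
    · simpa [f] using xa3
    · simpa [f] using ya5
    · simpa [f] using xy2
  let φ := PresentedGroup.toGroup hf
  have hs : Function.Surjective φ := by
    rw [← MonoidHom.range_eq_top]
    apply eq_top
    · exact ⟨PresentedGroup.of 0, by simp [φ, f]⟩
    · exact ⟨PresentedGroup.of 1, by simp [φ, f]⟩
  have hrel : ∀ r ∈ R, PresentedGroup.mk R r = 1 := fun r hr => PresentedGroup.one_of_mem hr
  have h1 : (PresentedGroup.of 0 : PresentedGroup R) ^ 3 = 1 := by
    have := hrel _ (Set.mem_insert _ _); simpa [PresentedGroup.of] using this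
  have h2 : (PresentedGroup.of 1 : PresentedGroup R) ^ 5 = 1 := by
    have := hrel _ (Set.mem_insert_of_mem _ (Set.mem_insert _ _)); simpa [PresentedGroup.of] using this
  have h3 : ((PresentedGroup.of 0 : PresentedGroup R) * PresentedGroup.of 1) ^ 2 = 1 := by
    have := hrel _ (Set.mem_insert_of_mem _ (Set.mem_insert_of_mem _ rfl)); simpa [PresentedGroup.of] using this
  have hgen : Subgroup.closure {(PresentedGroup.of 0 : PresentedGroup R), PresentedGroup.of 1} = ⊤ := by
    rw [← PresentedGroup.closure_range_of R]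
    congr 1
    ext z
    simp only [Set.mem_insert_iff, Set.mem_singleton_iff, Set.mem_range]
    constructor
    · rintro (rfl | rfl)
      · exact ⟨0, rfl⟩
      · exact ⟨1, rfl⟩
    · rintro ⟨i, rfl⟩
      fin_cases i
      · left; rfl
      · right; rfl
  obtain ⟨hfin, hc⟩ := Cfsg.Agent.Perm.card_le_sixty h1 h2 h3 hgen
  refine ⟨MulEquiv.ofBijective φ ?_⟩
  refine hs.bijective_of_nat_card_le ?_
  rw [Cfsg.Agent.Classical.card_alt5]; exact hc

end Cfsg.Agent.S3377
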