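import Cfsg.Statements.S3380
import Cfsg.Agent.Low.Imprim

set_option autoImplicit false
open Cfsg

namespace Cfsg.Agent.S3380

/-- Let a finite p-group G act faithfully and irreducibly on a non-trivial finite vector space V over the field with q elements (q prime), and suppose G is not cyclic, generalized quaternion, dihedral or semidihedral. Then G has a subgroup H of index p and V is the direct sum of p subspaces, each invariant under H, on none of which H acts faithfully, and which every element of G outside H permutes in a single p-cycle. -/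
theorem result
    (q : ℕ) [Fact q.Prime] {V : Type*} [AddCommGroup V] [Module (ZMod q) V] [Finite V] [Nontrivial V]
    {G : Type*} [Group G] [Finite G] (p : ℕ) [Fact p.Prime] (hG : IsPGroup p G)
    (ρ : G →* (V ≃ₗ[ZMod q] V)) (hρ : Function.Injective ρ)
    (hirr : ∀ W : Submodule (ZMod q) V, (∀ g : G, ∀ w ∈ W, ρ g w ∈ W) → W = ⊥ ∨ W = ⊤)
    (hnc : ¬ IsCyclic G) (hnq : ∀ n : ℕ, ¬ Nonempty (G ≃* QuaternionGroup n))
    (hnd : ∀ n : ℕ, ¬ Nonempty (G ≃* DihedralGroup n)) (hnsd : ¬ Cfsg.IsQuasiDihedral G) :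
    ∃ (H : Subgroup G) (W : Fin p → Submodule (ZMod q) V), H.index = p ∧
      iSup W = ⊤ ∧ iSupIndep W ∧
      (∀ h ∈ H, ∀ i, ∀ w ∈ W i, ρ h w ∈ W i) ∧
      (∀ i, ∃ h ∈ H, h ≠ 1 ∧ ∀ w ∈ W i, ρ h w = w) ∧
      ∀ g : G, g ∉ H → ∃ σ : Equiv.Perm (Fin p), orderOf σ = p ∧ ∀ i, (W i).map (ρ g : V →ₗ[ZMod q] V) = W (σ i) := by
  by_cases h : ∀ B : Subgroup G, B.Normal → IsElementaryAbelian p B → Nat.card B ≠ p ^ 2
  · rcases PGrp.isCyclic_or_isMC hG h with h1 | ⟨-, a, x, n, h1⟩
    · exact absurd h1 hnc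
    · rcases h1.dqs_cases with h2 | h2 | h2
      exacts [absurd h2 (hnd _), absurd h2 (hnq _), absurd h2 hnsd]
  push Not at h
  obtain ⟨B, hN, hB, hc⟩ := h
  obtain ⟨-, H, W, h1, h2, h3, h4, h5, h6⟩ := Low.imprim p hG ρ hρ hirr B hB hc
  have hp : p.Prime := Fact.out
  obtain ⟨n, rfl⟩ : ∃ n, p = n + 1 := ⟨p - 1, by have := hp.pos; omega⟩
  refine ⟨H, W, h1, h2, h3, h4, h5, fun g hg => ?_⟩
  obtain ⟨a, ha, h7⟩ := h6 g hg
  refine ⟨Equiv.addRight (G := ZMod (n + 1)) a, orderOf_eq_prime ?_ fun h => ha ?_, h7⟩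
  · have : ∀ k : ℕ, ∀ i, (Equiv.addRight a ^ k) i = i + k * a := by
      intro k
      induction k with
      | zero => simp
      | succ k ih => intro i; rw [pow_succ', Equiv.Perm.mul_apply, ih]; simp; ring
    refine Equiv.ext fun i => (this (n + 1) i).trans ?_
    rw [CharP.cast_eq_zero, zero_mul]
    exact add_zero i
  · have := congrArg (fun σ : Equiv.Perm (ZMod (n + 1)) => σ 0) h
    exact (zero_add a).symm.trans this

end Cfsg.Agent.S3380
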