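import Cfsg.Statements.S3381


set_option autoImplicit false
open Cfsg

namespace Cfsg.Agent.S3381

open Module

/-- Let G be a finite group acting faithfully and linearly on a non-trivial finite vector space V over the field with q elements (q prime) so that every non-zero vector has a stabilizer of order 2, and suppose G has a central involution. Then V has q^(2r) elements for some r and G contains exactly q^r + 1 non-central involutions. -/
theorem result
    (q : ℕ) [Fact q.Prime] {V : Type*} [AddCommGroup V] [Module (ZMod q) V] [Finite V] [Nontrivial V]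
    {G : Type*} [Group G] [Finite G] (ρ : G →* (V ≃ₗ[ZMod q] V)) (hρ : Function.Injective ρ)
    (hstab : ∀ v : V, v ≠ 0 → Nat.card {g : G // ρ g v = v} = 2)
    (z : G) (hz : orderOf z = 2) (hzc : z ∈ Subgroup.center G) :
    ∃ r : ℕ, Nat.card V = q ^ (2 * r) ∧
      Nat.card {g : G // orderOf g = 2 ∧ g ∉ Subgroup.center G} = q ^ r + 1 := by
  classical
  haveI := Fintype.ofFinite G
  haveI := Fintype.ofFinite V
  have hU : ∀ v : V, v ≠ 0 → ∀ g h : G, g ≠ 1 → h ≠ 1 → ρ g v = v → ρ h v = v → g = h := by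
    intro v hv g h hg hh h1 h2
    obtain ⟨y, -, hy⟩ := (Nat.card_eq_two_iff' (⟨1, by simp⟩ : {g : G // ρ g v = v})).mp (hstab v hv)
    exact congrArg Subtype.val ((hy ⟨g, h1⟩ fun e => hg (congrArg Subtype.val e)).trans
      (hy ⟨h, h2⟩ fun e => hh (congrArg Subtype.val e)).symm)
  have hE : ∀ v : V, v ≠ 0 → ∃ t, orderOf t = 2 ∧ ρ t v = v := by
    intro v hv
    obtain ⟨⟨t, ht⟩, h1, -⟩ :=
      (Nat.card_eq_two_iff' (⟨1, by simp⟩ : {g : G // ρ g v = v})).mp (hstab v hv)
    have h2 : t ≠ 1 := fun e => h1 (Subtype.ext e)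
    refine ⟨t, orderOf_eq_prime ?_ h2, ht⟩
    by_contra h3
    have := hU v hv (t ^ 2) t h3 h2 (by simp [sq, ht]) ht
    exact h2 (by simpa [sq] using this)
  have hne : ∀ {t : G}, orderOf t = 2 → t ≠ 1 := fun ht h => by simp [h] at ht
  have hsq : ∀ {t : G}, orderOf t = 2 → t * t = 1 := fun {t} ht => by
    rw [← sq, ← ht, pow_orderOf_eq_one]
  have hρsq : ∀ {t : G}, orderOf t = 2 → ∀ v, ρ t (ρ t v) = v := fun {t} ht v => by
    rw [← LinearEquiv.mul_apply, ← map_mul, hsq ht]; simp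
  have hmv : ∀ {t : G}, t ≠ 1 → ∃ w, ρ t w ≠ w := fun {t} ht => by
    by_contra h; push Not at h
    exact ht (hρ (by rw [map_one]; exact LinearEquiv.ext h))
  have hcomm : ∀ {c : G}, c ∈ Subgroup.center G → ∀ t v, ρ t (ρ c v) = ρ c (ρ t v) := fun hc t v => by
    rw [← LinearEquiv.mul_apply, ← map_mul, Subgroup.mem_center_iff.mp hc, map_mul,
      LinearEquiv.mul_apply]
  have h2 : (2 : ZMod q) ≠ 0 := by
    intro h2
    obtain ⟨w, hw⟩ := hmv (hne hz)
    obtain ⟨t, ht, htw⟩ := hE w (by rintro rfl; simp at hw)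
    have h3 : ∀ x : V, -x = x := fun x => by
      rw [neg_eq_iff_add_eq_zero, ← two_smul (ZMod q), h2, zero_smul]
    have := hU (w - ρ z w) (sub_ne_zero.mpr hw.symm) t z (hne ht) (hne hz)
      (by rw [map_sub, hcomm hzc, htw]) (by rw [map_sub, hρsq hz, ← neg_sub, h3])
    exact hw (this ▸ htw)
  have h2' : ∀ {x : V}, x + x = 0 → x = 0 := fun {x} h => by
    rw [← two_smul (ZMod q)] at h
    exact (smul_eq_zero.mp h).resolve_left h2
  have hZ : ∀ c, orderOf c = 2 → c ∈ Subgroup.center G → ∀ v, ρ c v = -v := by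
    intro c hc hcc v
    by_contra hv
    obtain ⟨w, hw⟩ := hmv (hne hc)
    obtain ⟨u, hu0, hu⟩ : ∃ u, u ≠ 0 ∧ ρ c u = -u :=
      ⟨w - ρ c w, sub_ne_zero.mpr hw.symm, by rw [map_sub, hρsq hc, neg_sub]⟩
    obtain ⟨x, hx0, hx⟩ : ∃ x, x ≠ 0 ∧ ρ c x = x :=
      ⟨v + ρ c v, fun h => hv (eq_neg_of_add_eq_zero_right h), by rw [map_add, hρsq hc, add_comm]⟩
    obtain ⟨s, hs, hsx⟩ := hE (x + u) (fun h => by
      have h1 := congrArg (ρ c) h
      rw [map_add, hu, hx, map_zero] at h1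
      exact hu0 (h2' (by linear_combination (norm := abel) h - h1)))
    have h1 := congrArg (ρ c) hsx
    rw [← hcomm hcc, map_add, hu, hx, map_add, map_neg] at h1
    rw [map_add] at hsx
    have h3 : ρ s x = x := sub_eq_zero.mp (h2' (by linear_combination (norm := abel) hsx + h1))
    have h4 := hU x hx0 s c (hne hs) (hne hc) h3 hx
    rw [h3, h4, hu] at hsx
    exact hu0 (h2' (by linear_combination (norm := abel) -hsx))
  let I : Finset G := Finset.univ.filter fun g => orderOf g = 2 ∧ g ∉ Subgroup.center G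
  have hI : ∀ {g}, g ∈ I ↔ orderOf g = 2 ∧ g ∉ Subgroup.center G := by simp [I]
  let W : G → Submodule (ZMod q) V := fun t => LinearMap.ker ((ρ t : V →ₗ[ZMod q] V) - LinearMap.id)
  have hW : ∀ {t v}, v ∈ W t ↔ ρ t v = v := by simp [W, sub_eq_zero]
  have hzW : ∀ {t v}, v ∈ W (z * t) ↔ ρ t v = -v := fun {t v} => by
    rw [hW, map_mul, LinearEquiv.mul_apply, hZ z hz hzc, neg_eq_iff_eq_neg]
  have hzI : ∀ {t}, t ∈ I → z * t ∈ I := fun {t} ht => by
    rw [hI] at ht ⊢
    have h1 : z * t ∉ Subgroup.center G := fun h => ht.2 (by simpa using mul_mem (inv_mem hzc) h)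
    refine ⟨orderOf_eq_prime ?_ (fun h => h1 (h ▸ one_mem _)), h1⟩
    rw [sq, mul_assoc, ← mul_assoc t, Subgroup.mem_center_iff.mp hzc t, mul_assoc, hsq ht.1,
      mul_one, hsq hz]
  have hzz : ∀ t, z * (z * t) = t := fun t => by rw [← mul_assoc, hsq hz, one_mul]
  have hdisj : ∀ s ∈ I, ∀ t ∈ I, s ≠ t → W s ⊓ W t = ⊥ := by
    intro s hs t ht hst
    rw [eq_bot_iff]
    intro v hv
    by_contra h0
    exact hst (hU v h0 s t (hne (hI.mp hs).1) (hne (hI.mp ht).1) (hW.mp hv.1) (hW.mp hv.2))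
  have hcov : ∀ v : V, v ≠ 0 → ∃ t ∈ I, v ∈ W t := by
    intro v hv
    obtain ⟨t, ht, htv⟩ := hE v hv
    refine ⟨t, hI.mpr ⟨ht, fun h => hv (h2' ?_)⟩, hW.mpr htv⟩
    have := hZ t ht h v
    rw [htv] at this
    exact add_eq_zero_iff_eq_neg.mpr this
  have hle : ∀ s ∈ I, ∀ t ∈ I, s ≠ t →
      finrank (ZMod q) (W s) + finrank (ZMod q) (W t) ≤ finrank (ZMod q) V := by
    intro s hs t ht hst
    rw [← Submodule.finrank_sup_add_finrank_inf_eq, hdisj s hs t ht hst, finrank_bot, add_zero]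
    exact Submodule.finrank_le _
  have hge : ∀ t ∈ I, finrank (ZMod q) V ≤ finrank (ZMod q) (W t) + finrank (ZMod q) (W (z * t)) := by
    intro t ht
    rw [← Submodule.finrank_sup_add_finrank_inf_eq]
    have : W t ⊔ W (z * t) = ⊤ := by
      rw [eq_top_iff]
      intro v _
      refine Submodule.mem_sup.mpr ⟨(2 : ZMod q)⁻¹ • (v + ρ t v), ?_,
        (2 : ZMod q)⁻¹ • (v - ρ t v), ?_, ?_⟩
      · rw [hW, map_smul, map_add, hρsq (hI.mp ht).1, add_comm]
      · rw [hzW, map_smul, map_sub, hρsq (hI.mp ht).1, ← smul_neg, neg_sub]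
      · rw [← smul_add, show v + ρ t v + (v - ρ t v) = (2 : ZMod q) • v by rw [two_smul]; abel,
          smul_smul, inv_mul_cancel₀ h2, one_smul]
    rw [this, finrank_top]; omega
  have hnz : ∀ t ∈ I, ∃ u, u ≠ 0 ∧ u ∈ W (z * t) := by
    intro t ht
    obtain ⟨w, hw⟩ := hmv (hne (hI.mp ht).1)
    exact ⟨w - ρ t w, sub_ne_zero.mpr hw.symm, by rw [hzW, map_sub, hρsq (hI.mp ht).1, neg_sub]⟩
  have hzt : ∀ t, t ≠ z * t := fun t h => hne hz (by simpa using h.symm)
  have hhalf : ∀ t ∈ I, 2 * finrank (ZMod q) (W t) ≤ finrank (ZMod q) V := by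
    intro t ht
    obtain ⟨a, ha0, ha⟩ := hnz t ht
    obtain ⟨b, hb0, hb⟩ := hnz _ (hzI ht)
    rw [hzz] at hb
    have hd := hdisj t ht _ (hzI ht) (hzt t)
    have k1 : a ∉ W t := fun h => ha0 ((Submodule.eq_bot_iff _).mp hd a ⟨h, ha⟩)
    have k2 : b ∉ W (z * t) := fun h => hb0 ((Submodule.eq_bot_iff _).mp hd b ⟨hb, h⟩)
    obtain ⟨s, hs, hsv⟩ := hcov (a + b) (fun h => k1 (by
      rw [eq_neg_of_add_eq_zero_left h]; exact neg_mem hb))
    have e1 : s ≠ t := by
      rintro rfl; exact k1 (by simpa using sub_mem hsv hb)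
    have e2 : z * s ≠ t := by
      rintro rfl; rw [hzz] at ha k2; exact k2 (by simpa using sub_mem hsv ha)
    have := hle s hs t ht e1
    have := hle _ (hzI hs) t ht e2
    have := hge s hs
    omega
  have hdim : ∀ t ∈ I, 2 * finrank (ZMod q) (W t) = finrank (ZMod q) V := by
    intro t ht
    have := hhalf t ht
    have := hhalf _ (hzI ht)
    have := hge t ht
    omega
  obtain ⟨v0, hv0⟩ := exists_ne (0 : V)
  obtain ⟨t0, ht0, -⟩ := hcov v0 hv0
  obtain ⟨r, hr⟩ : ∃ r, r = finrank (ZMod q) (W t0) := ⟨_, rfl⟩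
  have hn : finrank (ZMod q) V = 2 * r := by rw [hr, hdim t0 ht0]
  have hV : Nat.card V = q ^ (2 * r) := by
    rw [Module.natCard_eq_pow_finrank (K := ZMod q), Nat.card_zmod, hn]
  refine ⟨r, hV, ?_⟩
  rw [Nat.subtype_card I (fun _ => hI)]
  have h1 : (Finset.univ.erase (0 : V)) =
      I.biUnion fun t => (Finset.univ.filter (· ∈ W t)).erase 0 := by
    ext v
    simp only [Finset.mem_erase, Finset.mem_univ, and_true, Finset.mem_biUnion, Finset.mem_filter,
      true_and]
    exact ⟨fun h => let ⟨t, ht, h'⟩ := hcov v h; ⟨t, ht, h, h'⟩, fun ⟨_, _, h, _⟩ => h⟩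
  have h3 := congrArg Finset.card h1
  rw [Finset.card_biUnion (by
    intro s hs t ht hst
    rw [Function.onFun, Finset.disjoint_left]
    intro v h4 h5
    simp only [Finset.mem_erase, Finset.mem_filter, Finset.mem_univ, true_and] at h4 h5
    exact h4.1 ((Submodule.eq_bot_iff _).mp (hdisj s hs t ht hst) v ⟨h4.2, h5.2⟩)),
    Finset.sum_congr rfl (g := fun _ => q ^ r - 1) (by
      intro t ht
      rw [Finset.card_erase_of_mem (by simp), ← Nat.subtype_card _ (p := (· ∈ W t)) (by simp)]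
      have := hdim t ht
      rw [show Nat.card {x // x ∈ W t} = Nat.card (W t) from rfl,
        Module.natCard_eq_pow_finrank (K := ZMod q), Nat.card_zmod,
        show finrank (ZMod q) (W t) = r by omega]),
    Finset.card_erase_of_mem (Finset.mem_univ _), Finset.card_univ, ← Nat.card_eq_fintype_card, hV,
    Finset.sum_const, smul_eq_mul] at h3
  have hr0 : r ≠ 0 := by
    rintro rfl
    have := finrank_pos (R := ZMod q) (M := V)
    omega
  have h4 : 1 < q ^ r := Nat.one_lt_pow hr0 (Fact.out : q.Prime).one_lt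
  apply Nat.eq_of_mul_eq_mul_right (show 0 < q ^ r - 1 by omega)
  rw [← h3, mul_comm 2 r, pow_mul, ← Nat.sq_sub_sq, one_pow]

end Cfsg.Agent.S3381
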