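import Cfsg.Statements.S3382
import Mathlib

set_option autoImplicit false
open Cfsg

namespace Cfsg.Agent.S3382

section G
variable {G : Type*} [Group G] {α : MulAut G} {r N : ℕ}

theorem fix_of (hr : Odd r) (hα : α ^ r = 1) (h2 : ∀ x : G, x ^ 2 ^ N = 1) {y : G}
    (h : α (y⁻¹ * α y) = y⁻¹ * α y) : α y = y := by
  have key : ∀ k : ℕ, (α ^ k) y = y * (y⁻¹ * α y) ^ k := fun k => by
    induction k with
    | zero => simp
    | succ k ih => rw [pow_succ', MulAut.mul_apply, ih, map_mul, map_pow, h, pow_succ', ← mul_assoc, mul_inv_cancel_left]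
  have e := key r
  rw [hα, MulAut.one_apply, left_eq_mul] at e
  have := pow_gcd_eq_one.2 ⟨e, h2 (y⁻¹ * α y)⟩
  rw [(Nat.coprime_two_right.2 hr).pow_right N, pow_one, inv_mul_eq_one] at this
  exact this.symm

theorem cyc (hr : Odd r) (hα : α ^ r = 1) (h2 : ∀ x : G, x ^ 2 ^ N = 1) (k : ℕ) {y : G} (h : α y = y ^ k) : α y = y := by
  have key : ∀ (j : ℕ) (y : G), y ^ 2 ^ j = 1 → α y = y ^ k → α y = y := by
    intro j
    induction j with
    | zero => intro y h1 _; rw [pow_zero, pow_one] at h1; rw [h1, map_one]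
    | succ j ih =>
      intro y h1 h3
      have := ih (y ^ 2) (by rwa [← pow_mul, ← pow_succ']) (by rw [map_pow, h3, ← pow_mul, ← pow_mul, mul_comm])
      obtain ⟨c, rfl | rfl⟩ := Nat.even_or_odd' k
      · exact α.injective (by rw [h3, pow_mul, map_pow, this])
      · exact fix_of hr hα h2 (by rw [h3, pow_succ', inv_mul_cancel_left, pow_mul, map_pow, this])
  exact key N y (h2 y) h

end G

variable {F : Type*} [Field F]

def D (a b : Fˣ) : (Fin 2 → F) ≃ₗ[F] (Fin 2 → F) where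
  toFun v := ![a * v 0, b * v 1]
  invFun v := ![a⁻¹ * v 0, b⁻¹ * v 1]
  map_add' v w := by ext i; fin_cases i <;> simp [mul_add]
  map_smul' c v := by ext i; fin_cases i <;> simp [mul_left_comm]
  left_inv v := by ext i; fin_cases i <;> simp
  right_inv v := by ext i; fin_cases i <;> simp

def W (a b : Fˣ) : (Fin 2 → F) ≃ₗ[F] (Fin 2 → F) where
  toFun v := ![b * v 1, a * v 0]
  invFun v := ![a⁻¹ * v 1, b⁻¹ * v 0]
  map_add' v w := by ext i; fin_cases i <;> simp [mul_add]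
  map_smul' c v := by ext i; fin_cases i <;> simp [mul_left_comm]
  left_inv v := by ext i; fin_cases i <;> simp
  right_inv v := by ext i; fin_cases i <;> simp

theorem D_ap (a b : Fˣ) (v : Fin 2 → F) : D a b v = ![a * v 0, b * v 1] := rfl
theorem W_ap (a b : Fˣ) (v : Fin 2 → F) : W a b v = ![b * v 1, a * v 0] := rfl

theorem DD (a b c d : Fˣ) : D a b * D c d = D (a * c) (b * d) := by
  ext v i; fin_cases i <;> simp [D_ap, mul_assoc]
theorem DW (a b c d : Fˣ) : D a b * W c d = W (b * c) (a * d) := by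
  ext v i; fin_cases i <;> simp [D_ap, W_ap, mul_assoc]
theorem WD (a b c d : Fˣ) : W a b * D c d = W (a * c) (b * d) := by
  ext v i; fin_cases i <;> simp [D_ap, W_ap, mul_assoc]
theorem WW (a b c d : Fˣ) : W a b * W c d = D (b * c) (a * d) := by
  ext v i; fin_cases i <;> simp [D_ap, W_ap, mul_assoc]
theorem D1 : D (1 : Fˣ) 1 = 1 := by
  ext v i; fin_cases i <;> simp [D_ap]
theorem D_inv (a b : Fˣ) : (D a b)⁻¹ = D a⁻¹ b⁻¹ := inv_eq_of_mul_eq_one_right (by simp [DD, D1])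
theorem W_inv (a b : Fˣ) : (W a b)⁻¹ = W b⁻¹ a⁻¹ := inv_eq_of_mul_eq_one_right (by simp [WW, D1])
theorem D_pow (a b : Fˣ) (n : ℕ) : D a b ^ n = D (a ^ n) (b ^ n) := by
  induction n with
  | zero => simp [D1]
  | succ n ih => rw [pow_succ, ih, DD, pow_succ, pow_succ]
theorem D_inj {a b c d : Fˣ} (h : D a b = D c d) : a = c ∧ b = d := by
  have := LinearEquiv.congr_fun h 1
  simpa [D_ap, Units.ext_iff] using this
theorem W_inj {a b c d : Fˣ} (h : W a b = W c d) : a = c ∧ b = d := by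
  have := LinearEquiv.congr_fun h 1
  simpa [W_ap, and_comm, Units.ext_iff] using this

theorem pm {a : Fˣ} (h : a = 1 ∨ a = -1) : a * a = 1 := by rcases h with rfl | rfl <;> simp

theorem main {m : ℕ} (hm : m ≠ 2) {g : Fˣ} (hg : orderOf g = 2 ^ m) (gen : ∀ a : Fˣ, ∃ k : ℕ, a = g ^ k)
    (T : Subgroup ((Fin 2 → F) ≃ₗ[F] (Fin 2 → F)))
    (hT : ∀ f, f ∈ T ↔ ∃ a b : Fˣ, (a * b = 1 ∨ a * b = -1) ∧ (f = D a b ∨ f = W a b))
    {α : MulAut T} {r : ℕ} (hr : Odd r) (hα : α ^ r = 1) : α = 1 := by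
  have u1 : ∀ a : Fˣ, a ^ 2 ^ m = 1 := fun a => by
    obtain ⟨k, rfl⟩ := gen a
    rw [← pow_mul, mul_comm, pow_mul, ← hg, pow_orderOf_eq_one, one_pow]
  have w4 : ∀ a b : Fˣ, (a * b = 1 ∨ a * b = -1) → W a b ^ 4 = 1 := fun a b h => by
    rw [show 4 = 2 * 2 from rfl, pow_mul, pow_two (W a b), WW, D_pow, mul_comm b, pow_two, pm h, D1]
  have h2 : ∀ x : T, x ^ 2 ^ (m + 2) = 1 := fun x => Subtype.ext (by
    obtain ⟨a, b, h, e | e⟩ := (hT _).1 x.2 <;> rw [Subgroup.coe_pow, e]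
    · rw [pow_add, pow_mul, D_pow, u1, u1, D1, one_pow]; rfl
    · rw [pow_add, mul_comm, pow_mul, show 2 ^ 2 = 4 from rfl, w4 a b h, one_pow]; rfl)
  have fin : (∀ x : T, (∃ a b, x.1 = D a b) → α x = x) → α = 1 := fun h => by
    ext1 y
    obtain ⟨a, b, -, e | e⟩ := (hT _).1 y.2
    · exact h y ⟨a, b, e⟩
    obtain ⟨c, d, -, e' | e'⟩ := (hT _).1 (α y).2
    · exact α.injective (h _ ⟨c, d, e'⟩)
    · exact fix_of hr hα h2 (h _ ⟨_, _, by rw [Subgroup.coe_mul, Subgroup.coe_inv, e, e', W_inv, WW]⟩)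
  rcases m with _ | _ | _ | m
  · refine fin fun x ⟨a, b, e⟩ => ?_
    have : x = 1 := Subtype.ext (by rw [e, show a = 1 by simpa using u1 a, show b = 1 by simpa using u1 b, D1]; rfl)
    rw [this, map_one]
  · have u2 : ∀ a : Fˣ, a = 1 ∨ a = -1 := fun a => by
      have := congrArg Units.val (u1 a)
      rw [Units.val_pow_eq_pow_val, Units.val_one, zero_add, pow_one, sq_eq_one_iff] at this
      exact this.imp Units.ext Units.ext
    have n1 : (1 : Fˣ) ≠ -1 := fun e => by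
      have : g = 1 := by rcases u2 g with h | h; exacts [h, h.trans e.symm]
      simp [this] at hg
    let w : T := ⟨W 1 (-1), (hT _).2 ⟨_, _, by simp, Or.inr rfl⟩⟩
    have hw : α w = w := by
      have h3 : α w * α w ≠ 1 := fun e => by
        rw [← map_mul, MulEquiv.map_eq_one_iff] at e
        have := congrArg Subtype.val e
        simp only [w, Subgroup.coe_mul, WW, Subgroup.coe_one, ← D1] at this
        exact n1 (by simpa using (D_inj this).1.symm)
      obtain ⟨a, b, -, e | e⟩ := (hT _).1 (α w).2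
      · exact absurd (Subtype.ext (by rw [Subgroup.coe_mul, e, DD, pm (u2 a), pm (u2 b), D1]; rfl)) h3
      · rcases u2 a with rfl | rfl <;> rcases u2 b with rfl | rfl
        · exact absurd (Subtype.ext (by rw [Subgroup.coe_mul, e, WW]; simp [D1])) h3
        · exact Subtype.ext e
        · exact cyc hr hα h2 3 (Subtype.ext (by rw [e]; simp [w, pow_succ, WW, DW]))
        · exact absurd (Subtype.ext (by rw [Subgroup.coe_mul, e, WW]; simp [D1])) h3
    have hs : ∀ x : T, (∃ a, x.1 = D a a ∨ x.1 = W a (-a)) → α x = x := fun x ⟨a, e⟩ => by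
      have : ∃ k : ℕ, x = w ^ k := by
        rcases u2 a with rfl | rfl <;> rcases e with e | e
        · exact ⟨0, Subtype.ext (by rw [e]; simp [D1])⟩
        · exact ⟨1, Subtype.ext (by rw [e]; simp [w])⟩
        · exact ⟨2, Subtype.ext (by rw [e]; simp [w, pow_succ, WW])⟩
        · exact ⟨3, Subtype.ext (by rw [e]; simp [w, pow_succ, WW, DW])⟩
      obtain ⟨k, rfl⟩ := this
      rw [map_pow, hw]
    refine fin fun x ⟨a, b, e⟩ => ?_
    have u3 : ∀ a b : Fˣ, b = a ∨ b = -a := fun a b => by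
      rcases u2 a with rfl | rfl <;> rcases u2 b with rfl | rfl <;> simp
    rcases u3 a b with rfl | rfl
    · exact hs x ⟨_, Or.inl e⟩
    obtain ⟨c, d, -, e' | e'⟩ := (hT _).1 (α x).2 <;> rcases u3 c d with rfl | rfl
    · exact α.injective (hs _ ⟨_, Or.inl e'⟩)
    · exact fix_of hr hα h2 (hs _ ⟨a⁻¹ * c, Or.inl (by rw [Subgroup.coe_mul, Subgroup.coe_inv, e, e', D_inv, DD]; simp)⟩)
    · exact fix_of hr hα h2 (hs _ ⟨-(a⁻¹ * d), Or.inr (by rw [Subgroup.coe_mul, Subgroup.coe_inv, e, e', D_inv, DW]; simp)⟩)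
    · exact α.injective (hs _ ⟨_, Or.inr e'⟩)
  · exact absurd rfl hm
  have hp : 0 < 2 ^ m := by positivity
  have g4 : g ^ 4 ≠ 1 := pow_ne_one_of_lt_orderOf (by omega) (by rw [hg]; simp only [pow_succ]; omega)
  let d : T := ⟨D g g⁻¹, (hT _).2 ⟨_, _, by simp, Or.inl rfl⟩⟩
  have hA : ∀ y : T, (∃ a b, y.1 = D a b) → ∃ a b, (a * b = 1 ∨ a * b = -1) ∧ (α y).1 = D a b := fun y ⟨a, b, e⟩ => by
    have h3 : y * α.symm d = α.symm d * y := by
      obtain ⟨c, c', h, e' | e'⟩ := (hT _).1 (α.symm d).2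
      · exact Subtype.ext (by simp only [Subgroup.coe_mul, e, e', DD, mul_comm])
      · have : α.symm d ^ 4 = 1 := Subtype.ext (by rw [Subgroup.coe_pow, e', w4 _ _ h]; rfl)
        rw [← map_pow, MulEquiv.map_eq_one_iff] at this
        have := congrArg Subtype.val this
        simp only [d, Subgroup.coe_pow, D_pow, Subgroup.coe_one, ← D1] at this
        exact absurd (D_inj this).1 g4
    obtain ⟨c, c', h, e' | e'⟩ := (hT _).1 (α y).2
    · exact ⟨c, c', h, e'⟩
    · have := congrArg (fun x => (α x).1) h3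
      simp only [map_mul, MulEquiv.apply_symm_apply, Subgroup.coe_mul, e', d, WD, DW] at this
      have h4 := (W_inj this).1
      rw [mul_comm, mul_left_inj, eq_inv_iff_mul_eq_one] at h4
      exact absurd (by rw [show g ^ 4 = g * g * (g * g) by simp [pow_succ, mul_assoc], h4, one_mul]) g4
  have hd : α (d ^ 2) = d ^ 2 := by
    obtain ⟨a, b, h, e⟩ := hA d ⟨_, _, rfl⟩
    obtain ⟨k, rfl⟩ := gen a
    refine cyc hr hα h2 k (Subtype.ext ?_)
    rw [map_pow, Subgroup.coe_pow, e, ← pow_mul, Subgroup.coe_pow]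
    simp only [d, D_pow]
    congr 1
    · rw [← pow_mul, mul_comm]
    · rw [inv_pow, eq_inv_iff_mul_eq_one, mul_comm 2, pow_mul, ← mul_pow, mul_comm, pow_two, pm h]
  have hi : (g ^ (2 ^ m * 2)) * g ^ (2 ^ m * 2) = -1 := by
    have h1 : g ^ (2 ^ m * 4) ≠ 1 := pow_ne_one_of_lt_orderOf (by omega) (by rw [hg]; simp only [pow_succ]; omega)
    have h3 : (g ^ (2 ^ m * 4)) ^ 2 = 1 := by rw [← pow_mul, ← u1 g]; congr 1; ring
    rw [← pow_add, ← mul_add]
    have := congrArg Units.val h3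
    rw [Units.val_pow_eq_pow_val, Units.val_one, sq_eq_one_iff] at this
    exact Units.ext (this.resolve_left fun e => h1 (Units.ext e))
  generalize hj : g ^ 2 ^ m = j at hi
  rw [pow_mul, hj] at hi
  let z : T := ⟨D (j ^ 2) (j ^ 2), (hT _).2 ⟨_, _, Or.inr hi, Or.inl rfl⟩⟩
  have hz : α z = z := by
    obtain ⟨a, b, h, e⟩ := hA z ⟨_, _, rfl⟩
    let w : T := ⟨W 1 1, (hT _).2 ⟨_, _, by simp, Or.inr rfl⟩⟩
    have h3 : z * α.symm w = α.symm w * z := by
      obtain ⟨c, c', -, e' | e'⟩ := (hT _).1 (α.symm w).2 <;>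
        exact Subtype.ext (by simp only [Subgroup.coe_mul, z, e', DD, DW, WD, mul_comm])
    have := congrArg (fun x => (α x).1) h3
    simp only [map_mul, MulEquiv.apply_symm_apply, Subgroup.coe_mul, e, w, WD, DW, mul_one, one_mul] at this
    obtain rfl := (W_inj this).1
    have : ∃ k : ℕ, b = (j ^ 2) ^ k := by
      rcases h with h | h
      · rcases mul_self_eq_one_iff.1 (show (b : F) * b = 1 from congrArg Units.val h) with h | h
        · exact ⟨0, Units.ext (by simpa using h)⟩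
        · exact ⟨2, by rw [pow_two (j ^ 2), hi]; exact Units.ext h⟩
      · rw [← hi] at h
        rcases mul_self_eq_mul_self_iff.1 (show (b : F) * b = (j ^ 2 : Fˣ) * (j ^ 2 : Fˣ) by exact_mod_cast h) with h | h
        · exact ⟨1, Units.ext (by simpa using h)⟩
        · exact ⟨3, by rw [pow_three, hi]; exact Units.ext (by simpa using h)⟩
    obtain ⟨k, rfl⟩ := this
    exact cyc hr hα h2 k (Subtype.ext (by rw [e, Subgroup.coe_pow]; simp only [z, D_pow]))
  have hs : ∀ (x : T) (a b : Fˣ), x.1 = D (a ^ 2) b → α x = x := fun x a b e => by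
    have k1 : ∀ (x : T) (a : Fˣ), x.1 = D (a ^ 2) (a ^ 2)⁻¹ → α x = x := fun x a e => by
      obtain ⟨k, rfl⟩ := gen a
      have : x = (d ^ 2) ^ k := Subtype.ext (by
        simp only [e, d, Subgroup.coe_pow, D_pow, inv_pow, ← pow_mul, mul_comm])
      rw [this, map_pow, hd]
    obtain ⟨c, c', h, e' | e'⟩ := (hT _).1 x.2
    · obtain ⟨rfl, rfl⟩ := D_inj (e.symm.trans e')
      rcases h with h | h
      · exact k1 x a (by rw [e, eq_inv_of_mul_eq_one_right h])
      · have := k1 (z⁻¹ * x) (j⁻¹ * a) (by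
          rw [Subgroup.coe_mul, Subgroup.coe_inv, e, D_inv, DD, mul_pow, inv_pow]
          congr 1
          rw [eq_inv_iff_mul_eq_one, mul_mul_mul_comm, ← mul_inv, hi, mul_comm b, h]; simp)
        rwa [map_mul, map_inv, hz, mul_right_inj] at this
    · have := LinearEquiv.congr_fun (e.symm.trans e') ![1, 0]
      simp [D_ap, W_ap] at this
  refine fin fun x ⟨a, b, e⟩ => ?_
  obtain ⟨c, c', -, e'⟩ := hA x ⟨a, b, e⟩
  obtain ⟨k, rfl⟩ := gen a
  obtain ⟨l, rfl⟩ := gen c
  obtain ⟨k, rfl | rfl⟩ := Nat.even_or_odd' k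
  · exact hs x (g ^ k) b (by rw [e, ← pow_mul, mul_comm])
  obtain ⟨l, rfl | rfl⟩ := Nat.even_or_odd' l
  · exact α.injective (hs _ (g ^ l) c' (by rw [e', ← pow_mul, mul_comm]))
  · exact fix_of hr hα h2 (hs _ ((g ^ k)⁻¹ * g ^ l) (b⁻¹ * c') (by
      rw [Subgroup.coe_mul, Subgroup.coe_inv, e, e', D_inv, DD]
      congr 1
      group))

/-- Let q = 2^m + 1 be a prime other than 5. Then the automorphism group of the group of linear maps of F_q² of the forms (x, y) ↦ (a x, ± a⁻¹ y) and (x, y) ↦ (± a⁻¹ y, a x) with a ≠ 0 is itself a 2-group. -/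
theorem result (q m : ℕ) [Fact q.Prime] (hq : q = 2 ^ m + 1) (hq5 : q ≠ 5)
    (T : Subgroup ((Fin 2 → ZMod q) ≃ₗ[ZMod q] (Fin 2 → ZMod q)))
    (hT : ∀ f, f ∈ T ↔ ∃ a s : ZMod q, a ≠ 0 ∧ (s = 1 ∨ s = -1) ∧
      ((∀ v, f v = ![a * v 0, s * a⁻¹ * v 1]) ∨ (∀ v, f v = ![s * a⁻¹ * v 1, a * v 0]))) :
    IsPGroup 2 (MulAut T) := by
  obtain ⟨g, hg⟩ := IsCyclic.exists_monoid_generator (α := (ZMod q)ˣ)
  have ho : orderOf g = 2 ^ m := by
    rw [orderOf_eq_card_of_forall_mem_powers hg, Nat.card_units, Nat.card_zmod, hq]; simp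
  haveI : Finite ((Fin 2 → ZMod q) ≃ₗ[ZMod q] (Fin 2 → ZMod q)) := Finite.of_injective _ DFunLike.coe_injective
  haveI : Finite (MulAut T) := Finite.of_injective _ DFunLike.coe_injective
  intro α
  obtain ⟨k, r, hr, e⟩ := Nat.exists_eq_two_pow_mul_odd (orderOf_pos α).ne'
  refine ⟨k, main (m := m) (by rintro rfl; exact hq5 hq) ho (fun a => ?_) T (fun f => ?_) hr
    (by rw [← pow_mul, ← e, pow_orderOf_eq_one])⟩
  · obtain ⟨k, hk⟩ := hg a
    exact ⟨k, hk.symm⟩
  · rw [hT]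
    constructor
    · rintro ⟨a, s, ha, hs, h⟩
      have hs0 : s ≠ 0 := by rcases hs with rfl | rfl <;> simp
      refine ⟨Units.mk0 a ha, Units.mk0 (s * a⁻¹) (mul_ne_zero hs0 (inv_ne_zero ha)), ?_,
        h.imp (fun h => LinearEquiv.ext h) fun h => LinearEquiv.ext h⟩
      rcases hs with rfl | rfl <;> simp [Units.ext_iff, ha]
    · rintro ⟨a, b, h, h'⟩
      refine ⟨a, a * b, a.ne_zero, h.imp (fun h => congrArg Units.val h) fun h => ?_, ?_⟩
      · have := congrArg Units.val h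
        simpa using this
      · have : (a : ZMod q) * b * (a : ZMod q)⁻¹ = b := by field_simp
        rw [this]
        exact h'.imp (fun h v => by rw [h, D_ap]) fun h v => by rw [h, W_ap]

end Cfsg.Agent.S3382
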