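import Cfsg.Statements.S3383
import Cfsg.Agent.FG.PrimeGraph

set_option autoImplicit false
open Cfsg

namespace Cfsg.Agent.S3383

open Cfsg.Agent.BG Cfsg.Agent.FG Subgroup

/-- Let H be a Frobenius complement in a finite group L and K the Frobenius kernel (as a subgroup). Then K is characteristic in L, and every normal subgroup of L either contains K or is contained in K. -/
theorem result {L : Type*} [Group L] [Finite L]
    (H : Subgroup L) (hH : Cfsg.IsFrobeniusComplement H)
    (K : Subgroup L) (hK : (K : Set L) = Cfsg.frobeniusKernel H) :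
    K.Characteristic ∧ ∀ N : Subgroup L, N.Normal → K ≤ N ∨ N ≤ K := by
  have h := frob_of_isFC hH hK.symm
  refine ⟨characteristic_iff_map_le.2 fun φ => sub_normal_Hall (Frobenius_ker_Hall h) h.normal le_top ?_,
    fun N hN => (sub_normal_Frobenius h (normal_top_iff.2 hN)).symm⟩
  exact pgroup_map _ (Frobenius_ker_Hall h).pi

end Cfsg.Agent.S3383
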