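import Cfsg.Statements.S3419
import Cfsg.Agent.Solv.Hall
import Cfsg.Agent.Gen2.TwoPrimes

set_option autoImplicit false
open Cfsg

namespace Cfsg.Agent.S3419

open Subgroup

theorem key0 {H : Type*} [Group H] [Finite H] {p q a : ℕ} (hp : p.Prime) (hq : q.Prime) (hpq : p ≠ q) (ha : 1 ≤ a)
    (hH : Nat.card H = p ^ a * q) (hi : ∀ i, 1 ≤ i → i ≤ a → p ^ i % q ≠ 1) (hd : ¬ p ∣ q - 1) : ∃ g : H, orderOf g = p * q := by
  haveI := Fact.mk hp
  haveI := Fact.mk hq
  obtain ⟨y, hy⟩ := exists_prime_orderOf_dvd_card' (G := H) q (by rw [hH]; exact dvd_mul_left _ _)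
  obtain ⟨x, hx⟩ := exists_prime_orderOf_dvd_card' (G := H) p (by rw [hH]; exact (dvd_pow_self p (by omega)).mul_right _)
  have hc : Nat.card (zpowers y) = q := by rw [Nat.card_zpowers, hy]
  have hind : (zpowers y).index = p ^ a := by
    have := (zpowers y).index_mul_card
    rw [hc, hH] at this
    exact Nat.eq_of_mul_eq_mul_right hq.pos this
  let Q : Sylow q H := (IsPGroup.of_card (n := 1) (by rw [hc, pow_one])).toSylow (P := zpowers y) (by
    rw [hind]
    exact fun h => hpq ((Nat.prime_dvd_prime_iff_eq hq hp).mp (hq.dvd_of_dvd_pow h)).symm)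
  have h1 : Nat.card (Sylow q H) ∣ p ^ a := hind ▸ Q.card_dvd_index
  obtain ⟨i, hia, h2⟩ := (Nat.dvd_prime_pow hp).mp h1
  have h3 := card_sylow_modEq_one q H
  rw [h2] at h3
  have h4 : i = 0 := by
    by_contra h
    exact hi i (by omega) hia (by rw [h3]; exact Nat.mod_eq_of_lt hq.one_lt)
  rw [h4, pow_zero] at h2
  haveI : Subsingleton (Sylow q H) := (Nat.card_eq_one_iff_unique.mp h2).1
  haveI hn : (zpowers y).Normal := Sylow.normal_of_subsingleton Q
  have h5 : orderOf (MulAut.conjNormal (H := zpowers y) x) = 1 := by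
    have e1 : orderOf (MulAut.conjNormal (H := zpowers y) x) ∣ p := hx ▸ orderOf_map_dvd _ x
    have e2 := orderOf_dvd_natCard (MulAut.conjNormal (H := zpowers y) x)
    rw [IsCyclic.card_mulAut, hc, Nat.totient_prime hq] at e2
    rcases (Nat.dvd_prime hp).mp e1 with h | h
    · exact h
    · exact absurd (h ▸ e2) hd
  rw [orderOf_eq_one_iff] at h5
  have h6 : x * y * x⁻¹ = y := by
    have := congrArg (fun f : MulAut (zpowers y) => (f ⟨y, mem_zpowers y⟩ : H)) h5
    simpa using this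
  have h7 : Commute x y := by rw [mul_inv_eq_iff_eq_mul] at h6; exact h6
  refine ⟨x * y, ?_⟩
  rw [h7.orderOf_mul_eq_mul_orderOf_of_coprime (by rw [hx, hy]; exact (Nat.coprime_primes hp hq).mpr hpq), hx, hy]

theorem key {G : Type*} [Group G] [Finite G] [Group.IsSolvable G] {p q a r : ℕ} (hp : p.Prime) (hq : q.Prime) (hpq : p ≠ q)
    (ha : 1 ≤ a) (hG : Nat.card G = p ^ a * q * r) (hr : (p ^ a * q).Coprime r) (hi : ∀ i, 1 ≤ i → i ≤ a → p ^ i % q ≠ 1)
    (hd : ¬ p ∣ q - 1) : ∃ g : G, orderOf g = p * q := by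
  obtain ⟨H, hH⟩ := (Solv.HallOK.of_isSolvable {s | s ∣ p ^ a * q} G).exists_hall
  obtain ⟨g, hg⟩ := key0 hp hq hpq ha ((Solv.isPiHall_iff_card_eq hG hr).mp hH) hi hd
  exact ⟨g, by rw [Subgroup.orderOf_coe, hg]⟩

theorem perm_le {n p q : ℕ} (hp : p.Prime) (hq : q.Prime) (hpq : p ≠ q) (σ : Equiv.Perm (Fin n)) (h : orderOf σ = p * q) :
    p + q ≤ n := by
  have h0 : p * q ∣ σ.cycleType.prod := by
    rw [← h, ← Equiv.Perm.lcm_cycleType]
    exact Multiset.lcm_dvd.mpr fun b hb => Multiset.dvd_prod hb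
  obtain ⟨a, ha, hpa⟩ := hp.prime.exists_mem_multiset_dvd ((dvd_mul_right p q).trans h0)
  obtain ⟨b, hb, hqb⟩ := hq.prime.exists_mem_multiset_dvd ((dvd_mul_left q p).trans h0)
  have hs : σ.cycleType.sum ≤ n := by
    rw [Equiv.Perm.sum_cycleType]
    simpa using σ.support.card_le_univ
  have ha0 := Equiv.Perm.two_le_of_mem_cycleType ha
  have hb0 := Equiv.Perm.two_le_of_mem_cycleType hb
  by_cases hab : a = b
  · subst hab
    have h1 := Nat.le_of_dvd (by omega) (((Nat.coprime_primes hp hq).mpr hpq).mul_dvd_of_dvd_of_dvd hpa hqb)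
    have h2 := Multiset.le_sum_of_mem ha
    have h3 := hp.two_le
    have h4 := hq.two_le
    nlinarith
  · obtain ⟨t, ht⟩ := Multiset.exists_cons_of_mem ha
    rw [ht, Multiset.mem_cons] at hb
    rw [ht, Multiset.sum_cons] at hs
    have h2 := Multiset.le_sum_of_mem (hb.resolve_left (Ne.symm hab))
    have := Nat.le_of_dvd (by omega) hpa
    have := Nat.le_of_dvd (by omega) hqb
    omega

theorem not_sq {p n : ℕ} (hp : p.Prime) (h : n < 2 * p) : ¬ p ^ 2 ∣ n.factorial := by
  have h2 := hp.two_le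
  rw [hp.pow_dvd_factorial_iff (b := 2) (Nat.log_lt_of_lt_pow' (by omega) (by nlinarith))]
  have : n / p < 2 := (Nat.div_lt_iff_lt_mul hp.pos).mpr h
  simp
  omega

theorem two_primes {n : ℕ} (hn : 5 ≤ n) (h6 : n ≠ 6) (h10 : n ≠ 10) :
    ∃ p q : ℕ, p.Prime ∧ q.Prime ∧ n < 2 * p ∧ p + 2 ≤ q ∧ q ≤ n := by
  by_cases h : 17 ≤ n
  · obtain ⟨p, q, h1, h2, h3, h4, h5⟩ := Gen2.exists_two_primes h
    exact ⟨p, q, h1, h2, h3, by omega, h5⟩
  by_cases h : 13 ≤ n
  · exact ⟨11, 13, by norm_num, by norm_num, by omega, by omega, h⟩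
  by_cases h : 11 ≤ n
  · exact ⟨7, 11, by norm_num, by norm_num, by omega, by omega, h⟩
  by_cases h : 7 ≤ n
  · exact ⟨5, 7, by norm_num, by norm_num, by omega, by omega, h⟩
  exact ⟨3, 5, by norm_num, by norm_num, by omega, by omega, hn⟩

/-- Let n ≥ 5 and let G be a finite group with the same order and the same set of element orders as the alternating group of degree n. Then G is not solvable. -/
theorem result {G : Type*} [Group G] [Finite G] (n : ℕ) (hn : 5 ≤ n)
    (hcard : Nat.card G = Nat.card ↥(alternatingGroup (Fin n)))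
    (hspec : Set.range (orderOf : G → ℕ) = Set.range (orderOf : ↥(alternatingGroup (Fin n)) → ℕ)) :
    ¬ Group.IsSolvable G := by
  intro hs
  haveI : Nontrivial (Fin n) := Fin.nontrivial_iff_two_le.mpr (by omega)
  have hc : 2 * Nat.card G = n.factorial := by
    rw [hcard, two_mul_nat_card_alternatingGroup, Nat.card_perm, Nat.card_eq_fintype_card, Fintype.card_fin]
  have fin : ∀ {p q : ℕ}, p.Prime → q.Prime → p ≠ q → n < p + q → ¬ ∃ g : G, orderOf g = p * q := by
    rintro p q hp hq hpq hlt ⟨g, hg⟩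
    obtain ⟨σ, hσ⟩ : p * q ∈ Set.range (orderOf : ↥(alternatingGroup (Fin n)) → ℕ) := hspec ▸ ⟨g, hg⟩
    have := perm_le hp hq hpq σ.1 (by rw [Subgroup.orderOf_coe, hσ])
    omega
  by_cases h6 : n = 6
  · subst h6
    refine fin (p := 3) (q := 5) (by norm_num) (by norm_num) (by norm_num) (by norm_num)
      (key (a := 2) (r := 8) (by norm_num) (by norm_num) (by norm_num) (by norm_num) ?_ (by norm_num) ?_ (by norm_num))
    · simp only [Nat.factorial] at hc; omega
    · intro i h1 h2; interval_cases i <;> norm_num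
  by_cases h10 : n = 10
  · subst h10
    refine fin (p := 5) (q := 7) (by norm_num) (by norm_num) (by norm_num) (by norm_num)
      (key (a := 2) (r := 10368) (by norm_num) (by norm_num) (by norm_num) (by norm_num) ?_ (by norm_num) ?_ (by norm_num))
    · simp only [Nat.factorial] at hc; omega
    · intro i h1 h2; interval_cases i <;> norm_num
  obtain ⟨p, q, hp, hq, h1, h2, h3⟩ := two_primes hn h6 h10
  have hpq : p ≠ q := by omega
  have hdv : ∀ s : ℕ, s.Prime → 3 ≤ s → s ≤ n → s ∣ Nat.card G := fun s hs h3 hsn => by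
    have := hs.dvd_factorial.mpr hsn
    rw [← hc] at this
    exact (Nat.Coprime.dvd_mul_left ((Nat.coprime_primes hs Nat.prime_two).mpr (by omega))).mp this
  obtain ⟨r, hr⟩ := ((Nat.coprime_primes hp hq).mpr hpq).mul_dvd_of_dvd_of_dvd (hdv p hp (by omega) (by omega))
    (hdv q hq (by omega) h3)
  refine fin hp hq hpq (by omega) (key (a := 1) (r := r) hp hq hpq le_rfl (by rw [pow_one, hr]) ?_ ?_ ?_)
  · rw [pow_one]
    refine Nat.Coprime.mul_left (hp.coprime_iff_not_dvd.mpr ?_) (hq.coprime_iff_not_dvd.mpr ?_)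
    · rintro ⟨k, rfl⟩
      exact not_sq hp h1 ⟨2 * q * k, by rw [← hc, hr]; ring⟩
    · rintro ⟨k, rfl⟩
      exact not_sq hq (n := n) (by omega) ⟨2 * p * k, by rw [← hc, hr]; ring⟩
  · intro i h4 h5
    have : i = 1 := by omega
    rw [this, pow_one, Nat.mod_eq_of_lt (by omega)]
    exact hp.one_lt.ne'
  · rintro ⟨k, hk⟩
    rcases k with _ | _ | k
    · omega
    · omega
    · have : p * (k + 1 + 1) = 2 * p + p * k := by ring
      omega

end Cfsg.Agent.S3419
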