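import Cfsg.Statements.S3420
import Cfsg.Agent.Solv.Core
import Cfsg.Agent.Gen2.TwoPrimes

set_option autoImplicit false
open Cfsg

namespace Cfsg.Agent.S3420

open Subgroup

theorem mem_cycleType {n p : ℕ} (hp : p.Prime) (h : n < 2 * p) {σ : Equiv.Perm (Fin n)}
    (hd : p ∣ orderOf σ) : p ∈ σ.cycleType := by
  rw [← Equiv.Perm.lcm_cycleType] at hd
  obtain ⟨c, hc, k, rfl⟩ := hp.prime.exists_mem_multiset_dvd
    (hd.trans (Multiset.lcm_dvd.mpr fun b hb => Multiset.dvd_prod hb))
  have h1 := Equiv.Perm.two_le_of_mem_cycleType hc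
  have h2 := (Multiset.le_sum_of_mem hc).trans σ.sum_cycleType_le
  rw [Fintype.card_fin] at h2
  rcases k with _ | _ | k
  · omega
  · simpa using hc
  · nlinarith

theorem no_order {n p q : ℕ} (hp : p.Prime) (hq : q.Prime) (hpq : p ≠ q) (h : n < 2 * p)
    (h' : n < 2 * q) (σ : Equiv.Perm (Fin n)) : orderOf σ ≠ p * q := by
  intro e
  have h1 := mem_cycleType hp h (e ▸ dvd_mul_right p q)
  have h2 := mem_cycleType hq h' (e ▸ dvd_mul_left q p)
  obtain ⟨s, hs⟩ := Multiset.exists_cons_of_mem h1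
  rw [hs] at h2
  have h3 := Multiset.le_sum_of_mem ((Multiset.mem_cons.mp h2).resolve_left hpq.symm)
  have h4 := σ.sum_cycleType_le
  rw [hs, Multiset.sum_cons, Fintype.card_fin] at h4
  omega

theorem not_sq_dvd {n p : ℕ} (hp : p.Prime) (h : n < 2 * p) : ¬ p * p ∣ n.factorial := by
  induction n with
  | zero => simpa using hp.one_lt.ne'
  | succ n ih =>
    intro hd
    rw [Nat.factorial_succ] at hd
    by_cases h1 : p ∣ n + 1
    · obtain ⟨k, hk⟩ := h1
      have hk1 : k = 1 := by
        rcases k with _ | _ | k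
        · omega
        · rfl
        · nlinarith
      rw [hk, hk1, mul_one] at hd
      have := hp.dvd_factorial.mp (Nat.dvd_of_mul_dvd_mul_left hp.pos hd)
      rw [hk1] at hk
      omega
    · have := (hp.coprime_iff_not_dvd.mpr h1)
      exact ih (by omega) ((Nat.Coprime.mul_left this this).dvd_of_dvd_mul_left hd)

theorem key {G : Type*} [Group G] [Finite G] {p q : ℕ} (hp : p.Prime) (hq : q.Prime)
    (hpq : p ≠ q) (h2 : ¬ p * p ∣ Nat.card G) (hqG : q ∣ Nat.card G) (hqp : ¬ q ∣ p - 1)
    (hno : ∀ g : G, orderOf g ≠ p * q) (M : Subgroup G) [M.Normal] (hM : p ∣ Nat.card M) :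
    q ∣ Nat.card M := by
  by_contra hqM
  have : Fact p.Prime := ⟨hp⟩
  have : Fact q.Prime := ⟨hq⟩
  obtain ⟨P⟩ : Nonempty (Sylow p M) := inferInstance
  have h1 := P.normalizer_sup_eq_top
  set R := (P : Subgroup M).map M.subtype with hR
  have hRc : Nat.card R = p := by
    rw [hR, card_map_of_injective M.subtype_injective]
    obtain ⟨k, hk⟩ := IsPGroup.iff_card.mp P.isPGroup'
    have h3 := P.pow_dvd_card_of_pow_dvd_card (n := 1) (by rwa [pow_one])
    have h4 : ¬ p ^ 2 ∣ p ^ k := fun h => h2 (by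
      rw [← hk, sq] at h
      exact h.trans ((card_subgroup_dvd_card _).trans (card_subgroup_dvd_card M)))
    rw [hk, Nat.pow_dvd_pow_iff_le_right hp.one_lt] at h3
    rw [Nat.pow_dvd_pow_iff_le_right hp.one_lt] at h4
    rw [hk, show k = 1 by omega, pow_one]
  have h3 := Solv.card_sup_dvd (N := M) (H := normalizer (R : Set G)) le_normalizer_of_normal
  rw [sup_comm, h1, card_top] at h3
  obtain ⟨y, hy⟩ := exists_prime_orderOf_dvd_card' q
    (((Nat.Prime.dvd_mul hq).mp (hqG.trans h3)).resolve_left hqM)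
  have hcyc : IsCyclic R := isCyclic_of_prime_card hRc
  have h4 : R.normalizerMonoidHom y = 1 := by
    have a1 := orderOf_map_dvd R.normalizerMonoidHom y
    have a2 := orderOf_dvd_natCard (R.normalizerMonoidHom y)
    rw [IsCyclic.card_mulAut, hRc, Nat.totient_prime hp] at a2
    rw [hy] at a1
    rcases (Nat.dvd_prime hq).mp a1 with h | h
    · exact orderOf_eq_one_iff.mp h
    · exact absurd (h ▸ a2) hqp
  have h5 : y ∈ R.normalizerMonoidHom.ker := h4
  rw [normalizerMonoidHom_ker] at h5
  obtain ⟨x, hx⟩ := exists_prime_orderOf_dvd_card' (G := R) p hRc.symm.dvd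
  have h6 : Commute (x : G) (y : G) := h5 x x.2
  refine hno (x * y) ?_
  rw [h6.orderOf_mul_eq_mul_orderOf_of_coprime] <;> rw [orderOf_coe, orderOf_coe, hx, hy]
  exact (Nat.coprime_primes hp hq).mpr hpq

/-- Let n ≥ 11 and let G be a finite group with the same order and the same set of element orders as the alternating group of degree n. Then G has normal subgroups N < H such that H/N is a non-abelian simple group whose order is divisible by every prime p with n/2 < p ≤ n. -/
theorem result {G : Type*} [Group G] [Finite G] (n : ℕ) (hn : 11 ≤ n)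
    (hcard : Nat.card G = Nat.card ↥(alternatingGroup (Fin n)))
    (hspec : Set.range (orderOf : G → ℕ) = Set.range (orderOf : ↥(alternatingGroup (Fin n)) → ℕ)) :
    ∃ (N H : Subgroup G) (_ : N.Normal), H.Normal ∧ N < H ∧
      IsSimpleGroup (↥H ⧸ N.subgroupOf H) ∧ ¬ IsMulCommutative (↥H ⧸ N.subgroupOf H) ∧
      ∀ p : ℕ, p.Prime → n < 2 * p → p ≤ n → p ∣ Nat.card (↥H ⧸ N.subgroupOf H) := by
  have hA : 2 * Nat.card G = n.factorial := by
    have : Nontrivial (Fin n) := Fin.nontrivial_iff_two_le.mpr (by omega)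
    rw [hcard, two_mul_nat_card_alternatingGroup, Nat.card_perm, Nat.card_eq_fintype_card,
      Fintype.card_fin]
  have hsq : ∀ p : ℕ, p.Prime → n < 2 * p → ¬ p * p ∣ Nat.card G := fun p hp h hd =>
    not_sq_dvd hp h (hA ▸ hd.mul_left 2)
  have hdv : ∀ p : ℕ, p.Prime → n < 2 * p → p ≤ n → p ∣ Nat.card G := fun p hp h hle =>
    ((Nat.coprime_primes hp Nat.prime_two).mpr (by omega)).dvd_of_dvd_mul_left
      (hA ▸ hp.dvd_factorial.mpr hle)
  have hno : ∀ p q : ℕ, p.Prime → q.Prime → p ≠ q → n < 2 * p → n < 2 * q →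
      ∀ g : G, orderOf g ≠ p * q := fun p q hp hq hpq h h' g e => by
    obtain ⟨σ, hσ⟩ : orderOf g ∈ Set.range (orderOf : alternatingGroup (Fin n) → ℕ) :=
      hspec ▸ ⟨g, rfl⟩
    exact no_order hp hq hpq h h' σ (by rw [orderOf_coe, hσ, e])
  have hk : ∀ p q : ℕ, p.Prime → q.Prime → n < 2 * p → n < 2 * q → p ≤ n → q ≤ n →
      ∀ M : Subgroup G, M.Normal → p ∣ Nat.card M → q ∣ Nat.card M := by
    intro p q hp hq h h' l l' M _ hM
    by_cases hpq : p = q
    · exact hpq ▸ hM
    refine key hp hq hpq (hsq p hp h) (hdv q hq h' l') ?_ (hno p q hp hq hpq h h') M hM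
    rintro ⟨k, hk⟩
    have := hp.two_le
    rcases k with _ | _ | k
    · omega
    · rcases hq.eq_two_or_odd with h1 | h1 <;> rcases hp.eq_two_or_odd with h2 | h2 <;> omega
    · have : q * (k + 1 + 1) ≥ q * 2 := Nat.mul_le_mul_left _ (by omega)
      omega
  obtain ⟨p, q, hp, hq, hpq, h1, h2, h3, h4⟩ : ∃ p q : ℕ, p.Prime ∧ q.Prime ∧ p ≠ q ∧ n < 2 * p ∧
      n < 2 * q ∧ p ≤ n ∧ q ≤ n := by
    by_cases h : 17 ≤ n
    · obtain ⟨p, q, hp, hq, h1, h2, h3⟩ := Gen2.exists_two_primes h
      exact ⟨p, q, hp, hq, by omega, h1, by omega, by omega, h3⟩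
    · by_cases h' : 13 ≤ n
      · exact ⟨11, 13, by norm_num, by norm_num, by omega, by omega, by omega, by omega, h'⟩
      · exact ⟨7, 11, by norm_num, by norm_num, by omega, by omega, by omega, by omega, hn⟩
  have : Fact p.Prime := ⟨hp⟩
  have : Fact q.Prime := ⟨hq⟩
  set H := normalClosure {x : G | orderOf x = p} with hH
  have eN : ((pPrimeCore p H).map H.subtype).subgroupOf H = pPrimeCore p H :=
    comap_map_eq_self_of_injective H.subtype_injective _
  obtain ⟨x, hx⟩ := exists_prime_orderOf_dvd_card' p (hdv p hp h1 h3)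
  have hpH : p ∣ Nat.card H := hx ▸ orderOf_dvd_natCard H (subset_normalClosure hx)
  have hpN : ¬ p ∣ Nat.card ((pPrimeCore p H).map H.subtype) := by
    rw [card_map_of_injective H.subtype_injective]; exact Solv.not_dvd_card_pPrimeCore p H
  have hall : ∀ r : ℕ, r.Prime → n < 2 * r → r ≤ n →
      r ∣ Nat.card (H ⧸ ((pPrimeCore p H).map H.subtype).subgroupOf H) := by
    intro r hr a b
    have a1 := hk p r hp hr h1 a h3 b H inferInstance hpH
    have a2 : ¬ r ∣ Nat.card (((pPrimeCore p H).map H.subtype).subgroupOf H) := fun h => by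
      rw [Nat.card_congr (subgroupOfEquivOfLe (map_subtype_le _)).toEquiv] at h
      exact hpN (hk r p hr hp a h1 b h3 _ inferInstance h)
    rw [card_eq_card_quotient_mul_card_subgroup (((pPrimeCore p H).map H.subtype).subgroupOf H)]
      at a1
    exact ((Nat.Prime.dvd_mul hr).mp a1).resolve_right a2
  refine ⟨(pPrimeCore p H).map H.subtype, H, inferInstance, inferInstance,
    lt_of_le_of_ne (map_subtype_le _) fun e => hpN (e.symm ▸ hpH), ?_, fun hc => ?_, hall⟩
  · have : Nontrivial (H ⧸ ((pPrimeCore p H).map H.subtype).subgroupOf H) :=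
      Finite.one_lt_card_iff_nontrivial.mp (hp.one_lt.trans_le
        (Nat.le_of_dvd Nat.card_pos (hall p hp h1 h3)))
    refine ⟨fun W _ => ?_⟩
    set K := W.comap (QuotientGroup.mk' (((pPrimeCore p H).map H.subtype).subgroupOf H)) with hK
    have hW : W = K.map (QuotientGroup.mk' _) :=
      (map_comap_eq_self_of_surjective (QuotientGroup.mk'_surjective _) W).symm
    by_cases hpK : p ∣ Nat.card K
    · right
      have hi : ¬ p ∣ K.index := fun h => hsq p hp h1 ((Nat.mul_dvd_mul hpK h).trans (by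
        rw [card_mul_index]; exact card_subgroup_dvd_card H))
      have hall' : ∀ y : H, orderOf y = p → y ∈ K := fun y hy => by
        rw [← QuotientGroup.eq_one_iff, ← orderOf_eq_one_iff]
        have a1 := orderOf_map_dvd (QuotientGroup.mk' K) y
        rw [hy] at a1
        exact ((Nat.dvd_prime hp).mp a1).resolve_right fun h => hi (h ▸ orderOf_dvd_natCard _)
      have : H ≤ K.map H.subtype := by
        refine (closure_le _).mpr fun y hy => ?_
        have hyH : y ∈ H := subset_closure hy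
        obtain ⟨z, hz, hc⟩ := Group.mem_conjugatesOfSet_iff.mp hy
        refine ⟨⟨y, hyH⟩, hall' _ ?_, rfl⟩
        rw [← orderOf_coe]
        obtain ⟨c, rfl⟩ := isConj_iff.mp hc
        exact (orderOf_injective (MulAut.conj c).toMonoidHom (MulAut.conj c).injective z).trans hz
      have hK' : K = ⊤ := eq_top_iff.mpr fun y _ => by
        obtain ⟨z, hz, e⟩ := this y.2
        exact (Subtype.ext e : z = y) ▸ hz
      rw [hW, hK']
      exact map_top_of_surjective _ (QuotientGroup.mk'_surjective _)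
    · left
      rw [hW, Subgroup.map_eq_bot_iff, QuotientGroup.ker_mk', eN]
      exact Solv.le_pPrimeCore (hp.coprime_iff_not_dvd.mpr hpK).symm
  · obtain ⟨a, ha⟩ := exists_prime_orderOf_dvd_card' p (hall p hp h1 h3)
    obtain ⟨b, hb⟩ := exists_prime_orderOf_dvd_card' q (hall q hq h2 h4)
    have h5 : orderOf (a * b) = p * q := by
      rw [(show Commute a b from mul_comm' a b).orderOf_mul_eq_mul_orderOf_of_coprime] <;>
        rw [ha, hb]
      exact (Nat.coprime_primes hp hq).mpr hpq
    obtain ⟨c, hc⟩ := QuotientGroup.mk'_surjective _ (a * b)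
    have h6 := orderOf_map_dvd
      (QuotientGroup.mk' (((pPrimeCore p H).map H.subtype).subgroupOf H)) c
    rw [hc, h5, ← orderOf_coe] at h6
    exact hno p q hp hq hpq h1 h2 _ (orderOf_pow_orderOf_div (orderOf_pos _).ne' h6)

end Cfsg.Agent.S3420
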