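import Cfsg.Statements.S3430
import Cfsg.Agent.Num.Prim

set_option autoImplicit false
open Cfsg

namespace Cfsg.Agent.S3430

theorem small (q n p : ℕ) (hp : p.Prime) (h1 : (q ^ n - 1) % p = 0)
    (h2 : (List.range n).all (fun i => i == 0 || (q ^ i - 1) % p != 0) = true) (h3 : n + 1 < p) :
    ∃ p : ℕ, p.Prime ∧ p ∣ q ^ n - 1 ∧ (∀ i : ℕ, 1 ≤ i → i < n → ¬ p ∣ q ^ i - 1) ∧
      (n + 1 < p ∨ p ^ 2 ∣ q ^ n - 1) := by
  refine ⟨p, hp, Nat.dvd_of_mod_eq_zero h1, fun i hi hin hd => ?_, Or.inl h3⟩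
  have := List.all_eq_true.1 h2 i (List.mem_range.2 hin)
  simp only [Bool.or_eq_true, beq_iff_eq, bne_iff_ne] at this
  rcases this with h | h
  · omega
  · exact h (Nat.mod_eq_zero_of_dvd hd)

/-- Let q, n ≥ 2 be integers. Unless (n = 2 and q + 1 = 2^s·3^t for some s ≥ 0 and t ≤ 1), or (q = 2 and n ∈ {4, 6, 10, 12, 18}), or (q = 3 and n ∈ {4, 6}), or (q, n) = (5, 6), there is a prime p dividing q^n − 1 but no q^i − 1 with 1 ≤ i < n (a primitive prime divisor), such that p > n + 1 or p² divides q^n − 1. -/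
theorem result (q n : ℕ) (hq : 2 ≤ q) (hn : 2 ≤ n)
    (h1 : ¬ (n = 2 ∧ ∃ s t : ℕ, t ≤ 1 ∧ q + 1 = 2 ^ s * 3 ^ t))
    (h2 : ¬ (q = 2 ∧ (n = 4 ∨ n = 6 ∨ n = 10 ∨ n = 12 ∨ n = 18)))
    (h3 : ¬ (q = 3 ∧ (n = 4 ∨ n = 6))) (h4 : ¬ (q = 5 ∧ n = 6)) :
    ∃ p : ℕ, p.Prime ∧ p ∣ q ^ n - 1 ∧ (∀ i : ℕ, 1 ≤ i → i < n → ¬ p ∣ q ^ i - 1) ∧ (n + 1 < p ∨ p ^ 2 ∣ q ^ n - 1) := by
  have ha : 1 < q := hq
  rcases Nat.lt_or_ge 2 n with hn3 | hn2
  · by_cases hex : (q, n) ∈ Num.exc
    · simp only [Num.exc, List.mem_cons, Prod.mk.injEq, List.not_mem_nil, or_false] at hex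
      rcases hex with ⟨rfl, rfl⟩ | ⟨rfl, rfl⟩ | ⟨rfl, rfl⟩ | ⟨rfl, rfl⟩ | ⟨rfl, rfl⟩ | ⟨rfl, rfl⟩ | ⟨rfl, rfl⟩ |
        ⟨rfl, rfl⟩ | ⟨rfl, rfl⟩ | ⟨rfl, rfl⟩ | ⟨rfl, rfl⟩ | ⟨rfl, rfl⟩ | ⟨rfl, rfl⟩
      · simp at h2
      · simp at h2
      · simp at h2
      · simp at h2
      · simp at h2
      · simp at h3
      · simp at h3
      · simp at h4
      · exact small 2 3 7 (by norm_num) (by decide) (by decide) (by norm_num)
      · exact small 2 8 17 (by norm_num) (by decide) (by decide) (by norm_num)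
      · exact small 2 20 41 (by norm_num) (by decide) (by decide +kernel) (by norm_num)
      · exact small 4 3 7 (by norm_num) (by decide) (by decide) (by norm_num)
      · exact small 4 6 13 (by norm_num) (by decide) (by decide) (by norm_num)
    · obtain ⟨m, hm, hc, hge⟩ := Num.exists_prim ha hn3 hex
      have hprim : ∀ p : ℕ, p.Prime → p ∣ m → ∀ i : ℕ, 1 ≤ i → i < n → ¬ p ∣ q ^ i - 1 := by
        intro p hp hpm i hi hin hd
        have := Nat.dvd_gcd hpm hd
        rw [hc i hi hin] at this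
        exact hp.one_lt.ne' (Nat.dvd_one.1 this)
      by_contra hcon
      push Not at hcon
      have hall : ∀ {p : ℕ}, p.Prime → p ∣ m → p = n + 1 := by
        intro p hp hpm
        have hle := (hcon p hp (hpm.trans hm) (hprim p hp hpm)).1
        haveI : Fact p.Prime := ⟨hp⟩
        have ho : orderOf (q : ZMod p) ∣ n := (Num.dvd_pow_sub_one_iff_orderOf ha n).1 (hpm.trans hm)
        have ho0 : 0 < orderOf (q : ZMod p) := Nat.pos_of_dvd_of_pos ho (by omega)
        have hon : orderOf (q : ZMod p) = n := by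
          by_contra hne
          have hlt : orderOf (q : ZMod p) < n := lt_of_le_of_ne (Nat.le_of_dvd (by omega) ho) hne
          exact hprim p hp hpm _ ho0 hlt ((Num.dvd_pow_sub_one_iff_orderOf ha _).2 dvd_rfl)
        have hq0 : (q : ZMod p) ≠ 0 := by
          intro h0
          have := pow_orderOf_eq_one (q : ZMod p)
          rw [h0, zero_pow (by rw [← h0]; omega)] at this
          exact zero_ne_one this
        have h5 := ZMod.orderOf_dvd_card_sub_one hq0
        rw [hon] at h5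
        have := Nat.le_of_dvd (by have := hp.two_le; omega) h5
        omega
      obtain ⟨p, hp, hpm⟩ := Nat.exists_prime_and_dvd (show m ≠ 1 by omega)
      obtain ⟨c, hc'⟩ := id hpm
      have hpn := hall hp hpm
      have hc1 : c ≠ 1 := by
        rintro rfl
        omega
      obtain ⟨s, hs, hsc⟩ := Nat.exists_prime_and_dvd hc1
      have hsn := hall hs (hc' ▸ Dvd.dvd.mul_left hsc p)
      apply (hcon p hp (hpm.trans hm) (hprim p hp hpm)).2
      refine Dvd.dvd.trans ?_ hm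
      rw [hc', sq]
      exact Nat.mul_dvd_mul_left _ (by rw [hpn, ← hsn]; exact hsc)
  · have hn' : n = 2 := by omega
    subst hn'
    have hfac : q ^ 2 - 1 = (q + 1) * (q - 1) := by
      have := Nat.sq_sub_sq q 1
      simpa using this
    have hnd : ∀ p : ℕ, p.Prime → p ≠ 2 → p ∣ q + 1 → ∀ i : ℕ, 1 ≤ i → i < 2 → ¬ p ∣ q ^ i - 1 := by
      intro p hp hp2 hd i hi hi2 hd'
      have : i = 1 := by omega
      subst this
      rw [pow_one] at hd'
      have h5 := Nat.dvd_sub hd hd'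
      have : q + 1 - (q - 1) = 2 := by omega
      rw [this] at h5
      exact hp2 ((Nat.prime_dvd_prime_iff_eq hp Nat.prime_two).1 h5)
    by_cases h9 : 9 ∣ q + 1
    · refine ⟨3, Nat.prime_three, ?_, hnd 3 Nat.prime_three (by norm_num) ((by norm_num : 3 ∣ 9).trans h9), Or.inr ?_⟩
      · rw [hfac]; exact ((by norm_num : 3 ∣ 9).trans h9).mul_right _
      · rw [hfac]; exact h9.mul_right _
    · obtain ⟨t, u, hu, htu⟩ := Nat.exists_eq_pow_mul_and_not_dvd (show q + 1 ≠ 0 by omega) 3 (by norm_num)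
      have ht : t ≤ 1 := by
        by_contra h
        apply h9
        rw [htu]
        exact (pow_dvd_pow 3 (show 2 ≤ t by omega)).mul_right _
      by_cases hall : ∀ {p : ℕ}, p.Prime → p ∣ u → p = 2
      · exfalso
        apply h1
        have hu0 : u ≠ 0 := by rintro rfl; simp at hu
        obtain ⟨k, hk⟩ : ∃ k, u = 2 ^ k := ⟨_, Nat.eq_prime_pow_of_unique_prime_dvd hu0 hall⟩
        exact ⟨rfl, k, t, ht, by rw [htu, hk, mul_comm]⟩
      · push Not at hall
        obtain ⟨p, hp, hpu, hp2⟩ := hall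
        have hd : p ∣ q + 1 := htu ▸ Dvd.dvd.mul_left hpu _
        refine ⟨p, hp, by rw [hfac]; exact hd.mul_right _, hnd p hp hp2 hd, Or.inl ?_⟩
        have hp3 : p ≠ 3 := by rintro rfl; exact hu hpu
        have := hp.two_le
        have h4' : p ≠ 4 := by rintro rfl; norm_num at hp
        omega

end Cfsg.Agent.S3430
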