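import Cfsg.Statements.S3706
import Cfsg.Agent.ONan.Ito

set_option autoImplicit false
open Cfsg

namespace Cfsg.Agent.S3706

/-- Let G be a finite group acting faithfully and 2-transitively on a finite set Ω of size n, and let H be a subgroup of index n in G which is not transitive on Ω and fixes no point of Ω. Suppose H acts unfaithfully on one of its orbits: some non-identity element of H fixes every point of that orbit. Then there are an integer m ≥ 2 and a finite field F with #Ω = (#F^(m+1) − 1)/(#F − 1), and G has a normal subgroup isomorphic to PSL_{m+1}(F) whose centralizer in G is trivial (so that G lies between PSL_{m+1}(F) and its automorphism group). -/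
theorem result {G Ω : Type*} [Group G] [Finite G] [MulAction G Ω] [FaithfulSMul G Ω] [Finite Ω] (h2 : MulAction.IsMultiplyPretransitive G Ω 2) (H : Subgroup G) (hidx : H.index = Nat.card Ω) (hnt : ¬ MulAction.IsPretransitive H Ω) (hfix : ∀ a : Ω, ∃ h : H, h • a ≠ a) (hunf : ∃ a : Ω, ∃ h : H, h ≠ 1 ∧ ∀ b ∈ MulAction.orbit H a, h • b = b) : ∃ (m : ℕ) (F : Type) (_ : Field F) (_ : Fintype F), 2 ≤ m ∧ Nat.card Ω = (Fintype.card F ^ (m + 1) - 1) / (Fintype.card F - 1) ∧ ∃ N : Subgroup G, N.Normal ∧ Nonempty (N ≃* Matrix.ProjectiveSpecialLinearGroup (Fin (m + 1)) F) ∧ Subgroup.centralizer (N : Set G) = ⊥ := by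
  obtain ⟨a, h, h1, hh⟩ := hunf
  have t2 := ONan.tr2_of h2
  let I : Ω → G ⧸ H → Prop := fun b x => ∃ g : G, g • ((1 : G) : G ⧸ H) = x ∧ g • a = b
  have mem : ∀ b, I b ((1 : G) : G ⧸ H) ↔ b ∈ MulAction.orbit H a := fun b =>
    ⟨fun ⟨g, g1, g2⟩ => ⟨⟨g, by simpa [QuotientGroup.eq] using g1⟩, g2⟩,
      fun ⟨g, g2⟩ => ⟨g, by simp [QuotientGroup.eq], g2⟩⟩
  have e : {b | I b ((1 : G) : G ⧸ H)} = MulAction.orbit H a := Set.ext mem
  have hv : (MulAction.orbit H a).ncard + 2 ≤ Nat.card Ω := by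
    obtain ⟨b, hb⟩ : ∃ b, b ∉ MulAction.orbit H a := by
      by_contra hc
      push Not at hc
      exact hnt ⟨fun x y => by
        obtain ⟨g, rfl⟩ := hc x
        obtain ⟨k, rfl⟩ := hc y
        exact ⟨k * g⁻¹, by simp [mul_smul]⟩⟩
    obtain ⟨g, hg⟩ := hfix b
    have h3 := Set.ncard_add_ncard_compl (MulAction.orbit H a)
    have := (Set.one_lt_ncard (s := (MulAction.orbit H a)ᶜ)).2 ⟨_, fun ⟨k, hk⟩ =>
      hb ⟨g⁻¹ * k, by simp only [mul_smul]; rw [show k • a = g • b from hk, inv_smul_smul]⟩, b, hb, hg⟩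
    omega
  have card : Nat.card Ω = Nat.card (G ⧸ H) := hidx.symm
  obtain ⟨g, hg⟩ := hfix a
  obtain ⟨l, hl⟩ := ONan.exists_SD (G := G) (I := I) (D₀ := ((1 : G) : G ⧸ H))
    (fun g p D => ⟨fun ⟨k, k1, k2⟩ => ⟨g⁻¹ * k, by rw [mul_smul, k1, inv_smul_smul], by rw [mul_smul, k2, inv_smul_smul]⟩,
      fun ⟨k, k1, k2⟩ => ⟨g * k, by rw [mul_smul, k1], by rw [mul_smul, k2]⟩⟩) t2
    (fun D E => MulAction.exists_smul_eq G D E) card
    (fun g hg => eq_of_smul_eq_smul (α := Ω) fun x => by rw [hg, one_smul]) (congrArg Set.ncard e)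
    ((Set.one_lt_ncard (s := MulAction.orbit H a)).2 ⟨_, ⟨g, rfl⟩, a, MulAction.mem_orbit_self a, hg⟩) hv
  obtain ⟨L, F, _, _, n, hn, hL, hc, e', hq⟩ := hl.dual.core (hl.dual.tr2 t2 hg) (card ▸ hv) (x := ((1 : G) : G ⧸ H))
    (Subgroup.ne_bot_iff_exists_ne_one.2 ⟨⟨h, fun b hb => hh b ((mem b).1 hb)⟩,
      fun e => h1 (Subtype.ext (by simpa using congrArg Subtype.val e))⟩)
  obtain ⟨m, rfl⟩ : ∃ m, n = m + 1 := ⟨n - 1, by omega⟩
  refine ⟨m, F, inferInstance, inferInstance, by omega, ?_, L, hL, e', hc⟩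
  rw [← hq, card, Nat.mul_div_cancel _ (by have := Fintype.one_lt_card (α := F); omega)]

end Cfsg.Agent.S3706
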