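import Cfsg.Statements.S3707
import Cfsg.Agent.FG.Marg

set_option autoImplicit false
open Cfsg

namespace Cfsg.Agent.S3707

open Cfsg.Agent.FG

/-- Let G be a finite primitive permutation group on Ω of degree n and Γ ⊂ Ω a subset with 1 < #Γ ≤ n/2 such that the pointwise stabilizer of Ω ∖ Γ is transitive on Γ. Then G is 3-transitive on Ω. -/
theorem result {G Ω : Type*} [Group G] [Finite G] [MulAction G Ω] [FaithfulSMul G Ω] [Finite Ω] (hprim : MulAction.IsPreprimitive G Ω) (Γ : Set Ω) (h1 : 1 < Γ.ncard) (h2 : 2 * Γ.ncard ≤ Nat.card Ω) (htr : ∀ x ∈ Γ, ∀ y ∈ Γ, ∃ g : G, (∀ z ∉ Γ, g • z = z) ∧ g • x = y) : MulAction.IsMultiplyPretransitive G Ω 3 := by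
  classical
  haveI := Fintype.ofFinite Ω
  have hc : (Γ.toFinsetᶜ).card = Fintype.card Ω - Γ.ncard := by rw [Finset.card_compl, Set.ncard_eq_toFinset_card']
  rw [Nat.card_eq_fintype_card] at h2
  have hJ : JC G Γ.toFinsetᶜ := fun x hx y hy => by
    obtain ⟨g, h3, h4⟩ := htr x (by simpa using hx) y (by simpa using hy)
    exact ⟨g, fun z hz => h3 z (by simpa using hz), h4⟩
  rcases marggraff hJ (Finset.card_pos.1 (by omega)) (by omega) with h | ⟨-, h | h⟩
  · exact MulAction.isMultiplyPretransitive_of_le (n := (Γ.toFinsetᶜ).card + 1) (by omega)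
      (by rw [Nat.card_eq_fintype_card]; omega)
  · exact h
  · omega

end Cfsg.Agent.S3707
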