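import Cfsg.Statements.S3733
import Cfsg.Agent.Solv.Basic

set_option autoImplicit false
open Cfsg

namespace Cfsg.Agent.S3733

open Subgroup
open scoped IsMulCommutative

/-- Let A and V be subgroups of a finite group with V abelian and nontrivial and A normalizing V. Suppose a nonempty finite family of proper subgroups of A partitions A: every non-identity element of A lies in exactly one member. If the number of members minus one is coprime to the order of V, then some member B of the family has a non-identity fixed point on V, that is V ∩ C(B) ≠ 1. -/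
theorem result {G : Type*} [Group G] [Finite G] (A V : Subgroup G) (hVab : IsMulCommutative V) (hV : V ≠ ⊥) (hAV : A ≤ Subgroup.normalizer (V : Set G)) (𝒜 : Finset (Subgroup G)) (hne : 𝒜.Nonempty) (hprop : ∀ B ∈ 𝒜, B < A) (hpart : ∀ a ∈ A, a ≠ 1 → ∃! B, B ∈ 𝒜 ∧ a ∈ B) (hk : (𝒜.card - 1).Coprime (Nat.card V)) : ∃ B ∈ 𝒜, V ⊓ Subgroup.centralizer (B : Set G) ≠ ⊥ := by
  classical
  by_contra hcon
  push Not at hcon
  have := (nontrivial_iff_ne_bot V).2 hV
  obtain ⟨v, hv⟩ := exists_ne (1 : V)
  have := Fintype.ofFinite A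
  let ψ : A →* MulAut V := (normalizerMonoidHom V).comp (inclusion hAV)
  have hψ : ∀ (a : A) (w : V), ((ψ a w : V) : G) = a * w * (a : G)⁻¹ := fun a w => rfl
  have hN : ∀ B C : Subgroup G, B ≤ A → C ≤ B → V ⊓ centralizer (C : Set G) = ⊥ →
      ∏ a ∈ Finset.univ.filter (fun a : A => (a : G) ∈ B), ψ a v = 1 := by
    intro B C hB hC h0
    have : ((∏ a ∈ Finset.univ.filter (fun a : A => (a : G) ∈ B), ψ a v : V) : G) ∈ V ⊓ centralizer (C : Set G) := by
      refine ⟨SetLike.coe_mem _, fun c hc => ?_⟩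
      have h1 : ψ ⟨c, hB (hC hc)⟩ (∏ a ∈ Finset.univ.filter (fun a : A => (a : G) ∈ B), ψ a v) =
          ∏ a ∈ Finset.univ.filter (fun a : A => (a : G) ∈ B), ψ a v := by
        rw [map_prod]
        refine Finset.prod_equiv (Equiv.mulLeft (⟨c, hB (hC hc)⟩ : A)) (fun a => ?_) fun a _ => ?_
        · simp [B.mul_mem_cancel_left (hC hc)]
        · simp
      have h2 := congrArg Subtype.val h1
      rw [hψ, mul_inv_eq_iff_eq_mul] at h2
      exact h2
    rw [h0, mem_bot] at this
    exact Subtype.ext this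
  obtain ⟨B₀, hB₀⟩ := hne
  have h1 := hN A B₀ le_rfl (hprop _ hB₀).le (hcon _ hB₀)
  have h2 : ∏ B ∈ 𝒜, ∏ a ∈ Finset.univ.filter (fun a : A => (a : G) ∈ B), ψ a v = 1 :=
    Finset.prod_eq_one fun B hB => hN B B (hprop _ hB).le le_rfl (hcon _ hB)
  simp only [SetLike.coe_mem, Finset.filter_true] at h1
  simp only [Finset.prod_filter] at h2
  rw [Finset.prod_comm] at h2
  have h3 : ∀ a : A, (∏ B ∈ 𝒜, if (a : G) ∈ B then ψ a v else 1) =
      ψ a v * if a = 1 then v ^ (𝒜.card - 1) else 1 := by
    intro a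
    split_ifs with ha
    · subst ha
      have : 𝒜.card = 𝒜.card - 1 + 1 := by
        have := Finset.card_pos.2 ⟨B₀, hB₀⟩; omega
      simp only [OneMemClass.coe_one, one_mem, if_true, map_one, MulAut.one_apply,
        Finset.prod_const]
      rw [← pow_succ', ← this]
    · obtain ⟨B, ⟨hB, haB⟩, hu⟩ := hpart a a.2 (fun e => ha (Subtype.ext e))
      rw [Finset.prod_eq_single_of_mem B hB, if_pos haB, mul_one]
      intro C hC hne
      exact if_neg fun h => hne (hu C ⟨hC, h⟩)
  simp only [h3, Finset.prod_mul_distrib, h1, one_mul, Finset.prod_ite_eq', Finset.mem_univ,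
    if_true] at h2
  exact hv (orderOf_eq_one_iff.1 (Nat.eq_one_of_dvd_coprimes hk (orderOf_dvd_of_pow_eq_one h2)
    (orderOf_dvd_natCard v)))

end Cfsg.Agent.S3733
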