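import Cfsg.Statements.S3734
import Cfsg.Agent.BG.S3Gen
import Cfsg.Agent.Loc.Comm
import Cfsg.Agent.Solv.Coprime
import Cfsg.Agent.Solv.Fitting

set_option autoImplicit false
open Cfsg

namespace Cfsg.Agent.S3734

open Subgroup Cfsg.Agent.Loc

/-- Let A and G be subgroups of a finite group with A abelian, A normalizing G and the orders of A and G coprime. Then G is generated by the fixed-point subgroups C_G(B) of those subgroups B of A for which A/B is cyclic (that is, A = ⟨B, a⟩ for some a), and [G, A] is generated by the commutator subgroups [C_G(B), A] over the same subgroups B. -/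
theorem result {X : Type*} [Group X] [Finite X] (A G : Subgroup X) (hAab : IsMulCommutative A) (hAG : A ≤ Subgroup.normalizer (G : Set X)) (hcop : (Nat.card A).Coprime (Nat.card G)) : (⨆ B ∈ {B : Subgroup X | B ≤ A ∧ ∃ a ∈ A, B ⊔ Subgroup.zpowers a = A}, G ⊓ Subgroup.centralizer (B : Set X)) = G ∧ (⨆ B ∈ {B : Subgroup X | B ≤ A ∧ ∃ a ∈ A, B ⊔ Subgroup.zpowers a = A}, ⁅G ⊓ Subgroup.centralizer (B : Set X), A⁆) = ⁅G, A⁆ := by
  have hgen : ∀ L : Subgroup X, (∀ B ≤ A, (∃ a ∈ A, B ⊔ zpowers a = A) →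
      G ⊓ centralizer (B : Set X) ≤ L) → G ≤ L := fun L h =>
    BG.coprime_abelian_gen_cent hAab hAG hcop.symm fun B hB hc => h B hB
      ((BG.cyclic_quotient_iff ⟨hB, le_normalizer_of_le_centralizer
        (((le_centralizer_iff_isMulCommutative).2 hAab).trans (centralizer_anti hB))⟩).1 hc)
  have hAc : A ≤ centralizer (A : Set X) := (le_centralizer_iff_isMulCommutative).2 hAab
  refine ⟨le_antisymm (iSup₂_le fun B _ => inf_le_left) (hgen _ fun B hB hc =>
    le_iSup₂_of_le (f := fun B (_ : B ∈ {B : Subgroup X | B ≤ A ∧ ∃ a ∈ A, B ⊔ zpowers a = A}) =>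
      G ⊓ centralizer (B : Set X)) B ⟨hB, hc⟩ le_rfl), le_antisymm
      (iSup₂_le fun B _ => commutator_mono inf_le_left le_rfl) ?_⟩
  set L := ⨆ B ∈ {B : Subgroup X | B ≤ A ∧ ∃ a ∈ A, B ⊔ zpowers a = A},
    ⁅G ⊓ centralizer (B : Set X), A⁆ with hL
  have hle : ∀ B ≤ A, (∃ a ∈ A, B ⊔ zpowers a = A) → ⁅G ⊓ centralizer (B : Set X), A⁆ ≤ L :=
    fun B hB hc => le_iSup₂_of_le
      (f := fun B (_ : B ∈ {B : Subgroup X | B ≤ A ∧ ∃ a ∈ A, B ⊔ zpowers a = A}) =>
      ⁅G ⊓ centralizer (B : Set X), A⁆) B ⟨hB, hc⟩ le_rfl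
  have hnorm : ∀ Y : Subgroup X, Y ≤ normalizer (G : Set X) → Y ≤ centralizer (A : Set X) →
      Y ≤ normalizer (L : Set X) := by
    intro Y h1 h2
    refine le_normalizer_of_cj_le fun g hg => ?_
    rw [hL, cj_iSup]
    refine iSup_le fun B => ?_
    rw [cj_iSup]
    refine iSup_le fun hB => ?_
    rw [cj_eq_of_mem_normalizer (le_normalizer_commutator (le_normalizer_inf h1
      (le_normalizer_centralizer (le_normalizer_of_le_centralizer
        (h2.trans (centralizer_anti hB.1))))) (le_normalizer_of_le_centralizer h2) hg)]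
    exact hle B hB.1 hB.2
  have hG : G ≤ L ⊔ (G ⊓ centralizer (A : Set X)) := by
    refine hgen _ fun B hB hc => ?_
    have : Group.IsNilpotent A := Solv.isNilpotent_of_isMulCommutative A
    rw [← Solv.commutator_sup_inf_centralizer (A := A) (K := G ⊓ centralizer (B : Set X))
      (le_normalizer_inf hAG (le_normalizer_centralizer (le_normalizer_of_le_centralizer
        (hAc.trans (centralizer_anti hB))))) (Solv.coprime_of_le hcop inf_le_left)
      (Or.inl inferInstance)]
    exact sup_le_sup (hle B hB hc) (inf_le_inf_right _ inf_le_left)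
  refine (commutator_mono hG le_rfl).trans (commutator_sup_left_le le_normalizer
    (hnorm _ (inf_le_left.trans le_normalizer) inf_le_right)
    (commutator_le_left_of_le_normalizer (hnorm A hAG hAc))
    (commutator_le_of_le_centralizer inf_le_right _))

end Cfsg.Agent.S3734
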