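import Cfsg.Statements.S3735
import Cfsg.Agent.Loc.Comm
import Cfsg.Agent.Solv.MinNormal
import Cfsg.Agent.Sig.Subn

set_option autoImplicit false
open Cfsg

namespace Cfsg.Agent.S3735

open Subgroup Cfsg.Agent.Loc

/-- Clifford's Theorem for actions on finite abelian groups, first part. Let H and V be subgroups of a finite group with V abelian and H normalizing V, and let A be a normal subgroup of H. If every H-invariant subgroup of V has an H-invariant complement in V, then every A-invariant subgroup of V has an A-invariant complement in V. -/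
theorem result {G : Type*} [Group G] [Finite G] (H A V : Subgroup G) (hVab : IsMulCommutative V) (hHV : H ≤ Subgroup.normalizer (V : Set G)) (hAH : A ≤ H) (hAn : H ≤ Subgroup.normalizer (A : Set G)) (hss : ∀ U : Subgroup G, U ≤ V → H ≤ Subgroup.normalizer (U : Set G) → ∃ W : Subgroup G, W ≤ V ∧ H ≤ Subgroup.normalizer (W : Set G) ∧ U ⊓ W = ⊥ ∧ U ⊔ W = V) (U : Subgroup G) (hUV : U ≤ V) (hAU : A ≤ Subgroup.normalizer (U : Set G)) : ∃ W : Subgroup G, W ≤ V ∧ A ≤ Subgroup.normalizer (W : Set G) ∧ U ⊓ W = ⊥ ∧ U ⊔ W = V := by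
  have hVc : V ≤ centralizer (V : Set G) := (le_centralizer_iff_isMulCommutative).2 hVab
  set 𝒮 := {M : Subgroup G | A ≤ normalizer (M : Set G) ∧ M ≠ ⊥ ∧ M ≤ V ∧
    ∀ L : Subgroup G, A ≤ normalizer (L : Set G) → L ≤ M → L = ⊥ ∨ L = M} with h𝒮
  have hS : V ≤ sSup 𝒮 := by
    obtain ⟨W, hWV, hWn, h1, h2⟩ := hss (sSup 𝒮) (sSup_le fun M hM => hM.2.2.1) (by
      refine Sig.le_normalizer_sSup fun g hg M ⟨a, b, c, d⟩ => le_sSup ⟨?_, ?_, ?_, ?_⟩
      · rw [← cj_normalizer, ← cj_eq_of_mem_normalizer (hAn hg)]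
        exact cj_mono g a
      · exact fun e => b (cj_eq_bot_iff.1 e)
      · exact cj_le_of_mem_normalizer (hHV hg) c
      · intro L hL hle
        rcases d (cj g⁻¹ L) (by
          rw [← cj_normalizer, ← cj_eq_of_mem_normalizer (hAn (H.inv_mem hg))]
          exact cj_mono _ hL) (le_cj_iff.1 hle) with e | e
        · exact Or.inl (cj_eq_bot_iff.1 e)
        · exact Or.inr (by rw [← e, cj_cj_inv]))
    have hW : W = ⊥ := by
      by_contra h0
      obtain ⟨M, a, b, c, d⟩ := Solv.exists_minimal_invariant A W (hAH.trans hWn) h0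
      have hM : M ∈ 𝒮 := ⟨a, b, c.trans hWV, d⟩
      exact b (eq_bot_iff.2 ((le_inf (le_sSup hM) c).trans h1.le))
    rw [← h2, hW, sup_bot_eq]
  obtain ⟨W, -, hW⟩ := Finite.exists_le_maximal
    (p := fun W : Subgroup G => W ≤ V ∧ A ≤ normalizer (W : Set G) ∧ U ⊓ W = ⊥) (a := ⊥)
    ⟨bot_le, le_normalizer_bot _, inf_bot_eq _⟩
  obtain ⟨hWV, hWn, hUW⟩ := hW.prop
  refine ⟨W, hWV, hWn, hUW, le_antisymm (sup_le hUV hWV) (hS.trans (sSup_le ?_))⟩
  rintro M ⟨a, b, c, d⟩
  rcases d (M ⊓ (U ⊔ W)) (le_normalizer_inf a (le_normalizer_sup hAU hWn)) inf_le_left with e | e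
  · refine le_trans (le_sup_right.trans (hW.le_of_ge (y := W ⊔ M)
      ⟨sup_le hWV c, le_normalizer_sup hWn a, ?_⟩ le_sup_left)) le_sup_right
    rw [eq_bot_iff]
    rintro u ⟨hu, hu'⟩
    obtain ⟨w, hw, m, hm, rfl⟩ := (mem_sup_of_le_normalizer_left
      (le_normalizer_of_le_centralizer ((c.trans hVc).trans (centralizer_anti hWV)))).1 hu'
    have : m ∈ M ⊓ (U ⊔ W) := ⟨hm, by
      have := (U ⊔ W).mul_mem ((U ⊔ W).inv_mem (mem_sup_right hw)) (mem_sup_left hu)
      simpa using this⟩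
    rw [e, mem_bot] at this
    subst this
    rw [← hUW]
    exact ⟨hu, by simpa using hw⟩
  · exact inf_eq_left.1 e

end Cfsg.Agent.S3735
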