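import Cfsg.Statements.S3740
import Cfsg.Agent.Classical.SL23
import Cfsg.Agent.PGrp.Basic

set_option autoImplicit false
open Cfsg

namespace Cfsg.Agent.S3740

open Cfsg.Agent.Classical Matrix Subgroup MulAction
open scoped commutatorElement

/-- Let F be a finite field of odd characteristic p and let a be a p-element of SL₂(F) normalizing a subgroup R of order prime to p with [R, a] ≠ 1. Then p = 3, R is a quaternion group of order 8, and R⟨a⟩ is isomorphic to SL₂(3). -/
theorem result (F : Type) [Field F] [Fintype F] {p : ℕ} [Fact p.Prime] [CharP F p] (hp : p ≠ 2) (a : Matrix.SpecialLinearGroup (Fin 2) F) (ha : IsPGroup p ↥(Subgroup.zpowers a)) (R : Subgroup (Matrix.SpecialLinearGroup (Fin 2) F)) (hR : (Nat.card R).Coprime p) (haR : a ∈ Subgroup.normalizer (R : Set (Matrix.SpecialLinearGroup (Fin 2) F))) (hnt : ⁅R, Subgroup.zpowers a⁆ ≠ ⊥) : p = 3 ∧ Nonempty (↥R ≃* QuaternionGroup 2) ∧ Nonempty (↥(R ⊔ Subgroup.zpowers a) ≃* Matrix.SpecialLinearGroup (Fin 2) (ZMod 3)) := by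
  have hp' : p.Prime := Fact.out
  have h2 := two_ne_zero_of_char F p hp
  obtain ⟨k, hk⟩ := ha ⟨a, mem_zpowers a⟩
  have ht : a.1.trace = 2 := (m2_unip_of_pow p (congrArg (fun x : zpowers a => x.1.1) hk)).1
  have hap := (sl_pow_char_eq_one_iff p).2 ht
  have ho : orderOf a = p := orderOf_eq_prime hap (by rintro rfl; simp at hnt)
  have hpR : ¬ p ∣ Nat.card R := hp'.coprime_iff_not_dvd.1 hR.symm
  have hc := PGrp.card_sup_zpowers hp' haR (fun h => hpR (ho ▸ orderOf_dvd_natCard R h))
    (hap ▸ one_mem R)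
  set H := R ⊔ zpowers a
  have hN : H ≤ normalizer (R : Set (Matrix.SpecialLinearGroup (Fin 2) F)) :=
    sup_le le_normalizer (zpowers_le.2 haR)
  have hcomm : ∀ x ∈ H, ∀ y ∈ H, ⁅x, y⁆ ∈ R := fun x hx y hy => by
    have := (normal_subgroupOf_iff_le_normalizer le_sup_left).2 hN
    have h1 := (R.subgroupOf H).card_mul_index
    rw [Nat.card_congr (subgroupOfEquivOfLe le_sup_left).toEquiv, hc] at h1
    have := isCyclic_of_prime_card (α := H ⧸ R.subgroupOf H) (p := p)
      (Nat.eq_of_mul_eq_mul_left Nat.card_pos h1)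
    exact (Normal.quotient_commutative_iff_commutator_le (N := R.subgroupOf H)).1 inferInstance
      (commutator_mem_commutator (mem_top (⟨x, hx⟩ : H)) (mem_top (⟨y, hy⟩ : H)))
  have haH : a ∈ H := mem_sup_right (mem_zpowers a)
  have hx : ∀ x : P1 F, ∃ g ∈ H, g • x ≠ x := fun x => by
    by_contra! h
    refine hnt (commutator_eq_bot_iff_le_centralizer.2 fun r hr => ?_)
    have h1 := commute_of_fix_of_coprime p ((sl_smul_eq_toPGL r x).symm.trans (h r (mem_sup_left hr)))
      ((sl_smul_eq_toPGL a x).symm.trans (h a haH)) fun e => hpR (e.trans (by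
        rw [← map_commutatorElement]
        exact (orderOf_map_dvd _ _).trans (orderOf_dvd_natCard R (hcomm r (mem_sup_left hr) a haH))))
    rw [Commute, SemiconjBy, ← map_mul, ← map_mul, sl_toPGL_eq_iff] at h1
    rintro _ ⟨n, rfl⟩
    refine (Commute.zpow_left (h1.resolve_right fun e => ?_).symm n).eq
    have := sl_trace_conj r a
    rw [e, neg_mul, mul_inv_cancel_right, sl_neg_coe, trace_neg, ht] at this
    exact mul_ne_zero h2 h2 (by linear_combination -this)
  obtain ⟨f, hf, hfH⟩ := exists_SL2_prime_le p hp H (hc ▸ dvd_mul_left _ _) hx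
  have h3 : commutator _ ≤ R.comap f := commutator_le.2 fun x _ y _ => by
    rw [mem_comap, map_commutatorElement]; exact hcomm _ (hfH ⟨x, rfl⟩) _ (hfH ⟨y, rfl⟩)
  obtain rfl : p = 3 := by
    by_contra h
    have h5 := hp'.five_le_of_ne_two_of_ne_three hp h
    rw [SL2.commutator_eq_top (a := 2) (two_ne_zero_of_char _ p hp) fun e => by
      have : ((3 : ℕ) : ZMod p) = 0 := by push_cast; linear_combination e
      have := Nat.le_of_dvd (by norm_num) ((ZMod.natCast_eq_zero_iff _ _).1 this)
      omega, ← map_le_iff_le_comap] at h3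
    have := card_dvd_of_le h3
    rw [card_map_of_injective hf, card_top, card_SL2, Nat.card_zmod, mul_assoc] at this
    exact hpR ((dvd_mul_right _ _).trans this)
  have hF : Nat.card (ZMod 3) = 3 := Nat.card_zmod 3
  obtain ⟨S⟩ : Nonempty (Sylow 2 (Matrix.SpecialLinearGroup (Fin 2) (ZMod 3))) := inferInstance
  obtain ⟨-, h8, ⟨e⟩⟩ := sl23_sylow hF S
  rw [sl23_commutator hF S, ← map_le_iff_le_comap] at h3
  have h24 : Nat.card f.range = 24 := by
    rw [← Nat.card_congr (MonoidHom.ofInjective hf).toEquiv, card_SL23 hF]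
  have h4 := h24 ▸ card_dvd_of_le hfH
  have h5 := card_map_pslMk (sl_neg_one_mem_of_even h2 (H := H) (by omega))
  rw [gcd_two_pred_of_odd (two_ne_zero_iff_odd.1 h2), ← card_map_toPGL] at h5
  have h6 : Nat.card (H.map Matrix.SpecialLinearGroup.toPGL) ∣ 24 := by
    rcases dickson_char 3 (H.map Matrix.SpecialLinearGroup.toPGL) (by omega) with ⟨x, h⟩ |
      ⟨h, K, hK⟩ | ⟨h, -⟩ | ⟨-, ⟨e⟩⟩
    · obtain ⟨g, hg, hg'⟩ := hx x
      exact absurd ((sl_smul_eq_toPGL g x).trans (h _ (mem_map_of_mem _ hg))) hg'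
    · have h7 : LK K.subtype ≤ _ := hK.elim (fun e => (range_comp_toPGL_le _).trans e.ge)
        fun e => e.2.ge
      have h9 : _ ≤ PK K.subtype := hK.elim le_of_eq fun e => e.2.le.trans (range_comp_toPGL_le _)
      have h10 := Nat.mul_dvd_mul_left (Nat.gcd 2 (Nat.card K - 1)) (card_dvd_of_le h7)
      have h11 := card_dvd_of_le h9
      rw [card_map_conj, Nat.card_congr (PKEquiv _).toEquiv, card_PGL2] at h11
      rw [card_map_conj, Nat.card_congr (LKEquiv _).toEquiv, card_PSL2_mul, mul_assoc] at h10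
      obtain ⟨n, hn, hK⟩ := exists_card_eq_pow K 3
      obtain rfl : n = 1 := by
        by_contra h
        have := ((hK ▸ pow_dvd_pow 3 (show 2 ≤ n by omega)).trans
          ((dvd_mul_right _ _).trans h10)).trans (Nat.mul_dvd_mul_right (Nat.gcd_dvd_left _ _) _)
        omega
      simpa [hK] using h11
    · omega
    · have h7 : commutator _ ≤ (R.map Matrix.SpecialLinearGroup.toPGL).subgroupOf
          (H.map Matrix.SpecialLinearGroup.toPGL) := commutator_le.2 (by
        rintro ⟨_, x, hx, rfl⟩ - ⟨_, y, hy, rfl⟩ -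
        exact ⟨_, hcomm x hx y hy, map_commutatorElement _ _ _⟩)
      have := e.isSimpleGroup
      rcases (commutator_normal (⊤ : Subgroup (H.map Matrix.SpecialLinearGroup.toPGL))
        ⊤).eq_bot_or_eq_top with h | h
      · have := commutator_eq_bot_iff_le_centralizer.1 h (mem_top (e.symm a5X)) _
          (mem_top (e.symm a5Y))
        rw [← map_mul, ← map_mul, e.symm.injective.eq_iff] at this
        exact absurd this (by decide)
      · have := (card_dvd_of_le (subgroupOf_eq_top.1 (top_le_iff.1 (h.ge.trans h7)))).trans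
          (card_map_dvd R _)
        rw [Nat.card_congr e.toEquiv, card_alt5] at this
        omega
  have h7 : Nat.card R = 8 := by
    by_contra h
    have h16 : Nat.card R = 2 ^ 4 := by
      have := Nat.le_of_dvd (by norm_num) h6
      have := Nat.card_pos (α := R)
      omega
    rcases sl_isCyclic_or_quaternion h2 R.subtype R.subtype_injective (IsPGroup.of_card h16)
      with h | ⟨k, hk, ⟨e⟩⟩
    · obtain ⟨x, hx, y, hy, e⟩ := sl_not_commute_sylow_two (two_ne_zero_of_char _ 3 hp) S
      exact e (hf (by simpa using congrArg Subtype.val (h.isMulCommutative.is_comm.comm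
        ⟨_, h3 (mem_map_of_mem f hx)⟩ ⟨_, h3 (mem_map_of_mem f hy)⟩)))
    · obtain ⟨m, hm⟩ := isPGroup_normalizer_quaternion h2 (by
        by_contra h
        obtain rfl : k = 1 := by omega
        rw [Nat.card_congr e.toEquiv, Nat.card_eq_fintype_card, QuaternionGroup.card] at h16
        omega) e ⟨a, haR⟩
      have := ho ▸ orderOf_dvd_of_pow_eq_one (congrArg Subtype.val hm)
      exact absurd (Nat.prime_three.dvd_of_dvd_pow this) (by norm_num)
  refine ⟨rfl, ⟨?_⟩, ⟨?_⟩⟩
  · rw [← eq_of_le_of_card_ge h3 (by rw [card_map_of_injective hf]; omega)]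
    exact (S.1.equivMapOfInjective f hf).symm.trans e
  · rw [← eq_of_le_of_card_ge hfH (by omega)]
    exact (MonoidHom.ofInjective hf).symm

end Cfsg.Agent.S3740
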