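import Cfsg.Statements.S3741
import Cfsg.Agent.Gen.Pairing

set_option autoImplicit false
open Cfsg

namespace Cfsg.Agent.S3741

open Cfsg.Agent.BG
open scoped commutatorElement

/-- Let A and B be subgroups of a finite p-group with [A, B] ≤ A ∩ B and [A, B] of order at most p. Then |A : C_A(B)| = |B : C_B(A)|. -/
theorem result {G : Type*} [Group G] [Finite G] {p : ℕ} [Fact p.Prime] (hG : IsPGroup p G) (A B : Subgroup G) (hAB : ⁅A, B⁆ ≤ A ⊓ B) (hcard : Nat.card ↥⁅A, B⁆ ≤ p) : (A ⊓ Subgroup.centralizer (B : Set G)).relIndex A = (B ⊓ Subgroup.centralizer (A : Set G)).relIndex B := by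
  rw [Subgroup.inf_relIndex_left, Subgroup.inf_relIndex_left]
  have hZ : IsPGroup p ↥⁅A, B⁆ := hG.to_subgroup _
  have hdvd : #(⁅A, B⁆ : Subgroup G) ∣ p := by
    obtain ⟨k, hk⟩ := IsPGroup.iff_card.1 hZ
    rw [hk] at hcard ⊢
    have hp : 1 < p := (Fact.out : p.Prime).one_lt
    have : k ≤ 1 := (Nat.pow_le_pow_iff_right hp).1 (by simpa using hcard)
    simpa using Nat.pow_dvd_pow p this
  rcases (Nat.dvd_prime Fact.out).1 hdvd with h | h
  · rw [card_eq_one_iff] at h
    exact Gen.comm_pairing (by rw [h, cent_bot]; exact le_top) (by rw [h, cent_bot]; exact le_top)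
      (h ▸ cyclic_bot)
  · exact Gen.comm_pairing (pgroup_cent_prime (hG.to_subgroup _) h (commg_norml _ _))
      (pgroup_cent_prime (hG.to_subgroup _) h (commg_normr _ _))
      (prime_cyclic (h ▸ Fact.out))

end Cfsg.Agent.S3741
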