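import Cfsg.Statements.S3746
import Cfsg.Agent.Sig.Comp

set_option autoImplicit false
open Cfsg

namespace Cfsg.Agent.S3746

/-- Let Z ≤ Z(G) be a central subgroup of a finite group G and E a subgroup of G containing Z whose image E/Z is a component of G/Z (subnormal and quasisimple). Then the derived subgroup [E, E] is a component of G. -/
theorem result {G : Type*} [Group G] [Finite G] (Z : Subgroup G) (hZ : Z ≤ Subgroup.center G) [Z.Normal] (E : Subgroup G) (hZE : Z ≤ E) (hE : Cfsg.IsComponent (E.map (QuotientGroup.mk' Z))) : Cfsg.IsComponent ⁅E, E⁆ := by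
  have hc : E = (E.map (QuotientGroup.mk' Z)).comap (QuotientGroup.mk' Z) := by
    rw [Subgroup.comap_map_eq, QuotientGroup.ker_mk', sup_eq_left.2 hZE]
  have hE' := Sig.compIn_top_iff.2 hE
  have hsub : E.IsSubnormal := by
    have := hE'.subnIn.comap (QuotientGroup.mk' Z)
    rw [← hc, Subgroup.comap_top] at this
    exact Sig.SubnIn.top_iff.1 this
  have hZc : ∀ H : Subgroup G, ⁅Z, H⁆ = ⊥ := fun H => by
    rw [Subgroup.commutator_eq_bot_iff_le_centralizer]
    exact hZ.trans (Subgroup.center_le_centralizer _)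
  have hmap : (⁅E, E⁆ : Subgroup G).map (QuotientGroup.mk' Z) = E.map (QuotientGroup.mk' Z) := by
    rw [Subgroup.map_commutator, hE'.perfect]
  have hsup : ⁅E, E⁆ ⊔ Z = E := by
    have := congrArg (Subgroup.comap (QuotientGroup.mk' Z)) hmap
    rwa [← hc, Subgroup.comap_map_eq, QuotientGroup.ker_mk'] at this
  have hperf : ⁅⁅E, E⁆, ⁅E, E⁆⁆ = ⁅E, E⁆ := by
    conv_rhs => rw [← hsup]
    rw [Sig.commutator_sup_left_of_central (hZc _) (hZc _),
      Sig.commutator_sup_right_of_central (hZc _) (hZc _)]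
  refine Sig.compIn_top_iff.1 ⟨?_, ?_⟩
  · refine Sig.SubnIn.step ?_ ?_ (Sig.SubnIn.top_iff.2 hsub)
    · exact le_sup_left.trans hsup.le
    · exact Solv.le_normalizer_commutator Subgroup.le_normalizer Subgroup.le_normalizer
  · refine Sig.qs_of_map (QuotientGroup.mk' Z) hperf (hmap ▸ hE'.qs) ?_
    rw [QuotientGroup.ker_mk']
    exact inf_le_left.trans (hZ.trans (Subgroup.center_le_centralizer _))

end Cfsg.Agent.S3746
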