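import Cfsg.Statements.S3747
import Cfsg.Agent.Gen.Primitive

set_option autoImplicit false
open Cfsg

namespace Cfsg.Agent.S3747

open Subgroup Cfsg.Agent.Loc Cfsg.Agent.Sig in
theorem aux {G : Type*} [Group G] [Finite G] (K : Subgroup G) (hK : IsComponent K)
    (hZ : K ⊓ centralizer (K : Set G) = ⊥) (N : Subgroup G) (hN : N.Normal)
    (hle : N ≤ normalClosure (K : Set G)) : N = ⊥ ∨ N = normalClosure (K : Set G) := by
  have hK' := compIn_top_iff.2 hK
  rcases hK'.le_or_commutator (SubnIn.top_iff.2 hN.isSubnormal) with h | h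
  · exact Or.inr (le_antisymm hle (normalClosure_le_normal h))
  · left
    have hS : ∀ L ∈ Set.range (fun g : G => cj g K), CompIn L ⊤ := by
      rintro _ ⟨g, rfl⟩
      exact hK'.conj ((normalizer_eq_top _).ge (mem_top _))
    have h1 := center_sSup_compIn_le hS
    have e : sSup (Set.range (fun g : G => cj g K)) = normalClosure (K : Set G) := by
      rw [normalClosure_eq_iSup_cj]; rfl
    rw [e] at h1
    have h2 : normalClosure (K : Set G) ≤ centralizer (N : Set G) :=
      normalClosure_le_normal (commutator_eq_bot_iff_le_centralizer.1 h)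
    refine eq_bot_iff.2 (((le_inf hle (le_centralizer_iff.1 h2)).trans h1).trans (iSup_le ?_))
    rintro ⟨_, g, rfl⟩
    simp only
    rw [← cj_center, hZ, cj_bot]

/-- Let G be a finite group. (a) If K is a component of G with trivial centre, then the normal closure of K in G is a minimal normal subgroup of G. (b) If the Fitting subgroup of G is trivial, then the layer E(G) is generated by the minimal normal subgroups of G. -/
theorem result {G : Type*} [Group G] [Finite G] : (∀ K : Subgroup G, Cfsg.IsComponent K → Subgroup.center ↥K = ⊥ → (Subgroup.normalClosure (K : Set G) ≠ ⊥ ∧ ∀ N : Subgroup G, N.Normal → N ≤ Subgroup.normalClosure (K : Set G) → N = ⊥ ∨ N = Subgroup.normalClosure (K : Set G))) ∧ (Cfsg.fittingSubgroup G = ⊥ → sSup {N : Subgroup G | N ≠ ⊥ ∧ N.Normal ∧ ∀ N' : Subgroup G, N'.Normal → N' ≤ N → N' = ⊥ ∨ N' = N} = Cfsg.layer G) := by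
  constructor
  · intro K hK hZ
    refine ⟨fun h => (Sig.compIn_top_iff.2 hK).ne_bot (eq_bot_iff.2 (h ▸ Subgroup.le_normalClosure)),
      aux K hK ?_⟩
    rw [← Sig.center_map_subtype, hZ, Subgroup.map_bot]
  · intro hF
    apply le_antisymm
    · refine sSup_le fun N ⟨h0, hN, hmin⟩ => ?_
      have hfit : Sig.fitIn N = ⊥ := eq_bot_iff.2 (hF ▸ Solv.map_subtype_fitting_le N)
      have hL : Sig.layerIn N ≠ ⊥ := by
        intro h
        apply h0
        rw [← Sig.fstarIn_eq_bot_iff, Sig.fstarIn_eq, h, hfit, bot_sup_eq]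
      have hn : (Sig.layerIn N).Normal :=
        Loc.normal_of_top_le_normalizer (Sig.le_normalizer_layerIn (Subgroup.normalizer_eq_top N).ge)
      rw [← (hmin _ hn (Sig.layerIn_le N)).resolve_left hL]
      exact Sig.layerIn_le_layer hN.isSubnormal
    · refine Sig.layer_le_iff.2 fun K hK => ?_
      have hK' := Sig.compIn_top_iff.2 hK
      have hZ : K ⊓ Subgroup.centralizer (K : Set G) = ⊥ := by
        have := Sig.center_le_fitIn hK'.subnIn
        rwa [Sig.fitIn_top, hF, le_bot_iff] at this
      refine Subgroup.le_normalClosure.trans (le_sSup ⟨fun h => hK'.ne_bot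
        (eq_bot_iff.2 (h ▸ Subgroup.le_normalClosure)), inferInstance, aux K hK hZ⟩)

end Cfsg.Agent.S3747
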