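import Cfsg.Statements.S3749
import Cfsg.Agent.Gen.Primitive
import Cfsg.Agent.SolvStr.Frattini

set_option autoImplicit false
open Cfsg

namespace Cfsg.Agent.S3749

open Subgroup Cfsg.Agent.Loc Cfsg.Agent.Sig

/-- Call a proper subgroup M of G primitive when M = N_G(N) for every non-trivial normal subgroup N of M. Let M be a primitive subgroup of the finite group G, p a prime with O_p(M) ≠ 1, and N a normal subgroup of G with M ∩ N = 1. Then p does not divide the order of N; for every prime q there is exactly one Sylow q-subgroup of N normalized by M; and if the order of N has at least two prime divisors then M is not a maximal subgroup of G. -/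
theorem result {G : Type*} [Group G] [Finite G] (M : Subgroup G) (hM : M ≠ ⊤) (hprim : ∀ N : Subgroup G, N ≤ M → M ≤ Subgroup.normalizer (N : Set G) → N ≠ ⊥ → Subgroup.normalizer (N : Set G) = M) {p : ℕ} [Fact p.Prime] (hOp : Cfsg.pCore p ↥M ≠ ⊥) (N : Subgroup G) [N.Normal] (hMN : M ⊓ N = ⊥) : ¬ p ∣ Nat.card N ∧ (∀ q : ℕ, [Fact q.Prime] → ∃! Q : Sylow q ↥N, M ≤ Subgroup.normalizer ((Q : Subgroup ↥N).map N.subtype : Set G)) ∧ ((∃ q r : ℕ, q.Prime ∧ r.Prime ∧ q ≠ r ∧ q ∣ Nat.card N ∧ r ∣ Nat.card N) → ¬ IsCoatom M) := by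
  have h : Gen.Prim M := ⟨hM, hprim⟩
  have hP0 : pcIn p M ≠ ⊥ := fun e => hOp (pcIn_eq_bot_iff.1 e)
  have hPn : M ≤ normalizer (pcIn p M : Set G) := le_normalizer_pcIn le_normalizer
  have hnN : ∀ X : Subgroup G, X ≤ normalizer (N : Set G) := fun X =>
    le_top.trans (normalizer_eq_top N).ge
  have hC : N ⊓ centralizer (pcIn p M : Set G) = ⊥ := by
    refine eq_bot_iff.2 (le_trans (le_inf ?_ inf_le_left) hMN.le)
    exact h.le_of_le_centralizer pcIn_le hPn hP0 inf_le_right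
  have h1 : ¬ p ∣ Nat.card N := fun hd =>
    inf_centralizer_ne_bot_of_dvd isPGroup_pcIn (hnN _) hd hC
  have hcop : (Nat.card (pcIn p M)).Coprime (Nat.card N) :=
    coprime_of_isPGroup_of_coprime isPGroup_pcIn
      ((Nat.Prime.coprime_iff_not_dvd Fact.out).2 h1).symm
  have hs : Group.IsSolvable (pcIn p M) ∨ Group.IsSolvable N :=
    Or.inl (isSolvable_of_isPGroup isPGroup_pcIn)
  have h2 : ∀ q : ℕ, [Fact q.Prime] → ∃ Q, SylIn q Q N ∧ M ≤ normalizer (Q : Set G) ∧
      ∀ Q', SylIn q Q' N → pcIn p M ≤ normalizer (Q' : Set G) → Q' = Q := by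
    intro q _
    obtain ⟨Q, hQ, hQn⟩ := Solv.exists_invariant_sylIn (hnN _) hcop hs q
    have hu : ∀ Q', SylIn q Q' N → pcIn p M ≤ normalizer (Q' : Set G) → Q' = Q := by
      intro Q' hQ' hn'
      obtain ⟨c, hc, e⟩ := Solv.exists_centralizer_conj_sylIn (hnN _) hcop hs hQ' hQ hn' hQn
      rw [hC, mem_bot] at hc
      rwa [hc, Solv.conj_one_smul] at e
    refine ⟨Q, hQ, le_normalizer_of_cj_eq fun g hg => hu _ (hQ.conj_of_mem_normalizer
      (hnN _ (mem_zpowers g))) ?_, hu⟩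
    rw [← cj_normalizer, ← cj_eq_of_mem_normalizer (hPn hg)]
    exact cj_mono g hQn
  refine ⟨h1, fun q _ => ?_, ?_⟩
  · obtain ⟨Q, hQ, hQn, hu⟩ := h2 q
    refine ⟨hQ.toSylow, by simpa only [hQ.map_toSylow] using hQn, fun Q' hQ' => ?_⟩
    have := hu _ (sylIn_map_subtype Q') (pcIn_le.trans hQ')
    apply Sylow.ext
    rw [hQ.coe_toSylow, ← this, subgroupOf_map_subtype']
  · rintro ⟨q, r, hq, hr, hne, hqd, hrd⟩ hco
    have : Fact q.Prime := ⟨hq⟩
    obtain ⟨Q, hQ, hQn, -⟩ := h2 q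
    have hQM : ¬ Q ≤ M := fun hle => hQ.ne_bot hqd
      (eq_bot_iff.2 ((le_inf hle hQ.le).trans hMN.le))
    have htop := SolvStr.sup_eq_top_of_isCoatom hco hQM
    have e := Loc.sup_inf_of_le_left hQn hQ.le
    rw [htop, hMN, top_inf_eq, sup_bot_eq] at e
    rw [e, hQ.card_eq_pow] at hrd
    exact hne ((Nat.prime_dvd_prime_iff_eq hr hq).1 (hr.dvd_of_dvd_pow hrd)).symm

end Cfsg.Agent.S3749
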