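import Cfsg.Statements.S3750
import Cfsg.Agent.Gen.Primitive

set_option autoImplicit false
open Cfsg

namespace Cfsg.Agent.S3750

open Subgroup Cfsg.Agent.Loc Cfsg.Agent.Sig

/-- Call a proper subgroup M of G primitive when M = N_G(N) for every non-trivial normal subgroup N of M. Let M be a primitive subgroup of the finite group G and N a normal subgroup of G with M ∩ F*(N) ≠ 1. Then F(G) = 1 and F*(N) = F*(G) = E(G); in particular every minimal normal subgroup of G is contained in N. -/
theorem result {G : Type*} [Group G] [Finite G] (M : Subgroup G) (hM : M ≠ ⊤) (hprim : ∀ N : Subgroup G, N ≤ M → M ≤ Subgroup.normalizer (N : Set G) → N ≠ ⊥ → Subgroup.normalizer (N : Set G) = M) (N : Subgroup G) [N.Normal] (hMF : M ⊓ (Cfsg.generalizedFittingSubgroup ↥N).map N.subtype ≠ ⊥) : Cfsg.fittingSubgroup G = ⊥ ∧ (Cfsg.generalizedFittingSubgroup ↥N).map N.subtype = Cfsg.generalizedFittingSubgroup G ∧ Cfsg.generalizedFittingSubgroup G = Cfsg.layer G ∧ ∀ K : Subgroup G, K.Normal → K ≠ ⊥ → (∀ K' : Subgroup G, K'.Normal → K' ≤ K → K' = ⊥ ∨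 K' = K) → K ≤ N := by
  have h : Gen.Prim M := ⟨hM, hprim⟩
  have hnN : ∀ X : Subgroup G, X ≤ normalizer (N : Set G) := fun X =>
    le_top.trans (normalizer_eq_top N).ge
  have hC : ∀ X : Subgroup G, X.IsSubnormal → X ≤ centralizer (fstarIn N : Set G) → X = ⊥ :=
    fun X hX hle => h.eq_bot_of_isSubnormal hX (h.le_of_le_centralizer inf_le_left
      (le_normalizer_inf le_normalizer (le_normalizer_fstarIn (hnN _))) hMF
      (hle.trans (centralizer_anti inf_le_right)))
  have hsub : SubnIn N ⊤ := SubnIn.top_iff.2 (Normal.isSubnormal inferInstance)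
  have hF : fittingSubgroup G = ⊥ := by
    have hz : fittingSubgroup G ⊓ centralizer (fittingSubgroup G : Set G) = ⊥ := by
      refine hC _ (Gen.isSubnormal_of_le_fitting inf_le_left)
        (le_trans ?_ (centralizer_anti (fstarIn_mono hsub)))
      rw [fstarIn_eq, centralizer_sup', fitIn_top]
      refine le_inf (inf_le_left.trans ?_) inf_le_right
      rw [← fitIn_top]
      exact commutator_eq_bot_iff_le_centralizer'.1 commutator_layerIn_fitIn
    by_contra h0
    have : Nontrivial (fittingSubgroup G) := (nontrivial_iff_ne_bot _).2 h0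
    have h1 := Group.IsNilpotent.center_ne_bot (G := fittingSubgroup G)
    rw [← center_map_subtype, map_eq_bot_iff_of_injective _ (subtype_injective _)] at hz
    exact h1 hz
  have hE : generalizedFittingSubgroup G = layer G := by
    rw [← fstarIn_top, fstarIn_eq, fitIn_top, hF, sup_bot_eq, layerIn_top]
  refine ⟨hF, le_antisymm (fstarIn_top (G := G) ▸ fstarIn_mono hsub) ?_, hE, fun K hK h0 hmin => ?_⟩
  · rw [hE, layer_le_iff]
    intro L hL
    have hL' := compIn_top_iff.2 hL
    rcases hL'.le_or_commutator hsub with h1 | h1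
    · exact (hL'.restrict h1 le_top).le_layerIn.trans layerIn_le_fstarIn
    · exact absurd (hC L (SubnIn.top_iff.1 hL'.subnIn) ((commutator_eq_bot_iff_le_centralizer.1
        h1).trans (centralizer_anti fstarIn_le))) hL'.ne_bot
  · rcases hmin (K ⊓ N) inferInstance inf_le_left with h1 | h1
    · refine absurd (hC K hK.isSubnormal (le_trans ?_ (centralizer_anti fstarIn_le))) h0
      exact commutator_eq_bot_iff_le_centralizer.1
        (eq_bot_iff.2 ((commutator_le_inf K N).trans h1.le))
    · exact inf_eq_left.1 h1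

end Cfsg.Agent.S3750
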