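import Cfsg.Statements.S3751
import Cfsg.Agent.Gen.Primitive

set_option autoImplicit false
open Cfsg

namespace Cfsg.Agent.S3751

open Subgroup Cfsg.Agent.Loc Cfsg.Agent.Sig

/-- Maximal `p`-local subgroups. -/
def MaxLoc {G : Type*} [Group G] (p : ℕ) (M : Subgroup G) : Prop :=
  (∃ T : Subgroup G, IsPGroup p T ∧ T ≠ ⊥ ∧ M = normalizer (T : Set G)) ∧
    ∀ L : Subgroup G, (∃ T : Subgroup G, IsPGroup p T ∧ T ≠ ⊥ ∧ L = normalizer (T : Set G)) →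
      M ≤ L → L = M

theorem exists_maxLoc {G : Type*} [Group G] [Finite G] {p : ℕ} {T : Subgroup G} (hT : IsPGroup p T)
    (h0 : T ≠ ⊥) : ∃ L, MaxLoc p L ∧ normalizer (T : Set G) ≤ L := by
  obtain ⟨L, hle, hL⟩ := Finite.exists_le_maximal
    (p := fun L : Subgroup G => ∃ T : Subgroup G, IsPGroup p T ∧ T ≠ ⊥ ∧ L = normalizer (T : Set G))
    ⟨T, hT, h0, rfl⟩
  exact ⟨L, ⟨hL.prop, fun X hX h => le_antisymm (hL.le_of_ge hX h) h⟩, hle⟩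

theorem MaxLoc.conj {G : Type*} [Group G] {p : ℕ} {M : Subgroup G} (h : MaxLoc p M) (g : G) :
    MaxLoc p (cj g M) := by
  obtain ⟨⟨T, hT, h0, rfl⟩, h2⟩ := h
  refine ⟨⟨cj g T, isPGroup_cj g hT, fun e => h0 (cj_eq_bot_iff.1 e), cj_normalizer g T⟩, ?_⟩
  rintro _ ⟨R, hR, hR0, rfl⟩ hle
  have := h2 _ ⟨cj g⁻¹ R, isPGroup_cj _ hR, fun e => hR0 (cj_eq_bot_iff.1 e), rfl⟩
    (by rw [← cj_normalizer]; exact cj_le_iff.1 hle)
  rw [← this, ← cj_normalizer, cj_cj_inv]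

theorem MaxLoc.charP {G : Type*} [Group G] {p : ℕ} {M : Subgroup G} (h : MaxLoc p M)
    (hloc : IsOfLocalCharacteristic p G) : centralizer (pCore p M : Set M) ≤ pCore p M := by
  obtain ⟨⟨T, hT, h0, rfl⟩, -⟩ := h
  exact hloc.2 T hT h0

theorem MaxLoc.prim {G : Type*} [Group G] [Finite G] {p : ℕ} {M : Subgroup G} (h : MaxLoc p M)
    (hloc : IsOfLocalCharacteristic p G) (hOp : pCore p G = ⊥) : Gen.Prim M := by
  have hc := charP_iff.1 (h.charP hloc)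
  constructor
  · obtain ⟨⟨T, hT, h0, rfl⟩, -⟩ := h
    intro e
    have := normal_of_top_le_normalizer e.ge
    exact h0 (Solv.eq_bot_of_pCore_eq_bot hOp hT)
  · intro A hA hn h0
    have hP : pcIn p A ≠ ⊥ := by
      intro e
      rw [pcIn_eq_inf (SubnIn.of_normal hA hn)] at e
      have := commutator_eq_bot_of_inf_eq_bot (pcIn_le.trans hn)
        (hA.trans (le_normalizer_pcIn le_normalizer)) e
      exact h0 (eq_bot_iff.2 ((le_inf ((le_inf hA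
        (commutator_eq_bot_iff_le_centralizer'.1 this)).trans hc) le_rfl).trans e.le))
    have := h.2 _ ⟨_, isPGroup_pcIn, hP, rfl⟩ (le_normalizer_pcIn hn)
    exact le_antisymm ((le_normalizer_pcIn le_rfl).trans this.le) hn

/-- Two distinct subgroups M₁, M₂ of G form a primitive pair when, for {i, j} = {1, 2}, every non-trivial normal subgroup A of M_i contained in M₁ ∩ M₂ satisfies N_{M_j}(A) = M₁ ∩ M₂; the pair has characteristic p when moreover C_{M_i}(O_p(M_i)) ≤ O_p(M_i) for both i and O_p(M₁)O_p(M₂) ≤ M₁ ∩ M₂. Let G be a finite group, p a prime dividing its order, with O_p(G) = 1 and every p-local subgroup of characteristic p. Then either G has a primitive pair of characteristic p, or every maximal p-local subgroup M of G is strongly p-embedded in G: M is a proper subgroup, p divides its order, and for every g ∉ M the order of M ∩ gMg⁻¹ is prime to p. -/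
theorem result {G : Type*} [Group G] [Finite G] {p : ℕ} [Fact p.Prime] (hloc : Cfsg.IsOfLocalCharacteristic p G) (hOp : Cfsg.pCore p G = ⊥) : (∃ M₁ M₂ : Subgroup G, M₁ ≠ M₂ ∧ (∀ A : Subgroup G, A ≠ ⊥ → A ≤ M₁ ⊓ M₂ → (M₁ ≤ Subgroup.normalizer (A : Set G) → M₂ ⊓ Subgroup.normalizer (A : Set G) = M₁ ⊓ M₂) ∧ (M₂ ≤ Subgroup.normalizer (A : Set G) → M₁ ⊓ Subgroup.normalizer (A : Set G) = M₁ ⊓ M₂)) ∧ Subgroup.centralizer (Cfsg.pCore p ↥M₁ : Set ↥M₁) ≤ Cfsg.pCore p ↥M₁ ∧ Subgroup.centralizer (Cfsg.pCore p ↥M₂ : Set ↥M₂) ≤ Cfsg.pCore p ↥M₂ ∧ (Cfsg.pCore p ↥M₁).map M₁.subtype ⊔ (Cfsg.pCore p ↥M₂).map M₂.subtype ≤ M₁ ⊓ M₂) ∨ (∀ M : Subgroup G, (∃ T : Subgroup G, IsPGroup p T ∧ T ≠ ⊥ ∧ M = Subgroup.normalizer (T : Set G)) → (∀ L : Subgroup G, (∃ T : Subgroup G, IsPGroup p T ∧ T ≠ ⊥ ∧ L = Subgroup.normalizer (T : Set G)) → M ≤ L → L = M) → M ≠ ⊤ ∧ p ∣ Nat.card M ∧ ∀ g : G, g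 ∉ M → ¬ p ∣ Nat.card ↥(M ⊓ M.map (MulAut.conj g).toMonoidHom)) := by
  refine or_iff_not_imp_right.2 fun hcon => ?_
  push Not at hcon
  obtain ⟨M, hM1, hM2, hM3⟩ := hcon
  have hM : MaxLoc p M := ⟨hM1, hM2⟩
  have hprim := hM.prim hloc hOp
  have hpM : p ∣ Nat.card M := by
    obtain ⟨T, hT, h0, rfl⟩ := hM1
    exact (dvd_card_of_isPGroup hT h0).trans (card_dvd_of_le le_normalizer)
  obtain ⟨g, hg, hdvd⟩ := hM3 hprim.1 hpM
  have hne : ∀ X : Subgroup G, MaxLoc p X → ∀ x, x ∉ X → X ≠ cj x X := by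
    intro X hX x hx e
    have h0 : X ≠ ⊥ := by
      obtain ⟨⟨T, hT, h0, rfl⟩, -⟩ := hX
      exact fun e => h0 (eq_bot_iff.2 (le_normalizer.trans e.le))
    exact hx ((hX.prim hloc hOp).2 X le_rfl le_normalizer h0 ▸ mem_normalizer_iff_cj.2 e.symm)
  have fin : ∀ X Y T : Subgroup G, MaxLoc p X → MaxLoc p Y → X ≠ Y → SylIn p T X → SylIn p T Y →
      ∃ M₁ M₂ : Subgroup G, M₁ ≠ M₂ ∧ (∀ A : Subgroup G, A ≠ ⊥ → A ≤ M₁ ⊓ M₂ →
        (M₁ ≤ normalizer (A : Set G) → M₂ ⊓ normalizer (A : Set G) = M₁ ⊓ M₂) ∧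
        (M₂ ≤ normalizer (A : Set G) → M₁ ⊓ normalizer (A : Set G) = M₁ ⊓ M₂)) ∧
        centralizer (pCore p ↥M₁ : Set ↥M₁) ≤ pCore p ↥M₁ ∧
        centralizer (pCore p ↥M₂ : Set ↥M₂) ≤ pCore p ↥M₂ ∧
        (pCore p ↥M₁).map M₁.subtype ⊔ (pCore p ↥M₂).map M₂.subtype ≤ M₁ ⊓ M₂ :=
    fun X Y T hX hY hXY h1 h2 => ⟨X, Y, hXY,
      (Gen.PPair.of_prim (hX.prim hloc hOp) (hY.prim hloc hOp) hXY).2, hX.charP hloc, hY.charP hloc,
      (sup_le h1.pCoreOf_le h2.pCoreOf_le).trans (le_inf h1.le h2.le)⟩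
  obtain ⟨T₀, hT₀⟩ := exists_sylIn p (M ⊓ cj g M)
  obtain ⟨T, hT₀T, hT⟩ := Finite.exists_le_maximal
    (p := fun T : Subgroup G => IsPGroup p T ∧ ∃ X Y, MaxLoc p X ∧ MaxLoc p Y ∧ X ≠ Y ∧ T ≤ X ∧ T ≤ Y)
    ⟨hT₀.pg, M, cj g M, hM, hM.conj g, hne M hM g hg, hT₀.le.trans inf_le_left,
      hT₀.le.trans inf_le_right⟩
  obtain ⟨hTp, X, Y, hX, hY, hXY, hTX, hTY⟩ := hT.prop
  have hT0 : T ≠ ⊥ := fun e => hT₀.ne_bot hdvd (eq_bot_iff.2 (hT₀T.trans e.le))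
  obtain ⟨L, hL, hTL⟩ := exists_maxLoc hTp hT0
  have hs : ∀ X, MaxLoc p X → T ≤ X → X ≠ L → SylIn p T X := by
    intro X hX hTX hXL
    refine sylIn_of_sylIn_normalizer ⟨le_inf hTX le_normalizer, hTp, fun Q hQ hQp hTQ => ?_⟩
    exact le_antisymm (hT.le_of_ge ⟨hQp, X, L, hX, hL, hXL, hQ.trans inf_le_left,
      hQ.trans (inf_le_right.trans hTL)⟩ hTQ) hTQ
  have fin2 : ∀ X Y : Subgroup G, MaxLoc p X → MaxLoc p Y → X ≠ Y → SylIn p T X → T ≤ Y →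
      (∃ X Y T : Subgroup G, MaxLoc p X ∧ MaxLoc p Y ∧ X ≠ Y ∧ SylIn p T X ∧ SylIn p T Y) := by
    intro X Y hX hY hXY h1 h2
    by_cases hN : normalizer (T : Set G) ≤ X
    · refine ⟨X, Y, T, hX, hY, hXY, h1, sylIn_of_sylIn_normalizer ?_⟩
      exact h1.mono (le_inf h2 le_normalizer) (inf_le_right.trans hN)
    · obtain ⟨x, hx, hxX⟩ := SetLike.not_le_iff_exists.1 hN
      refine ⟨X, cj x X, T, hX, hX.conj x, hne X hX x hxX, h1, ?_⟩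
      have := h1.conj x
      rwa [cj_eq_of_mem_normalizer hx] at this
  by_cases hXL : X = L
  · obtain ⟨X', Y', T', a, b, c, d, e⟩ :=
      fin2 Y X hY hX hXY.symm (hs Y hY hTY (hXL ▸ hXY.symm)) hTX
    exact fin X' Y' T' a b c d e
  · obtain ⟨X', Y', T', a, b, c, d, e⟩ := fin2 X Y hX hY hXY (hs X hX hTX hXL) hTY
    exact fin X' Y' T' a b c d e

end Cfsg.Agent.S3751
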