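import Cfsg.Statements.S3753
import Cfsg.Agent.S0626
import Cfsg.Agent.Gen.Primitive

set_option autoImplicit false
open Cfsg

namespace Cfsg.Agent.S3753

open Subgroup Cfsg.Agent.Loc Cfsg.Agent.Sig

/-- Two distinct subgroups M₁, M₂ of G form a primitive pair when, for {i, j} = {1, 2}, every non-trivial normal subgroup A of M_i contained in M₁ ∩ M₂ satisfies N_{M_j}(A) = M₁ ∩ M₂; the pair has characteristic p when moreover C_{M_i}(O_p(M_i)) ≤ O_p(M_i) for both i and O_p(M₁)O_p(M₂) ≤ M₁ ∩ M₂. If the finite group G has a primitive pair (M₁, M₂) of characteristic p for some prime p, then M₁ or M₂ has non-abelian Sylow 2-subgroups. In particular no group of odd order has a primitive pair of characteristic p. -/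
theorem result {G : Type*} [Group G] [Finite G] {p : ℕ} [Fact p.Prime] (M₁ M₂ : Subgroup G) (hne : M₁ ≠ M₂) (hP : ∀ A : Subgroup G, A ≠ ⊥ → A ≤ M₁ ⊓ M₂ → (M₁ ≤ Subgroup.normalizer (A : Set G) → M₂ ⊓ Subgroup.normalizer (A : Set G) = M₁ ⊓ M₂) ∧ (M₂ ≤ Subgroup.normalizer (A : Set G) → M₁ ⊓ Subgroup.normalizer (A : Set G) = M₁ ⊓ M₂)) (hc₁ : Subgroup.centralizer (Cfsg.pCore p ↥M₁ : Set ↥M₁) ≤ Cfsg.pCore p ↥M₁) (hc₂ : Subgroup.centralizer (Cfsg.pCore p ↥M₂ : Set ↥M₂) ≤ Cfsg.pCore p ↥M₂) (hO : (Cfsg.pCore p ↥M₁).map M₁.subtype ⊔ (Cfsg.pCore p ↥M₂).map M₂.subtype ≤ M₁ ⊓ M₂) : (∃ S : Sylow 2 ↥M₁, ¬ IsMulCommutative (S : Subgroup ↥M₁)) ∨ (∃ S : Sylow 2 ↥M₂, ¬ IsMulCommutative (S : Subgroup ↥M₂)) := by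
  by_contra hcon
  push Not at hcon
  obtain ⟨a₁, a₂⟩ := hcon
  have h : Gen.PPair M₁ M₂ := ⟨hne, hP⟩
  have q₁ : pcIn p M₁ ≤ M₂ := (le_sup_left.trans hO).trans inf_le_right
  have q₂ : pcIn p M₂ ≤ M₁ := (le_sup_right.trans hO).trans inf_le_left
  by_cases hp : p = 2
  · subst hp
    have key : ∀ X Y : Subgroup G, (∀ S : Sylow 2 Y, IsMulCommutative (S : Subgroup Y)) →
        centralizer (pCore 2 Y : Set Y) ≤ pCore 2 Y → pcIn 2 X ≤ Y → pcIn 2 X ≤ pcIn 2 Y := by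
      intro X Y hY hc hle
      obtain ⟨T, hT, hXT⟩ := exists_sylIn_ge hle isPGroup_pcIn
      obtain ⟨S, rfl⟩ := hT.exists_sylow
      have := PLocal.le_centralizer_self (PLocal.isMulCommutative_map Y.subtype (hY S))
      exact (le_inf hle ((hXT.trans this).trans (centralizer_anti hT.pCoreOf_le))).trans
        (charP_iff.1 hc)
    have e := le_antisymm (key _ _ a₂ hc₂ q₁) (key _ _ a₁ hc₁ q₂)
    exact h.pcIn_ne_bot (charP_iff.1 hc₁) (charP_iff.1 hc₂) q₁ (h.eq_bot q₂ pcIn_le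
      (e ▸ le_normalizer_pcIn le_normalizer) (le_normalizer_pcIn le_normalizer))
  · exact h.not_stable (Gen.stabCharP_of_isActionPStable hc₁ (Cfsg.Agent.S0626.result hp a₁))
      (Gen.stabCharP_of_isActionPStable hc₂ (Cfsg.Agent.S0626.result hp a₂)) q₁ q₂

end Cfsg.Agent.S3753
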