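import Cfsg.Statements.S3754
import Cfsg.Agent.Loc.SFF2

set_option autoImplicit false
open Cfsg

namespace Cfsg.Agent.S3754

/-- Let M be a finite p-soluble group and A a p-subgroup of M with Φ(A) ≤ O_p(M) but A ≰ O_p(M). Then there is x ∈ O_{p,p'}(M) such that L = ⟨A, xAx⁻¹⟩ satisfies: x ∈ O^p(L) and O^p(L) ≤ O_{p,p'}(M); [O^p(L), A] = O^p(L); A ∩ O_p(L) has index p in A; and [A ∩ O_p(L), L] ≤ O_p(M). Here O^p(L) is the subgroup generated by the p'-elements of L and O_{p,p'}(M) the preimage of O_{p'}(M/O_p(M)). -/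
theorem result {M : Type*} [Group M] [Finite M] {p : ℕ} [Fact p.Prime] (hM : Cfsg.IsPSolvable p M) (A : Subgroup M) (hA : IsPGroup p A) (hΦ : (frattini ↥A).map A.subtype ≤ Cfsg.pCore p M) (hnot : ¬ A ≤ Cfsg.pCore p M) : ∃ x ∈ (Cfsg.pPrimeCore p (M ⧸ Cfsg.pCore p M)).comap (QuotientGroup.mk' (Cfsg.pCore p M)), x ∈ (Cfsg.pResidual p ↥(A ⊔ A.map (MulAut.conj x).toMonoidHom)).map (A ⊔ A.map (MulAut.conj x).toMonoidHom).subtype ∧ (Cfsg.pResidual p ↥(A ⊔ A.map (MulAut.conj x).toMonoidHom)).map (A ⊔ A.map (MulAut.conj x).toMonoidHom).subtype ≤ (Cfsg.pPrimeCore p (M ⧸ Cfsg.pCore p M)).comap (QuotientGroup.mk' (Cfsg.pCore p M)) ∧ ⁅(Cfsg.pResidual p ↥(A ⊔ A.map (MulAut.conj x).toMonoidHom)).map (A ⊔ A.map (MulAut.conj x).toMonoidHom).subtype, A⁆ = (Cfsg.pResidual p ↥(A ⊔ A.map (MulAut.conj x).toMonoidHom)).map (A ⊔ A.map (MulAut.conj x).toMonoidHom).subtype ∧ (A ⊓ (Cfsg.pCore p ↥(A ⊔ A.map (MulAut.conj x).toMonoidHom)).map (A ⊔ A.map (MulAut.conj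 x).toMonoidHom).subtype).relIndex A = p ∧ ⁅A ⊓ (Cfsg.pCore p ↥(A ⊔ A.map (MulAut.conj x).toMonoidHom)).map (A ⊔ A.map (MulAut.conj x).toMonoidHom).subtype, A ⊔ A.map (MulAut.conj x).toMonoidHom⁆ ≤ Cfsg.pCore p M := by
  open Cfsg.Agent.Loc Subgroup in
  open scoped commutatorElement in
  set Q := pCore p M with hQ
  set π := QuotientGroup.mk' Q with hπ
  set N := (pPrimeCore p (M ⧸ Q)).comap π with hN
  have pQ : IsPGroup p Q := isPGroup_pCore p M
  have hco : (Nat.card (pPrimeCore p (M ⧸ Q))).Coprime p := by rw [← Sig.ppIn_top]; exact Sig.coprime_ppIn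
  have ker : ∀ X : Subgroup M, X.map π = ⊥ ↔ X ≤ Q := fun X => by rw [Subgroup.map_eq_bot_iff, QuotientGroup.ker_mk']
  have inQ : ∀ X ≤ N, IsPGroup p X → X ≤ Q := fun X h1 h2 => (ker X).1
    (eq_bot_of_isPGroup_of_coprime (h2.map π) (Sig.coprime_card_of_le (map_le_iff_le_comap.2 h1) hco))
  have AA : ⁅A, A⁆ ≤ Q := (Solv.commutator_le_map_frattini hA).trans hΦ
  have ea : IsElementaryAbelian p (A.map π) := isElementaryAbelian_iff.2 ⟨commutator_eq_bot_iff'.1 (by
    rw [← map_commutator, ker]; exact AA), by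
    rintro _ ⟨a, ha, rfl⟩
    rw [← map_pow]; exact (QuotientGroup.eq_one_iff _).2 (hΦ (Solv.pow_mem_map_frattini hA ha))⟩
  obtain ⟨B, hB, hi, hn⟩ : ∃ B ≤ A.map π, B.relIndex (A.map π) ∣ p ∧
      ¬ pPrimeCore p (M ⧸ Q) ⊓ centralizer (B : Set (M ⧸ Q)) ≤ centralizer ((A.map π : Subgroup _) : Set (M ⧸ Q)) := by
    by_contra! hh
    have := le_centralizer_iff.1 (BG.coprime_abelem_gen_cent ea le_normalizer_of_normal
      (Sig.coprime_of_isPGroup_of_coprime (hA.map π) hco).symm hh)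
    exact hnot ((ker A).1 (eq_bot_of_isPGroup_of_coprime (hA.map π) (Sig.coprime_card_of_le (this.trans
      (PLocal.centralizer_pPrimeCore_le_of_pSolv (PLocal.pSolv_quotient hM Q) (pCore_quotient_pCore p M))) hco)))
  set A₀ := A ⊓ B.comap π with hA₀
  set D := (pPrimeCore p (M ⧸ Q) ⊓ centralizer (B : Set (M ⧸ Q))).comap π with hD
  have DN : D ≤ N := comap_mono inf_le_left
  have AD : A ≤ normalizer (D : Set M) := by
    refine le_normalizer_of_cj_eq fun a ha => ?_
    rw [hD, ← comap_cj, cj_eq_of_mem_normalizer (le_normalizer_inf le_normalizer_of_normal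
      (le_normalizer_centralizer (le_normalizer_of_le_centralizer
      ((isElementaryAbelian_iff.1 ea).1.trans (centralizer_anti hB)))) (mem_map_of_mem π ha))]
  have c0 : ⁅A₀, D ⊔ A⁆ ≤ Q := commutator_sup_right_le le_normalizer_of_normal le_normalizer_of_normal
    ((ker _).1 (by
      rw [map_commutator, commutator_eq_bot_iff']
      exact (map_comap_le _ _).trans (inf_le_right.trans (centralizer_anti (map_le_iff_le_comap.2 inf_le_right)))))
    ((commutator_mono inf_le_left le_rfl).trans AA)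
  have cQ : ∀ K ≤ N, ∀ L, K ≤ L → A ≤ pCoreOf p L → ⁅K, A⁆ ≤ Q := fun K h1 L h2 h3 => inQ _
    ((commutator_le_left_of_le_normalizer le_normalizer_of_normal).trans' (commutator_mono h1 le_rfl))
    ((isPGroup_pCoreOf p L).to_le ((commutator_mono h2 h3).trans
      (commutator_le_right_of_le_normalizer (le_normalizer_pCoreOf p L))))
  obtain ⟨L, -, hL⟩ := exists_minimal_le_of_wellFoundedLT (P := fun L => A ≤ L ∧ L ≤ D ⊔ A ∧ ¬ A ≤ pCoreOf p L)
    (a := D ⊔ A) ⟨le_sup_right, le_rfl, fun e => hn (by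
      have := (ker _).2 (cQ D DN _ le_sup_left e)
      rwa [map_commutator, hD, map_comap_eq_self_of_surjective (QuotientGroup.mk'_surjective Q),
        commutator_eq_bot_iff_le_centralizer] at this)⟩
  obtain ⟨h1, h2, h3⟩ := hL.prop
  have min : ∀ X, A ≤ X → X ≤ L → ¬ A ≤ pCoreOf p X → X = L := fun X a b c =>
    le_antisymm b (hL.le_of_le ⟨a, b.trans h2, c⟩ b)
  have sub : ∀ X, A ≤ X → Sig.SubnIn X L → X = L := fun X a b =>
    min X a b.le fun e => h3 (e.trans (pCoreOf_le_of_subnIn b))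
  set K := pResidualOf p L with hK
  have KD : K ≤ D := pResidualOf_le_of_le_sup hA AD h2
  have KL : K ≤ L := pResidualOf_le p L
  have e1 : K ⊔ A = L := sub _ le_sup_right (subnIn_of_pResidualOf_le le_sup_left (sup_le KL h1))
  have nK : A ≤ normalizer (K : Set M) := h1.trans (le_normalizer_pResidualOf p L)
  have e2 : A ⊔ ⁅K, A⁆ = L := sub _ le_sup_left (Sig.SubnIn.of_normal (sup_le h1 ((commutator_mono KL h1).trans
    (commutator_le_left_of_le_normalizer le_normalizer))) (e1.ge.trans (sup_le (le_normalizer_sup_commutator A K)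
    (le_normalizer_of_le le_sup_left))))
  have e3 : ⁅K, A⁆ = K := le_antisymm (commutator_le_left_of_le_normalizer nK) (pResidualOf_le_of_le_sup hA
    (le_normalizer_commutator nK le_normalizer) (by rw [sup_comm, e2]))
  obtain ⟨x, hx, hxA⟩ : ∃ x ∈ K, ¬ A ≤ pCoreOf p (A ⊔ cj x A) := by
    by_contra! hh
    have : K ≤ Q := by
      rw [← e3, commutator_le]
      intro x hx a ha
      have pL : IsPGroup p (A ⊔ cj x A : Subgroup M) := (IsPGroup.to_sup_of_normal_left' (isPGroup_pCoreOf p _)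
        (isPGroup_cj x hA) (le_sup_right.trans (le_normalizer_pCoreOf p _))).to_le (sup_le_sup_right (hh x hx) _)
      refine inQ (N ⊓ (A ⊔ cj x A)) inf_le_left (pL.to_le inf_le_right) ⟨?_, ?_⟩
      · exact DN (KD (e3.le (commutator_mem_commutator hx ha)))
      · exact mul_mem (mem_sup_right (conj_mem_cj ha)) (mem_sup_left (inv_mem ha))
    exact h3 (by rw [pCoreOf_eq_self (isPGroup_of_pResidualOf_le pQ this)]; exact h1)
  have e4 : A ⊔ cj x A = L := min _ le_sup_left (sup_le h1 (cj_le_of_mem (KL hx) h1)) hxA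
  have c1 : ⁅A₀, L⁆ ≤ Q := (commutator_mono le_rfl h2).trans c0
  have l0 : A₀ ≤ A ⊓ pCoreOf p L := by
    refine le_inf inf_le_left (le_sup_right.trans (le_pCoreOf (Q := (Q ⊓ L) ⊔ A₀)
      (sup_le inf_le_right (inf_le_left.trans h1)) (le_normalizer_of_commutator_le' ?_)
      (IsPGroup.to_sup_of_normal_left' (pQ.to_le inf_le_left) (hA.to_le inf_le_left) ((inf_le_left.trans h1).trans
        (le_normalizer_inf le_normalizer_of_normal le_normalizer)))))
    have nn : L ≤ normalizer ((Q ⊓ L : Subgroup M) : Set M) := le_normalizer_inf le_normalizer_of_normal le_normalizer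
    refine (commutator_sup_left_le (inf_le_right.trans nn) ((inf_le_left.trans h1).trans nn)
      (commutator_le_left_of_le_normalizer nn) (le_inf c1 (commutator_le_right_of_le_normalizer
      ((inf_le_left.trans h1).trans le_normalizer)))).trans le_sup_left
  have i0 : A₀.relIndex A ∣ p := by rwa [hA₀, inf_relIndex_left, relIndex_comap]
  have i1 : (A ⊓ pCoreOf p L).relIndex A = p := ((Nat.dvd_prime Fact.out).1
    ((relIndex_dvd_of_le_left A l0).trans i0)).resolve_left fun e => h3 ((relIndex_eq_one.1 e).trans inf_le_right)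
  have e5 : A ⊓ pCoreOf p L = A₀ := by
    refine (relIndex_eq_one.1 ?_).antisymm l0
    have := relIndex_mul_relIndex _ _ _ l0 (inf_le_left : A ⊓ pCoreOf p L ≤ A)
    rw [← this, i1] at i0
    exact Nat.dvd_one.1 (Nat.dvd_of_mul_dvd_mul_right (Fact.out : p.Prime).pos (by rwa [one_mul]))
  refine ⟨x, DN (KD hx), ?_⟩
  change x ∈ pResidualOf p (A ⊔ cj x A) ∧ pResidualOf p (A ⊔ cj x A) ≤ N ∧
    ⁅pResidualOf p (A ⊔ cj x A), A⁆ = pResidualOf p (A ⊔ cj x A) ∧ (A ⊓ pCoreOf p (A ⊔ cj x A)).relIndex A = p ∧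
    ⁅A ⊓ pCoreOf p (A ⊔ cj x A), A ⊔ cj x A⁆ ≤ Q
  rw [e4]
  exact ⟨hx, KD.trans DN, e3, i1, e5 ▸ c1⟩

end Cfsg.Agent.S3754
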