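import Cfsg.Statements.S3760
import Cfsg.Agent.Loc.Conj

set_option autoImplicit false
open Cfsg

namespace Cfsg.Agent.S3760

open Subgroup Cfsg.Agent.Loc

/-- Let the group G act transitively on a set X, let x ∈ X with stabilizer H = G_x, and let K ≤ H. Then N_G(K) acts transitively on the set of fixed points of K if and only if every G-conjugate of K contained in H is already an H-conjugate of K. -/
theorem result {G : Type*} [Group G] {X : Type*} [MulAction G X] (htrans : ∀ a b : X, ∃ g : G, g • a = b) (x : X) (K : Subgroup G) (hK : K ≤ MulAction.stabilizer G x) : (∀ a b : X, (∀ k ∈ K, k • a = a) → (∀ k ∈ K, k • b = b) → ∃ g ∈ Subgroup.normalizer (K : Set G), g • a = b) ↔ ∀ g : G, K.map (MulAut.conj g).toMonoidHom ≤ MulAction.stabilizer G x → ∃ h ∈ MulAction.stabilizer G x, K.map (MulAut.conj g).toMonoidHom = K.map (MulAut.conj h).toMonoidHom := by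
  have hfix : ∀ g : G, cj g K ≤ MulAction.stabilizer G x ↔ ∀ k ∈ K, k • g⁻¹ • x = g⁻¹ • x := by
    intro g
    rw [cj_le_iff_forall]
    refine forall₂_congr fun k hk => ?_
    rw [MulAction.mem_stabilizer_iff, mul_smul, mul_smul, smul_eq_iff_eq_inv_smul]
  constructor
  · intro h g hg
    obtain ⟨n, hn, e⟩ := h x (g⁻¹ • x) (fun k hk => hK hk) ((hfix g).1 hg)
    refine ⟨g * n, ?_, ?_⟩
    · rw [MulAction.mem_stabilizer_iff, mul_smul, e, smul_inv_smul]
    · rw [← cj_cj, cj_eq_of_mem_normalizer hn]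
  · intro h
    have key : ∀ a : X, (∀ k ∈ K, k • a = a) → ∃ g ∈ normalizer (K : Set G), g • a = x := by
      intro a ha
      obtain ⟨g, hg⟩ := htrans a x
      obtain ⟨s, hs, e⟩ := h g ((hfix g).2 (by rwa [← hg, inv_smul_smul]))
      refine ⟨s⁻¹ * g, mem_normalizer_iff_cj.2 ?_, ?_⟩
      · rw [← cj_cj, e, cj_inv_cj]
      · rw [mul_smul, hg]
        exact (MulAction.stabilizer G x).inv_mem hs
    intro a b ha hb
    obtain ⟨g, hg, e⟩ := key a ha
    obtain ⟨g', hg', e'⟩ := key b hb
    exact ⟨g'⁻¹ * g, mul_mem (inv_mem hg') hg, by rw [mul_smul, e, ← e', inv_smul_smul]⟩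

end Cfsg.Agent.S3760
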