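import Cfsg.Statements.S3761
import Cfsg.Agent.PGrp.Sympl

set_option autoImplicit false
open Cfsg

namespace Cfsg.Agent.S3761

open Cfsg.Agent.PGrp Subgroup

/-- Let G be a finite non-abelian p-group with a cyclic normal subgroup U of order p^n such that C_G(U) = U. Then either p = 2 and G is dihedral, generalized quaternion or semidihedral of order 2^(n+1); or, writing U₁ for the subgroup generated by the p-th powers of elements of U and M = C_G(U₁), the subgroup U has index p in M and the subgroup Ω₁(M) generated by the elements of M of order dividing p is elementary abelian of order p² and characteristic in G. -/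
theorem result {G : Type*} [Group G] [Finite G] {p : ℕ} [Fact p.Prime] (hG : IsPGroup p G) (hna : ¬ IsMulCommutative G) (U : Subgroup G) [U.Normal] (hU : IsCyclic U) (n : ℕ) (hUn : Nat.card U = p ^ n) (hC : Subgroup.centralizer (U : Set G) = U) : (p = 2 ∧ Nat.card G = 2 ^ (n + 1) ∧ ((∃ m : ℕ, Nonempty (G ≃* DihedralGroup m)) ∨ (∃ m : ℕ, Nonempty (G ≃* QuaternionGroup m)) ∨ Cfsg.IsQuasiDihedral G)) ∨ (U.relIndex (Subgroup.centralizer (Cfsg.powerClosure p 1 U : Set G)) = p ∧ Cfsg.IsElementaryAbelian p (Cfsg.omegaOne p (Subgroup.centralizer (Cfsg.powerClosure p 1 U : Set G))) ∧ Nat.card ↥(Cfsg.omegaOne p (Subgroup.centralizer (Cfsg.powerClosure p 1 U : Set G))) = p ^ 2 ∧ (Cfsg.omegaOne p (Subgroup.centralizer (Cfsg.powerClosure p 1 U : Set G))).Characteristic) := by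
  obtain ⟨a, rfl⟩ := (Subgroup.isCyclic_iff_exists_zpowers_eq_top U).mp hU
  rw [Nat.card_zpowers] at hUn
  have hne : zpowers a ≠ ⊤ := fun e => by
    have : IsCyclic G := _root_.isCyclic_iff_exists_zpowers_eq_top.2 ⟨a, e⟩
    exact hna IsCyclic.isMulCommutative
  rcases mc_or_modu hG hUn hC hne with ⟨h2, x, h⟩ | ⟨x, k, h⟩
  · refine .inl ⟨h2, h.card, ?_⟩
    rcases h.dqs_cases with e | e | e
    exacts [.inl ⟨_, e⟩, .inr (.inl ⟨_, e⟩), .inr (.inr e)]
  · rw [powerClosure_zpowers]
    exact .inr ⟨h.relIndex_eq, h.omega_eq ▸ h.elem, h.omega_eq ▸ h.card, h.characteristic hG⟩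

end Cfsg.Agent.S3761
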