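import Cfsg.Statements.S3763
import Cfsg.Agent.PGrp.ES
import Mathlib.Tactic.Group

set_option autoImplicit false
open Cfsg

namespace Cfsg.Agent.S3763
open scoped commutatorElement
open PGrp

/-- Let E be an extraspecial 2-group of order 2^(2n+1). Then the largest elementary abelian subgroups of E have order 2^n or 2^(n+1); and two extraspecial 2-groups of the same order whose largest elementary abelian subgroups have the same order are isomorphic. -/
theorem result {E : Type*} [Group E] [Finite E] (hE : Cfsg.IsExtraspecial 2 E) (n : ℕ) (hn : Nat.card E = 2 ^ (2 * n + 1)) : ((Cfsg.PRankLE 2 n E ∧ ¬ Cfsg.PRankLE 2 (n - 1) E) ∨ (Cfsg.PRankLE 2 (n + 1) E ∧ ¬ Cfsg.PRankLE 2 n E)) ∧ ∀ (E' : Type*) [Group E'] [Finite E'], Cfsg.IsExtraspecial 2 E' → Nat.card E' = Nat.card E → (∀ k : ℕ, Cfsg.PRankLE 2 k E ↔ Cfsg.PRankLE 2 k E') → Nonempty (E ≃* E') := by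
  obtain ⟨z, hz, hZ⟩ := exists_isES hE
  obtain ⟨m, hm⟩ := ES_card hE
  obtain rfl : n = m + 1 := by
    have := Nat.pow_right_injective le_rfl (hn.symm.trans hm)
    omega
  refine ⟨?_, fun E' _ _ hE' hc h => ?_⟩
  · rcases hz.wittIndex_cases hZ hm with u | u <;> simp only [hz.pRankLE_iff u] <;> omega
  · obtain ⟨z', hz', hZ'⟩ := exists_isES hE'
    obtain ⟨k, hk⟩ := (hz.quad_nondeg_iff.2 hZ).exists_wittIndex
    obtain ⟨k', hk'⟩ := (hz'.quad_nondeg_iff.2 hZ').exists_wittIndex
    simp only [hz.pRankLE_iff hk, hz'.pRankLE_iff hk'] at h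
    obtain rfl : k = k' := by
      have := (h _).1 le_rfl
      have := (h _).2 le_rfl
      omega
    exact ⟨(hz.exists_mulEquiv_of_wittIndex hz' hZ hZ' hc.symm hk hk').choose⟩

end Cfsg.Agent.S3763
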