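import Cfsg.Statements.S3766
import Cfsg.Agent.BG.Base6

set_option autoImplicit false
open Cfsg

namespace Cfsg.Agent.S3766

open Cfsg.Agent.BG
open scoped commutatorElement

theorem chief_of {G : Type*} [Group G] {U V : Subgroup G} (h : ChiefF ⊤ V U) :
    U.Normal ∧ V.Normal ∧ V < U ∧ ∀ W : Subgroup G, W.Normal → V ≤ W → W ≤ U → W = V ∨ W = U :=
  ⟨h.normalU.normal, h.normalV.normal, h.lt, fun W hW h1 h2 => h.max W h1 h2 (norm_of_normal W ⊤)⟩

theorem of_chief {G : Type*} [Group G] {U V : Subgroup G}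
    (h : U.Normal ∧ V.Normal ∧ V < U ∧ ∀ W : Subgroup G, W.Normal → V ≤ W → W ≤ U → W = V ∨ W = U) :
    ChiefF ⊤ V U := by
  obtain ⟨hU, hV, hlt, hmax⟩ := h
  exact ⟨hlt, le_top, norm_of_normal V ⊤, norm_of_normal U ⊤,
    fun X h1 h2 hX => hmax X (NormalIn.normal ⟨le_top, hX⟩) h1 h2⟩

theorem key {G : Type*} [Group G] [Finite G] (hG : Group.IsSolvable G) (N : Subgroup G) [N.Normal]
    (g : G) (hg : g ∈ N) (h : ∀ U V : Subgroup G, ChiefF ⊤ V U → U ≤ fittingOf N →
      ∀ u ∈ U, ⁅u, g⁆ ∈ V) : g ∈ fittingOf N := by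
  -- `K`: the elements of `N` centralizing every chief factor below `F(N)`
  have hNn : N ⊴ ⊤ := normal_top N
  have hF : fittingOf N ⊴ ⊤ := hNn.Fitting
  let K : Subgroup G :=
    { carrier := {x | x ∈ N ∧ ∀ U V : Subgroup G, ChiefF ⊤ V U → U ≤ fittingOf N → ∀ u ∈ U, ⁅u, x⁆ ∈ V}
      one_mem' := ⟨one_mem _, fun U V _ _ u _ => by simp⟩
      mul_mem' := by
        rintro a b ⟨ha, ha'⟩ ⟨hb, hb'⟩
        refine ⟨mul_mem ha hb, fun U V hc hU u hu => ?_⟩
        have e : ⁅u, a * b⁆ = ⁅u, a⁆ * (a * ⁅u, b⁆ * a⁻¹) := by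
          simp only [commutatorElement_def]; group
        rw [e]
        exact mul_mem (ha' U V hc hU u hu) (hc.normalV.conj_mem trivial (hb' U V hc hU u hu))
      inv_mem' := by
        rintro a ⟨ha, ha'⟩
        refine ⟨inv_mem ha, fun U V hc hU u hu => ?_⟩
        have e : ⁅u, a⁻¹⁆ = a⁻¹ * ⁅u, a⁆⁻¹ * a⁻¹⁻¹ := by
          simp only [commutatorElement_def]; group
        rw [e]
        exact hc.normalV.conj_mem trivial (inv_mem (ha' U V hc hU u hu)) }
  have hKN : K ≤ N := fun x hx => hx.1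
  have hKn : K ⊴ ⊤ := by
    refine ⟨le_top, le_norm_iff.2 fun y _ x hx => ⟨hNn.conj_mem trivial hx.1, fun U V hc hU u hu => ?_⟩⟩
    have e : ⁅u, y * x * y⁻¹⁆ = y * ⁅y⁻¹ * u * y⁻¹⁻¹, x⁆ * y⁻¹ := by
      simp only [commutatorElement_def]; group
    rw [e]
    exact hc.normalV.conj_mem trivial (hx.2 U V hc hU _ (hc.normalU.conj_mem trivial hu))
  have hKs : ∀ U V : Subgroup G, ChiefF ⊤ V U → U ≤ fittingOf N → ⁅U, K⁆ ≤ V :=
    fun U V hc hU => Subgroup.commutator_le.2 fun u hu x hx => hx.2 U V hc hU u hu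
  -- minimal counterexample: a chief factor `L / F(K)`
  suffices hK : K ≤ fittingOf N from hK ⟨hg, h⟩
  have hFK : fittingOf K ⊴ ⊤ := hKn.Fitting
  have hFKN : fittingOf K ≤ fittingOf N :=
    FittingS_normal (hKn.subl hKN le_top)
  by_contra hne
  have hlt : fittingOf K < K := lt_of_le_of_ne (Fitting_sub K) fun e => hne (e ▸ hFKN)
  obtain ⟨L, hLK, hL⟩ := chief_factor_exists hFK hKn hlt
  have hLn : L ⊴ ⊤ := hL.normalU
  have hLs : Group.IsSolvable L := solvable_of L
  have : L ≤ fittingOf ⊤ := by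
    refine chief_stab_sub_Fitting hLn fun V U hc hU => ?_
    by_cases hUF : U ≤ fittingOf K
    · exact (commgS U hLK).trans (hKs U V hc (hUF.trans hFKN))
    · -- `U F(K) = L`, so `U / V` is `L / F(K)` or lies below
      have h1 : fittingOf K ⊔ U = L := by
        rcases hL.max (fittingOf K ⊔ U) le_sup_left (sup_le hL.lt.le hU)
          (hFK.sup hc.normalU).2 with e | e
        · exact absurd (e ▸ le_sup_right : U ≤ fittingOf K) hUF
        · exact e
      -- `V ⊔ (U ⊓ F(K))` is `V` or `U`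
      rcases hc.max (V ⊔ (U ⊓ fittingOf K)) le_sup_left (sup_le hc.lt.le inf_le_left)
          (hc.normalV.sup (hc.normalU.inf hFK)).2 with e | e
      · have hle : U ⊓ fittingOf K ≤ V := e ▸ le_sup_right
        obtain ⟨p, -, hab⟩ := sol_chief_abelem hLs hL
        have h2 : ⁅L, L⁆ ≤ fittingOf K := der1_min (le_top.trans hFK.2) hab.abelian
        exact le_trans (le_inf (commg_subl (le_top.trans hc.nU)) ((commSg L hU).trans h2)) hle
      · -- `U = V (U ∩ F(K))`: use the chief factor `(U ∩ F(K)) / (V ∩ F(K))`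
        have hc' : ChiefF ⊤ (V ⊓ fittingOf K) (U ⊓ fittingOf K) := by
          refine ⟨lt_of_le_of_ne (inf_le_inf_right _ hc.lt.le) fun e' => ?_, le_top,
            (hc.normalV.inf hFK).2, (hc.normalU.inf hFK).2, fun X h1 h2 hX => ?_⟩
          · have : U ≤ V := e ▸ sup_le le_rfl (e' ▸ inf_le_left)
            exact absurd hc.lt (not_lt_of_ge this)
          · have hXn : X ⊴ ⊤ := ⟨le_top, hX⟩
            rcases hc.max (V ⊔ X) le_sup_left (sup_le hc.lt.le (h2.trans inf_le_left))
              (hc.normalV.sup hXn).2 with e' | e'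
            · left
              exact le_antisymm (le_inf (e' ▸ le_sup_right) (h2.trans inf_le_right)) h1
            · right
              refine le_antisymm h2 ?_
              have := group_modr (A := V) (B := X) (H := fittingOf K) (Or.inl (le_top.trans hX))
                (h2.trans inf_le_right)
              rw [inf_comm, ← e', this, inf_comm]
              exact sup_le h1 le_rfl
        have h3 : ⁅U ⊓ fittingOf K, L⁆ ≤ V :=
          ((commgS _ hLK).trans (hKs _ _ hc' (inf_le_right.trans hFKN))).trans inf_le_left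
        rw [← e]
        exact comm_sup_le (le_top.trans hc.nV) (le_top.trans hc.nV)
          (commg_subl (le_top.trans hc.nV)) h3
  have hLnil : Group.IsNilpotent L := nilpotentS this (Fitting_nil ⊤)
  exact absurd hL.lt (not_lt_of_ge (Fitting_max (hLn.subl hLK le_top) hLnil))

/-- Let G be a finite solvable group and N a normal subgroup of G. Call a pair V < U of normal subgroups of G a chief factor of G when no normal subgroup of G lies strictly between them; an element g centralizes the chief factor U/V when u g u⁻¹ g⁻¹ ∈ V for all u ∈ U. Then an element of G lies in the Fitting subgroup F(N) if and only if it lies in N and centralizes every chief factor of G; and also if and only if it lies in N and centralizes every chief factor U/V of G with U ≤ F(N). -/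
theorem result {G : Type*} [Group G] [Finite G] (hG : Group.IsSolvable G) (N : Subgroup G) [N.Normal] (g : G) : (g ∈ (Cfsg.fittingSubgroup ↥N).map N.subtype ↔ g ∈ N ∧ ∀ U V : Subgroup G, (U.Normal ∧ V.Normal ∧ V < U ∧ ∀ W : Subgroup G, W.Normal → V ≤ W → W ≤ U → W = V ∨ W = U) → ∀ u ∈ U, u * g * u⁻¹ * g⁻¹ ∈ V) ∧ (g ∈ (Cfsg.fittingSubgroup ↥N).map N.subtype ↔ g ∈ N ∧ ∀ U V : Subgroup G, (U.Normal ∧ V.Normal ∧ V < U ∧ ∀ W : Subgroup G, W.Normal → V ≤ W → W ≤ U → W = V ∨ W = U) → U ≤ (Cfsg.fittingSubgroup ↥N).map N.subtype → ∀ u ∈ U, u * g * u⁻¹ * g⁻¹ ∈ V) := by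
  have fwd : g ∈ fittingOf N → ∀ U V : Subgroup G, ChiefF ⊤ V U → ∀ u ∈ U, u * g * u⁻¹ * g⁻¹ ∈ V := by
    intro hg U V hc u hu
    have h1 : fittingOf N ≤ fittingOf ⊤ := FittingS_normal (normal_top N)
    exact Fitting_stab_chief hc (solvable_of U) (Subgroup.commutator_mem_commutator hu (h1 hg))
  refine ⟨⟨fun hg => ⟨Fitting_sub N hg, fun U V h => fwd hg U V (of_chief h)⟩, fun ⟨hg, h⟩ => ?_⟩,
    ⟨fun hg => ⟨Fitting_sub N hg, fun U V h _ => fwd hg U V (of_chief h)⟩, fun ⟨hg, h⟩ => ?_⟩⟩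
  · exact key hG N g hg fun U V hc _ u hu => h U V (chief_of hc) u hu
  · exact key hG N g hg fun U V hc hU u hu => h U V (chief_of hc) hU u hu

end Cfsg.Agent.S3766
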