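import Cfsg.Statements.S3768
import Cfsg.Agent.BG.Base6
import Cfsg.Agent.Char.Frobenius
import Cfsg.Agent.Solv.Coprime

set_option autoImplicit false
open Cfsg

namespace Cfsg.Agent.S3768

/-- Let G be a finite Frobenius group with Frobenius complement R and Frobenius kernel K (the identity together with the elements in no conjugate of R), and let N be a normal subgroup of G not containing K. Then G/N is a Frobenius group with Frobenius complement RN/N whose Frobenius kernel is the image of K. -/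
theorem result {G : Type*} [Group G] [Finite G] (R : Subgroup G) (hR : Cfsg.IsFrobeniusComplement R) (N : Subgroup G) [N.Normal] (hKN : ¬ Cfsg.frobeniusKernel R ⊆ N) : Cfsg.IsFrobeniusComplement (R.map (QuotientGroup.mk' N)) ∧ Cfsg.frobeniusKernel (R.map (QuotientGroup.mk' N)) = QuotientGroup.mk' N '' Cfsg.frobeniusKernel R := by
  obtain ⟨K, h1, h2, h3⟩ := Char.exists_frobenius_kernel hR
  have hd : ∀ x ∈ K, x ∈ R → x = 1 := fun x hx => Subgroup.disjoint_def.1 h3.disjoint hx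
  have hr : BG.Semiregular K R := fun x hx h1 => (Subgroup.eq_bot_iff_forall _).2 fun y hy =>
    hd y hy.1 (Frob.mem_of_commute hR hx h1 (BG.mem_cent1.1 hy.2))
  rw [← h1] at hKN ⊢
  have hF : BG.Frob K R ⊤ := ⟨⟨h3.sup_eq_top, Subgroup.le_normalizer_of_normal, h3.disjoint.eq_bot⟩,
    fun e => hKN (by rw [e]; exact (bot_le : ⊥ ≤ N)), hR.1, hr⟩
  have hNK : N ≤ K := (BG.sub_normal_Frobenius hF (BG.normal_top N)).resolve_right hKN
  set f := QuotientGroup.mk' N with hf
  have hker : ∀ x, f x = 1 ↔ x ∈ N := fun x => QuotientGroup.eq_one_iff x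
  have hd' : ∀ k ∈ K, ∀ r ∈ R, f k = f r → f k = 1 := fun k hk r hr e => by
    have : k⁻¹ * r ∈ N := (hker _).1 (by rw [map_mul, map_inv, e, inv_mul_cancel])
    rw [e, hd r (by simpa using mul_mem hk (hNK this)) hr, map_one]
  have hc : ∀ k ∈ K, ∀ x ∈ R, x ≠ 1 → f k * f x = f x * f k → f k = 1 := fun k hk x hx h0 e => by
    have hX := Subgroup.zpowers_le_of_mem hx
    have := Solv.map_inf_centralizer (A := Subgroup.zpowers x) (K := K) f Subgroup.le_normalizer_of_normal
      (Solv.coprime_of_le_left (BG.Frobenius_coprime hF).symm hX) (Or.inl inferInstance)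
    rw [BG.C_zpowers, hr x hx h0, Subgroup.map_bot, MonoidHom.map_zpowers, BG.C_zpowers] at this
    exact Subgroup.mem_bot.1 (this ▸ ⟨⟨k, hk, rfl⟩, BG.mem_cent1.2 e⟩)
  refine ⟨Frob.isFrobeniusComplement_iff.2 ⟨fun e => hR.1 ?_, fun e => hKN fun k hk => ?_, ?_⟩, ?_⟩
  · refine (Subgroup.eq_bot_iff_forall _).2 fun r hr => hd r (hNK ((hker r).1 ?_)) hr
    exact Subgroup.mem_bot.1 (e ▸ ⟨r, hr, rfl⟩)
  · obtain ⟨r, hr, e'⟩ : f k ∈ R.map f := e ▸ Subgroup.mem_top _
    exact (hker k).1 (hd' k hk r hr e'.symm)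
  · rintro g _ ⟨x, hx, rfl⟩ h0 ⟨y, hy, e⟩
    obtain ⟨g, rfl⟩ := QuotientGroup.mk'_surjective N g
    obtain ⟨⟨k, r⟩, rfl⟩ := (h3.symm.existsUnique g).exists
    have hx' : (k : G)⁻¹ * x * k ∈ R := mul_mem (mul_mem (inv_mem k.2) hx) k.2
    have h4 : (r : G)⁻¹ * ((k : G)⁻¹ * x * k * r * ((k : G)⁻¹ * x * k)⁻¹) ∈ K :=
      mul_mem (inv_mem r.2) (h2.conj_mem _ r.2 _)
    have h5 := hd' _ h4 _ (mul_mem hy (inv_mem hx')) (by rw [map_mul f y, e]; simp [← hf, mul_assoc])
    have h6 := hc r r.2 _ hx' (fun e => h0 (by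
      rw [mul_assoc, inv_mul_eq_one, right_eq_mul] at e; rw [e, map_one])) (by
      rw [map_mul, map_mul, map_mul, map_inv, map_inv, inv_mul_eq_one, eq_mul_inv_iff_mul_eq] at h5; exact h5)
    exact ⟨k, k.2, by rw [map_mul, h6, mul_one]⟩
  · ext g
    obtain ⟨g, rfl⟩ := QuotientGroup.mk'_surjective N g
    rw [Frob.mem_frobeniusKernel]
    constructor
    · rintro (e | e)
      · exact ⟨1, K.one_mem, by rw [map_one]; exact e.symm⟩
      · refine ⟨g, ?_, rfl⟩
        rw [h1, Frob.mem_frobeniusKernel]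
        exact Or.inr fun a ha => e (f a) ⟨_, ha, by simp [← hf]⟩
    · rintro ⟨k, hk, e⟩
      by_cases h0 : f k = 1
      · exact Or.inl (e ▸ h0)
      refine Or.inr fun a ⟨r, hr, e'⟩ => h0 ?_
      obtain ⟨a, rfl⟩ := QuotientGroup.mk'_surjective N a
      have := hd' _ (h2.conj_mem' k hk a) r hr (by rw [e', ← e]; simp [← hf])
      rwa [map_mul, map_mul, map_inv, mul_assoc, inv_mul_eq_one, right_eq_mul] at this

end Cfsg.Agent.S3768
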