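import Cfsg.Statements.S3769
import Cfsg.Agent.BG.S3Odd

set_option autoImplicit false
open Cfsg

namespace Cfsg.Agent.S3769

/-- Let G and V be subgroups of a finite group with G solvable of odd order normalizing V, V an elementary abelian ℓ-group for a prime ℓ not dividing the order of G, and suppose G has a normal Hall subgroup K with a complement R of prime order. If C_V(R) = 1, then [R, K] centralizes V. -/
theorem result {X : Type*} [Group X] [Finite X] (G : Subgroup X) (hsolv : Group.IsSolvable G) (hodd : Odd (Nat.card G)) (V : Subgroup X) {ℓ : ℕ} (hℓ : ℓ.Prime) (hV : Cfsg.IsElementaryAbelian ℓ V) (hℓG : ¬ ℓ ∣ Nat.card G) (hGV : G ≤ Subgroup.normalizer (V : Set X)) (K R : Subgroup X) (hKG : K ≤ G) (hKn : G ≤ Subgroup.normalizer (K : Set X)) (hHall : (Nat.card K).Coprime (K.relIndex G)) (hRG : R ≤ G) (hR : (Nat.card R).Prime) (hKR : K ⊓ R = ⊥) (hKRG : K ⊔ R = G) (hCV : V ⊓ Subgroup.centralizer (R : Set X) = ⊥) : ⁅R, K⁆ ≤ Subgroup.centralizer (V : Set X) := by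
  open Cfsg.Agent.BG in
  have := Fact.mk hℓ
  have hL : Sdprod K R G := ⟨hKRG, hRG.trans hKn, hKR⟩
  exact odd_prime_sdprod_abelem_cent1 hsolv hodd hL (hL.relIndexl ▸ hHall) hR
    (Solv.coprime_card_of_isPGroup hV.pg ((Nat.Prime.coprime_iff_not_dvd hℓ).2 hℓG).symm).symm hGV
    (pgroup_sol hV.pg) hCV

end Cfsg.Agent.S3769
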