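import Cfsg.Statements.S3770
import Cfsg.Agent.BG.S3Odd
import Cfsg.Agent.Char.Frobenius
import Cfsg.Agent.Gen2.FrobCompl

set_option autoImplicit false
open Cfsg

namespace Cfsg.Agent.S3770

/-- Let G and V be subgroups of a finite group with G a Frobenius group with complement R of prime order and kernel K, G normalizing V, and V an elementary abelian ℓ-group for a prime ℓ not dividing the order of G. If C_V(R) has order ℓ, then the derived subgroup of K centralizes V. -/
theorem result {X : Type*} [Group X] [Finite X] (G : Subgroup X) (V : Subgroup X) {ℓ : ℕ} (hℓ : ℓ.Prime) (hV : Cfsg.IsElementaryAbelian ℓ V) (hℓG : ¬ ℓ ∣ Nat.card G) (hGV : G ≤ Subgroup.normalizer (V : Set X)) (R : Subgroup ↥G) (hR : Cfsg.IsFrobeniusComplement R) (hRp : (Nat.card R).Prime) (hCV : Nat.card ↥(V ⊓ Subgroup.centralizer ((R.map G.subtype : Subgroup X) : Set X)) = ℓ) : ⁅Subgroup.closure (Subtype.val '' Cfsg.frobeniusKernel R), Subgroup.closure (Subtype.val '' Cfsg.frobeniusKernel R)⁆ ≤ Subgroup.centralizer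 (V : Set X) := by
  open Cfsg.Agent.BG in
  have := Fact.mk hℓ
  obtain ⟨N, hN, hNn, hc⟩ := Char.exists_frobenius_kernel hR
  have e : Subgroup.closure (Subtype.val '' Cfsg.frobeniusKernel R) = N.map G.subtype := by
    rw [← hN]; exact Subgroup.closure_eq (N.map G.subtype)
  have hs := isComplement'_iff_sdprod.1 hc
  have hF : Frob N R ⊤ := by
    refine ⟨hs, fun h => hR.2.1 (by simpa [h] using hs.sup), hR.1, fun x hx h1 => eq_bot_iff.2 fun k hk => ?_⟩
    refine Gen2.eq_one_of_commute_of_not_mem_kernel hR hN.symm (fun h => h1 ?_) hk.1 (mem_cent1.1 hk.2)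
    exact Subgroup.mem_bot.1 (hs.inf ▸ Subgroup.mem_inf.2 ⟨h, hx⟩)
  have hF' := hF.map_inj G.subtype_injective
  rw [map_subtype_top] at hF'
  rw [e]
  exact Frobenius_prime_cent_prime hF'.sd (by rwa [card_map_subtype]) (Frobenius_trivg_cent hF')
    (Solv.coprime_card_of_isPGroup hV.pg ((Nat.Prime.coprime_iff_not_dvd hℓ).2 hℓG).symm).symm hGV
    (pgroup_sol hV.pg) (hCV ▸ hℓ)

end Cfsg.Agent.S3770
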