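import Cfsg.Statements.S3772
import Cfsg.Agent.PGrp.ES
import Cfsg.Agent.BG.Base6
import Mathlib.Tactic.Group

set_option autoImplicit false
open Cfsg

namespace Cfsg.Agent.S3772
open scoped commutatorElement

open PGrp Subgroup Module Geom

theorem aux {G : Type*} [Group G] [Finite G] {z : G} (h : IsES 2 z) (hz : ∃ x : G, x ^ 2 ≠ 1) {d : ℕ}
    (hd : finrank (ZMod 2) h.V = d) : Nat.card {x : G // x ^ 2 = 1} = 2 ^ d ∨ ∃ r : ℕ, 1 ≤ r ∧ 2 * r ≤ d ∧
      (Nat.card {x : G // x ^ 2 = 1} = 2 ^ d + 2 ^ (d - r) ∨ Nat.card {x : G // x ^ 2 = 1} + 2 ^ (d - r) = 2 ^ d) ∧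
      (2 * r = d → center G = zpowers z) := by
  set R := h.quad.perp ⊤
  have hR : ∀ r ∈ R, ∀ v, h.Q (r + v) = h.Q r + h.Q v := fun r hr v => by
    have := h.quad.Q_add v r
    rw [hr v trivial, mul_zero, add_zero] at this
    rw [add_comm r, add_comm (h.Q r)]
    exact this
  rw [h.card_pow_eq_one]
  by_cases hr : ∃ r ∈ R, h.Q r ≠ 0
  · obtain ⟨r, hr, h1⟩ := hr
    have key : ∀ a b : ZMod 2, a ≠ 0 → (b = 0 ↔ ¬ a + b = 0) := by decide
    have e : {v // h.pw v = 0} ≃ {v // ¬ h.pw v = 0} := (Equiv.addLeft r).subtypeEquiv fun v => by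
      rw [Equiv.coe_addLeft, ← h.Q_apply, ← h.Q_apply, hR r hr]
      exact key _ _ h1
    classical
    have := Fintype.ofFinite h.V
    have h2 := Nat.card_congr e
    have h3 := h.card_V
    have h4 := Fintype.card_subtype_le fun v => h.pw v = 0
    rw [Nat.card_eq_fintype_card, Nat.card_eq_fintype_card, Fintype.card_subtype_compl] at h2
    rw [Nat.card_eq_fintype_card, hd] at h3
    rw [Nat.card_eq_fintype_card]
    left
    omega
  push Not at hr
  obtain ⟨W, hW⟩ := R.exists_isCompl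
  have hn : (Formed.ofQuad (h.Q.comp W.subtype)).Nondeg := by
    rw [← Formed.restrict_ofQuad, Formed.restrict_nondeg_iff, Submodule.disjoint_def]
    refine fun w hw hw' => Submodule.disjoint_def.1 hW.disjoint w (fun v _ => ?_) hw
    obtain ⟨a, b, rfl⟩ := exists_add_of_isCompl hW v
    rw [map_add, LinearMap.add_apply, hw' b b.2, h.quad.B_eq_zero_symm (a.2 w trivial), add_zero]
  have e : {v // h.pw v = 0} ≃ R × {w // (Formed.ofQuad (h.Q.comp W.subtype)).Sing w} :=
    ((Submodule.prodEquivOfIsCompl R W hW).toEquiv.symm.subtypeEquiv (q := fun a => _ ∧ _) fun v => by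
      obtain ⟨⟨a, b⟩, rfl⟩ := (Submodule.prodEquivOfIsCompl R W hW).surjective v
      rw [← h.Q_apply, LinearEquiv.coe_toEquiv_symm, EquivLike.coe_coe, LinearEquiv.symm_apply_apply,
        Submodule.coe_prodEquivOfIsCompl', hR _ a.2, hr _ a.2, zero_add]
      exact ⟨fun hb => ⟨trivial, hb, by simp [two_smul, CharTwo.add_self_eq_zero]⟩, fun hb => hb.2.1⟩).trans
      ((Equiv.subtypeProdEquivProd (p := fun _ => True)).trans (Equiv.prodCongr (Equiv.Set.univ _) (Equiv.refl _)))
  have hf := Submodule.finrank_add_eq_of_isCompl hW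
  obtain ⟨m, hm⟩ : Even (finrank (ZMod 2) W) :=
    Nat.not_odd_iff_even.1 fun ho => two_ne_zero_of_odd_finrank hn ho rfl
  rw [Nat.card_congr e, Nat.card_prod, h.card_submodule]
  rcases m with - | m
  · obtain ⟨x, hx⟩ := hz
    refine (hx (h.Q_eq_zero.1 (hr _ ?_))).elim
    rw [Submodule.finrank_eq_zero.1 hm] at hW
    rw [eq_top_of_isCompl_bot hW]
    trivial
  refine .inr ⟨m + 1, by omega, by omega, ?_, fun h2 => h.quad_nondeg_iff.1 fun v hv => ?_⟩
  · have e1 : d = finrank (ZMod 2) R + (2 * m + 2) := by omega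
    have e2 : d - (m + 1) = finrank (ZMod 2) R + (m + 1) := by omega
    rw [e2, e1, pow_add, pow_add 2 (finrank _ _), ← mul_add, mul_left_comm, ← mul_add]
    rcases wittIndex_even hn (hm.trans (two_mul _).symm) with hk | hk
    · have := nsing_quad 0 _ hn hk (by omega)
      rw [Nat.card_zmod, add_zero, add_zero, pow_succ 2 (m + 1), mul_add, mul_one] at this
      exact .inl (congrArg _ (by rw [Formed.nsing] at this; omega))
    · have := nsing_quad 2 _ hn hk (by omega)
      rw [Nat.card_zmod, pow_succ 2 (m + 1)] at this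
      exact .inr (congrArg _ (by rw [Formed.nsing] at this; omega))
  · have : v ∈ R := fun u _ => h.quad.B_eq_zero_symm (hv u)
    rwa [Submodule.finrank_eq_zero.1 (by omega : finrank (ZMod 2) R = 0)] at this

/-- Let G be a finite 2-group whose Frattini subgroup Φ(G) has order 2, with |G : Φ(G)| = 2^d, and let j be the number of elements x of G with x² = 1. Then j = 2^d, or j = 2^d + 2^(d−r) or j = 2^d − 2^(d−r) for some positive integer r with 2r ≤ d. Moreover if d = 2r and j is 2^d + 2^r or 2^d − 2^r, then G is extraspecial. -/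
theorem result {G : Type*} [Group G] [Finite G] (hG : IsPGroup 2 G) (hΦ : Nat.card (frattini G) = 2) (d : ℕ) (hd : (frattini G).index = 2 ^ d) : (Nat.card {x : G // x ^ 2 = 1} = 2 ^ d ∨ ∃ r : ℕ, 1 ≤ r ∧ 2 * r ≤ d ∧ (Nat.card {x : G // x ^ 2 = 1} = 2 ^ d + 2 ^ (d - r) ∨ Nat.card {x : G // x ^ 2 = 1} + 2 ^ (d - r) = 2 ^ d)) ∧ (∀ r : ℕ, d = 2 * r → (Nat.card {x : G // x ^ 2 = 1} = 2 ^ d + 2 ^ r ∨ Nat.card {x : G // x ^ 2 = 1} + 2 ^ r = 2 ^ d) → Cfsg.IsExtraspecial 2 G) := by
  have := Fact.mk Nat.prime_two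
  obtain ⟨z, hz⟩ := (Subgroup.isCyclic_iff_exists_zpowers_eq_top _).1 (isCyclic_of_prime_card hΦ)
  have h : IsES 2 z := by
    have := hG.isNilpotent
    refine ⟨by rw [← Nat.card_zpowers, hz, hΦ], ?_, fun x y => hz ▸ Solv.commutator_le_frattini
      (commutator_mem_commutator (mem_top x) (mem_top y)), fun x => hz ▸ Solv.pow_mem_frattini hG x⟩
    rw [← BG.cent_top]
    exact BG.cents_symm (BG.pgroup_cent_prime (hG.to_subgroup ⊤) hΦ (BG.norm_of_normal _ _)) (hz ▸ mem_zpowers z)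
  have hx : ∃ x : G, x ^ 2 ≠ 1 := by
    by_contra! hc
    have : IsMulCommutative G := ⟨⟨fun a b => (Commute.of_orderOf_dvd_two (fun g => orderOf_dvd_of_pow_eq_one (hc g)) a b).eq⟩⟩
    rw [Solv.frattini_eq_bot_of_elementary hc, card_bot] at hΦ
    omega
  have hd' : finrank (ZMod 2) h.V = d := h.finrank_eq (by rw [← (frattini G).card_mul_index, hΦ, hd, pow_succ'])
  have := aux h hx hd'
  refine ⟨this.imp_right fun ⟨r, h1, h2, h3, _⟩ => ⟨r, h1, h2, h3⟩, fun r hr h1 => ?_⟩
  have h2 : 0 < 2 ^ r := by positivity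
  obtain h3 | ⟨s, h3, h4, h5, h6⟩ := this
  · omega
  have h7 : 0 < 2 ^ (d - s) := by positivity
  have h8 : d - s = r := Nat.pow_right_injective le_rfl (by simp only; omega)
  have hZ := h6 (by omega)
  refine h.isExtraspecial hZ fun hc => ?_
  have h9 := h.card_eq
  rw [← card_top, ← center_eq_top, hZ, h.card_zpowers, hd', pow_succ] at h9
  have := Nat.one_lt_two_pow (n := d) (by omega)
  omega

end Cfsg.Agent.S3772
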