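import Cfsg.Statements.S3773
import Cfsg.Agent.Gen.QuadMap

set_option autoImplicit false
open Cfsg

namespace Cfsg.Agent.S3773

open Subgroup Cfsg.Agent.BG
open scoped commutatorElement

/-- Let G be a finite 2-group of nilpotency class at most 2 and exponent dividing 4 in which the elements x with x² = 1 form a subgroup N. Then |G| ≤ |N|³, and |G| < |N|³ unless G is special. -/
theorem result {G : Type*} [Group G] [Finite G] (hG : IsPGroup 2 G) (hcl : (⊤ : Subgroup G).lowerCentralSeries 2 = ⊥) (hexp : ∀ x : G, x ^ 4 = 1) (hN : ∀ x y : G, x ^ 2 = 1 → y ^ 2 = 1 → (x * y) ^ 2 = 1) : Nat.card G ≤ Nat.card {x : G // x ^ 2 = 1} ^ 3 ∧ (¬ Cfsg.IsSpecial 2 G → Nat.card G < Nat.card {x : G // x ^ 2 = 1} ^ 3) := by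
  have : Fact (Nat.Prime 2) := ⟨Nat.prime_two⟩
  have hc : ∀ x y z : G, Commute ⁅x, y⁆ z := fun x y z =>
    ((commG1.1 hcl) (commutator_mem_commutator (mem_top x) (mem_top y)) z (mem_top z)).symm
  have hsq : ∀ x y : G, (x * y) ^ 2 = ⁅y, x⁆ * (x ^ 2 * y ^ 2) := fun x y => by
    rw [PGrp.mul_pow_of_commute_commutator (hc _ _ _) (hc _ _ _)]; simp
  have hc2 : ∀ x y : G, ⁅x, y⁆ ^ 2 = 1 := fun x y => by
    have := PGrp.mul_pow_of_commute_commutator (hc x y y) (hc x y x) 4
    rw [hexp, hexp, hexp, show Nat.choose 4 2 = 4 + 2 by rfl, pow_add, hexp] at this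
    simpa using this.symm
  let N : Subgroup G :=
    { carrier := {x | x ^ 2 = 1}
      mul_mem' := fun ha hb => hN _ _ ha hb
      one_mem' := one_pow 2
      inv_mem' := fun {x} (hx : x ^ 2 = 1) => show x⁻¹ ^ 2 = 1 by rw [inv_pow, hx, inv_one] }
  have hmem : ∀ x, x ∈ N ↔ x ^ 2 = 1 := fun x => Iff.rfl
  change Nat.card G ≤ #N ^ 3 ∧ (¬ IsSpecial 2 G → Nat.card G < #N ^ 3)
  have hΦ : frattini G ≤ N ⊓ center G := by
    refine Solv.frattini_le_of_commutator_le (p := 2) (commutator_le.2 fun x _ y _ =>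
      ⟨hc2 x y, mem_center_iff.2 fun z => (hc x y z).symm⟩) fun x => ⟨?_, mem_center_iff.2 fun z => ?_⟩
    · exact (hmem _).2 (by rw [← pow_mul]; exact hexp x)
    · rw [eq_comm, ← commutatorElement_eq_one_iff_mul_comm, PGrp.commutator_pow_left (hc _ _ _), hc2]
  have hab : ∀ S : Subgroup G, S ≤ N ⊓ center G → Abelem 2 S := fun S hS =>
    ⟨abelian_of_cent (le_cent_iff.2 fun a ha b _ => (mem_center_iff.1 (hS ha).2 b).symm),
      fun a ha => (hS ha).1⟩
  have hp : ∀ x, x ^ 2 ∈ frattini G := Solv.pow_mem_frattini hG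
  have hd : commutator G ≤ frattini G := (Solv.frattini_le_iff hG).1 le_rfl |>.1
  have hd' : ∀ x y : G, ⁅x, y⁆ ∈ commutator G := fun x y =>
    commutator_mem_commutator (mem_top x) (mem_top y)
  have h1 := Gen.card_le_of_sq hG (hab _ hΦ) (hΦ.trans inf_le_right) hp (fun x y => hd (hd' x y))
    (T := ⊥) (N := N) bot_le fun x => mem_bot
  rw [card_bot, one_pow, mul_one] at h1
  have h2 : #(frattini G) ≤ #N := card_le_card (hΦ.trans inf_le_left)
  have hpos := cardG_pos N
  refine ⟨h1.trans (by rw [pow_succ' _ 2]; gcongr), fun hns => ?_⟩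
  by_contra hge
  rw [not_lt] at hge
  have h3 : frattini G = N := by
    refine eq_of_card_le (hΦ.trans inf_le_left) ?_
    have := hge.trans h1
    rw [pow_succ' _ 2] at this
    exact (Nat.pow_le_pow_iff_left two_ne_zero).1 (Nat.le_of_mul_le_mul_left this hpos)
  rw [h3] at hΦ hp hd
  have hNZ : N ≤ center G := hΦ.trans inf_le_right
  have h4 : center G ≤ N := by
    intro z hz
    by_contra hzN
    have hzc := PGrp.commute_of_mem_center hz
    have hzn : z ∈ N[N] := cent_sub N fun y _ => (hzc y).symm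
    have h5 := Gen.card_le_of_sq hG (hab _ hΦ) hNZ hp (fun x y => hd (hd' x y))
      (T := zpowers (z ^ 2)) (N := N ⊔ zpowers z) (zpowers_le.2 (hp z)) fun x => by
        rw [PGrp.mem_sup_zpowers hzn]
        constructor
        · rintro ⟨i, hi⟩
          refine ⟨x * z ^ (-i), ?_, i, by simp⟩
          rw [hmem, ((hzc x).symm.zpow_right _).mul_pow, ← hi]
          group
        · rintro ⟨n, hn, i, rfl⟩
          rw [((hzc n).symm.zpow_right _).mul_pow, (hmem n).1 hn, one_mul]
          exact ⟨i, by group⟩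
    rw [PGrp.card_sup_zpowers Nat.prime_two hzn hzN (hp z),
      PGrp.card_zpowers_of_pow_eq_one (p := 2) (hp z) hzN] at h5
    have : 0 < #N ^ 3 := by positivity
    nlinarith
  have h6 : N ≤ commutator G := by
    by_contra hlt
    obtain ⟨H, hH, hmax⟩ := Finite.exists_le_maximal (p := fun H : Subgroup G => H < N)
      (lt_of_le_not_ge hd hlt)
    have hHN := hmax.prop
    obtain ⟨a, haN, haH⟩ := SetLike.exists_of_lt hHN
    have han : a ∈ N[H] := cent_sub H fun y _ => mem_center_iff.1 (hNZ haN) y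
    have ha2 : a ^ 2 ∈ H := by rw [(hmem a).1 haN]; exact H.one_mem
    have hsup : H ⊔ zpowers a = N := by
      by_contra hne
      exact haH (hmax.le_of_ge (lt_of_le_of_ne (sup_le hHN.le (zpowers_le.2 haN)) hne) le_sup_left
        (mem_sup_right (mem_zpowers a)))
    have hi := PGrp.relIndex_sup_zpowers Nat.prime_two han haH ha2
    have hcH := PGrp.card_sup_zpowers Nat.prime_two han haH ha2
    rw [hsup] at hi hcH
    let M : Subgroup G :=
      { carrier := {x | x ^ 2 ∈ H}
        mul_mem' := fun {x y} (ha : x ^ 2 ∈ H) (hb : y ^ 2 ∈ H) => show (x * y) ^ 2 ∈ H by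
          rw [hsq]; exact H.mul_mem (hH (hd' _ _)) (H.mul_mem ha hb)
        one_mem' := show (1 : G) ^ 2 ∈ H by simp
        inv_mem' := fun {x} (hx : x ^ 2 ∈ H) => show x⁻¹ ^ 2 ∈ H by rwa [inv_pow, inv_mem_iff] }
    have hmM : ∀ x, x ∈ M ↔ x ^ 2 ∈ H := fun x => Iff.rfl
    have hNM : N ≤ M := fun x hx => by rw [hmM, (hmem x).1 hx]; exact H.one_mem
    have hM : Nat.card G ≤ 2 * #M := by
      by_cases hT : M = ⊤
      · rw [hT, card_top]; omega
      obtain ⟨b, -, hb⟩ := SetLike.exists_of_lt (lt_top_iff_ne_top.2 hT)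
      have : M.index = 2 := index_eq_two_iff.2 ⟨b, fun x => by
        have := mul_mem_iff_of_index_two hi (a := ⟨_, hp x⟩) (b := ⟨_, hp b⟩)
        simp only [mem_subgroupOf, coe_mul] at this
        rw [hmM] at hb
        rw [hmM, hmM, hsq, H.mul_mem_cancel_left (hH (hd' _ _)), this]
        unfold Xor
        tauto⟩
      rw [← M.index_mul_card, this]
    have h7 := Gen.card_le_of_sq (hG.to_subgroup M) (S := H.subgroupOf M) (T := ⊥)
      (N := N.subgroupOf M) (abelem_subgroupOf M (hab H (hHN.le.trans hΦ)))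
      (fun x hx => mem_center_iff.2 fun y => Subtype.ext (mem_center_iff.1 (hNZ (hHN.le hx)) y))
      (fun x => x.2) (fun x y => hH (hd' x y)) bot_le fun x => by
        rw [mem_bot, mem_subgroupOf, hmem, Subtype.ext_iff]; rfl
    rw [card_bot, one_pow, mul_one, card_subgroupOf hNM, card_subgroupOf (hHN.le.trans hNM)] at h7
    rw [hcH] at hge h7
    have := cardG_pos H
    have : 0 < #H ^ 3 := by positivity
    nlinarith
  exact hns ⟨hG, h3.trans (le_antisymm hNZ h4), (le_antisymm hd h6).trans (le_antisymm hNZ h4)⟩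

end Cfsg.Agent.S3773
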