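import Cfsg.Statements.S3774
import Cfsg.Agent.LieM.Quad
import Cfsg.Agent.Rank1.Higman
import Mathlib.Tactic.Group

set_option autoImplicit false
open Cfsg

namespace Cfsg.Agent.S3774
open scoped commutatorElement

open Cfsg.Agent.LieM Subgroup

/-- Let G be a nontrivial finite 2-group whose automorphism group permutes the involutions of G transitively. Then every involution of G is central, so that the involutions together with 1 form the subgroup Ω₁(Z(G)), and if this subgroup has order q then |G| is a power of q. -/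
theorem result {G : Type*} [Group G] [Finite G] [Nontrivial G] (hG : IsPGroup 2 G) (htrans : ∀ x y : G, x ≠ 1 → x ^ 2 = 1 → y ≠ 1 → y ^ 2 = 1 → ∃ a : MulAut G, a x = y) : (∀ x : G, x ^ 2 = 1 → x ∈ Subgroup.center G) ∧ ∃ m : ℕ, Nat.card G = Nat.card {z : G // z ^ 2 = 1} ^ m := by
  haveI : Fact (Nat.Prime 2) := ⟨Nat.prime_two⟩
  have hc : ∀ x : G, x ^ 2 = 1 → x ∈ Subgroup.center G := fun x hx =>
    Rank1.central_of_trans hG (fun x y h1 h2 => htrans x y (fun e => by simp [e] at h1) (h1 ▸ pow_orderOf_eq_one x)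
      (fun e => by simp [e] at h2) (h2 ▸ pow_orderOf_eq_one y)) x (by rw [← pow_two, hx])
  refine ⟨hc, ?_⟩
  let Z : Subgroup G := ⟨⟨⟨{z | z ^ 2 = 1}, fun {a b} ha hb => by
    rw [Set.mem_ofPred_eq, Commute.mul_pow (mem_center_iff.1 (hc b hb) a), ha, hb, one_mul]⟩, one_pow 2⟩,
    fun {a} ha => by rw [Set.mem_ofPred_eq, inv_pow, ha, inv_one]⟩
  have h := dvd_card_of_trans (Set.univ \ {1}) ((Z : Set G) \ {1}) (fun x hx => ⟨hx.2, hG x⟩)
    (fun x _ k h1 h2 => ⟨h2, h1⟩) fun a ha b hb => (htrans a b ha.2 ha.1 hb.2 hb.1).imp fun e he =>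
      ⟨he, fun x hx => ⟨trivial, fun h => hx.2 ((map_eq_one_iff _ e.injective).1 h)⟩⟩
  rw [Set.ncard_sdiff_singleton_of_mem (one_mem Z), Set.ncard_sdiff_singleton_of_mem (Set.mem_univ _), Set.ncard_univ,
    ← Nat.card_coe_set_eq] at h
  change ∃ m, Nat.card G = Nat.card Z ^ m
  obtain ⟨a, ha⟩ := hG.exists_card_eq
  obtain ⟨n, hn⟩ := (hG.to_subgroup Z).exists_card_eq
  simp only [SetLike.coe_sort_coe] at h
  rw [ha, hn] at h ⊢
  obtain ⟨m, rfl⟩ : n ∣ a := by
    have := Nat.pow_sub_one_gcd_pow_sub_one 2 n a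
    rw [Nat.gcd_eq_left h] at this
    have h1 := Nat.one_le_two_pow (n := n)
    have h2 := Nat.one_le_two_pow (n := n.gcd a)
    exact (Nat.pow_right_injective le_rfl (show 2 ^ n = 2 ^ n.gcd a by omega)) ▸ Nat.gcd_dvd_right n a
  exact ⟨m, pow_mul _ _ _⟩

end Cfsg.Agent.S3774
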