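import Cfsg.Statements.S3775
import Cfsg.Agent.Solv.Basic

set_option autoImplicit false
open Cfsg

namespace Cfsg.Agent.S3775

open Subgroup

variable {A : Type*} [CommGroup A] [Finite A] {p : ℕ}

theorem compl (hp : p.Prime) (d : ℕ) {N K B : Subgroup A} (h1 : N ≤ K) (h2 : K ≤ B)
    (hB : ∀ b ∈ B, b ^ p ^ (d + 1) ∈ N)
    (hK : ∀ k ∈ K, k ^ p ^ d ∈ N → ∃ k' ∈ K, k⁻¹ * k' ^ p ∈ N) :
    ∃ C : Subgroup A, N ≤ C ∧ C ≤ B ∧ C ⊓ K ≤ N ∧ B ≤ C ⊔ K := by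
  obtain ⟨C, ⟨c1, c2, c3⟩, hmax⟩ := (wellFounded_gt (α := Subgroup A)).has_min
    {C | N ≤ C ∧ C ≤ B ∧ C ⊓ K ≤ N} ⟨N, le_rfl, h1.trans h2, inf_le_left⟩
  refine ⟨C, c1, c2, c3, ?_⟩
  have key : ∀ a ∈ B, a ^ p ∈ C ⊔ K → a ∈ C ⊔ K := by
    intro a ha hap
    obtain ⟨c, hc, k, hk, hck⟩ := mem_sup.1 hap
    have h3 : k ^ p ^ d ∈ N := by
      refine c3 ⟨?_, pow_mem hk _⟩
      have := c1 (hB a ha)
      rw [pow_succ', pow_mul, ← hck, mul_pow] at this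
      exact (mul_mem_cancel_left (pow_mem hc _)).1 this
    obtain ⟨k', hk', h4⟩ := hK k hk h3
    have h5 : (a * k'⁻¹) ^ p ∈ C := by
      have := C.mul_mem hc (C.inv_mem (c1 h4))
      rwa [mul_inv_rev, inv_inv, mul_comm _ k, ← mul_assoc, hck, ← inv_pow, ← mul_pow] at this
    suffices a * k'⁻¹ ∈ C ⊔ K from
      (mul_mem_cancel_right (inv_mem (mem_sup_right hk'))).1 this
    have h6 : a * k'⁻¹ ∈ B := B.mul_mem ha (B.inv_mem (h2 hk'))
    generalize a * k'⁻¹ = a' at h5 h6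
    by_contra hn
    refine hmax (C ⊔ zpowers a') ⟨c1.trans le_sup_left, sup_le c2 (zpowers_le.2 h6), ?_⟩
      (left_lt_sup.2 fun h => hn (mem_sup_left (h (mem_zpowers a'))))
    rintro x ⟨hx, hxK⟩
    obtain ⟨c', hc', _, ⟨j, rfl⟩, rfl⟩ := mem_sup.1 hx
    by_cases hj : (p : ℤ) ∣ j
    · obtain ⟨i, rfl⟩ := hj
      refine c3 ⟨C.mul_mem hc' ?_, hxK⟩
      simp only [zpow_mul, zpow_natCast]
      exact zpow_mem h5 i
    · exfalso
      obtain ⟨u, v, huv⟩ := (Nat.prime_iff_prime_int.1 hp).irreducible.coprime_iff_not_dvd.2 hj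
      have h7 : a' ^ j ∈ C ⊔ K := (mul_mem_cancel_left (mem_sup_left hc')).1 (mem_sup_right hxK)
      have := mul_mem (zpow_mem (mem_sup_left (T := K) h5) u) (zpow_mem h7 v)
      rw [← zpow_natCast, ← zpow_mul, ← zpow_mul, ← zpow_add, mul_comm _ u, mul_comm _ v, huv,
        zpow_one] at this
      exact hn this
  have all : ∀ i, ∀ a ∈ B, a ^ p ^ i ∈ C ⊔ K → a ∈ C ⊔ K := by
    intro i
    induction i with
    | zero => intro a _ h; simpa using h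
    | succ i ih => intro a ha h; rw [pow_succ, pow_mul] at h; exact ih a ha (key _ (pow_mem ha _) h)
  exact fun b hb => all _ b hb (mem_sup_left (c1 (hB b hb)))

theorem maschke (X : Subgroup (MulAut A)) (hX : (Nat.card X).Coprime (Nat.card A))
    {N K B C : Subgroup A} (h1 : N ≤ K) (h2 : K ≤ B) (hN : ∀ x ∈ X, ∀ a ∈ N, x a ∈ N)
    (hK : ∀ x ∈ X, ∀ a ∈ K, x a ∈ K) (hB : ∀ x ∈ X, ∀ a ∈ B, x a ∈ B)
    (c3 : C ⊓ K ≤ N) (c1 : N ≤ C) (c4 : B ≤ C ⊔ K) :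
    ∃ C : Subgroup A, (∀ x ∈ X, ∀ a ∈ C, x a ∈ C) ∧ N ≤ C ∧ C ≤ B ∧ C ⊓ K ≤ N ∧ B ≤ C ⊔ K := by
  classical
  letI := Fintype.ofFinite X
  have hk : ∀ b : A, ∃ k ∈ K, b ∈ B → b * k⁻¹ ∈ C := fun b => by
    by_cases hb : b ∈ B
    · obtain ⟨c, hc, k, hk, rfl⟩ := mem_sup.1 (c4 hb)
      exact ⟨k, hk, fun _ => by simpa using hc⟩
    · exact ⟨1, one_mem _, fun h => absurd h hb⟩
  choose k hkK hkC using hk
  let σ : A → A ⧸ N := fun b => ∏ x : X, (((x : MulAut A)⁻¹ (k ((x : MulAut A) b)) : A) : A ⧸ N)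
  have hq : ∀ (x : X) (a b : A), a⁻¹ * b ∈ N →
      (((x : MulAut A)⁻¹ a : A) : A ⧸ N) = (((x : MulAut A)⁻¹ b : A) : A ⧸ N) := fun x a b h => by
    rw [QuotientGroup.eq, ← map_inv, ← map_mul]
    exact hN _ (inv_mem x.2) _ h
  have hmul : ∀ a ∈ B, ∀ b ∈ B, σ (a * b) = σ a * σ b := fun a ha b hb => by
    simp only [σ]
    rw [← Finset.prod_mul_distrib]
    refine Finset.prod_congr rfl fun x _ => ?_
    rw [← QuotientGroup.mk_mul, ← map_mul]
    refine hq x _ _ (c3 (mem_inf.2 ⟨?_, mul_mem (inv_mem (hkK _)) (mul_mem (hkK _) (hkK _))⟩))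
    have := mul_mem (hkC _ (hB x x.2 _ (mul_mem ha hb)))
      (inv_mem (mul_mem (hkC _ (hB x x.2 _ ha)) (hkC _ (hB x x.2 _ hb))))
    refine (congrArg (· ∈ C) ?_).mp this
    rw [map_mul]
    generalize k ((x : MulAut A) a * (x : MulAut A) b) = u
    generalize k ((x : MulAut A) a) = v
    generalize k ((x : MulAut A) b) = w
    apply Additive.ofMul.injective
    simp only [ofMul_mul, ofMul_inv]
    abel
  have hσK : ∀ a ∈ K, σ a = (a : A ⧸ N) ^ Nat.card X := fun a ha => by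
    simp only [σ]
    rw [Nat.card_eq_fintype_card, ← Finset.card_univ, ← Finset.prod_const]
    refine Finset.prod_congr rfl fun x _ => ?_
    rw [hq x _ ((x : MulAut A) a) (c3 (mem_inf.2 ⟨?_, mul_mem (inv_mem (hkK _)) (hK x x.2 a ha)⟩))]
    · simp
    · rw [mul_comm]; exact hkC _ (hB x x.2 a (h2 ha))
  have h1σ : σ 1 = 1 := by rw [hσK 1 (one_mem _)]; simp
  let τ : B →* A ⧸ N := MonoidHom.mk' (fun b => σ b) fun a b => hmul a a.2 b b.2
  have hτ : ∀ b : B, τ b = σ b := fun _ => rfl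
  have hmem : ∀ a, a ∈ τ.ker.map B.subtype ↔ a ∈ B ∧ σ a = 1 := fun a =>
    ⟨by rintro ⟨b, hb, rfl⟩; exact ⟨b.2, hb⟩, fun h => ⟨⟨a, h.1⟩, h.2, rfl⟩⟩
  have hco : ∀ (H : Subgroup A) (a : A), a ^ Nat.card X ∈ H → a ∈ H := fun H a h => by
    obtain ⟨m, hm⟩ := exists_pow_eq_self_of_coprime (x := a)
      (hX.coprime_dvd_right (orderOf_dvd_natCard a))
    rw [← hm]; exact pow_mem h m
  refine ⟨τ.ker.map B.subtype, fun y hy a ha => ?_, fun a ha => ?_, map_subtype_le _,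
    fun a ha => ?_, fun b hb => ?_⟩
  · rw [hmem] at ha ⊢
    refine ⟨hB y hy a ha.1, ?_⟩
    have h3 := ha.2
    simp only [σ] at h3 ⊢
    rw [← QuotientGroup.mk_prod, QuotientGroup.eq_one_iff] at h3 ⊢
    have h4 := hN y hy _ h3
    rw [map_prod] at h4
    convert h4 using 1
    refine Fintype.prod_equiv (Equiv.mulRight (⟨y, hy⟩ : X)) _ _ fun x => ?_
    simp
  · rw [hmem]
    exact ⟨h2 (h1 ha), by rw [hσK a (h1 ha), (QuotientGroup.eq_one_iff a).2 ha, one_pow]⟩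
  · have := ((hmem a).1 ha.1).2
    rw [hσK a ha.2, ← QuotientGroup.mk_pow, QuotientGroup.eq_one_iff] at this
    exact hco _ _ this
  · refine hco _ _ ?_
    have hs : ∏ x : X, (x : MulAut A)⁻¹ (k ((x : MulAut A) b)) ∈ K :=
      prod_mem fun x _ => hK _ (inv_mem x.2) _ (hkK _)
    have hs2 : σ b = ((∏ x : X, (x : MulAut A)⁻¹ (k ((x : MulAut A) b)) : A) : A ⧸ N) := by
      rw [QuotientGroup.mk_prod]
    generalize ∏ x : X, (x : MulAut A)⁻¹ (k ((x : MulAut A) b)) = s at hs hs2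
    refine (mul_mem_cancel_right (inv_mem (mem_sup_right hs))).1 (mem_sup_left ?_)
    refine ⟨⟨b, hb⟩ ^ Nat.card X * (⟨s, h2 hs⟩ : B)⁻¹, ?_, rfl⟩
    show τ _ = 1
    rw [map_mul, map_pow, map_inv, hτ, hτ, hσK s hs, hs2, mul_inv_cancel]

theorem inv_iff (X : Subgroup (MulAut A)) (B : Subgroup A) :
    (∀ x ∈ X, B.map x.toMonoidHom = B) ↔ ∀ x ∈ X, ∀ a ∈ B, x a ∈ B := by
  refine ⟨fun h x hx a ha => h x hx ▸ ⟨a, ha, rfl⟩, fun h x hx => le_antisymm ?_ fun a ha => ?_⟩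
  · rintro _ ⟨a, ha, rfl⟩; exact h x hx a ha
  · exact ⟨x⁻¹ a, h _ (inv_mem hx) a ha, by simp⟩

/-- Let A be a finite abelian p-group and X a group of automorphisms of A of order prime to p. Call a subgroup of A invariant when every element of X maps it onto itself. Then the following are equivalent: (i) A is not the direct product of two nontrivial invariant subgroups; (ii) every invariant subgroup of A is one of the subgroups Ω_i(A) = {a : a^(p^i) = 1}; (iii) the subgroup Ω₁(A) of elements of order dividing p has no invariant subgroups other than 1 and itself. -/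
theorem result {A : Type*} [CommGroup A] [Finite A] {p : ℕ} [Fact p.Prime] (hA : IsPGroup p A) (X : Subgroup (MulAut A)) (hX : (Nat.card X).Coprime p) : ((¬ ∃ B C : Subgroup A, B ≠ ⊥ ∧ C ≠ ⊥ ∧ (∀ x ∈ X, B.map x.toMonoidHom = B) ∧ (∀ x ∈ X, C.map x.toMonoidHom = C) ∧ B ⊓ C = ⊥ ∧ B ⊔ C = ⊤) ↔ (∀ B : Subgroup A, (∀ x ∈ X, B.map x.toMonoidHom = B) → ∃ i : ℕ, ∀ a : A, a ∈ B ↔ a ^ p ^ i = 1)) ∧ ((∀ B : Subgroup A, (∀ x ∈ X, B.map x.toMonoidHom = B) → ∃ i : ℕ, ∀ a : A, a ∈ B ↔ a ^ p ^ i = 1) ↔ (∀ B : Subgroup A, (∀ x ∈ X, B.map x.toMonoidHom = B) → (∀ b ∈ B, b ^ p = 1) → B = ⊥ ∨ ∀ a : A, a ∈ B ↔ a ^ p = 1)) := by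
  have hp : p.Prime := Fact.out
  simp only [inv_iff]
  have hXA : (Nat.card X).Coprime (Nat.card A) := by
    obtain ⟨n, hn⟩ := IsPGroup.iff_card.1 hA
    rw [hn]; exact hX.pow_right n
  have hex : ∀ B : Subgroup A, ∃ i, ∀ b ∈ B, b ^ p ^ i = 1 := fun B => by
    obtain ⟨n, hn⟩ := IsPGroup.iff_card.1 hA
    exact ⟨n, fun b _ => hn ▸ pow_card_eq_one'⟩
  have h23 : (∀ B : Subgroup A, (∀ x ∈ X, ∀ a ∈ B, x a ∈ B) →
      ∃ i : ℕ, ∀ a : A, a ∈ B ↔ a ^ p ^ i = 1) → (∀ B : Subgroup A, (∀ x ∈ X, ∀ a ∈ B, x a ∈ B) →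
      (∀ b ∈ B, b ^ p = 1) → B = ⊥ ∨ ∀ a : A, a ∈ B ↔ a ^ p = 1) := by
    intro h B hB hBp
    obtain ⟨i, hi⟩ := h B hB
    rcases i with _ | i
    · exact Or.inl (eq_bot_iff.2 fun a ha => by simpa using (hi a).1 ha)
    · exact Or.inr fun a => ⟨hBp a, fun h1 => (hi a).2 (by rw [pow_succ', pow_mul, h1, one_pow])⟩
  have hmap : ∀ (B : Subgroup A) (n : ℕ), (∀ x ∈ X, ∀ a ∈ B, x a ∈ B) →
      ∀ x ∈ X, ∀ a ∈ B.map (powMonoidHom n), x a ∈ B.map (powMonoidHom n) := by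
    rintro B n hB x hx _ ⟨a, ha, rfl⟩
    exact ⟨x a, hB x hx a ha, by simp⟩
  have h32 : (∀ B : Subgroup A, (∀ x ∈ X, ∀ a ∈ B, x a ∈ B) →
      (∀ b ∈ B, b ^ p = 1) → B = ⊥ ∨ ∀ a : A, a ∈ B ↔ a ^ p = 1) →
      (∀ B : Subgroup A, (∀ x ∈ X, ∀ a ∈ B, x a ∈ B) →
      ∃ i : ℕ, ∀ a : A, a ∈ B ↔ a ^ p ^ i = 1) := by
    intro h B hB
    classical
    refine ⟨Nat.find (hex B), fun a => ⟨Nat.find_spec (hex B) a, ?_⟩⟩
    rcases hi : Nat.find (hex B) with _ | i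
    · intro h1; rw [pow_zero, pow_one] at h1; rw [h1]; exact one_mem _
    have h1 := Nat.find_spec (hex B)
    have h2 := Nat.find_min (hex B) (m := i) (by omega)
    rw [hi] at h1
    rcases h _ (hmap B (p ^ i) hB) (by
      rintro _ ⟨b, hb, rfl⟩
      rw [powMonoidHom_apply, ← pow_mul, ← pow_succ, h1 b hb]) with h3 | h3
    · exact absurd (fun b hb => (mem_bot.1 (h3 ▸ mem_map_of_mem (powMonoidHom (p ^ i)) hb))) h2
    have key : ∀ j ≤ i + 1, ∀ a : A, a ^ p ^ j = 1 → a ∈ B := by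
      intro j
      induction j with
      | zero => intro _ a h1; rw [pow_zero, pow_one] at h1; rw [h1]; exact one_mem _
      | succ j ih =>
        intro hj a ha
        obtain ⟨b, hb, hab⟩ := (h3 (a ^ p ^ j)).2 (by rw [← pow_mul, ← pow_succ, ha])
        have := ih (by omega) (a * (b ^ p ^ (i - j))⁻¹) (by
          rw [mul_pow, inv_pow, ← pow_mul, ← pow_add, show i - j + j = i by omega, ← hab,
            powMonoidHom_apply, mul_inv_cancel])
        exact (mul_mem_cancel_right (inv_mem (pow_mem hb _))).1 this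
    exact key _ le_rfl a
  refine ⟨⟨fun h => h32 fun W hW hWp => ?_, ?_⟩, h23, h32⟩
  · classical
    by_cases hW0 : W = ⊥
    · exact Or.inl hW0
    right
    rcases hi : Nat.find (hex ⊤) with _ | d
    · have := Nat.find_spec (hex ⊤)
      rw [hi] at this
      exact absurd (eq_bot_iff.2 fun a _ => by simpa using this a trivial) hW0
    have h1 := Nat.find_spec (hex ⊤)
    have h2 := Nat.find_min (hex ⊤) (m := d) (by omega)
    rw [hi] at h1
    obtain ⟨B, ⟨hB, hBd⟩, hmin⟩ := (wellFounded_lt (α := Subgroup A)).has_min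
      {B | (∀ x ∈ X, ∀ a ∈ B, x a ∈ B) ∧ ¬ ∀ b ∈ B, b ^ p ^ d = 1} ⟨⊤, fun _ _ _ _ => trivial, h2⟩
    have hK : ∀ x ∈ X, ∀ a ∈ B ⊓ (powMonoidHom (p ^ d) : A →* A).ker,
        x a ∈ B ⊓ (powMonoidHom (p ^ d) : A →* A).ker := fun x hx a ha =>
      ⟨hB x hx a ha.1, by
        show x a ^ p ^ d = 1
        rw [← map_pow, show a ^ p ^ d = 1 from ha.2, map_one]⟩
    have hNK : B.map (powMonoidHom p) ≤ B ⊓ (powMonoidHom (p ^ d) : A →* A).ker := by
      rintro _ ⟨b, hb, rfl⟩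
      refine ⟨pow_mem hb _, ?_⟩
      show (b ^ p) ^ p ^ d = 1
      rw [← pow_mul, ← pow_succ', h1 b trivial]
    have hom : ∀ b ∈ B, b ^ p ^ d = 1 → ∃ c ∈ B, c ^ p = b := by
      obtain ⟨C, c1, c2, c3, c4⟩ := compl hp 0 hNK inf_le_left
        (fun b hb => ⟨b, hb, by simp⟩) (fun k _ h => ⟨1, one_mem _, by simpa using h⟩)
      obtain ⟨C, c0, c1, c2, c3, c4⟩ := maschke X hXA hNK inf_le_left (hmap B p hB) hK hB c3 c1 c4
      have hCB : C = B := by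
        by_contra hne
        refine hmin C ⟨c0, fun h3 => hBd fun b hb => ?_⟩ (lt_of_le_of_ne c2 hne)
        obtain ⟨c, hc, k, hk, rfl⟩ := mem_sup.1 (c4 hb)
        rw [mul_pow, h3 c hc, show k ^ p ^ d = 1 from hk.2, mul_one]
      intro b hb h3
      exact c3 ⟨hCB ▸ hb, hb, h3⟩
    have hBt : B = ⊤ := by
      obtain ⟨C, c1, c2, c3, c4⟩ := compl hp d (N := ⊥) (K := B) (B := ⊤) bot_le le_top
        (fun b _ => h1 b trivial) (fun k hk h => by
          obtain ⟨c, hc, rfl⟩ := hom k hk h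
          exact ⟨c, hc, by simp⟩)
      obtain ⟨C, c0, c1, c2, c3, c4⟩ := maschke X hXA bot_le le_top
        (fun x _ a ha => by rw [mem_bot.1 ha, map_one]; exact one_mem _) hB
        (fun _ _ _ _ => trivial) c3 c1 c4
      by_contra hne
      refine h ⟨C, B, fun h3 => hne ?_, fun h3 => hBd fun b hb => ?_, c0, hB, le_bot_iff.1 c3,
        top_le_iff.1 c4⟩
      · rw [h3, bot_sup_eq] at c4; exact top_le_iff.1 c4
      · rw [h3, mem_bot] at hb; rw [hb, one_pow]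
    subst hBt
    have hroot : ∀ j ≤ d, ∀ a : A, a ^ p = 1 → ∃ c : A, c ^ p ^ j = a := by
      intro j
      induction j with
      | zero => intro _ a _; exact ⟨a, by simp⟩
      | succ j ih =>
        intro hj a ha
        obtain ⟨c, rfl⟩ := ih (by omega) a ha
        obtain ⟨c', -, rfl⟩ := hom c trivial (by
          rw [← pow_mul, ← pow_succ] at ha
          obtain ⟨m, rfl⟩ : ∃ m, d = j + 1 + m := ⟨d - (j + 1), by omega⟩
          rw [pow_add, pow_mul, ha, one_pow])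
        exact ⟨c', by rw [← pow_mul, ← pow_succ']⟩
    have h3 : W.comap (powMonoidHom (p ^ d)) = ⊤ := by
      by_contra hne
      refine hmin _ ⟨fun x hx a ha => ?_, fun h3 => hW0 (eq_bot_iff.2 fun w hw => ?_)⟩
        (lt_top_iff_ne_top.2 hne)
      · show x a ^ p ^ d ∈ W
        rw [← map_pow]; exact hW x hx _ ha
      · obtain ⟨c, rfl⟩ := hroot d le_rfl w (hWp w hw)
        exact h3 c hw
    refine fun a => ⟨hWp a, fun ha => ?_⟩
    obtain ⟨c, rfl⟩ := hroot d le_rfl a ha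
    have : c ∈ W.comap (powMonoidHom (p ^ d)) := by rw [h3]; trivial
    exact this
  · rintro h ⟨B, C, hB0, hC0, hB, hC, hi, -⟩
    obtain ⟨i, h1⟩ := h B hB
    obtain ⟨j, h2⟩ := h C hC
    have : ∀ (B C : Subgroup A) (i j : ℕ), i ≤ j → (∀ a, a ∈ B ↔ a ^ p ^ i = 1) →
        (∀ a, a ∈ C ↔ a ^ p ^ j = 1) → B ≤ C := fun B C i j hij h1 h2 a ha => by
      obtain ⟨m, rfl⟩ := Nat.exists_eq_add_of_le hij
      rw [h2, pow_add, pow_mul, (h1 a).1 ha, one_pow]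
    rcases le_total i j with hij | hij
    · exact hB0 (by rw [← hi, inf_eq_left.2 (this B C i j hij h1 h2)])
    · exact hC0 (by rw [← hi, inf_eq_right.2 (this C B j i hij h2 h1)])

end Cfsg.Agent.S3775
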