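import Cfsg.Statements.S3776
import Cfsg.Agent.Sz2.Hig2
import Cfsg.Agent.S3360
import Cfsg.Agent.Solv.Frattini

set_option autoImplicit false
open Cfsg

namespace Cfsg.Agent.S3776

open Subgroup Cfsg.Agent.Invol Cfsg.Agent.Rank1 Cfsg.Agent.Sz2
open scoped commutatorElement

theorem exists_sz {G : Type*} [Group G] [Finite G] (hG : IsPGroup 2 G)
    (htwo : ∃ x y : G, x ≠ y ∧ x ≠ 1 ∧ x ^ 2 = 1 ∧ y ≠ 1 ∧ y ^ 2 = 1) (Y : Subgroup (MulAut G))
    (hs : Group.IsSolvable Y)
    (ht : ∀ x y : G, x ≠ 1 → x ^ 2 = 1 → y ≠ 1 → y ^ 2 = 1 → ∃ a ∈ Y, a x = y) :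
    ∃ (F : Type) (_ : Field F) (_ : Fintype F) (_ : CharP F 2) (D : SL Y F) (z : G → F), Sz D z := by
  classical
  have : Fact (Nat.Prime 2) := ⟨Nat.prime_two⟩
  have hc := central_of_trans hG (fun x y hx hy => by
    obtain ⟨a, -, e⟩ := ht x y (ne_one_of hx) (by rw [pow_two]; exact mul_self_of hx) (ne_one_of hy)
      (by rw [pow_two]; exact mul_self_of hy)
    exact ⟨a, e⟩)
  have hO : ∀ {x : G}, x ∈ Om G ↔ x * x = 1 := mem_Om_iff hc
  letI : CommGroup (Om G) := { (inferInstance : Group (Om G)) with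
    mul_comm := fun a b => Subtype.ext (mem_center_iff.1 (Om_le_center hc b.2) a) }
  letI : Module (ZMod 2) (Additive (Om G)) := AddCommGroup.zmodModule (fun x => by
    rw [two_nsmul]; exact Subtype.ext (hO.1 x.toMul.2))
  let r : Y → Additive (Om G) →+ Additive (Om G) := fun y => AddMonoidHom.mk'
    (fun v => Additive.ofMul ⟨(y : MulAut G) v.toMul, inv_Om _ v.toMul.2⟩)
    fun v w => Subtype.ext (map_mul (y : MulAut G) _ _)
  let ρ : Y →* (Additive (Om G) ≃ₗ[ZMod 2] Additive (Om G)) := MonoidHom.mk'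
    (fun y => { (r y).toZModLinearMap 2 with
      invFun := r y⁻¹
      left_inv := fun v => Subtype.ext ((y : MulAut G).symm_apply_apply _)
      right_inv := fun v => Subtype.ext ((y : MulAut G).apply_symm_apply _) })
    fun a b => rfl
  obtain ⟨x₁, x₂, h12, h1, h1', h2, h2'⟩ := htwo
  rw [pow_two] at h1' h2'
  have hnt : Nontrivial (Additive (Om G)) :=
    ⟨Additive.ofMul ⟨x₁, hO.2 h1'⟩, 0, fun e => h1 (congrArg Subtype.val e)⟩
  have htr : ∀ v w : Additive (Om G), v ≠ 0 → w ≠ 0 → ∃ y : Y, ρ y v = w := fun v w hv hw => by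
    obtain ⟨a, ha, e⟩ := ht v.toMul w.toMul (fun e => hv (Subtype.ext e))
      (by rw [pow_two]; exact hO.1 v.toMul.2) (fun e => hw (Subtype.ext e))
      (by rw [pow_two]; exact hO.1 w.toMul.2)
    exact ⟨⟨a, ha⟩, Subtype.ext e⟩
  have hfin : Finite ρ.range := Finite.of_surjective _ ρ.rangeRestrict_surjective
  rcases S3360.result 2 (G := ρ.range) (Group.isSolvable_of_surjective ρ.rangeRestrict_surjective)
    ρ.range.subtype (Subgroup.subtype_injective _) (fun v w hv hw =>
      let ⟨y, e⟩ := htr v w hv hw; ⟨⟨_, y, rfl⟩, e⟩) with ⟨F, _, _, e, he⟩ | hh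
  swap
  · exfalso
    obtain ⟨n, hn⟩ := IsPGroup.iff_card.1 (hG.to_subgroup (Om G))
    have h3 : Nat.card (Additive (Om G)) = 2 ^ n := hn
    have h4 : 1 < Nat.card (Additive (Om G)) := Finite.one_lt_card
    rw [h3] at hh h4
    rcases n with _ | n
    · simp at h4
    · rw [pow_succ] at hh
      simp only [Set.mem_insert_iff, Set.mem_singleton_iff] at hh
      omega
  have he' : ∀ y : Y, ∃ (a : F) (σ : F ≃+* F), ∀ v, e (ρ y v) = a * σ (e v) := fun y => he ⟨_, y, rfl⟩
  choose a s has using he'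
  have hchar : CharP F 2 := CharTwo.of_one_ne_zero_of_two_eq_zero one_ne_zero (by
    rw [← one_add_one_eq_two, ← e.apply_symm_apply 1, ← map_add, map_eq_zero_iff _ e.injective]
    exact Subtype.ext (hO.1 (e.symm 1).toMul.2))
  have ha1 : ∀ y, e (ρ y (e.symm 1)) = a y := fun y => by simp [has]
  have ha0 : ∀ y, a y ≠ 0 := fun y h => by
    rw [← ha1, map_eq_zero_iff _ e.injective, map_eq_zero_iff _ (ρ y).injective,
      map_eq_zero_iff _ e.symm.injective] at h
    exact one_ne_zero h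
  have hm : ∀ y y' w, a (y * y') * s (y * y') w = a y * s y (a y' * s y' w) := fun y y' w => by
    rw [← e.apply_symm_apply w, ← has, ← has, ← has, map_mul]; rfl
  have ham : ∀ y y', a (y * y') = a y * s y (a y') := fun y y' => by simpa using hm y y' 1
  let D : SL Y F :=
    { a := a
      s := MonoidHom.mk' s fun y y' => RingEquiv.ext fun w => by
        have := hm y y' w
        rw [map_mul, ← mul_assoc, ← ham, mul_right_inj' (ha0 _)] at this
        exact this
      a_mul := ham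
      a_ne := ha0
      surj := fun x hx => by
        obtain ⟨y, hy⟩ := htr (e.symm 1) (e.symm x) (by simp) (by simpa using hx)
        exact ⟨y, by rw [← ha1, hy, e.apply_symm_apply]⟩ }
  let z : G → F := fun x => if hx : x ∈ Om G then e (Additive.ofMul ⟨x, hx⟩) else 0
  have hz : ∀ x (hx : x ∈ Om G), z x = e (Additive.ofMul ⟨x, hx⟩) := fun x hx => dif_pos hx
  have hz0 : ∀ u ∈ Om G, z u = 0 ↔ u ∈ (⊥ : Subgroup G) := fun u hu => by
    rw [hz u hu, map_eq_zero_iff _ e.injective, mem_bot]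
    exact ⟨fun e => congrArg Subtype.val e, fun e => Subtype.ext e⟩
  refine ⟨F, inferInstance, inferInstance, hchar, D, z, hG, ?_, hc, invY_Om, bot_le,
    fun u hu v hv => ?_, hz0, fun y u hu => ?_, fun x => ⟨(e.symm x).toMul, (e.symm x).toMul.2, ?_⟩⟩
  · refine Fintype.two_lt_card_iff.2 ⟨0, z x₁, z x₂, fun h => h1 ((hz0 _ (hO.2 h1')).1 h.symm),
      fun h => h2 ((hz0 _ (hO.2 h2')).1 h.symm), fun h => h12 ?_⟩
    rw [hz _ (hO.2 h1'), hz _ (hO.2 h2')] at h
    exact congrArg Subtype.val (e.injective h)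
  · rw [hz _ hu, hz _ hv, hz _ (mul_mem hu hv), ← map_add]; rfl
  · rw [hz _ hu, hz _ (inv_Om _ hu)]
    exact has y (Additive.ofMul ⟨u, hu⟩)
  · rw [hz _ (e.symm x).toMul.2]
    exact e.apply_symm_apply x

/-- Let G be a finite non-abelian 2-group with more than one involution admitting a solvable group of automorphisms that permutes its involutions transitively. Then the derived subgroup, the Frattini subgroup and the centre of G coincide and consist exactly of the elements x with x² = 1. -/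
theorem result {G : Type*} [Group G] [Finite G] (hG : IsPGroup 2 G) (hna : ¬ IsMulCommutative G) (htwo : ∃ x y : G, x ≠ y ∧ x ≠ 1 ∧ x ^ 2 = 1 ∧ y ≠ 1 ∧ y ^ 2 = 1) (hY : ∃ Y : Subgroup (MulAut G), Group.IsSolvable Y ∧ ∀ x y : G, x ≠ 1 → x ^ 2 = 1 → y ≠ 1 → y ^ 2 = 1 → ∃ a ∈ Y, a x = y) : commutator G = frattini G ∧ frattini G = Subgroup.center G ∧ ∀ x : G, x ∈ Subgroup.center G ↔ x ^ 2 = 1 := by
  obtain ⟨Y, hs, ht⟩ := hY
  obtain ⟨F, _, _, _, D, z, h⟩ := exists_sz hG htwo Y hs ht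
  have : Fact (Nat.Prime 2) := ⟨Nat.prime_two⟩
  have hnc : ¬ Comm (⊤ : Subgroup G) := fun e => hna ⟨⟨fun a b => e a (mem_top a) b (mem_top b)⟩⟩
  have h1 : Om G ≤ commutator G := h.Om_le (invY_top.commutator invY_top) fun e => hnc fun a _ b _ =>
    commutatorElement_eq_one_iff_mul_comm.1 (e.le (commutator_mem_commutator (mem_top a) (mem_top b)))
  have h2 : _root_.commutator G ≤ frattini G := ((Solv.frattini_le_iff hG).1 le_rfl).1
  have h3 : frattini G ≤ Om G := (Solv.frattini_le_iff hG).2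
    ⟨commutator_le.2 fun a _ b _ => commutator_mem_of_sq (h.sq_mem_Om hnc) a b,
      fun x => by rw [pow_two]; exact h.sq_mem_Om hnc x⟩
  rw [h.center_eq hnc]
  exact ⟨le_antisymm h2 (h3.trans h1), le_antisymm h3 (h1.trans h2),
    fun x => by rw [h.mem_Om, pow_two]⟩

end Cfsg.Agent.S3776
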