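import Cfsg.Statements.S3777
import Cfsg.Agent.LieM.Breadth
import Mathlib.Tactic.Group

set_option autoImplicit false
open Cfsg

namespace Cfsg.Agent.S3777
open scoped commutatorElement

open Subgroup Cfsg.Agent.BG Cfsg.Agent.LieM

/-- Vaughan-Lee's Theorem: if G is a finite p-group in which every conjugacy class has at most p^b elements (every element has centralizer of index at most p^b), then the derived subgroup of G has order at most p^(b(b+1)/2). -/
theorem result {G : Type*} [Group G] [Finite G] {p : ℕ} [Fact p.Prime] (hG : IsPGroup p G) (b : ℕ) (hb : ∀ x : G, (Subgroup.centralizer ({x} : Set G)).index ≤ p ^ b) : Nat.card (commutator G) ≤ p ^ (b * (b + 1) / 2) := by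
  by_contra hlt
  have hp : p.Prime := Fact.out
  have h : p ^ (b + 1).choose 2 < #⁅(⊤ : Subgroup G), (⊤ : Subgroup G)⁆ := by
    rw [Nat.choose_two_right, mul_comm]; exact not_le.1 hlt
  have h3 := three_le_relIndex_bot (hG.to_subgroup ⊤) h
  obtain ⟨g, -, -, -, hg⟩ := exists_breadth (hG.to_subgroup ⊤) h (A := ⊥) (fun e => by
    rw [relIndex_eq_one.2 e] at h3; omega) h3
  rw [relIndex_top_right] at hg
  have := hg.trans (hb g)
  rw [Nat.pow_le_pow_iff_right hp.one_lt] at this
  omega

end Cfsg.Agent.S3777
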