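import Cfsg.Statements.S3778
import Cfsg.Agent.Gen2.Breadth

set_option autoImplicit false
open Cfsg

namespace Cfsg.Agent.S3778

open Subgroup Cfsg.Agent.BG Cfsg.Agent.Gen2
open scoped commutatorElement

universe u

theorem aux {p : ℕ} [hp : Fact p.Prime] (k : ℕ) : ∀ (G : Type u) [Group G] [Fintype G], IsPGroup p G →
    (⊤ : Subgroup G).lowerCentralSeries k ≠ ⊥ → (⊤ : Subgroup G).lowerCentralSeries (k + 1) = ⊥ →
      k * (p - 1) * Nat.card G ≤ p * ∑ x : G, p.log C1[x].index := by
  classical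
  induction k with
  | zero => intros; simp
  | succ k ih =>
  intro G _ _ hG h1 h2
  set L := (⊤ : Subgroup G).lowerCentralSeries k with hL
  set N := (⊤ : Subgroup G).lowerCentralSeries (k + 1) with hN
  have hNZ : N ≤ center G := commutator_top_right_eq_bot_iff_le_center.1 h2
  have hm : ∀ j, (⊤ : Subgroup (G ⧸ N)).lowerCentralSeries j =
      ((⊤ : Subgroup G).lowerCentralSeries j).map (QuotientGroup.mk' N) := fun j => by
    rw [map_lowerCentralSeries, map_top_of_surjective _ (QuotientGroup.mk'_surjective N)]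
  have := Fintype.ofFinite (G ⧸ N)
  have h3 := ih (G ⧸ N) (hG.to_quotient N) (by
    rw [hm, Ne, Subgroup.map_eq_bot_iff, QuotientGroup.ker_mk']
    exact fun h => h1 (eq_bot_iff.2 ((commutator_mono h le_rfl).trans h2.le)))
    (by rw [hm, Subgroup.map_eq_bot_iff, QuotientGroup.ker_mk'])
  have hC : p * #C[L] ≤ Nat.card G := by
    obtain ⟨n, hn⟩ := hG.index C[L]
    rw [← index_mul_card C[L], hn]
    refine Nat.mul_le_mul_right _ (Nat.le_self_pow ?_ _)
    rintro rfl
    exact h1 (commutator_eq_bot_iff_le_centralizer.2 (le_centralizer_iff.1 (index_eq_one.1 hn).ge))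
  have h4 : ∀ x : G, p.log C1[(x : G ⧸ N)].index + 1 ≤ p.log C1[x].index + if x ∈ C[L] then 1 else 0 := by
    intro x
    obtain ⟨m, hm, h, h'⟩ := cs_central N hNZ x
    obtain ⟨n, hn⟩ := (hG.to_subgroup N).exists_card_eq
    obtain ⟨j, -, rfl⟩ := (Nat.dvd_prime_pow hp.out).1 (hn ▸ hm)
    obtain ⟨i, hi⟩ := (hG.to_quotient N).index C1[(x : G ⧸ N)]
    rw [h, hi, ← pow_add, Nat.log_pow hp.out.one_lt, Nat.log_pow hp.out.one_lt]
    split_ifs with hx
    · omega
    · have : j ≠ 0 := by
        rintro rfl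
        exact hx fun g hg => commutatorElement_eq_one_iff_mul_comm.1
          (h' rfl g (commutator_mem_commutator hg (mem_top x)))
      omega
  have h5 := Finset.sum_le_sum fun x (_ : x ∈ Finset.univ) => h4 x
  have h6 : ∑ x : G, p.log C1[(x : G ⧸ N)].index = #N * ∑ q : G ⧸ N, p.log C1[q].index := by
    rw [← Finset.sum_fiberwise Finset.univ (QuotientGroup.mk (s := N)), Finset.mul_sum]
    refine Finset.sum_congr rfl fun q _ => ?_
    rw [Finset.sum_congr rfl (g := fun _ => p.log C1[q].index) fun x hx => by rw [(Finset.mem_filter.1 hx).2],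
      Finset.sum_const, smul_eq_mul, ← Fintype.card_subtype, ← Nat.card_eq_fintype_card]
    exact congrArg (· * _) ((QuotientGroup.card_preimage_mk N {q}).trans (by simp))
  rw [Finset.sum_add_distrib, Finset.sum_add_distrib, h6, Finset.sum_boole, ← Fintype.card_subtype,
    Finset.sum_const, Finset.card_univ, ← Nat.card_eq_fintype_card, ← Nat.card_eq_fintype_card] at h5
  have h7 := card_eq_card_quotient_mul_card_subgroup N
  obtain ⟨r, rfl⟩ : ∃ r, p = r + 1 := ⟨p - 1, (Nat.succ_pred_eq_of_pos hp.out.pos).symm⟩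
  simp only [add_tsub_cancel_right, smul_eq_mul, mul_one, Nat.cast_id] at *
  have h8 := Nat.mul_le_mul_left (#N) h3
  have h9 := Nat.mul_le_mul_left (r + 1) h5
  rw [h7] at hC h9 ⊢
  nlinarith

/-- If G is a finite p-group in which every conjugacy class has at most p^b elements (every element has centralizer of index at most p^b), then G is abelian when b = 0, and when b ≥ 1 its nilpotency class c satisfies (c − 1)(p − 1) < bp, that is c < bp/(p − 1) + 1, and hence c ≤ 2b. -/
theorem result {G : Type*} [Group G] [Finite G] {p : ℕ} [Fact p.Prime] (hG : IsPGroup p G) (b : ℕ) (hb : ∀ x : G, (Subgroup.centralizer ({x} : Set G)).index ≤ p ^ b) : ∃ c : ℕ, (⊤ : Subgroup G).lowerCentralSeries c = ⊥ ∧ (b ≠ 0 → (c - 1) * (p - 1) < b * p ∧ c ≤ 2 * b) ∧ (b = 0 → c ≤ 1) := by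
  have := Fintype.ofFinite G
  have hp := (Fact.out : p.Prime).one_lt
  have hn := Subgroup.nilpotent_iff_lowerCentralSeries.1 hG.isNilpotent
  classical
  refine ⟨Nat.find hn, Nat.find_spec hn, ?_⟩
  rcases h : Nat.find hn with _ | k
  · simp only [zero_tsub, zero_mul, zero_le, and_true, implies_true]
    exact fun h => Nat.mul_pos (Nat.pos_of_ne_zero h) (by omega)
  have h1 := aux k G hG (Nat.find_min hn (by omega)) (h ▸ Nat.find_spec hn)
  have h2 : ∀ x : G, p.log C1[x].index ≤ b := fun x =>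
    (Nat.log_mono_right (hb x)).trans (Nat.log_pow hp b).le
  have hc : 0 < Nat.card G := Nat.card_pos
  have h3 : b ≠ 0 → k * (p - 1) < b * p := fun h0 => by
    have := Finset.sum_lt_sum (fun x (_ : x ∈ Finset.univ) => h2 x)
      ⟨1, Finset.mem_univ _, by rw [cs_one, Nat.log_one_right]; omega⟩
    rw [Finset.sum_const, Finset.card_univ, ← Nat.card_eq_fintype_card, smul_eq_mul] at this
    refine lt_of_mul_lt_mul_right (h1.trans_lt ?_) hc.le
    nlinarith
  obtain ⟨r, rfl⟩ : ∃ r, p = r + 2 := ⟨p - 2, by omega⟩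
  refine ⟨fun h0 => ⟨h3 h0, ?_⟩, fun h0 => ?_⟩
  · have := h3 h0
    change k * (r + 1) < _ at this
    by_contra h4
    nlinarith [Nat.mul_le_mul_right (r + 1) (show 2 * b ≤ k by omega)]
  · rw [Finset.sum_eq_zero fun x _ => Nat.le_zero.1 (h0 ▸ h2 x)] at h1
    change k * (r + 1) * _ ≤ _ at h1
    by_contra h4
    nlinarith [Nat.mul_pos (Nat.mul_pos (show 0 < k by omega) r.succ_pos) hc]

end Cfsg.Agent.S3778
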