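import Cfsg.Statements.S3779
import Cfsg.Agent.LieM.Fix
import Cfsg.Agent.FG.Three
import Mathlib.Tactic.Group

set_option autoImplicit false
open Cfsg

namespace Cfsg.Agent.S3779
open scoped commutatorElement

open Cfsg.Agent.BG Cfsg.Agent.LieM Subgroup

theorem three {G : Type*} [Group G] [Finite G] (φ : MulAut G) (h3 : φ ^ 3 = 1) (hφ : ∀ g : G, φ g = g → g = 1) :
    (⊤ : Subgroup G).lowerCentralSeries 2 = ⊥ := by
  let X := G ⋊[(Subgroup.zpowers φ).subtype] Subgroup.zpowers φ
  have : Finite X := Finite.of_equiv _ SemidirectProduct.equivProd.symm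
  have nK : (SemidirectProduct.inl : G →* X).range.Normal := by
    rw [SemidirectProduct.range_inl_eq_ker_rightHom]; infer_instance
  have := FG.fpf_three_class (K := (SemidirectProduct.inl : G →* X).range)
    (b := SemidirectProduct.inr ⟨φ, mem_zpowers φ⟩) ((normal_top _).norm (mem_top _))
    (by rw [← map_pow, show (⟨φ, mem_zpowers φ⟩ : zpowers φ) ^ 3 = 1 from Subtype.ext h3, map_one])
    (le_bot_iff.1 (by
      rintro _ ⟨⟨g, rfl⟩, h⟩
      have := mem_cent1.1 h
      rw [hφ g (by simpa using (congrArg SemidirectProduct.left this).symm), map_one]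
      exact one_mem _))
  refine le_bot_iff.1 (commutator_le.2 fun a ha b _ => ?_)
  have h1 : SemidirectProduct.inl a ∈ ⁅(SemidirectProduct.inl : G →* X).range, (SemidirectProduct.inl : G →* X).range⁆ := by
    rw [MonoidHom.range_eq_map, ← map_commutator]; exact mem_map_of_mem _ ha
  have h2 := mem_cent.1 (this h1) _ ⟨b, rfl⟩
  rw [← map_mul, ← map_mul] at h2
  exact commutatorElement_eq_one_iff_mul_comm.2 (SemidirectProduct.inl_injective h2).symm

/-- Let G be a finite group with an automorphism of prime order p fixing only the identity. Then G is nilpotent; if p = 2 then G is abelian, if p = 3 then G has class at most 2, and in general the class of G is at most ξ = 1 + (p−1) + (p−1)² + ⋯ + (p−1)^(n−1) with n = 2^(p−1) − 1 (the Higman–Kreknin–Kostrikin bound). -/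
theorem result {G : Type*} [Group G] [Finite G] {p : ℕ} (hp : p.Prime) (α : MulAut G) (hα : orderOf α = p) (hfpf : ∀ g : G, α g = g → g = 1) : (p = 2 → (⊤ : Subgroup G).lowerCentralSeries 1 = ⊥) ∧ (p = 3 → (⊤ : Subgroup G).lowerCentralSeries 2 = ⊥) ∧ (⊤ : Subgroup G).lowerCentralSeries (Finset.sum (Finset.range (2 ^ (p - 1) - 1)) (fun i => (p - 1) ^ i)) = ⊥ := by
  haveI := Fact.mk hp
  have h1 : α ^ p = 1 := hα ▸ pow_orderOf_eq_one α
  have h := lcs_eq_bot_of_fpf h1 hfpf
  refine ⟨?_, ?_, h⟩
  · rintro rfl; exact h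
  · rintro rfl; exact three α h1 hfpf

end Cfsg.Agent.S3779
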