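import Cfsg.Statements.S3780
import Cfsg.Agent.Solv.BurnsideBasis
import Cfsg.Agent.Solv.Basic

set_option autoImplicit false
open Cfsg

namespace Cfsg.Agent.S3780

open Subgroup

theorem nilp {A : Type*} [AddCommGroup A] {p : ℕ} (hp : p.Prime) (f : AddMonoid.End A)
    (hf : f ^ p = 1) (w : A) (hw : p • w = 0) : ((f - 1) ^ p) w = 0 := by
  obtain ⟨r, hr⟩ := (Commute.one_right (f - 1)).exists_add_pow_prime_eq hp
  rw [sub_add_cancel, hf, one_pow, mul_assoc, mul_assoc] at hr
  have h1 : (f - 1) ^ p = -((p : AddMonoid.End A) * ((f - 1) * (1 * r))) := by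
    rw [eq_neg_iff_add_eq_zero]
    have := hr
    rw [add_right_comm] at this
    exact (left_eq_add (a := 1)).1 (this.trans (add_comm _ _))
  rw [h1, ← nsmul_eq_mul]
  show -(p • ((f - 1) * (1 * r)) w) = 0
  rw [← map_nsmul, hw, map_zero, neg_zero]

theorem card_ker_pow {V : Type*} [Group V] [Finite V] (g : Monoid.End V) (k : ℕ) :
    Nat.card (MonoidHom.ker (g ^ k : Monoid.End V)) ≤ Nat.card (MonoidHom.ker g) ^ k := by
  induction k with
  | zero =>
    rw [pow_zero, pow_zero, (MonoidHom.ker_eq_bot_iff (1 : Monoid.End V)).2 fun _ _ h => h, card_bot]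
  | succ k ih =>
    have h1 : MonoidHom.ker (g ^ (k + 1) : Monoid.End V) =
        (MonoidHom.ker (g ^ k : Monoid.End V) ⊓ MonoidHom.range g).comap g := by
      ext x
      simp only [MonoidHom.mem_ker, mem_comap, mem_inf, MonoidHom.mem_range, pow_succ]
      exact ⟨fun h => ⟨h, x, rfl⟩, fun h => h.1⟩
    rw [h1, pow_succ']
    exact (Solv.card_comap (g : V →* V) inf_le_right).le.trans
      (Nat.mul_le_mul_left _ ((card_le_of_le inf_le_left).trans ih))

/-- Let V be a finite abelian p-group and α an automorphism of V of order p whose fixed-point subgroup has order p^n. Then V can be generated by pn elements: some subset of V with at most pn elements generates V. -/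
theorem result {V : Type*} [CommGroup V] [Finite V] {p : ℕ} [Fact p.Prime] (hV : IsPGroup p V) (α : MulAut V) (hα : orderOf α = p) (n : ℕ) (hfix : Nat.card {v : V // α v = v} = p ^ n) : ∃ S : Finset V, S.card ≤ p * n ∧ Subgroup.closure (S : Set V) = ⊤ := by
  classical
  have hp : p.Prime := Fact.out
  letI := Fintype.ofFinite V
  obtain ⟨r, hr⟩ := hV.index (frattini V)
  obtain ⟨T, -, hT, hcl⟩ := Solv.exists_subset_card_eq_closure_eq_top hV hr (S := Finset.univ)
    (by simp)
  refine ⟨T, ?_, hcl⟩
  let δ : Monoid.End V := (α.toMonoidHom * (MonoidHom.id V)⁻¹ : V →* V)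
  let f : AddMonoid.End (Additive V) := MonoidHom.toAdditive α.toMonoidHom
  have h1 : ∀ k (v : V), (f ^ k) (Additive.ofMul v) = Additive.ofMul ((α ^ k) v) := by
    intro k
    induction k with
    | zero => intro v; rfl
    | succ k ih => intro v; rw [pow_succ, pow_succ]; exact ih (α v)
  have h2 : ∀ k (v : V), ((f - 1) ^ k) (Additive.ofMul v) = Additive.ofMul ((δ ^ k) v) := by
    intro k
    induction k with
    | zero => intro v; rfl
    | succ k ih =>
      intro v
      rw [pow_succ, pow_succ]
      have : (f - 1) (Additive.ofMul v) = Additive.ofMul (δ v) := sub_eq_add_neg _ _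
      exact (congrArg (fun w => ((f - 1) ^ k : AddMonoid.End (Additive V)) w) this).trans (ih (δ v))
  have h3 : f ^ p = 1 := by
    ext v
    have := h1 p v
    rw [← hα, pow_orderOf_eq_one α, hα] at this
    exact this
  have h4 : (powMonoidHom p : V →* V).ker ≤ MonoidHom.ker (δ ^ p : Monoid.End V) := fun w hw => by
    have := nilp hp f h3 (Additive.ofMul w) (by rw [← ofMul_pow]; exact congrArg _ hw)
    rw [h2] at this
    exact this
  have h5 : Nat.card (MonoidHom.ker δ) = p ^ n := by
    rw [← hfix]
    exact Nat.card_congr (Equiv.subtypeEquivRight fun v => mul_inv_eq_one)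
  have h6 : (frattini V).index ≤ Nat.card (powMonoidHom p : V →* V).ker := by
    rw [← index_range]
    exact index_antitone (by rintro _ ⟨x, rfl⟩; exact Solv.pow_mem_frattini hV x)
  have h7 := h6.trans ((card_le_of_le h4).trans (card_ker_pow δ p))
  rw [h5, hr, ← pow_mul] at h7
  rw [hT, mul_comm]
  exact (Nat.pow_le_pow_iff_right hp.one_lt).1 h7

end Cfsg.Agent.S3780
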