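import Cfsg.Statements.S3782
import Cfsg.Agent.LieM.Fix
import Mathlib.Tactic.Group

set_option autoImplicit false
open Cfsg

namespace Cfsg.Agent.S3782
open scoped commutatorElement

open Cfsg.Agent.LieM Subgroup

/-- Alperin's Theorem: for each prime p and each n ≥ 0 there is an integer l such that every finite solvable group admitting an automorphism of order p with exactly p^n fixed points has derived length at most l. -/
theorem result (p : ℕ) (hp : p.Prime) (n : ℕ) : ∃ l : ℕ, ∀ (G : Type) [Group G] [Finite G], Group.IsSolvable G → ∀ α : MulAut G, orderOf α = p → Nat.card {g : G // α g = g} = p ^ n → derivedSeries G l = ⊥ := by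
  haveI := Fact.mk hp
  refine ⟨((p ^ n) ^ (p * 1)).factorial + (n * (p * (n + hk p + 1)) + (hk p + 1)) + hk p, fun G _ _ hG α hα hn => ?_⟩
  have h1 : α ^ p = 1 := hα ▸ pow_orderOf_eq_one α
  have h2 : Nat.card (fix α) = p ^ n := hn
  refine der_add_eq_bot (N := pPrimeCore p G) ((der_le_ker (QuotientGroup.mk' (pPrimeCore p G))
    (der_charP (Solv.pPrimeCore_quotient_pPrimeCore p G) (α := Gen2.quotAut _ α) (by rw [← map_pow, h1, map_one])
      ((card_fix_quot_le _ _).trans h2.le))).trans (QuotientGroup.ker_mk' _).le)
    (le_bot_iff.1 ((Subgroup.derived_le_lower_central _).trans (lcs_eq_bot_of_fpf (α := MulAut.characteristic _ α)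
      (by rw [← map_pow, h1, map_one]) fun g hg => ?_).le))
  have := (Solv.inf_pPrimeCore_eq_bot (IsPGroup.of_card h2)).le ⟨congrArg Subtype.val hg, g.2⟩
  exact Subtype.ext this

end Cfsg.Agent.S3782
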