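import Cfsg.Statements.S3785
import Cfsg.Agent.BG.S1c

set_option autoImplicit false
open Cfsg

namespace Cfsg.Agent.S3785

open Cfsg.Agent.BG
open scoped commutatorElement

/-- Let G be a finite solvable group whose Fitting subgroup F(G) has odd order. If an element g of G commutes with every element of prime order of F(G), then g ∈ F(G). -/
theorem result {G : Type*} [Group G] [Finite G] (hG : Group.IsSolvable G) (hodd : Odd (Nat.card (Cfsg.fittingSubgroup G))) (g : G) (hg : ∀ x ∈ Cfsg.fittingSubgroup G, (orderOf x).Prime → g * x = x * g) : g ∈ Cfsg.fittingSubgroup G := by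
  -- `K`: the centralizer of all prime-order elements of `F = F(G)`; normal in `G`
  set F := fittingOf (⊤ : Subgroup G) with hF
  rw [← Fitting_top] at hodd hg ⊢
  have hFn : F ⊴ ⊤ := Fitting_normal ⊤
  set W : Subgroup G := Subgroup.closure {x | x ∈ F ∧ (orderOf x).Prime} with hW
  have hWn : (⊤ : Subgroup G) ≤ N[W] := norms_closure fun y _ x hx =>
    ⟨hFn.conj_mem trivial hx.1, by rw [orderOf_conj']; exact hx.2⟩
  have hgW : g ∈ C[W] := by
    rw [← le_cent1_iff, hW, Subgroup.closure_le]
    intro x hx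
    exact mem_cent1.2 (hg x hx.1 hx.2).symm
  have hKn : C[W] ⊴ ⊤ := ⟨le_top, norms_cent hWn⟩
  suffices h : C[W] ≤ F from h hgW
  -- every `q`-subgroup `Q` of `K = C(W)` lies in `F`: show `K` nilpotent
  refine Fitting_max hKn ?_
  have hsol : Group.IsSolvable C[W] := solvable_of _
  -- `K / C_K(F)`-argument: each Sylow `q` of `K` centralizes `O_p(G)` for `p ≠ q`
  have hcent : ∀ p q : ℕ, p.Prime → q.Prime → p ≠ q → ∀ Q ≤ C[W], IsPGroup q Q → Q ≤ C[Op p ⊤] := by
    intro p q hp hq hpq Q hQ hQq
    haveI := Fact.mk hp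
    haveI := Fact.mk hq
    have hPF : Op p ⊤ ≤ F := pcore_sub_Fitting p ⊤
    refine coprime_odd_faithful_Ohm1 (Op_pgroup p ⊤) (le_top.trans (pcore_normal _ _).2)
      (pnat_coprime (pcore_pgroup _ _) (p'group_of_ne hQq hpq.symm)) (oddSg hPF hodd) ?_
    refine hQ.trans (centS (Ohm1_le_iff.2 fun x hx hxp => ?_))
    by_cases h1 : x = 1
    · rw [h1]; exact one_mem _
    · exact Subgroup.subset_closure ⟨hPF hx, by rw [orderOf_eq_prime hxp h1]; exact hp⟩
  refine nil_of_Sylow_normal fun q hq _ => ?_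
  haveI := Fact.mk hq
  obtain ⟨Q, hQ⟩ := Sylow_exists q C[W]
  refine ⟨Q, hQ, ?_⟩
  -- the normal closure of `Q` centralizes `O_{q'}(F)`; we show `Q ≤ O_q(G)`
  have hQO : Q ≤ Op q ⊤ := by
    -- `D = C_K(O_{q'}(F))` contains every `q`-subgroup of `K`, and every `q'`-element of `D` lies in `F`
    set D := C[W] ⊓ C[Op' q F] with hD
    have hDn : D ⊴ ⊤ := ⟨le_top, normsI hKn.2 (norms_cent (hFn.pcore _).2)⟩
    have hQD : Q ≤ D := by
      refine le_inf hQ.le (cents_symm (le_of_pgroup_le fun p hp P hP hPp => ?_))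
      haveI := Fact.mk hp
      by_cases hpq : p = q
      · subst hpq
        have : P = ⊥ := by
          have := pgroup_p'_TI hPp (pcore_pgroup {p}ᶜ F)
          rwa [inf_eq_left.2 hP] at this
        rw [this]; exact bot_le
      · exact (pgroup_sub_Fitting (hP.trans (pcore_sub _ _)) hPp).trans
          (cents_symm (hcent p q hp hq hpq Q hQ.le hQ.pg))
    have hDs : Group.IsSolvable D := solvable_of _
    obtain ⟨H, hH⟩ := Hall_exists {q}ᶜ hDs
    have hHF : H ≤ F := by
      refine le_trans ?_ (cent_sub_Fitting (M := ⊤) (solvable_of _))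
      refine le_inf le_top ?_
      rw [← (nilpotent_pcoreC {q} (Fitting_nil ⊤)).sup]
      refine le_cent_sup ?_ (hH.le.trans inf_le_right)
      rw [show piCoreOf {q} (fittingOf ⊤) = Op q ⊤ from p_core_Fitting q ⊤]
      refine le_of_pgroup_le fun r hr R hR hRr => ?_
      haveI := Fact.mk hr
      by_cases hrq : r = q
      · subst hrq
        have : R = ⊥ := by
          have := pgroup_p'_TI hRr hH.pi
          rwa [inf_eq_left.2 hR] at this
        rw [this]; exact bot_le
      · exact hcent q r hq hr (Ne.symm hrq) R (hR.trans (hH.le.trans inf_le_left)) hRr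
    have hHO : H ≤ Op' q F := nilpotent_sub_pcore (Fitting_nil ⊤) hHF hH.pi
    have hHc : D ≤ C[H] := inf_le_right.trans (centS hHO)
    have hQS : SylowIn q Q D := pHall_subl hQD inf_le_left hQ
    have hH' : IsPiHallOf {q}ᶜ H D := hH
    have hc := compl_of_pHall hQS hH'
    have hQn : Q ⊴ D := ⟨hQD, hc.sup ▸ sup_le (normG Q) (cents_norm (cents_symm (hQD.trans hHc)))⟩
    rw [← normal_Hall_pcore hQS hQn]
    exact pcoreS_normal _ hDn
  have : Q = C[W] ⊓ Op q ⊤ :=
    (Hall_max hQ (le_inf hQ.le hQO) inf_le_left (pgroupS inf_le_right (pcore_pgroup _ _))).symm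
  rw [this]
  exact normsI (normG _) (le_top.trans (pcore_normal _ _).2)

end Cfsg.Agent.S3785
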