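import Cfsg.Statements.S3787
import Cfsg.Agent.Sig.HH4

set_option autoImplicit false
open Cfsg

namespace Cfsg.Agent.S3787

open Subgroup Cfsg.Agent.BG Cfsg.Agent.Sig

/-- Let G be a finite p-soluble group, p an odd prime not of the form 2^k + 1, and suppose the wreath product C_p ≀ C_p (of order p^(p+1)) is not involved in a Sylow p-subgroup of G: no section of a Sylow p-subgroup is isomorphic to it. Then G has p-length at most 1. -/
theorem result {G : Type*} [Group G] [Finite G] {p : ℕ} [Fact p.Prime] (hp2 : p ≠ 2) (hnf : (¬ ∃ k : ℕ, p = 2 ^ k + 1)) (hG : Cfsg.IsPSolvable p G) (P : Sylow p G) (hwr : ∀ (W : Type) [Group W] [Finite W], (∃ (B : Subgroup W) (t : W), B.Normal ∧ IsMulCommutative B ∧ (∀ b ∈ B, b ^ p = 1) ∧ Nat.card B = p ^ p ∧ orderOf t = p ∧ t ∉ B ∧ Nat.card W = p ^ (p + 1) ∧ Nat.card ↥(B ⊓ Subgroup.centralizer ({t} : Set W)) = p) → ¬ Cfsg.Involves W ↥(P : Subgroup G)) : Cfsg.PLengthLE p 1 G := by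
  have hp : p.Prime := Fact.out
  obtain ⟨H, _, _, f, hf, hF, e⟩ := HH.exists_frame hG
  refine HH.plen_frame hf e (PLocal.pLengthLE_zero_iff.2 (hp.coprime_iff_not_dvd.2 fun h => ?_).symm)
  obtain ⟨x, hx⟩ := exists_prime_orderOf_dvd_card' p h
  obtain ⟨g, rfl⟩ := QuotientGroup.mk_surjective x
  have h1 : (g : H ⧸ pCore p H) ^ p ^ (0 + 1) = 1 := by
    rw [zero_add, pow_one]; exact orderOf_dvd_iff_pow_eq_one.1 hx.dvd
  have h2 : (g : H ⧸ pCore p H) ≠ 1 := fun e => hp.ne_one (by rw [← hx, e, orderOf_one])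
  obtain ⟨W, _, _, h3, h4⟩ := hF.wreath (g := g) (mt (QuotientGroup.eq_one_iff _).2 h2)
    ((QuotientGroup.eq_one_iff _).1 (by simpa using h1)) fun e => by
      obtain ⟨k, -, -, -, h⟩ := hF.thmB h1 (by simpa using h2) e (by simpa using hp.pos)
      exact hnf (h.fermat hp2).1
  refine hwr W h3 (PLocal.involves_iff_sub.2 (PLocal.Involves.of_map (φ := f) ?_))
  obtain ⟨y, -, hy⟩ := Sylow_Jsub (sylowIn_top (P.mapSurjective hf)) le_top
    (pgroup_sup (.inr (norm_of_normal _ _)) (Solv.isPGroup_pCore p H) (HH.pg_zpowers (hF.pelt h1)))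
  exact (h4.map_of_injective (φ := (MulAut.conj y).toMonoidHom) (MulAut.conj y).injective).mono hy

end Cfsg.Agent.S3787
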