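import Cfsg.Statements.S3788
import Cfsg.Agent.Loc.S4Inv

set_option autoImplicit false
open Cfsg

namespace Cfsg.Agent.S3788

section helpers
open Cfsg.Agent.Loc Subgroup
open scoped commutatorElement

open Cfsg.Agent.PLocal (SL2) in
theorem core {G : Type*} [Group G] [Finite G] {p : ℕ} [hp : Fact p.Prime] (hG : IsPSolvable p G)
    (hV : IsElementaryAbelian p (pCore p G)) (hc : centralizer (pCore p G : Set G) ≤ pCore p G) {a : G}
    (ha : IsPGroup p (zpowers a)) (hn : pCore p G ≤ normalizer ((zpowers a : Subgroup G) : Set G))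
    (h : p ≠ 2 ∨ ¬ PLocal.Involves (⊤ : Subgroup G) (Equiv.Perm (Fin 4))) : a ∈ pCore p G := by
  haveI := pCore_normal' p G
  obtain ⟨hc', hpow⟩ := isElementaryAbelian_iff.1 hV
  have hr : Red p ⊤ (pCore p G) := fun D _ h2 h3 => (le_pCore (normal_of_top_le_normalizer h2)
    (isPGroup_of_pResidualOf_le (isPGroup_pCore p G) (h3.trans hc))).trans hc'
  generalize pCore p G = V at *
  have u : UF p V ⊤ := ⟨hV, le_normalizer_of_normal, hr, PLocal.pSolv_top.2 hG⟩
  have nV : ∀ X : Subgroup G, X ≤ normalizer (V : Set G) := fun X => le_top.trans u.norm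
  by_contra haV
  have hz : zpowers a ≤ centralizer ((zpowers a : Subgroup G) : Set G) := le_centralizer_iff_isMulCommutative.2 inferInstance
  have h1 : ⁅V, zpowers a⁆ ≤ V ⊓ zpowers a := commutator_le_inf_of_normalizes hn (nV _)
  have h2 : a ^ p ∈ centralizer (V : Set G) := PLocal.pow_mem_centralizer_of_quad
    (fun v hv => h1 (commutator_mem_commutator hv (mem_zpowers a))) (centralizer_anti inf_le_right (hz (mem_zpowers a)))
    fun w hw => hpow w hw.1
  have h3 : ⁅V, zpowers a⁆ ≠ ⊥ := fun e => haV (hc (commutator_eq_bot_iff'.1 e (mem_zpowers a)))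
  have h4 : Nat.card (V ⊓ zpowers a : Subgroup G) = p := by
    haveI : IsCyclic (V ⊓ zpowers a : Subgroup G) := isCyclic_of_le inf_le_right
    rw [← IsCyclic.exponent_eq_card]
    haveI := (nontrivial_iff_ne_bot _).2 fun e => h3 (le_bot_iff.1 (e ▸ h1))
    exact (Monoid.exponent_eq_prime_iff hp.out).2 fun g hg => orderOf_eq_prime (Subtype.ext (hpow g g.2.1)) hg
  have h5 := (eq_bot_or_eq_of_card h4 h1).resolve_left h3
  have e0 : bar V (zpowers a) = zpowers (act V ⟨a, nV _ (mem_zpowers a)⟩) := by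
    rw [← MonoidHom.map_zpowers, bar]; congr 1
    exact map_injective (subtype_injective _) (by rw [map_subgroupOf_eq_of_le (nV _), MonoidHom.map_zpowers]; rfl)
  have h6 : Nat.card (bar V (zpowers a)) = p := by
    rw [e0, Nat.card_zpowers]
    exact orderOf_eq_prime (by rw [← map_pow]; exact act_eq_one.2 h2) fun e => haV (hc (act_eq_one.1 e))
  have hm : MinOff p (til V V) (bar V (zpowers a)) := u.ffs.minOff_of_card (bar_mono le_top) ⟨fun B hB => by
    rcases eq_bot_or_eq_of_card h6 hB with rfl | rfl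
    · change PLocal.mu _ _ ≤ _ * Nat.card (PLocal.cent _ _)
      rw [PLocal.mu_bot, ← til_cent (nV _), card_til le_rfl, card_til inf_le_left, h6, mul_comm,
        PLocal.card_eq_card_centralizer_mul hV.1 (nV _ (mem_zpowers a)), h5, h4]
    · exact le_rfl, by
      rw [← bar_commutator (nV _) (nV _), commutator_eq_bot_iff_le_centralizer.2 hz, (bar_eq_bot_iff bot_le).2 bot_le]
      exact bot_le, fun x hx => by
      rw [show x ^ p = 1 from congrArg Subtype.val (h6 ▸ pow_card_eq_one' (x := (⟨x, hx⟩ : bar V (zpowers a))))]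
      exact one_mem _⟩ h6
  have ns := u.ffs.main (bar_mono le_top) hm
  have eE := bar_pre (FFS.Eo_le (p := p) (bar_mono (V := V) (le_top : zpowers a ≤ ⊤)))
  set E := Eo p (bar V ⊤) (bar V (zpowers a))
  have eW : til V ⁅V, pre V E⁆ = ⁅til V V, E⁆ := by rw [til_comm le_rfl (nV _), eE]
  have WV : ⁅V, pre V E⁆ ≤ V := commutator_le_left_of_le_normalizer (nV _)
  have fa : pre V E ⊓ centralizer ((⁅V, pre V E⁆ : Subgroup G) : Set G) ≤ centralizer (V : Set G) :=
    (bar_eq_bot_iff (nV _)).1 (by rw [bar_inf_cent WV (nV _), eE, eW, ns.faith])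
  rcases ns.p23 with rfl | rfl
  · refine h.resolve_left (by simp) ((involves_S4 (isKleinFour_of_ea (isElementaryAbelian_of_le hV WV)
      (by rw [← card_til WV, eW, ns.cW]; rfl)) (le_normalizer_commutator (nV _) le_normalizer) ?_).mono le_top)
    rw [← inf_relIndex_right, le_antisymm (le_inf (inf_comm _ (pre V E) ▸ fa) inf_le_right)
      (inf_le_inf_right _ (centralizer_anti WV)), inf_relIndex_right, ← card_bar (nV _), eE, ns.cE]
    rfl
  obtain ⟨φ, s1, s2⟩ := exists_hom_of_equiv (nV _) eE ns.iso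
  obtain ⟨z, hz1⟩ := s1 (-1)
  have aE : a ∈ pre V E := (le_pre_iff (nV _)).2 le_sup_right (mem_zpowers a)
  have zc : ∀ x ∈ pre V E, ⁅(z : G), x⁆ ∈ centralizer (V : Set G) := fun x hx =>
    (s2.le (show ⁅z, ⟨x, hx⟩⁆ ∈ φ.ker by simp [hz1, commutatorElement_def]) :)
  have z2 : (z : G) * z ∈ centralizer (V : Set G) := (s2.le (show z * z ∈ φ.ker by simp [hz1]) :)
  have z0 : ⁅V, pre V E⁆ ⊓ centralizer {(z : G)} = ⊥ := by
    have n1 : pre V E ≤ normalizer ((⁅V, pre V E⁆ ⊓ centralizer {(z : G)} : Subgroup G) : Set G) :=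
      le_normalizer_of_cj_le fun x hx => cj_le_iff_forall.2 fun w hw => by
        have h7 := conj_mem_of_mem_normalizer (le_normalizer_commutator (nV _) le_normalizer hx) hw.1
        refine ⟨h7, mem_centralizer_singleton_iff.2 ?_⟩
        have h8 := zc x hx _ (conj_mem_of_mem_normalizer (nV _ z.2) (WV h7))
        have h9 := mem_centralizer_singleton_iff.1 hw.2
        calc _ = ⁅(z : G), x⁆⁻¹ * (z * (x * w * x⁻¹) * (z : G)⁻¹ * ⁅(z : G), x⁆) * z := by
              rw [commutatorElement_def]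
              calc _ = x * (w * z) * (z : G)⁻¹ * x⁻¹ * z := by group
                _ = _ := by rw [h9]; group
          _ = _ := by rw [h8]; group
    have := ns.irr (U := til V (⁅V, pre V E⁆ ⊓ centralizer {(z : G)})) (eW ▸ til_mono inf_le_left)
      (ns.le.trans (eE.ge.trans (bar_le_normalizer_til n1)))
    rw [← eW, til_eq_bot_iff (inf_le_left.trans WV), til_inj (inf_le_left.trans WV) WV] at this
    refine this.resolve_right fun e => ?_
    have h7 : φ z = 1 := s2.ge (fa ⟨z.2, fun w hw => mem_centralizer_singleton_iff.1 (e.ge hw).2⟩)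
    exact absurd (hz1.symm.trans h7) (by decide)
  have a3 : a ^ 3 ∈ ⁅V, pre V E⁆ :=
    commutator_mono le_rfl (zpowers_le.2 aE) (h5.ge ⟨hc h2, pow_mem (mem_zpowers a) 3⟩)
  have zW : (z : G) * a ^ 3 * (z : G)⁻¹ ∈ ⁅V, pre V E⁆ :=
    conj_mem_of_mem_normalizer (le_normalizer_commutator (nV _) le_normalizer z.2) a3
  have e1 : a ^ 3 * (z * a ^ 3 * (z : G)⁻¹) = 1 := mem_bot.1 (z0 ▸ mem_inf.2 ⟨mul_mem a3 zW,
    mem_centralizer_singleton_iff.2 (by
      rw [← hc' (WV a3) _ (WV zW)]
      calc _ = z * a ^ 3 * ((z : G)⁻¹ * a ^ 3 * z) := by group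
        _ = z * a ^ 3 * ((z : G)⁻¹ * ((z * z) * a ^ 3 * ((z : G) * z)⁻¹) * z) := by
          rw [mul_inv_eq_iff_eq_mul.2 (z2 _ (WV a3)).symm]
        _ = _ := by rw [hc' (WV a3) _ (WV zW)]; group)⟩)
  have e2 : (z : G) * a ^ 3 * (z : G)⁻¹ = a ^ 3 := by
    have v1 := hc (zc a aE)
    have v2 := h1 (commutator_mem_commutator v1 (mem_zpowers a))
    rw [← conj_pow, show (z : G) * a * (z : G)⁻¹ = ⁅(z : G), a⁆ * a by simp [commutatorElement_def]]
    generalize ⁅(z : G), a⁆ = v at v1 v2
    have c1 : ∀ x, a * (v * x) = ⁅v, a⁆⁻¹ * (v * (a * x)) := fun x => by rw [commutatorElement_def]; group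
    have c2 := hz (mem_zpowers a) _ (inv_mem v2.2)
    have c3 := hc' v1 _ (inv_mem v2.1)
    have c4 := hpow _ (inv_mem v2.1)
    have c5 := hpow _ v1
    generalize ⁅v, a⁆⁻¹ = c at c1 c2 c3 c4
    have c6 : ∀ x, a * (c * x) = c * (a * x) := fun x => by rw [← mul_assoc, ← c2, mul_assoc]
    have c7 : ∀ x, v * (c * x) = c * (v * x) := fun x => by rw [← mul_assoc, ← c3, mul_assoc]
    calc _ = c ^ 3 * v ^ 3 * a ^ 3 := by simp only [pow_succ, pow_zero, one_mul, mul_assoc, c1, c6, c7]
      _ = _ := by rw [c4, c5, one_mul, one_mul]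
  rw [e2, ← sq] at e1
  have e3 : a ^ 3 = 1 := by
    have := hpow _ (WV a3)
    rwa [pow_succ, e1, one_mul] at this
  exact haV (inf_eq_right.1 (eq_of_le_of_card_ge inf_le_right (by
    rw [h4, Nat.card_zpowers]; exact Nat.le_of_dvd (by norm_num) (orderOf_dvd_of_pow_eq_one e3))) (mem_zpowers a))

theorem core2 {G : Type*} [Group G] [Finite G] {p : ℕ} [hp : Fact p.Prime] (hG : IsPSolvable p G)
    (hO : pPrimeCore p G = ⊥) {a : G}
    (ha : IsPGroup p (zpowers a)) (hn : pCore p G ≤ normalizer ((zpowers a : Subgroup G) : Set G))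
    (h : p ≠ 2 ∨ ¬ PLocal.Involves (⊤ : Subgroup G) (Equiv.Perm (Fin 4))) : a ∈ pCore p G := by
  haveI := pCore_normal' p G
  have hc := PLocal.centralizer_pCore_le_of_pSolv hG hO
  have hQ := isPGroup_pCore p G
  set Φ := (frattini (pCore p G)).map (pCore p G).subtype with hΦ
  haveI : Φ.Normal := inferInstance
  have hs := QuotientGroup.mk'_surjective Φ
  have hk : IsPGroup p (QuotientGroup.mk' Φ).ker := by rw [QuotientGroup.ker_mk']; exact hQ.to_le (map_subtype_le _)
  have e := comap_pCore_of_ker_isPGroup hs hk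
  have e' : pCore p (G ⧸ Φ) = (pCore p G).map (QuotientGroup.mk' Φ) := by rw [← e, map_comap_eq_self_of_surjective hs]
  rw [← e]
  refine core (PLocal.pSolv_quotient hG Φ) ?_ ?_ (MonoidHom.map_zpowers (QuotientGroup.mk' Φ) a ▸ ha.map _)
    (e' ▸ MonoidHom.map_zpowers (QuotientGroup.mk' Φ) a ▸ map_le_normalizer_map hn _) (h.imp_right fun h h' => h
      (PLocal.Involves.of_map (φ := QuotientGroup.mk' Φ) (by rwa [map_top_of_surjective _ hs])))
  · rw [e', isElementaryAbelian_iff, ← commutator_eq_bot_iff_le_centralizer, ← commutator_le_iff_map_mk]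
    refine ⟨Solv.commutator_le_map_frattini hQ, ?_⟩
    rintro _ ⟨x, hx, rfl⟩
    rw [← map_pow]
    exact (QuotientGroup.eq_one_iff _).2 (Solv.pow_mem_map_frattini hQ hx)
  · haveI := pCore_normal' p (G ⧸ Φ)
    have h1 := le_pCore (N := (centralizer (pCore p (G ⧸ Φ) : Set (G ⧸ Φ))).comap (QuotientGroup.mk' Φ)) inferInstance
      (isPGroup_of_pResidualOf_le hQ ((pResidualOf_le_centralizer_of_frattini hQ le_normalizer_of_normal (by
        rw [← hΦ, commutator_le_iff_map_mk, ← e', commutator_eq_bot_iff']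
        exact map_le_iff_le_comap.2 (pResidualOf_le p _))).trans hc))
    rwa [← e, comap_le_comap_of_surjective hs] at h1

end helpers

/-- Let G be a finite p-soluble group, P a Sylow p-subgroup of G and A a cyclic normal subgroup of P. If p is odd, or if no section of G is isomorphic to the symmetric group of degree 4, then A ≤ O_{p',p}(G). -/
theorem result {G : Type*} [Group G] [Finite G] {p : ℕ} [Fact p.Prime] (hG : Cfsg.IsPSolvable p G) (P : Sylow p G) (A : Subgroup G) (hAP : A ≤ (P : Subgroup G)) (hAn : (P : Subgroup G) ≤ Subgroup.normalizer (A : Set G)) (hA : IsCyclic A) (h : p ≠ 2 ∨ ¬ Cfsg.Involves (Equiv.Perm (Fin 4)) G) : A ≤ Cfsg.pPrimePCore p G := by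
  open Cfsg.Agent.Loc Subgroup in
  open scoped commutatorElement in
  obtain ⟨a, rfl⟩ := (Subgroup.isCyclic_iff_exists_zpowers_eq_top A).1 hA
  have hs := QuotientGroup.mk'_surjective (pPrimeCore p G)
  have h1 := (sylIn_top P).map (QuotientGroup.mk' (pPrimeCore p G))
  rw [map_top_of_surjective _ hs] at h1
  have h2 := map_le_normalizer_map hAn (QuotientGroup.mk' (pPrimeCore p G))
  have h3 := (P.isPGroup'.to_le hAP).map (QuotientGroup.mk' (pPrimeCore p G))
  rw [MonoidHom.map_zpowers] at h2 h3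
  exact zpowers_le.2 (core2 (PLocal.pSolv_quotient hG _) Sig.pPrimeCore_quotient h3
    (((pCoreOf_top p _).ge.trans h1.pCoreOf_le).trans h2) (h.imp_right fun h h' => h (PLocal.involves_iff_top.2
      (PLocal.Involves.of_map (φ := QuotientGroup.mk' (pPrimeCore p G)) (by rwa [map_top_of_surjective _ hs])))))

end Cfsg.Agent.S3788
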