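import Cfsg.Statements.S3791
import Cfsg.Agent.Sig.PL

set_option autoImplicit false
open Cfsg

namespace Cfsg.Agent.S3791

open Subgroup Cfsg.Agent.BG Cfsg.Agent.Sig

/-- The Hall–Higman bound on derived length: let G be a finite solvable group, let p₁, …, p_r be distinct primes that include every prime dividing the order of G, and suppose that for each i the Sylow p_i-subgroups of G have derived length at most d_i and G has p_i-length at most l_i. Then G has derived length at most Σ d_i l_i. -/
theorem result {G : Type*} [Group G] [Finite G] (hG : Group.IsSolvable G) (r : ℕ) (q : Fin r → ℕ) (hq : ∀ i, (q i).Prime) (hinj : Function.Injective q) (hcover : ∀ s : ℕ, s.Prime → s ∣ Nat.card G → ∃ i, q i = s) (d l : Fin r → ℕ) (hd : ∀ i, ∀ P : Subgroup G, (haveI := Fact.mk (hq i); ∃ S : Sylow (q i) G, (S : Subgroup G) = P) → derivedSeries ↥P (d i) = ⊥) (hl : ∀ i, Cfsg.PLengthLE (q i) (l i) G) : derivedSeries G (Finset.univ.sum fun i => d i * l i) = ⊥ := by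
  rw [← HH.der_top]
  refine HH.der_sum hq _ G l rfl hcover (fun i S hS => ?_) hl
  haveI := Fact.mk (hq i)
  obtain ⟨P, hP⟩ := hS.exists_le_sylow
  exact eq_bot_iff.2 ((HH.der_mono hP _).trans (HH.der_eq_bot.1 (hd i P ⟨P, rfl⟩)).le)

end Cfsg.Agent.S3791
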