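import Cfsg.Statements.S3794
import Cfsg.Agent.Sig.Fpf2

set_option autoImplicit false
open Cfsg

namespace Cfsg.Agent.S3794

open Subgroup Cfsg.Agent.BG Cfsg.Agent.Sig

open Cfsg.Agent.Transfer SemidirectProduct

/-- Let G be a finite solvable group with an automorphism σ satisfying σ⁴ = 1 and fixing only the identity. Then the derived subgroup G' is nilpotent. -/
theorem result {G : Type*} [Group G] [Finite G] (hG : Group.IsSolvable G) (σ : MulAut G) (hσ : σ ^ 4 = 1) (hfpf : ∀ g : G, σ g = g → g = 1) : Group.IsNilpotent (commutator G) := by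
  have h := der_nil_of_fpf4 (hol_sol hG) (hol_cyclic σ) (by
    rw [card_sdR, Nat.card_zpowers]; exact orderOf_dvd_of_pow_eq_one hσ)
    (sdR_le_normalizer_top _ _) (hol_fpf _ fun g h => hfpf g (h σ (mem_zpowers σ)))
  have h2 : FH 1 ((commutator G).map (inl : G →* Hol G)) := by
    rw [commutator_def, map_commutator]
    exact (fh_one.2 (Fitting_nil _)).mono h
  exact fh_one.1 ((fh_map_inj inl_injective).1 h2)

end Cfsg.Agent.S3794
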