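import Cfsg.Statements.S3795
import Cfsg.Agent.Sig.Gross

set_option autoImplicit false
open Cfsg

namespace Cfsg.Agent.S3795

open Subgroup Cfsg.Agent.BG Cfsg.Agent.Sig

open Cfsg.Agent.Transfer SemidirectProduct

/-- Gross's Theorem: let G be a finite solvable group with an automorphism σ of order 2^n, n > 1, fixing only the identity. Then G has Fitting height at most 2n − 2: G has Fitting height at most m when there is a chain of normal subgroups 1 = F₀ ≤ F₁ ≤ ⋯ ≤ F_m = G with each F_{i+1}/F_i nilpotent. -/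
theorem result {G : Type*} [Group G] [Finite G] (hG : Group.IsSolvable G) (σ : MulAut G) (n : ℕ) (hn : 1 < n) (hσ : orderOf σ = 2 ^ n) (hfpf : ∀ g : G, σ g = g → g = 1) : ∃ F : Fin ((2 * n - 2) + 1) → Subgroup G, F 0 = ⊥ ∧ F (Fin.last (2 * n - 2)) = ⊤ ∧ Monotone F ∧ (∀ i, (F i).Normal) ∧ ∀ i : Fin (2 * n - 2), ∃ k : ℕ, (F i.succ).lowerCentralSeries k ≤ F i.castSucc := by
  obtain ⟨n, rfl⟩ := Nat.exists_eq_add_of_lt hn
  rw [show 2 * (1 + n + 1) - 2 = 2 * n + 2 by omega]
  refine fh_top_iff.1 ((fh_map_inj inl_injective).1 (gross n (hol_sol hG) (hol_cyclic σ) ?_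
    (sdR_le_normalizer_top _ _) (hol_fpf _ fun g h => hfpf g (h σ (mem_zpowers σ)))))
  rw [card_sdR, Nat.card_zpowers, hσ, add_comm 1 n]

end Cfsg.Agent.S3795
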