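import Cfsg.Statements.S3797
import Cfsg.Agent.LieM.Shaw
import Mathlib.Tactic.Group

set_option autoImplicit false
open Cfsg

namespace Cfsg.Agent.S3797
open scoped commutatorElement

open Cfsg.Agent.BG Cfsg.Agent.LieM Subgroup Cfsg.Agent.Solv

theorem homoc {P : Type*} [Group P] [Finite P] (hP : IsPGroup 2 P) (hc : IsMulCommutative P)
    (h : ∀ x y : P, x ≠ 1 → x ^ 2 = 1 → y ≠ 1 → y ^ 2 = 1 → ∃ a : MulAut P, a x = y) :
    ∃ m r : ℕ, Nonempty (P ≃* (Fin r → Multiplicative (ZMod (2 ^ m)))) := by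
  classical
  haveI : Fact (Nat.Prime 2) := ⟨Nat.prime_two⟩
  letI : CommGroup P := { (inferInstance : Group P) with mul_comm := hc.is_comm.comm }
  obtain ⟨ι, _, n, hn, ⟨φ⟩⟩ := CommGroup.equiv_prod_multiplicative_zmod_of_finite P
  have he : ∀ i, ∃ e, n i = 2 ^ (e + 1) := fun i => by
    obtain ⟨k, hk⟩ := hP (φ.symm (Pi.mulSingle i (Multiplicative.ofAdd 1)))
    rw [← map_pow, map_eq_one_iff _ φ.symm.injective, ← Pi.mulSingle_pow] at hk
    have := congrFun hk i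
    rw [Pi.mulSingle_eq_same, ← ofAdd_nsmul, nsmul_one, Pi.one_apply, ofAdd_eq_one, ZMod.natCast_eq_zero_iff] at this
    obtain ⟨j, -, hj⟩ := (Nat.dvd_prime_pow Nat.prime_two).1 this
    rcases j with _ | j
    · have := hn i; omega
    · exact ⟨j, hj⟩
  choose e he using he
  obtain rfl : n = fun i => 2 ^ (e i + 1) := funext he
  let u := fun i => φ.symm (Pi.mulSingle i (Multiplicative.ofAdd 1))
  have hu : ∀ i k, u i ^ 2 ^ k = 1 ↔ e i < k := fun i k => by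
    rw [← map_pow, map_eq_one_iff _ φ.symm.injective, ← Pi.mulSingle_pow, Pi.mulSingle_eq_one_iff, ← ofAdd_nsmul,
      nsmul_one, ofAdd_eq_one, ZMod.natCast_eq_zero_iff, Nat.pow_dvd_pow_iff_le_right one_lt_two]
    rfl
  have hle : ∀ i j, e i ≤ e j := fun i j => by
    by_contra hlt
    obtain ⟨a, ha⟩ := h (u i ^ 2 ^ e i) (u j ^ 2 ^ e j) (by rw [Ne, hu]; omega) (by rw [← pow_mul, ← pow_succ, hu]; omega)
      (by rw [Ne, hu]; omega) (by rw [← pow_mul, ← pow_succ, hu]; omega)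
    have h1 := congrFun (congrArg φ ha) j
    rw [map_pow, map_pow, map_pow, φ.apply_symm_apply, Pi.pow_apply, Pi.pow_apply, Pi.mulSingle_eq_same, ← ofAdd_nsmul,
      nsmul_one, ← ofAdd_toAdd (φ _ j), ← ofAdd_nsmul, nsmul_eq_mul,
      (ZMod.natCast_eq_zero_iff _ _).2 (pow_dvd_pow 2 (by omega)), zero_mul, eq_comm, ofAdd_zero, ofAdd_eq_one,
      ZMod.natCast_eq_zero_iff, Nat.pow_dvd_pow_iff_le_right one_lt_two] at h1
    omega
  obtain ⟨m, rfl⟩ : ∃ m, e = fun _ => m := by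
    rcases isEmpty_or_nonempty ι with _ | ⟨⟨i⟩⟩
    · exact ⟨0, Subsingleton.elim _ _⟩
    · exact ⟨e i, funext fun j => le_antisymm (hle j i) (hle i j)⟩
  exact ⟨m + 1, _, ⟨φ.trans (MulEquiv.arrowCongr (Fintype.equivFin ι) (MulEquiv.refl _))⟩⟩

/-- Let G be a finite solvable group of even order whose Sylow 2-subgroups contain more than one involution, and suppose all involutions of G are conjugate. Then G has 2-length at most 1, and a Sylow 2-subgroup S of G is either homocyclic (a direct product of cyclic groups of one common order) or a non-abelian 2-group with more than one involution admitting a solvable group of automorphisms transitive on its involutions. -/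
theorem result {G : Type*} [Group G] [Finite G] (hG : Group.IsSolvable G) (heven : Even (Nat.card G)) (S : Sylow 2 G) (htwo : ∃ x y : G, x ∈ (S : Subgroup G) ∧ y ∈ (S : Subgroup G) ∧ x ≠ y ∧ x ≠ 1 ∧ x ^ 2 = 1 ∧ y ≠ 1 ∧ y ^ 2 = 1) (hconj : ∀ x y : G, x ≠ 1 → x ^ 2 = 1 → y ≠ 1 → y ^ 2 = 1 → IsConj x y) : Cfsg.PLengthLE 2 1 G ∧ ((∃ m r : ℕ, Nonempty (↥(S : Subgroup G) ≃* (Fin r → Multiplicative (ZMod (2 ^ m))))) ∨ (¬ IsMulCommutative (S : Subgroup G) ∧ ∃ Y : Subgroup (MulAut ↥(S : Subgroup G)), Group.IsSolvable Y ∧ ∀ x y : ↥(S : Subgroup G), x ≠ 1 → x ^ 2 = 1 → y ≠ 1 → y ^ 2 = 1 → ∃ a ∈ Y, a x = y)) := by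
  haveI : Fact (Nat.Prime 2) := ⟨Nat.prime_two⟩
  let π := QuotientGroup.mk' (pPrimeCore 2 G)
  have hO := coprime_card_pPrimeCore 2 G
  have hinj : ∀ x ∈ (S : Subgroup G), π x = 1 → x = 1 := fun x hx h => by
    obtain ⟨k, hk⟩ := S.isPGroup'.exists_card_eq
    exact (coprime_TI (A := S) (hk ▸ hO.symm.pow_left k)).le ⟨hx, (QuotientGroup.eq_one_iff _).1 h⟩
  obtain ⟨x0, y0, hx, hy, hxy, hx1, hx2, hy1, hy2⟩ := htwo
  obtain ⟨h1, h2⟩ := shaw_aux (G := G ⧸ pPrimeCore 2 G) (pPrimeCore_quotient_pPrimeCore 2 G)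
    ⟨π x0, π y0, fun e => hxy (mul_inv_eq_one.1 (hinj _ (mul_mem hx (inv_mem hy)) (by rw [map_mul, e, map_inv, mul_inv_cancel]))),
      fun e => hx1 (hinj _ hx e), by rw [← map_pow, hx2, map_one], fun e => hy1 (hinj _ hy e), by rw [← map_pow, hy2, map_one]⟩
    fun x y h1 h2 h3 h4 => by
      obtain ⟨x, hx, rfl⟩ := exists_lift_pow hO h2
      obtain ⟨y, hy, rfl⟩ := exists_lift_pow hO h4
      exact π.map_isConj (hconj x y (fun e => h1 (by rw [e]; rfl)) hx (fun e => h3 (by rw [e]; rfl)) hy)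
  have hS : ∀ s ∈ (S : Subgroup G), π s ∈ pCore 2 (G ⧸ pPrimeCore 2 G) := fun s hs => by
    obtain ⟨k, hk⟩ := S.isPGroup' ⟨s, hs⟩
    have h3 := pow_index_mem (H := pCore 2 (G ⧸ pPrimeCore 2 G)) (π s)
    have h4 : π s ^ 2 ^ k = 1 := by rw [← map_pow, show s ^ 2 ^ k = 1 from congrArg Subtype.val hk, map_one]
    exact zpowers_le.2 h3 (mem_zpowers_pow_iff.2 (((h1.pow_right k).coprime_dvd_right (orderOf_dvd_of_pow_eq_one h4))))
  have hcen : ∀ x ∈ (S : Subgroup G), x ^ 2 = 1 → x ∈ centralizer (S : Set G) := fun x hx h s hs =>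
    commutatorElement_eq_one_iff_mul_comm.1 (hinj _ (mul_mem (mul_mem (mul_mem hs hx) (inv_mem hs)) (inv_mem hx)) (by
      rw [map_commutatorElement, commutatorElement_eq_one_iff_mul_comm]
      exact mem_cent.1 (h2 (π x) (by rw [← map_pow, h, map_one])).2 _ (hS s hs)))
  have htr : ∀ x y : (S : Subgroup G), x ≠ 1 → x ^ 2 = 1 → y ≠ 1 → y ^ 2 = 1 →
      ∃ a ∈ (S : Subgroup G).normalizerMonoidHom.range, a x = y := fun x y h1 h2 h3 h4 => by
    have h5 : (x : G) ^ 2 = 1 := congrArg Subtype.val h2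
    have h6 : (y : G) ^ 2 = 1 := congrArg Subtype.val h4
    obtain ⟨g, hg⟩ := isConj_iff.1 (hconj x y (fun e => h1 (Subtype.ext e)) h5 (fun e => h3 (Subtype.ext e)) h6)
    obtain ⟨n, hn, e⟩ := S.conj_eq_normalizer_conj_of_mem_centralizer x g⁻¹ (hcen _ x.2 h5)
      (by rw [inv_inv, hg]; exact hcen _ y.2 h6)
    rw [inv_inv, hg] at e
    exact ⟨_, ⟨⟨n⁻¹, inv_mem hn⟩, rfl⟩, Subtype.ext (by rw [e]; show n⁻¹ * x * n⁻¹⁻¹ = _; rw [inv_inv])⟩
  refine ⟨pLengthLE_one_iff.2 h1, ?_⟩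
  by_cases hc : IsMulCommutative (S : Subgroup G)
  · exact Or.inl (homoc S.isPGroup' hc fun x y h1 h2 h3 h4 => (htr x y h1 h2 h3 h4).imp fun _ h => h.2)
  · exact Or.inr ⟨hc, _, Group.isSolvable_of_surjective (MonoidHom.rangeRestrict_surjective _), htr⟩

end Cfsg.Agent.S3797
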