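import Cfsg.Statements.S3799
import Cfsg.Agent.PGrp.Heis
import Mathlib.Tactic.Group

set_option autoImplicit false
open Cfsg

namespace Cfsg.Agent.S3799
open scoped commutatorElement

open PGrp Module

variable {F : Type*} [Field F] {n : ℕ}

/-- the form -/
def β (F : Type*) [Field F] (n : ℕ) : LinearMap.BilinForm F ((Fin n → F) × (Fin n → F)) :=
  LinearMap.mk₂ F (fun v w => v.1 ⬝ᵥ w.2) (by simp) (by simp) (by simp) (by simp)

theorem β_apply (v w : (Fin n → F) × (Fin n → F)) : β F n v w = v.1 ⬝ᵥ w.2 := rfl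

/-- the representation -/
def ρ (F : Type*) [Field F] (n : ℕ) : Heis (β F n) →* Module.End F (F × (Fin n → F) × F) where
  toFun a :=
    { toFun x := (x.1 + a.v.1 ⬝ᵥ x.2.1 + a.s * x.2.2, x.2.1 + x.2.2 • a.v.2, x.2.2)
      map_add' x y := by ext <;> simp <;> ring
      map_smul' c x := by ext <;> simp <;> ring }
  map_one' := by ext <;> simp
  map_mul' a b := LinearMap.ext fun x => by ext <;> simp [β_apply] <;> ring

theorem ρ_injective : Function.Injective (ρ F n) := (injective_iff_map_eq_one _).2 fun a ha => by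
  have h1 := LinearMap.congr_fun ha (0, 0, 1)
  have h2 := fun i => LinearMap.congr_fun ha (0, Pi.single i 1, 0)
  simp [ρ] at h1 h2
  exact Heis.ext (Prod.ext (funext h2) h1.2) h1.1

/-- For every odd prime p and every n ≥ 1 there is an extraspecial p-group of order p^(1+2n) and exponent p; concretely, the general linear group of degree n + 2 over the field with p elements contains such a subgroup. -/
theorem result (p : ℕ) [Fact p.Prime] (hp : p ≠ 2) (n : ℕ) (hn : 1 ≤ n) : ∃ E : Subgroup (Matrix.GeneralLinearGroup (Fin (n + 2)) (ZMod p)), Cfsg.IsExtraspecial p ↥E ∧ Nat.card E = p ^ (1 + 2 * n) ∧ ∀ x ∈ E, x ^ p = 1 := by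
  have : Nonempty (Fin n) := ⟨⟨0, hn⟩⟩
  have hE := Heis.isExtraspecial (β (ZMod p) n) fun v hv => Prod.ext
    (funext fun i => by simpa [β_apply] using hv (0, Pi.single i 1))
    (funext fun i => by simpa [β_apply] using (hv (Pi.single i 1, 0)).symm)
  let b := finBasisOfFinrankEq (ZMod p) (ZMod p × (Fin n → ZMod p) × ZMod p) (n := n + 2) (by simp; ring)
  let f := (Matrix.GeneralLinearGroup.toLin' b).symm.toMonoidHom.comp (ρ (ZMod p) n).toHomUnits
  have hf : Function.Injective f := fun x y h =>
    ρ_injective (congrArg Units.val ((Matrix.GeneralLinearGroup.toLin' b).symm.injective h) :)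
  refine ⟨f.range, ES_of_mulEquiv hE (MonoidHom.ofInjective hf), ?_, ?_⟩
  · rw [← Nat.card_congr (MonoidHom.ofInjective hf).toEquiv, Heis.card]
    simp
    ring
  · rintro _ ⟨a, rfl⟩
    rw [← map_pow, Heis.pow_eq_one _ hp, map_one]

end Cfsg.Agent.S3799
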