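import Cfsg.Statements.S3950
import Cfsg.Agent.Schur.Prod

set_option autoImplicit false
open Cfsg

namespace Cfsg.Agent.S3950

open Cfsg.Agent.Schur Subgroup

/-- A finite abelian group has trivial Schur multiplier if and only if it is cyclic. -/
theorem result {G : Type*} [CommGroup G] [Finite G] : Cfsg.HasCyclicSchurMultiplier G 1 ↔ IsCyclic G := by
  classical
  refine ⟨fun h => ?_, fun h => hasCyclicSchurMultiplier_one_iff.2 fun Γ _ _ σ hσ => ?_⟩
  swap
  · have := σ.isMulCommutative_of_isCyclic_of_ker_le_center hσ.2.1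
    exact eq_bot_iff.2 (hσ.2.2.trans ((commutator_eq_bot_iff _).2 this).le)
  obtain ⟨ι, _, n, -, ⟨e⟩⟩ := CommGroup.equiv_prod_multiplicative_zmod_of_finite G
  by_cases hc : Pairwise (Function.onFun Nat.Coprime n)
  · let f := (AddEquiv.toMultiplicative (ZMod.prodEquivPi n hc).toAddEquiv).trans
      ((MulEquiv.piMultiplicative _).trans e.symm)
    exact isCyclic_of_surjective f f.surjective
  simp only [Pairwise, not_forall] at hc
  obtain ⟨i, j, hij, hc⟩ := hc
  let f := ZMod.castHom (Nat.gcd_dvd_left (n i) (n j)) (ZMod ((n i).gcd (n j)))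
  let g := ZMod.castHom (Nat.gcd_dvd_right (n i) (n j)) (ZMod ((n i).gcd (n j)))
  let c : G →* G →* Multiplicative (ZMod ((n i).gcd (n j))) := MonoidHom.mk' (fun x =>
    MonoidHom.mk' (fun y => Multiplicative.ofAdd (f (e x i).toAdd * g (e y j).toAdd))
      fun _ _ => by simp [mul_add, -ZMod.castHom_apply]) fun _ _ => by
    ext; simp [add_mul, -ZMod.castHom_apply]
  have h1 := mul_eq_bot_of_trivial h (ξ := Bil.fst c) ⟨fun x => ⟨⟨x, 1⟩, rfl⟩, fun x hx =>
    Bil.mem_center (by simp [CommGroup.center_eq_top]) fun y => by simp [show x.g = 1 from hx]⟩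
  have h2 := Bil.comm (c := c) (mul_comm (e.symm (Pi.mulSingle i (Multiplicative.ofAdd 1)))
    (e.symm (Pi.mulSingle j (Multiplicative.ofAdd 1))))
  have h3 := h1.le ⟨congrArg Bil.g h2, commutator_mem_commutator (mem_top _) (mem_top _)⟩
  have h4 := congrArg Bil.t (h2.symm.trans h3)
  simp [c, hij, -ZMod.castHom_apply] at h4
  exact absurd ((ZMod.subsingleton_iff).1 (subsingleton_of_zero_eq_one h4.symm)) hc

end Cfsg.Agent.S3950
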