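import Cfsg.Statements.S3951
import Cfsg.Agent.Schur.Metacyclic

set_option autoImplicit false
open Cfsg

namespace Cfsg.Agent.S3951

/-- For positive integers `m` and `n` with `n` dividing `m`, the Schur multiplier of the abelian group `ZMod m × ZMod n` (written multiplicatively) is cyclic of order `n`. In particular the elementary abelian group of order `p ^ 2` has multiplier of order `p`. -/
theorem result (m n : ℕ) [NeZero m] [NeZero n] (hnm : n ∣ m) : Cfsg.HasCyclicSchurMultiplier (Multiplicative (ZMod m × ZMod n)) n := by
  have hm := NeZero.pos m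
  have hn := NeZero.pos n
  refine Schur.hasCyclicSchurMultiplier_metacyclic (a := Multiplicative.ofAdd (1, 0))
    (b := Multiplicative.ofAdd (0, 1)) (m := m) (n := n) (r := 1)
    (t := 0) ?_ hn one_pos ?_ (by simp) ?_ ?_ ?_
  · simp [Prod.addOrderOf_mk]
  · rw [eq_top_iff]
    intro x _
    have : x = Multiplicative.ofAdd (1, 0) ^ x.toAdd.1.val * Multiplicative.ofAdd (0, 1) ^ x.toAdd.2.val := by
      apply Multiplicative.toAdd.injective
      simp
    rw [this]
    exact mul_mem (pow_mem (Subgroup.subset_closure (by simp)) _) (pow_mem (Subgroup.subset_closure (by simp)) _)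
  · apply Multiplicative.toAdd.injective
    simp
  · rintro j ⟨k, hk⟩
    have := congrArg (fun x => (Multiplicative.toAdd x).2) hk
    simp at this
    exact (ZMod.intCast_zmod_eq_zero_iff_dvd j n).1 this.symm
  · simp [Nat.gcd_eq_right hnm]

end Cfsg.Agent.S3951
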