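import Cfsg.Statements.S3952
import Cfsg.Agent.Schur.Transfer
import Cfsg.Agent.Char.Orth

set_option autoImplicit false
open Cfsg

namespace Cfsg.Agent.S3952

open Subgroup Function Cfsg.Agent.Schur Cfsg.Agent.Char
open scoped ComplexConjugate

theorem exists_central_char {Γ : Type*} [Group Γ] (K : Subgroup Γ) (h1 : K ≤ center Γ)
    (h2 : K ≤ commutator Γ) {χ : Γ → ℂ} (hχ : IsIrrCharacter Γ χ) :
    ∃ n : ℕ, χ 1 = n ∧ ∃ μ : K →* ℂˣ, (∀ k : K, χ k = n * μ k) ∧ μ ^ n = 1 := by
  obtain ⟨n, ρ, hρ, rfl⟩ := hχ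
  have hn : 0 < n := by simpa using finrank_pos_of_isIrreducible ρ
  have := nontrivial_of_isIrreducible ρ
  have key : ∀ k : K, ∃ c : ℂ, ρ k = c • LinearMap.id := fun k =>
    exists_eq_smul_of_comm ρ _ (fun x => by rw [← map_mul, ← map_mul, mem_center_iff.1 (h1 k.2) x])
  choose c hc using key
  have hinj : ∀ a b : ℂ, a • (LinearMap.id : (Fin n → ℂ) →ₗ[ℂ] (Fin n → ℂ)) = b • LinearMap.id → a = b :=
    fun a b h => smul_left_injective ℂ (one_ne_zero (α := Module.End ℂ (Fin n → ℂ))) h
  let μ0 : K →* ℂ :=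
    { toFun := c
      map_one' := hinj _ _ (by rw [← hc]; simp [Module.End.one_eq_id])
      map_mul' := fun a b => hinj _ _ (by
        rw [← hc, Subgroup.coe_mul, map_mul, hc, hc, smul_mul_smul_comm]; rfl) }
  refine ⟨n, by simp, μ0.toHomUnits, fun k => ?_, ?_⟩
  · show LinearMap.trace _ _ (ρ k) = n * c k
    rw [hc]; simp [mul_comm]
  · ext k
    have h3 := Abelianization.commutator_subset_ker (LinearMap.det.comp ρ).toHomUnits (h2 k.2)
    have h4 : LinearMap.det (ρ k) = 1 := congrArg Units.val h3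
    rw [hc, LinearMap.det_smul] at h4
    have h5 : c k ^ n = 1 := by simpa using h4
    exact h5

/-- If `A` is the Schur multiplier of the finite group `Q`, then the square of the exponent of `A` divides the order of `Q`. -/
theorem result {Q : Type*} [Group Q] [Finite Q] {A : Type*} [CommGroup A] (hA : Cfsg.HasSchurMultiplier Q A) : Monoid.exponent A ^ 2 ∣ Nat.card Q := by
  classical
  obtain ⟨Γ, _, _, σ, hσ, ⟨e⟩⟩ := hA.1
  have := finite_of_hasSchurMultiplier hA
  have := Fintype.ofFinite Γ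
  set K := σ.ker with hK
  have : NeZero (Monoid.exponent A : ℂ) := ⟨by exact_mod_cast Monoid.exponent_ne_zero_of_finite⟩
  obtain ⟨d⟩ := CommGroup.monoidHom_mulEquiv_of_hasEnoughRootsOfUnity A ℂ
  obtain ⟨a, ha⟩ := Monoid.exists_orderOf_eq_exponent (G := A) Monoid.ExponentExists.of_finite
  let lam : K →* ℂˣ := (d.symm a).comp e.toMonoidHom
  have hlam : ∀ n : ℕ, lam ^ n = 1 → Monoid.exponent A ∣ n := fun n hn => by
    rw [← ha, orderOf_dvd_iff_pow_eq_one]
    apply d.symm.injective
    rw [map_pow, map_one]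
    ext x
    obtain ⟨y, rfl⟩ := e.surjective x
    exact congrArg Units.val (DFunLike.congr_fun hn y)
  let θ : Γ → ℂ := fun g => if h : g ∈ K then (K.index : ℂ) * lam ⟨g, h⟩ else 0
  have hθ : IsClassFunction Γ θ := fun g h => by
    by_cases hg : g ∈ K
    · rw [mem_center_iff.1 (hσ.2.1 hg) h, mul_inv_cancel_right]
    · have : h * g * h⁻¹ ∉ K := fun h' => hg (by simpa [mul_assoc, hK] using (σ.normal_ker.conj_mem' _ h' h))
      simp [θ, hg, this]
  choose n hn μ hμ hμn using fun χ : IrrCharacter Γ => exists_central_char K hσ.2.1 hσ.2.2 χ.2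
  have hin : ∀ χ : IrrCharacter Γ, classInner θ χ = if lam = μ χ then (n χ : ℂ) else 0 := fun χ => by
    have h1 := IsIrrCharacter.classInner_eq_ite (isIrrCharacter_hom lam) (isIrrCharacter_hom (μ χ))
    have h2 : ((fun g => (lam g : ℂ)) = fun g => (μ χ g : ℂ)) ↔ lam = μ χ :=
      ⟨fun h => by ext g; exact congrFun h g, fun h => by rw [h]⟩
    simp only [h2] at h1
    have h3 : ∑ g : Γ, θ g * conj (χ.1 g) = ∑ k : K, (K.index : ℂ) * n χ * (lam k * conj (μ χ k : ℂ)) := by
      rw [← Finset.sum_subset (Finset.subset_univ (Finset.univ.map (Function.Embedding.subtype (· ∈ K)))),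
        Finset.sum_map]
      · refine Finset.sum_congr rfl fun k _ => ?_
        simp only [Embedding.coe_subtype, θ, k.2, dif_pos, hμ, map_mul, map_natCast, Subtype.coe_eta]
        ring
      · intro g _ hg
        have : g ∉ K := fun h => hg (by simpa using h)
        simp [θ, this]
    rw [classInner_def, h3, ← Finset.mul_sum, ← card_mul_classInner (fun g : K => (lam g : ℂ)), h1,
      ← K.index_mul_card]
    have h4 : (K.index : ℂ) ≠ 0 := by exact_mod_cast FiniteIndex.index_ne_zero
    have h5 : (Nat.card K : ℂ) ≠ 0 := natCard_cast_ne_zero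
    push_cast
    split_ifs <;> field_simp
    simp
  have h1 := IsClassFunction.apply_eq_sum_irr hθ 1
  simp only [hin, hn, θ, one_mem, dif_pos] at h1
  have h2 : K.index = ∑ χ : IrrCharacter Γ, if lam = μ χ then n χ * n χ else 0 := by
    have : lam ⟨1, one_mem _⟩ = 1 := map_one lam
    rw [this] at h1
    apply Nat.cast_injective (R := ℂ)
    push_cast
    simpa using h1
  have h3 : K.index = Nat.card Q := by
    rw [hK, index_ker, MonoidHom.range_eq_top.2 hσ.1, card_top]
  rw [← h3, h2]
  refine Finset.dvd_sum fun χ _ => ?_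
  split_ifs with h
  · have := hlam (n χ) (h ▸ hμn χ)
    rw [sq]; exact mul_dvd_mul this this
  · exact dvd_zero _

end Cfsg.Agent.S3952
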