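import Cfsg.Statements.S3953
import Cfsg.Agent.Schur.Transfer

set_option autoImplicit false
open Cfsg

namespace Cfsg.Agent.S3953

open Subgroup Function Cfsg.Agent.Schur

/-- Let `P` be a Sylow `p`-subgroup of the finite group `G`, let `A` be the Schur multiplier of `G` and `B` that of `P`. Then the `p`-primary component of `A` is isomorphic to a direct factor of `B`: there are subgroups `C` and `D` of `B` meeting trivially and generating `B`, with `C` isomorphic to the `p`-primary component of `A`. -/
theorem result {G : Type*} [Group G] [Finite G] (p : ℕ) [Fact p.Prime] (P : Sylow p G) {A B : Type*} [CommGroup A] [CommGroup B] (hA : Cfsg.HasSchurMultiplier G A) (hB : Cfsg.HasSchurMultiplier P B) : ∃ C D : Subgroup B, C ⊓ D = ⊥ ∧ C ⊔ D = ⊤ ∧ Nonempty (CommGroup.primaryComponent A p ≃* C) := by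
  obtain ⟨t, i, h⟩ := exists_transfer (P : Subgroup G) hA hB
  have := finite_of_hasSchurMultiplier hA
  have := finite_of_hasSchurMultiplier hB
  set Ap := CommGroup.primaryComponent A p
  have hAp : IsPGroup p Ap := CommGroup.primaryComponent.isPGroup
  have hm : p.Coprime (P : Subgroup G).index :=
    (Nat.Prime.coprime_iff_not_dvd Fact.out).2 P.not_dvd_index
  -- a projection onto the `p`-part which is injective there
  obtain ⟨k, n, hn, hkn⟩ := Nat.exists_eq_pow_mul_and_not_dvd (Nat.card_pos (α := A)).ne' p
    (Fact.out : p.Prime).ne_one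
  have hn' : p.Coprime n := (Nat.Prime.coprime_iff_not_dvd Fact.out).2 hn
  let e : A →* Ap := (powMonoidHom n).codRestrict _ (fun a => by
    rw [CommGroup.mem_primaryComponent]
    exact ⟨k, by rw [powMonoidHom_apply, ← pow_mul, mul_comm, ← hkn, pow_card_eq_one']⟩)
  let f : B →* Ap := e.comp i
  let g : Ap →* B := t.comp Ap.subtype
  have hfg : ∀ a, f (g a) = a ^ ((P : Subgroup G).index * n) := fun a => by
    apply Subtype.ext
    show (i (t a)) ^ n = _
    rw [h, ← pow_mul]; rfl
  have hbij : Bijective (fun a : Ap => a ^ ((P : Subgroup G).index * n)) :=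
    (hAp.powEquiv (hm.mul_right hn')).bijective
  have hg : Injective g := fun a b hab => hbij.1 (by simp only [← hfg, hab])
  refine ⟨g.range, f.ker, ?_, ?_, ⟨MonoidHom.ofInjective hg⟩⟩
  · rw [eq_bot_iff]
    rintro _ ⟨⟨a, rfl⟩, ha⟩
    have : a = 1 := hbij.1 (by simp only [← hfg]; rw [show f (g a) = 1 from ha, map_one, map_one])
    simp [this]
  · rw [eq_top_iff]
    intro b _
    obtain ⟨a, ha⟩ := hbij.2 (f b)
    have h1 : (g a)⁻¹ * b ∈ f.ker := by
      rw [MonoidHom.mem_ker, map_mul, map_inv, hfg]
      exact inv_mul_eq_one.2 ha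
    simpa using mul_mem_sup (show g a ∈ g.range from ⟨a, rfl⟩) h1

end Cfsg.Agent.S3953
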