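import Cfsg.Statements.S3955
import Cfsg.Agent.Schur.Lift

set_option autoImplicit false
open Cfsg

namespace Cfsg.Agent.S3955

open Subgroup Function Cfsg.Agent.Schur

/-- Let `Q` be a finite group with Schur multiplier `A`, and let `σ : Γ →* Q` be a finite stem extension whose kernel is isomorphic to `A` (a Schur covering group of `Q`). Then every homomorphism `γ` from `Q` to the quotient of `GL n ℂ` by its centre lifts along `σ`: there is a homomorphism `ρ : Γ →* GL n ℂ` which, followed by the quotient map, equals `γ ∘ σ`. -/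
theorem result {Q : Type*} [Group Q] [Finite Q] {A : Type*} [CommGroup A] (hA : Cfsg.HasSchurMultiplier Q A) {Γ : Type*} [Group Γ] [Finite Γ] (σ : Γ →* Q) (hσ : Cfsg.IsStemExtension σ) (hk : Nonempty (σ.ker ≃* A)) (n : ℕ) (γ : Q →* (GL (Fin n) ℂ ⧸ Subgroup.center (GL (Fin n) ℂ))) : ∃ ρ : Γ →* GL (Fin n) ℂ, (QuotientGroup.mk' (Subgroup.center (GL (Fin n) ℂ))).comp ρ = γ.comp σ := by
  refine exists_lift_of_divisible hA hσ hk ⟨QuotientGroup.mk'_surjective _, by rw [QuotientGroup.ker_mk']⟩ ?_ γ
  rw [QuotientGroup.ker_mk']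
  exact center_GL_divisible n

end Cfsg.Agent.S3955
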