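import Cfsg.Statements.S3957
import Cfsg.Agent.Schur.Hopf

set_option autoImplicit false
universe u v
open Cfsg

namespace Cfsg.Agent.S3957

open Subgroup Function Cfsg.Agent.Schur

/-- Let `Q` be a finite group with Schur multiplier `A` and let `τ : Δ →* Q` be a finite stem extension, `Δ` in the universe of `Q`. Then there is a finite stem extension `σ : Γ →* Q` with kernel isomorphic to `A` (a Schur covering group) and a surjective homomorphism `β : Γ →* Δ` with `τ ∘ β = σ`. -/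
theorem result {Q : Type u} [Group Q] [Finite Q] {A : Type v} [CommGroup A] (hA : Cfsg.HasSchurMultiplier Q A) {Δ : Type u} [Group Δ] [Finite Δ] (τ : Δ →* Q) (hτ : Cfsg.IsStemExtension τ) : ∃ (Γ : Type u) (_ : Group Γ) (_ : Finite Γ) (σ : Γ →* Q), Cfsg.IsStemExtension σ ∧ Nonempty (σ.ker ≃* A) ∧ ∃ β : Γ →* Δ, Function.Surjective β ∧ τ.comp β = σ := by
  have := fg_freeGroup Q
  have hπ := stdPres_surjective Q
  obtain ⟨φ, hφ⟩ := exists_lift_ext (isCentralExt_of_stem hτ) (stdPres Q)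
  have hle : φ.ker ≤ (proj (stdPres Q)).ker := fun x hx => by
    rw [MonoidHom.mem_ker, ← hφ, MonoidHom.comp_apply, show φ x = 1 from hx, map_one]
  obtain ⟨T, _, hT, hTS, -, hstem, hfin, ⟨e⟩⟩ := exists_cover_le hπ φ.ker hle (fun r hr => by
    have h1 : φ r ∈ mul τ := by
      rw [mul_eq_ker_of_stem hτ, MonoidHom.mem_ker, ← MonoidHom.comp_apply, hφ]; exact hr
    rw [← map_mul_of_over (proj_surjective hπ) hτ.2.1 hφ] at h1
    obtain ⟨m, hm, h2⟩ := h1
    refine ⟨r * m⁻¹, by simp [MonoidHom.mem_ker, h2], by simpa using hm.2⟩)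
  obtain ⟨e'⟩ := (hasSchurMultiplier_iff_hopf hπ A).1 hA
  refine ⟨_, inferInstance, hfin, _, hstem, ⟨e.trans e'.symm⟩, QuotientGroup.lift T φ hTS, ?_, ?_⟩
  · intro y
    obtain ⟨x, rfl⟩ := surjective_of_over_stem (proj_surjective hπ) hτ hφ y
    exact ⟨x, rfl⟩
  · ext x
    exact DFunLike.congr_fun hφ _

end Cfsg.Agent.S3957
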