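import Cfsg.Statements.S3960
import Cfsg.Agent.Schur.Lift

set_option autoImplicit false
universe u
open Cfsg

namespace Cfsg.Agent.S3960

open Subgroup Function Cfsg.Agent.Schur

/-- A finite perfect group `Q` has a universal central extension: a finite perfect group `G` in the universe of `Q` and a surjective homomorphism `π : G →* Q` with central kernel such that for every group `X` in that universe and every surjective homomorphism `ξ : X →* Q` with central kernel there is exactly one homomorphism `η : G →* X` with `ξ ∘ η = π`. -/
theorem result {Q : Type u} [Group Q] [Finite Q] (hQ : Group.IsPerfect Q) : ∃ (G : Type u) (_ : Group G) (_ : Finite G) (π : G →* Q), Group.IsPerfect G ∧ Function.Surjective π ∧ π.ker ≤ Subgroup.center G ∧ ∀ (X : Type u) [Group X] (ξ : X →* Q), Function.Surjective ξ → ξ.ker ≤ Subgroup.center X → ∃! η : G →* X, ξ.comp η = π := by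
  have hπ := stdPres_surjective Q
  have hc := isCentralExt_proj hπ
  have hp := isPerfect_commutator_of_central hQ hc
  refine ⟨commutator (Ext (stdPres Q)), inferInstance, finite_commutator_of_central hc.central,
    (proj (stdPres Q)).comp (Subgroup.subtype _), hp, ?_, ?_, ?_⟩
  · intro g
    have : g ∈ (commutator (Ext (stdPres Q))).map (proj (stdPres Q)) := by
      rw [map_commutator_of_surjective hc.surj, Group.isPerfect_def.1 hQ]; trivial
    obtain ⟨x, hx, rfl⟩ := this
    exact ⟨⟨x, hx⟩, rfl⟩
  · intro x hx
    rw [mem_center_iff]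
    intro y
    exact Subtype.ext (mem_center_iff.1 (hc.central hx) y.1)
  · intro X _ ξ h1 h2
    obtain ⟨φ, hφ⟩ := exists_lift_ext ⟨h1, h2⟩ (stdPres Q)
    have h3 : ξ.comp (φ.comp (Subgroup.subtype (commutator _))) = (proj (stdPres Q)).comp (Subgroup.subtype _) := by
      rw [← hφ]; rfl
    exact ⟨_, h3, fun η hη => lift_unique_of_perfect hp h2 (hη.trans h3.symm)⟩

end Cfsg.Agent.S3960
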