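import Cfsg.Statements.S3961
import Cfsg.Agent.Schur.Lift
import Cfsg.Agent.S3962

set_option autoImplicit false
universe u v
open Cfsg

namespace Cfsg.Agent.S3961

open Subgroup Function Cfsg.Agent.Schur

/-- Let `π : G →* Q` be a surjective homomorphism with central kernel from a finite perfect group `G` (a perfect cover of `Q`). Then `π` is universal, in the sense that every surjective homomorphism `ξ : X →* Q` with central kernel from a group `X` in the universe of `G` admits a homomorphism `η : G →* X` with `ξ ∘ η = π`, if and only if `G` has trivial Schur multiplier. -/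
theorem result {G : Type u} {Q : Type v} [Group G] [Group Q] [Finite G] (hG : Group.IsPerfect G) (π : G →* Q) (hπ : Function.Surjective π) (hker : π.ker ≤ Subgroup.center G) : (∀ (X : Type u) [Group X] (ξ : X →* Q), Function.Surjective ξ → ξ.ker ≤ Subgroup.center X → ∃ η : G →* X, ξ.comp η = π) ↔ Cfsg.HasCyclicSchurMultiplier G 1 := by
  constructor
  · intro h
    rw [hasCyclicSchurMultiplier_one_iff]
    intro Γ _ _ σ hσ
    have hΓ := isPerfect_of_stem hG hσ
    obtain ⟨η, hη⟩ := h Γ (π.comp σ) (hπ.comp hσ.1) (fun x hx => by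
      have h1 : σ x ∈ center G := hker hx
      rw [← Cfsg.Agent.S3962.result hΓ σ hσ.1 hσ.2.1] at h1
      obtain ⟨z, hz, e⟩ := h1
      have h2 : z⁻¹ * x ∈ center Γ :=
        hσ.2.1 (by rw [MonoidHom.mem_ker, map_mul, map_inv, e, inv_mul_cancel])
      simpa using mul_mem hz h2)
    have h1 : σ.comp η = MonoidHom.id G := lift_unique_of_perfect hG hker hη
    have hs := surjective_of_over_stem surjective_id hσ h1
    rw [eq_bot_iff]
    intro x hx
    obtain ⟨g, rfl⟩ := hs x
    have : g = 1 := (DFunLike.congr_fun h1 g).symm.trans hx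
    simp [this]
  · intro h X _ ξ h1 h2
    have hc := isCentralExt_pullSnd ⟨h1, h2⟩ π
    obtain ⟨s, hs⟩ := exists_section_of_perfect hG hc (mul_eq_bot_of_trivial h hc)
    refine ⟨(pullFst ξ π).comp s, ?_⟩
    rw [← MonoidHom.comp_assoc, pull_comm, MonoidHom.comp_assoc, hs, MonoidHom.comp_id]

end Cfsg.Agent.S3961
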