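import Cfsg.Statements.S3967
import Cfsg.Agent.Schur.Metacyclic
import Mathlib.GroupTheory.PresentedGroup

set_option autoImplicit false
open Cfsg

namespace Cfsg.Agent.S3967

open Subgroup

theorem finite_of_rel {G : Type*} [Group G] {a b : G} {m n r t : ℕ} (hm : 0 < m) (hn : 0 < n) (ha : a ^ m = 1)
    (hgen : closure {a, b} = ⊤) (hr : b * a * b⁻¹ = a ^ r) (hbn : b ^ n = a ^ t) : Finite G := by
  have h1 : Finite (zpowers a) := finite_zpowers.2 (isOfFinOrder_iff_pow_eq_one.2 ⟨m, hm, ha⟩)
  have hnorm : (zpowers a).Normal := by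
    rw [← normalizer_eq_top_iff, eq_top_iff, ← hgen, closure_le]
    rintro x (rfl | rfl)
    · exact le_normalizer (mem_zpowers _)
    · apply mem_normalizer_fintype
      rintro _ ⟨i, rfl⟩
      show x * a ^ i * x⁻¹ ∈ zpowers a
      rw [← conj_zpow, hr]
      exact zpow_mem (pow_mem (mem_zpowers a) _) _
  have h2 : zpowers (b : G ⧸ zpowers a) = ⊤ := by
    have := congrArg (Subgroup.map (QuotientGroup.mk' (zpowers a))) hgen
    rw [MonoidHom.map_closure, Set.image_pair, map_top_of_surjective _ (QuotientGroup.mk'_surjective _)] at this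
    rw [eq_top_iff, ← this, closure_le]
    rintro x (rfl | rfl)
    · rw [QuotientGroup.mk'_apply, (QuotientGroup.eq_one_iff a).2 (mem_zpowers a)]; exact one_mem _
    · exact mem_zpowers _
  have h3 : Finite (zpowers (b : G ⧸ zpowers a)) := finite_zpowers.2 (isOfFinOrder_iff_pow_eq_one.2 ⟨n, hn, by
    rw [← QuotientGroup.mk_pow, hbn, QuotientGroup.eq_one_iff]; exact pow_mem (mem_zpowers a) _⟩)
  rw [h2] at h3
  have h4 : Finite (G ⧸ zpowers a) := Finite.of_equiv _ topEquiv.toEquiv
  exact Finite.of_subgroup_quotient (zpowers a)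

theorem exists_model {m n r t : ℕ} (hn : 0 < n) (hrn : (r : ZMod m) ^ n = 1) (hrt : (r : ZMod m) * t = t) :
    ∃ (G : Type) (_ : Group G) (a b : G), orderOf a = m ∧ b * a * b⁻¹ = a ^ r ∧ b ^ n = a ^ t := by
  let u : (ZMod m)ˣ := Units.ofPowEqOne _ _ hrn hn.ne'
  have hun : u ^ n = 1 := Units.ext (by simp [u])
  let β : (ZMod m)ˣ →* MulAut (Multiplicative (ZMod m)) :=
    { toFun := fun v => AddEquiv.toMultiplicative (DistribMulAction.toAddEquiv (ZMod m) v)
      map_one' := by ext x; simp
      map_mul' := fun v w => by ext x; simp [mul_smul] }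
  have hβ : ∀ x : ZMod m, β u (Multiplicative.ofAdd x) = Multiplicative.ofAdd ((r : ZMod m) * x) := fun x => rfl
  let φ := zpowersHom _ (β u)
  let a : Multiplicative (ZMod m) ⋊[φ] Multiplicative ℤ := SemidirectProduct.inl (Multiplicative.ofAdd 1)
  let b : Multiplicative (ZMod m) ⋊[φ] Multiplicative ℤ := SemidirectProduct.inr (Multiplicative.ofAdd 1)
  have hab : b * a * b⁻¹ = a ^ r := by
    rw [← map_inv SemidirectProduct.inr, ← SemidirectProduct.inl_aut, ← map_pow]
    apply congrArg SemidirectProduct.inl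
    simp [φ, hβ, ← ofAdd_nsmul]
  let z : Multiplicative (ZMod m) ⋊[φ] Multiplicative ℤ := ⟨Multiplicative.ofAdd (-t), Multiplicative.ofAdd n⟩
  have h1 : φ z.right = 1 := by
    show β u ^ (n : ℤ) = 1
    rw [zpow_natCast, ← map_pow, hun, map_one]
  have hz : z ∈ center _ := by
    rw [mem_center_iff]
    intro w
    ext1
    · have h3 : φ w.right z.left = z.left := Schur.zpow_apply_of_fixed (β u) (by rw [hβ, mul_neg, hrt]) _
      simp [h1, h3, mul_comm]
    · simp [mul_comm]
  have := Schur.normal_of_le_center (zpowers_le.2 hz)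
  refine ⟨_ ⧸ zpowers z, inferInstance, a, b, ?_, ?_, ?_⟩
  · have hinj : Function.Injective ((QuotientGroup.mk' (zpowers z)).comp SemidirectProduct.inl) := by
      rw [injective_iff_map_eq_one]
      intro x hx
      obtain ⟨k, hk⟩ := (QuotientGroup.eq_one_iff _).1 hx
      have h2 := congrArg SemidirectProduct.rightHom hk
      rw [map_zpow, SemidirectProduct.rightHom_inl] at h2
      have h3 : k * n = 0 := by simpa [z] using congrArg Multiplicative.toAdd h2
      have h4 : k = 0 := by simpa [hn.ne'] using h3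
      rw [h4] at hk
      exact SemidirectProduct.inl_injective (by rw [← hk]; simp)
    have := orderOf_injective _ hinj (Multiplicative.ofAdd 1)
    rw [orderOf_ofAdd_eq_addOrderOf, ZMod.addOrderOf_one] at this
    exact this
  · rw [← QuotientGroup.mk_pow, ← hab]; rfl
  · rw [← QuotientGroup.mk_pow, ← QuotientGroup.mk_pow, eq_comm, QuotientGroup.eq]
    have : (a ^ t)⁻¹ * b ^ n = z := by
      rw [← map_pow SemidirectProduct.inl, ← map_pow SemidirectProduct.inr, ← map_inv,
        ← SemidirectProduct.mk_eq_inl_mul_inr]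
      simp [z, ← ofAdd_nsmul]
    rw [this]; exact mem_zpowers _

/-- Let `m, n ≥ 1`, `r ≥ 1` with `r ^ n ≡ 1 (mod m)`, and `l` a natural number; put `d = gcd(m, r - 1)`, `t = m l / d` and `h = d · gcd(m, 1 + r + ⋯ + r^(n-1)) / m`. The group presented by generators `a, b` and relations `a ^ m = 1`, `b ^ n = a ^ t`, `b a b⁻¹ = a ^ r` (a metacyclic group of order `m n`) has Schur multiplier cyclic of order `gcd(l, h)`. -/
theorem result (m n r l : ℕ) (hm : 0 < m) (hn : 0 < n) (hr : 0 < r) (hrn : r ^ n ≡ 1 [MOD m]) : Cfsg.HasCyclicSchurMultiplier (PresentedGroup ({FreeGroup.of true ^ m, (FreeGroup.of false) ^ n * (FreeGroup.of true ^ (m * l / Nat.gcd m (r - 1)))⁻¹, FreeGroup.of false * FreeGroup.of true * (FreeGroup.of false)⁻¹ * (FreeGroup.of true ^ r)⁻¹} : Set (FreeGroup Bool))) (Nat.gcd l (Nat.gcd m (r - 1) * Nat.gcd m (∑ i ∈ Finset.range n, r ^ i) / m)) := by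
  set t := m * l / Nat.gcd m (r - 1) with ht
  set N := ∑ i ∈ Finset.range n, r ^ i with hN
  set R : Set (FreeGroup Bool) := {FreeGroup.of true ^ m, (FreeGroup.of false) ^ n * (FreeGroup.of true ^ t)⁻¹,
    FreeGroup.of false * FreeGroup.of true * (FreeGroup.of false)⁻¹ * (FreeGroup.of true ^ r)⁻¹} with hR
  have h1 : (PresentedGroup.of true : PresentedGroup R) ^ m = 1 := by
    exact PresentedGroup.one_of_mem (rels := R) (x := FreeGroup.of true ^ m) (by simp [hR])
  have h2 : (PresentedGroup.of false : PresentedGroup R) ^ n = PresentedGroup.of true ^ t := by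
    rw [← mul_inv_eq_one]
    exact PresentedGroup.one_of_mem (rels := R)
      (x := (FreeGroup.of false) ^ n * (FreeGroup.of true ^ t)⁻¹) (by simp [hR])
  have h3 : (PresentedGroup.of false : PresentedGroup R) * PresentedGroup.of true * (PresentedGroup.of false)⁻¹ =
      PresentedGroup.of true ^ r := by
    rw [← mul_inv_eq_one]
    exact PresentedGroup.one_of_mem (rels := R) (x := FreeGroup.of false * FreeGroup.of true *
      (FreeGroup.of false)⁻¹ * (FreeGroup.of true ^ r)⁻¹) (by simp [hR])
  have hgen : closure {(PresentedGroup.of true : PresentedGroup R), PresentedGroup.of false} = ⊤ := by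
    rw [← PresentedGroup.closure_range_of]
    congr 1
    ext x
    simp [or_comm]
  have hfin := finite_of_rel hm hn h1 hgen h3 h2
  obtain ⟨d, hd⟩ := Nat.gcd_dvd_left m (r - 1)
  have hg0 : 0 < Nat.gcd m (r - 1) := Nat.gcd_pos_of_pos_left _ hm
  have htd : t = l * d := by
    rw [ht, Nat.div_eq_iff_eq_mul_left hg0 (Dvd.dvd.mul_right (Nat.gcd_dvd_left _ _) _)]
    calc m * l = (Nat.gcd m (r - 1) * d) * l := by rw [← hd]
      _ = _ := by ring
  have hmr : m ∣ (r - 1) * d := by
    obtain ⟨c, hc⟩ := Nat.gcd_dvd_right m (r - 1)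
    exact ⟨c, by
      calc (r - 1) * d = (Nat.gcd m (r - 1) * c) * d := by rw [← hc]
        _ = (Nat.gcd m (r - 1) * d) * c := by ring
        _ = _ := by rw [← hd]⟩
  have ho : orderOf (PresentedGroup.of true : PresentedGroup R) = m := by
    obtain ⟨G, _, a, b, g1, g2, g3⟩ := exists_model (m := m) (r := r) (t := t) hn
      (by exact_mod_cast (ZMod.natCast_eq_natCast_iff _ _ _).2 hrn) (by
        have := (ZMod.natCast_eq_zero_iff _ _).2 (hmr.mul_left l)
        rw [htd]
        push_cast [Nat.cast_sub hr] at this ⊢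
        linear_combination this)
    let f : PresentedGroup R →* G := PresentedGroup.toGroup (f := fun x => if x then a else b) (by
      rintro _ (rfl | rfl | rfl)
      · simp [← g1]
      · simp [g3]
      · simp [g2])
    refine Nat.dvd_antisymm (orderOf_dvd_of_pow_eq_one h1) ?_
    have := orderOf_map_dvd f (PresentedGroup.of true)
    rwa [PresentedGroup.toGroup.of, if_pos rfl, g1] at this
  refine Schur.hasCyclicSchurMultiplier_metacyclic ho hn hr hgen h3 h2 ?_ ?_
  · let f : PresentedGroup R →* Multiplicative (ZMod n) :=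
      PresentedGroup.toGroup (f := fun x => if x then 1 else Multiplicative.ofAdd 1) (by
      rintro _ (rfl | rfl | rfl)
      · simp
      · simp [← ofAdd_nsmul]
      · simp)
    rintro j ⟨k, hk⟩
    have := congrArg (fun x => (f x).toAdd) hk
    simp [f] at this
    exact (ZMod.intCast_zmod_eq_zero_iff_dvd j n).1 this.symm
  · rw [orderOf_pow, ho, ← hN]
    have e1 : m / Nat.gcd m (r - 1) = d := Nat.div_eq_of_eq_mul_right hg0 hd
    have hd0 : 0 < d := Nat.pos_of_mul_pos_left (hd ▸ hm)
    have e2 : d ∣ N := by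
      have e3 : m ∣ (r - 1) * N := by
        have e4 : (r - 1) * N = r ^ n - 1 := by rw [mul_comm]; exact geom_sum_mul_of_one_le hr n
        rw [e4]
        exact (Nat.modEq_iff_dvd' (Nat.one_le_pow _ _ hr)).1 hrn.symm
      have e5 : m ∣ Nat.gcd m (r - 1) * N := by
        rw [← Nat.gcd_mul_right]; exact Nat.dvd_gcd (dvd_mul_right _ _) e3
      exact Nat.dvd_of_mul_dvd_mul_left hg0 (hd ▸ e5)
    obtain ⟨c, hc⟩ : d ∣ Nat.gcd m N := Nat.dvd_gcd (Dvd.intro_left _ hd.symm) e2
    have e6 : Nat.gcd m (r - 1) * Nat.gcd m N / m = c := by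
      apply Nat.div_eq_of_eq_mul_right hm
      rw [hc, ← mul_assoc, ← hd]
    rw [e1, e6, ← Nat.gcd_mul_right, ← htd, mul_comm c, ← hc, Nat.gcd_left_comm]

end Cfsg.Agent.S3967
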