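import Cfsg.Statements.S3968
import Cfsg.Agent.Isa.I4
import Cfsg.Agent.Char.Burnside

set_option autoImplicit false
open Cfsg

namespace Cfsg.Agent.S3968

open Cfsg.Agent.PF Cfsg.Agent.PF.CH Cfsg.Agent.BG


/-- Let `p` be a prime and `G` a finite group with a faithful irreducible complex character of degree `p` (so `G` is an irreducible linear group in `p` variables). If `p ^ 2` divides the order of `G`, then the centre of `G` is nontrivial. -/
theorem result {G : Type*} [Group G] [Finite G] (p : ℕ) (hp : p.Prime) (χ : Cfsg.IrrCharacter G) (hdeg : χ.1 1 = p) (hfaith : ∀ g : G, χ.1 g = χ.1 1 → g = 1) (hdiv : p ^ 2 ∣ Nat.card G) : Subgroup.center G ≠ ⊥ := by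
  intro hz
  have := Fact.mk hp
  obtain ⟨P⟩ : Nonempty (Sylow p G) := inferInstance
  have hχ := mem_Irr_top.2 χ.2
  have hd : deg χ.1 = p := deg_eq_of hdeg
  have hk : Char.charKer χ.1 = ⊥ := eq_bot_iff.2 fun g hg => hfaith g (by simpa using hg 1)
  have h0 {z : G} (hz1 : z ≠ 1) (h : (P : Subgroup G) ≤ C1[z]) : χ.1 z = 0 := by
    refine (Char.IsIrrCharacter.eq_zero_or_mem_charCenter χ.2 z ?_).resolve_right fun e => hz1 ?_
    · exact (show deg χ.1 = charDegree χ.1 from rfl) ▸ hd ▸ (Nat.Prime.coprime_iff_not_dvd hp).2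
        fun e => P.not_dvd_index (e.trans (Subgroup.index_dvd_of_le h))
    · have := Char.IsCharacter.charCenter_le_center χ.2.isCharacter hk e
      rwa [hz] at this
  have hc : p ^ 2 ∣ Nat.card (P : Subgroup G) := by
    rw [P.card_eq_multiplicity]
    exact pow_dvd_pow _ ((hp.pow_dvd_iff_le_factorization Nat.card_pos.ne').1 hdiv)
  have hR := (Irr_isChar hχ).res (le_top (a := (P : Subgroup G)))
  by_cases hl : ∀ θ ∈ Irr (P : Subgroup G), dot P χ.1 θ ≠ 0 → deg θ = 1
  · have hab : IsMulCommutative (P : Subgroup G) := der1_eq_bot.1 (eq_bot_iff.2 fun x hx => hfaith x (by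
      have h1 := der_sub _ hx
      have h2 : ConjInv (P : Subgroup G) χ.1 := (CF_inv (Irr_CF hχ)).mono le_top
      rw [apply_eq_sum_Irr h2 h1, apply_eq_sum_Irr h2 (one_mem _)]
      refine Finset.sum_congr rfl fun θ hθ => ?_
      by_cases e : dot P χ.1 θ = 0
      · simp [e]
      · rw [cfker_apply ((deg_eq_one_iff hθ).1 (hl θ hθ e) hx)]))
    obtain ⟨n, hn⟩ := hR.dot_nat (Irr_isChar (one_mem_Irr _))
    have h1 := card_mul_dot_of_support (H := P) (K := ⊥) (φ := Res P χ.1) (ψ := one P) bot_le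
      fun g hg h1 => by
        rw [Res_of_mem _ hg]
        exact h0 (by simpa using h1) fun y hy => Subgroup.mem_centralizer_singleton_iff.2
          (IsMulCommutative.comm hab hy hg)
    rw [hn, card_mul_dot] at h1
    simp only [Subgroup.coe_bot] at h1
    rw [show fs ({1} : Set G) = {1} by ext; simp [mem_fs], Finset.sum_singleton] at h1
    simp only [Res_one_apply, hdeg, one_apply_one, map_one, mul_one] at h1
    have h2 : Nat.card (P : Subgroup G) * n = p := by exact_mod_cast h1
    have h3 := Nat.le_of_dvd hp.pos ((hc.mul_right n).trans h2.dvd)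
    nlinarith [hp.one_lt]
  · push Not at hl
    obtain ⟨θ, hθ, h1, h2⟩ := hl
    obtain ⟨k, hk⟩ := exists_pow_deg hp P.2.pi hθ
    have h3 := res_eq_of_deg le_top hχ hθ h1 (by
      rw [hd, hk]; exact Nat.le_self_pow (fun e => h2 (by simp [hk, e])) _)
    obtain ⟨z, hz2, hz1⟩ := (Subgroup.bot_or_exists_ne_one Z[(P : Subgroup G)]).resolve_left
      (center_nil_ne_bot P.isPGroup'.isNilpotent fun e => by
        rw [e, Subgroup.card_bot] at hc
        exact hp.one_lt.ne' (Nat.dvd_one.1 ((dvd_pow_self p two_ne_zero).trans hc)))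
    have h4 := Irr_mul_central hθ hz2.1 (inv_mem hz2.1) fun y hy => by
      rw [show y * z⁻¹ * y⁻¹ * z⁻¹⁻¹ = y * (z⁻¹ * y⁻¹ * z) by group, mul_assoc z⁻¹, hz2.2 _ (inv_mem hy)]
      simp
    rw [← h3, Res_of_mem _ hz2.1, h0 hz1 fun y hy => Subgroup.mem_centralizer_singleton_iff.2
      (hz2.2 y hy)] at h4
    simp [hdeg, hp.ne_zero] at h4

end Cfsg.Agent.S3968
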