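import Cfsg.Statements.S3970
import Cfsg.Agent.FG.Compl

set_option autoImplicit false
open Cfsg

namespace Cfsg.Agent.S3970

open Cfsg.Agent.BG Cfsg.Agent.FG Subgroup

/-- Let `G` be a finite group such that for every prime `p` dividing its order, other than the largest such prime, the Sylow `p`-subgroups are abelian and generated by at most two elements, and suppose `12` does not divide the order of `G`. Then `G` is solvable. In particular a group of cube-free order not divisible by `12` is solvable. -/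
theorem result {G : Type*} [Group G] [Finite G] (h : ∀ p : ℕ, p.Prime → p ∣ Nat.card G → (∃ q : ℕ, q.Prime ∧ q ∣ Nat.card G ∧ p < q) → ∀ P : Sylow p G, IsMulCommutative (P : Subgroup G) ∧ Group.rank (P : Subgroup G) ≤ 2) (h12 : ¬ 12 ∣ Nat.card G) : Group.IsSolvable G := by
  suffices H : ∀ n, ∀ M : Subgroup G, #M = n → IsPiHallOf (primesOf #M) M ⊤ → Group.IsSolvable M from
    isog_sol (isog_symm isog_top) (H _ ⊤ rfl (pHall_id (pnat_pi _)))
  intro n
  induction n using Nat.strong_induction_on with | _ n ih => ?_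
  rintro M rfl hM
  by_cases h0 : M = ⊥
  · exact h0 ▸ solvable_bot
  set p := (#M).minFac
  have hp : p.Prime := Nat.minFac_prime (cardG_gt1 h0).ne'
  haveI := Fact.mk hp
  have hpM : p ∣ #M := Nat.minFac_dvd _
  have hle : ∀ q, q.Prime → q ≠ p → q ∣ #M → p < q := fun q hq e h => (Nat.minFac_le_of_dvd hq.two_le h).lt_of_ne' e
  have hG : #M ∣ Nat.card G := card_subgroup_dvd_card M
  by_cases h1 : PiGrp {p} M
  · exact pgroup_sol (PiNat.pg h1)
  obtain ⟨q, hq, hqM, hqp⟩ : ∃ q, q.Prime ∧ q ∣ #M ∧ q ≠ p := by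
    by_contra! hc
    exact h1 hc
  obtain ⟨S, hS⟩ := Sylow_exists p M
  obtain ⟨P, rfl⟩ := sylow_of_sylowIn_top (subHall_Sylow hM ⟨hp, hpM⟩ hS)
  obtain ⟨h2, h3⟩ := h p hp (hpM.trans hG) ⟨q, hq, hqM.trans hG, hle q hq hqp hqM⟩ P
  have h4 : ∀ q, q.Prime → q ≠ p → q ∣ #M → ¬ q ∣ p ^ 1 - 1 := fun q hq e h1 h2 => by
    have := hle q hq e h1
    have := Nat.le_of_dvd (by have := hp.two_le; simp; omega) h2
    simp at this; omega
  have hsd : Sdprod (Op' p M) P M := by
    by_cases h5 : p ^ 2 ∣ #(P : Subgroup G)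
    · refine abelian_normal_complement hS h2 ((relIndex_Phi_dvd_rank hS.pg).trans (pow_dvd_pow p h3))
        fun q hq e h1 b b1 b2 h6 => ?_
      obtain rfl | rfl : b = 1 ∨ b = 2 := by omega
      · exact h4 q hq e h1 h6
      rw [← one_pow 2, Nat.sq_sub_sq] at h6
      have h7 := hle q hq e h1
      obtain h6 | h6 := (Nat.Prime.dvd_mul hq).1 h6
      · have h8 : q = p + 1 := le_antisymm (Nat.le_of_dvd p.succ_pos h6) h7
        have h9 : p = 2 := by
          by_contra h9
          obtain ⟨k, hk⟩ := hp.odd_of_ne_two h9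
          have := (Nat.prime_dvd_prime_iff_eq Nat.prime_two hq).1 ⟨k + 1, by omega⟩
          have := hp.two_le
          omega
        refine h12 (Nat.Coprime.mul_dvd_of_dvd_of_dvd (m := 4) (n := 3) (by norm_num) ?_ ?_)
        · exact .trans ⟨1, by rw [h9]; rfl⟩ (h5.trans (card_subgroup_dvd_card _))
        · rw [h8, h9] at h1; exact h1.trans hG
      · exact h4 q hq e h1 (by rwa [pow_one])
    · refine abelian_normal_complement (d := 1) hS h2 (.trans (Dvd.intro_left _ (card_mul_relIndex (Phi_sub _))) ?_)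
        fun q hq e h1 b b1 b2 => by obtain rfl : b = 1 := by omega
                                    exact h4 q hq e h1
      obtain ⟨k, hk⟩ := BG4.card_pgroup hS.pg
      rw [hk] at h5 ⊢
      exact pow_dvd_pow p (by by_contra h6; exact h5 (pow_dvd_pow p (by omega)))
  have h5 := Sdprod.pHall_Op' hsd hS.pg
  refine series_sol hsd.normal (ih _ ?_ _ rfl (pHall_trans_idx (pHall_of_coprime h5.le h5.coprime) le_top
    (hM.idx.mono fun r hr h => hr ⟨h.1, h.2.trans (cardSg h5.le)⟩))) (isog_sol hsd.isog (pgroup_sol hS.pg))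
  exact proper_card (h5.le.lt_of_ne fun e => (p'natE hp).1 h5.pi (e.symm ▸ hpM))

end Cfsg.Agent.S3970
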