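import Cfsg.Statements.S3971
import Cfsg.Agent.FG.Compl

set_option autoImplicit false
open Cfsg

namespace Cfsg.Agent.S3971

open Cfsg.Agent.BG Cfsg.Agent.FG Subgroup

/-- Let `G` be a finite group of order `2 ^ a * n` with `n` odd and not divisible by `3`, and suppose `G` has an element of order `2 ^ (a - 1)` (so a Sylow `2`-subgroup has a cyclic subgroup of index at most `2`). Then `G` has a normal subgroup of order `n`. -/
theorem result {G : Type*} [Group G] [Finite G] (a n : ℕ) (hG : Nat.card G = 2 ^ a * n) (hn : Odd n) (h3 : ¬ 3 ∣ n) (hx : ∃ x : G, orderOf x = 2 ^ (a - 1)) : ∃ N : Subgroup G, N.Normal ∧ Nat.card N = n := by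
  obtain ⟨x, hx⟩ := hx
  have hz : #(zpowers x) = 2 ^ (a - 1) := by rw [Nat.card_zpowers, hx]
  obtain ⟨S, hS, hxS⟩ := Sylow_superset (p := 2) (le_top (a := zpowers x)) (pgroup_of_card hz)
  have hc : #S = 2 ^ a := (card_Hall hS).trans (partn_eq (cardG_ne_zero _) (card_top.trans hG)
    (pnat_pow_self Nat.prime_two a) (pnat_odd.2 hn))
  obtain ⟨P, rfl⟩ := sylow_of_sylowIn_top hS
  have hi : (zpowers x).relIndex P ∣ 2 := by
    refine Nat.dvd_of_mul_dvd_mul_left (cardG_pos (zpowers x)) ?_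
    rw [card_mul_relIndex hxS, hc, hz, ← pow_succ]
    exact pow_dvd_pow 2 (by omega)
  have : HasNormalPComplement 2 G := by
    by_contra h
    obtain ⟨Q, q, k, g, h1, hq, h2, h4, h5, h6⟩ := Transfer.exists_prime_pow_not_centralizer P h
    have hQ := IsPGroup.sub hS.pg h1
    obtain ⟨c, e⟩ := cyclicP.1 (cyclicS (inf_le_left : zpowers x ⊓ Q ≤ _) (cyclicP.2 ⟨x, rfl⟩))
    have h7 : (Phi Q).relIndex Q ∣ 2 ^ 2 := by
      refine Nat.dvd_of_mul_dvd_mul_left (cardG_pos (Phi Q)) ?_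
      rw [card_mul_relIndex (Phi_sub Q), ← card_inf_mul_relIndex (zpowers x) Q, ← e, sq, ← mul_assoc, Nat.card_zpowers]
      refine mul_dvd_mul (orderOf_dvd_of_pow_eq_one ?_)
        ((relIndex_dvd_of_norm (p_index_normal hS.pg hxS hi).norm h1).trans hi)
      rw [mul_comm, pow_mul, ← orderOf_dvd_iff_pow_eq_one]
      exact orderOf_dvd_cardG (pow_mem_Phi hQ (e.le (mem_zpowers c)).2)
    obtain ⟨b, b1, b2, h8⟩ := exists_dvd_pow_sub_one_Phi hQ h7 hq h2 h4 h5 h6
    obtain rfl : q = 3 := by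
      obtain rfl | rfl : b = 1 ∨ b = 2 := by omega
      · exact absurd (Nat.dvd_one.1 h8) hq.ne_one
      · exact (Nat.prime_dvd_prime_iff_eq hq Nat.prime_three).1 h8
    obtain ⟨j, -, hj⟩ := (Nat.dvd_prime_pow hq).1 (orderOf_dvd_of_pow_eq_one h4)
    have h9 : 3 ∣ 2 ^ a * n := hG ▸ .trans (hj ▸ dvd_pow_self 3 fun e => h6 (by
      rw [e, pow_zero, orderOf_eq_one_iff] at hj; exact hj ▸ one_mem _)) (orderOf_dvd_natCard g)
    exact h3 ((Nat.Coprime.pow_right a (by norm_num)).dvd_of_dvd_mul_left h9)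
  obtain ⟨N, h1, h2⟩ := (Transfer.hasNormalPComplement_iff_sylow P).1 this
  refine ⟨N, h1, Nat.eq_of_mul_eq_mul_right (Nat.two_pow_pos a) ?_⟩
  rw [← hc, h2.card_mul_card, hG, hc, mul_comm]

end Cfsg.Agent.S3971
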