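import Cfsg.Statements.S3972
import Cfsg.Agent.Perm.BGroup

set_option autoImplicit false
open Cfsg

namespace Cfsg.Agent.S3972

open MulAction

/-- Let `p` be a prime, `m ≥ 2`, and `G` a transitive but not doubly transitive permutation group on `p ^ m` points containing a permutation of order `p ^ m` (necessarily a full cycle). Then `G` is imprimitive, and the normal closure in `G` of the `p ^ (m - 1)`-th power of that permutation is an intransitive normal subgroup. -/
theorem result {Ω : Type*} [Fintype Ω] [DecidableEq Ω] (p m : ℕ) (hp : p.Prime) (hm : 2 ≤ m) (hΩ : Fintype.card Ω = p ^ m) (G : Subgroup (Equiv.Perm Ω)) (htr : MulAction.IsPretransitive G Ω) (h2 : ¬ MulAction.IsMultiplyPretransitive G Ω 2) (g : G) (hg : orderOf g = p ^ m) : ¬ MulAction.IsPreprimitive G Ω ∧ ¬ MulAction.IsPretransitive (Subgroup.normalClosure ({g ^ (p ^ (m - 1))} : Set G)) Ω := by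
  haveI := Fact.mk hp
  let C := Subgroup.zpowers g
  have hC : Nat.card C = p ^ m := by rw [Nat.card_zpowers, hg]
  obtain ⟨m, rfl⟩ : ∃ k, m = k + 1 := ⟨m - 1, by omega⟩
  rw [Nat.add_sub_cancel]
  let z : C := ⟨g ^ p ^ m, Subgroup.npow_mem_zpowers _ _⟩
  have hz : z ^ p = 1 := Subtype.ext (by
    change (g ^ p ^ m) ^ p = 1
    rw [← pow_mul, ← pow_succ, ← hg, pow_orderOf_eq_one])
  have hz1 : g ^ p ^ m ≠ 1 := pow_ne_one_of_lt_orderOf (pow_pos hp.pos _).ne'
    (by rw [hg]; exact Nat.pow_lt_pow_right hp.one_lt (by omega))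
  have key : ∀ k : C, k ≠ 1 → ∃ n : ℕ, k ^ n = z := fun k hk => by
    letI : CommGroup C := IsCyclic.commGroup
    have h1 := IsCyclic.card_powMonoidHom_ker C p
    rw [hC, Nat.gcd_eq_right (dvd_pow_self p (by omega))] at h1
    have h3 : p ∣ orderOf k := by
      obtain ⟨j, -, hj⟩ := (Nat.dvd_prime_pow hp).1 (hC ▸ orderOf_dvd_natCard k)
      rw [hj]
      exact dvd_pow_self p fun e => hk (orderOf_eq_one_iff.1 (by rw [hj, e, pow_zero]))
    have h4 := orderOf_pow_orderOf_div (orderOf_pos k).ne' h3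
    obtain ⟨n, hn⟩ := mem_powers_of_prime_card h1 (g := ⟨k ^ (orderOf k / p), by
      rw [MonoidHom.mem_ker, powMonoidHom_apply, ← orderOf_dvd_iff_pow_eq_one, h4]⟩) (g' := ⟨z, hz⟩)
      (fun e => hp.one_lt.ne' (by rw [← h4, orderOf_eq_one_iff]; exact congrArg Subtype.val e))
    exact ⟨orderOf k / p * n, by rw [pow_mul]; exact congrArg Subtype.val hn⟩
  obtain ⟨ω, hω⟩ : ∃ ω : Ω, (g ^ p ^ m) • ω ≠ ω := by
    by_contra hh
    push Not at hh
    exact hz1 (Subtype.ext (Equiv.ext hh))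
  have hb : Function.Bijective fun c : C => (c : G) • ω := by
    rw [Nat.bijective_iff_injective_and_card, hC, Nat.card_eq_fintype_card, hΩ]
    refine ⟨fun a b e => ?_, rfl⟩
    have h1 : a⁻¹ * b ∈ stabilizer C ω := by
      rw [mem_stabilizer_iff, mul_smul, inv_smul_eq_iff]; exact e.symm
    by_contra hab
    obtain ⟨n, hn⟩ := key (a⁻¹ * b) fun e => hab (inv_mul_eq_one.1 e)
    exact hω (hn ▸ pow_mem h1 n : z ∈ stabilizer C ω)
  obtain ⟨h3, N, hN, hN', k, hk, hkN⟩ := Perm.BGr.exists_normal C ω hb hp (hC ▸ dvd_pow_self p (by omega))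
    (by rw [hC]; exact (lt_self_pow₀ hp.one_lt (by omega)).ne') h2
  refine ⟨h3, fun ht => hN' ⟨fun a b => ?_⟩⟩
  obtain ⟨n, hn⟩ := key k hk
  have h4 : Subgroup.normalClosure {g ^ p ^ m} ≤ N := Subgroup.normalClosure_le_normal (by
    rintro _ rfl
    have e : (k : G) ^ n = g ^ p ^ m := congrArg Subtype.val hn
    exact e ▸ pow_mem hkN n)
  obtain ⟨x, hx⟩ := ht.exists_smul_eq a b
  exact ⟨⟨x, h4 x.2⟩, hx⟩

end Cfsg.Agent.S3972
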