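import Cfsg.Statements.S3973
import Mathlib
import Cfsg.Agent.Schur.Transfer

set_option autoImplicit false
open Cfsg

namespace Cfsg.Agent.S3973

open Cfsg.Agent.Schur Subgroup Module

theorem rank_le_finrank {M A : Type*} [AddCommGroup M] [Module.Free ℤ M] [Module.Finite ℤ M]
    [CommGroup A] [Finite A] (θ : M →+ Additive A) (hθ : Function.Surjective θ) :
    Group.rank A ≤ finrank ℤ M := by
  classical
  let b := Module.finBasis ℤ M
  refine (Group.rank_le (S := Finset.univ.image fun i => (θ (b i)).toMul) (eq_top_iff.2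
    fun a _ => ?_)).trans (Finset.card_image_le.trans (by simp))
  obtain ⟨m, hm⟩ := hθ (Additive.ofMul a)
  rw [← toMul_ofMul a, ← hm, ← b.sum_repr m, map_sum, toMul_sum]
  exact prod_mem fun i _ => by
    rw [map_zsmul, toMul_zsmul]
    exact zpow_mem (subset_closure (by simp)) _

/-- If a finite group is presented by `n` generators and a finite set of `r` relators, then its Schur multiplier can be generated by `r - n` elements. In particular a finite group with a presentation having as many relators as generators has trivial Schur multiplier. -/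
theorem result (n : ℕ) (rels : Finset (FreeGroup (Fin n))) [Finite (PresentedGroup (rels : Set (FreeGroup (Fin n))))] {A : Type*} [CommGroup A] [Finite A] (hA : Cfsg.HasSchurMultiplier (PresentedGroup (rels : Set (FreeGroup (Fin n)))) A) : Group.rank A ≤ rels.card - n := by
  classical
  let π := PresentedGroup.mk (rels : Set (FreeGroup (Fin n)))
  obtain ⟨e⟩ := (hasSchurMultiplier_iff_hopf (π := π) (PresentedGroup.mk_surjective _) A).1 hA
  let _ := kerCommGroup π
  let φ : (rels → ℤ) →ₗ[ℤ] Additive (proj π).ker := Fintype.linearCombination ℤ fun r =>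
    Additive.ofMul ⟨(r.1 : Ext π), PresentedGroup.one_of_mem r.2⟩
  have hφ : Function.Surjective φ := fun ⟨x, hx⟩ => by
    obtain ⟨x, rfl⟩ := QuotientGroup.mk_surjective x
    let H := (φ.toAddMonoidHom.range.toSubgroup').map (proj π).ker.subtype
    have : H.Normal := normal_of_le_center ((map_subtype_le _).trans (proj_central π))
    obtain ⟨y, ⟨v, hv⟩, hy⟩ := normalClosure_le_normal (N := H.comap (QuotientGroup.mk' _))
      (fun r hr => ⟨_, ⟨Pi.single ⟨r, hr⟩ 1, by simp [φ]; rfl⟩, rfl⟩)
      (PresentedGroup.mk_eq_one_iff.1 hx)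
    exact ⟨v, hv.trans (congrArg Additive.ofMul (Subtype.ext hy))⟩
  let α : FreeGroup (Fin n) →* Multiplicative (Fin n → ℤ) :=
    FreeGroup.lift fun i => Multiplicative.ofAdd (Pi.single i 1)
  let β : Ext π →* Multiplicative (Fin n → ℤ) := QuotientGroup.lift _ α
    ((commutator_mono le_top le_top).trans (Abelianization.commutator_subset_ker α))
  let ψ := ((β.comp (proj π).ker.subtype).toAdditiveLeft.toIntLinearMap).comp φ
  have h1 := (LinearMap.range ψ).finrank_quotient_add_finrank
  have h2 := (LinearMap.ker ψ).finrank_quotient_add_finrank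
  rw [ψ.quotKerEquivRange.finrank_eq] at h2
  rw [Module.finrank_eq_zero_iff_isTorsion.2 fun v => ?_] at h1
  swap
  · obtain ⟨v, rfl⟩ := Submodule.Quotient.mk_surjective _ v
    refine ⟨⟨(Nat.card (PresentedGroup (rels : Set (FreeGroup (Fin n)))) : ℤ),
      mem_nonZeroDivisors_of_ne_zero (by simpa using Nat.card_pos.ne')⟩, ?_⟩
    rw [Submonoid.mk_smul, ← Submodule.Quotient.mk_smul, Submodule.Quotient.mk_eq_zero,
      ← Finset.univ_sum_single v, Finset.smul_sum]
    refine sum_mem fun i _ => ?_
    obtain ⟨w, hw⟩ := hφ (Additive.ofMul ⟨((FreeGroup.of i ^ _ : FreeGroup _) : Ext π),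
      (map_pow π _ _).trans pow_card_eq_one'⟩)
    exact ⟨v i • w, by rw [map_smul]; ext j; simp [ψ, hw, β, α, Pi.single_apply, mul_comm]⟩
  let K := (AddSubgroup.toIntSubmodule ((mul (proj π)).subgroupOf (proj π).ker).toAddSubgroup).comap φ
  have h3 := rank_le_finrank (A := A) (M := K) (AddMonoidHom.mk'
    (fun v => Additive.ofMul (e.symm ⟨(φ v).toMul, v.2⟩)) fun v w => by
      rw [← ofMul_mul, ← map_mul]; congr; simp) fun a => by
    obtain ⟨v, hv⟩ := hφ (Additive.ofMul ⟨e a.toMul, (e a.toMul).2.1⟩)
    exact ⟨⟨v, Submodule.mem_comap.2 (hv ▸ (e a.toMul).2)⟩, by simp [hv]⟩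
  have h4 := Submodule.finrank_mono (show K ≤ LinearMap.ker ψ from fun v hv =>
    Abelianization.commutator_subset_ker β hv.2)
  simp at h1 h2
  omega

end Cfsg.Agent.S3973
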