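import Cfsg.Statements.S3976
import Cfsg.Agent.FG.Count

set_option autoImplicit false
open Cfsg

namespace Cfsg.Agent.S3976

open Cfsg.Agent.BG Cfsg.Agent.FG Subgroup

/-- Let `p` be a prime and `G` a group of order `p ^ m`. For every `s ≤ m` the number of normal subgroups of `G` of order `p ^ s` is congruent to `1` modulo `p`. -/
theorem result {G : Type*} [Group G] [Finite G] (p m s : ℕ) (hp : p.Prime) (hG : Nat.card G = p ^ m) (hs : s ≤ m) : Nat.card {H : Subgroup G // H.Normal ∧ Nat.card H = p ^ s} ≡ 1 [MOD p] := by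
  haveI := Fact.mk hp
  letI : MulAction G {H : Subgroup G // #H = p ^ s} :=
    { smul := fun g H => ⟨cj g H, (card_cj g _).trans H.2⟩
      one_smul := fun H => Subtype.ext (cj_one _)
      mul_smul := fun g h H => Subtype.ext (cj_mul g h _) }
  have h := (IsPGroup.of_card hG).card_modEq_card_fixedPoints {H : Subgroup G // #H = p ^ s}
  refine Nat.ModEq.trans ?_ (h.symm.trans (card_subgroups_modEq_one (hG ▸ pow_dvd_pow p hs)))
  rw [Nat.card_congr (α := {H : Subgroup G // H.Normal ∧ #H = p ^ s})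
    (β := MulAction.fixedPoints G {H : Subgroup G // #H = p ^ s})
    ⟨fun H => ⟨⟨H.1, H.2.2⟩, fun g => Subtype.ext ((normal_top_iff.2 H.2.1).cj_eq (mem_top g))⟩,
      fun H => ⟨H.1.1, normal_top_iff.1 ⟨le_top, fun g _ => mem_norm.2 (congrArg Subtype.val (H.2 g))⟩, H.1.2⟩,
      fun _ => rfl, fun _ => rfl⟩]

end Cfsg.Agent.S3976
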