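import Cfsg.Statements.S3977
import Cfsg.Agent.FG.Count
import Cfsg.Agent.PGrp.Cyclic
import Cfsg.Agent.Invol.Dihedral

set_option autoImplicit false
open Cfsg

namespace Cfsg.Agent.S3977

open Cfsg.Agent.BG Cfsg.Agent.FG Subgroup

/-- Let `p` be a prime and `G` a group of order `p ^ m` which has exactly one subgroup of order `p ^ s`, where `1 ≤ s < m`, and where `s ≥ 2` if `p = 2`. Then `G` is cyclic. (For `p = 2` and `s = 1` the generalized quaternion groups also occur; that case is the classical criterion for a unique involution.) -/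
theorem result {G : Type*} [Group G] [Finite G] (p m s : ℕ) (hp : p.Prime) (hG : Nat.card G = p ^ m) (hs : 1 ≤ s) (hsm : s < m) (h2 : p ≠ 2 ∨ 2 ≤ s) (huniq : ∀ H K : Subgroup G, Nat.card H = p ^ s → Nat.card K = p ^ s → H = K) : IsCyclic G := by
  haveI := Fact.mk hp
  have hP := IsPGroup.of_card hG
  have hp' : ∀ A : Subgroup G, IsPGroup p A := hP.to_subgroup
  obtain ⟨T, -, hT⟩ := BG4.sub_pgroup_card (k := s + 1) (hp' ⊤) (by rw [card_top, hG]; exact Nat.pow_le_pow_right hp.pos hsm)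
  obtain ⟨U, hUT, hU⟩ := BG4.sub_pgroup_card (k := s) (hp' T) (hT ▸ Nat.pow_le_pow_right hp.pos s.le_succ)
  have hbig : ∀ A : Subgroup G, p ^ s ≤ #A → U ≤ A := fun A hA => by
    obtain ⟨V, hV, e⟩ := BG4.sub_pgroup_card (hp' A) hA
    exact huniq V U e hU ▸ hV
  have hsmall : ∀ A : Subgroup G, #A ≤ p ^ s → A ≤ U := fun A hA => by
    obtain ⟨k, hk⟩ := BG4.card_pgroup (hp' A)
    obtain ⟨V, e, hV⟩ := Sylow.exists_subgroup_card_pow_prime_le p (m := s) (hG ▸ pow_dvd_pow p hsm.le) A hk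
      ((Nat.pow_le_pow_iff_right hp.one_lt).1 (hk ▸ hA))
    exact huniq V U e hU ▸ hV
  obtain ⟨x, hx, hxU⟩ := SetLike.exists_of_lt (lt_of_card_lt hUT (by rw [hT, hU]; exact Nat.pow_lt_pow_right hp.one_lt s.lt_succ_self))
  have hc : IsCyclic U := cyclicS (hbig _ (le_of_not_ge fun h => hxU (hsmall _ h (mem_zpowers x))))
    (cyclicP.2 ⟨x, rfl⟩)
  have h1 : ∀ A : Subgroup G, #A = p → A ≤ U := fun A hA => hsmall A (hA.trans_le (Nat.le_self_pow (by omega) p))
  rcases PGrp.isCyclic_or_quaternion hP fun H K hH hK => eq_subG_cyclic hc (h1 H hH) (h1 K hK) (hH.trans hK.symm) with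
    h | ⟨rfl, n, hn, ⟨e⟩⟩
  · exact h
  exfalso
  obtain ⟨t, r, h3, h4, h5, h6, -⟩ := Invol.exists_of_equiv_quaternion (topEquiv.trans e)
  have h7 : m = n + 2 := by
    haveI : NeZero (2 ^ n) := ⟨by positivity⟩
    have := Nat.card_congr e.toEquiv
    rw [hG, Nat.card_eq_fintype_card, QuaternionGroup.card] at this
    exact Nat.pow_right_injective le_rfl (this.trans (by ring))
  refine h6 (hbig _ ?_ (hsmall (zpowers t) ?_ (mem_zpowers t)))
  · rw [Nat.card_zpowers, h5, ← pow_succ']; exact Nat.pow_le_pow_right two_pos (by omega)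
  · rw [Nat.card_zpowers]
    refine (orderOf_le_of_pow_eq_one (n := 2 ^ 2) (by norm_num) ?_).trans (Nat.pow_le_pow_right two_pos (by simpa using h2))
    rw [sq, pow_mul, sq t, h3, ← pow_mul, mul_comm, ← h5, pow_orderOf_eq_one]

end Cfsg.Agent.S3977
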