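import Cfsg.Statements.S3978
import Cfsg.Agent.Schur.Proj
import Cfsg.Agent.S3955

set_option autoImplicit false
open Cfsg

namespace Cfsg.Agent.S3978

open Subgroup Function Cfsg.Agent.Schur

/-- A finite group `Q` has trivial Schur multiplier if and only if, for every `n`, every homomorphism from `Q` to the projective general linear group (the quotient of `GL n ℂ` by its centre) lifts to a homomorphism into `GL n ℂ`. -/
theorem result {Q : Type*} [Group Q] [Finite Q] : Cfsg.HasCyclicSchurMultiplier Q 1 ↔ ∀ (n : ℕ) (γ : Q →* (GL (Fin n) ℂ ⧸ Subgroup.center (GL (Fin n) ℂ))), ∃ ρ : Q →* GL (Fin n) ℂ, (QuotientGroup.mk' (Subgroup.center (GL (Fin n) ℂ))).comp ρ = γ := by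
  constructor
  · intro h n γ
    exact Cfsg.Agent.S3955.result h (MonoidHom.id Q) (isStem_id Q)
      ⟨by rw [MonoidHom.ker_id]; exact MulEquiv.ofUnique⟩ n γ
  · intro h
    rw [hasCyclicSchurMultiplier_one_iff]
    intro Γ _ _ σ hσ
    have hπ := stdPres_surjective Q
    obtain ⟨f, hf⟩ := exists_surj_ker_of_inf_eq_bot hπ (isStem_id Q) (φ := proj (stdPres Q)) rfl
      (ker_inf_commutator_of_lifts (σ := MonoidHom.id Q) hπ rfl h) hσ
    have : Subsingleton (MonoidHom.id Q).ker := by rw [MonoidHom.ker_id]; infer_instance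
    have : Subsingleton σ.ker := hf.subsingleton
    exact eq_bot_of_subsingleton _

end Cfsg.Agent.S3978
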