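import Cfsg.Statements.S3980
import Cfsg.Agent.Schur.Prod

set_option autoImplicit false
universe u v w
open Cfsg

namespace Cfsg.Agent.S3980

/-- Let `Q₁` and `Q₂` be finite groups whose commutator quotients have coprime orders, with Schur multipliers `A` and `B`. Then the Schur multiplier of `Q₁ × Q₂` is isomorphic to `A × B`. -/
theorem result {Q₁ : Type u} {Q₂ : Type v} [Group Q₁] [Group Q₂] [Finite Q₁] [Finite Q₂] {A B : Type w} [CommGroup A] [CommGroup B] (hA : Cfsg.HasSchurMultiplier Q₁ A) (hB : Cfsg.HasSchurMultiplier Q₂ B) (hcop : Nat.Coprime (Nat.card (Abelianization Q₁)) (Nat.card (Abelianization Q₂))) : Cfsg.HasSchurMultiplier (Q₁ × Q₂) (A × B) := by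
  have h (t : Schur.Tens Q₁ Q₂) : t = 1 := Schur.tens_ind (H := ⊥) (fun x y => by
    refine orderOf_eq_one_iff.1 (Nat.eq_one_of_dvd_coprimes hcop ?_ ?_)
    · exact (orderOf_map_dvd (Abelianization.lift ((Schur.tens Q₁ Q₂).flip y))
        (Abelianization.of x)).trans (orderOf_dvd_natCard _)
    · exact (orderOf_map_dvd (Abelianization.lift (Schur.tens Q₁ Q₂ x))
        (Abelianization.of y)).trans (orderOf_dvd_natCard _)) t
  have : Unique (Schur.Tens Q₁ Q₂) := ⟨⟨1⟩, h⟩
  exact Schur.hasSchurMultiplier_congr_right (Schur.hasSchurMultiplier_prod hA hB)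
    ((MulEquiv.refl A).prodCongr MulEquiv.prodUnique)

end Cfsg.Agent.S3980
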