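import Cfsg.Statements.S3994
import Cfsg.Agent.FG.Count

set_option autoImplicit false
open Cfsg

namespace Cfsg.Agent.S3994

open Cfsg.Agent.BG Cfsg.Agent.FG Subgroup

/-- Let G be a finite group and n a positive integer. The number of elements of G whose order is divisible by n is either 0 or divisible by the largest divisor of the order of G that is coprime to n. -/
theorem result {G : Type*} [Group G] [Finite G] (n : ℕ) (hn : 0 < n) :
    Nat.card {g : G // n ∣ orderOf g} = 0 ∨
      (Nat.card G / Nat.gcd (Nat.card G) (n ^ Nat.card G)) ∣ Nat.card {g : G // n ∣ orderOf g} := by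
  right
  refine (Nat.dvd_iff_prime_pow_dvd_dvd _ _).2 fun p k hp hk => ?_
  rcases k with _ | k
  · simp
  haveI := Fact.mk hp
  have hG : Nat.card G ≠ 0 := Nat.card_pos.ne'
  have hpn : ¬ p ∣ n := fun hd => by
    have h1 : p ^ (Nat.card G).factorization p ∣ Nat.gcd (Nat.card G) (n ^ Nat.card G) :=
      Nat.dvd_gcd (Nat.ordProj_dvd _ _) ((pow_dvd_pow p (Nat.factorization_lt p hG).le).trans (pow_dvd_pow_of_dvd hd _))
    have h2 := mul_dvd_mul h1 ((dvd_pow_self p k.succ_ne_zero).trans hk)
    rw [Nat.mul_div_cancel' (Nat.gcd_dvd_left _ _), ← pow_succ] at h2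
    exact Nat.pow_succ_factorization_not_dvd hG hp h2
  obtain ⟨H, hH⟩ := Sylow.exists_subgroup_card_pow_prime p (hk.trans (Nat.div_dvd_of_dvd (Nat.gcd_dvd_left _ _)))
  rw [← hH]
  refine card_dvd_of_brauer H {g | n ∣ orderOf g} (fun h _ x hx => by simpa [orderOf_conj'] using hx)
    fun x hx U hU hxU u hu => ?_
  have h1 := Invol.orderOf_of_isConj (isConj_mul_pow_card (IsPGroup.sub (pgroup_of_card hH) hU) hxU hu)
  have h2 : n.Coprime #U := Nat.Coprime.coprime_dvd_right (cardSg hU)
    (hH ▸ ((Nat.Prime.coprime_iff_not_dvd hp).2 hpn).symm.pow_right _)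
  refine (h2.dvd_of_dvd_mul_left (hx.trans (orderOf_dvd_of_pow_eq_one (n := #U * orderOf (x ^ #U)) ?_))).trans
    (h1 ▸ orderOf_pow_dvd _)
  rw [pow_mul, pow_orderOf_eq_one]

end Cfsg.Agent.S3994
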