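import Cfsg.Statements.S3995
import Cfsg.Agent.FG.SameOrder
import Cfsg.Agent.PGrp.Cyclic
import Cfsg.Agent.Invol.Dihedral
import Cfsg.Agent.FG.Compl
import Mathlib.Algebra.Group.Shrink

set_option autoImplicit false
open Cfsg

namespace Cfsg.Agent.S3995

open Cfsg.Agent.BG Cfsg.Agent.FG Subgroup

/-- Let G be a finite group such that the numbers of elements of each order that occurs in G (the numbers #{g : o(g) = m}, m ranging over the element orders of G) take exactly two values, 1 and some n ≠ 1. Then either G is a p-group of exponent p and order at least 3 for some prime p, or G is the quaternion group of order 8, or G is cyclic of order 4, or G ≅ Z₂ × P for a p-group P of exponent p with p an odd prime. -/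
theorem result {G : Type*} [Group G] [Finite G] (n : ℕ) (hn : n ≠ 1) (h : ((fun m : ℕ => Nat.card {g : G // orderOf g = m}) '' Set.range (orderOf : G → ℕ)) = {1, n}) :
    (∃ p : ℕ, p.Prime ∧ IsPGroup p G ∧ 3 ≤ Nat.card G ∧ Monoid.exponent G = p) ∨
      Nonempty (G ≃* QuaternionGroup 2) ∨ (IsCyclic G ∧ Nat.card G = 4) ∨
      (∃ (p : ℕ) (P : Type) (_ : Group P) (_ : Finite P), p.Prime ∧ p ≠ 2 ∧ IsPGroup p P ∧ Monoid.exponent P = p ∧
        Nonempty (G ≃* Multiplicative (ZMod 2) × P)) := by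
  have h1 : ∀ m, so G m = 0 ∨ so G m = 1 ∨ so G m = n := fun m => or_iff_not_imp_left.2 fun h2 =>
    h.le ⟨m, so_ne_zero.1 h2, rfl⟩
  obtain ⟨_, ⟨x, rfl⟩, hx : so G (orderOf x) = n⟩ := h.ge (.inr rfl)
  have h0 : n ≠ 0 := hx ▸ so_ne_zero.2 ⟨x, rfl⟩
  have x1 : x ≠ 1 := fun e => hn (by rw [← hx, e, orderOf_one, so_one])
  haveI : Nontrivial G := ⟨x, 1, x1⟩
  have h2 : SoIn G n n := fun m hm => (h1 m).imp_right (·.imp_left fun e => by have := two_dvd_so (G := G) hm; omega)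
  have h3 : ∀ p : ℕ, p.Prime → p ≠ 2 → p ∣ Nat.card G → so G p = n ∧ (∀ m, ¬ p ∣ m → so G m ≠ n) ∧ so G (p ^ 2) = 0 :=
    fun p hp p2 h3 => by
      have p2 := hp.two_le.lt_of_ne' p2
      have e := ((h2 p p2).resolve_left (so_ne_zero_of_prime hp h3)).elim id id
      refine ⟨e, fun m hm e' => ?_, (h2 _ (by nlinarith)).resolve_right fun e' =>
        (not_dvd_of_dvd_one_add hp p2 (e ▸ dvd_so_one_add hp h3)).1 (e'.elim id id ▸ dvd_so_sq hp)⟩
      obtain ⟨-, h4, -, -, h5⟩ := h2.of_eq hp p2 h3 hm e e'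
      exact h5 h4
  have h4 : ∀ p : ℕ, p.Prime → p ≠ 2 → p ∣ Nat.card G → ∀ A : Subgroup G, PiGrp {2}ᶜ A → p ∣ #A →
      IsPGroup p A ∧ Monoid.exponent A = p := fun p hp p2 h4 A hA h5 => by
    haveI := Fact.mk hp
    have h6 : PiGrp {p} A := hA.mono' fun q hq h6 h7 => by_contra fun e => (h3 p hp p2 h4).2.1 q
      (mt (Nat.prime_dvd_prime_iff_eq hp hq).1 (Ne.symm e)) (h3 q hq h7 (h6.trans (card_subgroup_dvd_card A))).1
    obtain ⟨y, hy, e⟩ := Cauchy hp h5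
    exact ⟨PiNat.pg h6, Nat.dvd_antisymm (exponentP.2 fun y hy => pow_eq_one_of_so_sq (h3 p hp p2 h4).2.2 (mem_p_elt h6 hy))
      (e ▸ dvdn_exponent hy)⟩
  obtain h5 | h5 | h5 := h1 2
  · obtain ⟨p, hp, h6⟩ := Nat.exists_prime_and_dvd (Finite.one_lt_card (α := G)).ne'
    have h7 : ¬ 2 ∣ Nat.card G := fun e => so_ne_zero_of_prime Nat.prime_two e h5
    have p2 : p ≠ 2 := fun e => h7 (e ▸ h6)
    obtain ⟨h8, h9⟩ := h4 p hp p2 h6 ⊤ ((p'natE Nat.prime_two).2 (card_top (G := G) ▸ h7)) (card_top (G := G) ▸ h6)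
    exact .inl ⟨p, hp, h8.of_equiv topEquiv, (hp.two_le.lt_of_ne' p2).trans_le (Nat.le_of_dvd Nat.card_pos h6),
      exponent_top.symm.trans h9⟩
  swap
  · have h6 : 2 ∣ 1 + n := h5 ▸ dvd_so_one_add Nat.prime_two (by
      obtain ⟨y, e⟩ := so_ne_zero.1 (h5.trans_ne h0); exact e ▸ orderOf_dvd_natCard y)
    have h7 : ∀ g : G, g ≠ 1 → orderOf g = 2 := fun g hg => by
      by_contra e
      have h7 : 2 < orderOf g := by have := orderOf_pos g; have := mt orderOf_eq_one_iff.1 hg; omega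
      have := two_dvd_so (G := G) h7
      have := (h2 _ h7).resolve_left (so_ne_zero.2 ⟨g, rfl⟩)
      omega
    have h8 := (Monoid.exponent_eq_prime_iff Nat.prime_two).2 h7
    refine .inl ⟨2, Nat.prime_two, fun g => ⟨1, by rw [pow_one, ← h8, Monoid.pow_exponent_eq_one]⟩, ?_, h8⟩
    have : so G 2 < Nat.card G := Finite.card_subtype_lt (x := 1) (by simp)
    omega
  obtain ⟨z, hz⟩ := so_ne_zero.1 (h5.trans_ne one_ne_zero)
  have h6 : 2 ∣ Nat.card G := hz ▸ orderOf_dvd_natCard z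
  have h7 : ∀ y : G, orderOf y = 2 → y = z := fun y hy =>
    congrArg Subtype.val ((Nat.card_eq_one_iff_unique.1 h5).1.elim ⟨y, hy⟩ ⟨z, hz⟩)
  by_cases h8 : ∃ p : ℕ, p.Prime ∧ p ≠ 2 ∧ p ∣ Nat.card G
  · obtain ⟨p, hp, p2, h8⟩ := h8
    have h9 : so G (2 ^ 2) = 0 := (h2 4 (by norm_num)).resolve_right fun e => (h3 p hp p2 h8).2.1 4
      (fun e => p2 ((Nat.prime_dvd_prime_iff_eq hp Nat.prime_two).1 (hp.dvd_of_dvd_pow (n := 2) e))) (e.elim id id)
    have hc : #(zpowers z) = 2 := (Nat.card_zpowers z).trans hz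
    have hS : SylowIn 2 (zpowers z) ⊤ := pHall_of_card le_top (by
      have h10 := (ordProj_dvd_of_so_sq h9).resolve_right (not_not.2 h6)
      rw [p_part Nat.prime_two (cardG_ne_zero _), card_top, hc]
      exact Nat.dvd_antisymm (dvd_pow_self 2 (Nat.prime_two.factorization_pos_of_dvd Nat.card_pos.ne' h6).ne') (h5 ▸ h10 :))
    have h10 := cyclic_pdiv_normal_complement hS (fun q hq _ => hq.two_le) inferInstance
    obtain ⟨h11, h12⟩ := h4 p hp p2 h8 _ (pcore_pgroup _ ⊤) (Hall_dvd (Sdprod.pHall_Op' h10 hS.pg) hp p2 (card_top (G := G) ▸ h8))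
    obtain ⟨e⟩ := Dprod.isog (K := zpowers z) ⟨(sup_comm _ _).trans h10.sup, C_zpowers z ▸ fun g _ => mem_cent1.2
      (mul_inv_eq_iff_eq_mul.1 (h7 _ ((orderOf_conj' g z).trans hz))), (inf_comm _ _).trans h10.inf⟩
    let f : Shrink.{0} (Op' 2 (⊤ : Subgroup G)) ≃* Op' 2 (⊤ : Subgroup G) := Shrink.mulEquiv
    exact .inr (.inr (.inr ⟨p, Shrink.{0} (Op' 2 (⊤ : Subgroup G)), inferInstance, .of_equiv _ f.symm.toEquiv, hp, p2,
      h11.of_equiv f.symm, (Monoid.exponent_eq_of_mulEquiv f).trans h12, ⟨(e.trans topEquiv).symm.trans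
        ((mulEquivOfPrimeCardEq hc (by simp)).prodCongr f.symm)⟩⟩))
  have h9 : PiGrp {2} (⊤ : Subgroup G) := fun p hp h9 => by_contra fun e => h8 ⟨p, hp, e, card_top (G := G) ▸ h9⟩
  have h10 : IsPGroup 2 G := (PiNat.pg h9).of_equiv topEquiv
  obtain ⟨y, -, hy⟩ : ∃ y ∈ zpowers x, orderOf y = 4 := exists_orderOf_of_dvd <| by
    obtain ⟨k, hk⟩ := exists_pow_of_piElt (mem_p_elt h9 (mem_top x))
    rcases k with _ | _ | k
    exacts [absurd (orderOf_eq_one_iff.1 hk) x1, absurd (h5.symm.trans (hk ▸ hx :)).symm hn, hk ▸ ⟨2 ^ k, by ring⟩]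
  have h11 := four_dvd_two_add (hy ▸ orderOf_dvd_natCard y) h5
  have h12 : ∀ g : G, orderOf g ∣ 4 := fun g => by
    obtain ⟨k, hk⟩ := exists_pow_of_piElt (mem_p_elt h9 (mem_top g))
    refine hk ▸ pow_dvd_pow 2 (show k ≤ 2 from le_of_not_gt fun h => ?_)
    obtain ⟨w, -, hw⟩ := exists_orderOf_of_dvd (hk ▸ pow_dvd_pow 2 h : 2 ^ 3 ∣ orderOf g)
    have h12 : 4 ∣ so G 8 := totient_dvd_so G 8
    have := (h2 8 (by norm_num)).resolve_left (so_ne_zero.2 ⟨w, hw⟩)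
    have := (h2 4 (by norm_num)).resolve_left (so_ne_zero.2 ⟨y, hy⟩)
    omega
  have h13 : ∀ H : Subgroup G, #H = 2 → H = zpowers z := fun H hH => by
    obtain ⟨w, rfl⟩ := cyclicP.1 (prime_cyclic (hH ▸ Nat.prime_two))
    rw [h7 w ((Nat.card_zpowers w).symm.trans hH)]
  obtain h14 | ⟨-, m, hm, ⟨e⟩⟩ := PGrp.isCyclic_or_quaternion h10 fun H K hH hK => (h13 H hH).trans (h13 K hK).symm
  · exact .inr (.inr (.inl ⟨h14, Nat.dvd_antisymm (IsCyclic.exponent_eq_card (α := G) ▸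
      Monoid.exponent_dvd.2 h12) (hy ▸ orderOf_dvd_natCard y)⟩))
  obtain ⟨t, r, -, -, h14, -⟩ := Invol.exists_of_equiv_quaternion (topEquiv.trans e)
  obtain rfl : m = 1 := le_antisymm ((Nat.pow_le_pow_iff_right one_lt_two).1
    (by have := Nat.le_of_dvd four_pos (h12 r); omega)) hm
  exact .inr (.inl ⟨e⟩)

end Cfsg.Agent.S3995
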