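import Cfsg.Statements.S3996
import Cfsg.Agent.FG.SameOrder
import Cfsg.Agent.S0205
import Cfsg.Agent.BG.S1

set_option autoImplicit false
open Cfsg

namespace Cfsg.Agent.S3996

open Cfsg.Agent.BG Cfsg.Agent.FG Subgroup

theorem aux {G : Type*} [Group G] [Finite G] {a b p q : ℕ} (h : SoIn G a b) (h2 : so G 2 = 1) (h4 : so G 4 = a) (h0 : a ≠ 0)
    (hp : p.Prime) (hq : q.Prime) (p2 : 2 < p) (q2 : 2 < q) (hpq : p ≠ q) (h5 : p ∣ Nat.card G) (h6 : q ∣ Nat.card G) : False := by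
  obtain ⟨x, hx⟩ := so_ne_zero.1 (h4.trans_ne h0)
  have h7 := h4 ▸ four_dvd_two_add (hx ▸ orderOf_dvd_natCard x) h2
  have h8 : ∀ m, 2 < m → 4 ∣ m.totient → so G m = 0 ∨ so G m = b := fun m h1 h2 => (h m h1).imp_right
    (·.resolve_left fun e => by have := h2.trans (totient_dvd_so G m); omega)
  have n4 : ∀ r : ℕ, r.Prime → 2 < r → ¬ r ∣ 4 := fun r hr r2 e =>
    r2.ne' ((Nat.prime_dvd_prime_iff_eq hr Nat.prime_two).1 (hr.dvd_of_dvd_pow (n := 2) e))
  have key : ∀ p q : ℕ, p.Prime → q.Prime → 2 < p → 2 < q → p ≠ q → p ∣ Nat.card G → q ∣ Nat.card G →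
      p ∣ so G q + so G (q * p) ∧ p ∣ so G (4 * q) + so G (4 * q * p) ∧ (so G (q * p) = 0 ∨ so G (q * p) = b) ∧
      (so G (4 * q * p) = 0 ∨ so G (4 * q * p) = b) := fun p q hp hq p2 q2 hpq h5 h6 => by
    have n := mt (Nat.prime_dvd_prime_iff_eq hp hq).1 hpq
    have h9 : 4 ∣ (q * p).totient := by
      rw [Nat.totient_mul ((Nat.coprime_primes hq hp).2 hpq.symm)]
      exact mul_dvd_mul (Nat.totient_even q2).two_dvd (Nat.totient_even p2).two_dvd
    exact ⟨dvd_so_add hp h5 n, dvd_so_add hp h5 fun e => ((Nat.Prime.dvd_mul hp).1 e).elim (n4 p hp p2) n,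
      h8 _ (by nlinarith) h9, h8 _ (by nlinarith) (h9.trans (Nat.totient_dvd_of_dvd (mul_assoc 4 q p ▸ dvd_mul_left _ _)))⟩
  have h9 : ∀ p q : ℕ, p.Prime → q.Prime → 2 < p → 2 < q → p ≠ q → p ∣ Nat.card G → q ∣ Nat.card G → so G p ≠ a :=
    fun p q hp hq p2 q2 hpq h5 h6 e => by
      obtain ⟨-, -, -, h9, h10⟩ := h.of_eq hp p2 h5 (n4 p hp p2) e h4
      obtain ⟨h11, h12, h13, h14⟩ := key p q hp hq p2 q2 hpq h5 h6
      obtain e' | e' := (h q q2).resolve_left (so_ne_zero_of_prime hq h6)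
      · rw [(h.of_eq hq q2 h6 (n4 q hq q2) e' h4).1] at h12
        exact h14.elim (fun e => h9 (by rwa [e] at h12)) fun e => h10 (e ▸ h12)
      · rw [e'] at h11
        exact h13.elim (fun e => h9 (by rwa [e] at h11)) fun e => h10 (e ▸ h11)
  have h10 := ((h p p2).resolve_left (so_ne_zero_of_prime hp h5)).resolve_left (h9 p q hp hq p2 q2 hpq h5 h6)
  have h11 := ((h q q2).resolve_left (so_ne_zero_of_prime hq h6)).resolve_left (h9 q p hq hp q2 p2 hpq.symm h6 h5)
  obtain ⟨h12, h13⟩ := not_dvd_of_dvd_one_add hp p2 (h10 ▸ dvd_so_one_add hp h5)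
  obtain ⟨h14, -, h15, -⟩ := key p q hp hq p2 q2 hpq h5 h6
  rw [h11] at h14
  exact h15.elim (fun e => h12 (by rwa [e] at h14)) fun e => h13 (e ▸ h14)

/-- A finite group in which the numbers of elements of each order that occurs (the numbers #{g : o(g) = m}, m ranging over the element orders) take exactly three different values is solvable. -/
theorem result {G : Type*} [Group G] [Finite G] (h : (((fun m : ℕ => Nat.card {g : G // orderOf g = m}) '' Set.range (orderOf : G → ℕ))).ncard = 3) : Group.IsSolvable G := by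
  by_contra hs
  obtain ⟨a, b, h1, h2⟩ := exists_soIn h
  have h3 : 2 ∣ Nat.card G := by_contra fun e => hs (S0205.result (Nat.odd_iff.2 (by omega)))
  obtain ⟨p, q, hp, hq, p2, q2, hpq, h4, h5⟩ : ∃ p q : ℕ, p.Prime ∧ q.Prime ∧ 2 < p ∧ 2 < q ∧ p ≠ q ∧ p ∣ Nat.card G ∧
      q ∣ Nat.card G := by
    by_contra! h4
    by_cases h5 : ∃ p : ℕ, p.Prime ∧ 2 < p ∧ p ∣ Nat.card G
    · obtain ⟨p, hp, p2, h5⟩ := h5
      exact hs (sol_of_two_primes Nat.prime_two hp fun r hr h6 => hr.two_le.eq_or_lt'.imp_right fun r2 =>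
        by_contra fun e => h4 r p hr hp r2 p2 e h6 h5)
    · exact hs (sol_of_two_primes Nat.prime_two Nat.prime_two fun r hr h6 =>
        .inl (hr.two_le.eq_or_lt'.resolve_right fun r2 => h5 ⟨r, hr, r2, h6⟩))
  have h6 := dvd_so_one_add Nat.prime_two h3
  have h7 : ∀ a b, SoIn G a b → so G 2 ≠ a := fun a b h1 e => by
    have h7 : SoIn G b b := fun m hm => (h1 m hm).imp_right (·.imp_left fun e' => by
      have := two_dvd_so (G := G) hm; omega)
    have h8 : ∀ r : ℕ, r.Prime → 2 < r → r ∣ Nat.card G → so G r = b := fun r hr r2 h8 =>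
      ((h7 r r2).resolve_left (so_ne_zero_of_prime hr h8)).elim id id
    obtain ⟨-, h9, -, -, h10⟩ := h7.of_eq hp p2 h4 (mt (Nat.prime_dvd_prime_iff_eq hp hq).1 hpq) (h8 p hp p2 h4) (h8 q hq q2 h5)
    exact h10 h9
  have h8 : so G 2 = 1 := by
    obtain e | e | e | e := h2
    exacts [by omega, e, absurd e (h7 a b h1), absurd e (h7 b a h1.symm)]
  by_cases h9 : so G 4 = 0
  · obtain ⟨S, hS⟩ := Sylow_exists 2 (⊤ : Subgroup G)
    have h10 := (ordProj_dvd_of_so_sq (p := 2) h9).resolve_right (not_not.2 h3)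
    rw [h8, ← card_top, ← card_Sylow hS] at h10
    have h11 := cyclic_pdiv_normal_complement hS (fun q hq _ => hq.two_le) (isCyclic_of_card_dvd_prime (p := 2) h10)
    exact hs (isog_sol (isog_symm isog_top) (series_sol h11.normal (S0205.result (pnat_odd.1 (pcore_pgroup _ _)))
      (isog_sol h11.isog (pgroup_sol hS.pg))))
  obtain e | e := (h1 4 (by norm_num)).resolve_left h9
  exacts [aux h1 h8 e (e ▸ h9) hp hq p2 q2 hpq h4 h5, aux h1.symm h8 e (e ▸ h9) hp hq p2 q2 hpq h4 h5]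

end Cfsg.Agent.S3996
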