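import Cfsg.Statements.S3999
import Cfsg.Agent.S0040
import Cfsg.Agent.S0042
import Cfsg.Agent.Gen.OrderType
import Cfsg.Agent.Solv.Fitting
import Cfsg.Agent.Frob.Basic
import Cfsg.Agent.S0035
import Cfsg.Agent.S0039
import Mathlib.GroupTheory.SchurZassenhaus

set_option autoImplicit false
open Cfsg

namespace Cfsg.Agent.S3999

open Subgroup Gen

theorem almostZ_of_sylow {H : Type*} [Group H] [Finite H]
    (h : ∀ (p : ℕ) [Fact p.Prime] (P : Sylow p H), IsCyclic P ∨ ∃ n : ℕ, Nonempty (P ≃* QuaternionGroup (2 ^ n))) :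
    AlmostZ H := fun p hp => by
  have := Fact.mk hp
  obtain ⟨P⟩ := (inferInstance : Nonempty (Sylow p H))
  obtain ⟨x, hx⟩ : ∃ x : P, Nat.card P ∣ 2 * orderOf x := by
    rcases h p P with h1 | ⟨n, ⟨e⟩⟩
    · obtain ⟨x, hx⟩ := isCyclic_iff_exists_orderOf_eq_natCard.1 h1
      exact ⟨x, hx ▸ dvd_mul_left _ _⟩
    · refine ⟨e.symm (QuaternionGroup.a 1), ?_⟩
      rw [MulEquiv.orderOf_eq, QuaternionGroup.orderOf_a_one, Nat.card_congr e.toEquiv, Nat.card_eq_fintype_card,
        QuaternionGroup.card]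
      exact ⟨1, by ring⟩
  refine ⟨x, ?_⟩
  rw [P.card_eq_multiplicity, orderOf_coe] at *
  exact (hp.pow_dvd_iff_le_factorization (mul_ne_zero two_ne_zero (orderOf_pos _).ne')).1 hx

theorem data {F : Type*} [Group F] [Finite F] {C : Subgroup F} (hC : IsFrobeniusComplement C) :
    ∃ (N : Subgroup F) (_ : N.Normal), Group.IsNilpotent N ∧ N ≠ ⊥ ∧ N ≠ ⊤ ∧
      IsPi (fun q => ¬ q ∣ Nat.card N) N.index ∧
      (∀ x : F, IsPi (· ∣ Nat.card N) (orderOf x) ∨ IsPi (fun q => ¬ q ∣ Nat.card N) (orderOf x)) ∧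
      AlmostZ (F ⧸ N) := by
  obtain ⟨N, h1, h2, h3⟩ := S0035.result C hC
  obtain ⟨N', h4, -, h5⟩ := Cfsg.Agent.S0042.result C hC
  obtain rfl : N' = N := SetLike.coe_injective (h4.trans h1.symm)
  have hb : N' ≠ ⊥ := by
    rintro rfl
    exact hC.2.1 (isComplement'_bot_left.1 h3)
  have hcop := Frob.coprime_card_index hC
  rw [h3.index_eq_card] at hcop
  have hi : IsPi (fun q => ¬ q ∣ Nat.card N') (Nat.card C) := fun q hq hd hd' =>
    hq.one_lt.ne' (Nat.eq_one_of_dvd_coprimes hcop hd hd')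
  refine ⟨N', h2, h5, hb, ?_, h3.symm.index_eq_card ▸ hi, fun x => ?_, ?_⟩
  · rintro rfl
    exact hC.1 (isComplement'_top_left.1 h3)
  · by_cases hx : x ∈ N'
    · exact Or.inl fun q _ hd => hd.trans (N'.orderOf_dvd_natCard hx)
    · rw [← SetLike.mem_coe, h1, Frob.mem_frobeniusKernel] at hx
      push Not at hx
      obtain ⟨-, g, hg⟩ := hx
      refine Or.inr (hi.of_dvd ?_)
      have := C.orderOf_dvd_natCard hg
      rwa [show orderOf (g⁻¹ * x * g) = orderOf x by simpa using (MulAut.conj g⁻¹).orderOf_eq x] at this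
  · have h6 := almostZ_of_sylow fun p _ P =>
      Cfsg.Agent.S0040.result N' C h3 hb ((S0039.result N' C h3 hb hC.1).1 hC) p P
    have e := h3.symm.QuotientMulEquiv
    intro p hp
    obtain ⟨x, hx⟩ := h6 p hp
    exact ⟨e.symm x, by rwa [MulEquiv.orderOf_eq, Nat.card_congr e.toEquiv]⟩

theorem transfer {F G : Type*} [Group F] [Finite F] [Group G] [Finite G] (e : F ≃ G)
    (he : ∀ g, orderOf (e g) = orderOf g) (N : Subgroup F) [N.Normal] [Group.IsNilpotent N]
    (hi : IsPi (fun q => ¬ q ∣ Nat.card N) N.index) :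
    ∃ (M : Subgroup G) (_ : M.Normal), Group.IsNilpotent M ∧ Nat.card M = Nat.card N ∧ M.index = N.index := by
  let S := {K : Subgroup G | K.Normal ∧ (IsPi (· ∣ Nat.card N) (Nat.card K) ∧ K ≤ fittingSubgroup G)}
  have h1 : IsPi (· ∣ Nat.card N) (Nat.card (sSup S : Subgroup G)) ∧ sSup S ≤ fittingSubgroup G :=
    Solv.sSup_normal_prop (fun K => IsPi (· ∣ Nat.card N) (Nat.card K) ∧ K ≤ fittingSubgroup G)
      ⟨by simpa using isPi_one _, bot_le⟩ fun H K _ _ hH hK =>
        ⟨(hH.1.mul hK.1).of_dvd (Solv.card_sup_dvd le_normalizer_of_normal), sup_le hH.2 hK.2⟩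
  have h2 : (sSup S).Normal := sSup_normal _ fun K hK => hK.1
  have h3 : IsPi (fun q => ¬ q ∣ Nat.card N) (sSup S).index := fun p hp hd hd' => by
    have := Fact.mk hp
    obtain ⟨Q⟩ := (inferInstance : Nonempty (Sylow p N))
    obtain ⟨P⟩ := (inferInstance : Nonempty (Sylow p G))
    have := Q.characteristic_of_normal inferInstance
    have h4 : CntHall (· = p) F := cntHall_of_normal ((Q : Subgroup N).map N.subtype)
      (by rw [card_map_of_injective N.subtype_injective]; exact isPi_card_sylow Q) (by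
        rw [index_map_subtype]
        exact ((isPi_ne_iff hp).2 Q.not_dvd_index).mul ((isPi_ne_iff hp).2 fun h => hi p hp h hd'))
    have h5 := (cntHall_eq_iff P).1 (h4.of_equiv e he)
    have h6 := P.isPGroup'.isNilpotent
    have h7 : (P : Subgroup G) ≤ sSup S :=
      le_sSup ⟨h5, (isPi_card_sylow P).mono fun q hq => hq ▸ hd', Solv.le_fitting⟩
    exact P.not_dvd_index (hd.trans (index_dvd_of_le h7))
  have h4 : Nat.card (sSup S : Subgroup G) * (sSup S).index = Nat.card N * N.index := by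
    rw [card_mul_index, card_mul_index, Nat.card_congr e]
  have h5 := isPi_unique h4 h1.1 h3 (fun _ _ h => h) hi
  exact ⟨sSup S, h2, Solv.isNilpotent_of_le_fitting h1.2, h5,
    Nat.eq_of_mul_eq_mul_left Nat.card_pos (h5 ▸ h4)⟩

theorem solv {F G : Type*} [Group F] [Finite F] [Group G] [Finite G] (e : F ≃ G)
    (he : ∀ g, orderOf (e g) = orderOf g) {C : Subgroup F} (hC : IsFrobeniusComplement C)
    (hs : Group.IsSolvable F) : Group.IsSolvable G := by
  obtain ⟨N, _, _, -, -, hi, -, hZ⟩ := data hC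
  obtain ⟨M, _, _, h1, h2⟩ := transfer e he N hi
  have h3 : Group.IsSolvable (G ⧸ M) := isSolvable_of_cntHall _ fun t ht => by
    have h4 : CntHall (fun q => t ≤ q ∨ q ∣ Nat.card N) (F ⧸ N) :=
      (cntHall_of_almostZ inferInstance hZ ht).congr fun q hq hd =>
        ⟨Or.inl, fun h => h.resolve_right (hi q hq hd)⟩
    have h5 := ((cntHall_quotient_iff N fun q _ h => Or.inr h).1 h4).of_equiv e he
    exact ((cntHall_quotient_iff M fun q _ h => Or.inr (h1 ▸ h)).2 h5).congr fun q hq hd =>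
      ⟨fun h => h.resolve_right (hi q hq (h2 ▸ hd)), Or.inl⟩
  exact Group.isSolvable_of_ker_le_range M.subtype (QuotientGroup.mk' M) (by simp)

/-- Let F be a finite Frobenius group (it has a Frobenius complement) and G a finite group with the same order type as F (for every m the same number of elements of order m). Then G is a Frobenius group; moreover G is solvable if and only if F is. -/
theorem result {F G : Type*} [Group F] [Finite F] [Group G] [Finite G] (hF : (∃ C : Subgroup F, Cfsg.IsFrobeniusComplement C)) (hT : (∀ m : ℕ, Nat.card {g : F // orderOf g = m} = Nat.card {h : G // orderOf h = m})) :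
    (∃ C : Subgroup G, Cfsg.IsFrobeniusComplement C) ∧ (Group.IsSolvable G ↔ Group.IsSolvable F) := by
  obtain ⟨C, hC⟩ := hF
  obtain ⟨e, he⟩ := exists_equiv_of_orderType hT
  obtain ⟨D, hD⟩ : ∃ D : Subgroup G, IsFrobeniusComplement D := by
    obtain ⟨N, _, _, hb, ht, hi, hx, -⟩ := data hC
    obtain ⟨M, _, _, h1, h2⟩ := transfer e he N hi
    have hM : IsPi (· ∣ Nat.card N) (Nat.card M) := fun _ _ h => h1 ▸ h
    obtain ⟨D, hD⟩ := exists_right_complement'_of_coprime (N := M) (hM.coprime (h2 ▸ hi))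
    have hD1 : IsPi (fun q => ¬ q ∣ Nat.card N) (Nat.card D) := by rwa [← hD.symm.index_eq_card, h2]
    refine ⟨D, (S0039.result M D hD ?_ ?_).2 fun h hh hh1 => ?_⟩
    · rintro rfl
      exact hb (eq_bot_of_card_eq N (by simpa using h1.symm))
    · rintro rfl
      exact ht (index_eq_one.1 (by rw [← h2, hD.symm.index_eq_card, card_bot]))
    · rw [eq_bot_iff]
      rintro m ⟨hm, hc⟩
      have hc : Commute m h := mem_centralizer_singleton_iff.1 hc
      have h3 := hM.of_dvd (M.orderOf_dvd_natCard hm)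
      have h4 := hD1.of_dvd (D.orderOf_dvd_natCard hh)
      have h5 := hx (e.symm (m * h))
      rw [← he, e.apply_symm_apply, hc.orderOf_mul_eq_mul_orderOf_of_coprime (h3.coprime h4)] at h5
      rcases h5 with h5 | h5
      · exact absurd (orderOf_eq_one_iff.1 ((h5.of_dvd (dvd_mul_left _ _)).eq_one h4)) hh1
      · exact orderOf_eq_one_iff.1 (h3.eq_one (h5.of_dvd (dvd_mul_right _ _)))
  exact ⟨⟨D, hD⟩, solv e.symm (fun g => by rw [← he, e.apply_symm_apply]) hD, solv e he hC⟩

end Cfsg.Agent.S3999
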