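import Cfsg.Statements.S4001
import Cfsg.Agent.FG.PrimeGraph

set_option autoImplicit false
open Cfsg

namespace Cfsg.Agent.S4001

open Cfsg.Agent.BG Cfsg.Agent.FG Subgroup

/-- Let G be a 2-Frobenius group: it has normal subgroups H < K with K a Frobenius group with kernel H and G/H a Frobenius group with kernel K/H. Then G is solvable; K/H has odd order coprime to the order of H and to the order of G/K (it is the image of an odd-order Hall subgroup); G/K is cyclic; and the prime graph of G has exactly two connected components, both complete: for distinct primes p, q dividing the order of G, G has an element of order pq exactly when p and q either both divide the order of K/H or both do not. -/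
theorem result {G : Type*} [Group G] [Finite G] (H K : Subgroup G) [H.Normal] [K.Normal] (hlt : H < K)
    (hK : ∃ C : Subgroup ↥K, Cfsg.IsFrobeniusComplement C ∧ Cfsg.frobeniusKernel C = (H.subgroupOf K : Set ↥K))
    (hGH : ∃ C : Subgroup (G ⧸ H), Cfsg.IsFrobeniusComplement C ∧ Cfsg.frobeniusKernel C = (K.map (QuotientGroup.mk' H) : Set (G ⧸ H))) :
    Group.IsSolvable G ∧ Odd (Nat.card (↥K ⧸ H.subgroupOf K)) ∧
      Nat.Coprime (Nat.card (↥K ⧸ H.subgroupOf K)) (Nat.card ↥H * Nat.card (G ⧸ K)) ∧ IsCyclic (G ⧸ K) ∧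
      ∀ p q : ℕ, p.Prime → q.Prime → p ≠ q → p ∣ Nat.card G → q ∣ Nat.card G →
        ((∃ g : G, orderOf g = p * q) ↔ (p ∣ Nat.card (↥K ⧸ H.subgroupOf K) ↔ q ∣ Nat.card (↥K ⧸ H.subgroupOf K))) := by
  obtain ⟨B, C, h, rfl⟩ := twoFrob_iff.1 ⟨‹_›, hlt, hK, hGH⟩
  have e1 : Nat.card (↥(H ⊔ B) ⧸ H.subgroupOf (H ⊔ B)) = #B := h.ab.sd.relIndexl
  have e2 := isog_trans h.sd'.isog (isog_symm (quotient_top_isog (H ⊔ B)))
  rw [e1, ← card_isog e2]
  refine ⟨isog_sol (isog_symm isog_top) h.sol, h.odd, (Frobenius_coprime h.ab).symm.mul_right (Frobenius_coprime h.bc),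
    isog_cyclic e2 h.cycC, fun p q hp hq hpq h1 h2 => ⟨fun ⟨g, e⟩ => ?_, fun h3 => ?_⟩⟩
  · obtain h3 | h3 := h.sep.piElt (mem_top g)
    · exact iff_of_true (h3 p hp (e ▸ dvd_mul_right p q)).2 (h3 q hq (e ▸ dvd_mul_left q p)).2
    · exact iff_of_false (fun h4 => h3 p hp (e ▸ dvd_mul_right p q) ⟨hp, h4⟩)
        fun h4 => h3 q hq (e ▸ dvd_mul_left q p) ⟨hq, h4⟩
  have nil : ∀ A : Subgroup G, Group.IsNilpotent A → p ∣ #A → q ∣ #A → ∃ g : G, orderOf g = p * q := fun A h1 h2 h3 =>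
    (exists_orderOf_mul_of_nil h1 hp hq hpq h2 h3).imp fun _ h => h.2
  by_cases h4 : p ∣ #B
  · exact nil B (cyclic_nil h.cycB) h4 (h3.1 h4)
  have key : ∀ p q : ℕ, p.Prime → q.Prime → p ≠ q → p ∣ #H → q ∣ #C →
      ∃ A : Subgroup G, Group.IsNilpotent A ∧ p ∣ #A ∧ q ∣ #A := fun p q hp hq hpq h1 h2 => by
    haveI := Fact.mk hp
    haveI := Fact.mk hq
    obtain ⟨E, h3, h4⟩ := Cauchy_sub hq h2
    have h5 := h.card_eq (pcore_sub {p} H) (le_top.trans (h.sd.normal.pcore _).norm) h3 (ne_bot_of_prime (h4 ▸ hq))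
      (pnat_coprime (pcore_pgroup _ _) (p'group_of_ne (pgroup_of_card_p h4) hpq.symm))
    have h6 := IsPGroup.sub (Op_pgroup p H) (inf_le_left : Op p H ⊓ C[E] ≤ _)
    refine ⟨_, cent_nil inf_le_right (pgroup_nil h6) (pgroup_nil (pgroup_of_card_p h4)),
      (pgroup_pdiv h6 fun e => ?_).trans (cardSg le_sup_left), h4 ▸ cardSg le_sup_right⟩
    rw [e, card_bot, one_pow, card_eq_one_iff] at h5
    exact Sylow_ne_bot (nilpotent_pcore_Hall _ (Gen.Frobenius_kernel_nil h.ab)) h1 h5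
  have e3 : ∀ r : ℕ, r.Prime → r ∣ Nat.card G → ¬ r ∣ #B → r ∣ #H ∨ r ∣ #C := fun r hr h1 h2 =>
    ((Nat.Prime.dvd_mul hr).1 ((h.card.trans card_top).symm ▸ h1)).imp_right fun h =>
      ((Nat.Prime.dvd_mul hr).1 h).resolve_left h2
  obtain h5 | h5 := e3 p hp h1 h4 <;> obtain h6 | h6 := e3 q hq h2 (mt h3.2 h4)
  · exact nil H (Gen.Frobenius_kernel_nil h.ab) h5 h6
  · obtain ⟨A, h7, h8, h9⟩ := key p q hp hq hpq h5 h6
    exact nil A h7 h8 h9
  · obtain ⟨A, h7, h8, h9⟩ := key q p hq hp hpq.symm h6 h5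
    exact nil A h7 h9 h8
  · exact nil C (cyclic_nil h.cycC) h5 h6

end Cfsg.Agent.S4001
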