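import Cfsg.Statements.S4002
import Cfsg.Agent.FG.PrimeGraph

set_option autoImplicit false
open Cfsg

namespace Cfsg.Agent.S4002

open Cfsg.Agent.BG Cfsg.Agent.FG Subgroup

/-- If the set of element orders of a finite group G is {1, 2, …, n} with n ≥ 7, then G is not solvable. -/
theorem result {G : Type*} [Group G] [Finite G] (n : ℕ) (hn : 7 ≤ n) (h : Set.range (orderOf : G → ℕ) = {k : ℕ | 1 ≤ k ∧ k ≤ n}) : ¬ Group.IsSolvable G := by
  obtain ⟨p, q, r, hp, hq, hr, h1, h2, h3, h4⟩ : ∃ p q r : ℕ, p.Prime ∧ q.Prime ∧ r.Prime ∧ p < q ∧ q < r ∧ r ≤ n ∧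
      n < p * q := by
    by_cases h1 : n ≤ 9
    · exact ⟨2, 5, 7, by norm_num, by norm_num, by norm_num, by omega⟩
    by_cases h2 : n ≤ 14
    · exact ⟨3, 5, 7, by norm_num, by norm_num, by norm_num, by omega⟩
    by_cases h3 : n ≤ 34
    · exact ⟨5, 7, 11, by norm_num, by norm_num, by norm_num, by omega⟩
    obtain ⟨p, hp, p1, p2⟩ := Nat.exists_prime_lt_and_le_two_mul (n / 8) (by omega)
    obtain ⟨q, hq, q1, q2⟩ := Nat.exists_prime_lt_and_le_two_mul (2 * (n / 8)) (by omega)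
    obtain ⟨r, hr, r1, r2⟩ := Nat.exists_prime_lt_and_le_two_mul (2 * (2 * (n / 8))) (by omega)
    refine ⟨p, q, r, hp, hq, hr, by omega, by omega, by omega, ?_⟩
    have : 5 * q ≤ p * q := Nat.mul_le_mul_right q (by omega)
    omega
  have h5 : ∀ s : ℕ, s.Prime → s ≤ n → s.Prime ∧ s ∣ #(⊤ : Subgroup G) := fun s hs e => by
    obtain ⟨x, rfl⟩ : s ∈ Set.range (orderOf : G → ℕ) := h ▸ ⟨hs.pos, e⟩
    exact ⟨hs, orderOf_dvd_cardG (mem_top x)⟩
  refine fun _ => not_sol_of_coclique (s := {p, q, r}) (M := (⊤ : Subgroup G))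
    (Finset.card_eq_three.2 ⟨p, q, r, h1.ne, (h1.trans h2).ne, h2.ne, rfl⟩).ge ?_ (fun a ha b hb hab g _ e => ?_)
    (solvable_of _)
  · simp only [Finset.mem_insert, Finset.mem_singleton, forall_eq_or_imp, forall_eq]
    exact ⟨h5 p hp (by omega), h5 q hq (by omega), h5 r hr h3⟩
  have h6 : a * b ≤ n := e ▸ (h.le ⟨g, rfl⟩).2
  simp only [Finset.mem_insert, Finset.mem_singleton] at ha hb
  rcases ha with rfl | rfl | rfl <;> rcases hb with rfl | rfl | rfl <;> first | exact hab rfl | nlinarith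

end Cfsg.Agent.S4002
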