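import Cfsg.Statements.S4003
import Cfsg.Agent.FG.Count

set_option autoImplicit false
open Cfsg

namespace Cfsg.Agent.S4003

open Cfsg.Agent.BG Cfsg.Agent.FG Subgroup

/-- Let G be a finite group, p an odd prime dividing the order of G whose Sylow p-subgroups are not cyclic, and n = p^s·m with s > 1 and m coprime to p. Then the number of elements of G of order n is a multiple of p^s. -/
theorem result {G : Type*} [Group G] [Finite G] (p : ℕ) [Fact p.Prime] (hodd : p ≠ 2) (hpG : p ∣ Nat.card G)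
    (P : Sylow p G) (hP : ¬ IsCyclic ↥(P : Subgroup G)) (s m : ℕ) (hs : 1 < s) (hm : Nat.Coprime p m) :
    p ^ s ∣ Nat.card {g : G // orderOf g = p ^ s * m} := by
  have hp : p.Prime := Fact.out
  by_cases hd : p ^ s ∣ Nat.card G
  swap
  · haveI : IsEmpty {g : G // orderOf g = p ^ s * m} :=
      ⟨fun g => hd ((Dvd.intro _ g.2.symm).trans (orderOf_dvd_natCard _))⟩
    simp
  obtain ⟨E, hE, hEn⟩ := ex_odd_normal_p2Elem P.2 (BG4.odd_of_ne_two P.2 hodd) hP
  obtain ⟨t, rfl⟩ := Nat.exists_eq_add_of_le (show 2 ≤ s from hs)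
  obtain ⟨X, hX, hXc⟩ := BG4.sub_pgroup_card (k := t) (IsPGroup.quo P.2 E) (by
    have h1 := card_mul_quotient hEn
    have h2 := Nat.le_of_dvd (cardG_pos _) (P.pow_dvd_card_of_pow_dvd_card hd)
    rw [← h1, hE.card, pow_add] at h2
    exact Nat.le_of_mul_le_mul_left h2 (pow_pos hp.pos _))
  have hH : #(coquo E X) = p ^ (2 + t) := by rw [card_cosetpre, hE.card, hXc, pow_add]
  rw [← hH]
  refine card_dvd_of_brauer _ {g | orderOf g = #(coquo E X) * m} (fun h _ x hx => by simpa [orderOf_conj'] using hx)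
    fun x hx U hU hxU u hu => ?_
  have hUp := IsPGroup.sub (pgroup_of_card hH) hU
  have h1 : IsConj (x ^ p ^ (1 + t)) ((u * x) ^ p ^ (1 + t)) := by
    rcases hU.eq_or_lt with rfl | hlt
    · exact isConj_mul_pow_noncyclic hUp hodd (fun hc => hE.not_cyclic hp one_lt_two (cyclicS (sub_cosetpre X) hc))
        (by rw [hH]; ring) hxU hu
    · obtain ⟨c, hc⟩ := BG4.card_dvd_pow_of_le hUp (BG4.card_le_of_lt (k := 1 + t) (pgroup_of_card hH) hlt
        (by rw [hH]; exact le_of_eq (by ring)))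
      rw [hc, pow_mul, pow_mul]
      exact (isConj_mul_pow_card hUp hxU hu).pow c
  have h2 := Invol.orderOf_of_isConj h1
  simp only [Set.mem_ofPred_eq, hH] at hx ⊢
  have h3 : orderOf (x ^ p ^ (1 + t)) = p * m := by
    rw [orderOf_pow_of_dvd (pow_ne_zero _ hp.ne_zero) (by rw [hx]; exact (pow_dvd_pow p (by omega)).mul_right _), hx,
      show p ^ (2 + t) * m = p ^ (1 + t) * (p * m) by ring, Nat.mul_div_cancel_left _ (pow_pos hp.pos _)]
  rw [h3, orderOf_pow' _ (pow_ne_zero _ hp.ne_zero)] at h2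
  obtain ⟨j, hj, e⟩ := (Nat.dvd_prime_pow hp).1 (Nat.gcd_dvd_right (orderOf (u * x)) (p ^ (1 + t)))
  have h4 := Nat.mul_div_cancel' (Nat.gcd_dvd_left (orderOf (u * x)) (p ^ (1 + t)))
  rw [← h2, e] at h4
  obtain rfl : j = 1 + t := by
    by_contra hne
    have h5 : p ^ (j + 1) ∣ p ^ j := e ▸ Nat.dvd_gcd (by rw [← h4]; exact ⟨m, by ring⟩) (pow_dvd_pow p (by omega))
    exact absurd ((Nat.pow_dvd_pow_iff_le_right hp.one_lt).1 h5) (by omega)
  rw [← h4]; ring

end Cfsg.Agent.S4003
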