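import Cfsg.Statements.S4004
import Cfsg.Agent.FG.SameOrder

set_option autoImplicit false
open Cfsg

namespace Cfsg.Agent.S4004

open Cfsg.Agent.BG Cfsg.Agent.FG Subgroup

section
variable {G : Type*} [Group G] [Finite G] {a b p q : ℕ}

theorem ne_left (ho : ∀ r : ℕ, r.Prime → r ∣ Nat.card G → 2 < r) (h : SoIn G a b) (hp : p.Prime) (hq : q.Prime) (hpq : p ≠ q)
    (h1 : p ∣ Nat.card G) (h2 : q ∣ Nat.card G) (e1 : so G p = a) (e2 : so G q = a) : False := by
  have n : ∀ {r s : ℕ}, r.Prime → s.Prime → r ≠ s → ¬ r ∣ s := fun hr hs => mt (Nat.prime_dvd_prime_iff_eq hr hs).1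
  obtain ⟨h3, h4, h5, h6, h7⟩ := h.of_eq hp (ho p hp h1) h1 (n hp hq hpq) e1 e2
  have h8 : ∀ r : ℕ, r.Prime → r ∣ Nat.card G → so G r = a := fun r hr h8 => by
    by_contra h9
    have rp : r ≠ p := fun e => h9 (e ▸ e1)
    have r2 := ho r hr h8
    have e3 := ((h r r2).resolve_left (so_ne_zero_of_prime hr h8)).resolve_left h9
    have h10 := e3 ▸ dvd_so_add hp h1 (n hp hr rp.symm)
    have h11 : so G (r * p) = a := by
      obtain e | e | e := h (r * p) (by nlinarith [hp.two_le])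
      exacts [absurd (by rwa [e] at h10) h6, e, absurd (e ▸ h10) h7]
    have h12 := dvd_so_add hr h8 (n hr hp rp)
    rw [mul_comm, h11, e1, ← two_mul] at h12
    obtain ⟨-, -, -, h13, -⟩ := h.symm.of_eq hr r2 h8 (fun e => ((Nat.Prime.dvd_mul hr).1 e).elim
      (n hr hq fun e => h9 (e ▸ e2)) (n hr hp rp)) e3 h3
    exact h13 (((Nat.Prime.dvd_mul hr).1 h12).resolve_left fun e => (Nat.le_of_dvd two_pos e).not_gt r2)
  have h9 : Nat.card G ∣ 1 + a := (Nat.dvd_iff_prime_pow_dvd_dvd _ _).2 fun r k hr hk => by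
    haveI := Fact.mk hr
    rcases k with _ | k
    · simp
    have h9 := (dvd_pow_self r k.succ_ne_zero).trans hk
    obtain ⟨s, hs, h10, h11⟩ : ∃ s : ℕ, s.Prime ∧ s ∣ Nat.card G ∧ r ≠ s := by
      by_cases e : r = p
      exacts [⟨q, hq, h2, e ▸ hpq⟩, ⟨p, hp, h1, e⟩]
    obtain ⟨-, -, h12, h13, -⟩ := h.of_eq hr (ho r hr h9) h9 (n hr hs h11) (h8 r hr h9) (h8 s hs h10)
    refine (pow_dvd_pow r ((hr.pow_dvd_iff_le_factorization Nat.card_pos.ne').1 hk)).trans
      (h8 r hr h9 ▸ (ordProj_dvd_of_so_sq ?_).resolve_right (not_not.2 h9))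
    obtain e | e | e := h (r ^ 2) (by nlinarith [hr.two_le])
    exacts [e, absurd (e ▸ dvd_so_sq hr) h12, absurd (e ▸ dvd_so_sq hr) h13]
  have := so_add_lt (G := G) hp.ne_one hq.ne_one hpq
  have := Nat.le_of_dvd (by omega) h9
  have := so_ne_zero_of_prime hp h1
  omega

theorem sq_eq (ho : ∀ r : ℕ, r.Prime → r ∣ Nat.card G → 2 < r) (h : SoIn G (so G p) (so G q)) (hp : p.Prime) (hq : q.Prime)
    (hpq : p ≠ q) (h1 : p ∣ Nat.card G) (h2 : q ∣ Nat.card G) : so G (p * q) = 0 ∧ so G (q ^ 2) = 0 := by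
  have h3 : so G (p * q) = 0 := by
    obtain e | e | e := h (p * q) (by nlinarith [hp.two_le, hq.two_le])
    exacts [e, absurd e (so_mul_ne hp hq hpq (ho q hq h2) h1), absurd (mul_comm p q ▸ e) (so_mul_ne hq hp hpq.symm (ho p hp h1) h2)]
  refine ⟨h3, ?_⟩
  obtain e | e | e := h (q ^ 2) (by nlinarith [hq.two_le])
  · exact e
  · haveI := Fact.mk hp
    obtain ⟨x, rfl⟩ := exists_prime_orderOf_dvd_card' p h1
    obtain ⟨y, hy, h4⟩ := exists_cent_of_not_dvd_so (m := q ^ 2) (pgroup_of_card_p (Nat.card_zpowers x))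
      (e ▸ (not_dvd_of_dvd_one_add hp (ho _ hp h1) (dvd_so_one_add hp h1)).1)
    obtain ⟨z, hz, rfl⟩ := exists_orderOf_of_dvd (h4 ▸ dvd_pow_self q two_ne_zero)
    exact absurd h3 (so_ne_zero.2 ⟨x * z, Commute.orderOf_mul_eq_mul_orderOf_of_coprime
      (mem_cent.1 (zpowers_le.2 hy hz) x (mem_zpowers x)) ((Nat.coprime_primes hp hq).2 hpq)⟩)
  · exact absurd (e ▸ dvd_so_sq hq) (not_dvd_of_dvd_one_add hq (ho _ hq h2) (dvd_so_one_add hq h2)).1

theorem frob (ho : Odd (Nat.card G)) (hp : p.Prime) (hq : q.Prime) (hpq : p ≠ q) (h2 : q ∣ Nat.card G)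
    (h3 : ∀ r : ℕ, r.Prime → r ∣ Nat.card G → r = p ∨ r = q) (h4 : FG.Sep {p} (⊤ : Subgroup G)) (h5 : so G (p ^ 2) = 0)
    (h6 : so G (q ^ 2) = 0) (hF : PiGrp {p} (fittingOf (⊤ : Subgroup G))) :
    ∃ C : Subgroup G, Cfsg.IsFrobeniusComplement C ∧ (Nat.card ↥C).Prime := by
  haveI := sol_of_two_primes hp hq h3
  haveI := Fact.mk hp
  haveI := Fact.mk hq
  obtain ⟨B, h7, h8⟩ | ⟨B, C, h7, -, h8⟩ := h4.frob_or_twoFrob (solvable_of _) hF fun h =>
    hpq.symm (h q hq (card_top (G := G) ▸ h2))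
  · have h9 : PiGrp {q} B := h8.mono' fun r hr h9 h10 => (h3 r hr (h9.trans (card_subgroup_dvd_card B))).resolve_left h10
    have h10 := odd_regular_pgroup_cyclic (PiNat.pg h9) (ho.of_dvd_nat (card_subgroup_dvd_card B)) h7.neK h7.norm h7.reg
    exact ⟨B, (isFC_of_frob h7).1, cyclic_abelem_prime hq ⟨cyclic_abelian h10, fun x hx =>
      pow_eq_one_of_so_sq h6 (mem_p_elt h9 hx)⟩ h10 h7.neE ▸ hq⟩
  obtain ⟨c, hc, h9⟩ := trivgPn.1 h7.bc.neE
  haveI := h7.sd.normal.center.normal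
  obtain ⟨v, hv, h10⟩ := exists_mul_pow_ne_one (center_abelian _) (center_nil_ne_bot (Fitting_nil _) h7.ab.neK)
    (coprimeSg (center_sub _) (Frobenius_coprime h7.ab)) (eq_bot_iff.2 ((inf_le_inf_right _ (center_sub _)).trans
      (Frobenius_trivg_cent h7.ab).le)) (h7.bc.norm hc) (semiregularS le_rfl (zpowers_le.2 hc) h7.bc.reg)
  rw [orderOf_eq_prime (pow_eq_one_of_so_sq h5 (mem_p_elt h8 hc)) h9] at h10
  exact absurd (pow_eq_one_of_so_sq h5 (mem_p_elt (pgroupY (.inr (le_sup_right.trans h7.sd.norm)) hF h8)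
    (mul_mem_sup' hv.1 hc))) h10

end


/-- Let G be a finite group of odd order in which the numbers of elements of each order that occurs (the numbers #{g : o(g) = m}, m ranging over the element orders of G) take exactly three different values. Then the order of G has at most two prime divisors; and if it has exactly two, then every Sylow subgroup of G for a prime dividing its order has prime exponent, G is a Frobenius group, and some Frobenius complement of G has prime order. -/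
theorem result {G : Type*} [Group G] [Finite G] (hodd : Odd (Nat.card G)) (h : (((fun m : ℕ => Nat.card {g : G // orderOf g = m}) '' Set.range (orderOf : G → ℕ))).ncard = 3) :
    (Nat.card G).primeFactors.card ≤ 2 ∧
      ((Nat.card G).primeFactors.card = 2 →
        (∀ (p : ℕ) [Fact p.Prime] (P : Sylow p G), p ∣ Nat.card G → Monoid.exponent ↥(P : Subgroup G) = p) ∧
        ∃ C : Subgroup G, Cfsg.IsFrobeniusComplement C ∧ (Nat.card ↥C).Prime) := by
  obtain ⟨a, b, h1, -⟩ := exists_soIn h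
  have ho : ∀ r : ℕ, r.Prime → r ∣ Nat.card G → 2 < r := fun r hr h2 => hr.two_le.lt_of_ne fun e =>
    (Nat.not_even_iff_odd.2 hodd) (even_iff_two_dvd.2 (e ▸ h2))
  have h2 : ∀ r : ℕ, r.Prime → r ∣ Nat.card G → so G r = a ∨ so G r = b := fun r hr h2 =>
    (h1 r (ho r hr h2)).resolve_left (so_ne_zero_of_prime hr h2)
  have h3 : ∀ p q : ℕ, p.Prime → q.Prime → p ∣ Nat.card G → q ∣ Nat.card G → so G p = so G q → p = q :=
    fun p q hp hq h3 h4 e => by_contra fun hpq => (h2 p hp h3).elim (fun e' => ne_left ho h1 hp hq hpq h3 h4 e' (e ▸ e'))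
      fun e' => ne_left ho h1.symm hp hq hpq h3 h4 e' (e ▸ e')
  refine ⟨(Finset.card_le_card_of_injOn (t := {a, b}) (so G) (fun r hr => by
    simpa using h2 r (Nat.prime_of_mem_primeFactors hr) (Nat.dvd_of_mem_primeFactors hr)) fun r hr s hs =>
      h3 r s (Nat.prime_of_mem_primeFactors hr) (Nat.prime_of_mem_primeFactors hs) (Nat.dvd_of_mem_primeFactors hr)
        (Nat.dvd_of_mem_primeFactors hs)).trans Finset.card_le_two, fun h4 => ?_⟩
  obtain ⟨p, q, hpq, e⟩ := Finset.card_eq_two.1 h4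
  obtain ⟨hp, h5, -⟩ := Nat.mem_primeFactors.1 (e.ge (Finset.mem_insert_self p _))
  obtain ⟨hq, h6, -⟩ := Nat.mem_primeFactors.1 (e.ge (Finset.mem_insert_of_mem (Finset.mem_singleton_self q)))
  have h7 : ∀ r : ℕ, r.Prime → r ∣ Nat.card G → r = p ∨ r = q := fun r hr h7 => by
    simpa using e.le (Nat.mem_primeFactors.2 ⟨hr, h7, Nat.card_pos.ne'⟩)
  have h8 : SoIn G (so G p) (so G q) := by
    have := mt (h3 p q hp hq h5 h6) hpq
    obtain e1 | e1 := h2 p hp h5 <;> obtain e2 | e2 := h2 q hq h6 <;> rw [e1, e2] at this ⊢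
    exacts [absurd rfl this, h1, h1.symm, absurd rfl this]
  obtain ⟨h9, h10⟩ := sq_eq ho h8 hp hq hpq h5 h6
  obtain ⟨h11, h12⟩ := sq_eq ho h8.symm hq hp hpq.symm h6 h5
  have h13 : ∀ r s : ℕ, (∀ t : ℕ, t.Prime → t ∣ Nat.card G → t = r ∨ t = s) → so G (r * s) = 0 →
      FG.Sep {r} (⊤ : Subgroup G) := fun r s h1 h2 => sep_of_orderOf fun a b _ hb e1 e2 _ e3 g _ e => so_ne_zero.2
        ⟨g, by rw [e, show a = r from e1, (h1 b hb (card_top (G := G) ▸ e3)).resolve_left e2]⟩ h2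
  refine ⟨fun r hr P h14 => ?_, ((h13 p q h7 h9).of_nil le_top (Fitting_nil ⊤)).elim
    (frob hodd hp hq hpq h6 h7 (h13 p q h7 h9) h12 h10) fun h14 => frob hodd hq hp hpq.symm h5 (fun r h1 h2 => (h7 r h1 h2).symm)
      (h13 q p (fun r h1 h2 => (h7 r h1 h2).symm) h11) h10 h12 (h14.mono' fun r hr h1 h2 =>
        (h7 r hr (h1.trans (card_subgroup_dvd_card _))).resolve_left h2)⟩
  have h15 : so G (r ^ 2) = 0 := (h7 r hr.out h14).elim (· ▸ h12) (· ▸ h10)
  refine ((Nat.dvd_prime hr.out).1 (exponentP.2 fun x hx =>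
    pow_eq_one_of_so_sq h15 (mem_p_elt (sylowIn_top P).pi hx))).resolve_left fun e => ?_
  exact Sylow_ne_bot (sylowIn_top P) (card_top (G := G) ▸ h14) (eq_bot_iff.2 fun x hx => by simpa [e] using expg_exponent hx)

end Cfsg.Agent.S4004
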