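import Cfsg.Statements.S4005
import Cfsg.Agent.FG.Three

set_option autoImplicit false
open Cfsg

namespace Cfsg.Agent.S4005

open Cfsg.Agent.BG Cfsg.Agent.FG Subgroup

/-- A finite group whose set of element orders is exactly {1, 2, 3} has either a normal elementary abelian 3-subgroup of index 2 or a normal elementary abelian 2-subgroup of index 3. -/
theorem result {G : Type*} [Group G] [Finite G] (h : Set.range (orderOf : G → ℕ) = {k : ℕ | 1 ≤ k ∧ k ≤ 3}) :
    (∃ N : Subgroup G, N.Normal ∧ Cfsg.IsElementaryAbelian 3 N ∧ N.index = 2) ∨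
      (∃ N : Subgroup G, N.Normal ∧ Cfsg.IsElementaryAbelian 2 N ∧ N.index = 3) := by
  have h1 : ∀ g : G, orderOf g ≤ 3 := fun g => (h.le ⟨g, rfl⟩).2
  have h2 : ∀ k, 1 ≤ k → k ≤ 3 → k ∣ Nat.card G := fun k e1 e2 => by
    obtain ⟨x, rfl⟩ := h.ge ⟨e1, e2⟩
    exact orderOf_dvd_natCard x
  have h3 : ∀ A : Subgroup G, IsPGroup 2 A → Abelem 2 A := fun A hA => abelem_two_of_sq fun x hx =>
    pow_eq_one_of_orderOf_lt (n := 1) hA hx ((h1 x).trans_lt (by norm_num))
  obtain ⟨K, E, h4, h5, h6⟩ | ⟨K, E, h4, h5, h6⟩ | ⟨A, B, C, h4, h5, -, h6⟩ :=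
    orders_le_four (fun g => (h1 g).trans (by norm_num)) (h2 2 (by norm_num) (by norm_num)) (h2 3 (by norm_num) le_rfl)
  · exact .inr ⟨K, h4.normal.normal, h3 K h5, by rw [← relIndex_top_right, h4.sd.relIndexl, h6]⟩
  · refine .inl ⟨K, h4.normal.normal, h5, ?_⟩
    rw [← relIndex_top_right, h4.sd.relIndexl]
    exact cyclic_abelem_prime Nat.prime_two (h3 E h6) (abelian_regular_cyclic (h3 E h6).1 h4.neK h4.norm h4.reg) h4.neE
  exact absurd (sub_abelian_cent2 (h3 _ (pgroup_sup (.inr (le_sup_right.trans h4.sd.norm)) h5 (pgroup_of_card_p h6))).1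
    le_sup_right le_sup_left) h4.not_cent

end Cfsg.Agent.S4005
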