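import Cfsg.Statements.S4006
import Cfsg.Agent.FG.Three
import Cfsg.Agent.Loc.Rk1
import Cfsg.Agent.Invol.Dihedral

set_option autoImplicit false
open Cfsg

namespace Cfsg.Agent.S4006

open Cfsg.Agent.BG Cfsg.Agent.FG Subgroup

/-- A finite group whose set of element orders is exactly {1, 2, 3, 4} has a normal subgroup N such that either N is a 2-group of exponent 4 and nilpotency class at most 2 with G/N of order 3, or N is an elementary abelian 2-group with G/N isomorphic to the symmetric group of degree 3, or N is an elementary abelian 3-group with G/N cyclic of order 4 or quaternion of order 8. -/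
theorem result {G : Type*} [Group G] [Finite G] (h : Set.range (orderOf : G → ℕ) = {k : ℕ | 1 ≤ k ∧ k ≤ 4}) :
    ∃ (N : Subgroup G) (_ : N.Normal),
      (IsPGroup 2 ↥N ∧ Monoid.exponent ↥N = 4 ∧ Group.nilpotencyClass ↥N ≤ 2 ∧ N.index = 3) ∨
      (Cfsg.IsElementaryAbelian 2 N ∧ Nonempty (G ⧸ N ≃* Equiv.Perm (Fin 3))) ∨
      (Cfsg.IsElementaryAbelian 3 N ∧ ((IsCyclic (G ⧸ N) ∧ N.index = 4) ∨ Nonempty (G ⧸ N ≃* QuaternionGroup 2))) := by
  have h1 : ∀ g : G, orderOf g ≤ 4 := fun g => (h.le ⟨g, rfl⟩).2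
  obtain ⟨x, hx⟩ : 4 ∈ Set.range (orderOf : G → ℕ) := h.ge ⟨by norm_num, le_rfl⟩
  obtain ⟨y, hy⟩ : 3 ∈ Set.range (orderOf : G → ℕ) := h.ge ⟨by norm_num, by norm_num⟩
  have h2 : 4 ∣ Nat.card G := hx ▸ orderOf_dvd_natCard x
  have h3 : ∀ A : Subgroup G, IsPGroup 2 A → ∀ x ∈ A, x ^ 4 = 1 := fun A hA x hx =>
    pow_eq_one_of_orderOf_lt (n := 2) hA hx ((h1 x).trans_lt (by norm_num))
  have gen : ∀ (A : Subgroup G) (p : ℕ), p.Prime → #A = p → ∃ b, zpowers b = A ∧ b ≠ 1 ∧ b ^ p = 1 := fun A p hp e => by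
    obtain ⟨b, rfl⟩ := cyclicP.1 (prime_cyclic (e ▸ hp))
    rw [Nat.card_zpowers] at e
    exact ⟨b, rfl, ne_one_of_prime (e ▸ hp), e ▸ pow_orderOf_eq_one b⟩
  obtain ⟨K, E, h4, h5, h6⟩ | ⟨K, E, h4, h5, h6⟩ | ⟨A, B, C, h4, h5, h6, h7⟩ :=
    orders_le_four h1 (.trans (by norm_num) h2) (hy ▸ orderOf_dvd_natCard y)
  · obtain ⟨b, rfl, h7, h8⟩ := gen E 3 Nat.prime_three h6
    refine ⟨K, h4.normal.normal, .inl ⟨h5, Nat.dvd_antisymm (exponentP.2 (h3 K h5)) (hx ▸ dvdn_exponent ?_),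
      nilpotencyClass_le_two (fpf_three_class (h4.norm (mem_zpowers b)) h8 (h4.reg b (mem_zpowers b) h7)),
      by rw [← relIndex_top_right, h4.sd.relIndexl, h6]⟩⟩
    exact mem_of_piElt (π := {2}) h4.normal (by rw [h4.sd.relIndexl, h6]; exact pnat_odd.2 (by decide)) trivial
      (piElt_of_pow (k := 2) hx)
  · haveI := h4.normal.normal
    have e := isog_trans (quotient_top_isog K) (isog_symm h4.sd.isog)
    refine ⟨K, this, .inr (.inr ⟨h5, ?_⟩)⟩
    obtain h7 | ⟨-, n, hn, ⟨f⟩⟩ := (Loc.rk1_of_pRankLE h6 ((pRankLE_iff Nat.prime_two).2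
      (regular_p_rank_le1 h4.neK h4.norm h4.reg 2))).isCyclic_or_quaternion h6
    · refine .inl ⟨isog_cyclic (isog_symm e) h7, ?_⟩
      rw [← relIndex_top_right, h4.sd.relIndexl]
      refine Nat.dvd_antisymm (exponent_cyclic h7 ▸ exponentP.2 (h3 E h6)) (Nat.Coprime.dvd_of_dvd_mul_left ?_
        ((h4.sd.card.trans card_top).symm ▸ h2))
      exact pnat_coprime (pnat_pow_self Nat.prime_two 2) (p'group_of_ne h5.pg (by norm_num))
    · obtain ⟨t, r, -, -, h7, -⟩ := Invol.exists_of_equiv_quaternion f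
      obtain rfl : n = 1 := le_antisymm ((Nat.pow_le_pow_iff_right one_lt_two).1 (by have := h1 r; omega)) hn
      exact .inr (isog_trans e ⟨f⟩)
  haveI := h4.sd.normal.normal
  refine ⟨A, this, .inr (.inl ⟨?_, isog_trans (isog_trans (quotient_top_isog A) (isog_symm h4.sd.isog)) (equiv_S3
    (by rw [← h4.bc.sd.card, h6, h7]) fun h => h4.bc.neK (by
      rw [← Frobenius_trivg_cent h4.bc, left_eq_inf]; exact sub_abelian_cent2 h le_sup_left le_sup_right))⟩)⟩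
  obtain ⟨b, rfl, h8, h9⟩ := gen B 3 Nat.prime_three h6
  obtain ⟨t, rfl, h10, h11⟩ := gen C 2 Nat.prime_two h7
  rw [sq] at h11
  have n : ∀ g, g ∈ N[A] := fun g => norm_of_normal A ⊤ trivial
  have e1 := Frob.conj_eq_inv_of_regular (h4.bc.norm (mem_zpowers t)) h11 (h4.bc.reg t (mem_zpowers t) h10) (mem_zpowers b)
  have e2 := h4.ab.reg b (mem_zpowers b) h8
  have et := inv_eq_of_mul_eq_one_right h11
  have eb : b * b = b⁻¹ := eq_inv_of_mul_eq_one_left (by rw [← pow_three', h9])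
  have hX : Abelem 2 (A ⊓ C1[t]) := abelem_two_of_sq fun x hx => by
    have e3 := h3 _ (pgroup_sup (.inr (norm_of_normal _ _)) h5 (pgroup_of_card_p h7)) _
      (mul_mem_sup' (conj_mem_of_norm (n b) hx.1) (mem_zpowers t))
    have e4 : (b * x * b⁻¹ * t) ^ 2 = x⁻¹ := by
      refine eq_inv_of_mul_eq_one_right ?_
      rw [← fpf_three_mul (n b) h9 e2 hx.1, mul_assoc x, mul_right_inj]
      calc _ = b * x * b⁻¹ * ((t * b * t⁻¹) * (t * x) * t⁻¹ * (t * b * t⁻¹)⁻¹ * (t * t)) := by rw [sq]; group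
        _ = _ := by rw [e1, ← mem_cent1.1 hx.2, h11]; group
    rwa [show 4 = 2 * 2 from rfl, pow_mul, e4, inv_pow, inv_eq_one] at e3
  refine abelemS (fun a ha => ?_) (abelemY hX (abelemJ b⁻¹ hX) (le_cent_iff.2 fun x hx z hz => ?_))
  · obtain ⟨u, hu, v, hv, rfl⟩ := exists_mul_cent_of_invol (s := b⁻¹ * t * b⁻¹⁻¹) (n _) (n _) h11 (by rw [conj_mul, h11]; simp)
      (h4.ab.reg _ (by
        rw [show t * (b⁻¹ * t * b⁻¹⁻¹) = (t * b * t⁻¹)⁻¹ * (t * t) * b by group, e1, h11]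
        exact mul_mem (mul_mem (inv_mem (inv_mem (mem_zpowers b))) (one_mem _)) (mem_zpowers b)) (by
        rw [show t * (b⁻¹ * t * b⁻¹⁻¹) = (t * b * t⁻¹)⁻¹ * (t * t) * b by group, e1, h11, inv_inv, mul_one, eb]
        simpa using h8)) ha
    exact mul_mem_sup' hu (by rwa [cj_inf, cj_of_norm (n _), ← C1_conj])
  obtain ⟨y, hy, rfl⟩ := mem_cj'.1 hz
  have f1 := (fpf_three_commute (n b) h9 e2 (A.mul_mem hx.1 (conj_mem_of_norm (n b) hy.1))).eq
  have f2 := (fpf_three_commute (n b) h9 e2 hx.1).eq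
  have f3 := (fpf_three_commute (n b) h9 e2 (conj_mem_of_norm (n b) hy.1)).eq
  have f4 : b * x * b⁻¹ * (b * y * b⁻¹) = b * y * b⁻¹ * (b * x * b⁻¹) := by
    rw [conj_mul, conj_mul, IsMulCommutative.comm hX.1 hx hy]
  rw [show b * (b * y * b⁻¹) * b⁻¹ = (b * b) * y * (b * b)⁻¹ by group, eb] at f3
  rw [show b * (x * (b * y * b⁻¹)) * b⁻¹ = (b * x * b⁻¹) * ((b * b) * y * (b * b)⁻¹) by group, eb] at f1
  generalize b * x * b⁻¹ = x', b * y * b⁻¹ = y', b⁻¹ * y * b⁻¹⁻¹ = y'' at *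
  rw [mul_assoc x, ← mul_assoc y', ← f4, mul_assoc x', f3, ← mul_assoc x, f2] at f1
  refine mul_right_cancel (b := y') (mul_left_cancel (a := x') ?_)
  simpa only [mul_assoc] using f1

end Cfsg.Agent.S4006
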