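import Cfsg.Statements.S4198
import Mathlib.GroupTheory.SpecificGroups.Alternating.Centralizer

set_option autoImplicit false
open Cfsg

namespace Cfsg.Agent.S4198

open Equiv Equiv.Perm

/-- Cycle types. -/
def T (n : ℕ) : Set (Multiset ℕ) := {m | m.sum ≤ n ∧ ∀ a ∈ m, 2 ≤ a}

theorem memT {n : ℕ} (g : Perm (Fin n)) : g.cycleType ∈ T n :=
  ⟨by simpa using (exists_with_cycleType_iff (Fin n)).1 ⟨g, rfl⟩ |>.1, fun _ => two_le_of_mem_cycleType⟩

theorem cardS (n : ℕ) : Nat.card (ConjClasses (Perm (Fin n))) = Nat.card (T n) := by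
  refine Nat.card_congr (Equiv.ofBijective (Quotient.lift (fun g => (⟨g.cycleType, memT g⟩ : T n))
    fun a b h => Subtype.ext (isConj_iff_cycleType_eq.1 h)) ⟨?_, ?_⟩)
  · rintro ⟨a⟩ ⟨b⟩ h
    have h' : a.cycleType = b.cycleType := by exact congrArg Subtype.val h
    exact Quotient.sound (isConj_iff_cycleType_eq.2 h')
  · rintro ⟨m, hm⟩
    obtain ⟨g, rfl⟩ := (exists_with_cycleType_iff (Fin n)).2 ⟨by simpa using hm.1, hm.2⟩
    exact ⟨ConjClasses.mk g, rfl⟩

theorem finT (n : ℕ) : Finite (T n) := by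
  refine Nat.finite_of_card_ne_zero ?_
  rw [← cardS]; exact Nat.card_pos.ne'

theorem T5 : Nat.card (T 5) ≤ 8 := by
  have : T 5 ⊆ (({0, {2}, {3}, {4}, {5}, {2, 2}, {2, 3}} : Finset (Multiset ℕ)) : Set (Multiset ℕ)) := by
    rintro m ⟨h1, h2⟩
    have h4 : m.card ≤ 2 := by
      have := Multiset.card_nsmul_le_sum h2
      simp only [smul_eq_mul] at this; omega
    rw [Finset.mem_coe]
    rcases (by omega : m.card = 0 ∨ m.card = 1 ∨ m.card = 2) with h | h | h
    · rw [Multiset.card_eq_zero.1 h]; decide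
    · obtain ⟨a, rfl⟩ := Multiset.card_eq_one.1 h
      have := h2 a (by simp)
      simp at h1
      interval_cases a <;> decide
    · obtain ⟨a, b, rfl⟩ := Multiset.card_eq_two.1 h
      have := h2 a (by simp)
      have := h2 b (by simp)
      simp at h1
      have : a ≤ 3 := by omega
      have : b ≤ 3 := by omega
      interval_cases a <;> interval_cases b <;> first | decide | omega
  rw [Nat.card_coe_set_eq]
  refine (Set.ncard_le_ncard this (Finset.finite_toSet _)).trans ?_
  rw [Set.ncard_coe_finset]; decide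

theorem Tsucc (n : ℕ) : Nat.card (T (n + 1)) ≤ 2 * Nat.card (T n) := by
  have := finT n
  have ex : ∀ m : T (n + 1), ∃ x : Bool × T n, (x.1 = false ∧ m.1 = x.2) ∨ (x.1 = true ∧ m.1.sum = n + 1 ∧
      (m.1 = 2 ::ₘ x.2 ∨ ∃ a t, m.1 = (a + 1) ::ₘ t ∧ x.2.1 = a ::ₘ t ∧ ∀ b ∈ t, a < b)) := by
    rintro ⟨m, h1, h2⟩
    by_cases h : m.sum ≤ n
    · exact ⟨⟨false, m, h, h2⟩, .inl ⟨rfl, rfl⟩⟩
    have h0 : m ≠ 0 := by rintro rfl; simp at h
    obtain ⟨a, ha, hmin⟩ := Multiset.exists_min_image (fun x => x) h0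
    obtain ⟨t, rfl⟩ := Multiset.exists_cons_of_mem ha
    have h3 := h2 a ha
    rw [Multiset.sum_cons] at h h1
    have h4 : ∀ b ∈ t, 2 ≤ b := fun b hb => h2 b (Multiset.mem_cons_of_mem hb)
    by_cases h5 : a = 2
    · exact ⟨⟨true, t, by omega, h4⟩, .inr ⟨rfl, by simp; omega, .inl (by subst h5; rfl)⟩⟩
    obtain ⟨a, rfl⟩ : ∃ b, a = b + 1 := ⟨a - 1, by omega⟩
    refine ⟨⟨true, a ::ₘ t, by simp; omega, fun b hb => ?_⟩, .inr ⟨rfl, by simp; omega, .inr ⟨a, t, rfl, rfl,
      fun b hb => hmin b (Multiset.mem_cons_of_mem hb)⟩⟩⟩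
    rcases Multiset.mem_cons.1 hb with rfl | hb
    · omega
    · exact h4 b hb
  choose f hf using ex
  have hi : Function.Injective f := fun m m' e => by
    have h := hf m
    have h' := hf m'
    rw [← e] at h'
    apply Subtype.ext
    rcases h with ⟨h1, h2⟩ | ⟨h1, h2, h3⟩ <;> rcases h' with ⟨h1', h2'⟩ | ⟨h1', h2', h3'⟩
    · rw [h2, h2']
    · simp [h1] at h1'
    · simp [h1] at h1'
    rcases h3 with h3 | ⟨a, t, h3, h4, h5⟩ <;> rcases h3' with h3' | ⟨a', t', h3', h4', h5'⟩
    · rw [h3, h3']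
    · rw [h3, h4'] at h2; rw [h3'] at h2'; simp at h2 h2'; omega
    · rw [h3', h4] at h2'; rw [h3] at h2; simp at h2 h2'; omega
    · rw [h4] at h4'
      have : a = a' := by
        by_contra hne
        have e1 := h5' a ((Multiset.mem_cons.1 (h4' ▸ Multiset.mem_cons_self a t)).resolve_left hne)
        have e2 := h5 a' ((Multiset.mem_cons.1 (h4' ▸ Multiset.mem_cons_self a' t')).resolve_left (Ne.symm hne))
        omega
      subst this
      rw [h3, h3', (Multiset.cons_inj_right a).1 h4']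
  simpa [Nat.card_prod] using Nat.card_le_card_of_injective f hi

theorem lt (n : ℕ) (hn : 5 ≤ n) : Nat.card (ConjClasses (alternatingGroup (Fin n))) < Nat.card (T n) := by
  have := finT n
  have exs : ∀ m : Multiset ℕ, ∃ s : alternatingGroup (Fin n), ∀ g : alternatingGroup (Fin n),
      g.1.cycleType = m → s.1.cycleType = m := fun m => by
    by_cases h : ∃ g : alternatingGroup (Fin n), g.1.cycleType = m
    · exact h.imp fun g hg _ _ => hg
    · exact ⟨1, fun g hg => absurd ⟨g, hg⟩ h⟩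
  choose σ hσ using exs
  have ev : ∀ g : alternatingGroup (Fin n), Even (g.1.cycleType.sum + g.1.cycleType.card) := fun g => by
    have := mem_alternatingGroup.1 g.2
    rw [sign_of_cycleType] at this
    by_contra h
    rw [(Nat.not_even_iff_odd.1 h).neg_one_pow] at this
    exact absurd this (by decide)
  have cj : ∀ (g h : alternatingGroup (Fin n)) (x : Perm (Fin n)), sign x = 1 → x * g * x⁻¹ = h → IsConj g h :=
    fun g h x hx e => isConj_iff.2 ⟨⟨x, mem_alternatingGroup.2 hx⟩, Subtype.ext e⟩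
  have od : ∀ g : alternatingGroup (Fin n), ¬ IsConj (σ g.1.cycleType) g →
      ∃ x : Perm (Fin n), sign x = -1 ∧ x * σ g.1.cycleType * x⁻¹ = g := fun g hg => by
    obtain ⟨x, hx⟩ := isConj_iff.1 (isConj_iff_cycleType_eq.2 (hσ _ g rfl))
    exact ⟨x, (Int.units_eq_one_or _).resolve_left fun h => hg (cj _ _ x h hx), hx⟩
  have ex : ∀ c : ConjClasses (alternatingGroup (Fin n)), ∃ m : T n, ∃ g, ConjClasses.mk g = c ∧
      ((g.1.cycleType = m ∧ IsConj (σ m) g) ∨ ∃ a t, g.1.cycleType = (a + 1) ::ₘ t ∧ m.1 = a ::ₘ t ∧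
        (∀ b ∈ g.1.cycleType, Odd b) ∧ n ≤ g.1.cycleType.sum + 1 ∧ ¬ IsConj (σ g.1.cycleType) g) := by
    rintro ⟨g⟩
    by_cases h : IsConj (σ g.1.cycleType) g
    · exact ⟨⟨_, memT g.1⟩, g, rfl, .inl ⟨rfl, h⟩⟩
    obtain ⟨x, hx, e⟩ := od g h
    have hc : Subgroup.centralizer {g.1} ≤ alternatingGroup (Fin n) := fun z hz => by
      refine mem_alternatingGroup.2 ((Int.units_eq_one_or _).resolve_right fun h1 => h (cj _ _ (z * x) ?_ ?_))
      · rw [map_mul, h1, hx]; simp
      · have := Subgroup.mem_centralizer_singleton_iff.1 hz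
        rw [show z * x * σ g.1.cycleType * (z * x)⁻¹ = z * (x * σ g.1.cycleType * x⁻¹) * z⁻¹ by group, e, this]
        group
    obtain ⟨h1, h2, -⟩ := centralizer_le_alternating_iff.1 hc
    rw [Fintype.card_fin] at h2
    obtain ⟨a, ha⟩ := Multiset.exists_mem_of_ne_zero (show g.1.cycleType ≠ 0 from fun h0 => by
      rw [h0] at h2; simp at h2; omega)
    obtain ⟨t, ht⟩ := Multiset.exists_cons_of_mem ha
    have h3 := memT g.1
    have h4 := h3.2 a ha
    obtain ⟨k, rfl⟩ := h1 a ha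
    refine ⟨⟨(2 * k) ::ₘ t, ?_, fun b hb => ?_⟩, g, rfl, .inr ⟨2 * k, t, ht, rfl, h1, h2, h⟩⟩
    · have := h3.1; rw [ht] at this; simp at this ⊢; omega
    · rcases Multiset.mem_cons.1 hb with rfl | hb
      · omega
      · exact h3.2 b (ht ▸ Multiset.mem_cons_of_mem hb)
  choose f g hg hf using ex
  have par : ∀ {u : alternatingGroup (Fin n)} {a : ℕ} {t : Multiset ℕ}, u.1.cycleType = (a + 1) ::ₘ t →
      ¬ Even ((a ::ₘ t).sum + (a ::ₘ t).card) := fun {u a t} h h' => by
    have := ev u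
    rw [h] at this
    simp only [Multiset.sum_cons, Multiset.card_cons, Nat.even_iff] at this h'
    omega
  have hi : Function.Injective f := fun c c' e => by
    have h := hf c
    have h' := hf c'
    rw [← e] at h'
    rw [← hg c, ← hg c', ConjClasses.mk_eq_mk_iff_isConj]
    rcases h with ⟨h1, h2⟩ | ⟨a, t, h1, h2, h3, -, h4⟩ <;> rcases h' with ⟨h1', h2'⟩ | ⟨a', t', h1', h2', h3', -, h4'⟩
    · exact h2.symm.trans h2'
    · exact absurd (h2' ▸ h1 ▸ ev (g c)) (par h1')
    · exact absurd (h2 ▸ h1' ▸ ev (g c')) (par h1)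
    · rw [h2] at h2'
      have : a = a' := by
        by_contra hne
        have e1 := h3' a (h1' ▸ Multiset.mem_cons_of_mem
          ((Multiset.mem_cons.1 (h2' ▸ Multiset.mem_cons_self a t)).resolve_left hne))
        have e2 := h3 (a + 1) (h1 ▸ Multiset.mem_cons_self _ _)
        rw [Nat.odd_iff] at e1 e2
        omega
      subst this
      have e1 : (g c').1.cycleType = (g c).1.cycleType := by rw [h1, h1', (Multiset.cons_inj_right a).1 h2']
      obtain ⟨x, hx, e2⟩ := od _ h4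
      obtain ⟨y, hy, e3⟩ := od _ h4'
      refine cj _ _ (y * x⁻¹) (by rw [map_mul, map_inv, hx, hy]; simp) ?_
      rw [← e3, e1, ← e2, e2]
      nth_rewrite 1 [← e2]
      group
  have h2 : ({2} : Multiset ℕ) ∈ T n := ⟨by simp; omega, by simp⟩
  refine (Nat.card_le_card_of_injective f hi).lt_of_ne fun he => ?_
  have hs := ((Nat.bijective_iff_injective_and_card f).2 ⟨hi, he⟩).2
  obtain ⟨c, hc⟩ := hs ⟨_, h2⟩
  have h := hf c
  rw [hc] at h
  rcases h with ⟨h1, -⟩ | ⟨a, t, h1, h2, -, h3, -⟩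
  · have := ev (g c)
    rw [show (g c).1.cycleType = {2} from h1] at this
    exact absurd this (by decide)
  · obtain ⟨rfl, rfl⟩ := (Multiset.singleton_eq_cons_iff _).1 h2
    rw [h1] at h3; simp at h3; omega

/-- For n ≥ 5 the alternating group of degree n has strictly fewer conjugacy classes than the symmetric group of degree n, and the symmetric group of degree n (whose classes correspond to the partitions of n) has at most 2^(n−2) conjugacy classes. -/
theorem result (n : ℕ) (hn : 5 ≤ n) : Nat.card (ConjClasses (alternatingGroup (Fin n))) < Nat.card (ConjClasses (Equiv.Perm (Fin n))) ∧ Nat.card (ConjClasses (Equiv.Perm (Fin n))) ≤ 2 ^ (n - 2) := by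
  rw [cardS]
  refine ⟨lt n hn, ?_⟩
  induction n, hn using Nat.le_induction with
  | base => exact T5
  | succ n hn ih =>
    rw [show n + 1 - 2 = n - 2 + 1 by omega, pow_succ]
    have := Tsucc n
    omega

end Cfsg.Agent.S4198
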