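import Cfsg.Statements.S4200
import Cfsg.Agent.Gen2.ClassCount

set_option autoImplicit false
open Cfsg

namespace Cfsg.Agent.S4200

open Subgroup Gen2 in
theorem aux {X : Type*} [Group X] [Finite X] (Y C : Subgroup X) :
    Nat.card C = Y.relIndex C * Nat.card (C ⊓ Y : Subgroup X) := by
  rw [relIndex, ← (Y.subgroupOf C).index_mul_card]
  congr 1
  rw [← inf_subgroupOf_left]
  exact Nat.card_congr (subgroupOfEquivOfLe inf_le_left).toEquiv

open Subgroup Gen2 in
theorem aux2 {X : Type*} [Group X] [Finite X] (Y C : Subgroup X) (h : Y.relIndex C = Y.index)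
    (g : X) : ∃ c ∈ C, c⁻¹ * g ∈ Y := by
  let f : C ⧸ Y.subgroupOf C → X ⧸ Y := Quotient.map' (fun c => (c : X)) fun a b hab => by
    rw [QuotientGroup.leftRel_apply] at hab ⊢
    exact hab
  have hf : Function.Injective f := by
    rintro ⟨a⟩ ⟨b⟩ hab
    exact QuotientGroup.eq.2 (QuotientGroup.eq.1 hab : (a : X)⁻¹ * b ∈ Y)
  obtain ⟨⟨c⟩, hc⟩ := (hf.bijective_of_nat_card_le h.ge).2 (g : X ⧸ Y)
  exact ⟨c, c.2, QuotientGroup.eq.1 hc⟩

/-- Let Y be a subgroup of the finite group X, of index m. Then the numbers of conjugacy classes satisfy k(Y) ≤ m·k(X) and k(X) ≤ m·k(Y), and the second inequality is strict unless Y is normal in X. -/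
theorem result {X : Type*} [Group X] [Finite X] (Y : Subgroup X) : Nat.card (ConjClasses Y) ≤ Y.index * Nat.card (ConjClasses X) ∧ Nat.card (ConjClasses X) ≤ Y.index * Nat.card (ConjClasses Y) ∧ (¬ Y.Normal → Nat.card (ConjClasses X) < Y.index * Nat.card (ConjClasses Y)) := by
  classical
  have := Fintype.ofFinite X
  open Subgroup Gen2 in
  have h1 : ∀ x : X, Nat.card (centralizer ({x} : Set X)) ≤
      Y.index * Nat.card (centralizer ({x} : Set X) ⊓ Y : Subgroup X) := fun x => by
    rw [aux Y]
    exact Nat.mul_le_mul_right _ (by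
      rw [← relIndex_top_right]
      exact relIndex_le_of_le_right le_top (by simpa using Y.index_ne_zero_of_finite))
  open Subgroup Gen2 in
  have h2 : ∑ x : X, Nat.card (centralizer ({x} : Set X) ⊓ Y : Subgroup X) =
      ∑ y : Y, Nat.card (centralizer ({(y : X)} : Set X)) := by
    simp only [← card_filter_mem, Finset.card_filter]
    rw [Finset.sum_comm, ← Finset.sum_subtype (Finset.univ.filter fun x => x ∈ Y) (by simp)
      (fun y => ∑ x : X, if x ∈ centralizer ({y} : Set X) then 1 else 0), Finset.sum_filter]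
    refine Finset.sum_congr rfl fun y _ => ?_
    split_ifs with hy
    · simp only [mem_inf, hy, and_true, mem_cent_comm (g := y)]
    · simp [hy]
  open Subgroup Gen2 in
  have h3 : Y.index * Nat.card (ConjClasses Y) * Nat.card X = Y.index *
      ∑ y : Y, Y.index * Nat.card (centralizer ({(y : X)} : Set X) ⊓ Y : Subgroup X) := by
    rw [← Finset.mul_sum, ← Y.index_mul_card]
    simp only [← card_cent_subtype]
    rw [← card_conjClasses_mul]
    ring
  open Subgroup Gen2 in
  have h4 : Nat.card (ConjClasses X) * Nat.card X ≤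
      Y.index * ∑ y : Y, Nat.card (centralizer ({(y : X)} : Set X)) := by
    rw [card_conjClasses_mul, ← h2, Finset.mul_sum]
    exact Finset.sum_le_sum fun x _ => h1 x
  open Subgroup Gen2 in
  refine ⟨?_, ?_, fun hn => ?_⟩
  · refine Nat.le_of_mul_le_mul_right ?_ (Nat.card_pos (α := Y))
    rw [mul_right_comm, Y.index_mul_card, mul_comm (Nat.card X), Gen2.card_conjClasses_mul,
      Gen2.card_conjClasses_mul]
    simp only [Gen2.card_cent_subtype]
    rw [← Finset.sum_subtype (Finset.univ.filter fun x => x ∈ Y) (by simp) (fun y =>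
      Nat.card (Subgroup.centralizer ({y} : Set X) ⊓ Y : Subgroup X))]
    exact (Finset.sum_le_sum_of_subset (Finset.filter_subset _ _)).trans
      (Finset.sum_le_sum fun x _ => Subgroup.card_le_of_le inf_le_left)
  · refine Nat.le_of_mul_le_mul_right ?_ (Nat.card_pos (α := X))
    rw [h3]
    exact h4.trans (Nat.mul_le_mul_left _ (Finset.sum_le_sum fun y _ => h1 y))
  · refine Nat.lt_of_mul_lt_mul_right (a := Nat.card X) ?_
    rw [h3]
    refine h4.trans_lt (Nat.mul_lt_mul_of_pos_left (Finset.sum_lt_sum (fun y _ => h1 y) ?_)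
      (Nat.pos_of_ne_zero Y.index_ne_zero_of_finite))
    by_contra hc
    push Not at hc
    refine hn ⟨fun y hy g => ?_⟩
    have h5 := le_antisymm (h1 y) (hc ⟨y, hy⟩ (Finset.mem_univ _))
    rw [aux Y] at h5
    obtain ⟨c, hc, hcg⟩ := aux2 Y _ (Nat.eq_of_mul_eq_mul_right Nat.card_pos h5) g⁻¹
    have h6 := Y.mul_mem (Y.mul_mem (Y.inv_mem hcg) hy) hcg
    have h7 : c * y * c⁻¹ = y := by rw [Gen2.mem_cent.1 hc]; group
    convert h6 using 1
    conv_lhs => rw [← h7]
    group

end Cfsg.Agent.S4200
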