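import Cfsg.Statements.S4203
import Cfsg.Agent.Char.Burnside
import Cfsg.Agent.SolvStr.Huppert

set_option autoImplicit false
open Cfsg

namespace Cfsg.Agent.S4203

open Subgroup

theorem aux.{u} (n : ℕ) : ∀ {G : Type u} [Group G] [Finite G], Nat.card G = n →
    (∀ M : Subgroup G, IsCoatom M → ∃ p : ℕ, p.Prime ∧ (M.index = p ∨ M.index = p ^ 2)) →
    Group.IsSolvable G := by
  induction n using Nat.strong_induction_on with | _ n ih => ?_
  intro G _ _ hn h
  rcases subsingleton_or_nontrivial G with h1 | h1
  · infer_instance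
  have hne : (Nat.card G).primeFactors.Nonempty := Nat.nonempty_primeFactors.2 Finite.one_lt_card
  set p := (Nat.card G).primeFactors.max' hne with hpdef
  have hp : p.Prime ∧ p ∣ Nat.card G ∧ _ := Nat.mem_primeFactors.1 ((Nat.card G).primeFactors.max'_mem hne)
  have hmax : ∀ q, q.Prime → q ∣ Nat.card G → q ≤ p := fun q hq hd =>
    Finset.le_max' _ _ (Nat.mem_primeFactors.2 ⟨hq, hd, Nat.card_pos.ne'⟩)
  have := Fact.mk hp.1
  obtain ⟨P⟩ : Nonempty (Sylow p G) := inferInstance
  by_cases hN : normalizer ((P : Subgroup G) : Set G) = ⊤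
  · have := normalizer_eq_top_iff.1 hN
    have hP : Nontrivial P := (nontrivial_iff_ne_bot _).2 (P.ne_bot_of_dvd_card hp.2.1)
    have : Group.IsSolvable (G ⧸ (P : Subgroup G)) := ih _ (by
      rw [← hn, card_eq_card_quotient_mul_card_subgroup (P : Subgroup G)]
      exact lt_mul_of_one_lt_right Nat.card_pos Finite.one_lt_card) rfl fun M hM => by
        rw [← index_comap_of_surjective M (QuotientGroup.mk'_surjective _)]
        exact h _ (isCoatom_comap_of_surjective (QuotientGroup.mk'_surjective _) hM)
    have := P.isPGroup'.isNilpotent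
    exact Group.isSolvable_of_ker_le_range (P : Subgroup G).subtype (QuotientGroup.mk' (P : Subgroup G)) (by simp)
  obtain ⟨M, hM, hle⟩ := (eq_top_or_exists_le_coatom _).resolve_left hN
  have h1 := SolvStr.index_modEq_one_of_normalizer_le P hle
  obtain ⟨q, hq, h2⟩ := h M hM
  have hqp : q ≤ p := hmax q hq (dvd_trans (by rcases h2 with h2 | h2 <;> simp [h2]) M.index_dvd_card)
  have h3 : p ∣ (q - 1) * (q + 1) := by
    rw [mul_comm, ← Nat.sq_sub_sq, one_pow]
    refine (Nat.modEq_iff_dvd' (Nat.one_le_pow _ _ hq.pos)).1 (Nat.ModEq.symm ?_)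
    rcases h2 with h2 | h2
    · simpa using (h2 ▸ h1).pow 2
    · exact h2 ▸ h1
  have h4 : p ≤ 3 := by
    have := hq.two_le
    rcases (Nat.Prime.dvd_mul hp.1).1 h3 with h4 | h4
    · have := Nat.le_of_dvd (by omega) h4
      omega
    · rcases hqp.lt_or_eq with h5 | h5
      · have h6 : p = q + 1 := le_antisymm (Nat.le_of_dvd (by omega) h4) h5
        rcases hq.eq_two_or_odd' with h7 | h7
        · omega
        · have := hp.1.eq_two_or_odd'.resolve_right (h6 ▸ Nat.not_odd_iff_even.2 h7.add_one)
          omega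
      · exact absurd ((Nat.dvd_add_right (h5 ▸ dvd_rfl)).1 h4) hp.1.not_dvd_one
  refine Char.isSolvable_of_two_primes (p := 2) (q := 3) fun r hr hd => ?_
  have := (hmax r hr hd).trans h4
  have := hr.two_le
  omega

/-- A finite group in which every maximal subgroup has index a prime or the square of a prime is solvable. -/
theorem result {G : Type*} [Group G] [Finite G] (h : ∀ M : Subgroup G, IsCoatom M → ∃ p : ℕ, p.Prime ∧ (M.index = p ∨ M.index = p ^ 2)) : Group.IsSolvable G := by
  exact aux _ rfl h

end Cfsg.Agent.S4203
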