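import Cfsg.Statements.S4204
import Cfsg.Agent.Loc.Comm

set_option autoImplicit false
open Cfsg

namespace Cfsg.Agent.S4204

/-- The lower central series shifted by one, starting at `⊤`. -/
def sh {G : Type*} [Group G] (H : Subgroup G) : ℕ → Subgroup G
  | 0 => ⊤
  | n + 1 => H.lowerCentralSeries n

theorem lcs_normal {G : Type*} [Group G] (H : Subgroup G) [H.Normal] :
    ∀ n, (H.lowerCentralSeries n).Normal
  | 0 => ‹_›
  | n + 1 => by
    have := lcs_normal H n
    rw [Subgroup.lowerCentralSeries_succ]
    infer_instance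

theorem sh_normal {G : Type*} [Group G] (H : Subgroup G) [H.Normal] : ∀ n, (sh H n).Normal
  | 0 => inferInstanceAs (⊤ : Subgroup G).Normal
  | n + 1 => lcs_normal H n

theorem sh_comm {G : Type*} [Group G] (H : Subgroup G) [H.Normal] : ∀ n, ⁅sh H n, H⁆ ≤ sh H (n + 1)
  | 0 => Subgroup.commutator_le_right _ _
  | _ + 1 => le_rfl

theorem sh_eq_bot {G : Type*} [Group G] {H : Subgroup G} {c i : ℕ}
    (h : H.lowerCentralSeries c = ⊥) (hi : c < i) : sh H i = ⊥ := by
  obtain ⟨j, rfl⟩ := Nat.exists_eq_add_one_of_ne_zero (Nat.ne_zero_of_lt hi)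
  exact le_bot_iff.1 (h ▸ H.lowerCentralSeries_antitone (Nat.lt_succ_iff.1 hi))

theorem aux {G : Type*} [Group G] (H K : Subgroup G) [H.Normal] [K.Normal] (n : ℕ) :
    (H ⊔ K).lowerCentralSeries n ≤
      ⨆ x : {x : ℕ × ℕ // x.1 + x.2 = n + 1}, sh H x.1.1 ⊓ sh K x.1.2 := by
  induction n with
  | zero =>
    exact sup_le (le_iSup_of_le ⟨(1, 0), rfl⟩ (le_inf le_rfl le_top))
      (le_iSup_of_le ⟨(0, 1), rfl⟩ (le_inf le_top le_rfl))
  | succ n ih =>
    have : ∀ x : {x : ℕ × ℕ // x.1 + x.2 = n + 1 + 1}, (sh H x.1.1 ⊓ sh K x.1.2).Normal :=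
      fun x => by
        have := sh_normal H x.1.1
        have := sh_normal K x.1.2
        infer_instance
    rw [Subgroup.lowerCentralSeries_succ]
    refine (Subgroup.commutator_mono ih le_rfl).trans (Loc.commutator_iSup_left_le
      (fun _ => by simp [Subgroup.normalizer_eq_top]) ?_)
    rintro ⟨⟨i, j⟩, hij⟩
    have := sh_normal H i
    have := sh_normal K j
    refine Loc.commutator_sup_right_le (by simp [Subgroup.normalizer_eq_top])
      (by simp [Subgroup.normalizer_eq_top]) ?_ ?_
    · exact le_iSup_of_le ⟨(i + 1, j), by simp at hij ⊢; omega⟩ (le_inf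
        ((Subgroup.commutator_mono inf_le_left le_rfl).trans (sh_comm H i))
        ((Subgroup.commutator_le_left _ _).trans inf_le_right))
    · exact le_iSup_of_le ⟨(i, j + 1), by simp at hij ⊢; omega⟩ (le_inf
        ((Subgroup.commutator_le_left _ _).trans inf_le_left)
        ((Subgroup.commutator_mono inf_le_right le_rfl).trans (sh_comm K j)))

/-- If `H` and `K` are normal subgroups of a finite group with `H` nilpotent of class at most `c` and `K` nilpotent of class at most `d` (the terms with index `c`, respectively `d`, of their lower central series are trivial, indices starting at `0`), then `HK` is nilpotent of class at most `c + d`. -/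
theorem result {G : Type*} [Group G] [Finite G] (H K : Subgroup G) [H.Normal] [K.Normal] (c d : ℕ) (hH : H.lowerCentralSeries c = ⊥) (hK : K.lowerCentralSeries d = ⊥) : (H ⊔ K).lowerCentralSeries (c + d) = ⊥ := by
  refine le_bot_iff.1 ((aux H K _).trans (iSup_le ?_))
  rintro ⟨⟨i, j⟩, hij⟩
  by_cases h : c < i
  · simp [sh_eq_bot hH h]
  · simp [sh_eq_bot hK (show d < j by simp at hij; omega)]

end Cfsg.Agent.S4204
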