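import Cfsg.Statements.S4212
import Cfsg.Agent.FG.Count
import Cfsg.Agent.Gen2.Basic

set_option autoImplicit false
open Cfsg

namespace Cfsg.Agent.S4212

open Subgroup Cfsg.Agent.BG Cfsg.Agent.Gen2

theorem aux {G : Type*} [Group G] [Finite G] (c : G) (n : ℕ) :
    Nat.gcd n (Nat.card G) ∣ Nat.card {x : G // IsConj c (x ^ n)} := by
  refine (Nat.dvd_iff_prime_pow_dvd_dvd _ _).2 fun p k hp hk => ?_
  have := Fact.mk hp
  obtain ⟨H, hH⟩ := Sylow.exists_subgroup_card_pow_prime p (hk.trans (Nat.gcd_dvd_right _ _))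
  rw [← hH]
  refine FG.card_dvd_of_brauer H {g | IsConj c (g ^ n)} (fun h _ x hx => ?_)
    fun x hx U hU hxU u hu => ?_
  · simp only [Set.mem_ofPred_eq] at hx ⊢
    rw [conj_pow]
    exact hx.trans (isConj_iff.2 ⟨h, rfl⟩)
  · obtain ⟨d, rfl⟩ := (cardSg hU).trans (hH ▸ hk.trans (Nat.gcd_dvd_left _ _))
    have := (FG.isConj_mul_pow_card (IsPGroup.sub (pgroup_of_card hH) hU) hxU hu).pow d
    rw [← pow_mul, ← pow_mul] at this
    exact hx.trans this

/-- Let `G` be a finite group of order `g`, `c` an element whose conjugacy class has `h` elements, and `n` a natural number. Then the number of elements `x` of `G` with `x^n` conjugate to `c` is a multiple of `gcd(hn, g)`. -/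
theorem result {G : Type*} [Group G] [Finite G] (c : G) (n : ℕ) : Nat.gcd (Nat.card {y : G // IsConj c y} * n) (Nat.card G) ∣ Nat.card {x : G // IsConj c (x ^ n)} := by
  have h1 : Nat.card {x : G // IsConj c (x ^ n)} =
      Nat.card {y : G // IsConj c y} * Nat.card {x : C1[c] // IsConj ⟨c, self_mem_cent c⟩ (x ^ n)} := by
    choose f hf using fun y : {y : G // IsConj c y} => isConj_iff.1 y.2
    have key : ∀ x : C1[c], IsConj ⟨c, self_mem_cent c⟩ (x ^ n) ↔ (x : G) ^ n = c := fun x => by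
      refine ⟨fun h => ?_, fun h => by rw [show x ^ n = ⟨c, self_mem_cent c⟩ from Subtype.ext h]⟩
      obtain ⟨g, hg⟩ := isConj_iff.1 h
      have := congrArg Subtype.val hg
      simp only [coe_mul, coe_inv, SubmonoidClass.coe_pow] at this
      rw [← this, Gen2.mem_cent.1 g.2, mul_inv_cancel_right]
    rw [← Nat.card_prod]
    refine (Nat.card_eq_of_bijective (fun z => ⟨f z.1 * z.2.1 * (f z.1)⁻¹, by
      rw [conj_pow, (key _).1 z.2.2, hf]; exact z.1.2⟩) ⟨?_, ?_⟩).symm
    · rintro ⟨y, a⟩ ⟨z, b⟩ e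
      have e1 : f y * a.1 * (f y)⁻¹ = f z * b.1 * (f z)⁻¹ := congrArg Subtype.val e
      have e2 := congrArg (· ^ n) e1
      simp only [conj_pow, (key _).1 a.2, (key _).1 b.2, hf] at e2
      obtain rfl : y = z := Subtype.ext e2
      rw [mul_left_inj, mul_right_inj] at e1
      rw [Subtype.ext (Subtype.ext e1 : a.1 = b.1)]
    · rintro ⟨x, hx⟩
      have e : ((f ⟨_, hx⟩)⁻¹ * x * (f ⟨_, hx⟩)⁻¹⁻¹) ^ n = c := by
        have := hf ⟨_, hx⟩
        generalize f ⟨_, hx⟩ = a at this ⊢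
        rw [conj_pow, show x ^ n = _ from this.symm]; group
      refine ⟨(⟨_, hx⟩, ⟨⟨_, Gen2.mem_cent.2 ?_⟩, (key _).2 e⟩), Subtype.ext (by simp only; group)⟩
      have := Commute.self_pow ((f ⟨_, hx⟩)⁻¹ * x * (f ⟨_, hx⟩)⁻¹⁻¹) n
      rwa [e] at this
  rw [h1, ← index_mul_card C1[c], ← card_isConj, Nat.gcd_mul_left]
  exact Nat.mul_dvd_mul_left _ (aux _ n)

end Cfsg.Agent.S4212
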