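import Cfsg.Statements.S4213
import Cfsg.Agent.FG.Count
import Cfsg.Agent.Gen2.Basic

set_option autoImplicit false
open Cfsg

namespace Cfsg.Agent.S4213

open Subgroup Cfsg.Agent.BG Cfsg.Agent.Gen2

theorem aux.{u} {G : Type u} [Group G] [Finite G] [Group.IsSolvable G] (n : ℕ) (hn : n ∣ Nat.card G)
    (hc : Nat.card {x : G // x ^ n = 1} = n) : ∃ H : Subgroup G, (H : Set G) = {x : G | x ^ n = 1} := by
  induction hk : Nat.card G using Nat.strong_induction_on generalizing G n with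
  | _ k ih =>
  subst hk
  have fin : ∀ L : Subgroup G, Nat.card L = n → (∀ x ∈ L, x ^ n = 1) →
      ∃ H : Subgroup G, (H : Set G) = {x : G | x ^ n = 1} := fun L h1 h2 =>
    ⟨L, Set.eq_of_subset_of_ncard_le h2 (le_of_eq (hc.trans h1.symm))⟩
  rcases subsingleton_or_nontrivial G with h0 | h0
  · exact ⟨⊤, Set.ext fun x => by simp [Subsingleton.elim x 1]⟩
  obtain ⟨K, hK, h1, hmin⟩ := Solv.exists_minimal_normal G
  obtain ⟨-, p, hp, hpow⟩ := Solv.elementary_of_minimal_normal h1 hmin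
  have : Fact p.Prime := ⟨hp⟩
  have hP : IsPGroup p K := fun x => ⟨1, Subtype.ext (by simpa using hpow x x.2)⟩
  obtain ⟨i, hi⟩ := IsPGroup.iff_card.1 hP
  have hn0 : n ≠ 0 := fun e => by simp [e] at hn; exact Nat.card_pos.ne' hn
  let f := QuotientGroup.mk' K
  have hf : Function.Surjective f := QuotientGroup.mk'_surjective K
  have hG := card_eq_card_quotient_mul_card_subgroup K
  have hlt := Solv.card_quotient_lt h1
  have hcom : ∀ H : Subgroup (G ⧸ K), Nat.card (H.comap f) = Nat.card H * Nat.card K := fun H => by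
    have h2 := (H.comap f).index_mul_card
    rw [index_comap_of_surjective _ hf, hG, ← H.index_mul_card, mul_assoc] at h2
    exact Nat.eq_of_mul_eq_mul_left (Nat.pos_of_ne_zero index_ne_zero_of_finite) h2
  have hpos : ∀ u : ℕ, 0 < Nat.card {z : G ⧸ K // z ^ u = 1} := fun u =>
    Nat.card_pos_iff.2 ⟨⟨⟨1, one_pow u⟩⟩, inferInstance⟩
  by_cases hpn : p ∣ n
  · set u := n / Nat.gcd n (p ^ i)
    have hi0 : i ≠ 0 := fun e => h1 (card_eq_one.1 (by rw [hi, e, pow_zero]))
    have hu : u * Nat.gcd n (p ^ i) = n := Nat.div_mul_cancel (Nat.gcd_dvd_left _ _)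
    have h2 : u * p ∣ n := hu ▸ Nat.mul_dvd_mul_left u (Nat.dvd_gcd hpn (dvd_pow_self p hi0))
    have h3 : u ∣ Nat.card (G ⧸ K) := by
      rw [hG, hi] at hn
      have := Nat.dvd_gcd (dvd_mul_left n (Nat.card (G ⧸ K))) hn
      rw [Nat.gcd_mul_left] at this
      exact Nat.dvd_of_mul_dvd_mul_right (Nat.gcd_pos_of_pos_right _ (pow_pos hp.pos i))
        (hu.dvd.trans this)
    have h4 : ∀ x : G, f x ^ u = 1 → x ^ n = 1 := fun x hx => by
      obtain ⟨d, hd⟩ := h2
      rw [hd, pow_mul, pow_mul, hpow _ ((QuotientGroup.eq_one_iff _).1 hx), one_pow]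
    have h5 : Nat.card {z : G ⧸ K // z ^ u = 1} * p ^ i ≤ n := by
      rw [← hi, ← Nat.card_prod, ← hc]
      refine Nat.card_le_card_of_injective (fun z => ⟨z.1.1.out * z.2, h4 _ (by
        rw [map_mul, show f z.2 = 1 from (QuotientGroup.eq_one_iff _).2 z.2.2, mul_one]
        simpa [f] using z.1.2)⟩) ?_
      rintro ⟨a, x⟩ ⟨b, y⟩ e
      have e1 : a.1.out * x = b.1.out * y := congrArg Subtype.val e
      obtain rfl : a = b := Subtype.ext (by simpa using congrArg (QuotientGroup.mk (s := K)) e1)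
      rw [Subtype.ext (mul_left_cancel e1)]
    have h6 := Nat.le_of_dvd (hpos u) (FG.dvd_card_pow_eq_one h3)
    have h7 := Nat.le_of_dvd (pow_pos hp.pos i) (Nat.gcd_dvd_right n (p ^ i))
    have h8 : Nat.card {z : G ⧸ K // z ^ u = 1} * p ^ i = u * p ^ i :=
      le_antisymm (h5.trans (hu ▸ Nat.mul_le_mul_left u h7)) (Nat.mul_le_mul_right _ h6)
    obtain ⟨H, hH⟩ := ih _ hlt u h3 (Nat.eq_of_mul_eq_mul_right (pow_pos hp.pos i) h8) rfl
    refine fin (H.comap f) (le_antisymm ?_ ?_) fun x hx => h4 x (hH.le hx)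
    · rw [hcom, hi, ← SetLike.coe_sort_coe, hH]; exact h5
    · rw [hcom, hi, ← SetLike.coe_sort_coe, hH]
      exact (hu ▸ Nat.mul_le_mul_left u h7).trans h8.ge
  · have hco : n.Coprime (Nat.card K) := hi ▸ ((Nat.Prime.coprime_iff_not_dvd hp).2 hpn).symm.pow_right i
    have h3 : n ∣ Nat.card (G ⧸ K) := hco.dvd_of_dvd_mul_right (hG ▸ hn)
    have h5 : Nat.card {z : G ⧸ K // z ^ n = 1} ≤ n := by
      conv_rhs => rw [← hc]
      refine Nat.card_le_card_of_surjective (fun x => ⟨f x, by rw [← map_pow, x.2, map_one]⟩) ?_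
      rintro ⟨z, hz⟩
      obtain ⟨y, rfl⟩ := hf z
      obtain ⟨a, ha1, ha2⟩ := Nat.chineseRemainder ((Nat.Prime.coprime_iff_not_dvd hp).2 hpn) 0 1
      obtain ⟨b, rfl⟩ := (Nat.modEq_zero_iff_dvd).1 ha1
      refine ⟨⟨y ^ (p * b), ?_⟩, Subtype.ext ?_⟩
      · rw [← pow_mul, mul_comm, pow_mul, pow_mul, hpow _ ((QuotientGroup.eq_one_iff _).1 hz),
          one_pow]
      · simp only [map_pow]
        exact (pow_eq_pow_iff_modEq.2 (ha2.of_dvd (orderOf_dvd_of_pow_eq_one hz))).trans (pow_one _)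
    obtain ⟨H, hH⟩ := ih _ hlt n h3 (le_antisymm h5
      (Nat.le_of_dvd (hpos n) (FG.dvd_card_pow_eq_one h3))) rfl
    have h6 : Nat.card H = n := by
      rw [← SetLike.coe_sort_coe, hH]
      exact le_antisymm h5 (Nat.le_of_dvd (hpos n) (FG.dvd_card_pow_eq_one h3))
    have h7 : K ≤ H.comap f := fun x hx => by
      rw [mem_comap, show f x = 1 from (QuotientGroup.eq_one_iff _).2 hx]; exact one_mem _
    have h8 : K.relIndex (H.comap f) = n := by
      have := card_mul_relIndex h7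
      rw [hcom, h6, mul_comm] at this
      exact Nat.eq_of_mul_eq_mul_right Nat.card_pos this
    obtain ⟨L, hL⟩ := SchurZassenhaus_split (K := K) (M := H.comap f) ⟨h7, le_normalizer_of_normal⟩
      (h8 ▸ hco.symm)
    have h9 := hL.relIndexl.symm.trans h8
    exact fin L h9 fun x hx => orderOf_dvd_iff_pow_eq_one.1 (h9 ▸ Subgroup.orderOf_dvd_natCard _ hx)

/-- If `G` is a finite solvable group and `n` divides the order of `G` and exactly `n` elements `x` of `G` satisfy `x^n = 1`, then these elements form a normal subgroup. -/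
theorem result {G : Type*} [Group G] [Finite G] [Group.IsSolvable G] (n : ℕ) (hn : n ∣ Nat.card G) (hcount : Nat.card {x : G // x ^ n = 1} = n) : ∃ H : Subgroup G, H.Normal ∧ (H : Set G) = {x : G | x ^ n = 1} := by
  obtain ⟨H, hH⟩ := aux n hn hcount
  refine ⟨H, ⟨fun x hx g => hH.ge ?_⟩, hH⟩
  rw [Set.mem_ofPred_eq, conj_pow, hH.le hx]; simp

end Cfsg.Agent.S4213
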