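import Cfsg.Statements.S4214
import Cfsg.Agent.BG.Base6
import Cfsg.Agent.SolvStr.Schmidt
import Cfsg.Agent.Transfer.Abelian

set_option autoImplicit false
open Cfsg

namespace Cfsg.Agent.S4214

open Subgroup Cfsg.Agent.BG
open scoped Pointwise

/-- admissible factors -/
def good (m n : ℕ) : Submonoid ℕ := .closure {f | f ∣ n ∧ ∃ q : ℕ, q.Prime ∧ q ∣ m ∧ f ≡ 1 [MOD q]}

variable {G : Type*} [Group G] [Finite G]

theorem cent_good {m : ℕ} {V : Subgroup G} (n : ℕ) : ∀ H : Subgroup G, #H < n → Group.IsSolvable H → H ≤ N[V] →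
    (#V).Coprime #H → #H ∣ m → C[H].relIndex V ∈ good m #V := by
  induction n with
  | zero => intro H h; omega
  | succ n ih =>
  intro H hn hs hV hc hm
  by_cases h1 : H = ⊥
  · rw [h1, cent_bot, relIndex_top_left]; exact one_mem _
  obtain ⟨M, hM, hMn, q, hq, hi⟩ := SolvStr.maxSub_der hs h1
  have := Fact.mk hq
  have hqH : q ∣ #H := hi ▸ relIndex_dvd_card _ _
  rw [← inf_relIndex_right, ← relIndex_mul_relIndex _ (C[M] ⊓ V) _ (inf_le_inf_right _ (centS hM.lt.le)) inf_le_right,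
    inf_relIndex_right]
  refine mul_mem (Submonoid.subset_closure ⟨(relIndex_dvd_card _ _).trans (cardSg inf_le_right), q, hq,
    hqH.trans hm, ?_⟩) (ih M (by have := proper_card hM.lt; omega) (solvableS hM.lt.le hs) (hM.lt.le.trans hV)
      (coprimegS hM.lt.le hc) ((cardSg hM.lt.le).trans hm))
  obtain ⟨Q, hQ⟩ := Sylow_exists q H
  have h2 : M ⊔ Q = H := sup_eq_of_coprime_idx hM.lt.le hQ.le (hi ▸ (Nat.Prime.coprime_iff_not_dvd hq).2 hQ.not_dvd)
  have h3 := Transfer.card_modEq_card_inf_centralizer hQ.pg (hQ.le.trans (normsI (norms_cent hMn.norm) hV))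
  have h4 : C[M] ⊓ V ⊓ C[Q] = C[H] ⊓ V := by rw [← h2, cent_sup, inf_right_comm]
  rw [h4, ← card_mul_relIndex (inf_le_inf_right V (centS hM.lt.le))] at h3
  exact Nat.ModEq.cancel_left_of_coprime
    ((coprimeSg inf_le_right hc).symm.coprime_dvd_left hqH) (h3.trans (by rw [mul_one]))

theorem step {π : Set ℕ} {m r : ℕ} [Fact r.Prime] {H V M : Subgroup G} (hM : Group.IsSolvable M)
    (hH : IsPiHallOf π H M) (hV : V ⊴ M) (hr : IsPGroup r V) (hm : #H ∣ m) :
    ∃ k ∈ good m #V, N[H].relIndex M = k * N[V ⊔ H].relIndex M := by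
  by_cases h : r ∈ π
  · exact ⟨1, one_mem _, by rw [sup_eq_right.2 (normal_sub_Hall hH hV (pi_pgroup hr h)), one_mul]⟩
  have hn := hH.le.trans hV.norm
  have hc : (#V).Coprime #H := pnat_coprime' (pi_pgroup hr h) hH.pi
  refine ⟨_, cent_good _ H (Nat.lt_succ_self _) (solvableS hH.le hM) hn hc hm, ?_⟩
  have hK : V ⊔ H ≤ M := sup_le hV.le hH.le
  have h1 : M ⊓ N[H] ≤ M ⊓ N[V ⊔ H] := le_inf inf_le_left (normsY (inf_le_left.trans hV.norm) inf_le_right)
  have h2 : V ⊔ M ⊓ N[H] = M ⊓ N[V ⊔ H] := by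
    rw [← Hall_Frattini_arg (solvableS hK hM) ((normalG _).subl (le_inf hK (normG _)) inf_le_right |> fun h =>
      (⟨le_inf hK (normG _), inf_le_right⟩ : V ⊔ H ⊴ M ⊓ N[V ⊔ H])) (pHall_subl le_sup_right hK hH),
      inf_right_comm, inf_eq_left.2 (h1.trans inf_le_right), sup_assoc, sup_eq_right.2 (le_inf hH.le (normG H))]
  rw [← inf_relIndex_right, inf_comm, ← relIndex_mul_relIndex _ _ _ h1 inf_le_left, inf_relIndex_left]
  congr 1
  have h3 := card_sup_mul_inf (A := V) (B := M ⊓ N[H]) (Or.inr (inf_le_left.trans hV.norm))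
  rw [← inf_assoc, inf_eq_left.2 hV.le, coprime_norm_cent (K := V) (A := H) hn hc, h2, ← card_mul_relIndex h1,
    ← card_inf_mul_relIndex C[H] V, inf_comm V] at h3
  exact Nat.eq_of_mul_eq_mul_left (Nat.mul_pos (cardG_pos (M ⊓ N[H])) (cardG_pos (C[H] ⊓ V))) (by linarith)

/-- Let `G` be a finite solvable group of order `mn` with `gcd(m, n) = 1`. Then the number of subgroups of order `m` is a product of natural numbers each of which is a power of a prime, divides the order of some chief factor of `G` (a quotient `L/K` of normal subgroups `K < L` of `G` with no normal subgroup of `G` strictly between them), and is congruent to `1` modulo some prime divisor of `m`. -/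
theorem result {G : Type*} [Group G] [Finite G] [Group.IsSolvable G] (m n : ℕ) (hG : Nat.card G = m * n) (hmn : Nat.Coprime m n) : ∃ (k : ℕ) (f : Fin k → ℕ), Nat.card {H : Subgroup G // Nat.card H = m} = ∏ i, f i ∧ ∀ i, (∃ q e : ℕ, q.Prime ∧ f i = q ^ e) ∧ (∃ K L : Subgroup G, K.Normal ∧ L.Normal ∧ K < L ∧ (∀ M : Subgroup G, M.Normal → K ≤ M → M ≤ L → M = K ∨ M = L) ∧ f i ∣ K.relIndex L) ∧ (∃ q : ℕ, q.Prime ∧ q ∣ m ∧ f i ≡ 1 [MOD q]) := by
  have hs : Group.IsSolvable (⊤ : Subgroup G) := solvable_of _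
  have hm : partn (primesOf m) #(⊤ : Subgroup G) = m :=
    partn_eq (cardG_ne_zero _) (card_top.trans hG) (pnat_pi m) (coprime_pi'.1 hmn)
  obtain ⟨H, hH⟩ := Hall_exists (primesOf m) hs
  have h1 : Nat.card {H : Subgroup G // Nat.card H = m} = N[H].index := by
    have : N[H] = (MulAction.stabilizer (MulAut G) H).comap MulAut.conj := by
      ext g; rw [mem_norm, ← cj_eq_smul]; rfl
    let _ := MulAction.compHom (Subgroup G) (MulAut.conj (G := G))
    rw [this]
    refine Eq.trans ?_ (MulAction.index_stabilizer G H).symm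
    refine Nat.card_congr (Equiv.subtypeEquivRight fun K => ⟨fun h => ?_, fun ⟨g, h⟩ => ?_⟩)
    · obtain ⟨g, -, rfl⟩ := Hall_trans hs hH (pHall_of_card le_top (h.trans hm.symm))
      exact ⟨g, rfl⟩
    · exact h ▸ (card_cj g H).trans ((card_Hall hH).trans hm)
  let S : Set ℕ := {f | (∃ q e : ℕ, q.Prime ∧ f = q ^ e) ∧ (∃ K L : Subgroup G, K.Normal ∧ L.Normal ∧ K < L ∧
    (∀ M : Subgroup G, M.Normal → K ≤ M → M ≤ L → M = K ∨ M = L) ∧ f ∣ K.relIndex L) ∧
    (∃ q : ℕ, q.Prime ∧ q ∣ m ∧ f ≡ 1 [MOD q])}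
  obtain ⟨k, hk, h2⟩ := chief_ind (P := fun X => ∃ k ∈ Submonoid.closure S, N[H].index = k * N[X ⊔ H].index)
    (normal_bot ⊤) (normal_refl ⊤) le_top ⟨1, one_mem _, by simp⟩ fun X Y _ _ h ⟨k, hk, e⟩ => by
      obtain ⟨r, hr, hE⟩ := sol_chief_abelem (solvable_of _) h
      have := Fact.mk hr
      obtain ⟨j, hj, e'⟩ := step (quotient_sol X hs) (quotient_pHall h.nV hH) (quotient_normal X h.normalU) hE.pg
        ((dvdn_quotient _ _).trans ((card_Hall hH).trans hm).dvd)
      have key : ∀ A, X ≤ A → N[A /ᵍ X].relIndex (⊤ /ᵍ X) = N[A].index := fun A hA => by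
        rw [← inf_relIndex_left, ← quotient_subnormG ⊤ ⟨hA, le_top.trans h.nV⟩, index_quotient_eq inf_le_left h.nV
          (le_inf inf_le_left (inf_le_right.trans (normsG hA))), inf_relIndex_left, relIndex_top_right]
      rw [← quotientY (le_top.trans h.nV) (le_top.trans h.nV), ← quotientYidl (le_top.trans h.nV),
        key _ le_sup_left, key _ (h.lt.le.trans le_sup_left)] at e'
      refine ⟨k * j, mul_mem hk (Submonoid.closure_mono ?_ hj), by rw [e, e', mul_assoc]⟩
      rintro f ⟨h1, h2⟩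
      obtain ⟨a, ha⟩ := hE.pg.exists_card_eq
      obtain ⟨b, -, hb⟩ := (Nat.dvd_prime_pow hr).1 (ha ▸ h1)
      exact ⟨⟨r, b, hr, hb⟩, ⟨X, Y, h.normalV.normal, h.normalU.normal, h.lt,
        fun M _ h1 h2 => h.max M h1 h2 (norm_of_normal _ _), card_quotient h.normal.norm ▸ h1⟩, h2⟩
  obtain ⟨l, hl, rfl⟩ := Submonoid.exists_list_of_mem_closure hk
  exact ⟨l.length, l.get, by rw [h1, h2, top_sup_eq, norm_top, index_top, mul_one]; simp,
    fun i => hl _ (l.get_mem i)⟩

end Cfsg.Agent.S4214
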