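import Cfsg.Statements.S4216
import Cfsg.Agent.FG.Coc

set_option autoImplicit false
open Cfsg

namespace Cfsg.Agent.S4216

open Subgroup Cfsg.Agent.Loc in
theorem aux {G : Type*} [Group G] [Finite G] {p : ℕ} [Fact p.Prime] (P : Sylow p G) {Q : Subgroup G}
    (h1 : (P : Subgroup G) ⊓ ⁅normalizer ((P : Subgroup G) : Set G), normalizer ((P : Subgroup G) : Set G)⁆ ≤ Q)
    (h2 : ∀ z, (P : Subgroup G) ⊓ cj z ⁅(P : Subgroup G), (P : Subgroup G)⁆ ≤ Q) :
    (P : Subgroup G) ⊓ commutator G ≤ Q := by
  have hc : commutator (P : Subgroup G) ≤ Q.subgroupOf P := fun x hx => by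
    have := mem_map_of_mem (P : Subgroup G).subtype hx
    rw [map_subtype_commutator] at this
    exact h2 1 ⟨x.2, by rwa [cj_one]⟩
  haveI : (Q.subgroupOf P).Normal := ⟨fun n hn g => by
    have := mul_mem (hc (commutator_mem_commutator (mem_top g) (mem_top n))) hn
    simpa [commutatorElement_def] using this⟩
  haveI := Normal.quotient_commutative_iff_commutator_le.2 hc
  letI : CommGroup ((P : Subgroup G) ⧸ Q.subgroupOf P) :=
    { (inferInstance : Group _) with mul_comm := mul_comm' }
  intro u hu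
  refine (QuotientGroup.eq_one_iff (N := Q.subgroupOf P) ⟨u, hu.1⟩).1
    (FG.Coc.gruen_aux P (QuotientGroup.mk' (Q.subgroupOf P)) (fun g hg v hv hm => ?_) (fun g w hw hm => ?_)
      u hu.1 hu.2)
  · refine ((QuotientGroup.eq (s := Q.subgroupOf P) (a := ⟨v, hv⟩) (b := ⟨_, hm⟩)).2
      (h1 ⟨(P : Subgroup G).mul_mem ((P : Subgroup G).inv_mem hv) hm, ?_⟩)).symm
    have := commutator_mem_commutator (inv_mem (le_normalizer hv)) (inv_mem hg)
    simpa [commutatorElement_def, mul_assoc] using this
  · exact (QuotientGroup.eq_one_iff _).2 (h2 g⁻¹ ⟨hm, by simpa using conj_mem_cj (g := g⁻¹) hw⟩)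

/-- Grün's first Theorem: if `P` is a Sylow `p`-subgroup of the finite group `G`, then `P ∩ G'` is the subgroup generated by `P ∩ N_G(P)'` together with the subgroups `P ∩ z P' z⁻¹` for all `z ∈ G`, where `'` denotes the derived subgroup and `N_G(P)` the normalizer of `P`. -/
theorem result {G : Type*} [Group G] [Finite G] {p : ℕ} [Fact p.Prime] (P : Sylow p G) : (P : Subgroup G) ⊓ commutator G = ((P : Subgroup G) ⊓ ⁅Subgroup.normalizer ((P : Subgroup G) : Set G), Subgroup.normalizer ((P : Subgroup G) : Set G)⁆) ⊔ ⨆ z : G, (P : Subgroup G) ⊓ (⁅(P : Subgroup G), (P : Subgroup G)⁆).map (MulAut.conj z).toMonoidHom := by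
  refine le_antisymm (aux P le_sup_left fun z => le_sup_of_le_right (le_iSup_of_le z le_rfl))
    (sup_le (inf_le_inf_left _ (Subgroup.commutator_mono le_top le_top)) (iSup_le fun z => inf_le_inf_left _ ?_))
  exact (Loc.cj_mono z (Subgroup.commutator_mono le_top le_top)).trans (Loc.cj_eq_of_normal z (commutator G)).le

end Cfsg.Agent.S4216
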