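import Cfsg.Statements.S4217
import Cfsg.Agent.S0051
import Cfsg.Agent.Gen2.Nilp
import Cfsg.Agent.Gen2.Cyc
import Cfsg.Agent.Solv.Separable

set_option autoImplicit false
open Cfsg

namespace Cfsg.Agent.S4217

theorem aux {G : Type*} [Group G] [Finite G] (A : Subgroup G) [A.Normal] (hA : IsMulCommutative A)
    {q : ℕ} (hq : q.Prime) {U K : Subgroup G} (hU : ¬ q ∣ U.index) (h1 : K ⊓ A = ⊥)
    (h2 : K ⊔ A = U) : ∃ H : Subgroup G, H.index ≤ q ^ (Nat.card A).factorization q ∧
      ∀ a ∈ H, a ∈ A → ¬ q ∣ orderOf a := by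
  have := Fact.mk hq
  let B := Gen2.omegaZ (ordCompl[q] (Nat.card A)) A
  let π := QuotientGroup.mk' B
  have hπ := QuotientGroup.mk'_surjective B
  have : (A.map π).Normal := Subgroup.Normal.map inferInstance _ hπ
  have hp : IsPGroup q (A.map π) := by
    rintro ⟨_, a, ha, rfl⟩
    refine ⟨(Nat.card A).factorization q, Subtype.ext ?_⟩
    show π a ^ _ = 1
    rw [← map_pow]
    refine (QuotientGroup.eq_one_iff _).2 ⟨A.pow_mem ha _, fun b hb =>
      Gen2.mul_comm_of_mem hA hb (A.pow_mem ha _), ?_⟩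
    rw [← pow_mul, Nat.ordProj_mul_ordCompl_eq_self]
    exact congrArg Subtype.val (pow_card_eq_one' (x := (⟨a, ha⟩ : A)))
  have hAU : A ≤ U := h2 ▸ le_sup_right
  obtain ⟨H, hH⟩ := S0051.result (A.map π) (U.map π) (Subgroup.map_mono hAU) (by
      rw [Subgroup.index_map_eq _ hπ (by
        rw [QuotientGroup.ker_mk']; exact (Gen2.omegaZ_le _ _).trans hAU)]
      exact Solv.coprime_card_of_isPGroup hp ((Nat.Prime.coprime_iff_not_dvd hq).2 hU).symm)
    (K.map π) (Subgroup.map_mono (h2 ▸ le_sup_left)) (by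
      rw [eq_bot_iff]
      rintro _ ⟨⟨k, hk, rfl⟩, a, ha, hak⟩
      have h3 : k ∈ K ⊓ A := ⟨hk, by
        have := Gen2.omegaZ_le _ _ (QuotientGroup.eq.1 hak)
        simpa using A.mul_mem ha this⟩
      rw [h1, Subgroup.mem_bot] at h3
      rw [h3, map_one]
      exact Subgroup.one_mem _) (by rw [← Subgroup.map_sup, sup_comm, h2])
  refine ⟨H.comap π, ?_, fun a ha haA hqa => ?_⟩
  · rw [Subgroup.index_comap_of_surjective _ hπ, hH.index_eq_card]
    obtain ⟨k, hk⟩ := IsPGroup.iff_card.1 hp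
    rw [hk]
    refine Nat.pow_le_pow_right hq.pos ((hq.pow_dvd_iff_le_factorization Nat.card_pos.ne').1 ?_)
    rw [← hk]
    exact A.card_map_dvd π
  · have h3 : π a ∈ A.map π ⊓ H := ⟨⟨a, haA, rfl⟩, ha⟩
    rw [hH.disjoint.eq_bot, Subgroup.mem_bot] at h3
    exact Nat.not_dvd_ordCompl hq Nat.card_pos.ne'
      (hqa.trans (orderOf_dvd_of_pow_eq_one ((QuotientGroup.eq_one_iff a).1 h3).2.2))

/-- Let `A` be an abelian normal subgroup of the finite group `G`. Then `A` has a complement in `G` if and only if, for every prime `p` dividing the index of `A`, there are a Sylow `p`-subgroup `S` of `G/A` and a subgroup `K` of `G` with `K ∩ A = 1` and `KA` equal to the preimage of `S` (that is, `A` has a complement in the preimage of a Sylow `p`-subgroup of `G/A`). -/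
theorem result {G : Type*} [Group G] [Finite G] (A : Subgroup G) [A.Normal] (hA : IsMulCommutative A) : (∃ K : Subgroup G, K.IsComplement' A) ↔ ∀ p : ℕ, p.Prime → p ∣ A.index → ∃ (S : Sylow p (G ⧸ A)) (K : Subgroup G), K ⊓ A = ⊥ ∧ K ⊔ A = (S : Subgroup (G ⧸ A)).comap (QuotientGroup.mk' A) := by
  constructor
  · rintro ⟨H, hH⟩ p hp -
    have := Fact.mk hp
    obtain ⟨S⟩ : Nonempty (Sylow p (G ⧸ A)) := inferInstance
    refine ⟨S, H ⊓ (S : Subgroup (G ⧸ A)).comap (QuotientGroup.mk' A), ?_, ?_⟩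
    · exact le_bot_iff.1 (hH.disjoint.eq_bot ▸ inf_le_inf_right _ inf_le_left)
    · rw [sup_comm, ← Solv.sup_inf_of_le_left (by simp [Subgroup.normalizer_eq_top])
        (Solv.le_comap_mk' A _), sup_comm, hH.sup_eq_top, top_inf_eq]
  · intro h
    have key : ∀ q : (Nat.card A).primeFactors, ∃ H : Subgroup G,
        H.index ≤ (q : ℕ) ^ (Nat.card A).factorization q ∧ ∀ a ∈ H, a ∈ A → ¬ (q : ℕ) ∣ orderOf a := by
      rintro ⟨q, hq⟩
      have hq' := Nat.prime_of_mem_primeFactors hq
      by_cases hd : q ∣ A.index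
      · obtain ⟨S, K, h1, h2⟩ := h q hq' hd
        have := Fact.mk hq'
        refine aux A hA hq' ?_ h1 h2
        rw [Subgroup.index_comap_of_surjective _ (QuotientGroup.mk'_surjective A)]
        exact S.not_dvd_index
      · exact aux A hA hq' hd (bot_inf_eq A) (bot_sup_eq A)
    choose H hH1 hH2 using key
    have hd : Disjoint (⨅ q, H q) A := by
      rw [Subgroup.disjoint_def]
      intro a ha haA
      by_contra ha1
      obtain ⟨q, hq, hqa⟩ := Nat.exists_prime_and_dvd (mt orderOf_eq_one_iff.1 ha1)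
      exact hH2 ⟨q, Nat.mem_primeFactors.2 ⟨hq, hqa.trans (A.orderOf_dvd_natCard haA),
        Nat.card_pos.ne'⟩⟩ a (Subgroup.mem_iInf.1 ha _) haA hqa
    refine ⟨⨅ q, H q, Subgroup.isComplement'_of_card_mul_and_disjoint (le_antisymm ?_ ?_) hd⟩
    · rw [← Nat.card_prod]
      exact Nat.card_le_card_of_injective _ (Subgroup.mul_injective_of_disjoint hd)
    · rw [← (⨅ q, H q).card_mul_index]
      refine Nat.mul_le_mul_left _ ((Subgroup.index_iInf_le H).trans
        ((Finset.prod_le_prod' fun q _ => hH1 q).trans (le_of_eq ?_)))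
      rw [Finset.prod_coe_sort _ fun q => q ^ (Nat.card A).factorization q]
      exact Nat.factorization_prod_pow_eq_self Nat.card_pos.ne'

end Cfsg.Agent.S4217
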