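import Cfsg.Statements.S4218
import Cfsg.Agent.PLocal.PSolv
import Cfsg.Agent.Solv.Frattini
import Cfsg.Agent.Solv.Separable
import Cfsg.Agent.Transfer.Residual

set_option autoImplicit false
open Cfsg

namespace Cfsg.Agent.S4218

open scoped commutatorElement

theorem aux {G : Type*} [Group G] [Finite G] {p : ℕ} [Fact p.Prime]
    (hC : Subgroup.centralizer (pCore p G : Set G) ≤ pCore p G) {g : G}
    (hg : ∀ x ∈ pCore p G, ⁅g, x⁆ ∈ (frattini (pCore p G)).map (pCore p G).subtype) :
    g ∈ pCore p G := by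
  let F := (frattini (pCore p G)).map (pCore p G).subtype
  have hQ := Solv.isPGroup_pCore p G
  have : ((pCore p G).map (QuotientGroup.mk' F)).Normal :=
    Subgroup.Normal.map inferInstance _ (QuotientGroup.mk'_surjective F)
  let C := (Subgroup.centralizer ((pCore p G).map (QuotientGroup.mk' F) : Set (G ⧸ F))).comap
    (QuotientGroup.mk' F)
  have hmem : ∀ h, h ∈ C ↔ ∀ x ∈ pCore p G, ⁅x, h⁆ ∈ F := fun h => by
    simp only [C, Subgroup.mem_comap, Subgroup.mem_centralizer_iff, Subgroup.coe_map,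
      Set.forall_mem_image, SetLike.mem_coe]
    refine forall₂_congr fun x _ => ?_
    rw [← commutatorElement_eq_one_iff_mul_comm, ← map_commutatorElement]
    exact QuotientGroup.eq_one_iff _
  refine Solv.le_pCore (N := C) (fun h => ?_) ((hmem g).2 fun x hx => ?_)
  · obtain ⟨a, b, -, hb, ⟨k, hk⟩, hbp, hab⟩ := Transfer.exists_pPart_mul_pPrimePart (p := p) (h : G)
    have hbC : Subgroup.zpowers b ≤ C :=
      Subgroup.zpowers_le.2 (Subgroup.zpowers_le.2 h.2 hb)
    have h1 : Subgroup.zpowers b ≤ Subgroup.centralizer (pCore p G : Set G) := by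
      refine Solv.le_centralizer_of_commutator_le_frattini (by simp [Subgroup.normalizer_eq_top]) ?_ ?_
      · rw [Nat.card_zpowers]
        exact (Solv.coprime_card_of_isPGroup (hQ.to_subgroup _) hbp).symm
      · exact Subgroup.commutator_le.2 fun x hx y hy => (hmem y).1 (hbC hy) x hx
    have h2 : b = 1 := Transfer.eq_one_of_mem_isPGroup_of_coprime hQ
      (hC (h1 (Subgroup.mem_zpowers b))) hbp
    exact ⟨k, Subtype.ext (by rw [Subgroup.coe_pow, hab, h2, mul_one, hk]; rfl)⟩
  · rw [← commutatorElement_inv]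
    exact F.inv_mem (hg x hx)

/-- Let `G` be a finite `p`-solvable group, `N₀ = O_{p'}(G)`, `P₁ = O_{p',p}(G)`, and let `F ≤ P₁` be the preimage of the Frattini subgroup of `P₁/N₀`. Then an element `g` of `G` induces the identity on `P₁/F` by conjugation (that is, `g x g⁻¹ x⁻¹ ∈ F` for all `x ∈ P₁`) if and only if `g ∈ P₁`: the group `G/P₁` acts faithfully on `P₁/F`. -/
theorem result {G : Type*} [Group G] [Finite G] {p : ℕ} [Fact p.Prime] (hG : Cfsg.IsPSolvable p G) (g : G) : (∀ x ∈ Cfsg.pPrimePCore p G, g * x * g⁻¹ * x⁻¹ ∈ ((frattini (↥(Cfsg.pPrimePCore p G) ⧸ (Cfsg.pPrimeCore p G).subgroupOf (Cfsg.pPrimePCore p G))).comap (QuotientGroup.mk' ((Cfsg.pPrimeCore p G).subgroupOf (Cfsg.pPrimePCore p G)))).map (Cfsg.pPrimePCore p G).subtype) ↔ g ∈ Cfsg.pPrimePCore p G := by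
  let π := QuotientGroup.mk' (pPrimeCore p G)
  let M := pPrimePCore p G
  let O := (pPrimeCore p G).subgroupOf M
  have hQ := Solv.isPGroup_pCore p (G ⧸ pPrimeCore p G)
  constructor
  · intro h
    refine aux (Solv.centralizer_pCore_le_of_isPSolvable (Solv.isPSolvable_quotient hG _)
      (Solv.pPrimeCore_quotient_pPrimeCore p G)) fun x hx => ?_
    obtain ⟨x, rfl⟩ := QuotientGroup.mk'_surjective _ x
    obtain ⟨y, hy, hyx⟩ := h x hx
    let φ : M →* pCore p (G ⧸ pPrimeCore p G) := π.subgroupComap _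
    let ψ : M ⧸ O →* pCore p (G ⧸ pPrimeCore p G) :=
      QuotientGroup.lift O φ fun z hz => Subtype.ext ((QuotientGroup.eq_one_iff _).2 hz)
    have hψ : Function.Surjective ψ := by
      rintro ⟨z, hz⟩
      obtain ⟨z, rfl⟩ := QuotientGroup.mk'_surjective _ z
      exact ⟨((⟨z, hz⟩ : M) : M ⧸ O), rfl⟩
    refine ⟨φ y, frattini_le_comap_frattini_of_surjective hψ hy, ?_⟩
    rw [← map_commutatorElement, commutatorElement_def, ← hyx]
    rfl
  · intro hg x hx
    have hP : IsPGroup p (M ⧸ O) := fun z => by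
      obtain ⟨z, rfl⟩ := QuotientGroup.mk_surjective z
      obtain ⟨k, hk⟩ := hQ ⟨π z, z.2⟩
      refine ⟨k, (QuotientGroup.eq_one_iff (z ^ p ^ k)).2 ?_⟩
      exact (QuotientGroup.eq_one_iff ((z : G) ^ p ^ k)).1 (congrArg Subtype.val hk)
    have := hP.isNilpotent
    refine ⟨⁅(⟨g, hg⟩ : M), ⟨x, hx⟩⁆, Solv.commutator_le_frattini ?_, rfl⟩
    show QuotientGroup.mk' O _ ∈ _
    rw [map_commutatorElement]
    exact Subgroup.commutator_mem_commutator (Subgroup.mem_top _) (Subgroup.mem_top _)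

end Cfsg.Agent.S4218
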