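import Cfsg.Statements.S4219
import Cfsg.Agent.Loc.Syl

set_option autoImplicit false
open Cfsg

namespace Cfsg.Agent.S4219

open Loc in
theorem aux {G : Type*} [Group G] [Finite G] {β : Type*} [MulAction G β]
    [MulAction.IsPretransitive G β] {x : β} {p : ℕ} [Fact p.Prime] {T : Subgroup G}
    (hT : SylIn p T (MulAction.stabilizer G x)) {a : β} (ha : T ≤ MulAction.stabilizer G a) :
    ∃ g ∈ Subgroup.normalizer (T : Set G), g • a = x := by
  obtain ⟨g, rfl⟩ := MulAction.exists_smul_eq G a x
  have h1 : SylIn p (cj g T) (MulAction.stabilizer G (g • a)) := by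
    refine sylIn_of_card_le hT ?_ (isPGroup_cj g hT.pg) (card_cj g T).ge
    rw [cj_le_iff_forall]
    intro y hy
    simp [mul_smul, show y • a = a from ha hy]
  obtain ⟨k, hk, h⟩ := h1.exists_conj hT
  exact ⟨k * g, mem_normalizer_iff_cj.2 (by rw [← cj_cj, h]), by rw [mul_smul]; exact hk⟩

/-- Let a finite group `G` act `t`-fold transitively on a finite set, let `H` be the stabilizer of `t` distinct points and `P` a Sylow `p`-subgroup of `H`. Then the normalizer of `P` in `G` is `t`-fold transitive on the fixed points of `P`: any `t` distinct fixed points of `P` can be carried to any other `t` distinct fixed points of `P` by an element normalizing `P`. -/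
theorem result {G : Type*} [Group G] [Finite G] {α : Type*} [Fintype α] [MulAction G α] {t : ℕ} (hG : MulAction.IsMultiplyPretransitive G α t) (x : Fin t ↪ α) {p : ℕ} [Fact p.Prime] (P : Sylow p (MulAction.stabilizer G x)) (a b : Fin t ↪ α) (ha : ∀ i, a i ∈ MulAction.fixedPoints ((P : Subgroup (MulAction.stabilizer G x)).map (MulAction.stabilizer G x).subtype) α) (hb : ∀ i, b i ∈ MulAction.fixedPoints ((P : Subgroup (MulAction.stabilizer G x)).map (MulAction.stabilizer G x).subtype) α) : ∃ g ∈ Subgroup.normalizer ((((P : Subgroup (MulAction.stabilizer G x)).map (MulAction.stabilizer G x).subtype) : Subgroup G) : Set G), g • a = b := by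
  have hT := Loc.sylIn_map_subtype P
  obtain ⟨g, hg, h1⟩ := aux hT (a := a) fun y hy => Function.Embedding.ext fun i => ha i ⟨y, hy⟩
  obtain ⟨k, hk, h2⟩ := aux hT (a := b) fun y hy => Function.Embedding.ext fun i => hb i ⟨y, hy⟩
  exact ⟨k⁻¹ * g, mul_mem (inv_mem hk) hg, by rw [mul_smul, h1, ← h2, inv_smul_smul]⟩

end Cfsg.Agent.S4219
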