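import Cfsg.Statements.S4220
import Cfsg.Agent.S4219
import Cfsg.Agent.S0711
import Cfsg.Agent.S0713
import Cfsg.Agent.S0415

set_option autoImplicit false
open Cfsg

namespace Cfsg.Agent.S4220

open MulAction Subgroup Finset
open scoped Pointwise

theorem core {Γ α : Type*} [Group Γ] [Finite Γ] [MulAction Γ α] [Fintype α] [DecidableEq α] {p k : ℕ} [hp : Fact p.Prime]
    (Q : Subgroup Γ) (hQ : IsPGroup p Q) (F : Finset α) (hF : ∀ a, a ∈ F ↔ ∀ u ∈ Q, u • a = a)
    (hc : #Fᶜ = k * p) (hk : 1 ≤ k) (hkp : k < p) (hkr : k < #F) (h3 : 3 ≤ #F) (h5 : 5 ≤ p)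
    (hsur : ∀ σ : Equiv.Perm F, ∃ g ∈ normalizer (Q : Set Γ), ∀ a : F, g • (a : α) = σ a)
    (hW : ∀ w ∈ Q, w ^ p = 1 → #(univ.filter fun a : α => w • a ≠ a) ≤ p → w = 1)
    (hS : ∀ g : Γ, (∀ a ∉ F, g • a = a) → g = 1) : False := by
  classical
  have ho : ∀ a ∉ F, (stabilizer Q a).index = p := fun a ha => by
    obtain ⟨n, hn⟩ := hQ.index (stabilizer Q a)
    have h1 : (stabilizer Q a).index ≤ k * p := by
      rw [index_stabilizer, ← hc, ← Set.ncard_coe_finset]
      refine Set.ncard_le_ncard ?_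
      rintro _ ⟨u, rfl⟩
      rw [mem_coe, mem_compl]
      intro e
      have := (hF _).1 e _ (inv_mem u.2)
      simp only [Subgroup.smul_def, inv_smul_smul] at this e
      exact ha (this ▸ e)
    have h0 : n ≠ 0 := fun e => ha ((hF a).2 fun u hu => by
      have : (⟨u, hu⟩ : Q) ∈ stabilizer Q a := by
        rw [index_eq_one.1 (by rw [hn, e, pow_zero] : (stabilizer Q a).index = 1)]; trivial
      exact this)
    have h2 : n < 2 := (Nat.pow_lt_pow_iff_right hp.out.one_lt).1 (by nlinarith)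
    rw [hn, show n = 1 by omega, pow_one]
  have hno : ∀ a ∉ F, (stabilizer Q a).Normal := fun a ha => by
    obtain ⟨n, hn⟩ := hQ.exists_card_eq
    refine normal_of_index_eq_minFac_card (by
      rw [ho a ha, hn, hp.out.pow_minFac]
      intro e
      have := (stabilizer Q a).index_dvd_card
      rw [ho a ha, hn, e, pow_zero] at this
      exact hp.out.one_lt.ne' (Nat.dvd_one.1 this))
  have hK : ∀ a ∉ F, ∀ b ∈ orbit Q a, ∀ u : Q, u • a = a → u • b = b := by
    rintro a ha _ ⟨v, rfl⟩ u hu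
    have := (hno a ha).conj_mem u hu v⁻¹
    rwa [mem_stabilizer_iff, inv_inv, mul_smul, mul_smul, inv_smul_eq_iff] at this
  have hχ : ∀ a ∉ F, ∃ c : Q → ZMod p, (∀ u v, c (u * v) = c u + c v) ∧ (∀ u, c u = 0 ↔ u • a = a) ∧ ∃ u, c u = 1 :=
    fun a ha => by
      haveI := hno a ha
      let e : Q ⧸ stabilizer Q a ≃* Multiplicative (ZMod p) := mulEquivOfPrimeCardEq (ho a ha) (by simp)
      refine ⟨fun u => (e u).toAdd, fun u v => by simp, fun u => ?_, ?_⟩
      · rw [toAdd_eq_zero, map_eq_one_iff _ e.injective, QuotientGroup.eq_one_iff]; rfl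
      · obtain ⟨u, hu⟩ := QuotientGroup.mk_surjective (e.symm (Multiplicative.ofAdd 1))
        exact ⟨u, by simp [hu]⟩
  choose! c c1 c2 c3 using hχ
  have c0 : ∀ a ∉ F, c a 1 = 0 := fun a ha => (c2 a ha 1).2 (one_smul _ _)
  have cp : ∀ a ∉ F, ∀ u (n : ℕ), c a (u ^ n) = n * c a u := fun a ha u n => by
    induction n with
    | zero => simp [c0 a ha]
    | succ n ih => rw [pow_succ, c1 a ha, ih]; push_cast; ring
  have ci : ∀ a ∉ F, ∀ u, c a u⁻¹ = - c a u := fun a ha u =>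
    eq_neg_of_add_eq_zero_left (by rw [← c1 a ha, inv_mul_cancel, c0 a ha])
  have cj : ∀ u v : Q, (∀ a ∉ F, c a u = c a v) → u = v := fun u v h => by
    rw [← mul_inv_eq_one]
    exact Subtype.ext (hS _ fun a ha => (c2 a ha _).1 (by rw [c1 a ha, ci a ha, h a ha, add_neg_cancel]))
  have hpw : ∀ u : Q, u ^ p = 1 := fun u => cj _ _ fun a ha => by rw [cp a ha, c0 a ha, ZMod.natCast_self, zero_mul]
  let N := normalizer (Q : Set Γ)
  let θ : N →* MulAut Q := Q.normalizerMonoidHom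
  have hθ : ∀ (y : N) (u : Q), ((θ y u : Q) : Γ) = y * u * (y : Γ)⁻¹ := fun _ _ => rfl
  have hθ' : ∀ (y : N) (u : Q) (a : α), θ y u • (y : Γ) • a = (y : Γ) • u • a := fun y u a => by
    simp only [Subgroup.smul_def, hθ, mul_smul, inv_smul_smul]
  have hFN : ∀ (y : N), ∀ a ∈ F, (y : Γ) • a ∈ F := fun y a ha => (hF _).2 fun u hu => by
    have := hθ' y ((θ y).symm ⟨u, hu⟩) a
    rwa [MulEquiv.apply_symm_apply, Subgroup.smul_def (m := a), (hF a).1 ha _ (Subtype.prop _)] at this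
  let FF : SubMulAction N α := ⟨F, fun y _ ha => hFN y _ ha⟩
  have hOs : ∀ (y : N) (a : α), y • orbit Q a = orbit Q ((y : Γ) • a) := fun y a => by
    ext b
    constructor
    · rintro ⟨_, ⟨u, rfl⟩, rfl⟩
      exact ⟨θ y u, hθ' y u a⟩
    · rintro ⟨u, rfl⟩
      exact ⟨_, ⟨(θ y).symm u, rfl⟩, by simpa [Subgroup.smul_def] using (hθ' y ((θ y).symm u) a).symm⟩
  let OO : SubMulAction N (Set α) := ⟨{S | ∃ a ∉ F, S = orbit Q a}, by
    rintro y _ ⟨a, ha, rfl⟩
    exact ⟨_, fun e => ha (by simpa using hFN y⁻¹ _ e), hOs y a⟩⟩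
  have hO : #(Fᶜ.image fun a => orbit Q a) = k := by
    rw [card_eq_sum_card_image (fun a => orbit Q a), sum_const_nat (m := p)] at hc
    · exact Nat.eq_of_mul_eq_mul_right hp.out.pos hc
    · intro S hS
      obtain ⟨a, ha, rfl⟩ := mem_image.1 hS
      rw [← ho a (mem_compl.1 ha), index_stabilizer, ← Set.ncard_coe_finset]
      congr 1
      ext b
      simp only [coe_filter, mem_compl, Set.mem_setOf_eq, orbit_eq_iff, and_iff_right_iff_imp]
      rintro ⟨u, rfl⟩ e
      exact mem_compl.1 ha (by simpa [Subgroup.smul_def] using hFN ⟨(u : Γ)⁻¹, le_normalizer (inv_mem u.2)⟩ _ e)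
  have hOc : Nat.card OO = k := by
    rw [← hO, ← Nat.card_eq_finsetCard]
    exact Nat.card_congr (Equiv.subtypeEquivRight fun S => by
      simp only [mem_image, mem_compl]
      exact ⟨fun ⟨a, h, e⟩ => ⟨a, h, e.symm⟩, fun ⟨a, h, e⟩ => ⟨a, h, e.symm⟩⟩)
  let φ := toPermHom N FF
  let ψ := toPermHom N OO
  have hφ : Function.Surjective φ := fun σ => by
    obtain ⟨g, hg, e⟩ := hsur σ
    exact ⟨⟨g, hg⟩, Equiv.ext fun a => Subtype.ext (e a)⟩
  have hFc : Nat.card FF = #F := Nat.card_eq_finsetCard F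
  have hψ : ∀ y ∈ ψ.ker, ∀ a ∉ F, (y : Γ) • a ∈ orbit Q a := fun y hy a ha => by
    have := congrArg Subtype.val (Equiv.congr_fun (MonoidHom.mem_ker.1 hy) ⟨_, a, ha, rfl⟩)
    rw [← orbit_eq_iff, ← hOs]; exact this
  have he : ∀ y ∈ ψ.ker, ∀ a ∉ F, ∃ e : ZMod p, ∀ u, c a (θ y u) = e * c a u := fun y hy a ha => by
    obtain ⟨u0, hu0⟩ := c3 a ha
    refine ⟨c a (θ y u0), fun u => ?_⟩
    have h1 : (u * (u0 ^ (c a u).val)⁻¹) • a = a := (c2 a ha _).1 (by
      rw [c1 a ha, ci a ha, cp a ha, hu0]; simp)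
    have h2 := hθ' y _ _ ▸ congrArg ((y : Γ) • ·) (hK a ha _ (hψ _ (inv_mem hy) a ha) _ h1)
    simp only [InvMemClass.coe_inv, smul_inv_smul] at h2
    have h4 := (c2 a ha _).2 h2
    rw [map_mul, map_inv, map_pow, c1 a ha, ci a ha, cp a ha, add_neg_eq_zero] at h4
    rw [h4, mul_comm]; simp
  have hD : ∀ y ∈ ψ.ker, θ y = 1 → φ y = 1 := by
    have h1 : ∀ y ∈ ψ.ker ⊓ θ.ker, y ^ p = 1 := fun y hy => Subtype.ext (hS _ fun a ha => by
      obtain ⟨u, hu⟩ := hψ y hy.1 a ha
      have : ∀ n : ℕ, (y : Γ) ^ n • a = u ^ n • a := fun n => by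
        induction n with
        | zero => simp
        | succ n ih => rw [pow_succ', mul_smul, ih, ← hθ', MonoidHom.mem_ker.1 hy.2, ← hu, pow_succ, mul_smul]; rfl
      rw [SubgroupClass.coe_pow, this, hpw, one_smul])
    intro y hy hy'
    have hM := (inferInstance : (ψ.ker ⊓ θ.ker).Normal).map φ hφ
    have h2 : ∀ σ ∈ (ψ.ker ⊓ θ.ker).map φ, σ ^ p = 1 := by
      rintro _ ⟨z, hz, rfl⟩; rw [← map_pow, h1 z hz, map_one]
    have hm : φ y ∈ (ψ.ker ⊓ θ.ker).map φ := ⟨y, ⟨hy, hy'⟩, rfl⟩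
    generalize φ y = σ at hm
    by_contra h4
    obtain ⟨a, ha⟩ : ∃ a, σ a ≠ a := by by_contra hh; push Not at hh; exact h4 (Equiv.ext hh)
    by_cases h6 : σ (σ a) = a
    · obtain ⟨m, hm'⟩ := hp.out.odd_of_ne_two (by omega)
      have h7 : ∀ n : ℕ, (σ ^ (2 * n)) a = a := fun n => by
        induction n with
        | zero => simp
        | succ n ih => rw [mul_add, pow_add, mul_one, Equiv.Perm.mul_apply, sq σ, Equiv.Perm.mul_apply, h6, ih]
      have := Equiv.congr_fun (h2 σ hm) a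
      rw [hm', pow_succ', Equiv.Perm.mul_apply, h7] at this
      exact ha this
    · have h7 := h2 _ (mul_mem (hM.conj_mem σ hm (Equiv.swap (σ a) a)) (inv_mem hm))
      rw [mul_assoc, mul_assoc, Equiv.swap_inv, ← mul_assoc σ, ← Equiv.swap_apply_apply,
        Equiv.swap_comm (σ (σ a))] at h7
      have h8 := orderOf_dvd_of_pow_eq_one h7
      rw [(Equiv.Perm.isThreeCycle_swap_mul_swap_same ha (σ.injective.ne ha).symm (Ne.symm h6)).orderOf] at h8
      have := (Nat.prime_dvd_prime_iff_eq Nat.prime_three hp.out).1 h8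
      omega
  have hcm : ∀ y ∈ ψ.ker, ∀ z : N, (∀ u, θ y (θ z u) = θ z (θ y u)) → φ y * φ z = φ z * φ y := fun y hy z h => by
    have h1 : y * (z * y⁻¹ * z⁻¹) ∈ ψ.ker := mul_mem hy ((MonoidHom.normal_ker ψ).conj_mem _ (inv_mem hy) z)
    have h2 := hD _ h1 (by
      have : θ y * θ z = θ z * θ y := MulEquiv.ext h
      simp only [map_mul, map_inv]
      rw [← mul_assoc, ← mul_assoc, this]; group)
    simp only [map_mul, map_inv] at h2
    rw [← mul_inv_eq_one, ← h2]; group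
  have hM := (MonoidHom.normal_ker ψ).map φ hφ
  have hM1 : ψ.ker.map φ ≠ ⊥ := fun e => by
    have h1 := ψ.ker.index_map_dvd hφ
    rw [e, index_bot, index_ker, Nat.card_perm, hFc] at h1
    have h2 := (Nat.le_of_dvd Nat.card_pos h1).trans (card_le_card_group ψ.range)
    rw [Nat.card_perm, hOc] at h2
    exact absurd h2 (not_le.2 ((Nat.factorial_lt hk).2 hkr))
  by_cases hr : 5 ≤ #F
  · have h1 := Equiv.Perm.alternatingGroup_le_of_normal (hFc ▸ hr) ((nontrivial_iff_ne_bot _).2 hM1)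
    have h2 : IsMulCommutative (alternatingGroup FF) := ⟨⟨fun a b => Subtype.ext (by
      obtain ⟨y, hy, e⟩ := h1 a.2
      obtain ⟨z, hz, e'⟩ := h1 b.2
      rw [Subgroup.coe_mul, Subgroup.coe_mul, ← e, ← e']
      refine hcm y hy z fun u => cj _ _ fun a ha => ?_
      obtain ⟨e1, h1⟩ := he y hy a ha
      obtain ⟨e2, h2⟩ := he z hz a ha
      rw [h1, h2, h2, h1]; ring)⟩⟩
    rw [alternatingGroup.isMulCommutative_iff_card_le_three] at h2
    omega
  obtain ⟨a1, h1, a2, h2, a3, h3', hcov⟩ : ∃ a1 ∉ F, ∃ a2 ∉ F, ∃ a3 ∉ F, ∀ d ∉ F,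
      d ∈ orbit Q a1 ∨ d ∈ orbit Q a2 ∨ d ∈ orbit Q a3 := by
    obtain ⟨S1, h1, S2, h2, S3, h3, h⟩ : ∃ S1 ∈ Fᶜ.image fun a => orbit Q a, ∃ S2 ∈ Fᶜ.image fun a => orbit Q a,
        ∃ S3 ∈ Fᶜ.image fun a => orbit Q a, ∀ S ∈ Fᶜ.image fun a => orbit Q a, S = S1 ∨ S = S2 ∨ S = S3 := by
      generalize (Fᶜ.image fun a => orbit Q a) = s at hO
      rcases (show k = 1 ∨ k = 2 ∨ k = 3 by omega) with rfl | rfl | rfl
      · obtain ⟨a, rfl⟩ := card_eq_one.1 hO
        exact ⟨a, by simp, a, by simp, a, by simp, by simp⟩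
      · obtain ⟨a, b, -, rfl⟩ := card_eq_two.1 hO
        exact ⟨a, by simp, b, by simp, b, by simp, by simp⟩
      · obtain ⟨a, b, d, -, -, -, rfl⟩ := card_eq_three.1 hO
        exact ⟨a, by simp, b, by simp, d, by simp, by simp⟩
    obtain ⟨a1, g1, rfl⟩ := mem_image.1 h1
    obtain ⟨a2, g2, rfl⟩ := mem_image.1 h2
    obtain ⟨a3, g3, rfl⟩ := mem_image.1 h3
    exact ⟨a1, mem_compl.1 g1, a2, mem_compl.1 g2, a3, mem_compl.1 g3, fun d hd => by
      simpa only [orbit_eq_iff] using h _ (mem_image_of_mem _ (mem_compl.2 hd))⟩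
  obtain ⟨_, ⟨y, hy, rfl⟩, hy1⟩ := (bot_or_exists_ne_one _).resolve_left hM1
  choose! e he using he y hy
  let T : α → Q → Q := fun a u => θ y u * (u ^ (e a).val)⁻¹
  have hT : ∀ a, ∀ b ∉ F, ∀ u, c b (T a u) = (e b - e a) * c b u := fun a b hb u => by
    rw [c1 b hb, ci b hb, cp b hb, he b hb]; simp; ring
  have key : ∀ a1 ∉ F, ∀ a2 ∉ F, ∀ a3 ∉ F, (∀ d ∉ F, d ∈ orbit Q a1 ∨ d ∈ orbit Q a2 ∨ d ∈ orbit Q a3) →
      e a3 = e a1 ∨ e a3 = e a2 := fun a1 h1 a2 h2 a3 h3 hcov => by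
    obtain ⟨u, hu⟩ := c3 a3 h3
    have h4 : T a1 (T a2 u) = 1 := Subtype.ext (hW _ (Subtype.prop _) (congrArg Subtype.val (hpw _)) (by
      rw [← ho a3 h3, index_stabilizer, ← Set.ncard_coe_finset]
      refine Set.ncard_le_ncard fun d hd => ?_
      replace hd := (mem_filter.1 hd).2
      rcases hcov d fun e => hd ((hF d).1 e _ (Subtype.prop _)) with h | h | h
      · exact absurd (hK a1 h1 d h _ ((c2 a1 h1 _).1 (by rw [hT _ _ h1]; simp))) hd
      · exact absurd (hK a2 h2 d h _ ((c2 a2 h2 _).1 (by rw [hT _ _ h2, hT _ _ h2]; simp))) hd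
      · exact h))
    have := congrArg (c a3) h4
    rw [hT _ _ h3, hT _ _ h3, hu, c0 a3 h3, mul_one, mul_eq_zero, sub_eq_zero, sub_eq_zero] at this
    exact this
  have k1 := key a1 h1 a2 h2 a3 h3' hcov
  have k2 := key a1 h1 a3 h3' a2 h2 fun d hd => by have := hcov d hd; tauto
  have k3 := key a2 h2 a3 h3' a1 h1 fun d hd => by have := hcov d hd; tauto
  have k4 : ∀ u, θ y u = u ^ (e a1).val := fun u => by
    rw [← mul_inv_eq_one]
    refine Subtype.ext (hS _ fun d hd => ?_)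
    rcases hcov d hd with h | h | h
    · exact hK a1 h1 d h (T a1 u) ((c2 a1 h1 _).1 (by rw [hT _ _ h1]; simp))
    · exact hK a2 h2 d h (T a1 u) ((c2 a2 h2 _).1 (by rw [hT _ _ h2, show e a2 = e a1 by grind]; simp))
    · exact hK a3 h3' d h (T a1 u) ((c2 a3 h3' _).1 (by rw [hT _ _ h3', show e a3 = e a1 by grind]; simp))
  obtain ⟨a, ha⟩ : ∃ a, φ y a ≠ a := by by_contra hh; push Not at hh; exact hy1 (Equiv.ext hh)
  obtain ⟨b, hb1, hb2⟩ := ENat.exists_ne_ne_of_three_le (α := FF) (by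
    rw [ENat.card_eq_coe_natCard, hFc]; exact_mod_cast h3) a (φ y a)
  obtain ⟨z, hz⟩ := hφ (Equiv.swap (φ y a) b)
  have := Equiv.congr_fun (hcm y hy z fun u => by rw [k4, k4, map_pow]) a
  rw [hz, Equiv.Perm.mul_apply, Equiv.Perm.mul_apply, Equiv.swap_apply_left,
    Equiv.swap_apply_of_ne_of_ne ha.symm hb1.symm] at this
  exact hb2 this.symm

/-- Let `n = kp + r` with `p` prime, `1 ≤ k < p` and `r > k`, excluding the case `k = 1, r = 2`. Then a permutation group of degree `n` that is `(r + 1)`-fold transitive contains the alternating group. -/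
theorem result {α : Type*} [Fintype α] [DecidableEq α] (G : Subgroup (Equiv.Perm α)) {k p r : ℕ} (hp : p.Prime) (hn : Fintype.card α = k * p + r) (hk : 1 ≤ k) (hpk : k < p) (hrk : k < r) (hex : ¬ (k = 1 ∧ r = 2)) (hG : MulAction.IsMultiplyPretransitive G α (r + 1)) : alternatingGroup α ≤ G := by
  by_contra hA
  haveI := Fact.mk hp
  have hr : 3 ≤ r := by omega
  have hkp : 2 ≤ k * p := by nlinarith [hp.two_le]
  have hS : ∀ g : G, #(g : Equiv.Perm α).support < 2 * r → g = 1 := fun g hg => by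
    by_contra e
    exact hA (S0711.result G (k := r + 1) (by omega) (by omega) hG g g.2 (fun h => e (Subtype.ext h)) (by omega)).2
  obtain ⟨x⟩ : Nonempty (Fin r ↪ α) := Function.Embedding.nonempty_of_card_le (by simp; omega)
  have hG' : ∀ m ≤ r + 1, IsMultiplyPretransitive G α m := fun m hm =>
    isMultiplyPretransitive_of_le (n := r + 1) hm (by rw [Nat.card_eq_fintype_card]; omega)
  obtain ⟨P⟩ : Nonempty (Sylow p (stabilizer G x)) := inferInstance
  let Q : Subgroup G := (P : Subgroup (stabilizer G x)).map (stabilizer G x).subtype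
  let F : Finset α := univ.map x
  have mF : ∀ a, a ∈ F ↔ a ∈ Set.range x := fun a => by simp [F]
  have hFr : #F = r := by simp [F]
  have hc : #Fᶜ = k * p := by rw [card_compl, hFr, hn]; omega
  have hx : ∀ u : stabilizer G x, ∀ a ∈ F, (u : G) • a = a := fun u a ha => by
    obtain ⟨i, rfl⟩ := (mF a).1 ha
    exact DFunLike.congr_fun (mem_stabilizer_iff.1 u.2) i
  have hF : ∀ a, a ∈ F ↔ ∀ u ∈ Q, u • a = a := fun a => by
    refine ⟨by rintro ha _ ⟨u, -, rfl⟩; exact hx u a ha, fun h => ?_⟩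
    by_contra ha
    have h1 : orbit (stabilizer G x) a = (Fᶜ : Finset α) := by
      ext b
      rw [mem_coe, mem_compl]
      constructor
      · rintro ⟨u, rfl⟩ e
        have := hx u⁻¹ _ e
        simp only [Subgroup.smul_def, InvMemClass.coe_inv, inv_smul_smul] at this e
        exact ha (this ▸ e)
      · intro hb
        obtain ⟨g, hg⟩ := hG.exists_smul_eq (Fin.Embedding.snoc x (mt (mF a).2 ha)) (Fin.Embedding.snoc x (mt (mF b).2 hb))
        refine ⟨⟨g, Function.Embedding.ext fun i => ?_⟩, ?_⟩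
        · change g • x i = x i
          simpa [Fin.Embedding.snoc_castSucc] using DFunLike.congr_fun hg i.castSucc
        · change g • a = b
          simpa [Fin.Embedding.snoc_last] using DFunLike.congr_fun hg (Fin.last r)
    have h2 : (P : Subgroup (stabilizer G x)) ≤ stabilizer (stabilizer G x) a := fun u hu => h _ ⟨u, hu, rfl⟩
    have h3 := index_dvd_of_le h2
    rw [index_stabilizer, h1, Set.ncard_coe_finset, hc] at h3
    exact P.not_dvd_index ((dvd_mul_left p k).trans h3)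
  by_cases h5 : 5 ≤ p
  · refine core Q (P.isPGroup'.map _) F hF hc hk hpk (by omega) (by omega) h5 (fun σ => ?_) (fun w hw h1 h2 => ?_)
      fun g hg => hS g (lt_of_le_of_lt (card_le_card fun a ha => by
        by_contra e; exact Equiv.Perm.mem_support.1 ha (hg a e)) (by omega : #F < 2 * r))
    · obtain ⟨g, hg, e⟩ := S4219.result (hG' r (by omega)) x P x
        ⟨fun i => σ ⟨x i, by simp [F]⟩, fun i j e => x.injective (congrArg Subtype.val (σ.injective (Subtype.ext e)))⟩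
        (fun i u => (hF _).1 (by simp [F]) _ u.2) (fun i u => (hF _).1 (Subtype.prop _) _ u.2)
      refine ⟨g, hg, fun ⟨a, ha⟩ => ?_⟩
      obtain ⟨i, rfl⟩ := (mF a).1 ha
      exact DFunLike.congr_fun e i
    · by_contra e
      have h3 : orderOf (w : Equiv.Perm α) = p := by rw [orderOf_coe]; exact orderOf_eq_prime h1 e
      have h4 := Equiv.Perm.isCycle_of_prime_order (h3 ▸ hp) (by
        rw [h3]; exact lt_of_le_of_lt h2 (by omega))
      have h6 := h4.orderOf.symm.trans h3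
      exact hA (S0713.result G (isPreprimitive_of_is_two_pretransitive (hG' 2 (by omega))) hp (by nlinarith)
        (by nlinarith) h4 h6 w.2)
  obtain ⟨a, ha⟩ : (Fᶜ).Nonempty := card_pos.1 (by omega)
  obtain ⟨u, hu, hua⟩ : ∃ u ∈ Q, u • a ≠ a := by
    by_contra hh; push Not at hh; exact mem_compl.1 ha ((hF a).2 hh)
  have h6 : 2 * r ≤ k * p := by
    by_contra hh
    refine hua (by rw [hS u (lt_of_le_of_lt (card_le_card fun b hb => mem_compl.2 fun e =>
      Equiv.Perm.mem_support.1 hb ((hF b).1 e u hu)) (by omega : #Fᶜ < 2 * r)), one_smul])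
  have h4 : p ≠ 4 := fun e => by rw [e] at hp; exact absurd hp (by decide)
  have h7 : p = 3 ∧ k = 2 ∧ r = 3 := by
    have : p < 5 := by omega
    interval_cases p <;> omega
  obtain ⟨rfl, rfl, rfl⟩ := h7
  have := S0415.result G (by omega) fun y => (eq_bot_iff_forall _).2 fun g hg => hS g (lt_of_le_of_lt
    (card_le_card (t := (univ.map y)ᶜ) fun b hb => mem_compl.2 fun e => Equiv.Perm.mem_support.1 hb (by
      obtain ⟨i, -, rfl⟩ := mem_map.1 e
      exact DFunLike.congr_fun (mem_stabilizer_iff.1 hg) i)) (by rw [card_compl, hn]; simp))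
  omega

end Cfsg.Agent.S4220
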