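import Cfsg.Statements.S4221
import Cfsg.Agent.Perm.Hall4
import Cfsg.Agent.Perm.Deg11
import Cfsg.Agent.S0711

set_option autoImplicit false
open Cfsg

namespace Cfsg.Agent.S4221

open MulAction Perm Equiv Equiv.Perm

/-- Let `G` be a `4`-fold transitive permutation group on a finite set of `n` points in which the pointwise stabilizer of some four distinct points has odd order. Then `n = 4` or `n = 5` with `G` the full symmetric group, or `n = 6` or `n = 7` with `G` the alternating group, or `n = 11` and `G` has order `7920`. -/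
theorem result {α : Type*} [Fintype α] [DecidableEq α] (G : Subgroup (Equiv.Perm α)) (hG : MulAction.IsMultiplyPretransitive G α 4) (x : Fin 4 ↪ α) (hodd : Odd (Nat.card (MulAction.stabilizer G x))) : ((Fintype.card α = 4 ∨ Fintype.card α = 5) ∧ G = ⊤) ∨ ((Fintype.card α = 6 ∨ Fintype.card α = 7) ∧ G = alternatingGroup α) ∨ (Fintype.card α = 11 ∧ Nat.card G = 7920) := by
  have hn : 4 ≤ Fintype.card α := by simpa using Fintype.card_le_of_embedding x
  have hcard := @card_mul_card_stabilizer G _ _ _ hG x
  have h : NoInv G α 4 := fun g hg s hs hfix => by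
    obtain ⟨t, ht, htc⟩ := Finset.exists_subset_card_eq hs
    obtain ⟨k, hk⟩ := hG.exists_smul_eq ((t.equivFinOfCardEq htc).symm.toEmbedding.trans
      (Function.Embedding.subtype _)) x
    have h1 : k * g * k⁻¹ ∈ stabilizer G x := by
      rw [mem_stabilizer_iff, mul_smul, mul_smul, inv_smul_eq_iff.2 hk.symm, ← hk]
      congr 1
      exact Function.Embedding.ext fun i => hfix _ (ht ((t.equivFinOfCardEq htc).symm i).2)
    have h2 := hodd.of_dvd_nat (Subgroup.orderOf_dvd_natCard _ h1)
    rw [show orderOf (k * g * k⁻¹) = orderOf g from (MulAut.conj k).orderOf_eq g] at h2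
    rw [← pow_orderOf_eq_one g, eq_comm]
    obtain ⟨m, hm⟩ := h2
    rw [hm, pow_succ, pow_mul, sq, hg, one_pow, one_mul]
  have hsupp : ∀ (g : Perm α) (s : Finset α), (∀ a ∈ s, g a = a) →
      g.support.card + s.card ≤ Fintype.card α := fun g s hs => by
    have := Finset.card_le_card (show g.support ⊆ sᶜ from fun a ha =>
      Finset.mem_compl.2 fun h => mem_support.1 ha (hs a h))
    have := s.card_le_univ
    rw [Finset.card_compl] at *
    omega
  have hx : ∀ i j, i ≠ j → x i ≠ x j := fun i j h => x.injective.ne h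
  have hinv : ∀ g ∈ G, g * g = 1 → g.support.card + 4 ≤ Fintype.card α → g = 1 := fun g hg h1 h2 =>
    congrArg Subtype.val (h ⟨g, hg⟩ (Subtype.ext h1) g.supportᶜ (by rw [Finset.card_compl]; omega)
      fun a ha => notMem_support.1 (Finset.mem_compl.1 ha))
  have hA : 8 ≤ Fintype.card α → ¬ alternatingGroup α ≤ G := fun h8 hA => by
    have h1 := hinv (swap (x 0) (x 1) * swap (x 2) (x 3)) (hA (by simp [hx])) (by
      rw [← sq, Commute.mul_pow (disjoint_swap_swap (by simp [hx])).commute]; simp [sq])
      (by
        have := Finset.card_le_card (support_mul_le (swap (x 0) (x 1)) (swap (x 2) (x 3)))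
        have := Finset.card_union_le (swap (x 0) (x 1)).support (swap (x 2) (x 3)).support
        rw [card_support_swap (hx 0 1 (by decide)), card_support_swap (hx 2 3 (by decide))] at this
        simp only [Finset.sup_eq_union] at *
        omega)
    have := congrArg (· (x 0)) h1
    simp [swap_apply_of_ne_of_ne, hx] at this
  have h11 := Hall4.card_le hG h
  have h6 := Hall4.card_le_six hG h
  rw [Nat.card_eq_fintype_card] at h11 h6
  rw [Nat.even_iff] at h6
  by_cases h5 : Fintype.card α ≤ 5
  · refine Or.inl ⟨by omega, eq_top_of_isMultiplyPretransitive ?_⟩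
    exact isMultiplyPretransitive_of_le (n := 4) (by simp; omega) (by simpa using hn)
  by_cases h7 : Fintype.card α ≤ 7
  · refine Or.inr (Or.inl ⟨by omega, ?_⟩)
    obtain ⟨z, z1, z2, z3, z4⟩ := Sw.exists_invol h (Δ := {x 0, x 1, x 2, x 3}) (by simp [hx])
      (a := x 2) (b := x 3) (by
        obtain ⟨g, g1, g2, g3, g4⟩ := exists_smul_four hG (hx 0 1 (by decide)) (hx 0 2 (by decide))
          (hx 0 3 (by decide)) (hx 1 2 (by decide)) (hx 1 3 (by decide)) (hx 2 3 (by decide))
          (hx 0 1 (by decide)) (hx 0 3 (by decide)) (hx 0 2 (by decide)) (hx 1 3 (by decide))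
          (hx 1 2 (by decide)) (hx 3 2 (by decide))
        exact ⟨g, g3, g4, by simp +contextual [g1, g2]⟩)
    have h1 := hsupp z {x 0, x 1} (by
      simp only [Finset.mem_insert, Finset.mem_singleton, forall_eq_or_imp, forall_eq]
      exact ⟨z4 _ (by simp) (by simp [hx]) (by simp [hx]), z4 _ (by simp) (by simp [hx]) (by simp [hx])⟩)
    rw [Finset.card_pair (hx 0 1 (by decide))] at h1
    have h2 := (S0711.result G (by norm_num) hn hG z z.2 (fun e => hx 2 3 (by decide) (by
      rw [← z2]; change _ = (z : Perm α) _; rw [e]; rfl)) (by omega)).2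
    have : Nontrivial α := Fintype.one_lt_card_iff_nontrivial.1 (by omega)
    have h3 := Subgroup.index_dvd_of_le h2
    rw [alternatingGroup.index_eq_two, Nat.dvd_prime Nat.prime_two] at h3
    refine eq_alternatingGroup_of_index_eq_two (h3.resolve_left fun e => ?_)
    have := hinv (swap (x 0) (x 1)) (by rw [Subgroup.index_eq_one.1 e]; trivial) (swap_mul_self _ _)
      (by rw [card_support_swap (hx 0 1 (by decide))]; omega)
    simp [hx] at this
  refine Or.inr (Or.inr ?_)
  obtain h9 | h9 : Fintype.card α = 9 ∨ Fintype.card α = 11 := by omega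
  · obtain ⟨g, g1, s, g2, g3⟩ := Hall4.exists_fix_four hG h (by simpa using h9)
    have := hsupp g s g3
    exact absurd (S0711.result G (by norm_num) hn hG g g.2 (by simpa using g1) (by omega)).2
      (hA (by omega))
  have : Fact (Nat.Prime 11) := ⟨by norm_num⟩
  have h2 : IsMultiplyPretransitive G α 2 :=
    isMultiplyPretransitive_of_le (n := 4) (by norm_num) (by simpa using hn)
  have := isPretransitive_of_is_two_pretransitive (G := G) (α := α)
  obtain ⟨P⟩ : Nonempty (Sylow 11 G) := inferInstance
  obtain ⟨c, e, -, -, hc⟩ := exists_zcoord (Ω := α) (by simpa using h9) P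
  have hs : stabilizer G x = ⊥ := eq_bot_iff.2 fun g hg =>
    Subtype.ext (Deg11.eq_one_of_card_support_le hc h2 (hA (by omega)) g.2 (by
      have := hsupp g (Finset.univ.map x) fun a ha => by
        obtain ⟨i, -, rfl⟩ := Finset.mem_map.1 ha
        exact DFunLike.congr_fun hg i
      simp at this
      omega))
  rw [hs, Subgroup.card_bot, Nat.card_eq_fintype_card, Fintype.card_embedding_eq, h9] at hcard
  exact ⟨h9, hcard.symm⟩

end Cfsg.Agent.S4221
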