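import Cfsg.Statements.S4222
import Cfsg.Agent.SolvStr.Frattini

set_option autoImplicit false
open Cfsg

namespace Cfsg.Agent.S4222

/-- If a normal subgroup `N` of a finite group is complete (its centre is trivial and every automorphism of `N` is inner), then the group is the internal direct product of `N` and the centralizer of `N`: the centralizer is a complement to `N`. -/
theorem result {T : Type*} [Group T] [Finite T] (N : Subgroup T) [N.Normal] (hz : Subgroup.center ↥N = ⊥) (ha : Function.Surjective (MulAut.conj : ↥N →* MulAut ↥N)) : (Subgroup.centralizer (N : Set T)).IsComplement' N := by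
  refine SolvStr.isComplement'_of_inf_sup ?_ ?_
  · rw [eq_bot_iff]
    rintro x ⟨h1, h2⟩
    have : (⟨x, h2⟩ : N) ∈ Subgroup.center N :=
      Subgroup.mem_center_iff.2 fun y => Subtype.ext (h1 y y.2)
    rw [hz] at this
    exact congrArg Subtype.val (Subgroup.mem_bot.1 this)
  · rw [eq_top_iff]
    intro t _
    obtain ⟨n, hn⟩ := ha (MulAut.conjNormal t)
    have : (n : T)⁻¹ * t ∈ Subgroup.centralizer (N : Set T) := fun y hy => by
      have h : (n : T) * y * (n : T)⁻¹ = t * y * t⁻¹ := by
        have := congrArg Subtype.val (DFunLike.congr_fun hn (⟨y, hy⟩ : N))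
        exact this
      calc y * ((n : T)⁻¹ * t) = (n : T)⁻¹ * ((n : T) * y * (n : T)⁻¹) * t := by group
        _ = _ := by rw [h]; group
    simpa using mul_mem (Subgroup.mem_sup_right n.2) (Subgroup.mem_sup_left this)

end Cfsg.Agent.S4222
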