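import Cfsg.Statements.S4223
import Mathlib.GroupTheory.Complement
import Mathlib.Order.OrderIsoNat

set_option autoImplicit false
open Cfsg

namespace Cfsg.Agent.S4223

open Subgroup Function

universe u v

/-- directly indecomposable -/
def Indec (X : Type*) [Group X] : Prop :=
  Nontrivial X ∧ ∀ H K : Subgroup X, H.Normal → K.Normal → H ⊓ K = ⊥ → H ⊔ K = ⊤ → H = ⊥ ∨ K = ⊥

theorem fitting {X : Type*} [Group X] [Finite X] (h : Indec X) (φ : X →* X)
    (hφ : ∀ g x, φ (g * x * g⁻¹) = g * φ x * g⁻¹) : Injective φ ∨ ∃ n, ∀ x, φ^[n] x = 1 := by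
  obtain ⟨ψ, hψ⟩ : ∃ ψ : ℕ → X →* X, ∀ n x, ψ n x = φ^[n] x :=
    ⟨fun n => (show Monoid.End X from φ) ^ n, fun n => congrFun (Monoid.End.coe_pow _ _ n)⟩
  obtain ⟨n, hn⟩ := WellFoundedGT.monotone_chain_condition (α := Subgroup X) ⟨fun n => (ψ n).ker,
    monotone_nat_of_le_succ fun n x hx => by
      rw [MonoidHom.mem_ker, hψ] at hx ⊢; rw [iterate_succ_apply', hx, map_one]⟩
  have h1 : ∀ n g x, φ^[n] (g * x * g⁻¹) = g * φ^[n] x * g⁻¹ := fun n g x => by
    induction n with
    | zero => rfl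
    | succ n ih => rw [iterate_succ_apply', ih, hφ, iterate_succ_apply']
  have h2 : Disjoint (ψ (n + 1)).ker (ψ (n + 1)).range := by
    rw [disjoint_def]
    rintro _ hx ⟨x, rfl⟩
    have h3 : x ∈ (ψ (n + 1 + (n + 1))).ker := by
      rw [MonoidHom.mem_ker, hψ] at hx ⊢; rwa [iterate_add_apply, ← hψ _ x]
    exact ((hn _ (by omega)).symm.trans (hn _ n.le_succ)).le h3
  refine (h.2 _ _ inferInstance ⟨?_⟩ h2.eq_bot (isComplement'_of_card_mul_and_disjoint ?_ h2).sup_eq_top).imp
    (fun h a b hab => (MonoidHom.ker_eq_bot_iff _).1 h ?_) fun h => ⟨n + 1, fun x => h.le ⟨x, hψ _ x⟩⟩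
  · rintro _ ⟨x, rfl⟩ g; exact ⟨g * x * g⁻¹, by rw [hψ, hψ, h1]⟩
  · rw [← index_ker, card_mul_index]
  · rw [hψ, hψ, iterate_succ_apply, iterate_succ_apply, hab]

section
variable {ι κ : Type} [DecidableEq ι] [DecidableEq κ] {A : ι → Type u} {B : κ → Type v}
  [∀ i, Group (A i)] [∀ j, Group (B j)] (e : (∀ i, A i) ≃* (∀ j, B j)) (i : ι)

/-- the normal endomorphisms -/
def θ (s : Finset κ) : A i →* A i := (Pi.evalMonoidHom A i).comp (e.symm.toMonoidHom.comp
  ((MonoidHom.pi fun j => if j ∈ s then Pi.evalMonoidHom B j else 1).comp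
    (e.toMonoidHom.comp (MonoidHom.mulSingle A i))))

theorem θ_apply (s : Finset κ) (x : A i) :
    θ e i s x = e.symm (fun j => if j ∈ s then e (Pi.mulSingle i x) j else 1) i := by
  refine congrArg (e.symm · i) (funext fun j => ?_)
  simp only [MonoidHom.comp_apply, MonoidHom.pi_apply]
  split_ifs <;> rfl

theorem θ_conj (s : Finset κ) (g x : A i) : θ e i s (g * x * g⁻¹) = g * θ e i s x * g⁻¹ := by
  have : (fun j => if j ∈ s then e (Pi.mulSingle i (g * x * g⁻¹)) j else 1) = e (Pi.mulSingle i g) *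
      (fun j => if j ∈ s then e (Pi.mulSingle i x) j else 1) * (e (Pi.mulSingle i g))⁻¹ := by
    ext j; by_cases h : j ∈ s <;> simp [h, Pi.mulSingle_mul, Pi.mulSingle_inv]
  rw [θ_apply, θ_apply, this]
  simp

theorem θ_single (j : κ) (x : A i) : θ e i {j} x = e.symm (Pi.mulSingle j (e (Pi.mulSingle i x) j)) i := by
  rw [θ_apply]
  refine congrArg (e.symm · i) (funext fun k => ?_)
  rcases eq_or_ne k j with rfl | h <;> simp [*]

theorem exists_inj [Finite κ] [Finite (A i)] (h : Indec (A i)) : ∃ j, Injective (θ e i {j}) := by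
  have := Fintype.ofFinite κ
  have key : ∀ s, Injective (θ e i s) → ∃ j, Injective (θ e i {j}) := fun s => by
    induction s using Finset.induction_on with
    | empty =>
      intro h1
      obtain ⟨a, b, hab⟩ := h.1
      exact (hab (h1 (by simp [θ_apply]))).elim
    | insert j s hj ih =>
      intro h1
      let u := MulEquiv.ofBijective _ (Finite.injective_iff_bijective.1 h1)
      refine (fitting h (u.symm.toMonoidHom.comp (θ e i s)) fun g x => u.injective ?_).elim
        (fun h => ih (Injective.of_comp (f := u.symm) h)) fun ⟨n, hn⟩ => ⟨j, (injective_iff_map_eq_one _).2 fun x hx => ?_⟩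
      · exact (u.apply_symm_apply _).trans ((θ_conj e i s g x).trans (Eq.trans (by
          congr 2; exact (u.apply_symm_apply _).symm) (θ_conj e i _ g _).symm))
      have h2 : θ e i (insert j s) x = θ e i s x * θ e i {j} x := by
        rw [θ_apply, θ_apply, θ_apply, ← Pi.mul_apply, ← map_mul]
        refine congrArg (e.symm · i) (funext fun k => ?_)
        rcases eq_or_ne k j with rfl | h <;> simp [*]
      rw [hx, mul_one] at h2
      exact (iterate_fixed (f := u.symm.toMonoidHom.comp (θ e i s)) (u.symm_apply_eq.2 h2.symm) n).symm.trans (hn x)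
  exact key Finset.univ fun a b h => by simpa [θ_apply] using h

end

theorem aux (n : ℕ) : ∀ (ι κ : Type) [Finite ι] [Finite κ] (A : ι → Type u) (B : κ → Type v)
    [∀ i, Group (A i)] [∀ j, Group (B j)] [∀ i, Finite (A i)] [∀ j, Finite (B j)], Nat.card ι = n →
    (∀ i, Indec (A i)) → (∀ j, Indec (B j)) → ((∀ i, A i) ≃* (∀ j, B j)) →
      ∃ σ : ι ≃ κ, ∀ i, Nonempty (A i ≃* B (σ i)) := by
  classical
  induction n with
  | zero =>
    intro ι κ _ _ A B _ _ _ _ hn hA hB e
    have := Finite.card_eq_zero_iff.1 hn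
    have : IsEmpty κ := ⟨fun j => by
      obtain ⟨a, b, hab⟩ := (hB j).1
      exact hab (Pi.mulSingle_injective j (e.symm.injective (Subsingleton.elim _ _)))⟩
    exact ⟨Equiv.equivOfIsEmpty _ _, isEmptyElim⟩
  | succ n ih =>
  intro ι κ _ _ A B _ _ _ _ hn hA hB e
  obtain ⟨i⟩ := (Nat.card_ne_zero.1 (hn.trans_ne n.succ_ne_zero)).1
  obtain ⟨j, hj⟩ := exists_inj e i (hA i)
  let f : A i →* B j := (Pi.evalMonoidHom B j).comp (e.toMonoidHom.comp (MonoidHom.mulSingle A i))
  have h1 : ∀ x, f (θ e i {j} x) = θ e.symm j {i} (f x) := fun x => by rw [θ_single, θ_single]; rfl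
  have hf : Injective f := fun a b h => hj (by rw [θ_single, θ_single]; exact congrArg (e.symm <| Pi.mulSingle j ·) h ▸ rfl)
  have hf' : Surjective f := by
    rcases fitting (hB j) _ (θ_conj e.symm j {i}) with h | ⟨k, h⟩
    · intro y
      obtain ⟨z, rfl⟩ := Finite.injective_iff_surjective.1 h y
      exact ⟨_, (θ_single e.symm j i z).symm⟩
    · obtain ⟨a, b, hab⟩ := (hA i).1
      refine (hab (hj.iterate k (hf ?_))).elim
      have := Semiconj.iterate_right h1 k
      rw [this, this, h, h]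
  let F : (∀ k : {k // k ≠ j}, B k) →* ∀ k : {k // k ≠ i}, A k := (MonoidHom.pi fun k => Pi.evalMonoidHom A k.1).comp
    (e.symm.toMonoidHom.comp (MonoidHom.pi fun k =>
      if h : k ≠ j then Pi.evalMonoidHom (fun k : {k // k ≠ j} => B k) ⟨k, h⟩ else 1))
  have hF : Injective F := (injective_iff_map_eq_one _).2 fun y hy => by
    set z := (MonoidHom.pi fun k =>
      if h : k ≠ j then Pi.evalMonoidHom (fun k : {k // k ≠ j} => B k) ⟨k, h⟩ else 1) y with hz
    have h2 : e.symm z = Pi.mulSingle i (e.symm z i) := funext fun k => by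
      rcases eq_or_ne k i with rfl | h
      · simp
      · rw [Pi.mulSingle_eq_of_ne h]; exact congrFun hy ⟨k, h⟩
    have h3 : e.symm z i = 1 := hf (by
      change e (Pi.mulSingle i _) j = _
      rw [← h2]; simp [hz])
    rw [h3, Pi.mulSingle_one, map_eq_one_iff _ e.symm.injective] at h2
    ext k
    simpa [hz, k.2] using congrFun h2 k
  have h4 := Nat.card_congr ((Equiv.piSplitAt i A).symm.trans (e.toEquiv.trans (Equiv.piSplitAt j B)))
  rw [Nat.card_prod, Nat.card_prod, Nat.card_eq_of_bijective f ⟨hf, hf'⟩] at h4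
  obtain ⟨σ, hσ⟩ := ih {k // k ≠ i} {k // k ≠ j} (A ·) (B ·) (by
    rw [← Nat.card_congr (Equiv.optionSubtypeNe i), Finite.card_option] at hn; omega) (hA ·) (hB ·)
    (MulEquiv.ofBijective F ((Nat.bijective_iff_injective_and_card F).2
      ⟨hF, (Nat.eq_of_mul_eq_mul_left Nat.card_pos h4).symm⟩)).symm
  refine ⟨(Equiv.optionSubtypeNe i).symm.trans (σ.optionCongr.trans (Equiv.optionSubtypeNe j)), fun k => ?_⟩
  obtain ⟨_ | k, rfl⟩ := (Equiv.optionSubtypeNe i).surjective k <;> rw [Equiv.trans_apply, Equiv.symm_apply_apply]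
  · exact ⟨.ofBijective f ⟨hf, hf'⟩⟩
  · exact hσ k

/-- If a finite group is isomorphic both to a direct product of `m` directly indecomposable nontrivial groups and to a direct product of `n` such groups (a group is directly indecomposable when it is not the internal direct product of two nontrivial normal subgroups), then `m = n` and the factors are isomorphic in pairs after a suitable matching. -/
theorem result {m n : ℕ} {A : Fin m → Type*} {B : Fin n → Type*} [∀ i, Group (A i)] [∀ j, Group (B j)] [∀ i, Finite (A i)] [∀ j, Finite (B j)] (hA : ∀ i, Nontrivial (A i) ∧ ∀ H K : Subgroup (A i), H.Normal → K.Normal → H ⊓ K = ⊥ → H ⊔ K = ⊤ → H = ⊥ ∨ K = ⊥) (hB : ∀ j, Nontrivial (B j) ∧ ∀ H K : Subgroup (B j), H.Normal → K.Normal → H ⊓ K = ⊥ → H ⊔ K = ⊤ → H = ⊥ ∨ K = ⊥) (e : ((i : Fin m) → A i) ≃* ((j : Fin n) → B j)) : ∃ σ : Fin m ≃ Fin n, ∀ i, Nonempty (A i ≃* B (σ i)) := by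
  exact aux _ _ _ A B rfl hA hB e

end Cfsg.Agent.S4223
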