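import Cfsg.Statements.S4227
import Cfsg.Agent.Sig.HH3
import Cfsg.Agent.Char.Burnside

set_option autoImplicit false
open Cfsg

namespace Cfsg.Agent.S4227

open Subgroup Cfsg.Agent.BG Cfsg.Agent.Sig

/-- A finite group in which every element has order dividing `6` has `2`-length at most `1` and `3`-length at most `1`. -/
theorem result {G : Type*} [Group G] [Finite G] (h : ∀ x : G, x ^ 6 = 1) : Cfsg.PLengthLE 2 1 G ∧ Cfsg.PLengthLE 3 1 G := by
  haveI := Fact.mk Nat.prime_two
  haveI := Fact.mk Nat.prime_three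
  have h6 : ∀ r : ℕ, r.Prime → r ∣ Nat.card G → r = 2 ∨ r = 3 := fun r hr e => by
    haveI := Fact.mk hr
    obtain ⟨x, hx⟩ := exists_prime_orderOf_dvd_card' r e
    exact ((Nat.Prime.dvd_mul hr).1 (show r ∣ 2 * 3 from hx ▸ orderOf_dvd_of_pow_eq_one (h x))).imp
      (Nat.prime_dvd_prime_iff_eq hr Nat.prime_two).1 (Nat.prime_dvd_prime_iff_eq hr Nat.prime_three).1
  haveI := Char.isSolvable_of_two_primes h6
  have e : ∀ p q, p * q = 6 → p.Coprime q → HH.PExp p 1 G := fun p q e hc x k hx => by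
    rw [pow_one]
    exact orderOf_dvd_iff_pow_eq_one.1 ((Nat.Coprime.coprime_dvd_left (orderOf_dvd_of_pow_eq_one hx)
      (hc.pow_left k)).dvd_of_dvd_mul_right (e ▸ orderOf_dvd_of_pow_eq_one (h x)))
  have ab : ∀ P : Sylow 2 G, IsMulCommutative P := fun P => by
    have h : ∀ x : P, x⁻¹ = x := fun x => by
      obtain ⟨k, hk⟩ := P.2 x
      exact inv_eq_of_mul_eq_one_right (Subtype.ext (by
        simpa [sq] using e 2 3 rfl (by norm_num) x k (congrArg Subtype.val hk)))
    exact ⟨⟨fun x y => by rw [← h (x * y), mul_inv_rev, h, h]⟩⟩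
  refine ⟨PLocal.pLengthLE_of_class 1 G PLocal.pSolv_of_isSolvable default ?_,
    HH.plen_exp PLocal.pSolv_of_isSolvable (fun k h => (h.fermat (by norm_num)).2 default (ab _)) (e 3 2 rfl (by norm_num))⟩
  haveI := ab default
  letI : CommGroup (default : Sylow 2 G) := ⟨mul_comm'⟩
  exact CommGroup.nilpotencyClass_le_one

end Cfsg.Agent.S4227
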