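import Cfsg.Statements.S4275


set_option autoImplicit false
open Cfsg

namespace Cfsg.Agent.S4275

/-- Let G be a transitive group of permutations of a finite set Ω, let o ∈ Ω, and let α be an automorphism of G. Then α is induced by conjugation by a permutation of Ω normalizing G if and only if the image under α of the stabilizer of o fixes some point of Ω. -/
theorem result {Ω : Type*} [Fintype Ω] (G : Subgroup (Equiv.Perm Ω)) (htr : MulAction.IsPretransitive G Ω) (o : Ω) (α : G ≃* G) : (∃ σ : Equiv.Perm Ω, σ ∈ Subgroup.normalizer (G : Set (Equiv.Perm Ω)) ∧ ∀ g : G, ((α g : G) : Equiv.Perm Ω) = σ * (g : Equiv.Perm Ω) * σ⁻¹) ↔ ∃ ω : Ω, ∀ g ∈ (MulAction.stabilizer G o).map α.toMonoidHom, g • ω = ω := by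
  constructor
  · rintro ⟨σ, -, h⟩
    refine ⟨σ o, ?_⟩
    rintro _ ⟨g, hg, rfl⟩
    show ((α g : G) : Equiv.Perm Ω) (σ o) = σ o
    rw [h]
    have : (g : Equiv.Perm Ω) o = o := hg
    simp [this]
  · rintro ⟨ω, h⟩
    have h1 : (MulAction.stabilizer G o).map α.toMonoidHom = MulAction.stabilizer G ω := by
      refine Subgroup.eq_of_le_of_card_ge h (le_of_eq ?_)
      rw [Subgroup.card_map_of_injective α.injective]
      have : Nonempty Ω := ⟨o⟩
      refine Nat.eq_of_mul_eq_mul_right (Nat.card_pos (α := Ω)) ?_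
      rw [← MulAction.index_stabilizer_of_transitive G ω, Subgroup.card_mul_index,
        MulAction.index_stabilizer_of_transitive G ω,
        ← MulAction.index_stabilizer_of_transitive G o, Subgroup.card_mul_index]
    have h2 : ∀ a b : G, α a • ω = α b • ω ↔ a • o = b • o := fun a b => by
      rw [← inv_smul_eq_iff, ← mul_smul, ← MulAction.mem_stabilizer_iff, ← h1, ← map_inv, ← map_mul,
        ← inv_smul_eq_iff, ← mul_smul, ← MulAction.mem_stabilizer_iff]
      exact Subgroup.mem_map_iff_mem (f := α.toMonoidHom) α.injective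
    choose c hc using MulAction.exists_smul_eq G o
    let σ := Equiv.ofBijective (fun x => α (c x) • ω) (Finite.injective_iff_bijective.1
      fun x y hxy => by rw [← hc x, ← hc y]; exact (h2 _ _).1 hxy)
    have h3 : ∀ g : G, ((α g : G) : Equiv.Perm Ω) = σ * (g : Equiv.Perm Ω) * σ⁻¹ := fun g => by
      rw [eq_mul_inv_iff_mul_eq]
      ext x
      show α g • α (c x) • ω = α (c (g • x)) • ω
      rw [← mul_smul, ← map_mul, h2, mul_smul, hc, hc]
    exact ⟨σ, Subgroup.mem_normalizer_fintype fun g hg => h3 ⟨g, hg⟩ ▸ (α ⟨g, hg⟩).2, h3⟩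

end Cfsg.Agent.S4275
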