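import Cfsg.Statements.S4276

set_option autoImplicit false
open Cfsg

namespace Cfsg.Agent.S4276

open Equiv Finset

section
variable {G Ω : Type*} [Group G]

/-- the product action -/
def pr (φ ψ : G →* Perm Ω) : G →* Perm (Ω × Ω) where
  toFun g := Equiv.prodCongr (φ g) (ψ g)
  map_one' := by ext <;> simp
  map_mul' a b := by ext <;> simp

/-- number of fixed points -/
noncomputable def fx (φ : G →* Perm Ω) (g : G) : ℕ := Nat.card {x // φ g x = x}

/-- number of orbits on pairs -/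
noncomputable def nOrb (φ ψ : G →* Perm Ω) : ℕ :=
  Nat.card (Quotient (@MulAction.orbitRel G (Ω × Ω) _ (MulAction.compHom (Ω × Ω) (pr φ ψ))))

structure Two (φ ψ : G →* Perm Ω) (R : Ω → Ω → Prop) : Prop where
  rel : ∀ x y x' y', (∃ g, φ g x = x' ∧ ψ g y = y') ↔ (R x y ↔ R x' y')
  ne : ∃ x y, R x y
  ne' : ∃ x y, ¬ R x y

def TT (φ : G →* Perm Ω) : Prop := ∀ a b c d : Ω, a ≠ b → c ≠ d → ∃ g, φ g a = c ∧ φ g b = d

theorem rel_iff (φ ψ : G →* Perm Ω) (p q : Ω × Ω) :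
    (@MulAction.orbitRel G (Ω × Ω) _ (MulAction.compHom (Ω × Ω) (pr φ ψ))) p q ↔
      ∃ g, φ g q.1 = p.1 ∧ ψ g q.2 = p.2 := by
  rw [@MulAction.orbitRel_apply, @MulAction.mem_orbit_iff]
  exact exists_congr fun g => Prod.ext_iff

theorem burn [Fintype G] [Finite Ω] (φ ψ : G →* Perm Ω) :
    ∑ g, fx φ g * fx ψ g = nOrb φ ψ * Fintype.card G := by
  classical
  letI := MulAction.compHom (Ω × Ω) (pr φ ψ)
  haveI := Fintype.ofFinite (Quotient (MulAction.orbitRel G (Ω × Ω)))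
  haveI : ∀ a : G, Fintype (MulAction.fixedBy (Ω × Ω) a) := fun a => Fintype.ofFinite _
  have := MulAction.sum_card_fixedBy_eq_card_orbits_mul_card_group G (Ω × Ω)
  rw [nOrb, Nat.card_eq_fintype_card, ← this]
  refine Finset.sum_congr rfl fun g _ => ?_
  rw [fx, fx, ← Nat.card_prod, ← Nat.card_eq_fintype_card]
  exact Nat.card_congr
    { toFun := fun p => ⟨(p.1.1, p.2.1), Prod.ext p.1.2 p.2.2⟩
      invFun := fun p => (⟨p.1.1, congrArg Prod.fst p.2⟩, ⟨p.1.2, congrArg Prod.snd p.2⟩)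
      left_inv := fun _ => rfl
      right_inv := fun _ => rfl }

theorem Two.nOrb {φ ψ : G →* Perm Ω} {R : Ω → Ω → Prop} (h : Two φ ψ R) : nOrb φ ψ = 2 := by
  obtain ⟨x, y, h1⟩ := h.ne
  obtain ⟨x', y', h2⟩ := h.ne'
  refine Nat.card_eq_two_iff.2 ⟨Quotient.mk _ (x, y), Quotient.mk _ (x', y'), fun e => ?_, ?_⟩
  · exact h2 (((h.rel _ _ _ _).1 ((rel_iff φ ψ _ _).1 (Quotient.exact e))).2 h1)
  · refine Set.eq_univ_of_forall fun q => ?_
    obtain ⟨⟨a, b⟩, rfl⟩ := Quotient.exists_rep q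
    by_cases hab : R a b
    · exact Or.inl (Quotient.sound ((rel_iff φ ψ _ _).2 ((h.rel _ _ _ _).2 (iff_of_true h1 hab))))
    · exact Or.inr (Quotient.sound ((rel_iff φ ψ _ _).2 ((h.rel _ _ _ _).2 (iff_of_false h2 hab))))

theorem two_of_nOrb {φ ψ : G →* Perm Ω} (h : nOrb φ ψ = 2) (x y : Ω) :
    Two φ ψ (fun a b => ∃ g, φ g x = a ∧ ψ g y = b) := by
  set s := @MulAction.orbitRel G (Ω × Ω) _ (MulAction.compHom (Ω × Ω) (pr φ ψ)) with hs
  have key : ∀ p q : Ω × Ω, (∃ g, φ g q.1 = p.1 ∧ ψ g q.2 = p.2) ↔ Quotient.mk s p = Quotient.mk s q :=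
    fun p q => (rel_iff φ ψ p q).symm.trans Quotient.eq.symm
  obtain ⟨w, hw, hu⟩ := (Nat.card_eq_two_iff' (Quotient.mk s (x, y))).1 h
  refine ⟨fun a b c d => ?_, ⟨x, y, 1, by simp⟩, ?_⟩
  · rw [key (c, d) (a, b), key (a, b) (x, y), key (c, d) (x, y)]
    refine ⟨fun e => by rw [e], fun e => ?_⟩
    by_cases h1 : Quotient.mk s (a, b) = Quotient.mk s (x, y)
    · rw [h1, e.1 h1]
    · rw [hu _ h1, hu _ fun h2 => h1 (e.2 h2)]
  · obtain ⟨⟨a, b⟩, rfl⟩ := Quotient.exists_rep w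
    exact ⟨a, b, fun e => hw ((key (a, b) (x, y)).1 e)⟩

theorem TT.trans [Nontrivial Ω] {φ : G →* Perm Ω} (h : TT φ) (a c : Ω) : ∃ g, φ g a = c := by
  obtain ⟨b, hb⟩ := exists_ne a
  obtain ⟨d, hd⟩ := exists_ne c
  obtain ⟨g, hg, -⟩ := h a b c d hb.symm hd.symm
  exact ⟨g, hg⟩

theorem TT.two [Nontrivial Ω] {φ : G →* Perm Ω} (h : TT φ) : Two φ φ (· = ·) := by
  obtain ⟨a, b, hab⟩ := exists_pair_ne Ω
  refine ⟨fun x y x' y' => ⟨?_, fun e => ?_⟩, ⟨a, a, rfl⟩, ⟨a, b, hab⟩⟩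
  · rintro ⟨g, rfl, rfl⟩; simp
  · by_cases h1 : x = y
    · obtain ⟨g, hg⟩ := h.trans x x'
      exact ⟨g, hg, by rw [← h1, hg, e.1 h1]⟩
    · exact h _ _ _ _ h1 fun h2 => h1 (e.2 h2)

theorem TT.comp {φ : G →* Perm Ω} (h : TT φ) (α : MulAut G) : TT (φ.comp α.toMonoidHom) := fun a b c d h1 h2 => by
  obtain ⟨g, hg⟩ := h a b c d h1 h2
  exact ⟨α.symm g, by simpa using hg⟩

theorem fx_eq [Finite G] [Finite Ω] [Nontrivial Ω] {φ ψ : G →* Perm Ω} (h1 : TT φ) (h2 : TT ψ)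
    (h : 2 ≤ nOrb φ ψ) (g : G) : fx φ g = fx ψ g := by
  haveI := Fintype.ofFinite G
  have a1 := burn φ φ
  have a2 := burn ψ ψ
  have a3 := burn φ ψ
  rw [h1.two.nOrb] at a1
  rw [h2.two.nOrb] at a2
  have e : ∑ g, ((fx φ g : ℤ) - fx ψ g) ^ 2 = (4 - 2 * nOrb φ ψ) * Fintype.card G := by
    zify at a1 a2 a3
    have : ∀ g, ((fx φ g : ℤ) - fx ψ g) ^ 2 = fx φ g * fx φ g + fx ψ g * fx ψ g - 2 * (fx φ g * fx ψ g) :=
      fun g => by ring
    simp_rw [this]
    rw [Finset.sum_sub_distrib, Finset.sum_add_distrib, ← Finset.mul_sum, a1, a2, a3]; ring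
  have h0 : ∑ g, ((fx φ g : ℤ) - fx ψ g) ^ 2 = 0 := by
    refine le_antisymm ?_ (Finset.sum_nonneg fun g _ => sq_nonneg _)
    rw [e]
    exact mul_nonpos_of_nonpos_of_nonneg (by omega) (by positivity)
  have := (Finset.sum_eq_zero_iff_of_nonneg fun g _ => sq_nonneg _).1 h0 g (mem_univ g)
  have h3 := pow_eq_zero_iff (two_ne_zero) |>.1 this
  omega

theorem nOrb_eq [Finite G] [Finite Ω] [Nontrivial Ω] {φ ψ : G →* Perm Ω} (h1 : TT φ)
    (h : ∀ g, fx φ g = fx ψ g) : nOrb φ ψ = 2 := by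
  haveI := Fintype.ofFinite G
  have a1 := burn φ φ
  have a3 := burn φ ψ
  rw [h1.two.nOrb] at a1
  simp_rw [← h] at a3
  exact (Nat.eq_of_mul_eq_mul_right Fintype.card_pos (a1.symm.trans a3)).symm

theorem Two.inv {φ ψ : G →* Perm Ω} {R : Ω → Ω → Prop} (h : Two φ ψ R) (g : G) (x y : Ω) :
    R (φ g x) (ψ g y) ↔ R x y := ((h.rel _ _ _ _).1 ⟨g, rfl, rfl⟩).symm

theorem Two.compl {φ ψ : G →* Perm Ω} {R : Ω → Ω → Prop} (h : Two φ ψ R) : Two φ ψ (fun a b => ¬ R a b) :=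
  ⟨fun x y x' y' => (h.rel x y x' y').trans not_iff_not.symm, h.ne', by simpa using h.ne⟩

theorem Two.swap {φ ψ : G →* Perm Ω} {R : Ω → Ω → Prop} (h : Two φ ψ R) : Two ψ φ (fun a b => R b a) :=
  ⟨fun x y x' y' => (exists_congr fun _ => and_comm).trans (h.rel y x y' x'),
    by obtain ⟨x, y, e⟩ := h.ne; exact ⟨y, x, e⟩, by obtain ⟨x, y, e⟩ := h.ne'; exact ⟨y, x, e⟩⟩

theorem Two.comp {φ ψ : G →* Perm Ω} {R : Ω → Ω → Prop} (h : Two φ ψ R) (α : MulAut G) :
    Two (φ.comp α.toMonoidHom) (ψ.comp α.toMonoidHom) R :=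
  ⟨fun x y x' y' => Iff.trans ⟨fun ⟨g, e⟩ => ⟨α g, e⟩, fun ⟨g, e⟩ => ⟨α.symm g, by simpa using e⟩⟩
    (h.rel x y x' y'), h.ne, h.ne'⟩

theorem card_tr [Fintype Ω] (σ : Perm Ω) {P Q : Ω → Prop} [DecidablePred P] [DecidablePred Q] (h : ∀ y, Q (σ y) ↔ P y) :
    #(univ.filter P) = #(univ.filter Q) :=
  Finset.card_bij (fun y _ => σ y) (fun y hy => by simpa [h] using hy) (fun _ _ _ _ e => σ.injective e)
    fun y hy => ⟨σ.symm y, by simpa [← h] using hy, by simp⟩

open Classical in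
/-- coprime orbits: all or nothing -/
theorem all_or_none [Fintype Ω] {φ1 φ2 φ3 : G →* Perm Ω} {A B S : Ω → Ω → Prop} (hA : Two φ1 φ2 A)
    (hB : Two φ1 φ3 B) (hS : Two φ3 φ2 S) (x : Ω) [DecidablePred (A x)] [DecidablePred (B x)]
    (hc : Nat.Coprime #(univ.filter (A x)) #(univ.filter (B x))) {z : Ω} (hz : B x z) {a : Ω} (ha : A x a)
    (hza : S z a) {b : Ω} (hb : A x b) : S z b := by
  have h1 := Finset.card_mul_eq_card_mul (s := univ.filter (B x)) (t := univ.filter (A x)) S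
    (m := #((univ.filter (A x)).bipartiteAbove S z)) (n := #((univ.filter (B x)).bipartiteBelow S a))
    (fun z' hz' => by
      obtain ⟨g, e1, e2⟩ := (hB.rel x z' x z).2 (iff_of_true (by simpa using hz') hz)
      simp only [bipartiteAbove, filter_filter]
      refine card_tr (φ2 g) fun y => ?_
      rw [← e2, hS.inv, ← hA.inv g x y, e1])
    (fun y' hy' => by
      obtain ⟨g, e1, e2⟩ := (hA.rel x y' x a).2 (iff_of_true (by simpa using hy') ha)
      simp only [bipartiteBelow, filter_filter]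
      refine card_tr (φ3 g) fun y => ?_
      rw [← e2, hS.inv, ← hB.inv g x y, e1])
  have h2 : #(univ.filter (A x)) ∣ #((univ.filter (A x)).bipartiteAbove S z) :=
    hc.dvd_of_dvd_mul_left (h1 ▸ Dvd.intro _ rfl)
  have h3 := Finset.eq_of_subset_of_card_le (Finset.filter_subset (S z) (univ.filter (A x)))
    (Nat.le_of_dvd (Finset.card_pos.2 ⟨a, by simp [ha, hza]⟩) h2)
  have : b ∈ (univ.filter (A x)).filter (S z) := by rw [h3]; simp [hb]
  exact (Finset.mem_filter.1 this).2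

open Classical in
theorem key [Fintype Ω] [Nontrivial Ω] {φ1 φ2 φ3 : G →* Perm Ω} {A B S : Ω → Ω → Prop} (hA : Two φ1 φ2 A)
    (hB : Two φ1 φ3 B) (hS : Two φ3 φ2 S) (h1 : TT φ1) (h2 : TT φ2) (h3 : TT φ3) (x : Ω)
    (hc : Nat.Coprime #(univ.filter (A x)) (Fintype.card Ω)) (he : #(univ.filter (A x)) = #(univ.filter (B x))) :
    (∀ z a b, S z a → S z b → a = b) ∨ (∀ z a b, ¬ S z a → ¬ S z b → a = b) := by
  by_contra hcon
  push Not at hcon
  obtain ⟨⟨z1, a1, b1, s1, t1, n1⟩, ⟨z2, a2, b2, s2, t2, n2⟩⟩ := hcon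
  have hex : ∀ {R : Ω → Ω → Prop}, Two φ1 φ2 R → ∃ a, R x a := fun hR => by
    obtain ⟨u, v, e⟩ := hR.ne
    obtain ⟨g, rfl⟩ := h1.trans u x
    exact ⟨_, (hR.inv g u v).2 e⟩
  obtain ⟨a, ha⟩ := hex hA
  obtain ⟨b, hb⟩ := hex hA.compl
  have hab : a ≠ b := fun e => hb (e ▸ ha)
  obtain ⟨g1, e1, f1⟩ := h2 a1 b1 a b n1 hab
  obtain ⟨g2, e2, f2⟩ := h2 a2 b2 a b n2 hab
  rw [← hS.inv g1, e1] at s1
  rw [← hS.inv g1, f1] at t1
  rw [← hS.inv g2, e2] at s2
  rw [← hS.inv g2, f2] at t2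
  generalize φ3 g1 z1 = u at s1 t1
  generalize φ3 g2 z2 = v at s2 t2
  have cA := Finset.card_filter_add_card_filter_not (s := univ) (A x)
  have cB := Finset.card_filter_add_card_filter_not (s := univ) (B x)
  rw [card_univ] at cA cB
  have c1 : Nat.Coprime #(univ.filter (A x)) #(univ.filter (fun y => ¬ B x y)) := by
    rw [← cB, ← he] at hc
    exact (Nat.coprime_self_add_right).1 hc
  have c2 : Nat.Coprime #(univ.filter (fun y => ¬ A x y)) #(univ.filter (B x)) := by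
    rw [← cA] at hc
    rw [← he]
    exact ((Nat.coprime_self_add_right).1 hc).symm
  have huv : #(univ.filter (S u)) = #(univ.filter (S v)) := by
    obtain ⟨g, rfl⟩ := h3.trans u v
    exact card_tr (φ2 g) fun y => hS.inv g u y
  have hsame : (B x u ↔ B x v) → ∀ {R : Ω → Ω → Prop}, Two φ1 φ2 R → (∀ y, R x y → S u y) → ∀ y, R x y → S v y := by
    intro e R hR hall y hy
    obtain ⟨g, k1, k2⟩ := (hB.rel x u x v).2 e
    obtain ⟨y, rfl⟩ := (φ2 g).surjective y
    rw [← k2, hS.inv]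
    exact hall y (by rwa [← k1, hR.inv] at hy)
  by_cases hu : B x u <;> by_cases hv : B x v
  · exact t2 (hsame (iff_of_true hu hv) hA.compl (fun y hy => all_or_none hA.compl hB hS x c2 hu hb t1 hy) b hb)
  · have k1 : univ.filter (S v) ⊆ univ.filter (fun y => ¬ A x y) := fun y hy => by
      simp only [mem_filter, mem_univ, true_and] at hy ⊢
      exact fun h => s2 (all_or_none hA hB.compl hS x c1 hv h hy ha)
    have k2 : univ.filter (fun y => ¬ A x y) ⊂ univ.filter (S u) := ⟨fun y hy => by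
      simp only [mem_filter, mem_univ, true_and] at hy ⊢
      exact all_or_none hA.compl hB hS x c2 hu hb t1 hy, fun h => by
      have := h (show a ∈ _ by simpa using s1)
      simp [ha] at this⟩
    have := card_le_card k1
    have := card_lt_card k2
    omega
  · have k1 : univ.filter (S v) ⊆ univ.filter (A x) := fun y hy => by
      simp only [mem_filter, mem_univ, true_and] at hy ⊢
      by_contra h
      exact t2 (all_or_none hA.compl hB hS x c2 hv h hy hb)
    have k2 : univ.filter (A x) ⊂ univ.filter (S u) := ⟨fun y hy => by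
      simp only [mem_filter, mem_univ, true_and] at hy ⊢
      exact all_or_none hA hB.compl hS x c1 hu ha s1 hy, fun h => by
      have := h (show b ∈ _ by simpa using t1)
      simp [hb] at this⟩
    have := card_le_card k1
    have := card_lt_card k2
    omega
  · exact s2 (hsame (iff_of_false hu hv) hA (fun y hy => all_or_none hA hB.compl hS x c1 hu ha s1 hy) a ha)

theorem exists_conj [Finite Ω] [Nontrivial Ω] {φ2 φ3 : G →* Perm Ω} {S : Ω → Ω → Prop} (hS : Two φ3 φ2 S)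
    (h2 : TT φ2) (h3 : TT φ3) (h : ∀ z a b, S z a → S z b → a = b) :
    ∃ σ : Perm Ω, ∀ g, φ2 g = σ * φ3 g * σ⁻¹ := by
  have hex : ∀ z, ∃ a, S z a := fun z => by
    obtain ⟨u, v, e⟩ := hS.ne
    obtain ⟨g, rfl⟩ := h3.trans u z
    exact ⟨_, (hS.inv g u v).2 e⟩
  choose f hf using hex
  have hg : ∀ g z, f (φ3 g z) = φ2 g (f z) := fun g z => h _ _ _ (hf _) ((hS.inv g _ _).2 (hf z))
  have hs : Function.Surjective f := fun y => by
    obtain ⟨z⟩ : Nonempty Ω := inferInstance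
    obtain ⟨g, rfl⟩ := h2.trans (f z) y
    exact ⟨_, hg g z⟩
  refine ⟨Equiv.ofBijective f (Finite.surjective_iff_bijective.1 hs), fun g => ?_⟩
  rw [eq_mul_inv_iff_mul_eq]
  ext z
  exact (hg g z).symm

open Classical in
theorem main [Finite G] [Fintype Ω] [Nontrivial Ω] {φ : G →* Perm Ω} (h : TT φ) (α : MulAut G) (hα : Odd (orderOf α))
    (o ω : Ω) (hk : Nat.Coprime #(univ.filter fun b => ∃ g, φ (α.symm g) o = o ∧ φ g ω = b) (Fintype.card Ω)) :
    ∃ σ : Perm Ω, ∀ g, φ (α g) = σ * φ g * σ⁻¹ := by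
  set β : MulAut G := α.symm with hβ
  have h1 := h.comp β
  have h3 := h1.comp β
  have n2 : 2 ≤ nOrb (φ.comp β.toMonoidHom) φ := by
    by_contra hcon
    have hs : Subsingleton (Quotient (@MulAction.orbitRel G (Ω × Ω) _
        (MulAction.compHom (Ω × Ω) (pr (φ.comp β.toMonoidHom) φ)))) :=
      Finite.card_le_one_iff_subsingleton.1 (Nat.lt_succ_iff.1 (not_le.1 hcon))
    rw [Finset.filter_true_of_mem, card_univ, Nat.coprime_self] at hk
    · exact Fintype.one_lt_card.ne' hk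
    · exact fun b _ => (rel_iff _ _ (o, b) (o, ω)).1 (Quotient.exact (hs.elim _ _))
  have f1 := fx_eq h1 h n2
  have hA := two_of_nOrb (nOrb_eq h1 f1) o ω
  have hB := (hA.comp β).swap
  have hS := two_of_nOrb (nOrb_eq h3 (ψ := φ) fun g => (f1 (β g)).trans (f1 g)) o o
  set A := fun a b => ∃ g, (φ.comp β.toMonoidHom) g o = a ∧ φ g ω = b with hAdef
  have he : #(univ.filter (A o)) = #(univ.filter fun b => A b o) := by
    have := Finset.card_mul_eq_card_mul (s := univ) (t := univ) A (m := #(univ.filter (A o)))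
      (n := #(univ.filter fun b => A b o))
      (fun a _ => by
        obtain ⟨g, rfl⟩ := h1.trans a o
        exact card_tr (φ g) fun y => hA.inv g a y)
      (fun a _ => by
        obtain ⟨g, rfl⟩ := h.trans a o
        exact card_tr ((φ.comp β.toMonoidHom) g) fun y => hA.inv g y a)
    exact Nat.eq_of_mul_eq_mul_left (by simp [Fintype.card_pos]) this
  obtain ⟨σ, hσ⟩ : ∃ σ : Perm Ω, ∀ g, φ g = σ * ((φ.comp β.toMonoidHom).comp β.toMonoidHom) g * σ⁻¹ := by
    rcases key hA hB hS h1 h h3 o hk he with k | k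
    · exact exists_conj hS h h3 k
    · exact exists_conj hS.compl h h3 k
  have h4 : ∀ (t : ℕ) (g : G), φ (((α ^ 2) ^ t) g) = σ ^ t * φ g * (σ ^ t)⁻¹ := by
    intro t
    induction t with
    | zero => simp
    | succ t ih =>
      intro g
      have e : ∀ u, ((φ.comp β.toMonoidHom).comp β.toMonoidHom) ((α ^ 2) u) = φ u := fun u => by
        simp [hβ, pow_two]
      rw [pow_succ' (α ^ 2), MulAut.mul_apply, hσ, e, ih]
      group
  obtain ⟨t, ht⟩ := hα
  refine ⟨σ ^ (t + 1), fun g => ?_⟩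
  rw [← h4, ← pow_mul, show 2 * (t + 1) = orderOf α + 1 by omega, pow_succ, pow_orderOf_eq_one, one_mul]
end

/-- Let G be a doubly transitive group of permutations of a finite set Ω of size n, let o ∈ Ω, and let α be an automorphism of G of odd order. Suppose that the image under α of the stabilizer of o has an orbit on Ω whose length k is coprime to n. Then α is induced by conjugation by a permutation of Ω normalizing G, and k = 1 or k = n − 1. -/
theorem result {Ω : Type*} [Fintype Ω] (G : Subgroup (Equiv.Perm Ω)) (h2 : MulAction.IsMultiplyPretransitive G Ω 2) (o : Ω) (α : MulAut G) (hα : Odd (orderOf α)) (ω : Ω) (hk : (Nat.card (MulAction.orbit ((MulAction.stabilizer G o).map α.toMonoidHom) ω)).Coprime (Fintype.card Ω)) : (∃ σ : Equiv.Perm Ω, σ ∈ Subgroup.normalizer (G : Set (Equiv.Perm Ω)) ∧ ∀ g : G, ((α g : G) : Equiv.Perm Ω) = σ * (g : Equiv.Perm Ω) * σ⁻¹) ∧ (Nat.card (MulAction.orbit ((MulAction.stabilizer G o).map α.toMonoidHom)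 ω) = 1 ∨ Nat.card (MulAction.orbit ((MulAction.stabilizer G o).map α.toMonoidHom) ω) = Fintype.card Ω - 1) := by
  classical
  have hT : TT G.subtype := fun a b c d h1 h2 => by
    obtain ⟨g, hg⟩ := MulAction.is_two_pretransitive_iff.1 ‹_› h1 h2
    exact ⟨g, hg⟩
  have hmem : ∀ b, b ∈ MulAction.orbit ((MulAction.stabilizer G o).map α.toMonoidHom) ω ↔
      ∃ g, G.subtype (α.symm g) o = o ∧ G.subtype g ω = b := fun b => by
    constructor
    · rintro ⟨⟨_, g, hg, rfl⟩, rfl⟩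
      exact ⟨α g, by rw [MulEquiv.symm_apply_apply]; exact hg, rfl⟩
    · rintro ⟨g, hg, rfl⟩
      exact ⟨⟨g, α.symm g, hg, by simp⟩, rfl⟩
  have hcard : Nat.card (MulAction.orbit ((MulAction.stabilizer G o).map α.toMonoidHom) ω) =
      #(univ.filter fun b => ∃ g, G.subtype (α.symm g) o = o ∧ G.subtype g ω = b) := by
    rw [← Fintype.card_subtype, ← Nat.card_eq_fintype_card]
    exact Nat.card_congr (Equiv.subtypeEquivRight hmem)
  haveI : Nonempty Ω := ⟨o⟩
  rcases subsingleton_or_nontrivial Ω with hs | hs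
  · refine ⟨⟨1, one_mem _, fun g => Subsingleton.elim _ _⟩, Or.inl ?_⟩
    exact Nat.card_eq_one_iff_unique.2 ⟨inferInstance, ⟨⟨ω, MulAction.mem_orbit_self ω⟩⟩⟩
  rw [hcard] at hk
  obtain ⟨σ, hσ⟩ := main hT α hα o ω (by convert hk)
  refine ⟨⟨σ, Subgroup.mem_normalizer_iff.2 fun x => ⟨fun hx => ?_, fun hx => ?_⟩, hσ⟩, ?_⟩
  · have := hσ ⟨x, hx⟩
    simp only [Subgroup.coe_subtype] at this
    rw [← this]; exact (α ⟨x, hx⟩).2
  · have := hσ (α.symm ⟨_, hx⟩)
    simp only [Subgroup.coe_subtype, MulEquiv.apply_symm_apply, mul_left_inj, mul_right_inj] at this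
    rw [this]; exact (α.symm ⟨_, hx⟩).2
  · have hst : ∀ g : G, G.subtype (α.symm g) o = o ↔ G.subtype g (σ o) = σ o := fun g => by
      have := hσ (α.symm g)
      rw [MulEquiv.apply_symm_apply] at this
      rw [this]; simp
    rw [hcard]
    simp_rw [hst]
    by_cases hω : ω = σ o
    · left
      rw [Finset.card_eq_one]
      refine ⟨σ o, Finset.ext fun b => ?_⟩
      simp only [mem_filter, mem_univ, true_and, mem_singleton]
      exact ⟨fun ⟨g, h1, h2⟩ => by rw [← h2, hω, h1], fun e => ⟨1, by simp, by simp [e, hω]⟩⟩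
    · right
      rw [← card_univ, ← Finset.card_erase_of_mem (mem_univ (σ o))]
      congr 1
      ext b
      simp only [mem_filter, mem_univ, true_and, mem_erase, and_true]
      refine ⟨fun ⟨g, h1, h2⟩ e => hω ((G.subtype g).injective (by rw [h1, h2, e])), fun e => ?_⟩
      exact hT _ _ _ _ (Ne.symm hω) (Ne.symm e)

end Cfsg.Agent.S4276
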