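import Cfsg.Statements.S4277
import Cfsg.Agent.Perm.PrimeDeg
import Cfsg.Agent.FTC.Aniso

set_option autoImplicit false
open Cfsg

namespace Cfsg.Agent.S4277

open Subgroup MulAction Cfsg.Agent.Perm Finset

theorem no_inv {G Ω : Type*} [Group G] [Finite G] [MulAction G Ω] [FaithfulSMul G Ω] [IsPretransitive G Ω] {p : ℕ} [hp : Fact p.Prime]
    (h2 : p ≠ 2) (hΩ : Nat.card Ω = p) {c : G} {e : ZMod p ≃ Ω} (hc : ∀ j, c • e j = e (j + 1))
    (ht : IsMultiplyPretransitive G Ω 2) {σ : MulAut G} (h1 : σ c = c) (hσ : σ ^ 2 = 1) : σ = 1 := by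
  classical
  haveI : Fintype Ω := Fintype.ofEquiv _ e
  have hσ' : ∀ g, σ (σ g) = g := fun g => by rw [← MulAut.mul_apply, ← sq, hσ, MulAut.one_apply]
  let R : Ω → Ω → Prop := fun x y => ∃ g : G, g • e 0 = x ∧ σ g • e 0 = y
  have sy : ∀ x y, R x y → R y x := fun x y ⟨g, a, b⟩ => ⟨σ g, b, by rw [hσ', a]⟩
  have iv : ∀ h x y, R x y → R (h • x) (σ h • y) := fun h x y ⟨g, a, b⟩ =>
    ⟨h * g, by rw [mul_smul, a], by rw [map_mul, mul_smul, b]⟩
  have iv' : ∀ (h : G) x y, R (h • x) (σ h • y) ↔ R x y := fun h x y =>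
    ⟨fun r => by simpa using iv h⁻¹ _ _ r, iv h x y⟩
  have tr : ∀ i j k : ZMod p, R (e (i + k)) (e (j + k)) ↔ R (e i) (e j) := fun i j k => by
    rw [← iv' (c ^ k.val) (e i), map_pow, h1, pow_smul_coord hc, pow_smul_coord hc, ZMod.natCast_zmod_val]
  let n : Ω → Ω → ℕ := fun x x' => (univ.filter fun y => R x y ∧ R x' y).card
  have hn : ∀ (h : G) x x', n (h • x) (h • x') = n x x' := fun h x x' =>
    (card_equiv (MulAction.toPerm (σ h)) fun y => by simp [iv']).symm
  have two : (2 : ZMod p) ≠ 0 := fun r => h2 ((Nat.prime_dvd_prime_iff_eq hp.out Nat.prime_two).1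
    ((ZMod.natCast_eq_zero_iff 2 p).1 r))
  have par : ∀ w : ZMod p, (n (e (-w)) (e w) : ZMod 2) = if R (e 0) (e w) then 1 else 0 := fun w => by
    let f : ZMod p → ZMod 2 := fun t => if R (e (-w)) (e t) ∧ R (e w) (e t) then 1 else 0
    have a1 : (n (e (-w)) (e w) : ZMod 2) = ∑ t, f t := by
      simp only [n, f, sum_boole]
      exact congrArg _ (card_equiv e fun t => by simp).symm
    have neg : ∀ i j, R (e i) (e j) → R (e (-i)) (e (-j)) := fun i j r => by
      have := (tr j i (-i - j)).2 (sy _ _ r)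
      rwa [show j + (-i - j) = -i by ring, show i + (-i - j) = -j by ring] at this
    have a2 : ∀ t, f (-t) = f t := fun t => if_congr ⟨fun r => ⟨by simpa using neg _ _ r.2, by simpa using neg _ _ r.1⟩,
      fun r => ⟨neg _ _ r.2, by simpa using neg _ _ r.1⟩⟩ rfl rfl
    rw [a1, ← add_sum_erase _ _ (mem_univ 0), sum_involution (s := univ.erase (0 : ZMod p)) (f := f) (fun t _ => -t) (fun t _ => by rw [a2, CharTwo.add_self_eq_zero])
      (fun t ht _ r => (mem_erase.1 ht).1 ((mul_eq_zero.1 (by linear_combination -r : 2 * t = 0)).resolve_left two))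
      (fun t ht => mem_erase.2 ⟨neg_ne_zero.2 (mem_erase.1 ht).1, mem_univ _⟩) fun t _ => neg_neg t, add_zero]
    exact if_congr ⟨fun r => sy _ _ r.2, fun r => ⟨sy _ _ (by simpa using neg _ _ r), sy _ _ r⟩⟩ rfl rfl
  have ne : ∀ w : ZMod p, w ≠ 0 → e (-w) ≠ e w := fun w hw r =>
    hw ((mul_eq_zero.1 (by linear_combination -e.injective r : 2 * w = 0)).resolve_left two)
  have all : ∀ w w' : ZMod p, w ≠ 0 → w' ≠ 0 → R (e 0) (e w) → R (e 0) (e w') := fun w w' hw hw' r => by
    obtain ⟨g, a, b⟩ := is_two_pretransitive_iff.1 ht (ne w hw) (ne w' hw')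
    have := par w'
    rw [← a, ← b, hn, par w, if_pos r, b] at this
    by_contra r'
    rw [if_neg r'] at this
    exact one_ne_zero this
  have r0 : R (e 0) (e 0) := ⟨1, by simp⟩
  by_cases h : R (e 0) (e 1)
  · exfalso
    let K := (stabilizer G (e 0)).map σ.toMonoidHom
    have hK : orbit K (e 0) = Set.univ := Set.eq_univ_of_forall fun y => by
      obtain ⟨j, rfl⟩ := e.surjective y
      obtain ⟨g, a, b⟩ : R (e 0) (e j) := (eq_or_ne j 0).elim (fun r => r ▸ r0) fun r => all 1 j one_ne_zero r h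
      exact ⟨⟨_, g, a, rfl⟩, b⟩
    have a1 := index_dvd_card (stabilizer K (e 0))
    rw [index_stabilizer, hK, Set.ncard_univ, hΩ, card_map_of_injective σ.injective] at a1
    refine not_sq_dvd_card (G := G) hΩ ?_
    rw [← card_mul_index (stabilizer G (e 0)), index_stabilizer_of_transitive, hΩ, sq]
    exact mul_dvd_mul_right a1 p
  · refine MulEquiv.ext fun g => eq_of_smul_eq_smul fun x : Ω => ?_
    obtain ⟨i, rfl⟩ := e.surjective x
    have a1 := iv g _ _ ((tr 0 0 i).2 r0)
    rw [zero_add] at a1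
    obtain ⟨j, hj⟩ := e.surjective (g • e i)
    obtain ⟨k, hk⟩ := e.surjective (σ g • e i)
    rw [← hj, ← hk, ← tr _ _ (-j), add_neg_cancel] at a1
    by_contra r
    exact h (all _ 1 (fun a => r (by rw [← hk, add_neg_eq_zero.1 a, hj]; rfl)) one_ne_zero a1)

/-- A case of the Schreier conjecture: if a finite simple group G has a subgroup of prime index, then the outer automorphism group of G is solvable. -/
theorem result {G : Type*} [Group G] [Finite G] [IsSimpleGroup G] (H : Subgroup G) (hH : H.index.Prime) : Group.IsSolvable (Cfsg.Out G) := by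
  by_cases hs : Group.IsSolvable G
  · letI : CommGroup G := { (inferInstance : Group G) with mul_comm := IsSimpleGroup.comm_iff_isSolvable.2 hs }
    haveI : Group.IsSolvable (MulAut G) := Group.isSolvable_of_isSolvable_injective
      (f := (IsCyclic.mulAutMulEquiv G).toMonoidHom) (MulEquiv.injective _)
    infer_instance
  haveI := Fact.mk hH
  have hc : H.normalCore = ⊥ := H.normalCore_normal.eq_bot_or_eq_top.resolve_right fun r =>
    hH.ne_one (index_eq_one.2 (top_le_iff.1 (r ▸ H.normalCore_le)))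
  haveI : FaithfulSMul G (G ⧸ H) := ⟨fun {a b} r => (MonoidHom.ker_eq_bot_iff _).1 (H.normalCore_eq_ker ▸ hc)
    (Equiv.ext r : toPermHom G (G ⧸ H) a = toPermHom G (G ⧸ H) b)⟩
  obtain ⟨P⟩ : Nonempty (Sylow H.index G) := inferInstance
  obtain ⟨c, e, -, hP, hc⟩ := exists_zcoord (Ω := G ⧸ H) (p := H.index) rfl P
  have ht := (aff_or_two_trans hc).resolve_left fun r => hs (solvable_of_aff r)
  have h2 : H.index ≠ 2 := fun r => hs (solvable_of_aff (aff_of_le_three (e := e) (by omega)))
  haveI : Group.IsSolvable (stabilizer (MulAut G) c) := FTC.solvable_of_odd (Nat.not_even_iff_odd.1 fun r => by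
    obtain ⟨σ, hσ⟩ := exists_prime_orderOf_dvd_card' 2 r.two_dvd
    have : σ = 1 := Subtype.ext (no_inv (p := H.index) h2 rfl hc ht σ.2 (congrArg Subtype.val (hσ ▸ pow_orderOf_eq_one σ)))
    simp [this] at hσ)
  let N : Subgroup (MulAut G) :=
    { carrier := {α | ∀ x, α x ∈ zpowers c ↔ x ∈ zpowers c}
      one_mem' := fun x => Iff.rfl
      mul_mem' := fun {a b} ha hb x => (ha _).trans (hb x)
      inv_mem' := fun {a} ha x => by rw [← ha]; simp }
  have hA : commutator N ≤ (stabilizer (MulAut G) c).subgroupOf N := commutator_le.2 fun a _ b _ => by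
    have key : ∀ x ∈ zpowers c, a.1 (b.1 x) = b.1 (a.1 x) := by
      rintro _ ⟨k, rfl⟩
      obtain ⟨i, hi⟩ := (a.2 c).2 (mem_zpowers c)
      obtain ⟨j, hj⟩ := (b.2 c).2 (mem_zpowers c)
      simp only [map_zpow, ← hi, ← hj, ← zpow_mul, mul_left_comm i j]
    show a.1 (b.1 (a.1⁻¹ (b.1⁻¹ c))) = c
    exact (key _ ((a⁻¹.2 _).2 ((b⁻¹.2 _).2 (mem_zpowers c)))).trans (by simp)
  haveI : Group.IsSolvable N := by
    haveI : Group.IsSolvable ((stabilizer (MulAut G) c).subgroupOf N) := Group.isSolvable_of_isSolvable_injective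
      (f := N.subtype.subgroupComap _) fun x y r => Subtype.ext (Subtype.ext (congrArg (fun z : stabilizer (MulAut G) c => z.1) r))
    exact Group.isSolvable_of_ker_le_range ((stabilizer (MulAut G) c).subgroupOf N).subtype Abelianization.of
      (by rwa [Abelianization.ker_of, range_subtype])
  refine Group.isSolvable_of_surjective (f := (QuotientGroup.mk' (Inn G)).comp N.subtype) fun x => ?_
  obtain ⟨α, rfl⟩ := QuotientGroup.mk'_surjective _ x
  obtain ⟨g, hg⟩ := exists_smul_eq G P (P.comapOfInjective α.toMonoidHom α.injective (by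
    rw [MonoidHom.range_eq_top.2 α.surjective]; exact le_top))
  refine ⟨⟨α * MulAut.conj g, fun x => ?_⟩, (QuotientGroup.eq.2 ⟨g⁻¹, by simp⟩)⟩
  have := SetLike.ext_iff.1 (congrArg (fun Q : Sylow H.index G => (Q : Subgroup G)) hg) (MulAut.conj g x)
  rw [hP]
  exact this.symm.trans (Subgroup.smul_mem_pointwise_smul_iff (a := MulAut.conj g))

end Cfsg.Agent.S4277
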