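import Cfsg.Statements.S4278
import Cfsg.Agent.Chev.InvOdd

set_option autoImplicit false
open Cfsg

namespace Cfsg.Agent.S4278

open Cfsg.Agent.Chev Cfsg.Lie

/-- In the Chevalley group of type G₂ over a finite field of odd order, any two involutions are conjugate. -/
theorem result {F : Type*} [Field F] [Fintype F] (hF : Odd (Fintype.card F)) (s t : ↥(Cfsg.Lie.chevG2.group F)) (hs : orderOf s = 2) (ht : orderOf t = 2) : IsConj s t := by
  rw [← Nat.card_eq_fintype_card] at hF
  obtain ⟨p, N, _, _, hN⟩ := exists_char F
  have h := fun u => (bigG2 F p).invol (algebraMap F _) hN (two_ne_zero_of_odd hF) certG2_ok orbG2'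
    (List.forall_mem_singleton.mpr (certG2_ok.cent (fun _ => rfl) centG2_0).1) (u := u)
  simp only [List.mem_singleton, exists_eq_left] at h
  let e := stEquiv chevG2 F (zkerG2_eq_bot F)
  simpa using e.toMonoidHom.map_isConj ((h (e.symm s) (by simpa)).symm.trans (h (e.symm t) (by simpa)))

end Cfsg.Agent.S4278
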