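import Cfsg.Statements.S4279
import Cfsg.Agent.Chev.InvOdd
import Cfsg.Agent.Ree.SL2Pres
import Cfsg.Agent.Classical.SLCard

set_option autoImplicit false
open Cfsg

namespace Cfsg.Agent.S4279

open Cfsg.Agent.Chev Cfsg.Lie

open Cfsg.Agent.Ree Cfsg.Agent.Classical

theorem sl2_inj {D : ChevalleyDatum} [Good D] [Conn D] {F G : Type*} [Field F] [Group G] {X : Sys D F G} (c : X.Cover)
    (m : X.Mult) (hi : Function.Injective m.tor) {r : Rt D} (hr : Pos r ∧ ∃ i, cov r i = 1) :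
    Function.Injective (sysSL2 m r) := (injective_iff_map_eq_one _).mpr fun y hy => by
  have hd := y.det_coe
  rw [Matrix.det_fin_two] at hd
  by_cases e : y 1 0 = 0
  · obtain ⟨a, ha⟩ := IsUnit.of_mul_eq_one (y 1 1) (by simpa [e] using hd : y 0 0 * y 1 1 = 1)
    have h1 : y = uSL (y 0 1 * a) * dSL a := by
      ext i j; fin_cases i <;> fin_cases j <;> simp [Matrix.mul_apply, e, ← ha]
      exact eq_inv_of_mul_eq_one_right (by simpa [e, ← ha] using hd)
    rw [h1, map_mul, sysSL2_u, sysSL2_d] at hy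
    obtain ⟨h2, h3⟩ := c.eq_of_UP_H (X.x_mem_U hr.1 _) (one_mem _) (X.h_mem_H r a.ne_zero) (one_mem _) (hy.trans (one_mul 1).symm)
    obtain ⟨i, h4⟩ := hr.2
    rw [m.h_eq_tor, ← map_one m.tor] at h3
    rw [h1, c.x_eq_one h2, show a = 1 by simpa [h4] using congrFun (hi h3) i, uSL_zero, one_mul]
    exact map_one (dSLHom F)
  have h1 : y = uSL ((y 0 0 - 1) / y 1 0) * lSL (y 1 0) * uSL ((y 1 1 - 1) / y 1 0) := by
    ext i j; fin_cases i <;> fin_cases j <;> simp [Matrix.mul_apply] <;> field_simp <;> first | ring1 | linear_combination -hd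
  rw [h1, map_mul, map_mul, sysSL2_u, sysSL2_u, sysSL2_l, mul_eq_one_iff_eq_inv, ← eq_inv_mul_iff_mul_eq, ← X.x_neg,
    ← X.x_neg, ← X.add] at hy
  exact (ng_ne r (c.x_eq e hy).1).elim

/-- The conclusion. -/
def P (F : Type*) [Field F] {G : Type*} [Group G] (n : ℕ) (t : G) : Prop :=
  Nat.card (Subgroup.centralizer ({t} : Set G)) = n ∧ ∃ L₁ L₂ : Subgroup G,
    Nonempty (L₁ ≃* Matrix.SpecialLinearGroup (Fin 2) F) ∧ Nonempty (L₂ ≃* Matrix.SpecialLinearGroup (Fin 2) F) ∧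
    (∀ x ∈ L₁, ∀ y ∈ L₂, x * y = y * x) ∧ L₁ ⊓ L₂ = Subgroup.zpowers t ∧ L₁ ⊔ L₂ ≤ Subgroup.centralizer ({t} : Set G) ∧
    (L₁ ⊔ L₂).relIndex (Subgroup.centralizer ({t} : Set G)) = 2

theorem P.map {F : Type*} [Field F] {G G' : Type*} [Group G] [Group G'] {n : ℕ} {t : G} (e : G ≃* G') (h : P F n t) :
    P F n (e t) := by
  obtain ⟨h1, A, B, ⟨a⟩, ⟨b⟩, h2, h3, h4, h5⟩ := h
  have h6 : (Subgroup.centralizer {t}).map e.toMonoidHom = Subgroup.centralizer {e t} := Subgroup.ext fun y => by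
    obtain ⟨y, rfl⟩ := e.surjective y
    simp [Subgroup.mem_centralizer_singleton_iff, ← map_mul]
  refine ⟨(card_centralizer_congr e t).trans h1, A.map e.toMonoidHom, B.map e.toMonoidHom, ⟨(e.subgroupMap A).symm.trans a⟩,
    ⟨(e.subgroupMap B).symm.trans b⟩, ?_, ?_, ?_, ?_⟩
  · rintro _ ⟨x, hx, rfl⟩ _ ⟨y, hy, rfl⟩
    rw [← map_mul, h2 x hx y hy, map_mul]
  · rw [← Subgroup.map_inf _ _ _ e.injective, h3, MonoidHom.map_zpowers]; rfl
  · rw [← Subgroup.map_sup, ← h6]; exact Subgroup.map_mono h4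
  · rw [← Subgroup.map_sup, ← h6, Subgroup.relIndex_map_map_of_injective _ _ e.injective, h5]

theorem base {F : Type*} [Field F] [Finite F] (hF : Odd (Nat.card F)) : P F (Nat.card F ^ 2 * (Nat.card F ^ 2 - 1) ^ 2)
    ((stS_mult chevG2 F).tor (sg F (vec chevG2 [1, 2]))) := by
  have h2 := two_ne_zero_of_odd hF
  have m := stS_mult chevG2 F
  have c := stCover chevG2 F
  have := finite_st (D := chevG2) (F := F)
  have h1 : Nat.card (Subgroup.centralizer {m.tor (sg F (vec chevG2 [1, 2]))}) = Nat.card F ^ 2 * (Nat.card F ^ 2 - 1) ^ 2 := by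
    zify [Nat.one_le_pow 2 _ (Nat.card_pos (α := F))]
    rw [certG2_ok.card_cent_sg (m.tor_injective c (zkerG2_eq_bot F)) h2 (fun _ => rfl) centG2_0 (a := 2) (E := [0, 1]) (by decide +kernel)
      (by decide +kernel), show chevG2.rank = 2 from rfl, poinG2_k1]
    simp; ring
  let r : Rt chevG2 := ⟨11, by decide⟩
  let s : Rt chevG2 := ⟨7, by decide⟩
  have a1 := sl2_inj c m (m.tor_injective c (zkerG2_eq_bot F)) (r := r) (by decide +kernel)
  have a2 := sl2_inj c m (m.tor_injective c (zkerG2_eq_bot F)) (r := s) (by decide +kernel)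
  have a3 : ∀ k, (sysSL2 m k).range ≤ (stS _ F).U {k, ng k} := by
    rintro k _ ⟨y, rfl⟩
    exact sysSL2_mem m k (Sys.x_mem_U _ (by simp)) (Sys.x_mem_U _ (by simp)) y
  have a4 : ∀ x ∈ (sysSL2 m r).range, ∀ y ∈ (sysSL2 m s).range, x * y = y * x := fun x hx y hy =>
    (stS _ F).commute_of_orth (p := 0) Nat.cast_zero (by decide +kernel) x (a3 r hx) y (a3 s hy)
  have a5 : ∀ k : Rt chevG2, (∀ i, 2 ∣ cov k i - vec chevG2 [1, 2] i) → sysSL2 m k (-1) = m.tor (sg F (vec chevG2 [1, 2])) :=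
    fun k hk => by
      rw [← (sg_eq_iff h2).mpr hk, show (-1 : Matrix.SpecialLinearGroup (Fin 2) F) = dSL (-1) by
        ext i j; fin_cases i <;> fin_cases j <;> simp, sysSL2_d, m.h_eq_tor]; rfl
  have a6 := a5 r (by decide +kernel)
  have a7 := a5 s (by decide +kernel)
  have a8 : (sysSL2 m r).range ⊓ (sysSL2 m s).range = Subgroup.zpowers (m.tor (sg F (vec chevG2 [1, 2]))) := by
    refine le_antisymm ?_ (Subgroup.zpowers_le.mpr ⟨⟨_, a6⟩, _, a7⟩)
    rintro _ ⟨⟨y, rfl⟩, hy⟩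
    obtain rfl | rfl := sl_mem_center_iff'.mp (Subgroup.mem_center_iff.mpr fun z => a1 (by
      simpa using a4 _ ⟨z, rfl⟩ _ hy) : y ∈ Subgroup.center _)
    · simp [one_mem]
    · exact a6 ▸ Subgroup.mem_zpowers _
  have a9 : (sysSL2 m r).range ⊔ (sysSL2 m s).range ≤ Subgroup.centralizer {m.tor (sg F (vec chevG2 [1, 2]))} :=
    sup_le (fun x hx => Subgroup.mem_centralizer_singleton_iff.mpr (a4 x hx _ ⟨_, a7⟩))
      fun x hx => Subgroup.mem_centralizer_singleton_iff.mpr (a4 _ ⟨_, a6⟩ x hx).symm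
  refine ⟨h1, _, _, ⟨(MonoidHom.ofInjective a1).symm⟩, ⟨(MonoidHom.ofInjective a2).symm⟩, a4, a8, a9, ?_⟩
  have b1 := Solv.card_sup_mul_card_inf (N := (sysSL2 m r).range) (H := (sysSL2 m s).range)
    fun y hy => Subgroup.centralizer_le_normalizer _ fun x hx => a4 x hx y hy
  have b2 := Subgroup.card_mul_index ((((sysSL2 m r).range ⊔ (sysSL2 m s).range)).subgroupOf
    (Subgroup.centralizer {m.tor (sg F (vec chevG2 [1, 2]))}))
  rw [a8, ← Nat.card_congr (MonoidHom.ofInjective a1).toEquiv, ← Nat.card_congr (MonoidHom.ofInjective a2).toEquiv,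
    card_SL2, Nat.card_zpowers, ← a6, orderOf_injective _ a1, orderOf_eq_prime (p := 2) (by simp) fun e => h2 (by
      have : (-1 : F) = 1 := by simpa using congr($e 0 0)
      linear_combination -this)] at b1
  rw [Nat.card_congr (Subgroup.subgroupOfEquivOfLe a9).toEquiv, h1] at b2
  refine Nat.eq_of_mul_eq_mul_left Nat.card_pos (b2.trans (Eq.trans ?_ b1.symm))
  zify [Nat.one_le_pow 2 _ (Nat.card_pos (α := F)), Nat.card_pos (α := F)]
  ring

/-- In the Chevalley group G of type G₂ over a finite field F of odd order q, the centralizer of an involution t has order q²(q² − 1)² and contains two elementwise commuting subgroups, each isomorphic to SL(2, F), which meet exactly in the subgroup generated by t and whose join has index 2 in the centralizer. -/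
theorem result {F : Type*} [Field F] [Fintype F] (hF : Odd (Fintype.card F)) (t : ↥(Cfsg.Lie.chevG2.group F)) (ht : orderOf t = 2) : Nat.card (Subgroup.centralizer ({t} : Set ↥(Cfsg.Lie.chevG2.group F))) = Fintype.card F ^ 2 * (Fintype.card F ^ 2 - 1) ^ 2 ∧ ∃ L₁ L₂ : Subgroup ↥(Cfsg.Lie.chevG2.group F), Nonempty (L₁ ≃* Matrix.SpecialLinearGroup (Fin 2) F) ∧ Nonempty (L₂ ≃* Matrix.SpecialLinearGroup (Fin 2) F) ∧ (∀ x ∈ L₁, ∀ y ∈ L₂, x * y = y * x) ∧ L₁ ⊓ L₂ = Subgroup.zpowers t ∧ L₁ ⊔ L₂ ≤ Subgroup.centralizer ({t} : Set ↥(Cfsg.Lie.chevG2.group F)) ∧ (L₁ ⊔ L₂).relIndex (Subgroup.centralizer ({t} : Set ↥(Cfsg.Lie.chevG2.group F))) = 2 := by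
  rw [← Nat.card_eq_fintype_card] at *
  obtain ⟨p, N, _, _, hN⟩ := exists_char F
  let e := stEquiv chevG2 F (zkerG2_eq_bot F)
  obtain ⟨_, hv, h⟩ := (bigG2 F p).invol (algebraMap F _) hN (two_ne_zero_of_odd hF) certG2_ok orbG2'
    (List.forall_mem_singleton.mpr (certG2_ok.cent (fun _ => rfl) centG2_0).1) (u := e.symm t) (by simpa)
  obtain rfl := List.mem_singleton.mp hv
  obtain ⟨z, hz⟩ := isConj_iff.mp h
  have := ((base hF).map (MulAut.conj z)).map e
  rwa [MulAut.conj_apply, hz, e.apply_symm_apply] at this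

end Cfsg.Agent.S4279
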