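import Cfsg.Statements.S4281
import Cfsg.Agent.Chev.InvOdd

set_option autoImplicit false
open scoped BigOperators
open Cfsg

namespace Cfsg.Agent.S4281

open Cfsg.Agent.Chev Cfsg.Lie

/-- In the Chevalley group of type E₈ over a finite field of odd order q there are exactly two conjugacy classes of involutions; the centralizer of an involution in one class has order q⁵⁶(q⁸ − 1)·∏_{i=1}^{7}(q^{2i} − 1), and in the other class q⁶⁴(q² − 1)²(q⁶ − 1)(q⁸ − 1)(q¹⁰ − 1)(q¹² − 1)(q¹⁴ − 1)(q¹⁸ − 1). -/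
theorem result {F : Type*} [Field F] [Fintype F] (hF : Odd (Fintype.card F)) : ∃ s t : ↥(Cfsg.Lie.chevE8.group F), orderOf s = 2 ∧ orderOf t = 2 ∧ ¬ IsConj s t ∧ (∀ u : ↥(Cfsg.Lie.chevE8.group F), orderOf u = 2 → IsConj u s ∨ IsConj u t) ∧ Nat.card (Subgroup.centralizer ({s} : Set ↥(Cfsg.Lie.chevE8.group F))) = Fintype.card F ^ 56 * (Fintype.card F ^ 8 - 1) * ∏ i ∈ Finset.Icc 1 7, (Fintype.card F ^ (2 * i) - 1) ∧ Nat.card (Subgroup.centralizer ({t} : Set ↥(Cfsg.Lie.chevE8.group F))) = Fintype.card F ^ 64 * (Fintype.card F ^ 2 - 1) ^ 2 * (Fintype.card F ^ 6 - 1) * (Fintype.card F ^ 8 - 1) * (Fintype.card F ^ 10 - 1) * (Fintype.card F ^ 12 - 1) * (Fintype.card F ^ 14 - 1) * (Fintype.card F ^ 18 - 1) := by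
  rw [← Nat.card_eq_fintype_card] at *
  obtain ⟨s, t, h1, h2, h3, h4, h5, h6⟩ := exists_two_classes (zkerE8_eq_bot F) (zkerE8_eq_bot _) hF certE8_ok (fun _ => rfl)
    orbE8' centE8_0 centE8_1 (a := 56) (a' := 64) (E := [0, 13, 12, 11, 10, 9, 8, 7, 7, 6, 5, 4, 3, 2, 1, 14])
    (E' := [0, 1]) (by decide +kernel)
  have h : ∀ k, 1 ≤ Nat.card F ^ k := fun k => Nat.one_le_pow _ _ Nat.card_pos
  rw [show Finset.Icc 1 7 = {1, 2, 3, 4, 5, 6, 7} from rfl]
  simp only [Finset.mem_insert, Finset.mem_singleton, Finset.prod_insert, Finset.prod_singleton, Nat.reduceEqDiff, or_self,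
    not_false_eq_true]
  refine ⟨s, t, h1, h2, h3, h4, ?_, ?_⟩ <;> zify [h]
  · rw [h5, show chevE8.rank = 8 from rfl, poinE8_254]; simp; ring
  · rw [h6, show chevE8.rank = 8 from rfl, poinE8_127]; simp; ring

end Cfsg.Agent.S4281
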