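import Cfsg.Statements.S4282
import Cfsg.Agent.Sig.HH3

set_option autoImplicit false
open Cfsg

namespace Cfsg.Agent.S4282

open Subgroup Cfsg.Agent.BG Cfsg.Agent.Sig

/-- A critical case behind the Hall–Higman theorem. Let p ≠ q be primes and G a finite group generated by a normal q-subgroup Q and a cyclic p-subgroup generated by x, such that the centralizer of every non-identity element of that cyclic subgroup is its product with the centre of G. Let K be an algebraically closed field of characteristic p and ρ a faithful representation of G on a nonzero finite-dimensional K-space whose restriction to Q is irreducible. If s is the least exponent with (ρ(x) − 1)^s = 0, then |⟨x⟩| − 1 ≤ s ≤ |⟨x⟩|; and if s = |⟨x⟩| − 1 then |⟨x⟩| − 1 is a power of q and Q is non-abelian. -/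
theorem result {G : Type*} [Group G] [Finite G] (p q : ℕ) [Fact p.Prime] [Fact q.Prime] (hpq : p ≠ q) (Q : Subgroup G) [Q.Normal] (hQ : IsPGroup q Q) (x : G) (hx : IsPGroup p (Subgroup.zpowers x)) (hgen : Q ⊔ Subgroup.zpowers x = ⊤) (hC : ∀ y ∈ Subgroup.zpowers x, y ≠ 1 → Subgroup.centralizer ({y} : Set G) = Subgroup.zpowers x ⊔ Subgroup.center G) {K : Type*} [Field K] [IsAlgClosed K] [CharP K p] {V : Type*} [AddCommGroup V] [Module K V] [FiniteDimensional K V] [Nontrivial V] (ρ : Representation K G V) (hfaith : Function.Injective ρ) (hirr : ∀ W : Submodule K V, (∀ g ∈ Q, Submodule.map (ρ g) W ≤ W) → W = ⊥ ∨ W = ⊤) (s : ℕ) (hs : (ρ x - 1) ^ s = 0) (hmin : ∀ k < s, (ρ x - 1) ^ k ≠ 0) : Nat.card (Subgroup.zpowers x) - 1 ≤ s ∧ s ≤ Nat.card (Subgroup.zpowers x) ∧ (s = Nat.card (Subgroup.zpowers x) - 1 → (∃ b : ℕ, Nat.card (Subgroup.zpowers x) - 1 = q ^ b) ∧ ¬ IsMulCommutative Q) := by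
  have hp : p.Prime := Fact.out
  obtain ⟨n, hn⟩ := hx.exists_card_eq
  have h1 : x ^ p ^ n = 1 := by rw [← hn, Nat.card_zpowers, pow_orderOf_eq_one]
  have h2 : s ≤ p ^ n := le_of_not_gt fun l => hmin _ l (by rw [HH.sub_one_pow (K := K), ← map_pow, h1, map_one, sub_self])
  have h3 : s ≠ 0 := by rintro rfl; exact absurd hs (by simp)
  rw [hn]
  rcases h2.eq_or_lt with rfl | l
  · exact ⟨Nat.sub_le _ _, le_rfl, fun e => by omega⟩
  obtain _ | n := n
  · rw [pow_zero] at l; omega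
  obtain ⟨c1, c2⟩ := HH.cast_ne (Γ := G) (K := K) hpq.symm
  have h4 : HH.Irr ρ Q ⊤ := ⟨top_ne_bot, fun _ _ _ _ => trivial, fun W _ hW => hirr W fun g hg =>
    Submodule.map_le_iff_le_comap.2 (hW hg)⟩
  have h5 : x ^ p ^ n ≠ 1 := fun e => (Nat.pow_lt_pow_right hp.one_lt n.lt_succ_self).not_ge
    (Nat.le_of_dvd (pow_pos hp.pos n) (by rw [← hn, Nat.card_zpowers]; exact orderOf_dvd_of_pow_eq_one e))
  obtain ⟨h6, h7, h8⟩ := HH.crit' (c2 hQ) (norm_of_normal Q ⊤ (mem_top x)) h1 h4 (fun _ _ => trivial) (fun g hg hg' y hy => by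
    rw [hC _ (pow_mem (mem_zpowers x) _) h5] at hg'
    obtain ⟨a, ha, z, hz, rfl⟩ := mem_sup_of_normal_right.1 hg'
    have h8 : (a * z) ^ Nat.card Q = 1 := congrArg Subtype.val (pow_card_eq_one' (x := (⟨_, hg⟩ : Q)))
    rw [Commute.mul_pow (mem_center_iff.1 hz a)] at h8
    have h9 : a ∈ center G := mem_of_pow_mem_coprime (m := p ^ (n + 1)) (n := Nat.card Q)
      (hn ▸ congrArg Subtype.val (pow_card_eq_one' (x := (⟨_, ha⟩ : zpowers x))))
      ((Solv.coprime_card_of_isPGroup hQ ((Nat.coprime_primes hp Fact.out).2 hpq)).pow_right _)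
      (by rw [eq_inv_of_mul_eq_one_left h8]; exact inv_mem (pow_mem hz _))
    rw [commutatorElement_eq_one_iff_mul_comm.2 (mem_center_iff.1 (mul_mem h9 hz) y).symm]
    exact one_mem _) (fun h => h5 (by rw [hfaith (show ρ x = ρ 1 from LinearMap.ext fun v => by
      simpa using h v trivial), one_pow])) (fun u _ => by rw [hs]; rfl) l
  obtain ⟨b, hb⟩ := hQ.exists_card_eq
  obtain ⟨m, hm⟩ := HH.dim_pow c1 b hb h4
  exact ⟨by omega, h2, fun _ => ⟨⟨m, by omega⟩, fun h => by
    have := h4.finrank_one (by rw [der1_eq_bot.2 h]; exact bot_le)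
    omega⟩⟩

end Cfsg.Agent.S4282
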