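import Cfsg.Statements.S4283
import Cfsg.Agent.Gen2.FrobCompl
import Cfsg.Agent.Gen2.Cyc
import Cfsg.Agent.Gen2.Basic
import Cfsg.Agent.SolvStr.Frattini

set_option autoImplicit false
open Cfsg

namespace Cfsg.Agent.S4283

/-- Let G be a finite group with centre Z and let K, H be abelian subgroups of G containing Z such that G/Z is a Frobenius group with complement H/Z and kernel K/Z. Then the conjugacy class sizes of G are exactly 1, [G : K] and [G : H], and these two indices are coprime. (This is the converse half of the characterization of finite groups whose conjugacy class sizes are exactly 1, m and n with m and n coprime.) -/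
theorem result {G : Type*} [Group G] [Finite G] (K H : Subgroup G) (hZK : Subgroup.center G ≤ K) (hZH : Subgroup.center G ≤ H) (hK : IsMulCommutative K) (hH : IsMulCommutative H) (hFrob : Cfsg.IsFrobeniusComplement (H.map (QuotientGroup.mk' (Subgroup.center G)))) (hker : Cfsg.frobeniusKernel (H.map (QuotientGroup.mk' (Subgroup.center G))) = (K.map (QuotientGroup.mk' (Subgroup.center G)) : Set (G ⧸ Subgroup.center G))) : Set.range (fun x : G => (Subgroup.centralizer ({x} : Set G)).index) = ({1, K.index, H.index} : Set ℕ) ∧ K.index.Coprime H.index := by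
  have hm : ∀ {L : Subgroup G}, Subgroup.center G ≤ L → ∀ {g : G},
      (g : G ⧸ Subgroup.center G) ∈ L.map (QuotientGroup.mk' _) ↔ g ∈ L := fun {L} hL g => by
    show g ∈ (L.map (QuotientGroup.mk' _)).comap (QuotientGroup.mk' _) ↔ _
    rw [Solv.comap_map_mk', sup_eq_left.2 hL]
  have h1 : ∀ x ∈ K, x ∉ Subgroup.center G → Subgroup.centralizer ({x} : Set G) = K :=
    fun x hx hxZ => le_antisymm (fun g hg => by
      by_contra h
      refine hxZ ((QuotientGroup.eq_one_iff x).1 (Gen2.eq_one_of_commute_of_not_mem_kernel hFrob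
        hker (mt (hm hZK).1 h) ((hm hZK).2 hx) ?_))
      rw [← QuotientGroup.mk_mul, ← QuotientGroup.mk_mul, Gen2.mem_cent.1 hg])
      fun g hg => Gen2.mem_cent.2 (Gen2.mul_comm_of_mem hK hg hx)
  have h2 : ∀ x ∈ H, x ∉ Subgroup.center G → Subgroup.centralizer ({x} : Set G) = H :=
    fun x hx hxZ => le_antisymm (fun g hg => (hm hZH).1 (Frob.mem_of_commute hFrob
      ((hm hZH).2 hx) (mt (QuotientGroup.eq_one_iff x).1 hxZ) (by
        rw [← QuotientGroup.mk_mul, ← QuotientGroup.mk_mul, Gen2.mem_cent.1 hg])))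
      fun g hg => Gen2.mem_cent.2 (Gen2.mul_comm_of_mem hH hg hx)
  have h3 := Frob.card_frobeniusKernel hFrob
  rw [hker] at h3
  refine ⟨Set.Subset.antisymm ?_ ?_, ?_⟩
  · rintro _ ⟨x, rfl⟩
    by_cases hxZ : x ∈ Subgroup.center G
    · exact Or.inl (Gen2.cs_eq_one_iff.2 hxZ)
    by_cases hx : x ∈ K
    · exact Or.inr (Or.inl (congrArg Subgroup.index (h1 x hx hxZ)))
    have h4 : (x : G ⧸ Subgroup.center G) ∉
        frobeniusKernel (H.map (QuotientGroup.mk' (Subgroup.center G))) := by
      rw [hker]; exact mt (hm hZK).1 hx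
    rw [Frob.mem_frobeniusKernel] at h4
    push Not at h4
    obtain ⟨-, g, hg⟩ := h4
    obtain ⟨g, rfl⟩ := QuotientGroup.mk_surjective g
    refine Or.inr (Or.inr ?_)
    show _ = _
    beta_reduce
    rw [← Gen2.cs_conj g⁻¹ x, inv_inv, h2 _ ((hm hZH).1 hg) fun h => hxZ ?_]
    simpa [mul_assoc] using (inferInstance : (Subgroup.center G).Normal).conj_mem _ h g
  · have h4 : ∀ L : Subgroup G, L.map (QuotientGroup.mk' (Subgroup.center G)) ≠ ⊥ →
        ∃ x ∈ L, x ∉ Subgroup.center G := fun L hL => by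
      rwa [Ne, Subgroup.map_eq_bot_iff, QuotientGroup.ker_mk', SetLike.not_le_iff_exists] at hL
    rintro _ (rfl | rfl | rfl)
    · exact ⟨1, Gen2.cs_one⟩
    · obtain ⟨x, hx, h⟩ := h4 K fun h => hFrob.2.1 (by
        rw [← Subgroup.index_eq_one, ← h3, h]; exact Subgroup.card_bot)
      exact ⟨x, congrArg Subgroup.index (h1 x hx h)⟩
    · obtain ⟨x, hx, h⟩ := h4 H hFrob.1
      exact ⟨x, congrArg Subgroup.index (h2 x hx h)⟩
  · rw [← SolvStr.index_map_mk' hZK, ← SolvStr.index_map_mk' hZH]
    convert Frob.coprime_card_index hFrob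
    refine Nat.eq_of_mul_eq_mul_left
      (Nat.card_pos (α := K.map (QuotientGroup.mk' (Subgroup.center G)))) ?_
    rw [Subgroup.card_mul_index, mul_comm]
    exact (Subgroup.card_mul_index _).symm.trans (congrArg _ h3.symm)

end Cfsg.Agent.S4283
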