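import Cfsg.Statements.S4291
import Cfsg.Agent.Gen2.FCStruct

set_option autoImplicit false
open Cfsg

namespace Cfsg.Agent.S4291

open Subgroup Cfsg.Agent.BG Cfsg.Agent.Gen2 Equiv

/-- The quotient has at least twelve elements and no nontrivial normal Z-subgroup. -/
def Strong {G : Type*} [Group G] (N : Subgroup G) : Prop :=
  12 ≤ N.index ∧ ∀ M : Subgroup G, M.Normal → IsZGroup M → M ≤ N

theorem strong_of {G X : Type*} [Group G] [Finite G] [Group X] (hX : NoZ X) (h : 12 ≤ Nat.card X) {f : G →* X}
    (hf : Function.Surjective f) : Strong f.ker :=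
  ⟨by rwa [index_ker, MonoidHom.range_eq_top.2 hf, card_top], fun _ hM hZ => hX.le_ker hf hM hZ⟩

theorem card_alt {n : ℕ} (h : n.factorial ≥ 24) [Nontrivial (Fin n)] : 12 ≤ Nat.card (alternatingGroup (Fin n)) := by
  have := (alternatingGroup (Fin n)).card_mul_index
  rw [alternatingGroup.index_eq_two, Nat.card_perm, Nat.card_fin] at this
  omega

/-- Let G be a finite group that occurs as a Frobenius complement. Then G has exactly one normal subgroup N such that every Sylow subgroup of N is cyclic and the quotient of G by N is trivial or isomorphic to one of the following five groups: the Klein four-group, the alternating group of degree 4, the symmetric group of degree 4, the alternating group of degree 5, the symmetric group of degree 5. (The quotient is described by a surjective homomorphism with kernel N; the Klein four-group is written as the dihedral group of order 4.) -/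
theorem result {G : Type*} [Group G] [Finite G]
    (hFC : (∃ (L : Type) (_ : Group L) (_ : Finite L) (H : Subgroup L), Cfsg.IsFrobeniusComplement H ∧ Nonempty (G ≃* H))) :
    ∃! N : Subgroup G, N.Normal ∧ (∀ (p : ℕ) [Fact p.Prime] (P : Sylow p N), IsCyclic P) ∧
      (N = ⊤ ∨
        (∃ f : G →* DihedralGroup 2, Function.Surjective f ∧ f.ker = N) ∨
        (∃ f : G →* alternatingGroup (Fin 4), Function.Surjective f ∧ f.ker = N) ∨
        (∃ f : G →* Equiv.Perm (Fin 4), Function.Surjective f ∧ f.ker = N) ∨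
        (∃ f : G →* alternatingGroup (Fin 5), Function.Surjective f ∧ f.ker = N) ∨
        (∃ f : G →* Equiv.Perm (Fin 5), Function.Surjective f ∧ f.ker = N)) := by
  have h : IsFC G := hFC
  have hZ : ∀ N : Subgroup G, (∀ (p : ℕ) [Fact p.Prime] (P : Sylow p N), IsCyclic P) ↔ IsZGroup N := fun N =>
    ⟨fun h => ⟨fun p hp P => by have := Fact.mk hp; exact h p P⟩, fun h p _ P => inferInstance⟩
  simp only [hZ]
  refine existsUnique_of_exists_of_unique ?_ ?_
  · by_cases hs : Group.IsSolvable G
    · rcases h.struct_solvable hs with h1 | ⟨f, h1, h2⟩ | ⟨f, h1, h2⟩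
      · exact ⟨⊤, inferInstance, inferInstance, Or.inl rfl⟩
      · exact ⟨f.ker, inferInstance, h2, Or.inr (Or.inl ⟨f, h1, rfl⟩)⟩
      · rcases exists_hom_perm_of_index f h1 with h3 | h3
        · exact ⟨f.ker, inferInstance, h2, Or.inr (Or.inr (Or.inl h3))⟩
        · exact ⟨f.ker, inferInstance, h2, Or.inr (Or.inr (Or.inr (Or.inl h3)))⟩
    · obtain ⟨f, h1, h2⟩ := h.struct_nonsolvable hs
      rcases exists_hom_perm_of_index f h1 with h3 | h3
      · exact ⟨f.ker, inferInstance, h2, Or.inr (Or.inr (Or.inr (Or.inr (Or.inl h3))))⟩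
      · exact ⟨f.ker, inferInstance, h2, Or.inr (Or.inr (Or.inr (Or.inr (Or.inr h3))))⟩
  have hcases : ∀ N : Subgroup G, (N = ⊤ ∨
      (∃ f : G →* DihedralGroup 2, Function.Surjective f ∧ f.ker = N) ∨
      (∃ f : G →* alternatingGroup (Fin 4), Function.Surjective f ∧ f.ker = N) ∨
      (∃ f : G →* Equiv.Perm (Fin 4), Function.Surjective f ∧ f.ker = N) ∨
      (∃ f : G →* alternatingGroup (Fin 5), Function.Surjective f ∧ f.ker = N) ∨
      (∃ f : G →* Equiv.Perm (Fin 5), Function.Surjective f ∧ f.ker = N)) →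
      N = ⊤ ∨ (∃ f : G →* DihedralGroup 2, Function.Surjective f ∧ f.ker = N) ∨ Strong N := by
    rintro N (h | h | ⟨f, hf, rfl⟩ | ⟨f, hf, rfl⟩ | ⟨f, hf, rfl⟩ | ⟨f, hf, rfl⟩)
    · exact Or.inl h
    · exact Or.inr (Or.inl h)
    · exact Or.inr (Or.inr (strong_of noZ_alt4 (card_alt (by decide)) hf))
    · exact Or.inr (Or.inr (strong_of noZ_perm4 (by simp [Fintype.card_perm, Nat.factorial]) hf))
    · exact Or.inr (Or.inr (strong_of noZ_alt5 (card_alt (by decide)) hf))
    · exact Or.inr (Or.inr (strong_of noZ_perm5 (by simp [Fintype.card_perm, Nat.factorial]) hf))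
  have hi : ∀ f : G →* DihedralGroup 2, Function.Surjective f → f.ker.index = 4 := fun f hf => by
    rw [index_ker, MonoidHom.range_eq_top.2 hf, card_top, Nat.card_eq_fintype_card, DihedralGroup.card]
  have htop : IsZGroup (⊤ : Subgroup G) → ∀ f : G →* DihedralGroup 2, ¬ Function.Surjective f := fun hz f hf => by
    have h1 : IsZGroup ((⊤ : Subgroup G).map f) :=
      IsZGroup.of_surjective (f := f.subgroupMap ⊤) (f.subgroupMap_surjective ⊤)
    rw [map_top_of_surjective _ hf] at h1
    exact absurd (eq_of_sq_of_isZGroup h1 (a := .r 1) (b := .sr 0) trivial trivial (by decide) (by decide)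
      (by decide) (by decide) (by decide)) (by decide)
  have hst : ∀ N M : Subgroup G, Strong N → M.Normal → IsZGroup M → M.index ∣ 4 → False := fun N M hN hM hz h4 => by
    have := Nat.le_of_dvd (by norm_num) ((index_dvd_of_le (hN.2 M hM hz)).trans h4)
    have := hN.1
    omega
  rintro N M ⟨hN1, hN2, hN3⟩ ⟨hM1, hM2, hM3⟩
  rcases hcases N hN3 with rfl | ⟨f, hf, rfl⟩ | hN <;> rcases hcases M hM3 with rfl | ⟨g, hg, rfl⟩ | hM
  · rfl
  · exact absurd hg (htop hN2 g)
  · exact (hst _ _ hM hN1 hN2 (by simp)).elim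
  · exact absurd hf (htop hM2 f)
  · have h4 := h.index_ker_le_four (X := DihedralGroup 2 × DihedralGroup 2) (by decide) (f.prod g)
    rw [MonoidHom.ker_prod] at h4
    have key : ∀ K : Subgroup G, f.ker ⊓ g.ker ≤ K → K.index = 4 → f.ker ⊓ g.ker = K := fun K hK hK4 => by
      refine eq_of_card_le hK ?_
      have h5 := K.card_mul_index
      have h6 := (f.ker ⊓ g.ker).card_mul_index
      rw [hK4] at h5
      nlinarith
    exact (key _ inf_le_left (hi f hf)).symm.trans (key _ inf_le_right (hi g hg))
  · exact (hst _ _ hM hN1 hN2 (hi f hf).dvd).elim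
  · exact (hst _ _ hN hM1 hM2 (by simp)).elim
  · exact (hst _ _ hN hM1 hM2 (hi g hg).dvd).elim
  · exact le_antisymm (hM.2 _ hN1 hN2) (hN.2 _ hM1 hM2)

end Cfsg.Agent.S4291
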