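import Cfsg.Statements.S4293
import Cfsg.Agent.Gen2.FCLift

set_option autoImplicit false
open Cfsg

namespace Cfsg.Agent.S4293

/-- A nontrivial finite subgroup of the multiplicative group of a division ring occurs as a Frobenius complement of some finite Frobenius group. -/
theorem result {D : Type*} [DivisionRing D] (H : Subgroup Dˣ) [Finite H] (hH : H ≠ ⊥) :
    ∃ (L : Type) (_ : Group L) (_ : Finite L) (C : Subgroup L), Cfsg.IsFrobeniusComplement C ∧ Nonempty (H ≃* C) := by
  have := (Subgroup.nontrivial_iff_ne_bot H).2 hH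
  have key : ∀ {R : Type} [AddCommMonoid R] (f : D →+ R), Gen2.NZ fun x : H => f ((x : Dˣ) : D) := by
    intro R _ f h h1 x
    rw [← map_sum]
    have h2 := mul_geom_sum (((h : Dˣ) : D)) (orderOf h)
    rw [← Units.val_pow_eq_pow_val, ← Subgroup.coe_pow, pow_orderOf_eq_one, OneMemClass.coe_one,
      Units.val_one, sub_self, mul_eq_zero, sub_eq_zero] at h2
    have h3 := h2.resolve_left fun h4 => h1 (Subtype.ext (Units.ext h4))
    simp [← Finset.mul_sum, h3]
  obtain ⟨p, hp⟩ := CharP.exists D
  rcases CharP.char_is_prime_or_zero D p with hp' | rfl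
  · have : Fact p.Prime := ⟨hp'⟩
    let _ : Algebra (ZMod p) D := ZMod.algebra D p
    obtain ⟨f, hf⟩ := Module.Projective.exists_dual_ne_zero (ZMod p) (one_ne_zero (α := D))
    refine Gen2.isFC_of_nz_field (fun h => ?_) (Function.ne_iff.2 ⟨1, hf⟩) (key f.toAddMonoidHom)
    obtain ⟨x, hx⟩ := exists_prime_orderOf_dvd_card' p ((ZMod.natCast_eq_zero_iff _ _).1 h)
    have h2 := sub_pow_char_of_commute p (Commute.one_right ((x : Dˣ) : D))
    rw [← Units.val_pow_eq_pow_val, ← Subgroup.coe_pow, ← hx, pow_orderOf_eq_one,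
      OneMemClass.coe_one, Units.val_one, one_pow, sub_self, pow_eq_zero_iff (orderOf_pos x).ne',
      sub_eq_zero] at h2
    rw [show x = 1 from Subtype.ext (Units.ext h2), orderOf_one] at hx
    exact hp'.one_lt.ne hx
  · have := CharP.charP_to_charZero D
    obtain ⟨f, hf⟩ := Module.Projective.exists_dual_ne_zero ℚ (one_ne_zero (α := D))
    exact Gen2.isFC_of_nz_rat (Function.ne_iff.2 ⟨1, hf⟩) (key f.toAddMonoidHom)

end Cfsg.Agent.S4293
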