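import Cfsg.Statements.S4294
import Cfsg.Agent.S4293
import Cfsg.Agent.S3359
import Cfsg.Agent.Elu.Am2

set_option autoImplicit false
open Cfsg

namespace Cfsg.Agent.S4294

/-- A finite non-solvable subgroup of the multiplicative group of a division ring is isomorphic to the binary icosahedral group SL(2,5). -/
theorem result {D : Type*} [DivisionRing D] (H : Subgroup Dˣ) [Finite H] (hH : ¬ Group.IsSolvable H) :
    Nonempty (H ≃* Matrix.SpecialLinearGroup (Fin 2) (ZMod 5)) := by
  have hb : H ≠ ⊥ := by rintro rfl; exact hH inferInstance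
  obtain ⟨G₀, hN, hi, S, M, hSM, -, hc, ⟨e⟩, -, hM⟩ := S3359.result hH (S4293.result H hb)
  let φ : H →* D := (Units.coeHom D).comp H.subtype
  have hφ : Function.Injective φ := Units.val_injective.comp Subtype.val_injective
  let F : Elu.Am.S5 →* D := φ.comp (S.subtype.comp e.symm.toMonoidHom)
  have hF : Function.Injective F := hφ.comp (Subtype.val_injective.comp e.symm.injective)
  have hFS : ∀ s (hs : s ∈ S), φ s = F (e ⟨s, hs⟩) := fun s hs => by simp [F]
  have hM1 : M = ⊥ := by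
    refine (Subgroup.eq_bot_iff_forall M).2 fun x hx => hφ ?_
    rw [map_one]
    refine Elu.Am.eq_one_of_comm hF (r := Nat.card M)
      ((Nat.Coprime.pow_right 2 hM).coprime_dvd_right (by norm_num)) ?_ fun g => ?_
    · rw [← map_pow, show x ^ Nat.card M = 1 from
        congrArg Subtype.val (pow_card_eq_one' (x := (⟨x, hx⟩ : M))), map_one]
    · exact ((map_mul φ _ _).symm.trans (congrArg φ (hc _ (e.symm g).2 x hx).symm)).trans
        (map_mul φ _ _)
  rw [hM1, sup_bot_eq] at hSM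
  subst hSM
  rcases hi with hi | hi
  · rw [Subgroup.index_eq_one] at hi
    exact ⟨(Subgroup.topEquiv.symm.trans (MulEquiv.subgroupCongr hi.symm)).trans e⟩
  · exfalso
    obtain ⟨h, hh⟩ : ∃ h, h ∉ S := by
      by_contra hn
      rw [(Subgroup.eq_top_iff' S).2 fun x => not_not.1 fun hx => hn ⟨x, hx⟩,
        Subgroup.index_top] at hi
      omega
    refine Elu.Am.no_ext hF (φ '' {h | h ∉ S}) ?_ ?_ ?_ ?_ ?_ ⟨h, hh, rfl⟩
    · rintro _ ⟨x, -, rfl⟩; exact Units.ne_zero _
    · rintro _ ⟨x, hx, rfl⟩ g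
      exact ⟨e.symm g * x, fun h => hx ((S.mul_mem_cancel_left (e.symm g).2).1 h), map_mul φ _ _⟩
    · rintro _ ⟨x, -, rfl⟩ g
      refine ⟨e ⟨_, hN.conj_mem _ (e.symm g).2 x⟩, ?_⟩
      rw [← hFS, ← map_mul, inv_mul_cancel_right, map_mul]; rfl
    · rintro _ ⟨x, -, rfl⟩
      exact ⟨e ⟨_, S.mul_self_mem_of_index_two hi x⟩, by rw [← hFS, map_mul]⟩
    · rintro _ ⟨x, hx, rfl⟩ g h
      exact hx (hφ h ▸ (e.symm g).2)

end Cfsg.Agent.S4294
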