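import Cfsg.Statements.S4296
import Cfsg.Agent.Gen2.QuatAct

set_option autoImplicit false
open Cfsg

namespace Cfsg.Agent.S4296

/-- Let H be a Frobenius complement in a finite group, and suppose some Sylow subgroup of H is not cyclic. Then the number of elements of the Frobenius kernel (the identity together with the elements lying in no conjugate of H) is an odd perfect square. -/
theorem result {L : Type*} [Group L] [Finite L] (H : Subgroup L) (hF : Cfsg.IsFrobeniusComplement H)
    (hZ : ∃ (p : ℕ) (_ : Fact p.Prime) (P : Sylow p H), ¬ IsCyclic P) :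
    Odd (Nat.card (Cfsg.frobeniusKernel H)) ∧ IsSquare (Nat.card (Cfsg.frobeniusKernel H)) := by
  obtain ⟨p, _, P, hP⟩ := hZ
  have h1 : Gen2.IsFC H := by
    obtain ⟨L', _, _, ⟨e⟩⟩ := Finite.exists_type_univ_nonempty_mulEquiv.{_, 0} L
    exact ⟨L', inferInstance, inferInstance, _, Gen2.isFrobeniusComplement_map e hF,
      ⟨e.subgroupMap _⟩⟩
  obtain ⟨-, n, hn, ⟨e⟩⟩ := (h1.isCyclic_or_quaternion P.isPGroup').resolve_left hP
  obtain ⟨n, rfl⟩ := Nat.exists_eq_succ_of_ne_zero hn
  rw [pow_succ'] at e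
  obtain ⟨K, hK, _, hc⟩ := S0035.result H hF
  rw [← hK]
  refine Gen2.odd_isSquare_of_quaternionGroup (K := K) (pow_ne_zero n two_ne_zero)
    ((MulAut.conjNormal.comp H.subtype).comp ((P : Subgroup H).subtype.comp e.symm.toMonoidHom))
    fun h h2 x hx => Subtype.ext ?_
  refine Gen2.eq_one_of_commute_of_not_mem_kernel hF hK.symm (g := ((e.symm h : P) : H))
    (fun h3 => h2 ?_) x.2 (mul_inv_eq_iff_eq_mul.1 (congrArg Subtype.val hx)).symm
  rw [← e.symm.map_eq_one_iff]
  exact Subtype.ext (Subtype.ext (Subgroup.disjoint_def.1 hc.disjoint h3 (e.symm h : H).2))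

end Cfsg.Agent.S4296
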