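import Cfsg.Statements.S4295
import Cfsg.Agent.Gen2.QuatAct
import Cfsg.Agent.S4296
import Cfsg.Agent.Invol.Dihedral

set_option autoImplicit false
open Cfsg

namespace Cfsg.Agent.S4295

/-- For a natural number m the following are equivalent: (a) some finite group has a Frobenius complement isomorphic to the quaternion group of order 8 whose Frobenius kernel (the identity together with the elements lying in no conjugate of the complement) has exactly m elements; (b) m is an odd perfect square greater than 1. -/
theorem result (m : ℕ) :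
    (∃ (L : Type) (_ : Group L) (_ : Finite L) (H : Subgroup L), Cfsg.IsFrobeniusComplement H ∧
        Nonempty (H ≃* QuaternionGroup 2) ∧ Nat.card (Cfsg.frobeniusKernel H) = m) ↔
    (Odd m ∧ IsSquare m ∧ 1 < m) := by
  constructor
  · rintro ⟨L, _, _, H, h1, ⟨e⟩, rfl⟩
    have : Fact (Nat.Prime 2) := inferInstance
    have h2 : IsPGroup 2 H := IsPGroup.of_card (n := 3) (by
      rw [Nat.card_congr e.toEquiv, Nat.card_eq_fintype_card, QuaternionGroup.card]; rfl)
    obtain ⟨P⟩ : Nonempty (Sylow 2 H) := inferInstance
    have h3 : (P : Subgroup H) = ⊤ := (P.is_maximal' (h2.to_subgroup ⊤) le_top).symm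
    obtain ⟨h4, h5⟩ := S4296.result H h1 ⟨2, this, P, fun h => by
      rw [h3] at h
      have : IsCyclic (QuaternionGroup 2) := isCyclic_of_surjective
        (Subgroup.topEquiv.trans e) (Subgroup.topEquiv.trans e).surjective
      exact absurd (IsCyclic.isMulCommutative.is_comm.comm (QuaternionGroup.a 1 : QuaternionGroup 2)
        (QuaternionGroup.xa 0)) (by decide)⟩
    refine ⟨h4, h5, ?_⟩
    rw [Frob.card_frobeniusKernel h1]
    exact Subgroup.one_lt_index_of_ne_top h1.2.1
  · rintro ⟨h1, ⟨s, rfl⟩, h2⟩
    have hs : Odd s := (Nat.odd_mul.1 h1).1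
    have hs1 : 1 < s := by
      by_contra h
      interval_cases s <;> simp at h2
    have : Fact (1 < s) := ⟨hs1⟩
    have : NeZero s := ⟨by omega⟩
    obtain ⟨a, b, hab⟩ := Gen2.exists_sq_add_sq_add_one hs
    rw [← ZMod.natCast_eq_zero_iff] at hab
    push_cast at hab
    let r : MulAut (Multiplicative (ZMod s × ZMod s)) := AddEquiv.toMultiplicative
      { toFun := fun x => (a * x.1 + b * x.2, b * x.1 - a * x.2)
        invFun := fun x => (-(a * x.1 + b * x.2), -(b * x.1 - a * x.2))
        left_inv := fun x => Prod.ext (by simp only; linear_combination (-x.1) * hab)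
          (by simp only; linear_combination (-x.2) * hab)
        right_inv := fun x => Prod.ext (by simp only; linear_combination (-x.1) * hab)
          (by simp only; linear_combination (-x.2) * hab)
        map_add' := fun x y => Prod.ext (by simp only [Prod.fst_add, Prod.snd_add]; ring)
          (by simp only [Prod.fst_add, Prod.snd_add]; ring) }
    let t : MulAut (Multiplicative (ZMod s × ZMod s)) := AddEquiv.toMultiplicative
      { toFun := fun x => (-x.2, x.1)
        invFun := fun x => (x.2, -x.1)
        left_inv := fun x => by simp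
        right_inv := fun x => by simp
        map_add' := fun x y => Prod.ext (neg_add _ _) rfl }
    have hr : ∀ x, (r ^ 2) x = x⁻¹ := fun x => Prod.ext
      (by
        show a * (a * x.toAdd.1 + b * x.toAdd.2) + b * (b * x.toAdd.1 - a * x.toAdd.2) = -x.toAdd.1
        linear_combination x.toAdd.1 * hab)
      (by
        show b * (a * x.toAdd.1 + b * x.toAdd.2) - a * (b * x.toAdd.1 - a * x.toAdd.2) = -x.toAdd.2
        linear_combination x.toAdd.2 * hab)
    have h3 : t * t = r ^ 2 := MulEquiv.ext fun x => by rw [hr]; rfl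
    have h4 : t * r * t⁻¹ = r⁻¹ := MulEquiv.ext fun x => Prod.ext
      (by
        show -(b * x.toAdd.2 - a * -x.toAdd.1) = -(a * x.toAdd.1 + b * x.toAdd.2)
        ring)
      (by
        show a * x.toAdd.2 + b * -x.toAdd.1 = -(b * x.toAdd.1 - a * x.toAdd.2)
        ring)
    have h5 : r ^ (2 * 2) = 1 := MulEquiv.ext fun x => by
      rw [pow_mul, sq (r ^ 2), MulAut.mul_apply, hr, hr, inv_inv, MulAut.one_apply]
    have h6 : Invol.quaternionHom h3 h4 h5 (.a 2) = r ^ 2 := Invol.quaternionHom_a h3 h4 h5 2
    have : Nontrivial (QuaternionGroup 2) := ⟨.a 0, .xa 0, nofun⟩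
    obtain ⟨L, _, _, C, h7, ⟨e⟩, h8⟩ := Gen2.exists_frob_of_action.{0}
      (Invol.quaternionHom h3 h4 h5) fun h hh x hx => by
        have h9 : x⁻¹ = x := by
          rw [← hr, ← h6]
          rcases (by decide : ∀ h : QuaternionGroup 2, h ≠ 1 → .a 2 = h ∨ .a 2 = h * h) h hh with
            h | h
          · rw [h, hx]
          · rw [h, map_mul, MulAut.mul_apply, hx, hx]
        rw [inv_eq_iff_mul_eq_one, ← sq, ← orderOf_dvd_iff_pow_eq_one] at h9
        refine orderOf_eq_one_iff.1 (Nat.eq_one_of_dvd_coprimes (Nat.coprime_two_left.2 h1) h9 ?_)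
        simpa using orderOf_dvd_natCard x
    exact ⟨L, inferInstance, inferInstance, C, h7, ⟨e.symm⟩, by simpa using h8⟩

end Cfsg.Agent.S4295
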