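import Cfsg.Statements.S4297
import Cfsg.Agent.Gen2.FrobCompl
import Mathlib.NumberTheory.PrimesCongruentOne
import Mathlib.NumberTheory.LegendreSymbol.AddCharacter

set_option autoImplicit false
open Cfsg

namespace Cfsg.Agent.S4297

/-- For every n ≥ 2 the dicyclic group of order 4n (generated by an element a of order 2n and an element x with x² = aⁿ and x a x⁻¹ = a⁻¹) occurs as a Frobenius complement of some finite Frobenius group. -/
theorem result (n : ℕ) (hn : 2 ≤ n) :
    ∃ (L : Type) (_ : Group L) (_ : Finite L) (H : Subgroup L), Cfsg.IsFrobeniusComplement H ∧ Nonempty (H ≃* QuaternionGroup n) := by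
  obtain ⟨p, hp, h2, h1⟩ := Nat.exists_prime_gt_modEq_one (k := 2 * n) 2 (by omega)
  have : Fact p.Prime := ⟨hp⟩
  have : NeZero n := ⟨by omega⟩
  have h3 : 2 * n ∣ Nat.card (ZMod p)ˣ := by
    rw [Nat.card_units, Nat.card_zmod]
    exact (Nat.modEq_iff_dvd' hp.one_le).1 h1.symm
  obtain ⟨g, hg⟩ := IsCyclic.exists_ofOrder_eq_natCard (α := (ZMod p)ˣ)
  have h4 : IsPrimitiveRoot ((g ^ (orderOf g / (2 * n)) : (ZMod p)ˣ) : ZMod p) (2 * n) := by
    rw [IsPrimitiveRoot.coe_units_iff]
    have := IsPrimitiveRoot.orderOf (g ^ (orderOf g / (2 * n)))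
    rwa [orderOf_pow_orderOf_div (orderOf_pos g).ne' (hg ▸ h3)] at this
  let ψ := AddChar.zmodChar (2 * n) h4.pow_eq_one
  have h5 : ∀ i, ψ i = 1 → i = 0 := fun i =>
    (AddChar.zmodChar_primitive_of_primitive_root _ h4).zmod_char_eq_one_iff _ i |>.1
  have h6 : ψ n = -1 := by
    refine (mul_self_eq_one_iff.1 ?_).resolve_left fun h => ?_
    · rw [← AddChar.map_add_eq_mul, ← Nat.cast_add, ← two_mul, ZMod.natCast_self,
        AddChar.map_zero_eq_one]
    · have := Nat.le_of_dvd (by omega) ((ZMod.natCast_eq_zero_iff _ _).1 (h5 _ h))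
      omega
  have h7 : ∀ i, ψ (i + n) = -ψ i := fun i => by rw [AddChar.map_add_eq_mul, h6, mul_neg_one]
  have h8 : (-n : ZMod (2 * n)) = n := by
    rw [neg_eq_iff_add_eq_zero, ← Nat.cast_add, ← two_mul, ZMod.natCast_self]
  let ρ : QuaternionGroup n →* Matrix (Fin 2) (Fin 2) (ZMod p) :=
    { toFun := fun x => match x with
        | .a i => !![ψ i, 0; 0, ψ (-i)]
        | .xa i => !![0, -ψ (-i); ψ i, 0]
      map_one' := by
        rw [QuaternionGroup.one_def]
        simp [Matrix.one_fin_two]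
      map_mul' := by
        rintro (i | i) (j | j)
        · simp [← AddChar.map_add_eq_mul, add_comm]
        · simp [← AddChar.map_add_eq_mul, sub_eq_add_neg, add_comm]
        · simp [← AddChar.map_add_eq_mul, add_comm]
        · simp [← AddChar.map_add_eq_mul, ← h7]
          constructor <;> congr 1
          · ring
          · linear_combination h8 }
  have : Nontrivial (QuaternionGroup n) := ⟨.a 0, .xa 0, nofun⟩
  refine (Gen2.isFC_of_matrix ρ ?_).symm
  rintro (i | i) hi
  · have h9 : i ≠ 0 := fun h => hi (by rw [h, QuaternionGroup.one_def])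
    simp only [ρ, MonoidHom.coe_mk, OneHom.coe_mk, Matrix.det_fin_two]
    simpa [sub_eq_zero] using ⟨fun h => h9 (h5 _ h), fun h => h9 (neg_eq_zero.1 (h5 _ h))⟩
  · simp only [ρ, MonoidHom.coe_mk, OneHom.coe_mk, Matrix.det_fin_two]
    simp [← AddChar.map_add_eq_mul, one_add_one_eq_two]
    intro h
    have := Nat.le_of_dvd two_pos ((ZMod.natCast_eq_zero_iff 2 p).1 h)
    omega

end Cfsg.Agent.S4297
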