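import Cfsg.Statements.S4298
import Cfsg.Agent.Gen2.FrobCompl

set_option autoImplicit false
open Cfsg

namespace Cfsg.Agent.S4298

/-- Table of a fixed-point-free representation over `ZMod 5`. -/
def tab : ℕ := 0x30320000000000004330324300000000000000001433000013140000331300000000114000000000041100000000400400000000424100000000000000004122000022420000000000001220202300000000000023120000000001440000000044100000000010010000000000000000312103312103000000000000022424343402000000000000000000000000000000000000000000000000000000000000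

/-- The entries of the representation. -/
def ent (k : ℕ) (a b c d : ZMod 3) : ZMod 5 :=
  ((tab >>> (16 * (a.val + 3 * b.val + 3 ^ 2 * c.val + 3 ^ 3 * d.val) + 4 * k)) % 16 : ℕ)

/-- The matrix of the representation. -/
def mat (a b c d : ZMod 3) : Matrix (Fin 2) (Fin 2) (ZMod 5) :=
  !![ent 0 a b c d, ent 1 a b c d; ent 2 a b c d, ent 3 a b c d]

/-- Multiplicativity on a pair. -/
def Mul (a b c d a' b' c' d' : ZMod 3) : Prop :=
    ent 0 (a * a' + b * c') (a * b' + b * d') (c * a' + d * c') (c * b' + d * d') =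
      ent 0 a b c d * ent 0 a' b' c' d' + ent 1 a b c d * ent 2 a' b' c' d' ∧
    ent 1 (a * a' + b * c') (a * b' + b * d') (c * a' + d * c') (c * b' + d * d') =
      ent 0 a b c d * ent 1 a' b' c' d' + ent 1 a b c d * ent 3 a' b' c' d' ∧
    ent 2 (a * a' + b * c') (a * b' + b * d') (c * a' + d * c') (c * b' + d * d') =
      ent 2 a b c d * ent 0 a' b' c' d' + ent 3 a b c d * ent 2 a' b' c' d' ∧
    ent 3 (a * a' + b * c') (a * b' + b * d') (c * a' + d * c') (c * b' + d * d') =
      ent 2 a b c d * ent 1 a' b' c' d' + ent 3 a b c d * ent 3 a' b' c' d'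

theorem key : ∀ a b c d : ZMod 3, a * d - b * c = 1 → ∀ x : ZMod 3,
    Mul a b c d 1 x 0 1 ∧ Mul a b c d 1 0 x 1 := by
  unfold Mul
  decide +kernel

theorem key2 : ∀ a b c d : ZMod 3, a * d - b * c = 1 →
    (ent 0 a b c d - 1) * (ent 3 a b c d - 1) - ent 1 a b c d * ent 2 a b c d = 0 →
    a = 1 ∧ b = 0 ∧ c = 0 ∧ d = 1 := by
  decide +kernel

theorem key3 : mat 1 0 0 1 = 1 := by decide +kernel

/-- The group SL(2,3) of order 24 (the binary tetrahedral group) occurs as a Frobenius complement of some finite Frobenius group. -/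
theorem result :
    ∃ (L : Type) (_ : Group L) (_ : Finite L) (H : Subgroup L), Cfsg.IsFrobeniusComplement H ∧ Nonempty (H ≃* Matrix.SpecialLinearGroup (Fin 2) (ZMod 3)) := by
  have : Fact (Nat.Prime 5) := ⟨by norm_num⟩
  have : Fact (Nat.Prime 3) := ⟨by norm_num⟩
  have hd : ∀ g : Matrix.SpecialLinearGroup (Fin 2) (ZMod 3),
      g.1 0 0 * g.1 1 1 - g.1 0 1 * g.1 1 0 = 1 := fun g => by rw [← Matrix.det_fin_two, g.2]
  let f : Matrix.SpecialLinearGroup (Fin 2) (ZMod 3) → Matrix (Fin 2) (Fin 2) (ZMod 5) :=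
    fun g => mat (g.1 0 0) (g.1 0 1) (g.1 1 0) (g.1 1 1)
  have h1 : f 1 = 1 := key3
  have h2 : ∀ g h : Matrix.SpecialLinearGroup (Fin 2) (ZMod 3), Mul (g.1 0 0) (g.1 0 1) (g.1 1 0)
      (g.1 1 1) (h.1 0 0) (h.1 0 1) (h.1 1 0) (h.1 1 1) → f (g * h) = f g * f h := by
    rintro g h ⟨h1, h2, h3, h4⟩
    simp only [f, mat]
    rw [Matrix.mul_fin_two, ← h1, ← h2, ← h3, ← h4]
    simp [Matrix.mul_apply, Fin.sum_univ_two]
  have h3 : ∀ h g, f (g * h) = f g * f h := fun h => by
    induction h using Matrix.SL2.transvection_induction with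
    | htransvec i j hij c =>
      intro g
      refine h2 _ _ ?_
      fin_cases i <;> fin_cases j
      · exact absurd rfl hij
      · simpa [Matrix.SpecialLinearGroup.transvection_coe] using (key _ _ _ _ (hd g) c).1
      · simpa [Matrix.SpecialLinearGroup.transvection_coe] using (key _ _ _ _ (hd g) c).2
      · exact absurd rfl hij
    | hmul A B hA hB => intro g; rw [← mul_assoc, hB, hA, hB, mul_assoc]
  let ρ : Matrix.SpecialLinearGroup (Fin 2) (ZMod 3) →* Matrix (Fin 2) (Fin 2) (ZMod 5) :=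
    { toFun := f, map_one' := h1, map_mul' := fun g h => h3 h g }
  have : Nontrivial (Matrix.SpecialLinearGroup (Fin 2) (ZMod 3)) :=
    ⟨⟨!![1, 1; 0, 1], by simp⟩, 1, fun h => by simpa using congrArg (fun g => g.1 0 1) h⟩
  refine (Gen2.isFC_of_matrix ρ fun g hg h => hg ?_).symm
  obtain ⟨h1, h2, h3, h4⟩ := key2 _ _ _ _ (hd g)
    (by simpa [ρ, f, mat, Matrix.det_fin_two] using h)
  ext i j
  fin_cases i <;> fin_cases j <;> simp [h1, h2, h3, h4]

end Cfsg.Agent.S4298
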