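import Cfsg.Statements.S4299
import Cfsg.Agent.Gen2.FrobCompl
import Mathlib.NumberTheory.PrimesCongruentOne

set_option autoImplicit false
open Cfsg

namespace Cfsg.Agent.S4299

/-- Every nontrivial finite cyclic group occurs as a Frobenius complement of some finite Frobenius group. -/
theorem result {C : Type*} [Group C] [Finite C] [IsCyclic C] [Nontrivial C] :
    ∃ (L : Type) (_ : Group L) (_ : Finite L) (H : Subgroup L), Cfsg.IsFrobeniusComplement H ∧ Nonempty (C ≃* H) := by
  obtain ⟨p, hp, h2, h1⟩ := Nat.exists_prime_gt_modEq_one (k := Nat.card C) 2 Nat.card_pos.ne'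
  have : Fact p.Prime := ⟨hp⟩
  have h3 : Nat.card C ∣ Nat.card (ZMod p)ˣ := by
    rw [Nat.card_units, Nat.card_zmod]
    exact (Nat.modEq_iff_dvd' hp.one_le).1 h1.symm
  obtain ⟨g, hg⟩ := IsCyclic.exists_ofOrder_eq_natCard (α := (ZMod p)ˣ)
  have h4 : Nat.card C = Nat.card (Subgroup.zpowers (g ^ (orderOf g / Nat.card C))) := by
    rw [Nat.card_zpowers, orderOf_pow_orderOf_div (orderOf_pos g).ne' (hg ▸ h3)]
  let f : C →* (ZMod p)ˣ := (Subgroup.subtype _).comp (mulEquivOfCyclicCardEq h4).toMonoidHom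
  have hf : Function.Injective f := Subtype.val_injective.comp (mulEquivOfCyclicCardEq h4).injective
  let _ : DistribMulAction C (ZMod p) := DistribMulAction.compHom _ f
  refine Gen2.isFC_of_addAction (V := ZMod p) fun h hh x hx => ?_
  by_contra h0
  refine hh (hf (Units.ext ?_))
  rw [map_one, Units.val_one]
  exact mul_right_cancel₀ h0 (Eq.trans hx (one_mul x).symm)

end Cfsg.Agent.S4299
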