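import Cfsg.Statements.S4300


set_option autoImplicit false
open Cfsg

namespace Cfsg.Agent.S4300

/-- Let G act faithfully and primitively on a set X, and suppose the stabilizer of some point is a simple group. Then either G is simple, or G has a normal subgroup, neither trivial nor the whole group, that acts regularly on X (transitively with trivial point stabilizers). -/
theorem result {G : Type*} [Group G] {X : Type*} [MulAction G X] [FaithfulSMul G X]
    (hprim : MulAction.IsPreprimitive G X) (x : X) (hsimple : IsSimpleGroup (MulAction.stabilizer G x)) :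
    IsSimpleGroup G ∨ ∃ N : Subgroup G, N.Normal ∧ N ≠ ⊥ ∧ N ≠ ⊤ ∧
      MulAction.IsPretransitive N X ∧ ∀ y : X, MulAction.stabilizer N y = ⊥ := by
  rw [or_iff_not_imp_right]
  intro h
  push Not at h
  have : Nontrivial G := (MulAction.stabilizer G x).subtype_injective.nontrivial
  refine ⟨fun N hN => ?_⟩
  by_contra h0
  push Not at h0
  have h1 : MulAction.IsPretransitive N X := by
    refine hprim.isQuasiPreprimitive.isPretransitive_of_normal fun h1 => h0.1 ?_
    rw [eq_bot_iff]
    intro n hn
    refine FaithfulSMul.eq_of_smul_eq_smul (α := X) fun y => ?_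
    rw [one_smul]
    exact (h1 ▸ Set.mem_univ y : y ∈ MulAction.fixedPoints N X) ⟨n, hn⟩
  obtain ⟨y, hy⟩ := h N hN h0.1 h0.2 h1
  rcases hsimple.eq_bot_or_eq_top_of_normal (N.subgroupOf (MulAction.stabilizer G x))
    inferInstance with h2 | h2
  · refine hy (eq_bot_iff.2 fun n hn => ?_)
    obtain ⟨g, rfl⟩ := MulAction.exists_smul_eq G x y
    have h3 : g⁻¹ * n * g ∈ MulAction.stabilizer G x := by
      rw [MulAction.mem_stabilizer_iff, mul_smul, mul_smul, inv_smul_eq_iff]
      exact hn
    have h4 : (⟨_, h3⟩ : MulAction.stabilizer G x) ∈ N.subgroupOf (MulAction.stabilizer G x) :=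
      hN.conj_mem' _ n.2 g
    rw [h2] at h4
    have h5 : g⁻¹ * n * g = 1 := congrArg Subtype.val (Subgroup.mem_bot.1 h4)
    rw [mul_assoc, inv_mul_eq_one, eq_comm, mul_eq_right] at h5
    exact Subtype.ext h5
  · refine h0.2 (eq_top_iff.2 fun g _ => ?_)
    obtain ⟨n, hn⟩ := MulAction.exists_smul_eq N x (g • x)
    have h3 : (n : G)⁻¹ * g ∈ MulAction.stabilizer G x := by
      rw [MulAction.mem_stabilizer_iff, mul_smul, inv_smul_eq_iff]
      exact hn.symm
    simpa using mul_mem n.2 (Subgroup.subgroupOf_eq_top.1 h2 h3)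

end Cfsg.Agent.S4300
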