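import Cfsg.Statements.S4301
import Cfsg.Agent.Perm.Basic

set_option autoImplicit false
open Cfsg

namespace Cfsg.Agent.S4301

/-- One-point extension of a multiply transitive group. Let X be a set and G a group of permutations of Option X (the set X with one extra point ∗ = none) all of whose elements fix ∗, such that G is k-transitive on the points of X for some k ≥ 2, X having at least k points. Suppose a permutation h of Option X and an element g of G satisfy: h interchanges ∗ with a point x of X and fixes a point y of X; g interchanges x and y; (g h)³ and h² lie in G; and for every f in G fixing x, the product h f h lies in G and fixes x. Then an element of the group generated by G and h fixes ∗ exactly when it lies in G, and that group acts (k+1)-transitively on Option X. -/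
theorem result {X : Type*} (G : Subgroup (Equiv.Perm (Option X))) (hfix : ∀ f ∈ G, f none = none)
    (k : ℕ) (hk : 2 ≤ k) (hkX : Nonempty (Fin k ↪ X))
    (htrans : ∀ a b : Fin k ↪ X, ∃ f ∈ G, ∀ i, f (some (a i)) = some (b i))
    (h g : Equiv.Perm (Option X)) (hg : g ∈ G) (x y : X)
    (h1 : h none = some x) (h2 : h (some x) = none) (h3 : h (some y) = some y)
    (h4 : g (some x) = some y) (h5 : g (some y) = some x)
    (h6 : (g * h) ^ 3 ∈ G) (h7 : h ^ 2 ∈ G)
    (h8 : ∀ f ∈ G, f (some x) = some x → h * f * h ∈ G ∧ (h * f * h) (some x) = some x) :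
    (∀ f ∈ Subgroup.closure ((G : Set (Equiv.Perm (Option X))) ∪ {h}), f none = none ↔ f ∈ G) ∧
      MulAction.IsMultiplyPretransitive (Subgroup.closure ((G : Set (Equiv.Perm (Option X))) ∪ {h})) (Option X) (k + 1) := by
  classical
  obtain ⟨e⟩ := hkX
  have hxy : x ≠ y := fun h => by rw [h, h3] at h2; cases h2
  have h01 : (⟨0, by omega⟩ : Fin k) ≠ ⟨1, by omega⟩ := by simp
  have ht2 : ∀ a b c d : X, a ≠ b → c ≠ d → ∃ f ∈ G, f (some a) = some c ∧ f (some b) = some d :=
    fun a b c d hab hcd => by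
      obtain ⟨s, hs⟩ := Perm.exists_smul_two (Equiv.Perm.isMultiplyPretransitive X 2)
        (e.injective.ne h01) hab
      obtain ⟨t, ht⟩ := Perm.exists_smul_two (Equiv.Perm.isMultiplyPretransitive X 2)
        (e.injective.ne h01) hcd
      obtain ⟨f, hf, h⟩ := htrans (e.trans s.toEmbedding) (e.trans t.toEmbedding)
      exact ⟨f, hf, by rw [← hs.1, ← ht.1]; exact h _, by rw [← hs.2, ← ht.2]; exact h _⟩
  have hinv : h⁻¹ = (h ^ 2)⁻¹ * h := by rw [sq]; group
  have key : ∀ f ∈ G, h * f * h ∈ G ∨ ∃ a ∈ G, ∃ b ∈ G, h * f * h = a * h * b := fun f hf => by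
    by_cases hx : f (some x) = some x
    · exact Or.inl (h8 f hf hx).1
    obtain ⟨z, hz⟩ : ∃ z, f (some x) = some z := Option.ne_none_iff_exists'.1 fun h => by
      rw [← hfix f hf, f.injective.eq_iff] at h; cases h
    obtain ⟨a, ha, h9, h10⟩ := ht2 x y x z hxy fun h => hx (h ▸ hz)
    have hb : g⁻¹ * a⁻¹ * f ∈ G := mul_mem (mul_mem (inv_mem hg) (inv_mem ha)) hf
    have h11 : (g⁻¹ * a⁻¹ * f) (some x) = some x := by
      rw [Equiv.Perm.mul_apply, Equiv.Perm.mul_apply, hz, Equiv.Perm.inv_eq_iff_eq, h4,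
        Equiv.Perm.inv_eq_iff_eq, h10]
    refine Or.inr ⟨h * a * h * (h ^ 2)⁻¹ * g⁻¹ * (g * h) ^ 3 * (h ^ 2)⁻¹, mul_mem (mul_mem (mul_mem
      (mul_mem (h8 a ha h9).1 (inv_mem h7)) (inv_mem hg)) h6) (inv_mem h7),
      g⁻¹ * (h ^ 2)⁻¹ * (h * (g⁻¹ * a⁻¹ * f) * h),
      mul_mem (mul_mem (inv_mem hg) (inv_mem h7)) (h8 _ hb h11).1, ?_⟩
    simp only [pow_succ, pow_zero]
    group
  let S : Subgroup (Equiv.Perm (Option X)) :=
    { carrier := {f | f ∈ G ∨ ∃ a ∈ G, ∃ b ∈ G, f = a * h * b}
      one_mem' := Or.inl (one_mem G)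
      mul_mem' := by
        rintro u v (hu | ⟨a, ha, b, hb, rfl⟩) (hv | ⟨c, hc, d, hd, rfl⟩)
        · exact Or.inl (mul_mem hu hv)
        · exact Or.inr ⟨u * c, mul_mem hu hc, d, hd, by group⟩
        · exact Or.inr ⟨a, ha, b * v, mul_mem hb hv, by group⟩
        · have : a * h * b * (c * h * d) = a * (h * (b * c) * h) * d := by group
          rw [this]
          rcases key _ (mul_mem hb hc) with h | ⟨a', ha', b', hb', h⟩
          · exact Or.inl (mul_mem (mul_mem ha h) hd)
          · exact Or.inr ⟨a * a', mul_mem ha ha', b' * d, mul_mem hb' hd, by rw [h]; group⟩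
      inv_mem' := by
        rintro u (hu | ⟨a, ha, b, hb, rfl⟩)
        · exact Or.inl (inv_mem hu)
        · exact Or.inr ⟨b⁻¹ * (h ^ 2)⁻¹, mul_mem (inv_mem hb) (inv_mem h7), a⁻¹, inv_mem ha, by
            rw [mul_assoc b⁻¹, ← hinv]; group⟩ }
  have hS : Subgroup.closure ((G : Set (Equiv.Perm (Option X))) ∪ {h}) ≤ S := by
    rw [Subgroup.closure_le]
    rintro f (hf | rfl)
    · exact Or.inl hf
    · exact Or.inr ⟨1, one_mem G, 1, one_mem G, by simp⟩
  have hG : ∀ f ∈ G, f ∈ Subgroup.closure ((G : Set (Equiv.Perm (Option X))) ∪ {h}) :=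
    fun f hf => Subgroup.subset_closure (Or.inl hf)
  refine ⟨fun f hf => ⟨fun h9 => ?_, hfix f⟩, ?_⟩
  · rcases hS hf with hf | ⟨a, ha, b, hb, rfl⟩
    · exact hf
    · rw [Equiv.Perm.mul_apply, Equiv.Perm.mul_apply, hfix b hb, h1, ← hfix a ha,
        a.injective.eq_iff] at h9
      cases h9
  rw [add_comm]
  refine Perm.isMultiplyPretransitive_add ?_ {none} rfl fun u v hu hv h9 h10 => ?_
  · rw [MulAction.is_one_pretransitive_iff]
    refine (MulAction.isPretransitive_iff_base none).2 ?_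
    rintro (_ | z)
    · exact ⟨1, rfl⟩
    · obtain ⟨w, hw⟩ : ∃ w, z ≠ w := by
        by_cases h : z = x
        · exact ⟨y, h ▸ hxy⟩
        · exact ⟨x, h⟩
      obtain ⟨f, hf, h9, -⟩ := ht2 x y z w hxy hw
      refine ⟨⟨f * h, mul_mem (hG f hf) (Subgroup.subset_closure (Or.inr rfl))⟩, ?_⟩
      show f (h none) = _
      rw [h1, h9]
  · simp only [Finset.mem_singleton, ← ne_eq, Option.ne_none_iff_exists'] at h9 h10
    choose a ha using h9
    choose b hb using h10
    obtain ⟨f, hf, h⟩ := htrans ⟨a, fun i j h => hu (by rw [ha, ha, h])⟩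
      ⟨b, fun i j h => hv (by rw [hb, hb, h])⟩
    exact ⟨⟨f, hG f hf⟩, by simpa using hfix f hf, fun i => by rw [ha, hb]; exact h i⟩

end Cfsg.Agent.S4301
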