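import Cfsg.Statements.S4302
import Cfsg.Agent.S0617
import Cfsg.Agent.Loc.SFF4
import Cfsg.Agent.FG.Three
import Cfsg.Agent.BG.Base6
import Cfsg.Agent.PLocal.Thompson

set_option autoImplicit false
open Cfsg

namespace Cfsg.Agent.S4302

open Subgroup Cfsg.Agent.Loc Cfsg.Agent.PLocal
open scoped commutatorElement

theorem elem {G : Type*} [Group G] [Finite G] {V H : Subgroup G} (h : FFS 2 V H) (n : ℕ) :
    ∀ A ≤ H, A ≤ centralizer (A : Set G) → IsPGroup 2 A → (∀ B ≤ A, mu V B ≤ mu V A) →
      Nat.card A = n → ∀ a ∈ A, a ^ 2 = 1 := by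
  induction n using Nat.strong_induction_on with
  | _ n ih =>
  intro A hA hc hp hm hn
  by_cases h0 : A = ⊥
  · intro a ha; rw [h0, mem_bot] at ha; simp [ha]
  have hAV := hA.trans h.norm
  have hab : ⁅A, A⁆ = ⊥ := comm_eq_bot_iff.2 hc
  obtain ⟨r1, r2⟩ := replace h.ea.1 hAV (by rw [hab]; exact bot_le) hm le_rfl
  have hle : ⁅V, A⁆ ≤ V := comm_le_left hAV
  have r3 : ⁅V, cent A ⁅V, A⁆⁆ ≠ ⊥ := fun hb => h.comm_ne_bot hA h0
    (comm_eq_bot_of_le_sup h.pg h.ea.1 hAV (fun a ha => by
      obtain ⟨k, hk⟩ := exists_pow_of_isPGroup hp ha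
      exact ⟨k, by rw [hk]; exact one_mem _⟩)
      ((le_inf le_rfl (comm_eq_bot_iff'.1 hb)).trans r1.le))
  have hb : IsBestOffenderOn 2 V (cent A ⁅V, A⁆) := by
    refine ⟨fun B hB => (hm B (hB.trans inf_le_left)).trans r2.ge, ?_, fun a ha => ?_⟩
    · exact ((commutator_mono inf_le_left inf_le_left).trans hab.le).trans bot_le
    · intro v hv
      have hw : ⁅v⁻¹, a⁆ ∈ ⁅V, A⁆ := commutator_mem_commutator (inv_mem hv) ha.1
      have h1 := ha.2 _ hw
      have h2 := h.ea.2 _ (hle hw)
      have e : a * v = v * ⁅v⁻¹, a⁆ * a := by simp only [commutatorElement_def]; group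
      generalize ⁅v⁻¹, a⁆ = w at h1 h2 e
      calc v * a ^ 2 = v * w ^ 2 * a * a := by rw [h2, pow_two]; group
        _ = v * w * (w * a) * a := by rw [pow_two]; group
        _ = v * w * a * w * a := by rw [h1]; group
        _ = a * v * w * a := by rw [← e]
        _ = a * (v * w * a) := by group
        _ = a ^ 2 * v := by rw [← e, pow_two, mul_assoc]
  obtain ⟨B, hBA, hB⟩ := h.exists_minOff (inf_le_left.trans hA) hb (fun e => r3 (by
    rw [show cent A ⁅V, A⁆ = ⊥ from e, commutator_bot_right]))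
  have hBA' : B ≤ A := hBA.trans inf_le_left
  have hBH := hBA'.trans hA
  have ns := h.main hBH hB
  have cB := h.card_minOff hBH hB
  set W := ⁅V, Eo 2 H B⁆ with hW
  have hAW : A ≤ normalizer (W : Set G) := le_normalizer_of_cj_eq fun g hg => by
    rw [hW, cj_commutator, cj_eq_of_mem_normalizer (hAV hg), cj_Eo (le_normalizer (hA hg)),
      cj_eq_of_mem_centralizer (centralizer_anti hBA' (hc hg))]
  have cW : Nat.card W = 4 := ns.cW
  have hBW : ¬ B ≤ centralizer (W : Set G) := fun e =>
    ne_bot_of_card cB (le_bot_iff.1 (ns.faith ▸ le_inf le_sup_right e))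
  have hU : Nat.card (W ⊓ centralizer (A : Set G) : Subgroup G) = 2 := by
    have m1 := card_modEq_cent hp hAW
    have d1 := card_dvd_of_le (inf_le_left : W ⊓ centralizer (A : Set G) ≤ W)
    have n4 : Nat.card (W ⊓ centralizer (A : Set G) : Subgroup G) ≠ 4 := fun e => hBW
      (hBA'.trans (le_centralizer_iff.1 ((eq_of_le_of_card_ge inf_le_left (by
        rw [e, cW])).ge.trans inf_le_right)))
    rw [cW] at m1 d1
    have := Nat.le_of_dvd (by norm_num) d1
    unfold Nat.ModEq at m1
    interval_cases Nat.card (W ⊓ centralizer (A : Set G) : Subgroup G) <;> simp_all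
  obtain ⟨b, hb1, w, hw, hbw⟩ : ∃ b ∈ B, ∃ w ∈ W, w * b ≠ b * w := by
    by_contra hh; push Not at hh; exact hBW fun b hb w hw => hh b hb w hw
  have hidx : (W ⊓ centralizer (A : Set G)).relIndex W = 2 := by
    have := Solv.card_mul_relIndex (inf_le_left : W ⊓ centralizer (A : Set G) ≤ W)
    rw [hU, cW] at this; omega
  have nU : ∀ a ∈ A, ∀ x, x ∈ centralizer (A : Set G) → a * x * a⁻¹ = x := fun a ha x hx => by
    rw [hx a ha]; group
  have hwU : w ∉ centralizer (A : Set G) := fun e => hbw (e b (hBA' hb1)).symm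
  have key : ∀ a ∈ A, w⁻¹ * (a * w * a⁻¹) ∈ W ⊓ centralizer (A : Set G) := by
    intro a ha
    have m1 : a * w * a⁻¹ ∈ W := conj_mem_of_mem_normalizer (hAW ha) hw
    have := (mul_mem_iff_of_index_two (H := (W ⊓ centralizer (A : Set G)).subgroupOf W) hidx
      (a := ⟨w⁻¹, inv_mem hw⟩) (b := ⟨_, m1⟩)).2 (by
        simp only [mem_subgroupOf, mem_inf, inv_mem_iff, hwU, and_false, false_iff, not_and]
        intro _ e
        apply hwU
        have := nU _ (inv_mem ha) _ e
        rw [← this] at e
        simpa [mul_assoc] using e)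
    exact this
  obtain ⟨u, hu1, hu⟩ := (Nat.card_eq_two_iff' (1 : (W ⊓ centralizer (A : Set G) : Subgroup G))).1 hU
  have key2 : ∀ a ∈ A, w * a ≠ a * w → a * w * a⁻¹ = w * u := by
    intro a ha hne
    have := congrArg Subtype.val (hu ⟨_, key a ha⟩ (fun e => hne (by
      have e' : w⁻¹ * (a * w * a⁻¹) = 1 := congrArg Subtype.val e
      calc w * a = w * (w⁻¹ * (a * w * a⁻¹)) * a := by rw [e']; group
        _ = a * w := by group)))
    simp only at this
    rw [← this]; group
  set A' := A ⊓ centralizer ({w} : Set G) with hA'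
  have key3 : ∀ a ∈ A, a ∈ A' ∨ b⁻¹ * a ∈ A' := by
    intro a ha
    by_cases e : w * a = a * w
    · exact Or.inl ⟨ha, mem_centralizer_singleton_iff.2 e.symm⟩
    · refine Or.inr ⟨A.mul_mem (A.inv_mem (hBA' hb1)) ha, mem_centralizer_singleton_iff.2 ?_⟩
      have e1 := (key2 a ha e).trans (key2 b (hBA' hb1) hbw).symm
      calc b⁻¹ * a * w = b⁻¹ * (a * w * a⁻¹) * a := by group
        _ = w * (b⁻¹ * a) := by rw [e1]; group
  have hbA' : b ∉ A' := fun e => hbw (mem_centralizer_singleton_iff.1 e.2).symm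
  have c1 : Nat.card A ≤ 2 * Nat.card A' := by
    have e : A = A' ⊔ B := le_antisymm (fun a ha => by
      rcases key3 a ha with e | e
      · exact mem_sup_left e
      · rw [show a = b * (b⁻¹ * a) by group]; exact mul_mem (mem_sup_right hb1) (mem_sup_left e))
      (sup_le inf_le_left hBA')
    have := Solv.card_sup_mul_card_inf (N := A') (H := B) (le_normalizer_of_le_centralizer
      (hBA'.trans (hc.trans (centralizer_anti inf_le_left))))
    rw [← e, cB] at this
    have p1 : 0 < Nat.card (A' ⊓ B : Subgroup G) := Nat.card_pos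
    nlinarith
  have c2 : 2 * Nat.card (cent V A) ≤ Nat.card (cent V A') := by
    have l1 : cent V A ≤ cent V A' := cent_anti V inf_le_left
    obtain ⟨k, hk⟩ := card_dvd_of_le l1
    have : k ≠ 1 := by
      rintro rfl
      have := eq_of_le_of_card_ge l1 (by rw [hk, mul_one])
      have hw' : w ∈ cent V A' := ⟨ns.Wle hw, fun a ha => mem_centralizer_singleton_iff.1 ha.2⟩
      rw [← this] at hw'
      exact hwU hw'.2
    have p1 : 0 < Nat.card (cent V A') := Nat.card_pos
    have : k ≠ 0 := by rintro rfl; omega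
    rw [hk, mul_comm]; exact Nat.mul_le_mul_left _ (by omega)
  have c3 : mu V A ≤ mu V A' := by
    calc mu V A ≤ 2 * Nat.card A' * Nat.card (cent V A) := Nat.mul_le_mul_right _ c1
      _ = Nat.card A' * (2 * Nat.card (cent V A)) := by ring
      _ ≤ mu V A' := Nat.mul_le_mul_left _ c2
  have i1 := ih (Nat.card A') (by
      rw [← hn]
      exact lt_of_le_of_ne (card_le_of_le inf_le_left) fun e =>
        hbA' ((eq_of_le_of_card_ge (inf_le_left : A' ≤ A) e.ge).ge (hBA' hb1)))
    A' (inf_le_left.trans hA) (inf_le_left.trans (hc.trans (centralizer_anti inf_le_left)))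
    (hp.to_le inf_le_left) (fun C hC => (hm C (hC.trans inf_le_left)).trans c3) rfl
  intro a ha
  rcases key3 a ha with e | e
  · exact i1 a e
  · have e1 := i1 _ e
    have e2 := h.pow_minOff hBH hB b hb1
    have e3 : Commute b (b⁻¹ * a) := hc (mul_mem (inv_mem (hBA' hb1)) ha) b (hBA' hb1)
    rw [show a = b * (b⁻¹ * a) by group, e3.mul_pow, e1, e2, one_mul]

theorem best {G : Type*} [Group G] [Finite G] {W L S A : Subgroup G} (h : UF 2 W L) (hS : IsPGroup 2 S)
    (hWS : W ≤ S) (hA : A ∈ abMax S) (hAL : A ≤ L) : IsBestOffenderOn 2 (til W W) (bar W A) := by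
  have hAc : A ≤ centralizer (A : Set G) := le_centralizer_self hA.2.1
  have hX := hAL.trans h.norm
  have m0 : ∀ B ≤ A, mu W B ≤ mu W A := by
    intro B hB
    have h1 : B ≤ centralizer (cent W B : Set G) := le_centralizer_iff.1 inf_le_right
    have hWc : W ≤ centralizer (W : Set G) := le_centralizer_self h.ea.1
    have h2 := hA.2.2 _ (sup_le (hB.trans hA.1) (inf_le_left.trans hWS))
      (show IsMulCommutative (B ⊔ cent W B : Subgroup G) from
        le_centralizer_iff_isMulCommutative.1 (by
          rw [Loc.centralizer_sup']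
          exact sup_le (le_inf (hB.trans (hAc.trans (centralizer_anti hB))) h1)
            (le_inf inf_le_right (inf_le_left.trans (hWc.trans (centralizer_anti inf_le_left))))))
    unfold mu
    rw [← Solv.card_sup_mul_card_inf (le_normalizer_of_le_centralizer inf_le_right)]
    refine Nat.mul_le_mul h2 (card_le_of_le (le_inf (inf_le_right.trans inf_le_left) ?_))
    exact (inf_le_left.trans hB).trans hAc
  have m1 : ∀ B ≤ bar W A, mu (til W W) B ≤ mu (til W W) (bar W A) := by
    intro B hB
    have h1 := m0 (pre W B ⊓ A) inf_le_right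
    rw [← mu_bar hX, ← mu_bar (inf_le_right.trans hX), bar_pre_inf hX hB, ← inf_assoc,
      inf_eq_left.2 (cent_le_pre B)] at h1
    exact Nat.le_of_mul_le_mul_left h1 Nat.card_pos
  have m2 : ⁅bar W A, bar W A⁆ = ⊥ := by
    rw [← bar_commutator hX hX, comm_eq_bot_iff.2 hAc]
    exact (bar_eq_bot_iff bot_le).2 bot_le
  refine ⟨m1, by rw [m2]; exact bot_le, fun a ha => ?_⟩
  rw [elem h.ffs _ _ (bar_mono hAL) (comm_eq_bot_iff.1 m2) (isPGroup_bar (hS.to_le hA.1)) m1 rfl a ha]
  exact one_mem _

theorem sl22 : Nonempty (Matrix.SpecialLinearGroup (Fin 2) (ZMod 2) ≃* Equiv.Perm (Fin 3)) := by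
  refine FG.equiv_S3 (by rw [Nat.card_eq_fintype_card]; decide +kernel) fun h => ?_
  exact absurd (h.is_comm.comm ⟨!![1, 1; 0, 1], by decide⟩ ⟨!![1, 0; 1, 1], by decide⟩) (by decide)

theorem prod_iso {G : Type*} [Group G] [Finite G] {I : Type*} [Finite I] {H : Subgroup G}
    (E : I → Subgroup G) {Y : Type*} [Group Y] (h1 : ∀ i, H ≤ normalizer (E i : Set G))
    (h2 : ∀ i, Nonempty (E i ≃* Y)) (h3 : iSupIndep E) (h4 : ⨆ i, E i = H) :
    Nonempty (H ≃* (Fin (Nat.card I) → Y)) := by
  classical
  haveI := Fintype.ofFinite I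
  have hc : Pairwise fun i j => ∀ x y : G, x ∈ E i → y ∈ E j → Commute x y := by
    intro i j hij x y hx hy
    have l : ∀ i, E i ≤ H := fun i => h4 ▸ le_iSup E i
    have : ⁅x, y⁆ ∈ E i ⊓ E j := ⟨commElt_mem_left hx (h1 i (l j hy)), by
      rw [← commutatorElement_inv]; exact (E j).inv_mem (commElt_mem_left hy (h1 j (l i hx)))⟩
    rw [disjoint_iff.1 (h3.pairwiseDisjoint hij), mem_bot] at this
    exact commutatorElement_eq_one_iff_commute.1 this
  have e1 := MonoidHom.ofInjective (injective_noncommPiCoprod_of_iSupIndep (hcomm := hc) h3)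
  rw [noncommPiCoprod_range, h4] at e1
  exact ⟨e1.symm.trans ((MulEquiv.piCongrRight fun i => (h2 i).some).trans
    (MulEquiv.arrowCongr (Finite.equivFin I) (MulEquiv.refl Y)))⟩

/-- Let `X` be a finite solvable group whose Fitting subgroup is a 2-group (equivalently `F(X) = O₂(X)`), `T` a Sylow 2-subgroup of `X`, `J(T)` the subgroup generated by the abelian subgroups of `T` of largest order, `C` the largest normal subgroup of `X` centralizing the centre `Z(T)`, and `Y` the normal closure of `J(T)` in `X`. Then `X = C · Y · N_X(J(T))`, and either `Y ≤ C`, or `CY/C` is isomorphic to a direct product of at least one copy of the symmetric group of degree 3. -/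
theorem result {X : Type*} [Group X] [Finite X]
    [Group.IsSolvable X] (hF : Cfsg.fittingSubgroup X = Cfsg.pCore 2 X) (T : Sylow 2 X) :
    ((Subgroup.centralizer (((T : Subgroup X) ⊓ Subgroup.centralizer ((T : Subgroup X) : Set X) : Subgroup X) : Set X)).normalCore
        ⊔ Subgroup.normalClosure (Cfsg.thompsonSubgroupAOf (T : Subgroup X) : Set X)
        ⊔ Subgroup.normalizer (Cfsg.thompsonSubgroupAOf (T : Subgroup X) : Set X) = ⊤) ∧
    (Subgroup.normalClosure (Cfsg.thompsonSubgroupAOf (T : Subgroup X) : Set X)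
        ≤ (Subgroup.centralizer (((T : Subgroup X) ⊓ Subgroup.centralizer ((T : Subgroup X) : Set X) : Subgroup X) : Set X)).normalCore
      ∨ ∃ n : ℕ, 1 ≤ n ∧
        Nonempty (↥(Subgroup.normalClosure (Cfsg.thompsonSubgroupAOf (T : Subgroup X) : Set X)) ⧸
            ((Subgroup.centralizer (((T : Subgroup X) ⊓ Subgroup.centralizer ((T : Subgroup X) : Set X) : Subgroup X) : Set X)).normalCore).subgroupOf
              (Subgroup.normalClosure (Cfsg.thompsonSubgroupAOf (T : Subgroup X) : Set X))
          ≃* (Fin n → Equiv.Perm (Fin 3)))) := by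
  set Z : Subgroup X := (T : Subgroup X) ⊓ centralizer ((T : Subgroup X) : Set X) with hZ
  set J := thompsonSubgroupAOf (T : Subgroup X) with hJ
  set Y := normalClosure (J : Set X) with hY
  have hJY : J ≤ Y := le_normalClosure
  refine ⟨?_, ?_⟩
  · have hs : SylIn 2 ((T : Subgroup X) ⊓ Y) Y := (sylIn_top T).inf_normal' le_top le_normalizer_of_normal
    have h1 := hs.frattini_sup (H := ⊤) le_top le_normalizer_of_normal
    have h2 := normalizer_le_normalizer_JA ((T : Subgroup X) ⊓ Y)
    rw [JA_eq_of_le inf_le_left (le_inf (JA_le _) hJY)] at h2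
    rw [eq_top_iff, ← h1]
    exact sup_le (le_sup_of_le_left le_sup_right) (le_sup_of_le_right (inf_le_right.trans h2))
  haveI := pCore_normal' 2 X
  have hO : centralizer (pCore 2 X : Set X) ≤ pCore 2 X := by
    have := Solv.centralizer_fitting_le (G := X); rwa [hF] at this
  set V := normalClosure (Z : Set X) with hV
  have hZV : Z ≤ V := le_normalClosure
  have hVO : V ≤ pCore 2 X ⊓ centralizer (pCore 2 X : Set X) := by
    have : Z ≤ centralizer (pCore 2 X : Set X) :=
      inf_le_right.trans (centralizer_anti (pCore_le_sylow T))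
    exact normalClosure_le_normal (le_inf (this.trans hO) this)
  have hVc : V ≤ centralizer (V : Set X) :=
    (hVO.trans inf_le_right).trans (centralizer_anti (hVO.trans inf_le_left))
  have hVp : IsPGroup 2 V := (isPGroup_pCore 2 X).to_le (hVO.trans inf_le_left)
  have nc : ∀ N : Subgroup X, N.Normal → N ≤ centralizer (Z : Set X) → N ≤ centralizer (V : Set X) :=
    fun N hN h => le_centralizer_iff.1 (normalClosure_le_normal (le_centralizer_iff.1 h))
  have hC : (centralizer (Z : Set X)).normalCore = centralizer (V : Set X) :=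
    le_antisymm (nc _ inferInstance (normalCore_le _)) (normal_le_normalCore.2 (centralizer_anti hZV))
  set W := omegaOne 2 V with hW
  have hWV : W ≤ V := Loc.omegaOne_le 2 V
  have nW : ∀ L : Subgroup X, L ≤ normalizer (W : Set X) := fun L =>
    le_top.trans (le_normalizer_of_normal.trans (Loc.normalizer_le_normalizer_omegaOne 2 V))
  haveI : W.Normal := normalizer_eq_top_iff.1 (eq_top_iff.2 (nW ⊤))
  have key : ∀ N : Subgroup X, N.Normal → pResidualOf 2 N ≤ centralizer (W : Set X) →
      N ≤ centralizer (V : Set X) := by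
    intro N hN h
    have h1 : pResidualOf 2 N ≤ centralizer (V : Set X) := pResidualOf_le_iff.2 fun x hx hc =>
      BG.coprime_abelian_faithful_Ohm1 (A := zpowers x) hVp le_normalizer_of_normal
        (Sig.coprime_of_isPGroup_of_coprime hVp (by rwa [Nat.card_zpowers]))
        (le_centralizer_iff_isMulCommutative.1 hVc) (zpowers_le.2 (h (mem_pResidualOf hx hc)))
        (mem_zpowers x)
    have hs : SylIn 2 ((T : Subgroup X) ⊓ N) N := (sylIn_top T).inf_normal' le_top le_normalizer_of_normal
    refine nc N hN ?_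
    rw [← hs.pResidualOf_sup]
    exact sup_le (h1.trans (centralizer_anti hZV))
      (inf_le_left.trans (le_centralizer_iff.1 inf_le_right))
  have hCW : centralizer (W : Set X) = centralizer (V : Set X) :=
    le_antisymm (key _ inferInstance (pResidualOf_le 2 _)) (centralizer_anti hWV)
  have ea : IsElementaryAbelian 2 W := isElementaryAbelian_omegaOne hVc
  have red : Red 2 ⊤ W := fun D _ hD h =>
    hCW ▸ key D (normalizer_eq_top_iff.1 (eq_top_iff.2 hD)) h
  have uf : UF 2 W Y := ⟨ea, nW Y, (red_iff_bar (nW Y)).2 (le_bot_iff.1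
    ((pCoreOf_le_of_normal (bar_mono le_top) (bar_le_normalizer le_normalizer_of_normal)).trans
      ((red_iff_bar (nW ⊤)).1 red).le)), pSolv_of_isSolvable⟩
  rw [← hCW] at hC
  by_cases h0 : Y ≤ centralizer (W : Set X)
  · exact Or.inl (h0.trans hC.ge)
  right
  have hH1 : bar W Y ≠ ⊥ := fun e => h0 ((bar_eq_bot_iff (nW Y)).1 e)
  have gen : bar W Y = ⨆ A : {A : Subgroup (Transfer.Hol W) // A ≤ bar W Y ∧
      IsBestOffenderOn 2 (til W W) A}, (A : Subgroup (Transfer.Hol W)) := by
    refine le_antisymm ((le_pre_iff (nW Y)).1 ?_) (iSup_le fun A => A.2.1)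
    refine (Loc.normalClosure_eq_iSup_cj J).le.trans (iSup_le fun g => ?_)
    rw [hJ, cj_JA, JA_le_iff]
    intro A hA
    have hAY : A ≤ Y := by
      have := le_JA hA
      rw [← cj_JA] at this
      exact this.trans ((cj_mono g hJY).trans (cj_eq_of_normal g Y).le)
    have hs := (sylIn_top T).conj_of_mem (mem_top g)
    refine (le_pre_iff (nW A)).2 (le_iSup_of_le ⟨bar W A, bar_mono hAY, best uf hs.2 ?_ hA hAY⟩ le_rfl)
    exact hWV.trans ((hVO.trans inf_le_left).trans (pCoreOf_top 2 X ▸ hs.pCoreOf_le))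
  have ff := uf.ffs
  obtain ⟨-, r1, r2, r3, -⟩ := S0617.result (til W W) (bar W Y) ff.ea ff.norm ff.faith
    (charPP_iff'.2 ff.cons) gen hH1
  obtain ⟨e⟩ := prod_iso _ (fun E => (r1 E).1)
    (fun E => ⟨(r1 E).2.1.some.trans sl22.some⟩) r2 r3
  refine ⟨_, ?_, ⟨(QuotientGroup.quotientMulEquivOfEq (by
    rw [ker_barHom (nW Y), hC])).trans
    ((QuotientGroup.quotientKerEquivOfSurjective _ (barHom_surjective (nW Y))).trans e)⟩⟩
  refine Nat.one_le_iff_ne_zero.2 (Nat.card_ne_zero.2 ⟨?_, inferInstance⟩)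
  by_contra hne
  rw [not_nonempty_iff] at hne
  exact hH1 (by rw [← r3]; exact iSup_of_empty _)

end Cfsg.Agent.S4302
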