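import Cfsg.Statements.S4305
import Cfsg.Agent.Gen2.FpfPQ3

set_option autoImplicit false
open Cfsg

namespace Cfsg.Agent.S4305

open Subgroup Cfsg.Agent.BG Cfsg.Agent.Gen2 Cfsg.Agent.Transfer

/-- Let the symmetric group of degree 3 act by automorphisms on a finite solvable group `G` of order prime to 6, so that only the identity of `G` is fixed by all of it. Then the derived subgroup of `G` is nilpotent. -/
theorem result {G : Type*} [Group G] [Finite G] [Group.IsSolvable G]
    [MulDistribMulAction (Equiv.Perm (Fin 3)) G] (hcop : (Nat.card G).Coprime 6)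
    (hfpf : ∀ g : G, (∀ a : Equiv.Perm (Fin 3), a • g = g) → g = 1) :
    Group.IsNilpotent ↥(commutator G) := by
  obtain ⟨F, H, h, h3, h2⟩ := exists_fpf Nat.prime_two Nat.prime_three (by decide)
    (by simp [Fintype.card_perm, Nat.factorial]) (fun h => absurd
      (h.is_comm.comm (Equiv.swap (0 : Fin 3) 1) (Equiv.swap 1 2)) (by decide)) hcop hfpf
  have h1 := nilpotentS (h.der_le_Fitting h3 h2) (Fitting_nil _)
  rw [← map_commutator, der_top] at h1
  exact isog_nil (isog_symm (isog_map_inj SemidirectProduct.inl_injective _)) h1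

end Cfsg.Agent.S4305
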