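import Cfsg.Statements.S4310
import Cfsg.Agent.S0205
import Cfsg.Agent.Solv.Hall
import Cfsg.Agent.PLocal.PSolv
import Cfsg.Agent.Gen2.SylowNum

set_option autoImplicit false
open Cfsg

namespace Cfsg.Agent.S4310

section
open Subgroup Solv Pointwise
variable {G : Type*} [Group G] [Finite G] {π : Set ℕ} {A : Subgroup G} [A.Normal]

theorem hallOK_inf {K L : Subgroup G} (hK : IsPiHallOf π K A) (hL : IsPiNum π (A.relIndex L)) :
    HallOK π (L ⊓ normalizer (K : Set G) : Subgroup G) := by
  refine ⟨?_, piSubSolv_or_of_odd (fun K hK => S0205.result hK) π⟩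
  have hB : IsPiSep π (A ⊓ normalizer (K : Set G) : Subgroup G) := by
    have hle : K ≤ A ⊓ normalizer (K : Set G) := le_inf hK.1 le_normalizer
    have : (K.subgroupOf (A ⊓ normalizer (K : Set G))).Normal :=
      (normal_subgroupOf_iff_le_normalizer hle).2 inf_le_right
    refine IsPiSep.of_normal_of_quotient (K.subgroupOf _) (IsPiSep.of_card (Or.inl ?_))
      (IsPiSep.of_card (Or.inr ?_))
    · exact (HallOf.card hK).card_subgroupOf _
    · exact (HallOf.relIndex hK).of_dvd (Dvd.intro _ (relIndex_mul_relIndex K _ A hle inf_le_left))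
  refine IsPiSep.of_normal_of_quotient (A.subgroupOf _) ?_ (IsPiSep.of_card (Or.inl ?_))
  · refine (hB.of_le (H := A ⊓ (L ⊓ normalizer (K : Set G)))
      (inf_le_inf_left _ inf_le_right)).of_injective
      (f := (subgroupOfEquivOfLe (inf_le_right (a := A))).toMonoidHom.comp
        (MulEquiv.subgroupCongr (inf_subgroupOf_right A _).symm).toMonoidHom) ?_
    exact (subgroupOfEquivOfLe inf_le_right).injective.comp (MulEquiv.subgroupCongr _).injective
  · exact hL.of_dvd (PLocal.relIndex_dvd_of_le_right_of_normal inf_le_left)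

theorem conj_in (hA : IsCPiGroup π A) {K K' : Subgroup G} (hK : IsPiHallOf π K A)
    (hK' : IsPiHallOf π K' A) : ∃ a ∈ A, MulAut.conj a • K = K' := by
  obtain ⟨a, ha⟩ := hA.2 _ _ ((isPiHallOf_iff_subgroupOf hK.1).1 hK)
    ((isPiHallOf_iff_subgroupOf hK'.1).1 hK')
  refine ⟨a, a.2, ?_⟩
  rw [← map_subgroupOf_eq_of_le hK'.1, ha, ← conj_smul_eq_map, map_subtype_conj_smul,
    map_subgroupOf_eq_of_le hK.1]

end

/-- Let `π` be a set of primes and `A` a normal subgroup of the finite group `G`. Suppose `A` has a Hall `π`-subgroup and all Hall `π`-subgroups of `A` are conjugate in `A`, and likewise for `G/A`. Then `G` has a Hall `π`-subgroup and all Hall `π`-subgroups of `G` are conjugate. (The conjugacy of complements of coprime order that the usual proof uses rests, in general, on the odd order Theorem.) -/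
theorem result {G : Type*} [Group G] [Finite G] (π : Set ℕ) (A : Subgroup G) [A.Normal]
    (hA : Cfsg.IsCPiGroup π ↥A) (hQ : Cfsg.IsCPiGroup π (G ⧸ A)) : Cfsg.IsCPiGroup π G := by
  open Subgroup Solv Pointwise in
  have hs := QuotientGroup.mk'_surjective A
  have hn : ∀ H : Subgroup G, H ≤ normalizer (A : Set G) := fun H => le_normalizer_of_normal
  constructor
  · obtain ⟨K0, hK0⟩ := hA.1
    have hK := isPiHallOf_map_subtype hK0
    generalize K0.map A.subtype = K at hK
    obtain ⟨L0, hL0⟩ := hQ.1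
    rw [isPiHall_iff] at hL0
    have hL : IsPiNum π (A.relIndex (L0.comap (QuotientGroup.mk' A))) := by
      rw [relIndex_comap_mk']; exact hL0.1
    obtain ⟨H, hH⟩ := (hallOK_inf hK hL).exists_hallOf
    refine ⟨H, isPiHallOf_top_iff.1 (HallOf.trans hH le_top ?_)⟩
    have h1 : A ⊔ normalizer (K : Set G) = ⊤ := by
      refine top_le_iff.1 fun g _ => ?_
      obtain ⟨a, ha, h⟩ := conj_in hA (HallOf.conj_of_mem_normalizer hK (hn ⊤ (mem_top g))) hK
      rw [conj_smul_conj_smul, conj_smul_eq_self_iff] at h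
      have : g = a⁻¹ * (a * g) := by group
      rw [this]
      exact mul_mem_sup (A.inv_mem ha) h
    have h2 : A ⊔ (L0.comap (QuotientGroup.mk' A) ⊓ normalizer (K : Set G)) =
        L0.comap (QuotientGroup.mk' A) := by
      rw [inf_comm, ← sup_inf_of_le_left (hn _) (le_comap_mk' A L0), h1, top_inf_eq]
    rw [relIndex_top_right, ← relIndex_mul_index inf_le_left, inf_relIndex_left,
      index_comap_of_surjective _ hs]
    refine IsPiNum.mul ?_ hL0.2
    rw [← h2, Gen2.relIndex_sup_of_le inf_le_right (hn _)]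
    refine (HallOf.relIndex hK).of_dvd ?_
    rw [← inf_relIndex_right (normalizer (K : Set G)) A]
    exact relIndex_dvd_of_le_left _ (le_inf le_normalizer hK.1)
  · intro H₁ H₂ h₁ h₂
    rw [← isPiHallOf_top_iff] at h₁ h₂
    have m : ∀ H, IsPiHallOf π H ⊤ → IsPiHall π (H.map (QuotientGroup.mk' A)) := fun H h => by
      have := HallOf.map h (QuotientGroup.mk' A)
      rwa [← MonoidHom.range_eq_map, MonoidHom.range_eq_top.2 hs, isPiHallOf_top_iff] at this
    obtain ⟨g, hg⟩ := hQ.2 _ _ (m _ h₁) (m _ h₂)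
    obtain ⟨g, rfl⟩ := hs g
    rw [← conj_smul_eq_map, ← map_conj_smul] at hg
    have h₃ := HallOf.conj_of_mem h₁ (mem_top g)
    obtain ⟨a, ha, h⟩ := conj_in hA (HallOf.inf_normal h₃ le_top (hn _)) (HallOf.inf_normal h₂ le_top (hn _))
    have h₄ := HallOf.conj_of_mem h₃ (mem_top a)
    have hL : IsPiNum π (A.relIndex (H₂ ⊔ A)) := by
      rw [relIndex_sup_of_le_normalizer (hn _)]
      exact (HallOf.card h₂).of_dvd (relIndex_dvd_card _ _)
    have e1 : MulAut.conj g • H₁ ≤ H₂ ⊔ A := by
      rw [← comap_map_mk', hg, comap_map_mk']; exact le_sup_left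
    have e2 : MulAut.conj a • MulAut.conj g • H₁ ≤ H₂ ⊔ A := by
      refine (conj_smul_mono a e1).trans (le_of_eq ?_)
      exact conj_smul_eq_self_iff.2 (le_normalizer (mem_sup_right ha))
    have e3 : MulAut.conj a • MulAut.conj g • H₁ ≤ normalizer ((H₂ ⊓ A : Subgroup G) : Set G) := by
      rw [← h, normalizer_conj_smul]
      exact conj_smul_mono a (le_normalizer_inf le_normalizer (hn _))
    obtain ⟨b, -, hb⟩ := (hallOK_inf (HallOf.inf_normal h₂ le_top (hn _)) hL).exists_conj_eq_hallOf
      (HallOf.mono h₄ (le_inf e2 e3) le_top)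
      (HallOf.mono h₂ (le_inf le_sup_left (le_normalizer_inf le_normalizer (hn _))) le_top)
    exact ⟨b * (a * g), by rw [← conj_smul_eq_map, ← hb, conj_smul_conj_smul, conj_smul_conj_smul,
      mul_assoc]⟩

end Cfsg.Agent.S4310
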