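import Cfsg.Statements.S4316
import Cfsg.Agent.GS.A
import Cfsg.Agent.Transfer.Hol

set_option autoImplicit false
universe u
open Cfsg

namespace Cfsg.Agent.S4316

open Subgroup Cfsg.Agent.Transfer SemidirectProduct

/-- There is a function `f` of two natural-number arguments with the following property. Let `q` be a prime and `A` an elementary abelian group of order `q³` acting by automorphisms on a finite group `G` of order prime to `q`, and suppose that for every non-identity `a ∈ A` the derived subgroup of the fixed-point subgroup `C_G(a)` has order at most `m`. Then the derived subgroup of `G` has order at most `f(q, m)`. -/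
theorem result :
    ∃ f : ℕ → ℕ → ℕ, ∀ (q m : ℕ) (A G : Type u) [Group A] [Finite A] [Group G] [Finite G] [MulDistribMulAction A G],
      q.Prime → Nat.card A = q ^ 3 → (∀ a b : A, a * b = b * a) → (∀ a : A, a ^ q = 1) → ¬ q ∣ Nat.card G →
      (∀ a : A, a ≠ 1 → Nat.card ↥(commutator ↥(FixedPoints.subgroup (Subgroup.zpowers a) G)) ≤ m) →
      Nat.card ↥(commutator G) ≤ f q m := by
  let y : ℕ → ℕ → ℕ := fun q m => q ^ 3 * (m * (m.factorial ^ q ^ 3 * m.factorial ^ q ^ 3))
  refine ⟨fun q m => ((y q m).factorial * m.factorial) ^ ((y q m).factorial * y q m) * (y q m).factorial,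
    fun q m A G _ _ _ _ _ hq hA hab hexp hG h => ?_⟩
  haveI : Fact q.Prime := ⟨hq⟩
  let φ := MulDistribMulAction.toMulAut A G
  have h1 := GS.der_bound (q := q) (m := m) (A := sdR φ ⊤) (K := sdL φ ⊤)
    (BG.abelem_map _ ⟨⟨⟨fun a b => Subtype.ext (hab a b)⟩⟩, fun a _ => hexp a⟩)
    (by rw [card_sdR, card_top, hA]) (sdR_le_normalizer_top φ ⊤)
    (by rw [card_sdR, card_sdL, card_top, card_top, hA]
        exact (((Nat.Prime.coprime_iff_not_dvd hq).2 hG).symm).pow_right 3)
    (by
      rintro _ ⟨a, -, rfl⟩ ha1
      have e : sdL φ ⊤ ⊓ centralizer {(inr a : G ⋊[φ] A)} = sdL φ (FixedPoints.subgroup (zpowers a) G) := by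
        refine le_antisymm ?_ ?_
        · rintro _ ⟨⟨g, -, rfl⟩, hg⟩
          refine (inl_mem_sdL φ).2 fun b => ?_
          have hg' : a • g = g := (inr_mul_inl_eq_iff φ).1 (mem_centralizer_singleton_iff.1 hg).symm
          exact (zpowers_le (H := MulAction.stabilizer A g)).2 hg' b.2
        · rintro _ ⟨g, hg, rfl⟩
          exact ⟨(inl_mem_sdL φ).2 trivial, mem_centralizer_singleton_iff.2
            ((inr_mul_inl_eq_iff φ).2 (hg ⟨a, mem_zpowers a⟩)).symm⟩
      rw [e, ← map_commutator, card_map_of_injective inl_injective, ← map_subtype_commutator,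
        card_map_of_injective (subtype_injective _)]
      exact h a fun e => ha1 (by rw [e, map_one])) _ rfl
  rwa [← map_commutator, card_map_of_injective inl_injective] at h1

end Cfsg.Agent.S4316
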