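import Cfsg.Statements.S4320
import Mathlib.LinearAlgebra.FreeModule.Finite.CardQuotient
import Mathlib.RepresentationTheory.Basic
import Mathlib.LinearAlgebra.Matrix.Adjugate

set_option autoImplicit false
open Cfsg

namespace Cfsg.Agent.S4320

open MonoidAlgebra

section
variable {G : Type*} [Group G] [Fintype G] [DecidableEq G]

theorem stepA : ∃ m : Matrix G G ℤ, m.det.natAbs = Nat.card (Abelianization G) ∧
    ∀ i, ∑ j, m i j • Additive.ofMul (Abelianization.of j) = 0 := by
  let φ : (G → ℤ) →ₗ[ℤ] Additive (Abelianization G) :=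
    Fintype.linearCombination ℤ fun j => Additive.ofMul (Abelianization.of j)
  have hs : Function.Surjective φ := fun a => by
    obtain ⟨g, hg⟩ := QuotientGroup.mk_surjective (s := commutator G) a.toMul
    exact ⟨Pi.single g 1, by simp [φ]; exact congrArg Additive.ofMul hg⟩
  have e := φ.quotKerEquivOfSurjective hs
  have : Finite (Abelianization G) := inferInstanceAs (Finite (G ⧸ commutator G))
  have hf : Finite ((G → ℤ) ⧸ LinearMap.ker φ) := Finite.of_equiv _ e.symm.toEquiv
  obtain ⟨-, -, b, -⟩ := Submodule.exists_smith_normal_form_of_rank_eq (Pi.basisFun ℤ G)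
    ((Submodule.finiteQuotient_iff _).1 hf)
  refine ⟨Matrix.of fun i => (b i : G → ℤ), ?_, fun i => ?_⟩
  · rw [← Pi.basisFun_det_apply]
    exact (Submodule.natAbs_det_basis_change (Pi.basisFun ℤ G) _ b).trans (Nat.card_congr e.toEquiv)
  · exact (b i).2

/-- Augmentation. -/
noncomputable def aug (A : Type*) [Group A] : MonoidAlgebra ℤ A →ₐ[ℤ] ℤ := MonoidAlgebra.lift ℤ ℤ A 1

theorem aug_single {A : Type*} [Group A] (a : A) (k : ℤ) : aug A (single a k) = k := by simp [aug]

variable {B : Type*} [AddCommGroup B] [Module (MonoidAlgebra ℤ (Abelianization G)) B] (d : G → B)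
  (hd : ∀ g h, d (g * h) = d g + (single (Abelianization.of g) (1 : ℤ)) • d h)
include hd

theorem stepB (k : G → ℤ) (hk : ∑ j, k j • Additive.ofMul (Abelianization.of j) = 0) :
    ∃ μ : G → MonoidAlgebra ℤ (Abelianization G), (∀ j, aug _ (μ j) = k j) ∧ ∑ j, μ j • d j = 0 := by
  let W : AddSubgroup B :=
    { carrier := {b | ∃ ν : G → MonoidAlgebra ℤ (Abelianization G), (∀ j, aug _ (ν j) = 0) ∧ ∑ j, ν j • d j = b}
      add_mem' := by
        rintro _ _ ⟨ν, h1, rfl⟩ ⟨ν', h2, rfl⟩
        exact ⟨ν + ν', fun j => by simp [h1, h2], by simp [add_smul, Finset.sum_add_distrib]⟩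
      zero_mem' := ⟨0, by simp, by simp⟩
      neg_mem' := by
        rintro _ ⟨ν, h1, rfl⟩
        exact ⟨-ν, fun j => by simp [h1], by simp⟩ }
  let D : G →* Multiplicative (B ⧸ W) := MonoidHom.mk' (fun g => Multiplicative.ofAdd (d g : B ⧸ W)) fun g h => by
    rw [← ofAdd_add, ← QuotientAddGroup.mk_add, Multiplicative.ofAdd.apply_eq_iff_eq, eq_comm, QuotientAddGroup.eq]
    refine ⟨Pi.single h (single (Abelianization.of g) 1 - 1), fun j => ?_, ?_⟩
    · by_cases hj : j = h
      · subst hj; simp [aug_single]
      · simp [hj]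
    · rw [Finset.sum_eq_single h (fun j _ hj => by simp [hj]) (by simp), hd]
      simp only [Pi.single_eq_same, sub_smul, one_smul]
      abel
  have h1 := congrArg (MonoidHom.toAdditiveLeft (Abelianization.lift D)) hk
  simp only [map_sum, map_zsmul, map_zero] at h1
  have h2 : ((∑ j, k j • d j : B) : B ⧸ W) = 0 := by
    rw [← h1]
    exact (map_sum (QuotientAddGroup.mk' W) _ _).trans (Finset.sum_congr rfl fun j _ => map_zsmul _ _ _)
  obtain ⟨ν, h3, h4⟩ := (QuotientAddGroup.eq_zero_iff _).1 h2
  refine ⟨fun j => (k j : MonoidAlgebra ℤ (Abelianization G)) - ν j, fun j => by simp [h3], ?_⟩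
  simp only [sub_smul, Finset.sum_sub_distrib, h4, Int.cast_smul_eq_zsmul, sub_self]

theorem stepC : ∃ μ : MonoidAlgebra ℤ (Abelianization G), (aug _ μ).natAbs = Nat.card (Abelianization G) ∧
    ∀ g, μ • d g = 0 := by
  obtain ⟨m, h1, h2⟩ := stepA (G := G)
  choose μ h3 h4 using fun i => stepB d hd (m i) (h2 i)
  refine ⟨(Matrix.of μ).det, ?_, fun g => ?_⟩
  · rw [← h1, AlgHom.map_det]
    congr 2
    ext i j; exact h3 i j
  · have e := Matrix.adjugate_mul (Matrix.of μ)
    calc (Matrix.of μ).det • d g = ∑ j, ((Matrix.of μ).adjugate * Matrix.of μ) g j • d j := by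
          rw [e, Finset.sum_eq_single g (fun j _ hj => by simp [Matrix.one_apply_ne hj.symm]) (by simp)]; simp
      _ = ∑ i, (Matrix.of μ).adjugate g i • ∑ j, μ i j • d j := by
          simp only [Matrix.mul_apply, Finset.sum_smul, Finset.smul_sum, mul_smul, Matrix.of_apply]
          exact Finset.sum_comm
      _ = 0 := by simp [h4]

theorem core [Fintype (Abelianization G)] (g : G) : ∑ a : Abelianization G, single a (1 : ℤ) • d g = 0 := by
  obtain ⟨μ, h1, h2⟩ := stepC (B := B × MonoidAlgebra ℤ (Abelianization G))
    (fun g => (d g, single (Abelianization.of g) 1 - 1)) fun g h => Prod.ext (hd g h) (by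
      simp [mul_sub, single_mul_single])
  have h3 : ∀ a : Abelianization G, μ.coeff a = μ.coeff 1 := fun a => by
    obtain ⟨g, hg⟩ := QuotientGroup.mk_surjective (s := commutator G) a
    have := congrArg Prod.snd (h2 g)
    rw [show Abelianization.of g = a from hg] at this
    simp only [Prod.smul_snd, smul_eq_mul, mul_sub, mul_one, Prod.snd_zero, sub_eq_zero] at this
    conv_lhs => rw [← this]
    simp
  have h4 : μ = μ.coeff 1 • ∑ a : Abelianization G, single a (1 : ℤ) := by
    classical
    ext a
    rw [coeff_smul, h3 a]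
    simp [Finsupp.single_apply]
  have h5 : (μ.coeff 1).natAbs = 1 := by
    rw [h4, map_zsmul, map_sum] at h1
    simp only [aug_single, Finset.sum_const, Finset.card_univ, nsmul_eq_mul, mul_one, smul_eq_mul, Int.natAbs_mul,
      Int.natAbs_natCast, Nat.card_eq_fintype_card] at h1
    exact (mul_eq_right₀ Fintype.card_ne_zero).1 h1
  have h6 : μ • d g = 0 := congrArg Prod.fst (h2 g)
  rw [h4, smul_assoc, Finset.sum_smul] at h6
  rcases Int.natAbs_eq_iff.1 h5 with h | h <;> rw [h] at h6
  · simpa using h6
  · simpa using h6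

end

theorem core' {G B : Type*} [Group G] [Fintype G] [DecidableEq G] [Fintype (Abelianization G)] [AddCommGroup B]
    (ρ : Representation ℤ (Abelianization G) B) (d : G → B)
    (hd : ∀ g h, d (g * h) = d g + ρ (Abelianization.of g) (d h)) (g : G) : ∑ a, ρ a (d g) = 0 := by
  let _ : Module (MonoidAlgebra ℤ (Abelianization G)) B := Module.compHom _ ρ.asAlgebraHom.toRingHom
  have hs : ∀ (a : Abelianization G) (f : B), (single a (1 : ℤ)) • f = ρ a f := fun a f => by
    show ρ.asAlgebraHom (single a 1) f = _
    rw [Representation.asAlgebraHom_single_one]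
  simpa only [hs] using core d (fun g h => by rw [hs, hd]) g

/-- The Principal Ideal Theorem of class field theory in its group-theoretic form: for every finite group `G`, the transfer homomorphism from `G` into the abelianization `G'/G''` of its derived subgroup `G'` is the trivial homomorphism. -/
theorem result {G : Type*} [Group G] [Finite G] :
    MonoidHom.transfer (Abelianization.of : ↥(commutator G) →* Abelianization ↥(commutator G)) =
      (1 : G →* Abelianization ↥(commutator G)) := by
  classical
  let _ := Fintype.ofFinite G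
  let _ : Fintype (Abelianization G) := (commutator G).fintypeQuotientOfFiniteIndex
  let T : (commutator G).LeftTransversal := default
  let α : Abelianization G → G := fun q => T.2.leftQuotientEquiv q
  have hα : ∀ q, Abelianization.of (α q) = q := fun q => T.2.leftQuotientEquiv.symm_apply_apply q
  have hm : ∀ (g : G) (q : Abelianization G), (α q)⁻¹ * (g * α ((Abelianization.of g)⁻¹ * q)) ∈ commutator G :=
    fun g q => by rw [← Abelianization.ker_of, MonoidHom.mem_ker]; simp [hα]
  let ρ : Representation ℤ (Abelianization G) (Abelianization G → Additive (Abelianization (commutator G))) :=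
    { toFun := fun a => LinearMap.funLeft ℤ _ fun q => a⁻¹ * q
      map_one' := by ext f q; simp
      map_mul' := fun a b => by ext f q; simp [mul_assoc] }
  have hs : ∀ (a : Abelianization G) (f : Abelianization G → Additive (Abelianization (commutator G))) q,
      ρ a f q = f (a⁻¹ * q) := fun a f q => rfl
  ext g
  have h := congrFun (core' ρ (fun g q => Additive.ofMul (Abelianization.of (⟨_, hm g q⟩ : commutator G)))
    (fun g h => funext fun q => by
      rw [Pi.add_apply, hs, ← ofMul_mul, ← map_mul]
      congr 2
      apply Subtype.ext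
      simp [mul_assoc]) g) 1
  rw [Finset.sum_apply] at h
  simp only [hs, mul_one, Pi.zero_apply] at h
  replace h := (Equiv.sum_comp (Equiv.inv _)
    (fun q => Additive.ofMul (Abelianization.of (⟨_, hm g q⟩ : commutator G)))).symm.trans h
  rw [← ofMul_prod] at h
  rw [MonoidHom.transfer_def _ T, MonoidHom.one_apply, ← show _ = (1 : Abelianization (commutator G)) from h,
    Subgroup.leftTransversals.diff]
  refine Finset.prod_congr rfl fun q _ => congrArg _ (Subtype.ext ?_)
  show _ * ((g • T).2.leftQuotientEquiv q : G) = _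
  rw [Subgroup.smul_apply_eq_smul_apply_inv_smul]
  induction q using QuotientGroup.induction_on with
  | H x => rfl

end Cfsg.Agent.S4320
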