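import Cfsg.Statements.S4422


set_option autoImplicit false
open Cfsg

namespace Cfsg.Agent.S4422

/-- Primitive divisors of `q^e - 1` are congruent to 1 modulo `e`. Let `q ≥ 2` and `e ≥ 1` be natural numbers and let `m` be a divisor of `q^e - 1` that is coprime to `q^i - 1` for every `1 ≤ i < e` (so `m` divides the primitive part of `q^e - 1`, the largest such divisor). Then `m ≡ 1 (mod e)`. -/
theorem result (q e m : ℕ) (hq : 2 ≤ q) (he : 1 ≤ e)
    (hm : m ∣ q ^ e - 1) (hcop : ∀ i : ℕ, 1 ≤ i → i < e → Nat.Coprime m (q ^ i - 1)) :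
    m % e = 1 % e := by
  have h0 : q ^ e - 1 ≠ 0 := by
    have := Nat.one_lt_pow (n := e) (a := q) (by omega) (by omega)
    omega
  induction m using Nat.recOnMul with
  | zero => exact absurd (zero_dvd_iff.1 hm) h0
  | one => rfl
  | prime p hp =>
    have := Fact.mk hp
    have h1 : ∀ i, (q : ZMod p) ^ i = 1 ↔ p ∣ q ^ i - 1 := fun i => by
      rw [← ZMod.natCast_eq_zero_iff, Nat.cast_sub (Nat.one_le_pow _ _ (by omega)), sub_eq_zero,
        Nat.cast_pow, Nat.cast_one]
    have h2 : orderOf (q : ZMod p) = e := (orderOf_eq_iff (by omega)).2 ⟨(h1 e).2 hm,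
      fun i hi hi0 h => (Nat.Prime.coprime_iff_not_dvd hp).1 (hcop i hi0 hi) ((h1 i).1 h)⟩
    have h3 : (q : ZMod p) ≠ 0 := fun h => by
      have := (h1 e).2 hm
      rw [h, zero_pow (by omega)] at this
      exact zero_ne_one this
    exact ((Nat.modEq_iff_dvd' hp.one_le).2 (h2 ▸ ZMod.orderOf_dvd_card_sub_one h3)).symm
  | mul a b iha ihb =>
    simpa [Nat.ModEq] using Nat.ModEq.mul
      (iha ((dvd_mul_right a b).trans hm) fun i h1 h2 => (hcop i h1 h2).coprime_mul_right)
      (ihb ((dvd_mul_left b a).trans hm) fun i h1 h2 => (hcop i h1 h2).coprime_mul_left)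

end Cfsg.Agent.S4422
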