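import Cfsg.Statements.S4424
import Cfsg.Agent.BMod.Rank2
-- import your own Cfsg.Agent.* helpers here

set_option autoImplicit false
open Cfsg

namespace Cfsg.Agent.S4424

open Cfsg.Agent.BMod Cfsg.Agent.Block Cfsg.Agent.Transfer Cfsg.Agent.Char Cfsg.Agent.CharDeep

/-- Let χ be an irreducible character of the finite group G lying in the p-block B (relative to a maximal ideal M of the algebraic integers containing p), and let p^a be the p-part of the order of G. Then the class function that equals p^a · χ on the p-regular elements and vanishes on the p-singular elements is an integer combination of the irreducible characters in B: there are integers a_ψ, zero for ψ outside B, with that function equal to Σ a_ψ ψ. -/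
theorem result {G : Type*} [Group G] [Finite G] (p : ℕ) [Fact p.Prime] (M : Ideal Cfsg.AlgInt) (hM : Cfsg.IsPModular p M) (B : Set (Cfsg.IrrCharacter G)) (hB : Cfsg.IsPBlock M B) (χ : Cfsg.IrrCharacter G) (hχ : χ ∈ B) : ∃ a : Cfsg.IrrCharacter G → ℤ, (∀ ψ, ψ ∉ B → a ψ = 0) ∧ (fun x : G => if p ∣ orderOf x then (0 : ℂ) else ((p ^ (Nat.card G).factorization p : ℕ) : ℂ) * (χ : G → ℂ) x) = fun x => ∑ᶠ ψ : Cfsg.IrrCharacter G, (a ψ : ℂ) * (ψ : G → ℂ) x := by
  classical
  haveI : PMod p M := ⟨hM⟩
  have := Fintype.ofFinite G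
  obtain ⟨m, hm, hm'⟩ := IsGeneralizedCharacter.exists_int_coeff (isGenChar_trunc p (irr_gen χ))
  refine ⟨m, fun ψ hψ => ?_, ?_⟩
  · refine Int.cast_injective (α := ℂ) ?_
    have h1 := ctr_irr_eq_zero (p := p) (IsPBlock.isBlockUnion hB) hχ hψ
    have h2 : (fun x : G => if p ∣ orderOf x then (0 : ℂ) else
          ((p ^ (Nat.card G).factorization p : ℕ) : ℂ) * (χ : G → ℂ) x) =
          ((p ^ (Nat.card G).factorization p : ℕ) : ℂ) • rho p (χ : G → ℂ) := by
        ext g
        rw [Pi.smul_apply, rho_apply]
        split_ifs <;> simp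
    rw [← hm, h2, classInner_smul_left, ← ctr, h1, mul_zero, Int.cast_zero]
  · rw [hm']
    ext g
    rw [finsum_eq_sum_of_fintype, Finset.sum_apply]
    rfl

end Cfsg.Agent.S4424
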