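import Cfsg.Statements.S4425
import Cfsg.Agent.BMod.Rank2
-- import your own Cfsg.Agent.* helpers here

set_option autoImplicit false
open Cfsg

namespace Cfsg.Agent.S4425

open Cfsg.Agent.BMod Cfsg.Agent.Block Cfsg.Agent.Transfer Cfsg.Agent.Char Cfsg.Agent.CharDeep

/-- Let χ be an irreducible character of the finite group G, p a prime, p^a the p-part of the order of G and p^b the p-part of the degree χ(1). Let χ̃ be the class function equal to p^a · χ on p-regular elements and zero on p-singular elements. Then p^(−b) · χ̃ is a generalized character of G, while p^(−(b+1)) · χ̃ is not. -/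
theorem result {G : Type*} [Group G] [Finite G] (p : ℕ) [Fact p.Prime] (χ : Cfsg.IrrCharacter G) : Cfsg.IsGeneralizedCharacter G (fun x : G => if p ∣ orderOf x then (0 : ℂ) else ((p ^ ((Nat.card G).factorization p - (Cfsg.charDegree (χ : G → ℂ)).factorization p) : ℕ) : ℂ) * (χ : G → ℂ) x) ∧ ¬ Cfsg.IsGeneralizedCharacter G (fun x : G => if p ∣ orderOf x then (0 : ℂ) else ((p ^ (Nat.card G).factorization p : ℕ) : ℂ) / ((p ^ ((Cfsg.charDegree (χ : G → ℂ)).factorization p + 1) : ℕ) : ℂ) * (χ : G → ℂ) x) := by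
  classical
  obtain ⟨M, hM⟩ := exists_pmod' p
  have := Fintype.ofFinite G
  have hp : p.Prime := Fact.out
  have hp0 : (p : ℂ) ≠ 0 := Nat.cast_ne_zero.2 hp.ne_zero
  have hB := isPBlock_blockOf (M := M) χ
  have hχ := mem_blockOf_self (M := M) χ
  have hd := deg_add_defect p hχ
  have hle := factorization_deg_le p χ
  have key : ∀ (c : ℂ), (fun x : G => if p ∣ orderOf x then (0 : ℂ) else c * (χ : G → ℂ) x) =
      c • rho p (χ : G → ℂ) := fun c => by
    ext g
    rw [Pi.smul_apply, rho_apply]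
    split_ifs <;> simp
  have key2 : ∀ ψ : IrrCharacter G, ∃ m : ℤ, ((p ^ ((Nat.card G).factorization p -
      (charDegree (χ : G → ℂ)).factorization p) : ℕ) : ℂ) * ctr p (χ : G → ℂ) ψ = m ∧
      (¬ (p : ℤ) ∣ m ↔ ψ ∈ blockOf M (χ : G → ℂ) ∧ blockHeight p (blockOf M (χ : G → ℂ)) ψ = 0) :=
    fun ψ => by
      obtain ⟨m, h1, h2⟩ := exists_ctr_eq (p := p) hB hχ ψ
      refine ⟨m, mul_left_cancel₀ (pow_ne_zero (blockHeight p (blockOf M (χ : G → ℂ)) χ) hp0) ?_,
        h2⟩
      rw [← h1, ← mul_assoc, Nat.cast_pow, ← pow_add]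
      congr 2
      omega
  rw [key, key]
  refine ⟨IsClassFunction.isGeneralizedCharacter_of_forall_int (IsClassFunction.smul
    (isClassFunction_rho (IsIrrCharacter.isClassFunction χ.2)) _) fun ψ hψ => ?_, fun h => ?_⟩
  · obtain ⟨m, h1, -⟩ := key2 ⟨ψ, hψ⟩
    exact ⟨m, by rw [classInner_smul_left, ← h1]; rfl⟩
  · obtain ⟨ψ, hψ, h0⟩ := exists_height_zero p (IsPBlock.nonempty hB)
    obtain ⟨m, h1, h2⟩ := key2 ψ
    obtain ⟨k, hk⟩ := IsGeneralizedCharacter.exists_int_classInner h (irr_gen ψ)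
    refine h2.2 ⟨hψ, h0⟩ ⟨k, Int.cast_injective (α := ℂ) ?_⟩
    rw [← h1, Int.cast_mul, ← hk, classInner_smul_left, ctr, ← mul_assoc]
    congr 1
    push_cast
    rw [pow_sub₀ _ hp0 hle, pow_succ]
    field_simp

end Cfsg.Agent.S4425
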