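import Cfsg.Statements.S4426
import Cfsg.Agent.BMod.Rank2
-- import your own Cfsg.Agent.* helpers here

set_option autoImplicit false
open Cfsg

namespace Cfsg.Agent.S4426

open Cfsg.Agent.BMod Cfsg.Agent.Block Cfsg.Agent.Transfer Cfsg.Agent.Char Cfsg.Agent.CharDeep

/-- Let χ be an irreducible character in the p-block B of the finite group G (relative to a maximal ideal M of the algebraic integers containing p), let p^a be the p-part of the order of G, and let χ̃ be the class function equal to p^a · χ on p-regular elements and zero elsewhere. For ξ ∈ B the inner product [χ̃, ξ] is an integer. The following are equivalent: (a) χ has height zero in B; (b) for some ξ ∈ B the integer [χ̃, ξ] is nonzero and the exact power of p dividing it equals the exact power of p dividing ξ(1); (c) the same holds for every ξ ∈ B. -/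
theorem result {G : Type*} [Group G] [Fintype G] (p : ℕ) [Fact p.Prime] (M : Ideal Cfsg.AlgInt) (hM : Cfsg.IsPModular p M) (B : Set (Cfsg.IrrCharacter G)) (hB : Cfsg.IsPBlock M B) (χ : Cfsg.IrrCharacter G) (hχ : χ ∈ B) : (Cfsg.blockHeight p B (χ : G → ℂ) = 0 ↔ ∃ ξ ∈ B, ∃ n : ℤ, Cfsg.classInner (fun x : G => if p ∣ orderOf x then (0 : ℂ) else ((p ^ (Nat.card G).factorization p : ℕ) : ℂ) * (χ : G → ℂ) x) (ξ : G → ℂ) = (n : ℂ) ∧ n ≠ 0 ∧ padicValInt p n = (Cfsg.charDegree (ξ : G → ℂ)).factorization p) ∧ (Cfsg.blockHeight p B (χ : G → ℂ) = 0 ↔ ∀ ξ ∈ B, ∃ n : ℤ, Cfsg.classInner (fun x : G => if p ∣ orderOf x then (0 : ℂ) else ((p ^ (Nat.card G).factorization p : ℕ) : ℂ) * (χ : G → ℂ) x) (ξ : G → ℂ) = (n : ℂ) ∧ n ≠ 0 ∧ padicValInt p n = (Cfsg.charDegree (ξ : G → ℂ)).factorization p) := by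
  classical
  haveI : PMod p M := ⟨hM⟩
  have hp : p.Prime := Fact.out
  have hp0 : (p : ℂ) ≠ 0 := Nat.cast_ne_zero.2 hp.ne_zero
  have key : ∀ ξ ∈ B, (blockHeight p B (χ : G → ℂ) = 0 ↔ ∃ n : ℤ, classInner (fun x : G =>
      if p ∣ orderOf x then (0 : ℂ) else ((p ^ (Nat.card G).factorization p : ℕ) : ℂ) *
        (χ : G → ℂ) x) (ξ : G → ℂ) = (n : ℂ) ∧ n ≠ 0 ∧
      padicValInt p n = (charDegree (ξ : G → ℂ)).factorization p) := fun ξ hξ => by
    obtain ⟨m, h1, h2⟩ := exists_ctr_eq (p := p) hB hξ χ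
    have h3 : classInner (fun x : G => if p ∣ orderOf x then (0 : ℂ) else
        ((p ^ (Nat.card G).factorization p : ℕ) : ℂ) * (χ : G → ℂ) x) (ξ : G → ℂ) =
        (((p : ℤ) ^ (charDegree (ξ : G → ℂ)).factorization p * m : ℤ) : ℂ) := by
      have : (fun x : G => if p ∣ orderOf x then (0 : ℂ) else
          ((p ^ (Nat.card G).factorization p : ℕ) : ℂ) * (χ : G → ℂ) x) =
          ((p ^ (Nat.card G).factorization p : ℕ) : ℂ) • rho p (χ : G → ℂ) := by
        ext g
        rw [Pi.smul_apply, rho_apply]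
        split_ifs <;> simp
      rw [this, classInner_smul_left, ← ctr, ctr_comm (irr_gen χ) (irr_gen ξ)]
      refine mul_left_cancel₀ (pow_ne_zero (blockDefect p B) hp0) ?_
      rw [mul_left_comm, h1]
      push_cast
      rw [← mul_assoc, ← mul_assoc, ← pow_add, ← pow_add, ← deg_add_defect p hξ, add_comm]
    rw [h3]
    have hp1 : (p : ℤ) ^ (charDegree (ξ : G → ℂ)).factorization p ≠ 0 :=
      pow_ne_zero _ (Nat.cast_ne_zero.2 hp.ne_zero)
    have h4 : m ≠ 0 → padicValInt p ((p : ℤ) ^ (charDegree (ξ : G → ℂ)).factorization p * m) =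
        (charDegree (ξ : G → ℂ)).factorization p + padicValInt p m := fun hm => by
      rw [padicValInt.mul hp1 hm, ← Nat.cast_pow, padicValInt.of_nat, padicValNat.prime_pow]
    constructor
    · intro h0
      have h5 := h2.2 ⟨hχ, h0⟩
      have hm : m ≠ 0 := fun h => h5 (h ▸ dvd_zero _)
      exact ⟨_, rfl, mul_ne_zero hp1 hm, by
        rw [h4 hm, padicValInt.eq_zero_of_not_dvd h5, add_zero]⟩
    · rintro ⟨n, hn, hn0, hn1⟩
      obtain rfl := Int.cast_injective hn
      have hm := right_ne_zero_of_mul hn0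
      rw [h4 hm] at hn1
      refine (h2.1 fun h => ?_).2
      have := ((padicValInt_dvd_iff (p := p) 1 m).1 (by rwa [pow_one])).resolve_left hm
      omega
  refine ⟨⟨fun h => ⟨χ, hχ, (key χ hχ).1 h⟩, fun ⟨ξ, hξ, h⟩ => (key ξ hξ).2 h⟩,
    ⟨fun h ξ hξ => (key ξ hξ).1 h, fun h => (key χ hχ).2 (h χ hχ)⟩⟩

end Cfsg.Agent.S4426
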