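import Cfsg.Statements.S4428
import Cfsg.Agent.BMod.Sub2
-- import your own Cfsg.Agent.* helpers here

set_option autoImplicit false
open Cfsg

namespace Cfsg.Agent.S4428

open Cfsg.Agent.BMod Cfsg.Agent.Block Cfsg.Agent.Transfer Cfsg.Agent.Char Cfsg.Agent.CharDeep

/-- Let χ be an irreducible character of height zero in the p-block B of the finite group G (relative to a maximal ideal M of the algebraic integers containing p). Let x be a p-element of G with centralizer C, and let b be a block of C that induces B. Form the class function ϑ(c) = χ(x c) on C and its b-part (the sum over ψ ∈ b of the inner product of ϑ with ψ, times ψ). Then the b-part of ϑ does not vanish identically on the p-regular elements of C. (Compare the second main Theorem, which gives vanishing when b does not induce B.) -/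
theorem result {G : Type*} [Group G] [Finite G] (p : ℕ) [Fact p.Prime] (M : Ideal Cfsg.AlgInt) (hM : Cfsg.IsPModular p M) (B : Set (Cfsg.IrrCharacter G)) (hB : Cfsg.IsPBlock M B) (χ : Cfsg.IrrCharacter G) (hχ : χ ∈ B) (h0 : Cfsg.blockHeight p B (χ : G → ℂ) = 0) (x : G) (hx : ∃ k : ℕ, orderOf x = p ^ k) (b : Set (Cfsg.IrrCharacter (Subgroup.centralizer ({x} : Set G)))) (hb : Cfsg.IsInducedBlock M (Subgroup.centralizer ({x} : Set G)) b B) : ∃ y : Subgroup.centralizer ({x} : Set G), ¬ p ∣ orderOf y ∧ Cfsg.blockPart b (fun c : Subgroup.centralizer ({x} : Set G) => (χ : G → ℂ) (x * (c : G))) y ≠ 0 := by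
  haveI : PMod p M := ⟨hM⟩
  have := Fintype.ofFinite (Subgroup.centralizer ({x} : Set G))
  have h := ((isSub_centralizer hx).red_mm_ne_zero_iff hb χ χ).2 ⟨⟨hχ, h0⟩, hχ, h0⟩
  obtain ⟨c, hc, h1⟩ := mm_self_ne_zero_iff.1 (right_ne_zero_of_mul (ne_zero_of_red_ne_zero h))
  have h2 : sh (H := Subgroup.centralizer ({x} : Set G)) ⟨x, self_mem_centralizer x⟩ (χ : G → ℂ) =
    fun c : Subgroup.centralizer ({x} : Set G) => (χ : G → ℂ) (x * (c : G)) := rfl
  rw [h2] at h1
  exact ⟨c, hc, h1⟩

end Cfsg.Agent.S4428
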