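import Cfsg.Statements.S4430
import Cfsg.Agent.BMod.Rank2
import Cfsg.Agent.CharDeep.Clifford
-- import your own Cfsg.Agent.* helpers here

set_option autoImplicit false
open Cfsg

namespace Cfsg.Agent.S4430

open Cfsg.Agent.BMod Cfsg.Agent.Block Cfsg.Agent.Transfer Cfsg.Agent.Char Cfsg.Agent.CharDeep

/-- Let H be a subgroup of the finite group G, b a block of H whose induced block B₀ in G is defined (relative to a maximal ideal M of the algebraic integers containing p), and ξ ∈ b. For a block B of G let n_B be the value at 1 of the B-part of the induced character ξ^G (a natural number: the sum over χ ∈ B of the multiplicity of χ in ξ^G times χ(1)). Then for B = B₀ the exact power of p dividing n_B equals the exact power of p dividing ξ^G(1), while for every other block B either n_B = 0 or n_B is divisible by a strictly higher power of p than ξ^G(1). -/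
theorem result {G : Type*} [Group G] [Fintype G] (p : ℕ) [Fact p.Prime] (M : Ideal Cfsg.AlgInt) (hM : Cfsg.IsPModular p M) (H : Subgroup G) [Fintype H] (b : Set (Cfsg.IrrCharacter H)) (B₀ : Set (Cfsg.IrrCharacter G)) (hind : Cfsg.IsInducedBlock M H b B₀) (ξ : Cfsg.IrrCharacter H) (hξ : ξ ∈ b) : (∃ n : ℕ, Cfsg.blockPart B₀ (Cfsg.indFun H (ξ : H → ℂ)) 1 = (n : ℂ) ∧ n ≠ 0 ∧ n.factorization p = (Cfsg.charDegree (Cfsg.indFun H (ξ : H → ℂ))).factorization p) ∧ ∀ B : Set (Cfsg.IrrCharacter G), Cfsg.IsPBlock M B → B ≠ B₀ → ∃ n : ℕ, Cfsg.blockPart B (Cfsg.indFun H (ξ : H → ℂ)) 1 = (n : ℂ) ∧ (n = 0 ∨ (Cfsg.charDegree (Cfsg.indFun H (ξ : H → ℂ))).factorization p < n.factorization p) := by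
  classical
  haveI : PMod p M := ⟨hM⟩
  have hc : IsCharacter G (indFun H (ξ : H → ℂ)) :=
    isCharacter_indFun H (IsIrrCharacter.isCharacter ξ.2)
  have h1 := IsIrrCharacter.apply_one_ne_zero ξ.2
  have hi : (H.index : ℂ) ≠ 0 := Nat.cast_ne_zero.2 Subgroup.index_ne_zero_of_finite
  have hd : (charDegree (indFun H (ξ : H → ℂ)) : ℂ) = H.index * (ξ : H → ℂ) 1 := by
    rw [deg_cast hc, indFun_one]
  have hd0 : charDegree (indFun H (ξ : H → ℂ)) ≠ 0 := fun h => by
    rw [h, Nat.cast_zero] at hd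
    exact mul_ne_zero hi h1 hd.symm
  have key : ∀ B : Set (IrrCharacter G), IsPBlock M B → ∃ n : ℕ,
      blockPart B (indFun H (ξ : H → ℂ)) 1 = (n : ℂ) ∧
      (n : ℂ) / charDegree (indFun H (ξ : H → ℂ)) ∈ O M ∧
      red M ((n : ℂ) / charDegree (indFun H (ξ : H → ℂ))) = lamS M H ξ (eB M B) := fun B hB => by
    obtain ⟨n, hn⟩ := IsCharacter.exists_nat_apply_one (isCharacter_blockPart B hc)
    have h2 : (n : ℂ) / charDegree (indFun H (ξ : H → ℂ)) = om ξ (resA H (idem B)) := by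
      rw [← hn, ← om_resA_idem, hd, om_apply]
      field_simp
    have h3 := center_mem_fix (idem_mem_center B) H
    refine ⟨n, hn, h2 ▸ om_resA_mem_O ξ h3 (IsPBlock.idem_mem_OG hB), ?_⟩
    rw [h2, ← lamS_redA ξ h3 (IsPBlock.idem_mem_OG hB)]
    rfl
  refine ⟨?_, fun B hB hne => ?_⟩
  · obtain ⟨n, h2, -, h4⟩ := key B₀ hind.2.1
    rw [IsInducedBlock.lamS_eB hind hξ] at h4
    have hn : n ≠ 0 := fun h => by simp [h] at h4
    exact ⟨n, h2, hn, ((red_natCast_div_ne_zero_iff hn hd0).1 (h4 ▸ one_ne_zero)).symm⟩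
  · obtain ⟨n, h2, h3, h4⟩ := key B hB
    rw [IsInducedBlock.lamS_eB_of_ne hind hξ hB hne] at h4
    refine ⟨n, h2, or_iff_not_imp_left.2 fun hn => lt_of_le_of_ne
      (factorization_le_of_div_mem_O hn hd0 h3) fun h => ?_⟩
    exact red_natCast_div_ne_zero hn hd0 h h4

end Cfsg.Agent.S4430
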