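import Cfsg.Statements.S4431
import Cfsg.Agent.BMod.Rank2
-- import your own Cfsg.Agent.* helpers here

set_option autoImplicit false
open Cfsg

namespace Cfsg.Agent.S4431

open Cfsg.Agent.BMod Cfsg.Agent.Block Cfsg.Agent.Transfer Cfsg.Agent.Char Cfsg.Agent.CharDeep

/-- Let H be a subgroup of the finite group G and b a block of H whose induced block B₀ in G is defined (relative to a maximal ideal M of the algebraic integers containing p). Let χ be an irreducible character of G, ψ ∈ b, and let η be the class function on H equal to p^a · χ on the p-regular elements of H and zero elsewhere, p^a being the p-part of the order of H. Then (a) if χ ∉ B₀, the number [η, ψ]/ψ(1) lies in the local ideal at M; (b) if χ ∈ B₀ has height zero, it does not. -/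
theorem result {G : Type*} [Group G] [Fintype G] (p : ℕ) [Fact p.Prime] (M : Ideal Cfsg.AlgInt) (hM : Cfsg.IsPModular p M) (H : Subgroup G) [Fintype H] (b : Set (Cfsg.IrrCharacter H)) (B₀ : Set (Cfsg.IrrCharacter G)) (hind : Cfsg.IsInducedBlock M H b B₀) (χ : Cfsg.IrrCharacter G) (ψ : Cfsg.IrrCharacter H) (hψ : ψ ∈ b) : (χ ∉ B₀ → Cfsg.MemLocalIdeal M (Cfsg.classInner (fun h : H => if p ∣ orderOf h then (0 : ℂ) else ((p ^ (Nat.card H).factorization p : ℕ) : ℂ) * (χ : G → ℂ) h) (ψ : H → ℂ) / (ψ : H → ℂ) 1)) ∧ (χ ∈ B₀ → Cfsg.blockHeight p B₀ (χ : G → ℂ) = 0 → ¬ Cfsg.MemLocalIdeal M (Cfsg.classInner (fun h : H => if p ∣ orderOf h then (0 : ℂ) else ((p ^ (Nat.card H).factorization p : ℕ) : ℂ) * (χ : G → ℂ) h) (ψ : H → ℂ) / (ψ : H → ℂ) 1)) := by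
  classical
  haveI : PMod p M := ⟨hM⟩
  have hg : IsGeneralizedCharacter H fun h : H => (χ : G → ℂ) h :=
    IsGeneralizedCharacter.restrict (irr_gen χ) H
  have h1 : classInner (fun h : H => if p ∣ orderOf h then (0 : ℂ) else
      ((p ^ (Nat.card H).factorization p : ℕ) : ℂ) * (χ : G → ℂ) h) (ψ : H → ℂ) / (ψ : H → ℂ) 1 =
      om ψ (zc p fun h : H => (χ : G → ℂ) h) := by
    rw [om_apply, ev_zc_eq_ctr _ hg, ctr_comm (irr_gen ψ) hg, ctr, ← classInner_smul_left]
    congr 2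
    ext g
    rw [Pi.smul_apply, rho_apply]
    split_ifs <;> simp
  have hz := zc_mem_center p (IsGeneralizedCharacter.isClassFunction hg)
  have hO : (zc p fun h : H => (χ : G → ℂ) h) ∈ OG M H := zc_mem_OG fun g => irr_mem_O χ _
  obtain ⟨χ₀, hχ₀⟩ := IsPBlock.nonempty hind.2.1
  have h2 : ¬ MemLocalIdeal M (om ψ (zc p fun h : H => (χ : G → ℂ) h)) ↔
      χ ∈ B₀ ∧ blockHeight p B₀ (χ : G → ℂ) = 0 := by
    rw [← red_eq_zero_iff (om_mem_O ψ.2 hz hO), ← lam_redA ψ.2 hz hO, ← Ne,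
      ← lamS_zc_ne_zero_iff _ (irr_mem_O χ), IsInducedBlock.lamS_eq hind hψ hχ₀
        (redA_mem_center (zc_irr_mem_center χ)), lam_zc_ne_zero_iff hind.2.1 hχ₀]
  rw [h1]
  exact ⟨fun h => not_not.1 fun h' => h (h2.1 h').1, fun h h' => h2.2 ⟨h, h'⟩⟩

end Cfsg.Agent.S4431
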