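import Cfsg.Statements.S4434
import Cfsg.Agent.BMod.Cover3
-- import your own Cfsg.Agent.* helpers here

set_option autoImplicit false
open Cfsg

namespace Cfsg.Agent.S4434

open Cfsg.Agent.BMod Cfsg.Agent.Block Cfsg.Agent.Transfer Cfsg.Agent.Char Cfsg.Agent.CharDeep

/-- Let N be a normal p-subgroup of the finite group G and write Ḡ = G/N; fix a maximal ideal M of the algebraic integers containing p. Then every block B of G contains a block B̄ of Ḡ (the inflation of every member of B̄ lies in B) whose defect groups are exactly the images in Ḡ of the defect groups of B. -/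
theorem result {G : Type*} [Group G] [Finite G] (p : ℕ) [Fact p.Prime] (M : Ideal Cfsg.AlgInt) (hM : Cfsg.IsPModular p M) (N : Subgroup G) [N.Normal] (hN : IsPGroup p N) (B : Set (Cfsg.IrrCharacter G)) (hB : Cfsg.IsPBlock M B) : ∃ Bbar : Set (Cfsg.IrrCharacter (G ⧸ N)), Cfsg.IsPBlock M Bbar ∧ (∀ χ ∈ Bbar, ∀ ψ : Cfsg.IrrCharacter G, (ψ : G → ℂ) = (χ : G ⧸ N → ℂ) ∘ QuotientGroup.mk → ψ ∈ B) ∧ ∀ Dbar : Subgroup (G ⧸ N), Cfsg.IsDefectGroup p M Bbar Dbar ↔ ∃ P : Subgroup G, Cfsg.IsDefectGroup p M B P ∧ Dbar = P.map (QuotientGroup.mk' N) := by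
  haveI : PMod p M := ⟨hM⟩
  obtain ⟨P, hP⟩ := exists_isDefectGroup (p := p) hB
  have hf := QuotientGroup.mk'_surjective N
  obtain ⟨B', hB', hsub, hD⟩ := exists_block_infl hf (by rwa [QuotientGroup.ker_mk']) hB hP
  refine ⟨B', hB', fun χ hχ ψ h => ?_, fun D => ⟨fun h => ?_, ?_⟩⟩
  · rw [show ψ = infl _ hf χ from Subtype.ext h]
    exact hsub hχ
  · obtain ⟨k, rfl⟩ := IsDefectGroup.exists_sc_eq hB' hD h
    obtain ⟨k, rfl⟩ := hf k
    exact ⟨_, IsDefectGroup.sc hB hP k, (map_sc _ k P).symm⟩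
  · rintro ⟨P', hP', rfl⟩
    obtain ⟨k, rfl⟩ := IsDefectGroup.exists_sc_eq hB hP hP'
    rw [map_sc]
    exact IsDefectGroup.sc hB' hD _

end Cfsg.Agent.S4434
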