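import Cfsg.Statements.S4437
import Cfsg.Agent.BMod.Cover2
-- import your own Cfsg.Agent.* helpers here

set_option autoImplicit false
open Cfsg

namespace Cfsg.Agent.S4437

open Cfsg.Agent.BMod Cfsg.Agent.Block Cfsg.Agent.Transfer Cfsg.Agent.Char Cfsg.Agent.CharDeep

/-- Let P be a p-subgroup of the finite group G, H = P·C_G(P), and b a block of H (relative to a maximal ideal M of the algebraic integers containing p) having P as a defect group; let B be the block of G induced by b. Let T be the stabilizer of b in N_G(P): the elements g of N_G(P) such that the g-conjugate of every member of b is again a member of b. Then B has defect group P if and only if p does not divide the index of H in T. -/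
theorem result {G : Type*} [Group G] [Fintype G] (p : ℕ) [Fact p.Prime] (M : Ideal Cfsg.AlgInt) (hM : Cfsg.IsPModular p M) (P : Subgroup G) (hP : IsPGroup p P) (H : Subgroup G) [Fintype H] (hH : H = P ⊔ Subgroup.centralizer (P : Set G)) (b : Set (Cfsg.IrrCharacter H)) (hb : Cfsg.IsPBlock M b) (hbP : Cfsg.IsDefectGroup p M b (P.subgroupOf H)) (B : Set (Cfsg.IrrCharacter G)) (hind : Cfsg.IsInducedBlock M H b B) (T : Subgroup G) (hT : ∀ g : G, g ∈ T ↔ (g ∈ Subgroup.normalizer (P : Set G) ∧ ∀ θ ∈ b, ∀ θ' : Cfsg.IrrCharacter H, (∀ h h' : H, (h' : G) = g * h * g⁻¹ → (θ' : H → ℂ) h' = (θ : H → ℂ) h) → θ' ∈ b)) : Cfsg.IsDefectGroup p M B P ↔ ¬ p ∣ H.relIndex T := by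
  haveI : PMod p M := ⟨hM⟩
  have hPH : P ≤ H := hH ▸ le_sup_left
  have hCH : Subgroup.centralizer (P : Set G) ≤ H := hH ▸ le_sup_right
  have hHN : H ≤ Subgroup.normalizer (P : Set G) :=
    hH ▸ sup_le Subgroup.le_normalizer (centralizer_le_normalizer' P)
  have hNH : Subgroup.normalizer (P : Set G) ≤ Subgroup.normalizer (H : Set G) := fun g hg => by
    rw [mem_normalizer_iff_sc, hH, sc_sup, mem_normalizer_iff_sc.1 hg,
      mem_normalizer_iff_sc.1 (normalizer_le_normalizer_centralizer P hg)]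
  have h1 := ((isInducedBlock_iff_br hP hPH hCH hHN).1 hind).2.2
  have h2 := (isPrim_Zc_iff_centralizer hP hPH hHN le_rfl).1 (isPrim_eS hb)
  rw [inf_eq_right.2 hCH] at h2
  have hpair : IsPair p P (eS M H b) := by
    refine ⟨hP, Zc_mono hCH le_rfl h2.mem, h2.idem, h2.ne_zero, fun f hf hi => h2.prim f ?_ hi⟩
    exact mem_Zc.2 ⟨hH ▸ fix_sup (mem_fix_of_supp_centralizer (mem_Zc.1 hf).2) (mem_Zc.1 hf).1,
      (mem_Zc.1 hf).2⟩
  have hTN : T = NP P (eS M H b) := by
    ext g
    rw [hT, mem_NP]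
    refine and_congr_right fun hg => ?_
    have h3 := mem_normalizer_iff_sc.1 (hNH hg)
    rw [← eS_conjSet h3]
    simp only [conj_iff_eq_mapIrr h3]
    refine ⟨fun h => ?_, fun h θ hθ θ' h' => ?_⟩
    · obtain ⟨θ, hθ⟩ := IsPBlock.nonempty hb
      rw [IsPBlock.eq_of_mem (isPBlock_conjSet h3 hb) hb
        (by rw [conjSet_eq_image h3]; exact ⟨θ, hθ, rfl⟩) (h θ hθ _ rfl)]
    · rw [← eS_inj (isPBlock_conjSet h3 hb) hb h, conjSet_eq_image h3]
      exact ⟨θ, hθ, h'⟩
  have hD := (isDefectGroup_subgroupOf_iff hb hPH).1 hbP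
  rw [isDefectGroup_iff_isDef hind.2.1, hTN]
  constructor
  · intro h
    have := IsMax.not_dvd_inertial ⟨isPrim_eB hind.2.1, h, hpair, h1⟩
    rwa [← hH] at this
  · intro h
    refine isDef_of_maximal_pair (isPrim_eB hind.2.1) hpair h1 fun R g hle => ?_
    have hR := hle.right hpair
    by_contra hne
    have hlt : P < R := lt_of_le_of_ne hle.le (Ne.symm hne)
    have hHT : H ≤ NP P (eS M H b) := le_NP hHN (mem_Zc.1 (eS_mem_Zc H b)).1
    have h3 : R ⊓ Subgroup.normalizer (P : Set G) ≤ H := le_of_normal_of_not_dvd hHT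
      (NP_le_normalizer.trans hNH) h (hR.1.to_le inf_le_left) (hle.inf_normalizer_le hR)
    have h4 := hD.eq_of_le h3 (hR.1.to_le inf_le_left) (hle.br_ne_zero hR le_rfl)
      (le_inf hle.le Subgroup.le_normalizer)
    exact (lt_inf_normalizer_of_isPGroup hR.1 hlt).ne' h4

end Cfsg.Agent.S4437
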