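import Cfsg.Statements.S4442
import Cfsg.Agent.Small.DefBlock

set_option autoImplicit false
open Cfsg

namespace Cfsg.Agent.S4442

open Cfsg.Agent.Small Cfsg.Agent.Char Cfsg.Agent.Block

/-- Blocks of defect one. Let p be an odd prime and G a finite group whose Sylow p-subgroup P has order p; let C = C_G(P) and N = N_G(P), and fix a maximal ideal M of the algebraic integers containing p. Let B be a block of G with defect group P, b a block of C inducing B, and θ the member of b having P in its kernel (there is exactly one). Let T be the stabilizer of θ in N (the elements g ∈ N with θ(g c g⁻¹) = θ(c) for all c ∈ C) and e the index of C in T. Then e divides p − 1 and B contains exactly e + (p − 1)/e irreducible characters. Moreover B is the disjoint union of a set X of e characters and a set Y of (p − 1)/e characters such that, with f the index of C in N: every χ ∈ X has χ(1) ≡ ±(f/e)·θ(1) (mod p), there is one sign ε with ψ(1) ≡ ε f θ(1) (mod p) for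 all ψ ∈ Y, and all members of Y agree on the p-regular elements of G. -/
theorem result {G : Type*} [Group G] [Finite G] (p : ℕ) [Fact p.Prime] (M : Ideal Cfsg.AlgInt) (hM : Cfsg.IsPModular p M) (hodd : p ≠ 2) (P : Sylow p G) (hP : Nat.card P = p) (B : Set (Cfsg.IrrCharacter G)) (hB : Cfsg.IsPBlock M B) (hBP : Cfsg.IsDefectGroup p M B P) (b : Set (Cfsg.IrrCharacter (Subgroup.centralizer ((P : Subgroup G) : Set G)))) (hind : Cfsg.IsInducedBlock M (Subgroup.centralizer ((P : Subgroup G) : Set G)) b B) (θ : Cfsg.IrrCharacter (Subgroup.centralizer ((P : Subgroup G) : Set G))) (hθ : θ ∈ b) (hθP : ∀ x : Subgroup.centralizer ((P : Subgroup G) : Set G), (x : G) ∈ (P : Subgroup G) → (θ : Subgroup.centralizer ((P : Subgroup G) : Set G) → ℂ) x = (θ : Subgroup.centralizer ((P : Subgroup G) : Set G) → ℂ) 1) (T : Subgroup G) (hT : ∀ g : G, g ∈ T ↔ (g ∈ Subgroup.normalizer ((P : Subgroup G) : Set G) ∧ ∀ c c' : Subgroup.centralizer ((P : Subgroup G) : Set G), (c'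 : G) = g * c * g⁻¹ → (θ : Subgroup.centralizer ((P : Subgroup G) : Set G) → ℂ) c' = (θ : Subgroup.centralizer ((P : Subgroup G) : Set G) → ℂ) c)) (e f : ℕ) (he : (Subgroup.centralizer ((P : Subgroup G) : Set G)).relIndex T = e) (hf : (Subgroup.centralizer ((P : Subgroup G) : Set G)).relIndex (Subgroup.normalizer ((P : Subgroup G) : Set G)) = f) : e ∣ p - 1 ∧ Nat.card B = e + (p - 1) / e ∧ ∃ X Y : Set (Cfsg.IrrCharacter G), B = X ∪ Y ∧ Disjoint X Y ∧ Nat.card X = e ∧ Nat.card Y = (p - 1) / e ∧ (∀ χ ∈ X, (Cfsg.charDegree (χ : G → ℂ) : ℤ) ≡ ((f / e * Cfsg.charDegree (θ : Subgroup.centralizer ((P : Subgroup G) : Set G) → ℂ) : ℕ) : ℤ) [ZMOD p] ∨ (Cfsg.charDegree (χ : G → ℂ) : ℤ) ≡ -((f / e * Cfsg.charDegree (θ : Subgroup.centralizer ((P : Subgroup G) : Set G) → ℂ) : ℕ) : ℤ) [ZMOD p]) ∧ (∃ ε : ℤ, (ε = 1 ∨ ε = -1) ∧ ∀ ψ ∈ Y, (Cfsg.charDegree (ψ : G → ℂ) : ℤ) ≡ ε * ((f * Cfsg.charDegree (θ : Subgroup.centralizer ((P : Subgroup G) : Set G) → ℂ) : ℕ) : ℤ)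 [ZMOD p]) ∧ ∀ ψ ∈ Y, ∀ ψ' ∈ Y, ∀ g : G, ¬ p ∣ orderOf g → (ψ : G → ℂ) g = (ψ' : G → ℂ) g := by
  classical
  have : PMod p M := ⟨hM⟩
  have := Fintype.ofFinite G
  obtain ⟨x, K, hx, h⟩ := exists_defOne_of_sylow P hP
  clear hBP
  generalize (P : Subgroup G) = P' at *
  subst hx
  let C := Subgroup.centralizer (Subgroup.zpowers x : Set G)
  have hC : C = Subgroup.centralizer (Subgroup.zpowers x : Set G) := rfl
  have hmemC : ∀ c, c ∈ C ↔ x * c = c * x := fun c => by
    rw [hC, h.centralizer_eq, Subgroup.mem_centralizer_singleton_iff, eq_comm]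
  have hKC : K ≤ C := fun y hy => (hmemC y).2 (h.comm ⟨y, hy⟩)
  have hxC : ∀ j : ZMod p, xp x j ∈ C := fun j => (hmemC _).2 ((Commute.refl x).pow_right _).eq
  have hθx : ∀ (j : ZMod p) (y : K) (hc : xp x j * y ∈ C),
      θ.1 ⟨_, hc⟩ = θ.1 (Subgroup.inclusion hKC y) := fun j y hc =>
    θ.2.isCharacter.apply_mul_of_apply_eq (hθP ⟨_, hxC j⟩ (xp_mem x j)) (Subgroup.inclusion hKC y)
  have hnorm : ((Subgroup.zpowers x).subgroupOf C).Normal := ⟨fun u hu c => by
    have : c * u = u * c := Subtype.ext (c.2 u hu).symm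
    rwa [this, mul_inv_cancel_right]⟩
  obtain ⟨ψ, hψ, hψ'⟩ := θ.2.exists_quotient ((Subgroup.zpowers x).subgroupOf C) hθP
  have hirr := hψ.comp_of_surjective ((QuotientGroup.mk' _).comp (Subgroup.inclusion hKC)) (by
    intro q
    obtain ⟨c, rfl⟩ := QuotientGroup.mk_surjective q
    obtain ⟨j, y, hy⟩ := h.dec c ((hmemC c).1 c.2)
    refine ⟨y, QuotientGroup.eq.2 ?_⟩
    change (y : G)⁻¹ * c ∈ Subgroup.zpowers x
    rw [hy, h.comm_xp, inv_mul_cancel_left]
    exact xp_mem x j)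
  let θK : IrrCharacter K := ⟨fun y => θ.1 (Subgroup.inclusion hKC y), by
    simpa only [MonoidHom.comp_apply, QuotientGroup.mk'_apply, hψ'] using hirr⟩
  have hθ1 : θK.1 1 = θ.1 1 := rfl
  have hdeg : charDegree θK.1 = charDegree θ.1 := rfl
  obtain ⟨X, φ, δ, ε, s⟩ := h.exists_shape θK
  have hom : ∀ g, inducedCentralChar C θ.1 g = DefOne.om0 p x θK g := by
    intro g
    rw [inducedCentralChar, DefOne.om0, ← Fintype.sum_prod_type', finsum_mem_def,
      finsum_eq_sum_of_fintype]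
    refine (Fintype.sum_bijective (fun a : ZMod p × K => (⟨xp x a.1 * a.2,
      C.mul_mem (hxC _) (hKC a.2.2)⟩ : C)) ⟨fun a b e => ?_, fun c => ?_⟩ _ _ fun a => ?_).symm
    · have := h.eq_of_mul_eq (congrArg Subtype.val e)
      exact Prod.ext this.1 this.2
    · obtain ⟨j, y, hy⟩ := h.dec c ((hmemC c).1 c.2)
      exact ⟨(j, y), Subtype.ext hy.symm⟩
    · rw [Set.indicator_apply, hθx]
      split_ifs with h1 h2 h2
      exacts [rfl, absurd h1 h2, absurd h2 h1, rfl]
  have hBeq : B = blk p x θK := by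
    obtain ⟨χ, rfl⟩ := hB
    have hχ : χ ∈ blockOf M χ.1 := mem_blockOf_self χ
    rw [← h.blockOf_eq_blk M (s.φ_mem 1)]
    refine blockOf_eq_of_sameBlock ((sameBlock_iff_red χ.2 (φ 1).2).2 fun g => ?_)
    rw [h.red_centralChar M (s.φ_mem 1), ← hom]
    exact ((memLocalIdeal_sub_iff (hom g ▸ h.om0_mem M θK g) (centralChar_mem_O χ.2 g)).1
      (hind.2.2 θ hθ χ hχ g)).symm
  have hTeq : T = (h.inert θK).map (Nx x).subtype := by
    ext g
    rw [hT]
    constructor
    · rintro ⟨hg, hg'⟩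
      exact ⟨⟨g, hg⟩, Subtype.ext (funext fun y => hg' _ _ rfl), rfl⟩
    · rintro ⟨n, hn, rfl⟩
      refine ⟨n.2, fun c c' hc => ?_⟩
      obtain ⟨j, y, hy⟩ := h.dec c ((hmemC c).1 c.2)
      obtain ⟨c, hc0⟩ := c
      obtain ⟨c', hc0'⟩ := c'
      simp only at hy hc
      rw [hy, Subgroup.coe_subtype, h.conj_mul] at hc
      subst hy hc
      rw [hθx, hθx]
      exact congrFun (congrArg Subtype.val (h.mem_inert.1 hn)) y
  have hE : Nat.card (h.EE θK) = e := by
    have hCT : C ≤ T := fun c hc => (hT c).2 ⟨Subgroup.centralizer_le_normalizer _ hc,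
      fun a a' ha => by
        rw [show a' = ⟨c, hc⟩ * a * ⟨c, hc⟩⁻¹ from Subtype.ext ha, θ.2.isClassFunction]⟩
    have h1 := (C.subgroupOf T).index_mul_card
    rw [Nat.card_congr (Subgroup.subgroupOfEquivOfLe hCT).toEquiv, ← Subgroup.relIndex, he, hC,
      h.centralizer_eq, h.card_centralizer, hTeq, Subgroup.card_map_of_injective
      (Subgroup.subtype_injective _), h.card_inert] at h1
    exact (Nat.eq_of_mul_eq_mul_right (Nat.mul_pos (Fact.out : p.Prime).pos Nat.card_pos) h1).symm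
  rw [h.relIndex_eq] at hf
  have hi : (h.inert θK).index = f / e := by
    rw [← hf, ← h.index_inert_mul θK, hE, Nat.mul_div_cancel _ (hE ▸ Nat.card_pos)]
  refine ⟨hE ▸ card_EE_dvd _, by rw [hBeq, s.card_blk, hE], X, Set.range φ, hBeq.trans s.blk_eq,
    s.disjoint, by rw [← hE, ← s.card_X]; simp, by rw [s.card_range, index_EE, hE], fun χ hχ => ?_,
    ⟨ε, s.ε_sign, ?_⟩, ?_⟩
  · have := s.modEq_X hχ
    rw [hi, hdeg] at this
    rcases s.δ_sign χ hχ with a | a <;> rw [a] at this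
    · left; simpa using this
    · right; simpa using this
  · rintro _ ⟨a, rfl⟩
    have := s.modEq_φ a
    rw [hf, hdeg] at this
    simpa using this
  · rintro _ ⟨a, rfl⟩ _ ⟨b, rfl⟩ g hg
    exact s.φ_regular hg a b

end Cfsg.Agent.S4442
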