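import Cfsg.Statements.S4443
import Cfsg.Agent.Block.Robinson

set_option autoImplicit false
open Cfsg

namespace Cfsg.Agent.S4443

open Cfsg.Agent.Block Cfsg.Agent.BMod Cfsg.Agent.Char MonoidAlgebra


/-- Let D be a normal p-subgroup of the finite group G, of order p^d, let p^a be the p-part of the order of G, and fix a Sylow p-subgroup S and a maximal ideal M of the algebraic integers containing p. Index by a finite type ι (via an injective map K) exactly the conjugacy classes of p-regular elements x of G for which D is a Sylow p-subgroup of C_G(x). For classes K_i, K_j let ω(i, j) be the number of pairs (y, z) ∈ K_i × K_j with z y⁻¹ ∈ S; this number is divisible by p^(a−d). Then the number of p-blocks of G having D as a defect group equals the rank over ℤ/pℤ of the matrix with (i, j) entry ω(i, j)/p^(a−d) reduced modulo p. -/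
theorem result {G : Type*} [Group G] [Finite G] (p : ℕ) [Fact p.Prime] (M : Ideal Cfsg.AlgInt) (hM : Cfsg.IsPModular p M) (D : Subgroup G) [D.Normal] (hD : IsPGroup p D) (S : Sylow p G) {ι : Type*} [Fintype ι] [DecidableEq ι] (K : ι → ConjClasses G) (hKinj : Function.Injective K) (hK : ∀ C : ConjClasses G, (∃ i, K i = C) ↔ ∃ x ∈ C.carrier, ¬ p ∣ orderOf x ∧ ∃ Q : Sylow p (Subgroup.centralizer ({x} : Set G)), (Q : Subgroup (Subgroup.centralizer ({x} : Set G))).map (Subgroup.centralizer ({x} : Set G)).subtype = D) : Nat.card {B : Set (Cfsg.IrrCharacter G) // Cfsg.IsPBlock M B ∧ Cfsg.IsDefectGroup p M B D} = (Matrix.of fun i j : ι => ((Nat.card {yz : G × G // yz.1 ∈ (K i).carrier ∧ yz.2 ∈ (K j).carrier ∧ yz.2 * yz.1⁻¹ ∈ (S : Subgroup G)} / p ^ ((Nat.card G).factorization p - (Nat.card D).factorization p) : ℕ) : ZMod p)).rank := by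
  classical
  have : PMod p M := ⟨hM⟩
  obtain ⟨w, hw, h⟩ := red_card_pairs' (M := M) S D
  have hx : ∀ i, ∃ x, ConjClasses.mk x = K i ∧ Transfer.IsSylowIn p D (Subgroup.centralizer {x}) := by
    intro i
    obtain ⟨x, hx, -, h⟩ := (hK (K i)).1 ⟨i, rfl⟩
    exact ⟨x, ConjClasses.mem_carrier_iff_mk_eq.1 hx, Transfer.isSylowIn_iff_exists_sylow.2 h⟩
  choose x hx hxD using hx
  have h1 : ∀ i j, IsConj (x i) (x j) → i = j := fun i j H =>
    hKinj (by rw [← hx, ← hx, ConjClasses.mk_eq_mk_iff_isConj.2 H])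
  have h2 : ∀ g, ¬ p ∣ orderOf g → Transfer.IsSylowIn p D (Subgroup.centralizer {g}) →
      ∃ i, IsConj g (x i) := by
    intro g hg hgD
    obtain ⟨i, hi⟩ := (hK (ConjClasses.mk g)).2 ⟨g, ConjClasses.mem_carrier_mk, hg,
      Transfer.isSylowIn_iff_exists_sylow.1 hgD⟩
    exact ⟨i, ConjClasses.mk_eq_mk_iff_isConj.1 (by rw [hx, hi])⟩
  rw [← rank_map_ringHom (ZMod.castHom (dvd_refl p) (F M)), Nat.card_eq_fintype_card,
    ← rank_transpose_mul_mul
      (Matrix.of fun B i => red M (centralChar (rep B.1 : G → ℂ) (x i)⁻¹))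
      (Matrix.of fun B i => red M (centralChar (rep B.1 : G → ℂ) (x i)))
      (Matrix.of fun i B => red M (blockCoeff B.1 (x i)⁻¹))
      (Matrix.of fun i B => red M (blockCoeff B.1 (x i))) ?_ ?_ w hw]
  · congr 1
    ext i j
    simp only [Matrix.mul_apply, Matrix.map_apply, Matrix.of_apply, map_natCast,
      Matrix.transpose_apply, Matrix.diagonal_apply, mul_ite, mul_zero, Finset.sum_ite_eq',
      Finset.mem_univ, if_true]
    rw [← (h _ _ (hxD i) (hxD j)).2]
    simp only [← hx, ConjClasses.mem_carrier_iff_mk_eq, ConjClasses.mk_eq_mk_iff_isConj,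
      isConj_comm (g := x i), isConj_comm (g := x j)]
  · ext B B'
    simp only [Matrix.mul_apply, Matrix.of_apply, Matrix.one_apply, Subtype.ext_iff]
    refine sum_lam_coeff_classes B.2.1 B'.2.1 B.2.2 B'.2.2 (fun i => (x i)⁻¹)
      (fun i j H => h1 i j (isConj_inv_iff.1 H)) fun g hg hgD => ?_
    obtain ⟨i, hi⟩ := h2 g⁻¹ (by rwa [orderOf_inv]) (by rwa [centralizer_singleton_inv])
    exact ⟨i, by simpa [-isConj_iff] using isConj_inv hi⟩
  · ext B B'
    simp only [Matrix.mul_apply, Matrix.of_apply, Matrix.one_apply, Subtype.ext_iff]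
    exact sum_lam_coeff_classes B.2.1 B'.2.1 B.2.2 B'.2.2 x h1 h2

end Cfsg.Agent.S4443
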