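import Cfsg.Statements.S4444
import Cfsg.Agent.CH.PGroup
import Cfsg.Agent.CH.Br

set_option autoImplicit false
open Cfsg

namespace Cfsg.Agent.S4444

open Cfsg.Agent.BG Cfsg.Agent.PF Cfsg.Agent.PF.CH

/-- The Glauberman correspondence for a p-group of operators. Inside a finite group Γ let S normalise G with the orders of G and S coprime, S a p-group, and let C = G ⊓ C(S) be the fixed points. Call an irreducible character χ of G S-invariant when χ(s g s⁻¹) = χ(g) for s ∈ S, g ∈ G. Then: (i) for every S-invariant χ there is exactly one irreducible character β of C whose multiplicity [χ_C, β] in the restriction of χ is not divisible by p; (ii) that multiplicity is ≡ 1 or ≡ −1 (mod p); (iii) distinct S-invariant χ give distinct β; (iv) every irreducible character of C arises in this way. So χ ↦ β is a bijection from the S-invariant irreducible characters of G onto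 the irreducible characters of C. -/
theorem result {Γ : Type*} [Group Γ] [Fintype Γ] (G S : Subgroup Γ) [Fintype G] (hnorm : ∀ s ∈ S, ∀ g ∈ G, s * g * s⁻¹ ∈ G) (hcop : (Nat.card G).Coprime (Nat.card S)) (p : ℕ) (hp : p.Prime) (hS : IsPGroup p S) (C : Subgroup Γ) [Fintype C] (hC : C = G ⊓ Subgroup.centralizer (S : Set Γ)) (hCG : C ≤ G) : (∀ χ : Cfsg.IrrCharacter G, (∀ s ∈ S, ∀ g g' : G, (g' : Γ) = s * g * s⁻¹ → (χ : G → ℂ) g' = (χ : G → ℂ) g) → ∃! β : Cfsg.IrrCharacter C, ∃ m : ℕ, Cfsg.classInner (fun c : C => (χ : G → ℂ) ⟨c, hCG c.2⟩) (β : C → ℂ) = (m : ℂ) ∧ ¬ p ∣ m) ∧ (∀ χ : Cfsg.IrrCharacter G, (∀ s ∈ S, ∀ g g' : G, (g' : Γ) = s * g * s⁻¹ → (χ : G → ℂ) g' = (χ : G → ℂ) g) → ∀ β : Cfsg.IrrCharacter C, ∀ m : ℕ, Cfsg.classInner (fun c : C => (χ : G → ℂ) ⟨c, hCG c.2⟩) (β : C → ℂ) = (m : ℂ) → ¬ p ∣ m → ((m : ℤ) ≡ 1 [ZMOD p] ∨ (m : ℤ) ≡ -1 [ZMOD p])) ∧ (∀ χ χ' :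 Cfsg.IrrCharacter G, (∀ s ∈ S, ∀ g g' : G, (g' : Γ) = s * g * s⁻¹ → (χ : G → ℂ) g' = (χ : G → ℂ) g) → (∀ s ∈ S, ∀ g g' : G, (g' : Γ) = s * g * s⁻¹ → (χ' : G → ℂ) g' = (χ' : G → ℂ) g) → ∀ β : Cfsg.IrrCharacter C, ∀ m m' : ℕ, Cfsg.classInner (fun c : C => (χ : G → ℂ) ⟨c, hCG c.2⟩) (β : C → ℂ) = (m : ℂ) → ¬ p ∣ m → Cfsg.classInner (fun c : C => (χ' : G → ℂ) ⟨c, hCG c.2⟩) (β : C → ℂ) = (m' : ℂ) → ¬ p ∣ m' → χ = χ') ∧ (∀ β : Cfsg.IrrCharacter C, ∃ χ : Cfsg.IrrCharacter G, (∀ s ∈ S, ∀ g g' : G, (g' : Γ) = s * g * s⁻¹ → (χ : G → ℂ) g' = (χ : G → ℂ) g) ∧ ∃ m : ℕ, Cfsg.classInner (fun c : C => (χ : G → ℂ) ⟨c, hCG c.2⟩) (β : C → ℂ) = (m : ℂ) ∧ ¬ p ∣ m) := by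
  have := Fact.mk hp
  have hG : S ≤ N[G] := le_norm_iff.2 hnorm
  have h : PCor p C (IrrFix G S) (Irr C) := by
    rw [← IrrFix_of_cent (S := S) (centsC.1 (hC ▸ inf_le_right))]
    by_cases h0 : S = ⊥
    · rw [h0, cent_bot, inf_top_eq] at hC
      exact hC ▸ PCor.refl hp fun _ => IrrFix_irr
    · have := pcor hp (IsPGroup.pi hS) (N := ⊥) (by simp) G (normal_bot G) hG (by
        rw [Subgroup.relIndex_bot_left]
        exact fun h => hp.one_lt.ne' (Nat.eq_one_of_dvd_coprimes hcop h (pgroup_pdiv hS h0)))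
      rwa [centMod_bot, ← hC] at this
  simp only [classInner_res_mu, Nat.cast_inj, exists_eq_left', ← ez_mem_IrrFix hG]
  refine ⟨fun χ hχ => ?_, fun χ hχ β m e hm => ?_, fun χ χ' hχ hχ' β m m' e hm e' hm' => ?_,
    fun β => ?_⟩
  · obtain ⟨ξ, hξ, h1⟩ := h.exi _ hχ
    obtain ⟨β, rfl⟩ := exists_ez hξ
    exact ⟨β, h1, fun γ h2 => ez_inj (h.uniq _ hχ _ (ez_irr γ) _ hξ h2 h1)⟩
  · subst e
    exact modEq_of_sq hp (h.sq _ hχ _ (ez_irr β) hm)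
  · subst e e'
    exact ez_inj (h.inj _ hχ _ hχ' _ (ez_irr β) hm hm')
  · obtain ⟨ξ, hξ, h1⟩ := h.surj _ (ez_irr β)
    obtain ⟨χ, rfl⟩ := exists_ez (IrrFix_irr hξ)
    exact ⟨χ, hξ, h1⟩

end Cfsg.Agent.S4444
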