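import Cfsg.Statements.S4446
import Cfsg.Agent.CH.Cyclic

set_option autoImplicit false
open Cfsg

namespace Cfsg.Agent.S4446

open Cfsg.Agent.BG Cfsg.Agent.PF Cfsg.Agent.PF.CH

/-- Let the finite group Γ be generated by a normal subgroup G and a cyclic subgroup S of coprime orders, C = G ⊓ C(S), and let χ be an S-invariant irreducible character of G with canonical extension χ̂ to Γ (the extension whose determinantal order is coprime to the order of S). Then there are exactly one irreducible character β of C and one sign ε such that χ̂(c s) = ε β(c) for every c ∈ C and every generator s of S; this β is a constituent of the restriction of χ to C; distinct S-invariant χ give distinct β; and every irreducible character of C arises in this way. -/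
theorem result {Γ : Type*} [Group Γ] [Fintype Γ] (G S : Subgroup Γ) [Fintype G] (hnorm : ∀ s ∈ S, ∀ g ∈ G, s * g * s⁻¹ ∈ G) (hcop : (Nat.card G).Coprime (Nat.card S)) (htop : G ⊔ S = ⊤) (hcyc : IsCyclic S) (C : Subgroup Γ) [Fintype C] (hC : C = G ⊓ Subgroup.centralizer (S : Set Γ)) (hCG : C ≤ G) : (∀ (χ : Cfsg.IrrCharacter G) (χh : Cfsg.IrrCharacter Γ), (∀ s ∈ S, ∀ g g' : G, (g' : Γ) = s * g * s⁻¹ → (χ : G → ℂ) g' = (χ : G → ℂ) g) → (∀ g : G, (χh : Γ → ℂ) g = (χ : G → ℂ) g) → (Cfsg.detOrder (χh : Γ → ℂ)).Coprime (Nat.card S) → (∃! βε : Cfsg.IrrCharacter C × ℤ, (βε.2 = 1 ∨ βε.2 = -1) ∧ ∀ c : C, ∀ s : Γ, Subgroup.zpowers s = S → (χh : Γ → ℂ) ((c : Γ) * s) = (βε.2 : ℂ) * (βε.1 : C → ℂ) c) ∧ ∀ β : Cfsg.IrrCharacter C, ∀ ε : ℤ, (ε = 1 ∨ ε = -1) → (∀ c : C, ∀ s : Γ, Subgroup.zpowers s = S → (χh : Γ → ℂ) ((c : Γ) * s) = (ε : ℂ) * (β : C → ℂ) c) → Cfsg.classInner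 (fun c : C => (χ : G → ℂ) ⟨c, hCG c.2⟩) (β : C → ℂ) ≠ 0) ∧ (∀ (χ χ' : Cfsg.IrrCharacter G) (χh χh' : Cfsg.IrrCharacter Γ), (∀ s ∈ S, ∀ g g' : G, (g' : Γ) = s * g * s⁻¹ → (χ : G → ℂ) g' = (χ : G → ℂ) g) → (∀ s ∈ S, ∀ g g' : G, (g' : Γ) = s * g * s⁻¹ → (χ' : G → ℂ) g' = (χ' : G → ℂ) g) → (∀ g : G, (χh : Γ → ℂ) g = (χ : G → ℂ) g) → (∀ g : G, (χh' : Γ → ℂ) g = (χ' : G → ℂ) g) → (Cfsg.detOrder (χh : Γ → ℂ)).Coprime (Nat.card S) → (Cfsg.detOrder (χh' : Γ → ℂ)).Coprime (Nat.card S) → ∀ β : Cfsg.IrrCharacter C, ∀ ε ε' : ℤ, (ε = 1 ∨ ε = -1) → (ε' = 1 ∨ ε' = -1) → (∀ c : C, ∀ s : Γ, Subgroup.zpowers s = S → (χh : Γ → ℂ) ((c : Γ) * s) = (ε : ℂ) * (β : C → ℂ) c) → (∀ c : C, ∀ s : Γ, Subgroup.zpowers s = S → (χh' : Γ → ℂ) ((c : Γ) * s) = (ε' : ℂ) * (β : C → ℂ) c) → χ = χ') ∧ (∀ β : Cfsg.IrrCharacter C, ∃ (χ : Cfsg.IrrCharacter G) (χh : Cfsg.IrrCharacter Γ) (ε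 : ℤ), (∀ s ∈ S, ∀ g g' : G, (g' : Γ) = s * g * s⁻¹ → (χ : G → ℂ) g' = (χ : G → ℂ) g) ∧ (∀ g : G, (χh : Γ → ℂ) g = (χ : G → ℂ) g) ∧ (Cfsg.detOrder (χh : Γ → ℂ)).Coprime (Nat.card S) ∧ (ε = 1 ∨ ε = -1) ∧ ∀ c : C, ∀ s : Γ, Subgroup.zpowers s = S → (χh : Γ → ℂ) ((c : Γ) * s) = (ε : ℂ) * (β : C → ℂ) c) := by
  obtain ⟨x, rfl⟩ := cyclicP.1 hcyc
  have hG : Subgroup.zpowers x ≤ N[G] := le_norm_iff.2 hnorm
  have hx : x ∈ N[G] := hG (Subgroup.mem_zpowers x)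
  have hn : G ⊴ ⊤ := htop ▸ normalYl hG
  have := hn.normal
  have hi : G.index = orderOf x := by
    rw [← Subgroup.relIndex_top_right, Sdprod.relIndexl ⟨htop, hG, coprime_TI hcop⟩, Nat.card_zpowers]
  rw [Nat.card_zpowers] at hcop ⊢
  rw [C_zpowers] at hC
  subst hC
  have r : ∀ (χ : IrrCharacter G) (χh : IrrCharacter Γ), (∀ g : G, χh.1 g = χ.1 g) →
      Res G χh.1 = ez χ := fun χ χh h => by
    rw [Res_eq_extendByZero]; congr 1; exact funext h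
  have k : ∀ (χ : IrrCharacter G) (χh : IrrCharacter Γ), (∀ g : G, χh.1 g = χ.1 g) →
      (detOrder χh.1).Coprime (orderOf x) → Canon G χh.1 := fun χ χh h hd =>
    canon_of_detOrder (hi ▸ hcop.symm) χh.2.isCharacter (funext h ▸ χ.2) (hi ▸ hd.symm)
  have v : ∀ (χh : IrrCharacter Γ) (β : IrrCharacter ↥(G ⊓ C1[x])) (ε : ℤ), (ε = 1 ∨ ε = -1) →
      (∀ c : ↥(G ⊓ C1[x]), ∀ s, Subgroup.zpowers s = Subgroup.zpowers x →
        χh.1 (c * s) = ε * β.1 c) → ca (G ⊓ C1[x]) χh.1 (ez β) x ≠ 0 := fun χh β ε hε h => by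
    rw [ca_of_eq (ez_irr β) (ez_irr β) fun c hc => (h ⟨c, hc⟩ x rfl).trans (by rw [ez_of_mem β hc]),
      if_pos rfl]
    rcases hε with rfl | rfl <;> simp
  have w : ∀ (χ : IrrCharacter G) (χh : IrrCharacter Γ), (∀ g : G, χh.1 g = χ.1 g) →
      (detOrder χh.1).Coprime (orderOf x) → ∀ β : IrrCharacter ↥(G ⊓ C1[x]),
      ca (G ⊓ C1[x]) χh.1 (ez β) x ≠ 0 → ∃ ε : ℤ, (ε = 1 ∨ ε = -1) ∧ ∀ c : ↥(G ⊓ C1[x]), ∀ s,
        Subgroup.zpowers s = Subgroup.zpowers x → χh.1 (c * s) = ε * β.1 c :=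
    fun χ χh h hd β h0 => by
      obtain ⟨ε, hε, h1⟩ := ca_sign hx hcop le_top (isChar_top.2 χh.2.isCharacter)
        (r χ χh h ▸ ez_irr χ) (k χ χh h hd) (ez_irr β) h0
      exact ⟨ε, hε, fun c s hs => by rw [h1 s (mem_gens.2 hs) c c.2, ez_coe]⟩
  refine ⟨fun χ χh _ h hd => ⟨?_, fun β ε hε h1 => ?_⟩,
    fun χ χ' χh χh' _ _ h h' hd hd' β ε ε' hε hε' h1 h2 => ?_, fun β => ?_⟩
  · obtain ⟨β, hβ, h0⟩ := exists_ca_ne_zero hx hcop le_top (isChar_top.2 χh.2.isCharacter)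
      (r χ χh h ▸ ez_irr χ)
    obtain ⟨β, rfl⟩ := exists_ez hβ
    obtain ⟨ε, hε, h1⟩ := w χ χh h hd β h0
    refine ⟨(β, ε), ⟨hε, h1⟩, fun ⟨β', ε'⟩ ⟨hε', h2⟩ => ?_⟩
    have h3 := v χh β' ε' hε' h2
    rw [ca_of_eq (ez_irr β) (ez_irr β') fun c hc => (h1 ⟨c, hc⟩ x rfl).trans
      (by rw [ez_of_mem β hc])] at h3
    obtain rfl : β = β' := ez_inj (by_contra fun e => h3 (if_neg e))
    have := mul_right_cancel₀ β.2.apply_one_ne_zero ((h2 1 x rfl).symm.trans (h1 1 x rfl))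
    exact Prod.ext rfl (Int.cast_injective this)
  · rw [classInner_res, ← r χ χh h, dot_Res_left inf_le_left]
    exact dot_ne_zero_of_ca hx hcop le_top (isChar_top.2 χh.2.isCharacter) (r χ χh h ▸ ez_irr χ)
      (ez_irr β) (v χh β ε hε h1)
  · refine ez_inj ?_
    rw [← r χ χh h, ← r χ' χh' h']
    exact ca_inj hx hcop le_top (isChar_top.2 χh.2.isCharacter) (r χ χh h ▸ ez_irr χ)
      (isChar_top.2 χh'.2.isCharacter) (r χ' χh' h' ▸ ez_irr χ') (ez_irr β) (v χh β ε hε h1)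
      (v χh' β ε' hε' h2)
  · obtain ⟨η, hη, e, -, h2⟩ := exists_ext_cent1 hx hcop (ez_irr β)
    have hT := cosTI_cent hx hcop
    obtain ⟨χ, hχ, h⟩ := hT.surj hη (e ▸ ez_irr β)
    rw [htop] at hT hχ h
    obtain ⟨χ, rfl⟩ := exists_ez (IrrFix_irr hχ)
    have hinv := (ez_mem_IrrFix hn.norm χ).1 hχ
    obtain ⟨ω, hω, h3, h4⟩ := CharDeep.exists_extension_of_coprime_card G χ.2
      (fun g => funext fun n => hinv g trivial n _ rfl) (hi ▸ hcop.symm)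
    have hd : (detOrder ω).Coprime (orderOf x) :=
      h4 ▸ hcop.coprime_dvd_left (detOrder_dvd χ.2.isCharacter)
    obtain ⟨l, hl, e1⟩ := hT.big.eq_extn_mul (mem_Irr_top.2 hω) (r χ ⟨ω, hω⟩ h3 ▸ ez_irr χ)
    rw [r χ ⟨ω, hω⟩ h3] at e1
    obtain ⟨ε, hε, h5⟩ := w χ ⟨ω, hω⟩ h3 hd β (by
      rw [← h2 x (Subgroup.mem_zpowers x)]
      simp only [e1]
      rw [cdot_mul_lin_left le_top (inf_le_left.trans hl)]
      exact mul_ne_zero (lin_ne_zero l trivial) h)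
    exact ⟨χ, ⟨ω, hω⟩, ε, fun s _ => hinv s trivial, h3, hd, hε, h5⟩

end Cfsg.Agent.S4446
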