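import Cfsg.Statements.S4450
import Cfsg.Agent.CH.Solv

set_option autoImplicit false
open Cfsg

namespace Cfsg.Agent.S4450

open Cfsg.Agent.BG Cfsg.Agent.PF Cfsg.Agent.PF.CH

/-- Let N ≤ G be normal subgroups of the finite group Γ with the index of G in Γ coprime to the index of N in G, and Γ/G or G/N solvable. Then for every irreducible character ϑ of N invariant under conjugation by Γ, the induced character ϑ^G has an irreducible constituent invariant under conjugation by Γ. -/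
theorem result {Γ : Type*} [Group Γ] [Fintype Γ] (G N : Subgroup Γ) [hG : G.Normal] [hN : N.Normal] [Fintype G] [Fintype N] (hNG : N ≤ G) (hcop : (G.index).Coprime (N.relIndex G)) (hsolv : Group.IsSolvable (Γ ⧸ G) ∨ Group.IsSolvable (G ⧸ N.subgroupOf G)) (θ : Cfsg.IrrCharacter N) (hinv : ∀ (x : Γ) (n : N), (θ : N → ℂ) ⟨x * n * x⁻¹, hN.conj_mem n n.2 x⟩ = (θ : N → ℂ) n) : ∃ χ : Cfsg.IrrCharacter G, Cfsg.classInner (fun n : N => (χ : G → ℂ) ⟨n, hNG n.2⟩) (θ : N → ℂ) ≠ 0 ∧ ∀ (x : Γ) (g : G), (χ : G → ℂ) ⟨x * g * x⁻¹, hG.conj_mem g g.2 x⟩ = (χ : G → ℂ) g := by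
  have hNt := normal_top N
  have hGt := normal_top G
  have hNG' : N ⊴ G := hNt.subl hNG le_top
  have hi : (G /ᵍ N).relIndex (⊤ /ᵍ N) = G.index := by
    rw [index_quotient_eq le_top hNt.norm (inf_le_right.trans hNG), Subgroup.relIndex_top_right]
  obtain ⟨T, hT⟩ := SchurZassenhaus_split (quotient_normal N hGt)
    (by rw [hi, card_quotient hNG'.norm]; exact hcop.symm)
  obtain ⟨S, hNS, -, rfl⟩ := inv_quotientS hNt hT.ler
  have hS : S ≤ N[N] := norm_of_normal N S
  have hGS : S ≤ N[G] := norm_of_normal G S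
  have hc : (N.relIndex G).Coprime (N.relIndex S) := by
    rw [← card_quotient hS, ← hT.relIndexl, hi]; exact hcop.symm
  have e : G ⊔ S = ⊤ := quotient_inj (hNt.subl (hNG.trans le_sup_left) le_top) hNt
    (by rw [quotientY hNG'.norm hS, hT.sup])
  have hθ : ez θ ∈ IrrFix N S := (ez_mem_IrrFix hS θ).2 fun s hs g g' e => by
    rw [← hinv s g]; exact congrArg θ.1 (Subtype.ext e)
  have hq := quotient_isog_mathlib (N.subgroupOf G)
  rw [Subgroup.map_subgroupOf_eq_of_le hNG] at hq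
  obtain ⟨χ, hχ, h⟩ : ∃ χ ∈ IrrFix G S, dot N χ (ez θ) ≠ 0 := hsolv.elim
    (fun h => exists_fixed_above_sol hS (isog_sol (isog_trans (quotient_top_isog G) (isog_symm
      (isog_trans hT.isog (third_isog hNt hGt hNG)))) h) hθ G hNG' hGS hc)
    fun h => exists_fixed_above_sol' hS hθ G hNG' hGS hc (isog_sol hq h)
  rw [← IrrFix_sup, e] at hχ
  obtain ⟨χ, rfl⟩ := exists_ez (IrrFix_irr hχ)
  exact ⟨χ, by rwa [classInner_res], fun x g =>
    (ez_mem_IrrFix hGt.norm χ).1 hχ x trivial g _ rfl⟩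

end Cfsg.Agent.S4450
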