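import Cfsg.Statements.S4451
import Cfsg.Agent.CH.Cyclic

set_option autoImplicit false
open Cfsg

namespace Cfsg.Agent.S4451

open Cfsg.Agent.BG Cfsg.Agent.PF Cfsg.Agent.PF.CH
open scoped _root_.Classical

/-- Let the finite group Γ be generated by a normal subgroup G and a cyclic subgroup S of coprime orders such that every non-identity element of S has the same centraliser C = G ⊓ C(S) in G. Let χ be an S-invariant irreducible character of G, χ̂ its canonical extension to Γ (determinantal order coprime to the order of S), and β the irreducible character of C with χ̂(c s) = ε₀ β(c) for c ∈ C and generators s of S (ε₀ = ±1). Then there are a sign ε = ±1, which may differ from ε₀, and a linear character μ of S with μ² = 1, such that: (a) χ̂(c x) = ε β(c) μ(x) for all c ∈ C and all x ∈ S other than 1; (b) the restriction of χ to C equals |S|·ϑ + ε β for some character ϑ of C or ϑ = 0; (c) |S| divides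 χ(1) − ε β(1). -/
theorem result {Γ : Type*} [Group Γ] [Fintype Γ] (G S : Subgroup Γ) [Fintype G] (hnorm : ∀ s ∈ S, ∀ g ∈ G, s * g * s⁻¹ ∈ G) (hcop : (Nat.card G).Coprime (Nat.card S)) (htop : G ⊔ S = ⊤) (hcyc : IsCyclic S) (C : Subgroup Γ) [Fintype C] (hC : C = G ⊓ Subgroup.centralizer (S : Set Γ)) (hCG : C ≤ G) (hfpf : ∀ x ∈ S, x ≠ 1 → G ⊓ Subgroup.centralizer ({x} : Set Γ) = C) (χ : Cfsg.IrrCharacter G) (hinv : (∀ s ∈ S, ∀ g g' : G, (g' : Γ) = s * g * s⁻¹ → (χ : G → ℂ) g' = (χ : G → ℂ) g)) (χh : Cfsg.IrrCharacter Γ) (hext : (∀ g : G, (χh : Γ → ℂ) g = (χ : G → ℂ) g)) (hdet : (Cfsg.detOrder (χh : Γ → ℂ)).Coprime (Nat.card S)) (β : Cfsg.IrrCharacter C) (ε₀ : ℤ) (hε₀ : ε₀ = 1 ∨ ε₀ = -1) (hβ : ∀ c : C, ∀ s : Γ, Subgroup.zpowers s = S → (χh : Γ → ℂ) ((c : Γ) * s) = (ε₀ : ℂ) * (β : C → ℂ) c) : ∃ ε : ℤ, (ε = 1 ∨ ε = -1) ∧ (∃ μ : S → ℂ, Cfsg.IsCharacter S μ ∧ μ 1 = 1 ∧ (∀ x : S, μ x * μ x = 1) ∧ ∀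 c : C, ∀ x : S, x ≠ 1 → (χh : Γ → ℂ) ((c : Γ) * x) = (ε : ℂ) * (β : C → ℂ) c * μ x) ∧ (∃ ϑ : C → ℂ, Cfsg.IsCharacter C ϑ ∧ (fun c : C => (χ : G → ℂ) ⟨c, hCG c.2⟩) = fun c => (Nat.card S : ℂ) * ϑ c + (ε : ℂ) * (β : C → ℂ) c) ∧ (Nat.card S : ℤ) ∣ (Cfsg.charDegree (χ : G → ℂ) : ℤ) - ε * (Cfsg.charDegree (β : C → ℂ) : ℤ) := by
  have hG : S ≤ N[G] := le_norm_iff.2 hnorm
  obtain ⟨s, hs⟩ := cyclicP.1 hcyc
  have hsS : s ∈ S := hs ▸ Subgroup.mem_zpowers s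
  by_cases h1 : s = 1
  · subst h1
    rw [Subgroup.zpowers_one_eq_bot] at hs
    subst hs
    refine ⟨ε₀, hε₀, ⟨fun _ => 1, Char.isCharacter_one, rfl, fun _ => mul_one _,
      fun c x hx => absurd (Subsingleton.elim _ _) hx⟩, ⟨0, Char.isCharacter_zero, funext fun c => ?_⟩,
      by simp⟩
    simpa using (hext ⟨c, hCG c.2⟩).symm.trans (by simpa using hβ c 1 Subgroup.zpowers_one_eq_bot)
  have hn : G ⊴ ⊤ := htop ▸ normalYl hG
  have := hn.normal
  have hi : G.index = #S := by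
    rw [← Subgroup.relIndex_top_right, Sdprod.relIndexl ⟨htop, hG, coprime_TI hcop⟩]
  have r : Res G χh.1 = ez χ := by rw [Res_eq_extendByZero]; congr 1; exact funext hext
  have hcan := canon_of_detOrder (hi ▸ hcop.symm) χh.2.isCharacter (funext hext ▸ χ.2)
    (hi ▸ hdet.symm)
  have hω := isChar_top.2 χh.2.isCharacter
  have hCS : C ≤ C[S] := hC ▸ inf_le_right
  have hTI : C ⊓ S = ⊥ := coprime_TI (coprimeSg hCG hcop)
  have hD : Sdprod C S (C ⊔ S) := ⟨rfl, cents_norm (centsC.1 hCS), hTI⟩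
  have hab : ⁅C ⊔ S, C ⊔ S⁆ ≤ C := by
    simpa [der1_eq_bot.2 (cyclic_abelian hcyc)] using der_sup_le hD.norm
  obtain ⟨η, hη, e, h2, h3⟩ := exists_ext_cent hCS hTI (ez_irr β)
  have hψ := isChar_cavg hD.normal (hω.res le_top) (Irr_isChar hη)
  have k : ∀ c ∈ C, ∀ y ∈ S, cavg C (C ⊔ S) (Res (C ⊔ S) χh.1) η (c * y) = ca C χh.1 (ez β) y :=
    fun c hc y hy => by
      rw [cavg_apply (mul_mem_sup' hc hy), cdot_mul_left_mem hc, h3 y hy]
      exact dot_congr (fun c hc => Res_of_mem _ (mul_mem_sup' hc hy)) fun _ _ => rfl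
  have val := fun (y : Γ) (hy : y ∈ S) (hy1 : y ≠ 1) => hfpf y hy hy1 ▸ ca_value (β := ez β) (hG hy)
    (hcop.coprime_dvd_right (orderOf_dvd_cardG hy)) le_top hω (r ▸ ez_irr χ)
  have sgn := fun (y : Γ) (hy : y ∈ S) (hy1 : y ≠ 1) => hfpf y hy hy1 ▸ ca_sign (β := ez β) (hG hy)
    (hcop.coprime_dvd_right (orderOf_dvd_cardG hy)) le_top hω (r ▸ ez_irr χ) hcan
  have nm : ∀ y ∈ S, y ∈ C → y = 1 := fun y hy hc => Subgroup.mem_bot.1 (hTI ▸ ⟨hc, hy⟩)
  obtain ⟨m, ε, l, hε, hl, -, h4⟩ := small_off_ker le_sup_left hab hψ.mem_ZIrr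
    (le_cfker_cavg le_sup_left) (hD.ler hsS) (fun h => h1 (nm s hsS h)) (by
      rw [← one_mul s, k 1 C.one_mem s hsS, ca_of_eq (ez_irr β) (ez_irr β) fun c hc =>
        (hβ ⟨c, hc⟩ s hs).trans (by rw [ez_of_mem β hc]), if_pos rfl]
      rcases hε₀ with rfl | rfl <;> simp) fun y hy0 hy' => by
      obtain ⟨c, hc, y, hy, rfl⟩ := hD.mem hy0
      rw [k c hc y hy]
      by_cases h : ca C χh.1 (ez β) y = 0
      · simp [h]
      · exact (val y hy (by rintro rfl; exact hy' (by simpa using hc)) (ez_irr β) h).1.le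
  have hε' : (ε : ℂ) * ε = 1 := by rcases hε with rfl | rfl <;> simp
  have h5 : ∀ y ∈ S, y ≠ 1 → ca C χh.1 (ez β) y = ε * lin l y := fun y hy hy1 => by
    rw [← k 1 C.one_mem y hy, one_mul, h4 y (hD.ler hy) fun h => hy1 (nm y hy h)]
  have h6 : ∀ y ∈ S, y ≠ 1 → ca C χh.1 (ez β) y ≠ 0 := fun y hy hy1 => by
    rw [h5 y hy hy1]
    exact mul_ne_zero (left_ne_zero_of_mul_eq_one hε') (lin_ne_zero l (hD.ler hy))
  have h7 : ∀ y ∈ S, y ≠ 1 → ∀ c ∈ C, χh.1 (c * y) = ε * ez β c * lin l y := fun y hy hy1 c hc => by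
    rw [(val y hy hy1 (ez_irr β) (h6 y hy hy1)).2 c hc, h5 y hy hy1]; ring
  obtain ⟨l', hl', hne⟩ := Finset.exists_mem_ne (by
    rw [card_Dual_ker le_sup_left hab, hD.relIndexl]
    exact cardG_gt1 (ne_bot_of_mem hsS h1)) l
  have hl' := (Finset.mem_filter.1 hl').2
  have hϑ : IsChar C ((#S : ℂ)⁻¹ • (Res C χh.1 - (ε : ℂ) • ez β)) := by
    refine isChar_of_dot (Submodule.smul_mem _ _ (sub_mem (Res_mem_CF_of_le le_top hω.mem_CF)
      (Submodule.smul_mem _ _ (Irr_CF (ez_irr β))))) fun ξ hξ => ?_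
    obtain ⟨η', hη', e', h2', -⟩ := exists_ext_cent hCS hTI hξ
    obtain ⟨n, hn⟩ := (hω.res le_top).dot_nat (Irr_isChar (Irr_mul_lin hη' l'))
    have a1 := card_mul_dot_of_support (ψ := η' * lin l') (K := C)
      (φ := Res (C ⊔ S) χh.1 - (ε : ℂ) • (η * lin l)) hD.lel fun g hg hgC => by
        obtain ⟨c, hc, y, hy, rfl⟩ := hD.mem hg
        simp only [Pi.sub_apply, Pi.smul_apply, Pi.mul_apply, smul_eq_mul, Res_of_mem _ hg]
        rw [h7 y hy (by rintro rfl; exact hgC (by simpa using hc)) c hc, h2 c hc y hy,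
          cfker_mul (hl hc)]; ring
    rw [dot_sub_left, hn, dot_smul_left, dot_Irr_ne (Irr_mul_lin hη l) (Irr_mul_lin hη' l') fun h => by
      have a2 : η = η' := by
        have : ξ = ez β := by rw [← e, ← e', ← Res_mul_lin hl', ← h, Res_mul_lin hl]
        refine CF_ext (Irr_CF hη) (Irr_CF hη') fun g hg => ?_
        obtain ⟨c, hc, y, hy, rfl⟩ := hD.mem hg
        rw [h2 c hc y hy, h2' c hc y hy, this]
      exact hne (mul_lin_inj hD.normal (Irr_isChar hη) (e ▸ ez_irr β) hl hl' (a2 ▸ h)).symm,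
      mul_zero, sub_zero, ← hD.card, ← dot_Res_self_left, ← dot_Res_self_right, map_sub, map_smul,
      Res_mul_lin hl, Res_mul_lin hl', e, e', Res_Res hD.lel, Nat.cast_mul, mul_assoc] at a1
    exact ⟨n, by rw [dot_smul_left, ← mul_left_cancel₀ (cardC_ne_zero C) a1,
      inv_mul_cancel_left₀ (cardC_ne_zero S)]⟩
  have h8 : ∀ c : C, χ.1 ⟨c, hCG c.2⟩ = #S * ((#S : ℂ)⁻¹ • (Res C χh.1 - (ε : ℂ) • ez β)) c +
      ε * β.1 c := fun c => by
    simp [mul_inv_cancel_left₀ (cardC_ne_zero S), ← hext]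
  refine ⟨ε, hε, ⟨fun x => lin l x, by simpa using ((isChar_lin l).res hD.ler).2, lin_apply_one l,
    fun x => ?_, fun c x hx => ?_⟩, ⟨_, hϑ.2, funext h8⟩, ⟨deg ((#S : ℂ)⁻¹ • (Res C χh.1 - (ε : ℂ) • ez β)), ?_⟩⟩
  · by_cases hx : (x : Γ) = 1
    · simp [hx]
    obtain ⟨δ, hδ, h⟩ := sgn x x.2 hx (ez_irr β) (h6 x x.2 hx)
    have := (h7 x x.2 hx 1 C.one_mem).symm.trans (h x (self_mem_gens _) 1 C.one_mem)
    rw [mul_right_comm] at this
    have := mul_right_cancel₀ (Irr_apply_one_ne_zero (ez_irr β)) this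
    have hδ' : (δ : ℂ) * δ = 1 := by rcases hδ with rfl | rfl <;> simp
    rw [← this] at hδ'
    linear_combination hδ' - lin l x * lin l x * hε'
  · rw [h7 x x.2 (fun h => hx (Subtype.ext h)) c c.2, ez_coe]
  · have := χ.2.apply_one_eq_charDegree.symm.trans (h8 1)
    rw [Subgroup.coe_one, hϑ.apply_one, β.2.apply_one_eq_charDegree] at this
    exact_mod_cast sub_eq_of_eq_add this

end Cfsg.Agent.S4451
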