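import Cfsg.Statements.S4453
import Cfsg.Agent.Isa.I9

set_option autoImplicit false
open Cfsg

namespace Cfsg.Agent.S4453

open Cfsg.Agent.PF Cfsg.Agent.PF.CH Cfsg.Agent.BG


/-- Inside a finite group Γ let S normalise the solvable subgroup G of odd order with the orders of G and S coprime, let C = G ⊓ C(S), and let L ≤ K be S-invariant normal subgroups of G with K/L abelian, G = KC and H = LC (so C ≤ H ≤ G). Then for each S-invariant irreducible character χ of G there is exactly one S-invariant irreducible character ψ of H whose multiplicity in the restriction of χ to H is odd, and χ ↦ ψ is a bijection from the S-invariant irreducible characters of G onto those of H (distinct χ give distinct ψ, and every S-invariant ψ arises). -/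
theorem result {Γ : Type*} [Group Γ] [Fintype Γ] (G S : Subgroup Γ) [Fintype G] (hnorm : ∀ s ∈ S, ∀ g ∈ G, s * g * s⁻¹ ∈ G) (hcop : (Nat.card G).Coprime (Nat.card S)) (hGsolv : Group.IsSolvable G) (hodd : Odd (Nat.card G)) (C : Subgroup Γ) [Fintype C] (hC : C = G ⊓ Subgroup.centralizer (S : Set Γ)) (hCG : C ≤ G) (K L H : Subgroup Γ) [Fintype H] (hLK : L ≤ K) (hKG : K ≤ G) (hKn : ∀ g ∈ G, ∀ k ∈ K, g * k * g⁻¹ ∈ K) (hLn : ∀ g ∈ G, ∀ l ∈ L, g * l * g⁻¹ ∈ L) (hKS : ∀ s ∈ S, ∀ k ∈ K, s * k * s⁻¹ ∈ K) (hLS : ∀ s ∈ S, ∀ l ∈ L, s * l * s⁻¹ ∈ L) (hab : ∀ a ∈ K, ∀ b ∈ K, a * b * a⁻¹ * b⁻¹ ∈ L) (hGKC : K ⊔ C = G) (hH : H = L ⊔ C) (hHG : H ≤ G) : (∀ χ : Cfsg.IrrCharacter G, (∀ s ∈ S, ∀ g g' : G, (g' : Γ) = s * g * s⁻¹ → (χ : G → ℂ) g' = (χ : G → ℂ) g) → ∃! ψ : Cfsg.IrrCharacter H, (∀ s ∈ S, ∀ g g' : H, (g' : Γ) = s * g * s⁻¹ →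 (ψ : H → ℂ) g' = (ψ : H → ℂ) g) ∧ ∃ m : ℕ, Cfsg.classInner (fun h : H => (χ : G → ℂ) ⟨h, hHG h.2⟩) (ψ : H → ℂ) = (m : ℂ) ∧ Odd m) ∧ (∀ χ χ' : Cfsg.IrrCharacter G, (∀ s ∈ S, ∀ g g' : G, (g' : Γ) = s * g * s⁻¹ → (χ : G → ℂ) g' = (χ : G → ℂ) g) → (∀ s ∈ S, ∀ g g' : G, (g' : Γ) = s * g * s⁻¹ → (χ' : G → ℂ) g' = (χ' : G → ℂ) g) → ∀ ψ : Cfsg.IrrCharacter H, (∀ s ∈ S, ∀ g g' : H, (g' : Γ) = s * g * s⁻¹ → (ψ : H → ℂ) g' = (ψ : H → ℂ) g) → ∀ m m' : ℕ, Cfsg.classInner (fun h : H => (χ : G → ℂ) ⟨h, hHG h.2⟩) (ψ : H → ℂ) = (m : ℂ) → Odd m → Cfsg.classInner (fun h : H => (χ' : G → ℂ) ⟨h, hHG h.2⟩) (ψ : H → ℂ) = (m' : ℂ) → Odd m' → χ = χ') ∧ (∀ ψ : Cfsg.IrrCharacter H, (∀ s ∈ S, ∀ g g' : H, (g' : Γ) = s * g * s⁻¹ → (ψ : H → ℂ) g' = (ψ : H → ℂ) g) → ∃ χ : Cfsg.IrrCharacter G, (∀ s ∈ S, ∀ g g' : G, (g' : Γ) = s * g * s⁻¹ → (χ : G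 → ℂ) g' = (χ : G → ℂ) g) ∧ ∃ m : ℕ, Cfsg.classInner (fun h : H => (χ : G → ℂ) ⟨h, hHG h.2⟩) (ψ : H → ℂ) = (m : ℂ) ∧ Odd m) := by
  have hG : S ≤ N[G] := le_norm_iff.2 hnorm
  have hL : L ⊴ G := ⟨hLK.trans hKG, le_norm_iff.2 hLn⟩
  have hSL : S ≤ N[L] := le_norm_iff.2 hLS
  have hSK : S ≤ N[K] := le_norm_iff.2 hKS
  have h1 : ⁅G, S⁆ ≤ K := by
    rw [← hGKC]
    refine comm_sup_le (normG K) (hCG.trans (le_norm_iff.2 hKn)) (commg_subl hSK) ?_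
    rw [commG1.2 (hC ▸ inf_le_right)]; exact bot_le
  have h := isaacs_step hG hcop hodd hGsolv hL hSL
    ((dergS h1).trans (Subgroup.commutator_le.2 hab))
  have hS2 : S ≤ N[H] := by
    rw [hH, hC]; exact normsY hSL (cents_norm (cents_symm inf_le_right))
  rw [← hC, ← hH] at h
  simp only [classInner_res_mu, Nat.cast_inj, exists_eq_left', ← ez_mem_IrrFix hG, ← ez_mem_IrrFix hS2,
    ← Nat.not_even_iff_odd, even_iff_two_dvd]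
  refine ⟨fun χ hχ => ?_, fun χ χ' hχ hχ' β hβ m m' e hm e' hm' => ?_, fun β hβ => ?_⟩
  · obtain ⟨ξ, hξ, h1⟩ := h.exi _ hχ
    obtain ⟨β, rfl⟩ := exists_ez (IrrFix_irr hξ)
    exact ⟨β, ⟨hξ, h1⟩, fun γ h2 => ez_inj (h.uniq _ hχ _ h2.1 _ hξ h2.2 h1)⟩
  · subst e e'
    exact ez_inj (h.inj _ hχ _ hχ' _ hβ hm hm')
  · obtain ⟨ξ, hξ, h1⟩ := h.surj _ hβ
    obtain ⟨χ, rfl⟩ := exists_ez (IrrFix_irr hξ)
    exact ⟨χ, hξ, h1⟩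

end Cfsg.Agent.S4453
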