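import Cfsg.Statements.S4454
import Cfsg.Agent.CH.Cyclic

set_option autoImplicit false
open Cfsg

namespace Cfsg.Agent.S4454

open Cfsg.Agent.BG Cfsg.Agent.PF Cfsg.Agent.PF.CH

/-- Let N ≤ G be normal subgroups of the finite group Γ with Γ/G cyclic and Γ/N a Frobenius group with kernel G/N: G ≠ Γ, N ≠ G, and no element of Γ outside G fixes a non-identity coset of N in G under conjugation. Let ϑ be an irreducible character of N invariant under conjugation by Γ and suppose ϑ is fully ramified in G: the character of G induced from ϑ equals e·χ for an irreducible character χ of G and a natural number e. Then the index of G in Γ divides e − 1 or e + 1. -/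
theorem result {Γ : Type*} [Group Γ] [Fintype Γ] (G N : Subgroup Γ) [hG : G.Normal] [hN : N.Normal] [Fintype G] [Fintype N] (hNG : N ≤ G) (hGlt : G ≠ ⊤) (hNlt : N ≠ G) (hcyc : IsCyclic (Γ ⧸ G)) (hfrob : ∀ x : Γ, x ∉ G → ∀ g : Γ, g ∈ G → x * g * x⁻¹ * g⁻¹ ∈ N → g ∈ N) (θ : Cfsg.IrrCharacter N) (hinv : ∀ (x : Γ) (n : N), (θ : N → ℂ) ⟨x * n * x⁻¹, hN.conj_mem n n.2 x⟩ = (θ : N → ℂ) n) (χ : Cfsg.IrrCharacter G) (e : ℕ) (hram : Cfsg.indFun (N.subgroupOf G) (fun n : N.subgroupOf G => (θ : N → ℂ) ⟨(n : G), n.2⟩) = fun g => (e : ℂ) * (χ : G → ℂ) g) : (G.index : ℤ) ∣ (e : ℤ) - 1 ∨ (G.index : ℤ) ∣ (e : ℤ) + 1 := by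
  have hNt := normal_top N
  have hGt := normal_top G
  have hNG' : N ⊴ G := hNt.subl hNG le_top
  have hF : FrobMod ⊤ G N := ⟨hNt, hGt, lt_of_le_of_ne hNG hNlt, lt_top_iff_ne_top.2 hGlt,
    fun k hk hkN x _ h => by_contra fun hx => hkN (hfrob x hx k hk h)⟩
  obtain ⟨E, hE⟩ := hF.quo.exists_frob
  obtain ⟨S, hNS, -, rfl⟩ := inv_quotientS hNt hE.ler
  have hS : S ≤ N[N] := norm_of_normal N S
  have hNS' : N ⊴ S := ⟨hNS, hS⟩
  have hi : N.relIndex S = G.index := by
    rw [← card_quotient hS, ← hE.sd.relIndexl, index_quotient_eq le_top hNt.norm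
      (inf_le_right.trans hNG), Subgroup.relIndex_top_right]
  have hc : (N.relIndex G).Coprime (N.relIndex S) := by
    rw [← card_quotient hS, ← card_quotient hNG'.norm]; exact Frobenius_coprime hE
  have e0 : G ⊔ S = ⊤ := quotient_inj (hNt.subl (hNG.trans le_sup_left) le_top) hNt
    (by rw [quotientY hNG'.norm hS, hE.sd.sup])
  have e1 : G ⊓ S ≤ N := (quotient_sub1 (inf_le_right.trans hS)).1
    (eq_bot_iff.2 (hE.sd.inf ▸ quotientI N G S))
  obtain ⟨s, hs, rfl⟩ := (cyclic_quotient_iff hNS').1 (isog_cyclic (isog_trans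
    (quotient_top_isog G) (isog_symm (isog_trans hE.sd.isog (third_isog hNt hGt hNG)))) hcyc)
  have h1 := cycExt_sup (hS hs)
  have h2 : CycExt G ⊤ s := ⟨hGt, trivial, by rw [← e0, ← sup_assoc, sup_eq_left.2 hNG]⟩
  generalize N ⊔ Subgroup.zpowers s = S at *
  have hθ : ez θ ∈ IrrFix N ⊤ := (ez_mem_IrrFix hNt.norm θ).2 fun s hs g g' e => by
    rw [← hinv s g]; exact congrArg θ.1 (Subtype.ext e)
  have hI : Ind N G (ez θ) = (e : ℂ) • ez χ :=
    CF_ext (Ind_mem_CF hNG) (Submodule.smul_mem _ _ (Irr_CF (ez_irr χ))) fun g hg => by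
      rw [congrFun (Ind_restrict hNG (ez θ)) ⟨g, hg⟩, Pi.smul_apply, ez_of_mem χ hg, smul_eq_mul,
        ← congrFun hram ⟨g, hg⟩]
      congr 1
      exact funext fun n => ez_of_mem θ _
  have he : (e : ℂ) ≠ 0 := fun h => Ind_Irr_ne_zero hNG (ez_irr θ) (by rw [hI, h, zero_smul])
  have hd : dot N (ez χ) (ez θ) = e := by
    rw [← dot_Ind_right hNG (Irr_CF (ez_irr χ)).2, hI, dot_smul_right, dot_Irr_self (ez_irr χ)]
    simp
  obtain ⟨ω, hω, hr⟩ := h2.extend (ez_irr χ) fun g _ => smul_right_injective _ he (by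
    simp only [← map_smul, ← hI]
    rw [cj_Ind (hGt.norm trivial) (hNt.norm trivial), mem_inertia.1 (IrrFix_inv hθ trivial)])
  obtain ⟨η, hη, hr'⟩ := h1.extend (ez_irr θ) (le_top.trans (IrrFix_inv hθ))
  have key : ∀ x ∈ S, x ∉ N → ‖cavg N S (Res S ω) η x‖ = 1 := fun x hx hxN => by
    have hT := cosTI_centMod hNG' (hGt.norm trivial) (hS hx) (pow_relIndex_mem hS hx) hc
    rw [show G ⊓ centMod N (Subgroup.zpowers x) = N from le_antisymm (fun g hg =>
      hfrob x (fun h => hxN (e1 ⟨h, hx⟩)) g hg.1 ((coset_comm_iff (hS hx) (hNG'.norm hg.1)).1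
        ((mem_centMod_zpowers (hS hx)).1 hg.2).2.symm)) (le_inf hNG (sub_cosetpre _))] at hT
    have hD : N ⊔ Subgroup.zpowers x ≤ S := hT.small.le_of hNS hx
    have a1 := (Irr_isChar hω).res (le_top (a := G ⊔ Subgroup.zpowers x))
    have a2 : Res G (Res (G ⊔ Subgroup.zpowers x) ω) ∈ Irr G := by
      rw [Res_Res le_sup_left, hr]; exact ez_irr χ
    have a3 : Res N (Res (N ⊔ Subgroup.zpowers x) η) = ez θ := by rw [Res_Res le_sup_left, hr']
    have a4 := Irr_of_Res le_sup_left ((Irr_isChar hη).res hD) (a3 ▸ ez_irr θ)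
    obtain ⟨ξ, hξ, a5⟩ := hT.exi a1 a2
    obtain rfl : ez θ = ξ := by
      suffices h : dot N (ez χ) ξ ≠ 0 by
        obtain ⟨g, -, e⟩ := mem_cfclass.1 ((constt_Res_conj hNG' (ez_irr χ) (ez_irr θ)
          (IrrFix_irr hξ) (hd ▸ he)).1 h)
        rw [← e, mem_inertia.1 (IrrFix_inv hθ trivial)]
      refine fun h => a5 ?_
      rw [← cdot_congr (fun c hc => Res_of_mem _ (hT.small.mul_mem hc)) fun _ _ => rfl]
      refine cdot_eq_zero_of_dot hT.small.normal (a1.res hT.le')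
        (Irr_isChar (hT.small.extn_irr hξ)) ?_ hT.small.mem
      rw [dot_Res_left le_sup_left, dot_Res_left (hNG.trans le_sup_left), ← dot_Res_left hNG, hr,
        ← dot_Res_self_right, hT.small.res_extn hξ, h]
    rw [← a3, ← hT.cdot_extn_iff a4 (a3 ▸ ez_irr θ)] at a5
    rw [cavg_apply hx, ← (hT.value a1 a2 a4 a5).1]
    congr 1
    exact cdot_congr (fun c hc => by rw [Res_of_mem _ (hD (hT.small.mul_mem hc)),
      Res_of_mem _ (hT.big.mul_mem (hNG hc))]) fun c hc => (Res_of_mem _ (hT.small.mul_mem hc)).symm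
  have hsN : s ∉ N := fun h => hGlt (top_le_iff.1 (h2.le_of le_rfl (hNG h)))
  obtain ⟨m, ε, l, hε, -, h3, -⟩ := small_off_ker hNS h1.comm (isChar_cavg hNS'
    ((Irr_isChar hω).res le_top) (Irr_isChar hη)).mem_ZIrr (le_cfker_cavg hNS) hs hsN
    (fun h => by simpa [h] using key s hs hsN) fun y hy hy' => (key y hy hy').le
  rw [cavg_one, dot_Res_left hNS, ← dot_Res_left hNG, hr, ← dot_Res_self_right, hr', hd, hi] at h3
  have h4 : (e : ℤ) = m * G.index + ε := by exact_mod_cast h3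
  rcases hε with rfl | rfl
  · exact Or.inl ⟨m, by rw [h4]; ring⟩
  · exact Or.inr ⟨m, by rw [h4]; ring⟩

end Cfsg.Agent.S4454
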