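import Cfsg.Statements.S4455
import Cfsg.Agent.Isa.I2

set_option autoImplicit false
open Cfsg

namespace Cfsg.Agent.S4455

open Cfsg.Agent.PF Cfsg.Agent.PF.CH Cfsg.Agent.BG


/-- Fix a prime p and a finite group G. Let s be the sum of χ(1)² over the irreducible characters χ of G whose degree is not divisible by p and whose determinantal order o(χ) is not divisible by p. Then the order of O^p(G), the subgroup generated by the elements of order prime to p, is congruent to s modulo p. -/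
theorem result {G : Type*} [Group G] [Finite G] (p : ℕ) (hp : p.Prime) : (Nat.card (Cfsg.pResidual p G) : ℤ) ≡ (∑ᶠ χ ∈ {χ : Cfsg.IrrCharacter G | ¬ p ∣ Cfsg.charDegree (χ : G → ℂ) ∧ ¬ p ∣ Cfsg.detOrder (χ : G → ℂ)}, (Cfsg.charDegree (χ : G → ℂ) : ℤ) ^ 2) [ZMOD p] := by
  classical
  rw [← ZMod.intCast_eq_intCast_iff, Int.cast_natCast, card_pRes_modEq hp,
    finsum_mem_eq_finite_toFinset_sum _ (Set.toFinite _), Int.cast_sum]
  symm
  refine Finset.sum_nbij (fun χ => χ.1) (fun χ hχ => ?_) (fun a _ b _ e => Subtype.ext e)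
    (fun χ hχ => ?_) fun χ _ => by push_cast; rfl
  · exact Finset.mem_filter.2 ⟨mem_Irr_top.2 χ.2, by have := (Set.Finite.mem_toFinset _).1 hχ; exact this⟩
  · obtain ⟨h1, h2⟩ := Finset.mem_filter.1 hχ
    exact ⟨⟨χ, mem_Irr_top.1 h1⟩, Finset.mem_coe.2 ((Set.Finite.mem_toFinset _).2 h2), rfl⟩

end Cfsg.Agent.S4455
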