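import Cfsg.Statements.S4457
import Cfsg.Agent.Isa.I4

set_option autoImplicit false
open Cfsg

namespace Cfsg.Agent.S4457

open Cfsg.Agent.PF Cfsg.Agent.PF.CH Cfsg.Agent.BG


/-- Let G be a finite group whose irreducible character degrees are exactly 1 and m (m ≠ 1). Then either G has an abelian normal subgroup of index m, or m is a power of a prime p and G is the direct product of a p-group and an abelian group: there are normal subgroups P and A with P a p-group, A abelian, P ⊓ A = 1 and P ⊔ A = G. -/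
theorem result {G : Type*} [Group G] [Finite G] (m : ℕ) (hcd : ∀ χ : Cfsg.IrrCharacter G, Cfsg.charDegree (χ : G → ℂ) = 1 ∨ Cfsg.charDegree (χ : G → ℂ) = m) (hm : ∃ χ : Cfsg.IrrCharacter G, Cfsg.charDegree (χ : G → ℂ) = m) (hm1 : m ≠ 1) : (∃ A : Subgroup G, A.Normal ∧ (∀ a ∈ A, ∀ b ∈ A, a * b = b * a) ∧ A.index = m) ∨ ∃ p e : ℕ, p.Prime ∧ m = p ^ e ∧ ∃ P A : Subgroup G, P.Normal ∧ A.Normal ∧ IsPGroup p P ∧ (∀ a ∈ A, ∀ b ∈ A, a * b = b * a) ∧ P ⊓ A = ⊥ ∧ P ⊔ A = ⊤ := by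
  have h : CD2 (⊤ : Subgroup G) m := fun χ hχ => hcd ⟨χ, mem_Irr_top.1 hχ⟩
  rcases h.dich with hn | ⟨A, h1, h2, h3⟩
  · obtain ⟨χ, rfl⟩ := hm
    obtain ⟨p, hp, h1, h2⟩ := h.nil hn fun e => hm1 (deg_eq_of (by
      simpa using Irr_apply_one_of_comm (mem_Irr_top.2 χ.2) e))
    obtain ⟨e, h3⟩ := (p_natP hp).1 h1
    have := Fact.mk hp
    have h4 := nilpotent_pcoreC {p} hn
    exact .inr ⟨p, e, hp, h3, _, _, h4.normall.normal, h4.normalr.normal, Op_pgroup p _,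
      fun a ha b hb => IsMulCommutative.comm h2 ha hb, h4.inf, h4.sup⟩
  · exact .inl ⟨A, h1.normal, fun a ha b hb => IsMulCommutative.comm h2 ha hb, by simpa using h3⟩

end Cfsg.Agent.S4457
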