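import Cfsg.Statements.S4459
import Cfsg.Agent.Isa.I5

set_option autoImplicit false
open Cfsg

namespace Cfsg.Agent.S4459

open Cfsg.Agent.PF Cfsg.Agent.PF.CH Cfsg.Agent.BG


/-- Let G be a non-abelian finite group and p a prime. Then the irreducible character degrees of G are exactly 1 and p if and only if either G has an abelian normal subgroup of index p or the centre of G has index p³. -/
theorem result {G : Type*} [Group G] [Finite G] (hG : ∃ a b : G, a * b ≠ b * a) (p : ℕ) (hp : p.Prime) : ((∀ χ : Cfsg.IrrCharacter G, Cfsg.charDegree (χ : G → ℂ) = 1 ∨ Cfsg.charDegree (χ : G → ℂ) = p) ∧ ∃ χ : Cfsg.IrrCharacter G, Cfsg.charDegree (χ : G → ℂ) = p) ↔ ((∃ A : Subgroup G, A.Normal ∧ (∀ a ∈ A, ∀ b ∈ A, a * b = b * a) ∧ A.index = p) ∨ (Subgroup.center G).index = p ^ 3) := by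
  have hG' : ¬ IsMulCommutative (⊤ : Subgroup G) := fun h => by
    obtain ⟨a, b, h1⟩ := hG; exact h1 (IsMulCommutative.comm h trivial trivial)
  refine ⟨fun h => ?_, fun h => ?_⟩
  · refine (CD2.prime (fun χ hχ => h.1 ⟨χ, mem_Irr_top.1 hχ⟩) hp hG').imp (fun ⟨A, h1, h2, h3⟩ =>
      ⟨A, h1.normal, fun a ha b hb => IsMulCommutative.comm h2 ha hb, by simpa using h3⟩) fun h1 => ?_
    rwa [center_top, Subgroup.relIndex_top_right] at h1
  have key : CD2 (⊤ : Subgroup G) p := fun χ hχ => by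
    rcases h with ⟨A, h1, h2, h3⟩ | h
    · exact (Nat.dvd_prime hp).1 (h3 ▸ CharDeep.charDegree_dvd_index_of_abelian A h2 (mem_Irr_top.1 hχ))
    · have h1 := (commG1.2 (center_cent (⊤ : Subgroup G))).le.trans (bot_le (a := cfker χ))
      have h2 := dvd_irr1_index_center hχ le_top h1
      have h3 := Irr_deg_sq_le_relIndex hχ le_top h1
      rw [center_top, Subgroup.relIndex_top_right, h] at h2 h3
      obtain ⟨i, -, h4⟩ := (Nat.dvd_prime_pow hp).1 h2
      rw [h4, ← pow_mul, Nat.pow_le_pow_iff_right hp.one_lt] at h3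
      obtain rfl | rfl : i = 0 ∨ i = 1 := by omega
      all_goals simp [h4]
  obtain ⟨χ, h1, h2, -⟩ := key.exists_deg hG'
  exact ⟨fun χ => key _ (mem_Irr_top.2 χ.2), ⟨χ, mem_Irr_top.1 h1⟩, h2⟩

end Cfsg.Agent.S4459
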