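import Cfsg.Statements.S4460
import Cfsg.Agent.Isa.I4

set_option autoImplicit false
open Cfsg

namespace Cfsg.Agent.S4460

open Cfsg.Agent.PF Cfsg.Agent.PF.CH Cfsg.Agent.BG


/-- A finite group with exactly three distinct irreducible character degrees is solvable of derived length at most 3: its third derived subgroup is trivial. -/
theorem result {G : Type*} [Group G] [Finite G] (hcd : Nat.card {n : ℕ // ∃ χ : Cfsg.IrrCharacter G, Cfsg.charDegree (χ : G → ℂ) = n} = 3) : derivedSeries G 3 = ⊥ := by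
  obtain ⟨m, n, -, h⟩ := Finset.card_eq_two.1 (show ((cd (⊤ : Subgroup G)).erase 1).card = 2 by
    rw [Finset.card_erase_of_mem (mem_cd.2 ⟨_, one_mem_Irr _, deg_one _⟩), card_cd_top, hcd])
  refine der1_eq_bot.2 (CD3.der (G := ⊤) (m := m) (n := n) fun χ hχ => or_iff_not_imp_left.2 fun h1 => ?_)
  simpa [h] using Finset.mem_erase.2 ⟨h1, mem_cd.2 ⟨χ, hχ, rfl⟩⟩

end Cfsg.Agent.S4460
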