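import Cfsg.Statements.S4464
import Cfsg.Agent.Isa.I3

set_option autoImplicit false
open Cfsg

namespace Cfsg.Agent.S4464

open Cfsg.Agent.PF Cfsg.Agent.PF.CH Cfsg.Agent.BG


/-- Let p be a prime and G a finite group all of whose irreducible character degrees are less than p. Then G has a normal abelian Sylow p-subgroup. -/
theorem result {G : Type*} [Group G] [Finite G] (p : ℕ) (hp : p.Prime) (hb : ∀ χ : Cfsg.IrrCharacter G, Cfsg.charDegree (χ : G → ℂ) < p) : ∃ P : Subgroup G, P.Normal ∧ (∀ x ∈ P, ∀ y ∈ P, x * y = y * x) ∧ IsPGroup p P ∧ ¬ p ∣ P.index := by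
  have := Fact.mk hp
  obtain ⟨P, hP⟩ := Sylow_exists p (⊤ : Subgroup G)
  have h : ∀ χ ∈ Irr (⊤ : Subgroup G), deg χ < p := fun χ hχ => hb ⟨χ, mem_Irr_top.1 hχ⟩
  refine ⟨P, NormalIn.normal ⟨le_top, sylow_normal_of_deg h hP⟩, fun x hx y hy => IsMulCommutative.comm
    (abelian_of_not_dvd hP.pi fun χ hχ h1 => ?_) hx hy, hP.pg,
    Subgroup.relIndex_top_right (H := P) ▸ hP.not_dvd⟩
  obtain ⟨ψ, h2, h3⟩ := exists_deg_ge le_top hχ
  exact (Nat.le_of_dvd (Irr_deg_pos hχ) h1).not_gt (h3.trans_lt (h ψ h2))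

end Cfsg.Agent.S4464
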