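import Cfsg.Statements.S4467
import Cfsg.Agent.Isa.K1

set_option autoImplicit false
open Cfsg

namespace Cfsg.Agent.S4467

open Cfsg.Agent.PF Cfsg.Agent.PF.CH Cfsg.Agent.BG

open scoped Cfsg.Agent.BG _root_.Classical commutatorElement

/-- Let the finite solvable group G have a faithful irreducible character of degree n, and suppose that for the prime p a Sylow p-subgroup of G is not normal. Then n is divisible by a prime power q > 1 with q congruent to −1, 0 or 1 modulo p. -/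
theorem result {G : Type*} [Group G] [Finite G] (χ : Cfsg.IrrCharacter G) (hfaith : ∀ g : G, (χ : G → ℂ) g = (χ : G → ℂ) 1 → g = 1) (n : ℕ) (hn : Cfsg.charDegree (χ : G → ℂ) = n) (hsolv : Group.IsSolvable G) (p : ℕ) (hp : p.Prime) (P : Sylow p G) (hP : ¬ (P : Subgroup G).Normal) : ∃ q : ℕ, IsPrimePow q ∧ q ∣ n ∧ ((q : ℤ) ≡ -1 [ZMOD p] ∨ (q : ℤ) ≡ 0 [ZMOD p] ∨ (q : ℤ) ≡ 1 [ZMOD p]) := by
  have := Fact.mk hp
  have h1 := mem_Irr_top.2 χ.2
  exact by_contra fun e => not_nsy P hP (winter _ rfl (solvable_of ⊤) (Irr_isChar h1) (fun g _ => hfaith g)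
    fun θ a1 a2 => Irr_eq_of_dot_ne_zero h1 a1 a2 ▸ fun e' => e (hn ▸ e'))

end Cfsg.Agent.S4467
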