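import Cfsg.Statements.S4468
import Cfsg.Agent.Isa.K1

set_option autoImplicit false
open Cfsg

namespace Cfsg.Agent.S4468

open Cfsg.Agent.PF Cfsg.Agent.PF.CH Cfsg.Agent.BG

open scoped Cfsg.Agent.BG _root_.Classical commutatorElement

/-- Let the finite p-solvable group G have a faithful character χ of degree n ≤ p − 1 and suppose that a Sylow p-subgroup of G is not normal. Then n = p − 1, n is a power of 2, and χ is irreducible. -/
theorem result {G : Type*} [Group G] [Finite G] (χ : G → ℂ) (hχ : Cfsg.IsCharacter G χ) (hfaith : ∀ g : G, χ g = χ 1 → g = 1) (n : ℕ) (hn : Cfsg.charDegree χ = n) (p : ℕ) (hp : p.Prime) (hsolv : Cfsg.IsPSolvable p G) (hnp : n + 1 ≤ p) (P : Sylow p G) (hP : ¬ (P : Subgroup G).Normal) : n + 1 = p ∧ (∃ k : ℕ, n = 2 ^ k) ∧ Cfsg.IsIrrCharacter G χ := by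
  have := Fact.mk hp
  have h1 := isChar_top.2 hχ
  obtain ⟨H, h2, h3⟩ : ∃ H : Subgroup G, Group.IsSolvable H ∧ ¬ SylowIn p (Op p H) H :=
    by_contra fun e => not_nsy P hP (nsy_of_sol hsolv (by simpa using e))
  have h4 := h1.res (le_top : H ≤ ⊤)
  obtain ⟨θ, a1, a2, q, a3, a4, a5⟩ : ∃ θ ∈ Irr H, dot H (Res H χ) θ ≠ 0 ∧ WGood p (deg θ) := by_contra fun e =>
    h3 (winter _ rfl h2 h4 (fun g hg e => hfaith g (by simpa [Res_of_mem χ hg] using e)) (by simpa using e))
  have a6 := h4.deg_le_of_dot_ne_zero a1 a2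
  have a7 := Nat.le_of_dvd (Irr_deg_pos a1) a4
  have a8 := a3.one_lt
  rw [deg_Res, show deg χ = n from hn] at a6
  have a9 : q + 1 = p := by
    rcases a5 with e | e | e
    · exact (Nat.le_of_dvd q.succ_pos (Int.natCast_dvd_natCast.1 (by simpa using e.symm.dvd))).antisymm' (by omega)
    · have := Nat.le_of_dvd (by omega) (Int.natCast_dvd_natCast.1 (Int.modEq_zero_iff_dvd.1 e))
      omega
    · have := Nat.le_of_dvd (by omega) ((Nat.modEq_iff_dvd' a8.le).1 (Int.natCast_modEq_iff.1 e).symm)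
      omega
  obtain ⟨r, k, b1, b2, rfl⟩ := (isPrimePow_nat_iff q).1 a3
  refine ⟨by omega, ⟨k, ?_⟩, mem_Irr_top.1 (Irr_of_Res le_top h1 (h4.eq_of_dot_ne_zero_of_deg_le a1 a2
    (by rw [deg_Res, show deg χ = n from hn]; omega) ▸ a1))⟩
  rw [(Nat.prime_dvd_prime_iff_eq Nat.prime_two b1).1 (Nat.prime_two.dvd_of_dvd_pow (n := k) (by
    have := hp.eq_two_or_odd; omega))]
  omega

end Cfsg.Agent.S4468
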