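import Cfsg.Statements.S4469
import Cfsg.Agent.CH.Lin
import Cfsg.Agent.CH.Jordan

set_option autoImplicit false
open Cfsg

namespace Cfsg.Agent.S4469

open Cfsg.Agent.BG Cfsg.Agent.Char

/-- The classical bound for finite linear groups, in explicit form. Let the finite group G have a faithful character of degree n. Then G has an abelian normal subgroup whose index is at most n! · 12^(n·(π(n+1)+1)), π(k) denoting the number of primes not exceeding k. -/
theorem result {G : Type*} [Group G] [Finite G] (χ : G → ℂ) (hχ : Cfsg.IsCharacter G χ) (hfaith : ∀ g : G, χ g = χ 1 → g = 1) (n : ℕ) (hn : Cfsg.charDegree χ = n) : ∃ A : Subgroup G, A.Normal ∧ (∀ x ∈ A, ∀ y ∈ A, x * y = y * x) ∧ A.index ≤ Nat.factorial n * 12 ^ (n * (Nat.primeCounting (n + 1) + 1)) := by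
  classical
  subst hn
  set n := charDegree χ
  obtain ⟨A, hA, hab, h12⟩ := CH.exists_abelian_normal hχ hfaith
  refine ⟨A, hA, hab, ?_⟩
  have key : ∀ D : Subgroup G, A.index ∣ A.relIndex D * D.index := fun D => by
    rw [← Subgroup.inf_relIndex_right, Subgroup.relIndex_mul_index inf_le_right]
    exact Subgroup.index_dvd_of_le inf_le_left
  have h0 : A.index ≠ 0 := Subgroup.index_ne_zero_of_finite
  set π : Set ℕ := {r | n + 1 < r} with hπ
  have h1 : partn π A.index ≤ 12 ^ n := by
    obtain ⟨H, hH⟩ := CH.exists_hall hχ hfaith ⊤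
    refine le_trans (Nat.le_of_dvd (relIndex_pos A H) ((partn_pnat _ _).dvd_of_dvd_mul
      (b := H.index) (by simpa using hH.idx) ((partn_dvd_self _ _).trans (key H))))
      (h12 H (CH.comm_of_lt hχ hfaith H fun r hr hd =>
        lt_trans (Nat.lt_succ_self _) (hH.pi r hr hd)))
  have h2 : ∀ p, p.Prime → p ^ A.index.factorization p ≤
      12 ^ n * p ^ n.factorial.factorization p := fun p hp => by
    haveI := Fact.mk hp
    obtain ⟨P⟩ : Nonempty (Sylow p G) := inferInstance
    haveI := P.2.isNilpotent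
    obtain ⟨D, -, d1, d2⟩ := CH.exists_diag (hχ.restrict P)
    obtain ⟨k, hk⟩ := P.2.index D
    have d3 : D.index ≤ p ^ n.factorial.factorization p := hk ▸ Nat.pow_le_pow_right hp.pos
      ((hp.pow_dvd_iff_le_factorization (Nat.factorial_ne_zero _)).1 (hk ▸ d1))
    have d4 := h12 (D.map (P : Subgroup G).subtype) (by
      rintro _ ⟨x, hx, rfl⟩ _ ⟨y, hy, rfl⟩
      exact commutatorElement_eq_one_iff_mul_comm.1 (hfaith _
        ((hχ.restrict P).mem_charKer.1 (d2 (Subgroup.commutator_mem_commutator hx hy)))))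
    have d5 := (Nat.ordProj_dvd _ p).trans (key (D.map (P : Subgroup G).subtype))
    rw [Subgroup.index_map_subtype, ← mul_assoc] at d5
    exact (Nat.le_of_dvd (Nat.mul_pos (relIndex_pos _ _) (hk ▸ pow_pos hp.pos k))
      (((hp.coprime_iff_not_dvd.2 P.not_dvd_index).pow_left _).dvd_of_dvd_mul_right d5)).trans
      (Nat.mul_le_mul d4 d3)
  have h3 : partn πᶜ A.index ≤ 12 ^ (n * Nat.primeCounting (n + 1)) * n.factorial := by
    calc partn πᶜ A.index ≤ ∏ p ∈ (n + 2).primesBelow, p ^ A.index.factorization p := by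
          refine Finset.prod_le_prod_of_subset_of_one_le' (fun p hp => ?_) fun p hp _ =>
            Nat.one_le_pow _ _ (Nat.prime_of_mem_primesBelow hp).pos
          simp only [Finset.mem_filter, Nat.mem_primeFactors, hπ, Set.mem_compl_iff,
            Set.mem_ofPred_eq, not_lt] at hp
          exact Nat.mem_primesBelow.2 ⟨by omega, hp.1.1⟩
      _ ≤ ∏ p ∈ (n + 2).primesBelow, 12 ^ n * p ^ n.factorial.factorization p :=
          Finset.prod_le_prod' fun p hp => h2 p (Nat.prime_of_mem_primesBelow hp)
      _ ≤ _ := by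
          rw [Finset.prod_mul_distrib, Finset.prod_const, Nat.primesBelow_card_eq_primeCounting',
            ← pow_mul]
          refine Nat.mul_le_mul_left _ (Nat.le_of_dvd (Nat.factorial_pos n) ?_)
          refine Finset.prod_dvd_of_isRelPrime (fun p hp q hq hpq => ?_) fun p _ => Nat.ordProj_dvd _ _
          exact Nat.coprime_iff_isRelPrime.1 (Nat.coprime_pow_primes _ _
            (Nat.prime_of_mem_primesBelow hp) (Nat.prime_of_mem_primesBelow hq) hpq)
  rw [← partnC π h0, mul_add, mul_one, pow_add]
  nlinarith [Nat.mul_le_mul h1 h3]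

end Cfsg.Agent.S4469
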