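import Cfsg.Statements.S4471
import Mathlib
import Cfsg.Agent.CH.Jordan
import Cfsg.Agent.CH.Lin
import Cfsg.Agent.CharDeep.MGroup
import Cfsg.Agent.Loc.Syl
import Cfsg.Agent.Loc.PGrp

set_option autoImplicit false
open Cfsg

namespace Cfsg.Agent.S4471
open Subgroup Cfsg.Agent.Char Cfsg.Agent.CharDeep Cfsg.Agent.CH
open scoped Matrix.Norms.L2Operator MatrixOrder ComplexOrder commutatorElement

theorem comm2 {G A : Type*} [Group G] [Finite G] [CStarAlgebra A] (U : G →* A)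
    (hU : ∀ g, U g ∈ unitary A) (hi : Function.Injective U) {a b : G} {c : ℂ}
    (ha : ‖U a - algebraMap ℂ A c‖ < 1 / 2) (hb : ∃ c : ℂ, ‖U b - algebraMap ℂ A c‖ < 1 / 2) :
    a * b = b * a := by
  by_contra h
  obtain ⟨b, ⟨⟨d, hb⟩, h⟩, hmin⟩ := Set.exists_min_image
    {b | (∃ c : ℂ, ‖U b - algebraMap ℂ A c‖ < 1 / 2) ∧ a * b ≠ b * a}
    (fun b => ‖U b - 1‖) (Set.toFinite _) ⟨b, hb, h⟩
  have h0 : 0 < ‖U b - 1‖ := norm_pos_iff.2 fun e => h (by
    rw [hi ((sub_eq_zero.1 e).trans (map_one U).symm), mul_one, one_mul])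
  have h1 : ‖U (a * b * a⁻¹ * b⁻¹) - 1‖ < ‖U b - 1‖ :=
    (norm_comm_le U hU a b c).trans_lt (by nlinarith)
  have h5 : ‖U (a * b * a⁻¹ * b⁻¹) - algebraMap ℂ A 1‖ < 1 / 2 := by
    rw [map_one, norm_comm_eq U hU, show U a * U b - U b * U a =
      (U a - algebraMap ℂ A c) * (U b - algebraMap ℂ A d) -
        (U b - algebraMap ℂ A d) * (U a - algebraMap ℂ A c) by
      simp only [sub_mul, mul_sub, Algebra.commutes c (U b), Algebra.commutes d (U a),
        Algebra.commutes c (algebraMap ℂ A d)]; abel]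
    refine (norm_sub_le _ _).trans_lt ?_
    nlinarith [norm_mul_le (U a - algebraMap ℂ A c) (U b - algebraMap ℂ A d),
      norm_mul_le (U b - algebraMap ℂ A d) (U a - algebraMap ℂ A c),
      norm_nonneg (U a - algebraMap ℂ A c), norm_nonneg (U b - algebraMap ℂ A d)]
  have h2 : a * (a * b * a⁻¹ * b⁻¹) = a * b * a⁻¹ * b⁻¹ * a := by_contra fun h' =>
    (hmin _ ⟨⟨1, h5⟩, h'⟩).not_gt h1
  have h3 : Commute a (b * a⁻¹ * b⁻¹) := mul_left_cancel (a := a) (by
    simpa only [mul_assoc] using h2)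
  have h4 := eq_one_of_norm_lt U (e := a * b * a⁻¹ * b⁻¹) fun z hz => by
    obtain ⟨k, rfl⟩ := mem_powers_iff_mem_zpowers.2 hz
    have : (a * b * a⁻¹ * b⁻¹) ^ k = a ^ k * b * (a ^ k)⁻¹ * b⁻¹ := by
      rw [mul_assoc a, mul_assoc a, h3.mul_pow, conj_pow, inv_pow]; simp only [mul_assoc]
    simp only [this]
    linarith [norm_comm_le' U hU (a ^ k) b d]
  exact h (by rw [← mul_inv_eq_one, mul_inv_rev, ← mul_assoc, hi (h4.trans (map_one U).symm)])

theorem norm_lt {n : ℕ} {ι : Type*} [Fintype ι] {T : Matrix (Fin n) (Fin n) ℂ}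
    (hT : T ∈ unitary _) (b : Module.Basis ι ℂ (Fin n → ℂ)) (ζ : ι → ℂ)
    (h : ∀ i, Matrix.toLin' T (b i) = ζ i • b i) {r : ℝ} (hr : 0 < r) (c : ℂ) (h' : ∀ i, ‖ζ i - c‖ < r) :
    ‖T - algebraMap ℂ _ c‖ < r := by
  rcases subsingleton_or_nontrivial (Matrix (Fin n) (Fin n) ℂ) with _ | _
  · simpa [Subsingleton.elim (T - algebraMap ℂ _ c) 0] using hr
  rw [Algebra.algebraMap_eq_smul_one]
  have : IsStarNormal (T - c • 1) := ⟨by
    simp only [commute_iff_eq, star_sub, star_smul, star_one, sub_mul, mul_sub, hT.1, hT.2, one_mul, mul_one,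
      smul_mul_assoc, mul_smul_comm, smul_sub, smul_smul, mul_comm c]
    abel⟩
  obtain ⟨k, hk, e⟩ := spectrum.exists_nnnorm_eq_spectralRadius (T - c • 1)
  rw [IsStarNormal.spectralRadius_eq_nnnorm, ENNReal.coe_inj] at e
  rw [← coe_nnnorm, ← e, coe_nnnorm]
  rw [← Matrix.spectrum_toLin', ← Module.End.hasEigenvalue_iff_mem_spectrum] at hk
  obtain ⟨v, hv⟩ := hk.exists_hasEigenvector
  obtain ⟨i, hi⟩ : ∃ i, b.repr v i ≠ 0 := by
    by_contra! h0
    exact hv.2 (b.repr.injective (by ext i; simp [h0]))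
  have h1 : ∀ v, b.coord i (Matrix.toLin' (T - c • 1) v) = (ζ i - c) * b.coord i v :=
    fun v => LinearMap.congr_fun (f := b.coord i ∘ₗ Matrix.toLin' (T - c • 1))
      (g := (ζ i - c) • b.coord i) (b.ext fun j => by
        by_cases e : j = i <;> simp [h, e, Finsupp.single_apply]) v
  have h2 := h1 v
  rw [hv.apply_eq_smul, map_smul, smul_eq_mul] at h2
  rw [mul_right_cancel₀ hi h2]
  exact h' i

theorem inf_center {P : Type*} [Group P] [Finite P] {p : ℕ} [hp : Fact p.Prime] (hP : IsPGroup p P)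
    {N : Subgroup P} [N.Normal] (h : N ≠ ⊥) : N ⊓ center P ≠ ⊥ := by
  obtain ⟨k, hk⟩ := (hP.to_subgroup N).exists_card_eq
  have h1 : p ∣ Nat.card N := by
    rcases k with _ | k
    · exact absurd (card_eq_one.1 (by simpa using hk)) h
    · exact hk ▸ dvd_pow_self p k.succ_ne_zero
  obtain ⟨b, hb, b1⟩ := (hP.of_equiv ConjAct.toConjAct).exists_fixed_point_of_prime_dvd_card_of_fixed_point
    (α := N) h1 (a := 1) fun g => smul_one g
  refine fun e => b1 (Subtype.ext (mem_bot.1 (e ▸ (⟨b.2, mem_center_iff.2 fun g => ?_⟩ : b.1 ∈ N ⊓ center P))).symm)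
  exact mul_inv_eq_iff_eq_mul.1 (Subtype.ext_iff.1 (hb (ConjAct.toConjAct g)))

theorem elt {P : Type*} [Group P] [Finite P] {p n : ℕ} [hp : Fact p.Prime] (hP : IsPGroup p P) {χ : P → ℂ}
    (hχ : IsCharacter P χ) (hf : ∀ g, χ g = χ 1 → g = 1) (hn : χ 1 = n) (h2 : n < 2 * p)
    (hna : commutator P ≠ ⊥) : ∃ z : P, ∀ j : ℤ,
      χ (z ^ j) = p * Complex.exp (2 * Real.pi * Complex.I / p) ^ j + (n - p) := by
  have := Fintype.ofFinite P
  obtain ⟨φ, h1, h3, h4⟩ : ∃ φ, IsIrrCharacter P φ ∧ classInner χ φ ≠ 0 ∧ φ 1 ≠ 1 := by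
    by_contra h; push Not at h
    refine hna ((eq_bot_iff_forall _).2 fun g hg => hf g (apply_eq_of_constituents hχ fun φ h1 h2 => ?_))
    obtain ⟨l, rfl⟩ := h1.isCharacter.exists_hom_of_apply_one (h φ h1 h2)
    simp [show l g = 1 from Abelianization.commutator_subset_ker l hg]
  obtain ⟨ρ, h5, rfl⟩ := hχ.exists_add_of_classInner_ne_zero h1 h3
  obtain ⟨k, hk⟩ := hP.exists_card_eq
  obtain ⟨i, -, hi⟩ := (Nat.dvd_prime_pow hp.out).1 (hk ▸ h1.charDegree_dvd_card)
  have e1 := h1.apply_one_eq_charDegree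
  have e2 := h5.apply_one_eq_charDegree
  have e3 : charDegree φ + charDegree ρ = n := by
    rw [Pi.add_apply, e1, e2] at hn; exact_mod_cast hn
  have p1 := hp.out.two_le
  have e4 : charDegree φ = p := by
    rcases i with _ | _ | i
    · exact absurd (by rw [e1, hi]; simp) h4
    · simpa using hi
    · have : p * p ≤ p ^ (i + 2) := by rw [← sq]; exact Nat.pow_le_pow_right hp.out.pos (by omega)
      nlinarith
  have h6 := h5.commutator_le_charKer_of_lt fun q hq h => by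
    rw [(Nat.prime_dvd_prime_iff_eq hq hp.out).1 (hq.dvd_of_dvd_pow (hk ▸ h))]; omega
  obtain ⟨y, hy, y1⟩ := (bot_or_exists_ne_one _).resolve_left (inf_center hP hna)
  obtain ⟨z, hz, oz⟩ : ∃ z ∈ commutator P ⊓ center P, orderOf z = p := by
    obtain ⟨j, hj⟩ := hP.exists_orderOf_eq_pow y
    rcases j with _ | j
    · exact absurd (orderOf_eq_one_iff.1 hj) y1
    exact ⟨y ^ p ^ j, pow_mem hy _, by
      rw [orderOf_pow_of_dvd (by positivity) (hj ▸ pow_dvd_pow p j.le_succ), hj, pow_succ',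
        Nat.mul_div_cancel _ (by positivity)]⟩
  obtain ⟨l, hl⟩ := h1.exists_hom_of_le_center _ le_rfl
  have v : ∀ w : center P, (w : P) ∈ commutator P → (φ + ρ) w = p * l w + (n - p) := fun w hw => by
    have := hl w 1
    rw [mul_one] at this
    rw [Pi.add_apply, this, h5.mem_charKer.1 (h6 hw), e1, e2, ← e3, e4]; push_cast; ring
  have prim : IsPrimitiveRoot (l ⟨z, hz.2⟩ : ℂ) p := by
    have h7 : (l ⟨z, hz.2⟩ : ℂ) ^ p = 1 := by
      rw [← Units.val_pow_eq_pow_val, ← map_pow, show (⟨z, hz.2⟩ : center P) ^ p = 1 from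
        Subtype.ext (oz ▸ pow_orderOf_eq_one z)]; simp
    rw [← orderOf_eq_prime h7 fun e => ?_]
    · exact IsPrimitiveRoot.orderOf _
    · have := hf z (by rw [v ⟨z, hz.2⟩ hz.1, e, hn]; ring)
      rw [this, orderOf_one] at oz; omega
  obtain ⟨t, -, ht⟩ := prim.eq_pow_of_pow_eq_one (Complex.isPrimitiveRoot_exp p hp.out.ne_zero).pow_eq_one
  refine ⟨z ^ t, fun j => ?_⟩
  have := v ((⟨z, hz.2⟩ ^ t) ^ j) ((commutator P).zpow_mem ((commutator P).pow_mem hz.1 t) j)
  rw [map_zpow, map_pow, Units.val_zpow_eq_zpow_val, Units.val_pow_eq_pow_val, ht] at this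
  exact this

theorem part1 {G : Type*} [Group G] [Finite G] {χ : G → ℂ} (hχ : IsIrrCharacter G χ)
    (hf : ∀ g, χ g = χ 1 → g = 1) {n p : ℕ} (hn : χ 1 = n) (hp : p.Prime) (h7 : 7 ≤ p) (h2 : n < 2 * p)
    (hnp : n ≠ p) {z : G}
    (hz : ∀ j : ℤ, χ (z ^ j) = p * Complex.exp (2 * Real.pi * Complex.I / p) ^ j + (n - p)) :
    ¬ p ^ 2 ∣ (pCore p G).index := by
  classical
  have := Fintype.ofFinite G
  have : Fact p.Prime := ⟨hp⟩
  have prim := Complex.isPrimitiveRoot_exp p hp.ne_zero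
  have nw : ‖(Complex.exp (2 * Real.pi * Complex.I / p) - 1) / 2‖ < 1 / 2 := by
    rw [norm_div, show 2 * Real.pi * Complex.I / p = Complex.I * (2 * Real.pi / p : ℝ) by push_cast; ring,
      Complex.norm_exp_I_mul_ofReal_sub_one]
    have h1 : (7 : ℝ) ≤ p := by exact_mod_cast h7
    have h3 : 0 < 2 * Real.pi / p / 2 := by positivity
    have h4 : 2 * Real.pi / p / 2 < Real.pi / 6 := by
      rw [div_div, div_lt_div_iff₀ (by positivity) (by positivity)]; nlinarith [Real.pi_pos]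
    have h5 := Real.sin_lt_sin_of_lt_of_le_pi_div_two (by linarith [Real.pi_pos]) (by linarith) h4
    have h6 := Real.sin_pos_of_pos_of_lt_pi h3 (by linarith)
    rw [Real.sin_pi_div_six] at h5
    rw [Real.norm_of_nonneg (by positivity)]; norm_num; linarith
  generalize Complex.exp (2 * Real.pi * Complex.I / p) = w at hz prim nw
  obtain ⟨m, U, hU, e⟩ := exists_unitary hχ.isCharacter
  have hi : Function.Injective U := (injective_iff_map_eq_one U).2 fun g h => hf g (by simp [e, h])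
  have w0 := prim.ne_zero hp.ne_zero
  have hzn : ‖U z - algebraMap ℂ _ ((1 + w) / 2)‖ < 1 / 2 := by
    obtain ⟨b, ζ, h1, h3⟩ := exists_eigenbasis_elem (matrixRep U) z
    have h4 : ∀ j : ℤ, ∑ i, ζ i ^ j = p * w ^ j + (n - p) := fun j => by
      rw [← hz, e, ← character_matrixRep, ← trace_eq_sum_of_eigenbasis b _ _ (h3 j)]; rfl
    have n1 : ∀ i, ‖ζ i‖ = 1 := fun i => norm_eq_one_of_pow_orderOf (h1 i)
    have h5 := (Finset.sum_eq_zero_iff_of_nonneg (s := Finset.univ)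
      (f := fun i => Complex.normSq ((ζ i - 1) * (ζ i - w))) fun i _ => Complex.normSq_nonneg _).1 (by
      rw [← Complex.ofReal_eq_zero, Complex.ofReal_sum, Finset.sum_congr rfl
        (g := fun i => (4 + w + w⁻¹) * ζ i ^ (0 : ℤ) - 2 * (1 + w⁻¹) * ζ i ^ (1 : ℤ) -
          2 * (1 + w) * ζ i ^ (-1 : ℤ) + w⁻¹ * ζ i ^ (2 : ℤ) + w * ζ i ^ (-2 : ℤ)) fun i _ => by
        have z0 : ζ i ≠ 0 := norm_ne_zero_iff.1 (by rw [n1]; exact one_ne_zero)
        rw [← Complex.mul_conj]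
        simp only [map_mul, map_sub, map_one, ← Complex.inv_eq_conj (n1 i),
          ← Complex.inv_eq_conj (prim.norm'_eq_one hp.ne_zero)]
        field_simp; ring]
      simp only [Finset.sum_add_distrib, Finset.sum_sub_distrib, ← Finset.mul_sum, h4]
      field_simp; ring)
    refine norm_lt (hU z) b ζ (fun i => by simpa [matrixRep_apply] using h3 1 i) (by norm_num) _ fun i => ?_
    rcases mul_eq_zero.1 (Complex.normSq_eq_zero.1 (h5 i (Finset.mem_univ i))) with h | h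
    · rwa [sub_eq_zero.1 h, ← norm_neg, show -(1 - (1 + w) / 2) = (w - 1) / 2 by ring]
    · rwa [sub_eq_zero.1 h, show w - (1 + w) / 2 = (w - 1) / 2 by ring]
  let B := normalClosure ({z} : Set G)
  have Bc : ∀ a b : B, a * b = b * a := (isMulCommutative_closure (by
    have : ∀ a ∈ Group.conjugatesOfSet ({z} : Set G), ‖U a - algebraMap ℂ _ ((1 + w) / 2)‖ < 1 / 2 := by
      intro a ha
      obtain ⟨y, rfl, h⟩ := Group.mem_conjugatesOfSet_iff.1 ha
      obtain ⟨g, rfl⟩ := isConj_iff.1 h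
      rwa [show U (g * y * g⁻¹) - algebraMap ℂ _ ((1 + w) / 2) =
        U g * (U y - algebraMap ℂ _ ((1 + w) / 2)) * U g⁻¹ by
          rw [mul_sub, sub_mul, ← Algebra.commutes, mul_assoc _ (U g), ← map_mul, ← map_mul, ← map_mul,
            mul_inv_cancel, map_one, mul_one],
        CStarRing.norm_mul_mem_unitary _ (hU _), CStarRing.norm_mem_unitary_mul _ (hU _)]
    exact fun a ha b hb => comm2 U hU hi (this a ha) ⟨_, this b hb⟩)).is_comm.comm
  have := Fintype.ofFinite B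
  obtain ⟨θ, hθ, h1⟩ := exists_irr_under B hχ
  obtain ⟨c, hc, hc'⟩ := (hχ.isCharacter.restrict B).exists_nat_coeff
  have h3 := apply_one_eq_mul_index B hχ hθ h1
  rw [hc ⟨θ, hθ⟩, hθ.apply_one_of_comm Bc, mul_one, hn] at h3
  set d := c ⟨θ, hθ⟩ with hd
  have h4 : n = d * (inertia B θ).index := by exact_mod_cast h3
  have n0 : n ≠ 0 := by rintro rfl; exact hχ.apply_one_ne_zero (by simpa using hn)
  have d0 : (d : ℂ) ≠ 0 := by exact_mod_cast left_ne_zero_of_mul (h4 ▸ n0)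
  have h5 : ∀ b : B, IsIntegral ℤ (χ b / d) := fun b => by
    have := congrFun hc' b
    simp only [Finset.sum_apply, Pi.smul_apply, smul_eq_mul] at this
    rw [this, Finset.sum_div]
    refine IsIntegral.sum _ fun φ _ => ?_
    by_cases h : c φ = 0
    · simp [h, isIntegral_zero]
    obtain ⟨g, hg⟩ := exists_conjN_eq B hχ hθ φ.2 h1 (by rw [hc]; exact_mod_cast h)
    rw [← hc, ← hg, classInner_res_conjN B hχ.isClassFunction, hc ⟨θ, hθ⟩, mul_div_cancel_left₀ _ d0, hg]
    exact φ.2.isCharacter.isIntegral b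
  have d1 : d = 1 := by
    obtain ⟨t, ht⟩ := exists_int_of_isIntegral_of_rat (IsIntegral.sum (s := Finset.range p) _ fun j _ =>
      h5 (⟨z, subset_normalClosure rfl⟩ ^ j)) (p * (n - p) / d) (by
      have : ∀ j : ℕ, χ (z ^ j) = p * w ^ j + (n - p) := fun j => by simpa using hz j
      simp only [SubmonoidClass.mk_pow, this, ← Finset.sum_div, Finset.sum_add_distrib, ← Finset.mul_sum,
        prim.geom_sum_eq_zero hp.one_lt]
      simp [mul_sub])
    have : ∀ j : ℕ, χ (z ^ j) = p * w ^ j + (n - p) := fun j => by simpa using hz j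
    simp only [SubmonoidClass.mk_pow, this, ← Finset.sum_div, Finset.sum_add_distrib, ← Finset.mul_sum,
      prim.geom_sum_eq_zero hp.one_lt, div_eq_iff d0] at ht
    have h6 : (p : ℤ) * (n - p) = t * d := by
      simp only [mul_zero, zero_add, Finset.sum_const, Finset.card_range, nsmul_eq_mul] at ht
      exact_mod_cast ht
    have h8 : d ∣ p ^ 2 := Int.natCast_dvd_natCast.1 ⟨p * (inertia B θ).index - t, by
      rw [h4] at h6; push_cast at h6 ⊢; linear_combination -h6⟩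
    obtain ⟨i, -, hi⟩ := (Nat.dvd_prime_pow hp).1 h8
    rcases i with _ | i
    · simpa using hi
    obtain ⟨s, hs⟩ : p ∣ n := h4 ▸ hi ▸ (dvd_pow_self p i.succ_ne_zero).mul_right _
    rcases s with _ | _ | s
    · simp [hs] at n0
    · simp [hs] at hnp
    · nlinarith
  set T := inertia B θ with hT
  obtain ⟨ψ, h6, h8, -⟩ := exists_indFun_eq_of_inertia B hθ hT (le_inertia B hθ.isClassFunction) hχ h1
  have h9 := indFun_one T ψ
  rw [h8, hn, h4, d1, one_mul] at h9
  obtain ⟨l, rfl⟩ := h6.isCharacter.exists_hom_of_apply_one (((mul_eq_left₀ (Nat.cast_ne_zero.2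
    index_ne_zero_of_finite)).1 h9.symm))
  set N := T.normalCore with hN
  have NT : N ≤ T := T.normalCore_le
  have Nc : ⁅N, N⁆ = ⊥ := (eq_bot_iff_forall _).2 fun g hg => hf g (h8 ▸ indFun_apply_eq_of_normal T _ ⁅N, N⁆
    ((commutator_le_left N N).trans NT) (fun g hg => by
      have : ⁅N, N⁆ ≤ (l.ker.map T.subtype) := commutator_le.2 fun a ha b hb =>
        ⟨⁅(⟨a, NT ha⟩ : T), ⟨b, NT hb⟩⁆, by
          rw [SetLike.mem_coe, MonoidHom.mem_ker, map_commutatorElement, commutatorElement_eq_one_iff_mul_comm,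
            mul_comm], rfl⟩
      obtain ⟨y, hy, rfl⟩ := this hg
      simp [show l ⟨y, y.2⟩ = 1 from hy]) hg)
  obtain ⟨S⟩ : Nonempty (Sylow p N) := inferInstance
  have : (S : Subgroup N).Normal := ⟨fun a ha g => by
    rw [show g * a = a * g from Subtype.ext (commutatorElement_eq_one_iff_mul_comm.1 (mem_bot.1
      (Nc ▸ commutator_mem_commutator g.2 a.2))), mul_inv_cancel_right]; exact ha⟩
  have := S.characteristic_of_normal this
  intro h
  have a1 := h.trans (index_dvd_of_le (Loc.le_pCore (N := (S : Subgroup N).map N.subtype) inferInstance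
    (S.2.map _)))
  rw [index_map_subtype] at a1
  have a2 := ((hp.coprime_iff_not_dvd.2 S.not_dvd_index).pow_left 2).dvd_of_dvd_mul_left a1
  have a3 : N.index ∣ (T.index).factorial := by
    rw [hN, normalCore_eq_ker, index_ker, index, ← Nat.card_perm]; exact card_subgroup_dvd_card _
  have a4 := (hp.pow_dvd_iff_le_factorization (Nat.factorial_ne_zero _)).1
    ((a2.trans a3).trans (Nat.factorial_dvd_factorial (show T.index ≤ 2 * p - 1 by rw [d1] at h4; omega)))
  rw [Nat.factorization_factorial hp (b := 2) (Nat.log_lt_of_lt_pow (by omega) (by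
    rw [sq]; exact lt_of_lt_of_le (by omega) (Nat.mul_le_mul_right p hp.two_le)))] at a4
  simp only [Nat.Ico_succ_singleton, Finset.sum_singleton, pow_one] at a4
  have := (Nat.le_div_iff_mul_le hp.pos).1 a4
  omega

/-- Let p ≥ 7 be a prime and let the finite group G have a faithful irreducible character of degree n with n < 2p and n ≠ p. If the Sylow p-subgroups of G are non-abelian then p² does not divide the index of O_p(G) in G; consequently, in every case G/O_p(G) has abelian Sylow p-subgroups. -/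
theorem result {G : Type*} [Group G] [Finite G] (χ : Cfsg.IrrCharacter G) (hfaith : ∀ g : G, (χ : G → ℂ) g = (χ : G → ℂ) 1 → g = 1) (n : ℕ) (hn : Cfsg.charDegree (χ : G → ℂ) = n) (p : ℕ) (hp : p.Prime) (h7 : 7 ≤ p) (hn2 : n < 2 * p) (hnp : n ≠ p) : ((∃ P : Sylow p G, ∃ x ∈ (P : Subgroup G), ∃ y ∈ (P : Subgroup G), x * y ≠ y * x) → ¬ p ^ 2 ∣ (Cfsg.pCore p G).index) ∧ ∀ Q : Sylow p (G ⧸ Cfsg.pCore p G), ∀ x ∈ (Q : Subgroup (G ⧸ Cfsg.pCore p G)), ∀ y ∈ (Q : Subgroup (G ⧸ Cfsg.pCore p G)), x * y = y * x := by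
  have : Fact p.Prime := ⟨hp⟩
  have e : χ.1 1 = n := hn ▸ χ.2.apply_one_eq_charDegree
  have h1 : (∃ P : Sylow p G, ∃ x ∈ (P : Subgroup G), ∃ y ∈ (P : Subgroup G), x * y ≠ y * x) →
      ¬ p ^ 2 ∣ (Cfsg.pCore p G).index := by
    rintro ⟨P, x, hx, y, hy, h⟩
    obtain ⟨z, hz⟩ := elt P.2 (χ.2.isCharacter.restrict P) (fun g hg => Subtype.ext (hfaith g hg)) e hn2
      fun e => by
        have h1 : ⁅(⟨x, hx⟩ : P), (⟨y, hy⟩ : P)⁆ ∈ commutator P := commutator_mem_commutator (mem_top _) (mem_top _)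
        rw [e, mem_bot, commutatorElement_eq_one_iff_mul_comm] at h1
        exact h (Subtype.ext_iff.1 h1)
    exact part1 χ.2 hfaith e hp h7 hn2 hnp (z := z) hz
  refine ⟨h1, fun Q x hx y hy => ?_⟩
  by_cases h : ∃ P : Sylow p G, ∃ x ∈ (P : Subgroup G), ∃ y ∈ (P : Subgroup G), x * y ≠ y * x
  · obtain ⟨k, hk⟩ := Q.2.exists_card_eq
    have : IsCyclic Q := isCyclic_of_card_dvd_prime (p := p) (by
      rw [hk]
      rcases k with _ | _ | k
      · simp
      · simp
      · exact absurd ((pow_dvd_pow p (by omega)).trans (hk ▸ card_subgroup_dvd_card _)) (h1 h))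
    have h2 : (⟨x, hx⟩ : Q) * ⟨y, hy⟩ = ⟨y, hy⟩ * ⟨x, hx⟩ := IsCyclic.commGroup.mul_comm _ _
    exact Subtype.ext_iff.1 h2
  push Not at h
  obtain ⟨P, rfl⟩ := Sylow.mapSurjective_surjective (QuotientGroup.mk'_surjective (pCore p G)) p Q
  obtain ⟨x, hx, rfl⟩ := hx
  obtain ⟨y, hy, rfl⟩ := hy
  rw [← map_mul, h P x hx y hy, map_mul]

end Cfsg.Agent.S4471
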