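import Cfsg.Statements.S4472
import Mathlib
import Cfsg.Agent.CH.Cyclic
import Cfsg.Agent.Small.Fx
import Cfsg.Agent.PLocal.PSolv
import Cfsg.Agent.Solv.Separable
import Cfsg.Agent.CharDeep.Extend

set_option autoImplicit false
open Cfsg

namespace Cfsg.Agent.S4472
open Subgroup Cfsg.Agent.Char Cfsg.Agent.CharDeep
open scoped Pointwise

theorem eq_of_re {K : Type*} [Group K] [Finite K] {Ψ : K → ℂ} (h : IsCharacter K Ψ) {x : K}
    (e : (Ψ 1).re ≤ (Ψ x).re) : Ψ x = Ψ 1 := by
  have h1 := h.norm_apply_le_re x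
  have h2 := Complex.re_le_norm (Ψ x)
  have h3 := (Complex.re_eq_norm.1 (le_antisymm h2 (h1.trans e))).2
  obtain ⟨d, hd⟩ := h.exists_nat_apply_one
  exact Complex.ext (le_antisymm (h2.trans h1) e) (by rw [← h3, hd]; simp)

theorem val {P : Type*} [Group P] [Finite P] {p : ℕ} [hp : Fact p.Prime] (hP : IsPGroup p P) {Ψ : P → ℂ}
    (h : IsCharacter P Ψ) {d : ℕ} (hd : Ψ 1 = d) {x : P} {a : ℤ} (ha : Ψ x = a) (h1 : Ψ x ≠ Ψ 1) :
    ∃ z ∈ Finset.Icc 1 (d / (p - 1)), Ψ x = d - p * z := by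
  obtain ⟨k, hk⟩ := hP.exists_orderOf_eq_pow x
  obtain ⟨z, hz⟩ := Small.dvd_sub_of_mul h hp.out ⟨k, hk⟩ (Commute.one_right x) (a := a) (b := d)
    (by simpa using ha) (by simpa using hd)
  have p1 := hp.out.one_lt
  have u : a < d := by
    by_contra u
    exact h1 (eq_of_re h (by rw [ha, hd]; simpa using (by exact_mod_cast not_lt.1 u : ((d : ℤ) : ℝ) ≤ a)))
  obtain ⟨k, rfl⟩ : ∃ j, k = j + 1 := ⟨k - 1, by
    rcases k with _ | k
    · exact absurd (congrArg Ψ (orderOf_eq_one_iff.1 hk)) h1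
    · rfl⟩
  have l : -(d : ℤ) ≤ (p - 1) * a := by
    obtain ⟨n, ζ, e1, e2, e3⟩ := h.exists_eigenvalues x
    have s1 : 0 ≤ (∑ e ∈ Finset.range (p ^ (k + 1)), Ψ (x ^ (e + 1))).re := by
      have : ∀ e : ℕ, Ψ (x ^ (e + 1)) = ∑ i, ζ i * ζ i ^ e := fun e => by
        have := e3 (e + 1 : ℕ)
        simp only [zpow_natCast] at this
        rw [this]; simp only [pow_succ']
      simp only [this]
      rw [Finset.sum_comm, Complex.re_sum]
      refine Finset.sum_nonneg fun i _ => ?_
      rw [← Finset.mul_sum]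
      by_cases e : ζ i = 1
      · simp only [e, one_pow, Finset.sum_const, nsmul_one, one_mul, Complex.natCast_re]; positivity
      · rw [geom_sum_eq e, ← hk, e2]; simp
    rw [← Finset.sum_filter_add_sum_filter_not _ (fun e => p ∣ e + 1), Complex.add_re, Complex.re_sum,
      Finset.sum_congr rfl (g := fun _ => (a : ℂ)) fun e he => by
        rw [h.isGeneralizedCharacter.apply_pow_eq_of_rat (q := a) (by simpa using ha) (by
          rw [hk]; exact ((hp.out.coprime_iff_not_dvd.2 (Finset.mem_filter.1 he).2).symm).pow_right _), ha]]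
      at s1
    have s2 := Finset.sum_le_card_nsmul ((Finset.range (p ^ (k + 1))).filter fun e => p ∣ e + 1)
      (fun e => (Ψ (x ^ (e + 1))).re) d fun e _ =>
        (Complex.re_le_norm _).trans ((h.norm_apply_le_re _).trans (by simp [hd]))
    have s3 := Finset.card_filter_add_card_filter_not (s := Finset.range (p ^ (k + 1))) fun e => p ∣ e + 1
    rw [Nat.card_multiples, Finset.card_range, pow_succ, Nat.mul_div_cancel _ hp.out.pos] at s3
    rw [Nat.card_multiples, pow_succ, Nat.mul_div_cancel _ hp.out.pos] at s2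
    rw [pow_succ] at s1
    simp only [Finset.sum_const, nsmul_eq_mul, Complex.mul_re, Complex.natCast_re, Complex.intCast_re,
      Complex.natCast_im, zero_mul, sub_zero] at s1 s2
    have s4 : (0 : ℝ) < (p ^ k : ℕ) := by positivity
    have s5 := congrArg (Nat.cast : ℕ → ℝ) s3
    rw [Nat.cast_add, Nat.cast_mul] at s5
    have : -(d : ℝ) ≤ (p - 1) * a := by
      refine le_of_mul_le_mul_left ?_ s4
      rw [← eq_sub_iff_add_eq'] at s5
      rw [s5] at s1
      nlinarith
    exact_mod_cast this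
  obtain ⟨w, rfl⟩ := Int.eq_ofNat_of_zero_le (show 0 ≤ -z by nlinarith) |>.imp fun w e => neg_eq_iff_eq_neg.1 e
  refine ⟨w, Finset.mem_Icc.2 ⟨?_, (Nat.le_div_iff_mul_le (by omega)).2 ?_⟩, ?_⟩
  · by_contra e
    obtain rfl : w = 0 := by omega
    simp at hz; omega
  · have : (w : ℤ) * (p - 1) ≤ d := by nlinarith
    zify [p1.le]; exact this
  · rw [ha, show a = d - p * w by linarith]; simp

theorem schur {P : Type*} [Group P] [Finite P] {p : ℕ} [hp : Fact p.Prime] (hP : IsPGroup p P) {Ψ : P → ℂ}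
    (h : IsCharacter P Ψ) {d m : ℕ} (hd : Ψ 1 = d) (hm : d / (p - 1) ≤ m) (hr : ∀ x, ∃ a : ℤ, Ψ x = a) :
    (charKer Ψ).index ∣ p ^ m * m.factorial := by
  classical
  have := Fintype.ofFinite P
  have g : ∀ s : Finset ℕ, IsGeneralizedCharacter P fun x => ∏ z ∈ s, (Ψ x - (d - p * z)) := by
    intro s
    induction s using Finset.induction_on with
    | empty => simpa using isCharacter_one.isGeneralizedCharacter
    | insert z s hz ih =>
      simp only [Finset.prod_insert hz]
      have := (h.isGeneralizedCharacter.sub (isCharacter_one.isGeneralizedCharacter.intCast_smul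
        (d - p * z))).mul ih
      convert this using 1
      ext x; simp
  obtain ⟨t, ht⟩ := (g (Finset.Icc 1 m)).exists_int_classInner isCharacter_one.isGeneralizedCharacter
  have e : ∀ x, ∏ z ∈ Finset.Icc 1 m, (Ψ x - (d - p * z)) =
      if x ∈ charKer Ψ then ((p ^ m * m.factorial : ℕ) : ℂ) else 0 := by
    intro x
    split_ifs with hx
    · rw [h.mem_charKer.1 hx, hd, ← Finset.prod_Ico_id_eq_factorial, Finset.Ico_add_one_right_eq_Icc]
      simp [Finset.prod_mul_distrib]
    · obtain ⟨a, ha⟩ := hr x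
      obtain ⟨z, h1, h2⟩ := val hP h hd ha fun e => hx (h.mem_charKer.2 e)
      exact Finset.prod_eq_zero (Finset.Icc_subset_Icc_right hm h1) (by rw [h2, sub_self])
  simp only [classInner, e, map_one, mul_one, ← Finset.sum_filter, Finset.sum_const, nsmul_eq_mul] at ht
  rw [← Fintype.card_subtype, ← Nat.card_eq_fintype_card, ← (charKer Ψ).card_mul_index,
    inv_mul_eq_iff_eq_mul₀ (by
      rw [(charKer Ψ).card_mul_index]; exact Nat.cast_ne_zero.2 Nat.card_pos.ne'), Nat.cast_mul (Nat.card _),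
    mul_assoc] at ht
  have := mul_left_cancel₀ (Nat.cast_ne_zero.2 Nat.card_pos.ne') ht
  exact Int.natCast_dvd_natCast.1 ⟨t, by exact_mod_cast this⟩

theorem key {K : Type*} [Group K] [Fintype K] (L : Subgroup K) [L.Normal]
    (hc : L.index.Coprime (Nat.card L)) {χ : K → ℂ} (hχ : IsIrrCharacter K χ) :
    ∃ (ψ : K → ℂ) (e : ℕ), IsCharacter K ψ ∧ 0 < e ∧ (∀ l ∈ L, χ l = e * ψ l) ∧
      ∀ m : ℕ, m.Coprime (Nat.card K) → (∀ l ∈ L, l ^ m = l) → ∀ g, ψ (g ^ m) = ψ g := by
  classical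
  have := Fintype.ofFinite L
  obtain ⟨θ, hθ, h1⟩ := exists_irr_under L hχ
  have hT := le_inertia L hθ.isClassFunction
  set T := inertia L θ with hT'
  have h2 := isIrr_subOf hT hθ
  have c1 : (L.subgroupOf T).index.Coprime (Nat.card (L.subgroupOf T)) := by
    rw [Nat.card_congr (subgroupOfEquivOfLe hT).toEquiv]
    exact hc.coprime_dvd_left (relIndex_dvd_index_of_le hT)
  have c2 := c1.coprime_dvd_right (PF.CH.detOrder_dvd h2.isCharacter)
  obtain ⟨η, ⟨h3, h4, h5⟩, h6⟩ := exists_extension_of_coprime (L.subgroupOf T) h2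
    (fun g => funext fun n => (mem_inertia' L).1 g.2 ⟨n, n.2⟩) h2.apply_one_eq_charDegree
    (c2.mul_right (c1.coprime_dvd_right h2.charDegree_dvd_card))
  have h7 : (fun n : L => η ⟨n, hT n.2⟩) = θ := funext fun n => h4 ⟨⟨n, hT n.2⟩, n.2⟩
  obtain ⟨h8, h9⟩ := isIrr_indFun_of_inertia L hθ hT' hT h3 (by
    rw [h7, hθ.classInner_self]; exact one_ne_zero)
  rw [h7, hθ.classInner_self] at h9
  obtain ⟨e, he⟩ := (hχ.isCharacter.restrict L).exists_nat_classInner hθ.isCharacter
  refine ⟨_, e, h8.isCharacter, Nat.pos_of_ne_zero (by rintro rfl; exact h1 (by simpa using he)),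
    fun l hl => ?_, fun m hm hl g => ?_⟩
  · have a1 := congrFun (res_eq_smul_sum_conjN L hχ hθ h1) ⟨l, hl⟩
    have a2 := congrFun (res_eq_smul_sum_conjN L h8 hθ (h9 ▸ one_ne_zero)) ⟨l, hl⟩
    rw [a1, a2, he, ← h9]; simp only [Pi.smul_apply, smul_eq_mul]; ring
  · obtain ⟨σ, hσ⟩ := exists_ringEquiv_pow Nat.card_pos.ne' hm
    have a1 := h6 _ (h3.map_ringHom σ).isCharacter (fun n => by
      rw [← h3.isCharacter.apply_pow_eq_map σ hσ (g := n) (Subtype.ext (by simp)), ← h4]
      exact congrArg η (Subtype.ext (hl _ n.2))) (by rwa [PF.CH.detOrder_map h3.isCharacter, h5])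
    rw [h8.isCharacter.apply_pow_eq_map σ hσ pow_card_eq_one']
    simp only [indFun_apply, extendByZero_apply, map_mul, map_sum, map_inv₀, map_natCast,
      apply_dite (σ : ℂ →+* ℂ), map_zero, congrFun a1]

theorem main {K : Type*} [Group K] [Finite K] {p : ℕ} [hp : Fact p.Prime] (L Q : Subgroup K) [hL : L.Normal]
    {b : ℕ} (hb : L.index = p ^ b) (hc : (Nat.card L).Coprime p) (hQ : IsPGroup p Q) {χ : K → ℂ}
    (hχ : IsCharacter K χ) (hf : ∀ g, χ g = χ 1 → g = 1) {n : ℕ} (hn : χ 1 = n) :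
    (centralizer (L : Set K)).relIndex Q ∣ p ^ (n / (p - 1)) * (n / (p - 1)).factorial := by
  classical
  have := Fintype.ofFinite K
  have c1 : L.index.Coprime (Nat.card L) := hb ▸ hc.symm.pow_left b
  obtain ⟨m, -, hm⟩ := hχ.exists_nat_coeff
  choose ψ e h1 h2 h3 h4 using fun φ : IrrCharacter K => key L c1 φ.2
  have h5 : IsCharacter K (∑ φ, (m φ : ℂ) • ψ φ) := isCharacter_sum _ _ fun φ _ => (h1 φ).natCast_smul _
  set Ψ := ∑ φ, (m φ : ℂ) • ψ φ with hΨ
  choose d hd using fun φ => (h1 φ).exists_nat_apply_one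
  have h6 : Ψ 1 = (∑ φ, m φ * d φ : ℕ) := by simp [hΨ, hd]
  have h7 : n = ∑ φ, m φ * (e φ * d φ) := by
    have := congrFun hm 1
    simp only [hn, Finset.sum_apply, Pi.smul_apply, smul_eq_mul, h3 _ 1 (one_mem _), hd] at this
    exact_mod_cast this
  have h8 := schur hQ (h5.restrict Q) h6 (m := n / (p - 1)) (Nat.div_le_div_right (h7 ▸ Finset.sum_le_sum
    fun φ _ => Nat.mul_le_mul_left _ (Nat.le_mul_of_pos_left _ (h2 φ)))) fun x =>
      h5.isGeneralizedCharacter.exists_int_of_forall_pow fun k hk => by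
    obtain ⟨j, hj⟩ := hQ.exists_orderOf_eq_pow x
    rw [← orderOf_coe] at hj
    rcases j with _ | j
    · rw [orderOf_eq_one_iff.1 hj, one_pow]
    have c2 : k.Coprime L.index := hb ▸ ((hj ▸ hk).coprime_dvd_right (dvd_pow_self p j.succ_ne_zero)).pow_right b
    obtain ⟨t, t1, t2⟩ := Nat.chineseRemainder c1 k 1
    have o : orderOf (x : K) ∣ L.index := (hj ▸ hc.symm.pow_left _ : (orderOf (x : K)).Coprime _).dvd_of_dvd_mul_left
      (L.card_mul_index ▸ orderOf_dvd_natCard _)
    rw [← pow_eq_pow_iff_modEq.2 (t1.of_dvd o)]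
    simp only [hΨ, Finset.sum_apply, Pi.smul_apply]
    refine Finset.sum_congr rfl fun φ _ => congrArg _ (h4 φ t ?_ (fun l hl => ?_) _)
    · rw [← L.card_mul_index]
      exact (Nat.coprime_of_mul_modEq_one 1 (by simpa using t2)).mul_right
        (by rw [Nat.Coprime, t1.gcd_eq]; exact c2)
    · exact (pow_eq_pow_iff_modEq.2 (t2.of_dvd (L.orderOf_dvd_natCard hl))).trans (pow_one l)
  refine (index_dvd_of_le fun x hx l hl => ?_).trans h8
  have hx' : (x : K) ∈ charKer Ψ := h5.mem_charKer.2 ((h5.restrict Q).mem_charKer.1 hx)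
  have k1 := h5.mem_charKer.1 (mul_mem (h5.isClassFunction.normal_charKer.conj_mem _ hx' l) (inv_mem hx'))
  have k2 : l * x * l⁻¹ * (x : K)⁻¹ ∈ L := by
    simpa [mul_assoc] using mul_mem hl (hL.conj_mem _ (inv_mem hl) x)
  rw [← mul_inv_eq_one, mul_inv_rev, ← mul_assoc]
  refine hf (l * x * l⁻¹ * (x : K)⁻¹) ?_
  set y := l * x * l⁻¹ * (x : K)⁻¹
  have k3 := (Finset.sum_eq_zero_iff_of_nonneg (s := Finset.univ)
    (f := fun φ => m φ * ((ψ φ 1).re - (ψ φ y).re)) fun φ _ => mul_nonneg (by positivity) (sub_nonneg.2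
      ((Complex.re_le_norm _).trans ((h1 φ).norm_apply_le_re y)))).1 (by
    have := congrArg Complex.re k1
    simp only [hΨ, Finset.sum_apply, Pi.smul_apply, smul_eq_mul, Complex.re_sum, Complex.mul_re,
      Complex.natCast_re, Complex.natCast_im, zero_mul, sub_zero] at this
    simp only [mul_sub, Finset.sum_sub_distrib, this, sub_self])
  rw [hm]
  simp only [Finset.sum_apply, Pi.smul_apply, smul_eq_mul, h3 _ y k2, h3 _ 1 (one_mem _)]
  refine Finset.sum_congr rfl fun φ _ => ?_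
  rcases mul_eq_zero.1 (k3 φ (Finset.mem_univ _)) with k | k
  · simp [show m φ = 0 by exact_mod_cast k]
  · rw [eq_of_re (h1 φ) (sub_eq_zero.1 k).le]

theorem mul_normal' {G : Type*} [Group G] (R L : Subgroup G) [R.Normal] (y : G) (h : y ∈ R ⊔ L) :
    ∃ a ∈ R, ∃ l ∈ L, a * l = y := by
  rwa [← SetLike.mem_coe, normal_mul] at h

/-- Let the finite p-solvable group G have a faithful character of degree n, and let p^a be the index of O_p(G) in a Sylow p-subgroup of G (the p-part of [G : O_p(G)]). Then a ≤ Σ_{i ≥ 0} ⌊n / ((p − 1) p^i)⌋ (a finite sum; the terms vanish for p^i > n). -/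
theorem result {G : Type*} [Group G] [Finite G] (χ : G → ℂ) (hχ : Cfsg.IsCharacter G χ) (hfaith : ∀ g : G, χ g = χ 1 → g = 1) (n : ℕ) (hn : Cfsg.charDegree χ = n) (p : ℕ) (hp : p.Prime) (hsolv : Cfsg.IsPSolvable p G) : ((Cfsg.pCore p G).index).factorization p ≤ ∑ i ∈ Finset.range (n + 1), n / ((p - 1) * p ^ i) := by
  have : Fact p.Prime := ⟨hp⟩
  set R := pCore p G with hR
  have pR : IsPGroup p R := Loc.isPGroup_pCore p G
  have := Loc.pCore_normal' p G
  set O := pPrimeCore p (G ⧸ R) with hO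
  have cO : (Nat.card O).Coprime p := PLocal.coprime_pPrimeCore p _
  obtain ⟨r, hr⟩ := pR.exists_card_eq
  obtain ⟨L, l1, l2, -, l3⟩ := Solv.exists_complement_in (Solv.le_comap_mk' R O)
    (by rw [normalizer_eq_top]; exact le_top) (by rw [Solv.relIndex_comap_mk', hr]; exact cO.symm.pow_left r)
  rw [Solv.relIndex_comap_mk'] at l3
  have c1 : (Nat.card R).Coprime (Nat.card L) := by rw [hr, l3]; exact cO.symm.pow_left r
  set N := normalizer (L : Set G) with hN
  have fr : N ⊔ R = ⊤ := (eq_top_iff' _).2 fun g => by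
    obtain ⟨t, ht, e⟩ := Solv.exists_conj_smul_eq (N := R) (A := MulAut.conj g • L) (B := L)
      (by rw [normalizer_eq_top]; exact le_top) (by
        conv_lhs => rw [← Normal.conj_smul_eq_self g R, ← smul_sup, l2, Normal.conj_smul_eq_self, ← l2])
      (by rwa [Nat.card_congr (equivSMul (MulAut.conj g) L).toEquiv.symm]) c1 
      (.inl (have := pR.isNilpotent; inferInstance))
    rw [smul_smul, ← map_mul] at e
    simpa using mul_mem (mem_sup_right (inv_mem ht)) (mem_sup_left (S := N) (T := R)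
      (mem_normalizer_iff_map_conj_eq.2 e))
  obtain ⟨S⟩ : Nonempty (Sylow p N) := inferInstance
  set Q := (S : Subgroup N).map N.subtype with hQ
  have pQ : IsPGroup p Q := S.2.map _
  have QN : Q ≤ N := map_subtype_le _
  have RQ : R ⊓ N ≤ Q := fun x hx =>
    ⟨⟨x, hx.2⟩, (pR.comap_subtype (K := N)).le_sylow_of_normal S hx.1, rfl⟩
  have : (L.subgroupOf (L ⊔ Q)).Normal := (normal_subgroupOf_iff_le_normalizer le_sup_left).2
    (sup_le le_normalizer QN)
  obtain ⟨b, hb⟩ : ∃ b, (L.subgroupOf (L ⊔ Q)).index = p ^ b := by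
    obtain ⟨q, hq⟩ := pQ.exists_card_eq
    refine ((Nat.dvd_prime_pow hp (m := q)).1 ?_).imp fun _ h => h.2
    rw [← hq, ← relIndex_top_right, ← subgroupOf_self, subgroupOf_sup le_sup_left le_sup_right, relIndex_sup_left,
      relIndex_subgroupOf le_sup_right]
    exact index_dvd_card _
  have h1 := main (L.subgroupOf (L ⊔ Q)) (Q.subgroupOf _) hb (by
    rwa [Nat.card_congr (subgroupOfEquivOfLe le_sup_left).toEquiv, l3]) pQ.comap_subtype (hχ.restrict _)
    (fun g hg => Subtype.ext (hfaith g hg)) (n := n) (by rw [← hn]; exact hχ.apply_one_eq_charDegree)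
  have h2 : (R ⊓ N).relIndex Q ∣ _ := (by
    rw [← relIndex_subgroupOf (le_sup_right : Q ≤ L ⊔ Q)]
    refine index_dvd_of_le fun x hx => ⟨?_, QN x.2⟩
    have h3 : ((x.1.1 : G) : G ⧸ R) ∈ O := PLocal.centralizer_pPrimeCore_le_of_pSolv
      (PLocal.pSolv_quotient hsolv R) (Loc.pCore_quotient_pCore p G) fun y hy => by
      obtain ⟨y, rfl⟩ := QuotientGroup.mk_surjective y
      obtain ⟨a, ha, l, hl, rfl⟩ := (mul_normal' R L y (l2 ▸ hy))
      have : l * x.1.1 = x.1.1 * l := congrArg Subtype.val (hx ⟨l, mem_sup_left hl⟩ hl)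
      rw [QuotientGroup.mk_mul, (QuotientGroup.eq_one_iff a).2 ha, one_mul, ← QuotientGroup.mk_mul, this,
        QuotientGroup.mk_mul]
    obtain ⟨j, hj⟩ := pQ ⟨x.1.1, x.2⟩
    refine (QuotientGroup.eq_one_iff _).1 (orderOf_eq_one_iff.1 (Nat.eq_one_of_dvd_coprimes (cO.pow_right j)
      (O.orderOf_dvd_natCard h3) (orderOf_dvd_of_pow_eq_one ?_)))
    rw [← QuotientGroup.mk_pow]
    exact congrArg (fun t : Q => ((t : G) : G ⧸ R)) hj :
      (R ⊓ N).relIndex Q ∣ (centralizer (L.subgroupOf (L ⊔ Q) : Set (L ⊔ Q : Subgroup G))).relIndex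
        (Q.subgroupOf _)).trans h1
  have h3 : ¬ p ∣ Q.relIndex N := by
    rw [relIndex, hQ, subgroupOf, comap_map_eq_self_of_injective N.subtype_injective]
    exact S.not_dvd_index
  rw [← relIndex_top_right, ← fr, relIndex_sup_right, ← inf_relIndex_right,
    ← relIndex_mul_relIndex _ Q N RQ QN, Nat.factorization_mul (by exact index_ne_zero_of_finite)
    (by exact index_ne_zero_of_finite), Finsupp.add_apply, Nat.factorization_eq_zero_of_not_dvd h3, add_zero]
  refine ((Nat.factorization_le_iff_dvd index_ne_zero_of_finite (by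
    have := hp.pos; positivity)).2 h2 p).trans (le_of_eq ?_)
  rw [Nat.factorization_mul (pow_ne_zero _ hp.ne_zero) (Nat.factorial_ne_zero _), Finsupp.add_apply,
    Nat.factorization_pow_self hp, Nat.factorization_factorial hp (b := n + 1) (Nat.lt_succ_of_le
      ((Nat.log_le_self _ _).trans (Nat.div_le_self _ _))), Finset.range_eq_Ico,
    Finset.sum_eq_sum_Ico_succ_bot n.succ_pos]
  simp [Nat.div_div_eq_div_mul]

end Cfsg.Agent.S4472
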