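import Cfsg.Statements.S4473
import Cfsg.Agent.Classical.DicksonPGL
import Cfsg.Agent.Classical.DicksonSL
import Cfsg.Agent.CharDeep.Clifford

set_option autoImplicit false
open Cfsg

namespace Cfsg.Agent.S4473

open Cfsg.Agent.Char Cfsg.Agent.CharDeep Cfsg.Agent.Classical
open scoped MatrixGroups

theorem comm_comap {G D : Type*} [Group G] [Group D] (π : G →* D) (hπ : Function.Surjective π)
    (hk : π.ker ≤ Subgroup.center G) (c : D) :
    ∀ a ∈ (Subgroup.zpowers c).comap π, ∀ b ∈ (Subgroup.zpowers c).comap π, a * b = b * a := by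
  obtain ⟨g, rfl⟩ := hπ c
  have key : ∀ a ∈ (Subgroup.zpowers (π g)).comap π, ∃ i : ℤ, ∃ z ∈ Subgroup.center G, a = g ^ i * z := by
    rintro a ⟨i, hi⟩
    refine ⟨i, (g ^ i)⁻¹ * a, hk ?_, by group⟩
    rw [MonoidHom.mem_ker, map_mul, map_inv, map_zpow, ← hi]; simp
  intro a ha b hb
  obtain ⟨i, z, hz, rfl⟩ := key a ha
  obtain ⟨j, w, hw, rfl⟩ := key b hb
  have cz : ∀ x, Commute x z := Subgroup.mem_center_iff.1 hz
  have cw : ∀ x, Commute x w := Subgroup.mem_center_iff.1 hw
  exact (Commute.mul_left (Commute.mul_right ((Commute.refl g).zpow_zpow i j) (cw _)) (cz _).symm).eq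

/-- Let the finite group G have a faithful irreducible character χ of degree 2 that is primitive: χ is not induced from a character of any proper subgroup. Then the centre of G has index 12, 24 or 60. -/
theorem result {G : Type*} [Group G] [Fintype G] (χ : Cfsg.IrrCharacter G) (hfaith : ∀ g : G, (χ : G → ℂ) g = (χ : G → ℂ) 1 → g = 1) (h2 : Cfsg.charDegree (χ : G → ℂ) = 2) (hprim : ∀ H : Subgroup G, H ≠ ⊤ → ∀ θ : H → ℂ, Cfsg.IsCharacter H θ → (χ : G → ℂ) ≠ Cfsg.indFun H θ) : (Subgroup.center G).index = 12 ∨ (Subgroup.center G).index = 24 ∨ (Subgroup.center G).index = 60 := by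
  classical
  obtain ⟨χ, hχ⟩ := χ
  have hχ' := hχ
  obtain ⟨n, ρ, hirr, rfl⟩ := hχ'
  simp only at hfaith h2 hprim
  have h1 : ρ.character 1 = n := by simp
  have hn : n = 2 := by
    rw [charDegree, h1] at h2
    simpa using h2
  subst hn
  let M : G →* GL (Fin 2) ℂ :=
    ((LinearMap.toMatrixAlgEquiv' (R := ℂ) (n := Fin 2)).toMonoidHom.comp ρ).toHomUnits
  let f : G →* PGL(2, ℂ) := Matrix.ProjGenLinGroup.mk.comp M
  have hρ : Function.Injective ρ := by
    rw [injective_iff_map_eq_one]
    intro g hg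
    exact hfaith g ((character_eq_char_one_iff ρ g).2 hg)
  have hM : Function.Injective M := by
    intro a b hab
    apply hρ
    exact (LinearMap.toMatrixAlgEquiv' (R := ℂ) (n := Fin 2)).injective (congrArg Units.val hab)
  have hker : f.ker = Subgroup.center G := by
    ext g
    rw [MonoidHom.mem_ker, MonoidHom.comp_apply, Matrix.ProjGenLinGroup.mk_eq_one]
    constructor
    · intro h
      rw [Subgroup.mem_center_iff] at h ⊢
      intro a
      apply hM
      rw [map_mul, map_mul, h]
    · intro h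
      obtain ⟨ω, hω⟩ := (mem_charCenter_character ρ g).1 (hχ.center_le_charCenter h)
      rw [Matrix.GeneralLinearGroup.mem_center_iff_val_mem_range_scalar]
      refine ⟨ω, ?_⟩
      change _ = LinearMap.toMatrixAlgEquiv' (ρ g)
      rw [hω, map_smul, ← Module.End.one_eq_id, map_one]
      ext i j; simp [Matrix.one_apply, Matrix.diagonal_apply]
  have noab : ∀ A : Subgroup G, A.index ≤ 2 → (∀ a ∈ A, ∀ b ∈ A, a * b = b * a) → False := by
    intro A hA hc
    by_cases hT : A = ⊤
    · have := hχ.apply_one_of_comm fun a b => hc a (hT ▸ trivial) b (hT ▸ trivial)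
      rw [h1] at this
      norm_num at this
    obtain ⟨θ, hθ, h0⟩ := exists_irr_under A hχ
    have hθ1 := hθ.apply_one_of_comm fun a b => Subtype.ext (hc a a.2 b b.2)
    refine hprim A hT θ hθ.isCharacter (eq_of_constituent_of_re_le
      (isCharacter_indFun A hθ.isCharacter) hχ ?_ ?_).symm
    · rw [classInner_indFun_left A θ hχ.isClassFunction]
      rwa [hθ.isCharacter.classInner_comm (hχ.isCharacter.restrict A)]
    · rw [indFun_one, hθ1, h1]
      simpa using hA
  rw [← hker, Subgroup.index]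
  have hsurj := QuotientGroup.mk'_surjective f.ker
  have hk : (QuotientGroup.mk' f.ker).ker ≤ Subgroup.center G := by
    rw [QuotientGroup.ker_mk', hker]
  rcases dickson_coprime (QuotientGroup.kerLift f) (QuotientGroup.kerLift_injective f)
    (by exact_mod_cast Nat.card_pos.ne') with h | ⟨k, hk2, ⟨e⟩⟩ | ⟨⟨e⟩⟩ | ⟨⟨e⟩⟩ | ⟨⟨e⟩⟩
  · obtain ⟨c, hc⟩ := h.exists_generator
    exact (noab ⊤ (by simp) fun a _ b _ => comm_comap _ hsurj hk c a (hc _) b (hc _)).elim
  · exfalso
    haveI : NeZero k := ⟨by omega⟩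
    have hs : Function.Surjective (e.toMonoidHom.comp (QuotientGroup.mk' f.ker)) :=
      e.surjective.comp hsurj
    refine noab _ ?_ (comm_comap _ hs (fun g hg => hk (by simpa using hg)) (DihedralGroup.r 1))
    rw [Subgroup.index_comap_of_surjective _ hs]
    have := (Subgroup.zpowers (DihedralGroup.r (1 : ZMod k))).card_mul_index
    rw [Nat.card_zpowers, DihedralGroup.orderOf_r_one, DihedralGroup.nat_card, mul_comm 2] at this
    exact (Nat.eq_of_mul_eq_mul_left (by omega) this).le
  · left; rw [Nat.card_congr e.toEquiv, card_alt4]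
  · right; left; rw [Nat.card_congr e.toEquiv, Nat.card_perm]; simp [Nat.factorial]
  · right; right; rw [Nat.card_congr e.toEquiv, card_alt5]

end Cfsg.Agent.S4473
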