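import Cfsg.Statements.S4476
import Mathlib
import Cfsg.Agent.Char.FS

set_option autoImplicit false
open Cfsg

namespace Cfsg.Agent.S4476

open Cfsg.Agent.Char

/-- Let G be a finite group of even order g with exactly t involutions, and put α = (g − 1)/t (a rational number). Then (a) some non-identity element x of G has at most α² conjugates; and (b) some non-principal real-valued irreducible character of G has degree at most α. -/
theorem result {G : Type*} [Group G] [Fintype G] (heven : Even (Nat.card G)) (t : ℕ) (ht : Nat.card {x : G // orderOf x = 2} = t) : (∃ x : G, x ≠ 1 ∧ ((Subgroup.centralizer ({x} : Set G)).index : ℚ) ≤ (((Nat.card G : ℚ) - 1) / t) ^ 2) ∧ ∃ χ : Cfsg.IrrCharacter G, (χ : G → ℂ) ≠ (fun _ => 1) ∧ (∀ g : G, ((χ : G → ℂ) g).im = 0) ∧ (Cfsg.charDegree (χ : G → ℂ) : ℚ) ≤ ((Nat.card G : ℚ) - 1) / t := by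
  classical
  have ht0 : 0 < t := by
    haveI : Fact (Nat.Prime 2) := ⟨Nat.prime_two⟩
    obtain ⟨x, hx⟩ := exists_prime_orderOf_dvd_card' (G := G) 2 heven.two_dvd
    haveI : Nonempty {x : G // orderOf x = 2} := ⟨⟨x, hx⟩⟩
    exact ht ▸ Nat.card_pos
  have ht0' : (0 : ℚ) < t := by exact_mod_cast ht0
  have e0 : Nat.card {s : G // s * s = 1} = t + 1 := by
    rw [← ht, Nat.card_eq_fintype_card, Nat.card_eq_fintype_card, Fintype.card_subtype,
      Fintype.card_subtype, ← Finset.card_insert_of_notMem (a := (1 : G)) (by simp)]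
    congr 1
    ext s
    simp only [Finset.mem_filter, Finset.mem_univ, true_and, Finset.mem_insert]
    refine ⟨fun h => (eq_or_ne s 1).imp_right fun h1 => orderOf_eq_prime (by rwa [pow_two]) h1, ?_⟩
    rintro (rfl | h)
    · simp
    · rw [← pow_two, ← h, pow_orderOf_eq_one]
  set S := Finset.univ.filter fun χ : IrrCharacter G => χ ≠ irrOne G ∧ ∀ g, (χ.1 g).im = 0 with hS
  have hS1 : S ⊆ Finset.univ.erase (irrOne G) := fun χ h => by
    simpa using (Finset.mem_filter.1 h).2.1
  set d : IrrCharacter G → ℚ := fun χ => charDegree χ.1 with hd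
  have hd0 : ∀ χ, 0 < d χ := fun χ => by simpa [hd] using χ.2.charDegree_pos
  have hone : charDegree (irrOne G).1 = 1 := charDegree_eq_of_apply_one (by simp)
  have e1 : (t : ℚ) ≤ ∑ χ ∈ S, d χ := by
    have h := congrArg Complex.re (sum_fsInd_mul (1 : G))
    rw [e0, Complex.re_sum, ← Finset.add_sum_erase _ _ (Finset.mem_univ (irrOne G))] at h
    have h1 : fsInd (irrOne G).1 = 1 := by
      simp [fsInd]
    have h2 : ∑ χ ∈ Finset.univ.erase (irrOne G), (fsInd χ.1 * χ.1 1).re ≤
        ∑ χ ∈ S, (charDegree χ.1 : ℝ) := by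
      rw [← Finset.sum_subset hS1]
      · refine Finset.sum_le_sum fun χ _ => ?_
        rw [χ.2.apply_one_eq_charDegree]
        rcases χ.2.fsInd_eq with h | h | h <;> simp [h]
      · intro χ h1 h2
        rw [χ.2.fsInd_eq_zero, zero_mul, Complex.zero_re]
        simpa [hS, Finset.ne_of_mem_erase h1] using h2
    simp only [h1, irrOne_apply, mul_one, Complex.one_re, Complex.natCast_re, Nat.cast_add,
      Nat.cast_one, Complex.add_re] at h
    have : (t : ℝ) ≤ ∑ χ ∈ S, (charDegree χ.1 : ℝ) := by linarith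
    simp only [hd]
    exact_mod_cast this
  have e2 : ∑ χ ∈ S, d χ ^ 2 ≤ Nat.card G - 1 := by
    have h := sum_charDegree_sq (G := G)
    rw [← Finset.add_sum_erase _ _ (Finset.mem_univ (irrOne G)), hone] at h
    have h' := Finset.sum_le_sum_of_subset (f := fun χ => charDegree χ.1 ^ 2) hS1
    rw [le_sub_iff_add_le]
    simp only [hd]
    norm_cast
    omega
  have hSn : S.Nonempty := by
    rw [Finset.nonempty_iff_ne_empty]
    rintro h
    simp [h, ht0.ne'] at e1
  set α : ℚ := ((Nat.card G : ℚ) - 1) / t with hα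
  have hα' : α * t = Nat.card G - 1 := div_mul_cancel₀ _ ht0'.ne'
  have hα0 : 0 < α := by
    refine div_pos (lt_of_lt_of_le ?_ e2) ht0'
    exact Finset.sum_pos (fun χ _ => pow_pos (hd0 χ) 2) hSn
  constructor
  · by_contra hc
    push Not at hc
    set C := Finset.univ.erase (ConjClasses.mk (1 : G)) with hC
    have c1 : S.card ≤ C.card := by
      refine (Finset.card_le_card hS1).trans_eq ?_
      rw [hC, Finset.card_erase_of_mem (Finset.mem_univ _),
        Finset.card_erase_of_mem (Finset.mem_univ _), Finset.card_univ, Finset.card_univ,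
        ← Nat.card_eq_fintype_card, ← Nat.card_eq_fintype_card, card_irr_eq_card_conjClasses]
    have c2 : (Finset.univ.erase (1 : G)).card = ∑ c ∈ C,
        ((Finset.univ.erase (1 : G)).filter fun g => ConjClasses.mk g = c).card :=
      Finset.card_eq_sum_card_fiberwise fun g hg => by
        simpa [hC, ConjClasses.mk_eq_mk_iff_isConj] using hg
    have c3 : (C.card : ℚ) * α ^ 2 < Nat.card G - 1 := by
      have : ((Finset.univ.erase (1 : G)).card : ℚ) = Nat.card G - 1 := by
        rw [Finset.card_erase_of_mem (Finset.mem_univ _), Finset.card_univ,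
          ← Nat.card_eq_fintype_card, Nat.cast_pred Nat.card_pos]
      rw [← this, c2, Nat.cast_sum, ← nsmul_eq_mul, ← Finset.sum_const]
      refine Finset.sum_lt_sum_of_nonempty (Finset.card_pos.1 (hSn.card_pos.trans_le c1))
        fun c hc' => ?_
      obtain ⟨x, rfl⟩ := ConjClasses.mk_surjective c
      have hx : x ≠ 1 := by rintro rfl; simp [hC] at hc'
      refine (hc x hx).trans_eq ?_
      rw [← card_filter_isConj]
      congr 2
      ext y
      simp only [Finset.mem_filter, Finset.mem_univ, true_and, Finset.mem_erase, and_true,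
        ConjClasses.mk_eq_mk_iff_isConj]
      exact ⟨fun h => ⟨by rintro rfl; exact hx (isConj_one_left.1 h), h.symm⟩, fun h => h.2.symm⟩
    have c4 := sq_sum_le_card_mul_sum_sq (s := S) (f := d)
    have c5 : (S.card : ℚ) ≤ C.card := by exact_mod_cast c1
    have c6 : (t : ℚ) ^ 2 ≤ C.card * (α * t) :=
      (pow_le_pow_left₀ ht0'.le e1 2).trans (c4.trans (mul_le_mul c5 (hα' ▸ e2)
        (Finset.sum_nonneg fun _ _ => sq_nonneg _) (Nat.cast_nonneg _)))
    rw [← hα'] at c3
    nlinarith [mul_pos hα0 ht0']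
  · by_contra hc
    push Not at hc
    have : ∑ χ ∈ S, α * d χ < ∑ χ ∈ S, d χ ^ 2 := Finset.sum_lt_sum_of_nonempty hSn fun χ h => by
      have h' := (Finset.mem_filter.1 h).2
      have := hc χ (fun e => h'.1 (Subtype.ext e)) h'.2
      rw [pow_two]
      exact mul_lt_mul_of_pos_right this (hd0 χ)
    rw [← Finset.mul_sum] at this
    nlinarith

end Cfsg.Agent.S4476
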