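import Cfsg.Statements.S4478
import Cfsg.Agent.Char.FS
import Cfsg.Agent.S0165

set_option autoImplicit false
open Cfsg

namespace Cfsg.Agent.S4478

open Cfsg.Agent.Char

theorem van {G : Type*} [Group G] [Finite G] {χ : G → ℂ} (h : IsIrrCharacter G χ) {p : ℕ}
    (hp : p.Prime) (hd : p ^ (Nat.card G).factorization p ∣ charDegree χ) {x : G}
    (hx : p ∣ orderOf x) : χ x = 0 := by
  obtain ⟨n, ρ, hρ, rfl⟩ := h
  rw [charDegree_character] at hd
  exact S0165.result ρ p _ hp (Nat.ordProj_dvd _ _)
    (Nat.pow_succ_factorization_not_dvd Nat.card_pos.ne' hp) hd x hx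

/-- Let G be a finite group of even order and χ an irreducible character of G whose degree x is divisible by the full power of 2 dividing the order of G and, for every odd prime p such that G has an element of order 2p, by the full power of p dividing the order of G. Then all involutions of G are conjugate, the centralizer of every involution has order exactly x with x coprime to its index, and the Frobenius–Schur indicator of χ equals 1. -/
theorem result {G : Type*} [Group G] [Fintype G] (heven : Even (Nat.card G)) (χ : Cfsg.IrrCharacter G) (h2 : 2 ^ (Nat.card G).factorization 2 ∣ Cfsg.charDegree (χ : G → ℂ)) (hp : ∀ p : ℕ, p.Prime → p ≠ 2 → (∃ g : G, orderOf g = 2 * p) → p ^ (Nat.card G).factorization p ∣ Cfsg.charDegree (χ : G → ℂ)) : (∀ s t : G, orderOf s = 2 → orderOf t = 2 → IsConj s t) ∧ (∀ s : G, orderOf s = 2 → Nat.card (Subgroup.centralizer ({s} : Set G)) = Cfsg.charDegree (χ : G → ℂ) ∧ (Nat.card (Subgroup.centralizer ({s} : Set G))).Coprime (Subgroup.centralizer ({s} : Set G)).index)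 ∧ (Nat.card G : ℂ)⁻¹ * ∑ g : G, (χ : G → ℂ) (g * g) = 1 := by
  classical
  have hv : ∀ x : G, 2 ∣ orderOf x → χ.1 x = 0 := fun x hx => van χ.2 Nat.prime_two h2 hx
  have hd0 := χ.2.charDegree_pos
  have hne : χ.1 ≠ fun _ => 1 := fun h => by
    haveI : Fact (Nat.Prime 2) := ⟨Nat.prime_two⟩
    obtain ⟨x, hx⟩ := exists_prime_orderOf_dvd_card' (G := G) 2 heven.two_dvd
    simpa [h] using hv x (hx ▸ dvd_rfl)
  set I := Finset.univ.filter fun g : G => orderOf g = 2 with hI
  set O := Finset.univ.filter fun g : G => ¬ 2 ∣ orderOf g with hO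
  have hsq : ∀ g : G, ¬ 2 ∣ orderOf g → orderOf (g * g) = orderOf g := fun g hg => by
    rw [← pow_two]
    exact ((Nat.Prime.coprime_iff_not_dvd Nat.prime_two).2 hg).symm.orderOf_pow
  have e1 : ∑ g ∈ O, χ.1 (g * g) = 0 := by
    rw [← χ.2.sum_eq_zero hne, ← Finset.sum_subset (Finset.subset_univ O) fun x _ hx => hv x (by
      simpa only [hO, Finset.mem_filter, Finset.mem_univ, true_and, not_not] using hx)]
    have hm : ∀ g ∈ O, g * g ∈ O := fun g hg => by
      simp only [hO, Finset.mem_filter, Finset.mem_univ, true_and] at hg ⊢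
      rwa [hsq g hg]
    have hroot : ∀ g : G, ¬ 2 ∣ orderOf g → (g * g) ^ ((orderOf g + 1) / 2) = g := fun g hg => by
      rw [← pow_two, ← pow_mul, Nat.mul_div_cancel' (by omega), pow_succ, pow_orderOf_eq_one,
        one_mul]
    have hi : ∀ a ∈ O, ∀ b ∈ O, a * a = b * b → a = b := fun a ha b hb hab => by
      simp only [hO, Finset.mem_filter, Finset.mem_univ, true_and] at ha hb
      rw [← hroot a ha, ← hroot b hb, ← hsq a ha, ← hsq b hb, hab]
    exact Finset.sum_bij (fun g _ => g * g) hm hi (fun b hb => by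
      obtain ⟨a, ha, e⟩ := Finset.surj_on_of_inj_on_of_card_le (fun g _ => g * g) hm
        (fun a b ha hb => hi a ha b hb) le_rfl b hb
      exact ⟨a, ha, e.symm⟩) fun _ _ => rfl
  have e2 : ∑ g : G, χ.1 (g * g) = I.card * charDegree χ.1 := by
    rw [← Finset.sum_filter_add_sum_filter_not _ fun g : G => ¬ 2 ∣ orderOf g, e1, zero_add,
      ← Finset.sum_subset (s₁ := I)]
    · rw [← nsmul_eq_mul, ← Finset.sum_const]
      refine Finset.sum_congr rfl fun g hg => ?_
      rw [← pow_two, ← (Finset.mem_filter.1 hg).2, pow_orderOf_eq_one, χ.2.apply_one_eq_charDegree]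
    · intro g hg
      simp [(Finset.mem_filter.1 hg).2]
    · intro g hg hg'
      simp only [hI, Finset.mem_filter, Finset.mem_univ, true_and, not_not] at hg hg'
      obtain ⟨m, hm⟩ := hg
      have hm0 : 0 < m := by have := orderOf_pos g; omega
      have ho : orderOf (g * g) = m := by
        rw [← pow_two, orderOf_pow_of_dvd two_ne_zero ⟨m, hm⟩, hm]; omega
      obtain ⟨p, hp', hpm⟩ := Nat.exists_prime_and_dvd (n := m) (by omega)
      by_cases h : p = 2
      · exact hv _ (ho ▸ h ▸ hpm)
      · obtain ⟨k, rfl⟩ := hpm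
        refine van χ.2 hp' (hp p hp' h ⟨g ^ k, ?_⟩) (ho ▸ dvd_mul_right _ _)
        have hk : k ≠ 0 := by rintro rfl; simp at hm0
        rw [orderOf_pow_of_dvd hk (hm ▸ ⟨2 * p, by ring⟩), hm, ← mul_assoc,
          Nat.mul_div_cancel _ (Nat.pos_of_ne_zero hk)]
  have hI0 : 0 < I.card := by
    haveI : Fact (Nat.Prime 2) := ⟨Nat.prime_two⟩
    obtain ⟨x, hx⟩ := exists_prime_orderOf_dvd_card' (G := G) 2 heven.two_dvd
    exact Finset.card_pos.2 ⟨x, by simp [hI, hx]⟩
  have e3 : (Nat.card G : ℂ) * fsInd χ.1 = (I.card * charDegree χ.1 : ℕ) := by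
    rw [fsInd, mul_inv_cancel_left₀ natCard_cast_ne_zero, e2, Nat.cast_mul]
  have hpos := Nat.mul_pos hI0 hd0
  have hν : fsInd χ.1 = 1 := by
    rcases χ.2.fsInd_eq with h | h | h
    · rw [h, mul_zero] at e3
      exact absurd (by exact_mod_cast e3.symm) hpos.ne'
    · exact h
    · rw [h, mul_neg_one, neg_eq_iff_add_eq_zero] at e3
      norm_cast at e3
      omega
  rw [hν, mul_one, Nat.cast_inj] at e3
  have hpr : ∀ s : G, orderOf s = 2 → ∀ p : ℕ, p.Prime →
      p ∣ Nat.card (Subgroup.centralizer ({s} : Set G)) →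
      p ^ (Nat.card G).factorization p ∣ charDegree χ.1 := fun s hs p hp' hd => by
    by_cases h : p = 2
    · exact h ▸ h2
    haveI : Fact p.Prime := ⟨hp'⟩
    obtain ⟨y, hy⟩ := exists_prime_orderOf_dvd_card' p hd
    rw [← Subgroup.orderOf_coe] at hy
    have hc : Commute s y := (Subgroup.mem_centralizer_iff.1 y.2 s rfl :)
    refine hp p hp' h ⟨s * y, ?_⟩
    rw [hc.orderOf_mul_eq_mul_orderOf_of_coprime, hs, hy]
    rw [hs, hy]
    exact (Nat.coprime_primes Nat.prime_two hp').2 (Ne.symm h)
  have hdv : ∀ s : G, orderOf s = 2 →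
      Nat.card (Subgroup.centralizer ({s} : Set G)) ∣ charDegree χ.1 := fun s hs => by
    refine (Nat.dvd_iff_prime_pow_dvd_dvd _ _).2 fun p k hp' hk => ?_
    rcases Nat.eq_zero_or_pos k with rfl | hk0
    · simp
    exact (pow_dvd_pow _ ((hp'.pow_dvd_iff_le_factorization Nat.card_pos.ne').1
      (hk.trans (Subgroup.card_subgroup_dvd_card _)))).trans
      (hpr s hs p hp' ((dvd_pow_self p hk0.ne').trans hk))
  have hsub : ∀ s : G, orderOf s = 2 → (Finset.univ.filter fun y => IsConj s y) ⊆ I := by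
    intro s hs y hy
    obtain ⟨c, rfl⟩ := isConj_iff.1 (Finset.mem_filter.1 hy).2
    simp [hI, ← hs, ← MulAut.conj_apply, MulEquiv.orderOf_eq]
  have key : ∀ s : G, orderOf s = 2 → Nat.card (Subgroup.centralizer ({s} : Set G)) =
      charDegree χ.1 ∧ (Subgroup.centralizer ({s} : Set G)).index = I.card := fun s hs => by
    have a1 := Finset.card_le_card (hsub s hs)
    rw [card_filter_isConj] at a1
    have a2 := Nat.le_of_dvd hd0 (hdv s hs)
    have a3 := (Subgroup.centralizer ({s} : Set G)).card_mul_index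
    constructor <;> nlinarith
  refine ⟨fun s t hs ht => ?_, fun s hs => ⟨(key s hs).1, ?_⟩, hν⟩
  · have := Finset.eq_of_subset_of_card_le (hsub s hs) (by rw [card_filter_isConj, (key s hs).2])
    exact (Finset.mem_filter.1 (this ▸ (by simp [hI, ht] : t ∈ I))).2
  · refine Nat.Coprime.symm (Nat.coprime_of_dvd fun p hp' h1 h2' => ?_)
    have := mul_dvd_mul ((key s hs).1 ▸ hpr s hs p hp' h2') h1
    rw [Subgroup.card_mul_index, ← pow_succ] at this
    exact Nat.pow_succ_factorization_not_dvd Nat.card_pos.ne' hp' this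

end Cfsg.Agent.S4478
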