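import Cfsg.Statements.S4479
import Cfsg.Agent.Block.Klein2

set_option autoImplicit false
open Cfsg

namespace Cfsg.Agent.S4479

open Cfsg.Agent.Block Cfsg.Agent.BMod Cfsg.Agent.Char MonoidAlgebra


/-- An order formula from the principal 2-block. Let G be a finite group of order 4·g₀ with g₀ odd having no normal 2-complement (no normal subgroup of order g₀); let P be a Sylow 2-subgroup, J an involution of P, and fix a maximal ideal M of the algebraic integers containing 2. Suppose the principal 2-block consists of the principal character and three further distinct characters χ₁, χ₂, χ₃ of degrees x₁, x₂, x₃, with χ_i(J) = ε_i = ±1. Then, writing c(J) and c(P) for the orders of the centralizers of J and of P, the order of G equals 8·α·c(J)³/c(P)² with α = x₁x₂x₃ / ((x₁ + ε₁)(x₂ + ε₂)(x₃ + ε₃)). -/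
theorem result {G : Type*} [Group G] [Finite G] (M : Ideal Cfsg.AlgInt) (hM : Cfsg.IsPModular 2 M) (g₀ : ℕ) (hg₀ : Odd g₀) (hG : Nat.card G = 4 * g₀) (hnc : ¬ ∃ N : Subgroup G, N.Normal ∧ Nat.card N = g₀) (P : Sylow 2 G) (J : G) (hJ : J ∈ (P : Subgroup G)) (hJ2 : orderOf J = 2) (χ₁ χ₂ χ₃ : Cfsg.IrrCharacter G) (ε₁ ε₂ ε₃ : ℤ) (hB : Cfsg.principalBlock M G = {χ : Cfsg.IrrCharacter G | (χ : G → ℂ) = (fun _ => 1) ∨ χ = χ₁ ∨ χ = χ₂ ∨ χ = χ₃}) (hdist : (χ₁ : G → ℂ) ≠ (fun _ => 1) ∧ (χ₂ : G → ℂ) ≠ (fun _ => 1) ∧ (χ₃ : G → ℂ) ≠ (fun _ => 1) ∧ χ₁ ≠ χ₂ ∧ χ₁ ≠ χ₃ ∧ χ₂ ≠ χ₃) (hε : (ε₁ = 1 ∨ ε₁ = -1) ∧ (ε₂ = 1 ∨ ε₂ = -1) ∧ (ε₃ = 1 ∨ ε₃ = -1)) (hval : (χ₁ : G → ℂ) J = ε₁ ∧ (χ₂ : G → ℂ) J = ε₂ ∧ (χ₃ : G → ℂ) J = ε₃) : (Nat.card G : ℚ) = 8 * (((Cfsg.charDegree (χ₁ : G → ℂ) : ℚ) * Cfsg.charDegree (χ₂ : G → ℂ) * Cfsg.charDegree (χ₃ : G → ℂ)) / ((Cfsg.charDegree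 (χ₁ : G → ℂ) + ε₁) * (Cfsg.charDegree (χ₂ : G → ℂ) + ε₂) * (Cfsg.charDegree (χ₃ : G → ℂ) + ε₃))) * (Nat.card (Subgroup.centralizer ({J} : Set G)) : ℚ) ^ 3 / (Nat.card (Subgroup.centralizer ((P : Subgroup G) : Set G)) : ℚ) ^ 2 := by
  have : PMod 2 M := ⟨hM⟩
  have := Fintype.ofFinite G
  have h := kb_of hg₀ hG hnc hJ hJ2 hB hdist hval
  have h1 := h.order'
  have h2 := congrArg (Int.cast : ℤ → ℚ) h.deg
  push_cast at h2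
  have p1 : (0 : ℚ) < charDegree (χ₁ : G → ℂ) := by exact_mod_cast χ₁.2.charDegree_pos
  have p2 : (0 : ℚ) < charDegree (χ₂ : G → ℂ) := by exact_mod_cast χ₂.2.charDegree_pos
  have p3 : (0 : ℚ) < charDegree (χ₃ : G → ℂ) := by exact_mod_cast χ₃.2.charDegree_pos
  have p4 : (0 : ℚ) < Nat.card (Subgroup.centralizer ({J} : Set G)) := by
    exact_mod_cast Nat.card_pos
  have p5 : (0 : ℚ) < Nat.card (Subgroup.centralizer ((P : Subgroup G) : Set G)) := by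
    exact_mod_cast Nat.card_pos
  generalize (charDegree (χ₁ : G → ℂ) : ℚ) = x₁ at *
  generalize (charDegree (χ₂ : G → ℂ) : ℚ) = x₂ at *
  generalize (charDegree (χ₃ : G → ℂ) : ℚ) = x₃ at *
  have e1 : (ε₁ : ℚ) ^ 2 = 1 := by rcases hε.1 with rfl | rfl <;> simp
  have e2 : (ε₂ : ℚ) ^ 2 = 1 := by rcases hε.2.1 with rfl | rfl <;> simp
  have e3 : (ε₃ : ℚ) ^ 2 = 1 := by rcases hε.2.2 with rfl | rfl <;> simp
  have h3 : 1 + (ε₁ : ℚ) ^ 3 / x₁ + ε₂ ^ 3 / x₂ + ε₃ ^ 3 / x₃ =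
      (x₁ + ε₁) * (x₂ + ε₂) * (x₃ + ε₃) / (x₁ * x₂ * x₃) := by
    field_simp
    linear_combination (-(ε₁ * ε₂ * ε₃ : ℚ)) * h2 + (ε₁ * x₂ * x₃ + x₁ * ε₂ * ε₃) * e1 +
      (ε₂ * x₁ * x₃ + x₂ * ε₁ * ε₃) * e2 + (ε₃ * x₁ * x₂ + x₃ * ε₁ * ε₂) * e3
  rw [h3] at h1
  have h4 : (x₁ + ε₁) * (x₂ + ε₂) * (x₃ + ε₃) ≠ 0 := fun e => by
    rw [e, zero_div, mul_zero] at h1
    exact absurd h1 (ne_of_lt (by positivity))
  rw [mul_comm 8, mul_assoc, mul_div_assoc, ← h1]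
  generalize (x₁ + ε₁) * (x₂ + ε₂) * (x₃ + ε₃) = y at *
  field_simp

end Cfsg.Agent.S4479
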