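import Cfsg.Statements.S4480
import Cfsg.Agent.Block.Klein2

set_option autoImplicit false
open Cfsg

namespace Cfsg.Agent.S4480

open Cfsg.Agent.Block Cfsg.Agent.BMod Cfsg.Agent.Char MonoidAlgebra


/-- Same setting as the Klein-four order formula: G of order 4·g₀ (g₀ odd) with no normal 2-complement, P a Sylow 2-subgroup, J an involution of P, M over 2, principal 2-block {1, χ₁, χ₂, χ₃} with χ_i(J) = ε_i = ±1. Suppose ε₁ε₂ε₃ = −1 and ε₃ = −1, and put q = x₃ = χ₃(1). Then there is a natural number m with 4·c(J) = m·c(P)·(q + 1), and the order of G equals (m³·c(P)/4)·(q³ − q)/2, that is 8·#G = m³·c(P)·(q³ − q). -/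
theorem result {G : Type*} [Group G] [Finite G] (M : Ideal Cfsg.AlgInt) (hM : Cfsg.IsPModular 2 M) (g₀ : ℕ) (hg₀ : Odd g₀) (hG : Nat.card G = 4 * g₀) (hnc : ¬ ∃ N : Subgroup G, N.Normal ∧ Nat.card N = g₀) (P : Sylow 2 G) (J : G) (hJ : J ∈ (P : Subgroup G)) (hJ2 : orderOf J = 2) (χ₁ χ₂ χ₃ : Cfsg.IrrCharacter G) (ε₁ ε₂ ε₃ : ℤ) (hB : Cfsg.principalBlock M G = {χ : Cfsg.IrrCharacter G | (χ : G → ℂ) = (fun _ => 1) ∨ χ = χ₁ ∨ χ = χ₂ ∨ χ = χ₃}) (hdist : (χ₁ : G → ℂ) ≠ (fun _ => 1) ∧ (χ₂ : G → ℂ) ≠ (fun _ => 1) ∧ (χ₃ : G → ℂ) ≠ (fun _ => 1) ∧ χ₁ ≠ χ₂ ∧ χ₁ ≠ χ₃ ∧ χ₂ ≠ χ₃) (hε : (ε₁ = 1 ∨ ε₁ = -1) ∧ (ε₂ = 1 ∨ ε₂ = -1) ∧ (ε₃ = 1 ∨ ε₃ = -1)) (hval : (χ₁ : G → ℂ) J = ε₁ ∧ (χ₂ : G → ℂ) J = ε₂ ∧ (χ₃ : G → ℂ) J = ε₃) (hprod : ε₁ * ε₂ * ε₃ = -1) (hε₃ : ε₃ = -1) : ∃ m : ℕ, 4 * Nat.card (Subgroup.centralizer ({J} : Set G)) = m * Nat.card (Subgroup.centralizer ((P : Subgroup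 G) : Set G)) * (Cfsg.charDegree (χ₃ : G → ℂ) + 1) ∧ 8 * Nat.card G = m ^ 3 * Nat.card (Subgroup.centralizer ((P : Subgroup G) : Set G)) * (Cfsg.charDegree (χ₃ : G → ℂ) ^ 3 - Cfsg.charDegree (χ₃ : G → ℂ)) := by
  have : PMod 2 M := ⟨hM⟩
  have := Fintype.ofFinite G
  have h := kb_of hg₀ hG hnc hJ hJ2 hB hdist hval
  have h2 := h.deg
  have p1 := χ₁.2.charDegree_pos
  have p2 := χ₂.2.charDegree_pos
  have p3 := χ₃.2.charDegree_pos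
  subst hε₃
  obtain ⟨rfl, rfl⟩ : ε₁ = 1 ∧ ε₂ = 1 := by
    rcases hε.1 with rfl | rfl <;> rcases hε.2.1 with rfl | rfl <;> omega
  have h3 := h.deg_eq
  have h1 := h.order'
  obtain ⟨a, ha⟩ := deg_dvd_index_of_sq hε.1 h.v1
  obtain ⟨b, hb⟩ := deg_dvd_index_of_sq hε.2.2 h.v3
  have hq : charDegree (χ₃ : G → ℂ) = 2 * charDegree (χ₁ : G → ℂ) + 1 := by omega
  rw [← h3, hq, ← (Subgroup.centralizer ({J} : Set G)).card_mul_index] at h1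
  rw [hq] at hb
  rw [hq, ← (Subgroup.centralizer ({J} : Set G)).card_mul_index]
  have p4 : 0 < Nat.card (Subgroup.centralizer ({J} : Set G)) := Nat.card_pos
  have p5 : 0 < Nat.card (Subgroup.centralizer ((P : Subgroup G) : Set G)) := Nat.card_pos
  generalize charDegree (χ₁ : G → ℂ) = x at *
  generalize Nat.card (Subgroup.centralizer ({J} : Set G)) = c at *
  generalize Nat.card (Subgroup.centralizer ((P : Subgroup G) : Set G)) = d at *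
  generalize (Subgroup.centralizer ({J} : Set G)).index = i at *
  have h4 : (i : ℚ) * (x + 1) ^ 2 * d ^ 2 = 4 * c ^ 2 * x * (2 * x + 1) := by
    push_cast at h1
    field_simp at h1
    linear_combination (1 / 2 : ℚ) * h1
  have h5 : i * (x + 1) ^ 2 * d ^ 2 = 4 * c ^ 2 * x * (2 * x + 1) := by exact_mod_cast h4
  have h6 : a * ((x + 1) * d) ^ 2 = (2 * c) ^ 2 * (2 * x + 1) :=
    Nat.eq_of_mul_eq_mul_left p1 (by rw [ha] at h5; linear_combination h5)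
  have h7 : b * ((x + 1) * d) ^ 2 = (2 * c) ^ 2 * x :=
    Nat.eq_of_mul_eq_mul_left (by omega : 0 < 2 * x + 1) (by rw [hb] at h5; linear_combination h5)
  have h8 : ((x + 1) * d) ^ 2 ∣ (2 * c) ^ 2 := by
    refine (Nat.dvd_add_right (Dvd.intro_left (2 * b) rfl)).1 ⟨a, ?_⟩
    linear_combination 2 * h7 - h6
  obtain ⟨m, hm⟩ := (Nat.pow_dvd_pow_iff two_ne_zero).1 h8
  refine ⟨m, by linear_combination 2 * hm, ?_⟩
  rw [show (2 * x + 1) ^ 3 - (2 * x + 1) = 4 * x * (x + 1) * (2 * x + 1) from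
    Nat.sub_eq_of_eq_add (by ring)]
  refine Nat.eq_of_mul_eq_mul_left (show 0 < ((x + 1) * d) ^ 2 by positivity) ?_
  calc _ = 8 * c * (i * (x + 1) ^ 2 * d ^ 2) := by ring
    _ = 4 * (2 * c) ^ 3 * x * (2 * x + 1) := by rw [h5]; ring
    _ = _ := by rw [hm]; ring

end Cfsg.Agent.S4480
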