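import Cfsg.Statements.S4482
import Cfsg.Agent.Block.Dihedral

set_option autoImplicit false
open Cfsg

namespace Cfsg.Agent.S4482

open Cfsg.Agent.Block Cfsg.Agent.BMod Cfsg.Agent.Char MonoidAlgebra


/-- An order formula for groups with dihedral Sylow 2-subgroups and one class of involutions. Let G be a finite group whose Sylow 2-subgroup P = ⟨σ, τ⟩ is dihedral of order 2^n ≥ 8 (σ of order 2^(n−1), τ an involution inverting σ), let J be the central involution σ^(2^(n−2)), and suppose J, τ and στ are conjugate in G. Fix M over 2 and let χ₁ be an irreducible character in the principal 2-block taking one constant value δ₁ = ±1 at every non-identity power of σ, with χ₁ ≠ 1. Then, with x₁ = χ₁(1) and c(·) denoting orders of centralizers, x₁ ≠ δ₁ and #G · (x₁ − δ₁)² = 2·x₁(x₁ + δ₁)·c(J)³·(1/c(J, τ) + 1/c(J, στ))², where c(J, y) is the order of the joint centralizer of J and y. -/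
theorem result {G : Type*} [Group G] [Finite G] (M : Ideal Cfsg.AlgInt) (hM : Cfsg.IsPModular 2 M) (n : ℕ) (hn : 3 ≤ n) (P : Sylow 2 G) (σ τ : G) (hσ : σ ∈ (P : Subgroup G)) (hτ : τ ∈ (P : Subgroup G)) (hσo : orderOf σ = 2 ^ (n - 1)) (hτo : orderOf τ = 2) (hrel : τ * σ * τ⁻¹ = σ⁻¹) (hgen : Subgroup.closure ({σ, τ} : Set G) = (P : Subgroup G)) (hconj : IsConj (σ ^ (2 ^ (n - 2))) τ ∧ IsConj (σ ^ (2 ^ (n - 2))) (σ * τ)) (χ₁ : Cfsg.IrrCharacter G) (hχ₁ : χ₁ ∈ Cfsg.principalBlock M G) (h1 : (χ₁ : G → ℂ) ≠ (fun _ => 1)) (δ₁ : ℤ) (hδ₁ : δ₁ = 1 ∨ δ₁ = -1) (hval : ∀ l : ℕ, 0 < l → l < 2 ^ (n - 1) → (χ₁ : G → ℂ) (σ ^ l) = δ₁) : (Cfsg.charDegree (χ₁ : G → ℂ) : ℤ) ≠ δ₁ ∧ (Nat.card G : ℚ) * ((Cfsg.charDegree (χ₁ : G → ℂ) : ℚ) - δ₁) ^ 2 = 2 * (Cfsg.charDegree (χ₁ : G → ℂ) : ℚ) * ((Cfsg.charDegree (χ₁ : G → ℂ) : ℚ) + δ₁) * (Nat.card (Subgroup.centralizer ({σ ^ (2 ^ (n - 2))} : Set G)) : ℚ) ^ 3 * (1 / (Nat.card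 (Subgroup.centralizer ({σ ^ (2 ^ (n - 2)), τ} : Set G)) : ℚ) + 1 / (Nat.card (Subgroup.centralizer ({σ ^ (2 ^ (n - 2)), σ * τ} : Set G)) : ℚ)) ^ 2 := by
  classical
  have : PMod 2 M := ⟨hM⟩
  have := Fintype.ofFinite G
  have hN : 2 ^ (n - 1) = 2 * 2 ^ (n - 2) := by rw [← pow_succ']; congr 1; omega
  have hk : 2 ^ (n - 2) = 2 * 2 ^ (n - 3) := by rw [← pow_succ']; congr 1; omega
  have hk0 := Nat.two_pow_pos (n - 3)
  have hτ2 := Invol.mul_self_of hτo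
  have hσ2 : σ * σ ≠ 1 := fun e => by
    have := Nat.le_of_dvd two_pos (orderOf_dvd_of_pow_eq_one ((sq _).trans e))
    omega
  obtain ⟨r, s, h, D, rfl, rfl⟩ := exists_dih_of_rel (S := P) (n := n - 2) (by congr 1; omega) hσo
    hτ2 hrel (fun hm => hσ2 (by
      obtain ⟨k, rfl⟩ := Subgroup.mem_zpowers_iff.1 hm
      rw [((Commute.refl σ).zpow_left k).eq, mul_inv_cancel_right] at hrel
      exact mul_eq_one_iff_eq_inv.2 hrel)) fun d => by
      rw [← hgen, Set.pair_comm, Invol.mem_closure_inverts_iff hτ2 hrel]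
  have hh := dih_h_eq D hN
  have e1 : r 1 ^ 2 ^ (n - 2) = r h := by rw [D.T.r_pow, mul_one, hh]
  have e2 : r 1 * s 0 = s (-1) := by rw [D.T.rs]; simp
  rw [e1, e2] at hconj ⊢
  have hζ := Complex.isPrimitiveRoot_exp (2 ^ (n - 1)) (by omega)
  generalize Complex.exp _ = ζ at hζ
  have hζk : ζ ^ 2 ^ (n - 2) = -1 :=
    (hζ.pow (by omega) (hN.trans (mul_comm _ _))).eq_neg_one_of_two_right
  obtain ⟨ψ₁, χ₂, χ₃, χ', δ, δ₂, δ₃, s1, s2, s3, he, n1, n2, n3, n12, n13, n23, ne, hB, hv, ho⟩ :=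
    dih_block M D hζ hN (Nat.even_pow.2 ⟨even_two, by omega⟩)
  have hne : ∀ l : ℕ, 0 < l → l < 2 ^ (n - 1) → (l : ZMod (2 ^ (n - 1))) ≠ 0 := fun l h0 hl => by
    rw [← Nat.cast_zero, Ne, zmod_cast_inj hl (by omega)]
    omega
  simp only [D.T.r_pow, mul_one] at hval
  have v1 := hval 1 one_pos (by omega)
  have v2 := hval 2 two_pos (by omega)
  have vk := hval (2 ^ (n - 2)) (by omega) (by omega)
  obtain ⟨a1, a2, a3, -⟩ := hv 1 (hne 1 one_pos (by omega))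
  obtain ⟨-, b2, b3, -⟩ := hv 2 (hne 2 two_pos (by omega))
  obtain ⟨c1, -, -, c4⟩ := hv (2 ^ (n - 2)) (hne _ (by omega) (by omega))
  obtain rfl : χ₁ = ψ₁ := by
    rcases (hB χ₁).1 hχ₁ with rfl | rfl | rfl | rfl | ⟨j, rfl⟩
    · exact absurd rfl h1
    · rfl
    · rw [v1] at a2; rw [v2, a2] at b2
      rcases s2 with rfl | rfl <;> norm_num at b2
    · rw [v1] at a3; rw [v2, a3] at b3
      rcases s3 with rfl | rfl <;> norm_num at b3
    · have := c4 j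
      rw [vk, mul_comm ((j : ℕ) + 1), pow_mul, hζk] at this
      rcases neg_one_pow_eq_or ℂ ((j : ℕ) + 1) with e | e <;> rw [e] at this <;>
        rcases s1 with rfl | rfl <;> rcases hδ₁ with rfl | rfl <;> norm_num at this
  obtain rfl : δ₁ = δ := by exact_mod_cast v1.symm.trans a1
  let j₀ : Fin (2 ^ (n - 2) - 1) := ⟨0, by omega⟩
  have hsum : ∀ f : IrrCharacter G → ℂ, ∑ χ, (Pi.single (irrOne G) 1 + Pi.single χ₁ (δ₁ : ℂ) -
      Pi.single (χ' j₀) (δ₁ : ℂ) : IrrCharacter G → ℂ) χ * f χ =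
      f (irrOne G) + δ₁ * f χ₁ - δ₁ * f (χ' j₀) := fun f => by
    simp [add_mul, sub_mul, Finset.sum_add_distrib, Pi.single_apply, ite_mul]
  have hδ : (δ₁ : ℂ) * δ₁ = 1 := by rcases s1 with rfl | rfl <;> simp
  have hθ : ∀ m : ℕ, 1 + δ₁ * (χ₁ : G → ℂ) (r m) - δ₁ * (χ' j₀ : G → ℂ) (r m) =
      2 - ζ ^ m - (ζ ^ m)⁻¹ := fun m => by
    by_cases hm : (m : ZMod (2 ^ (n - 1))) = 0
    · rw [hm, D.T.r_zero, (ho 1 (by simp)).2 j₀,
        (hζ.pow_eq_one_iff_dvd m).2 ((ZMod.natCast_eq_zero_iff _ _).1 hm)]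
      norm_num
    · obtain ⟨h2, -, -, h3⟩ := hv m hm
      rw [h2, h3 j₀]
      simp only [j₀, zero_add, one_mul]
      linear_combination (1 - ζ ^ m - (ζ ^ m)⁻¹) * hδ
  have key := dih_order M D (c := Pi.single (irrOne G) 1 + Pi.single χ₁ (δ₁ : ℂ) -
      Pi.single (χ' j₀) (δ₁ : ℂ)) (fun t ht => by
      obtain ⟨g, hg⟩ := Invol.exists_conj_invol_mem_sylow (Invol.mul_self_of ht) P
      refine IsConj.trans ?_ (Invol.isConj_conj g t).symm
      obtain ⟨i, e | e⟩ := (D.T.mem _).1 hg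
      · rw [e, (D.invol_r (i := i)).1 (by rw [← e, Invol.orderOf_conj', ht])]
      · have hc : ∀ i k, IsConj (s i) (s (i + 2 * k)) := fun i k =>
          isConj_iff.2 ⟨r (-k), by rw [D.T.conj_rs]; congr 1; ring⟩
        rw [e]
        rcases D.H.par i with ⟨b, rfl⟩ | ⟨b, rfl⟩
        · exact hconj.1.trans (by simpa using hc 0 b)
        · rw [show 2 * b + 1 = -1 + 2 * (b + 1) by ring]
          exact hconj.2.trans (hc _ _))
    (fun χ hχ => by
      rw [hB] at hχ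
      push Not at hχ
      simp [hχ])
    (fun g hg => by rw [hsum, irrOne_apply, (ho g hg).2 j₀, sub_self])
    fun l => by
      rw [hsum, hsum, ← ZMod.natCast_zmod_val l, hh, ← Nat.cast_add, irrOne_apply, irrOne_apply,
        hθ, hθ, pow_add, hζk]
      simp only [mul_neg, mul_one, inv_neg]
      ring
  have d1 := (ho 1 (by simp)).2 j₀
  have d2 := (χ' j₀).2.apply_one_ne_zero
  have d3 := χ₁.2.apply_one_ne_zero
  have d4 : (χ' j₀ : G → ℂ) 1 = (χ₁ : G → ℂ) 1 + δ₁ := by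
    linear_combination (-δ₁ : ℂ) * d1 + ((χ₁ : G → ℂ) 1 - (χ' j₀ : G → ℂ) 1) * hδ
  have d5 := c4 j₀
  simp only [j₀, zero_add, one_mul, hζk] at d5
  rw [hsum, irrOne_apply, irrOne_apply, hh, c1, d5, ← hh, d4] at key
  rw [d4] at d2
  rw [← deg_cast_irr] at key d2 d3
  have key2 : (Nat.card G : ℂ) * ((charDegree (χ₁ : G → ℂ) : ℂ) - δ₁) ^ 2 =
      2 * (charDegree (χ₁ : G → ℂ) : ℂ) * ((charDegree (χ₁ : G → ℂ) : ℂ) + δ₁) *
      (Nat.card (Subgroup.centralizer ({r h} : Set G)) : ℂ) ^ 3 *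
      (1 / (Nat.card (Subgroup.centralizer ({r h, s 0} : Set G)) : ℂ) +
        1 / (Nat.card (Subgroup.centralizer ({r h, s (-1)} : Set G)) : ℂ)) ^ 2 := by
    rw [mul_assoc (2 * _ * _), mul_assoc 2, mul_assoc 2, mul_left_comm 2, ← mul_assoc 2, ← key]
    rcases s1 with rfl | rfl <;> push_cast at d2 ⊢ <;> field_simp <;> ring
  have key3 : (Nat.card G : ℚ) * ((charDegree (χ₁ : G → ℂ) : ℚ) - δ₁) ^ 2 =
      2 * (charDegree (χ₁ : G → ℂ) : ℚ) * ((charDegree (χ₁ : G → ℂ) : ℚ) + δ₁) *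
      (Nat.card (Subgroup.centralizer ({r h} : Set G)) : ℚ) ^ 3 *
      (1 / (Nat.card (Subgroup.centralizer ({r h, s 0} : Set G)) : ℚ) +
        1 / (Nat.card (Subgroup.centralizer ({r h, s (-1)} : Set G)) : ℚ)) ^ 2 := by
    apply Rat.cast_injective (α := ℂ)
    push_cast
    exact key2
  refine ⟨fun e => ?_, key3⟩
  have e' : (charDegree (χ₁ : G → ℂ) : ℚ) = δ₁ := by exact_mod_cast e
  rw [← e', sub_self] at key3
  have := Nat.card_pos (α := Subgroup.centralizer ({r h, s 0} : Set G))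
  have := Nat.card_pos (α := Subgroup.centralizer ({r h, s (-1)} : Set G))
  have := Nat.card_pos (α := Subgroup.centralizer ({r h} : Set G))
  have := χ₁.2.charDegree_pos
  exact absurd key3 (ne_of_lt (by rw [sq, mul_zero, mul_zero]; positivity))

end Cfsg.Agent.S4482
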