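import Cfsg.Statements.S4484
import Cfsg.Agent.CH.Arc
import Cfsg.Agent.Block.Q8
import Cfsg.Agent.Char.Burnside

set_option autoImplicit false
open Cfsg

namespace Cfsg.Agent.S4484

open Cfsg.Agent.Char Cfsg.Agent.Block Subgroup

/-- A refinement of Burnside's result on simple groups of order divisible by only two primes. Let G be a finite simple group of order p^a · q^b · g₀ with p, q distinct primes, a > 0, g₀ coprime to p and q, and the order of G different from p. Then g₀ − 1 > log p / log 6, that is 6^(g₀ − 1) > p. -/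
theorem result {G : Type*} [Group G] [Finite G] [IsSimpleGroup G] (p q a b g₀ : ℕ) (hp : p.Prime) (hq : q.Prime) (hpq : p ≠ q) (ha : 0 < a) (hg : Nat.card G = p ^ a * q ^ b * g₀) (hcop : ¬ p ∣ g₀) (hcoq : ¬ q ∣ g₀) (hne : Nat.card G ≠ p) : p < 6 ^ (g₀ - 1) := by
  classical
  haveI := Fintype.ofFinite G
  haveI := Fact.mk hp
  have hpG : p ∣ Nat.card G := hg ▸ ((dvd_pow_self p ha.ne').mul_right _).mul_right _
  have hZ : center G = ⊥ := (normal_of_characteristic (center G)).eq_bot_or_eq_top.resolve_right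
    fun h => by
      letI : CommGroup G := { ‹Group G› with mul_comm := fun a b => mem_center_iff.1 (h ▸ mem_top b) a }
      exact hne ((Nat.prime_dvd_prime_iff_eq hp IsSimpleGroup.prime_card).1 hpG).symm
  obtain ⟨P⟩ : Nonempty (Sylow p G) := inferInstance
  haveI : Nontrivial P := Finite.one_lt_card_iff_nontrivial.1
    (hp.one_lt.trans_le (Nat.le_of_dvd Nat.card_pos (P.dvd_card_of_dvd_card hpG)))
  obtain ⟨z, hz, hzP⟩ : ∃ z : G, orderOf z = p ∧ (P : Subgroup G) ≤ centralizer {z} := by
    haveI := P.2.center_nontrivial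
    obtain ⟨k, hk0, hk⟩ := (P.2.to_subgroup (center P)).nontrivial_iff_card.1 this
    obtain ⟨z, hz⟩ := exists_prime_orderOf_dvd_card' (G := center P) p (hk ▸ dvd_pow_self p hk0.ne')
    exact ⟨z, by rw [orderOf_coe, orderOf_coe, hz], fun y hy => mem_centralizer_singleton_iff.2
      (congrArg Subtype.val (mem_center_iff.1 z.2 ⟨y, hy⟩))⟩
  obtain ⟨M, _⟩ := exists_pMod p
  obtain ⟨χ, hχ, h1, hqχ⟩ : ∃ χ ∈ principalBlock M G, χ ≠ irrOne G ∧ ¬ q ∣ charDegree χ.1 := by
    by_contra hc
    push Not at hc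
    have := sum_block_orth_weak (IsPBlock.isBlockUnion (isPBlock_principalBlock (M := M) (G := G)))
      (g := 1) (h := z) (by simpa using hp.one_lt.ne') hz.symm.dvd
    rw [← Finset.add_sum_erase _ _ (Finset.mem_univ (irrOne G)),
      if_pos irrOne_mem_principalBlock, irrOne_apply, irrOne_apply, one_mul] at this
    have hq0 : (q : ℂ) ≠ 0 := by exact_mod_cast hq.ne_zero
    refine hq.one_lt.ne' (Nat.dvd_one.1 (dvd_of_isIntegral_div hq.ne_zero ?_))
    rw [Nat.cast_one, eq_neg_of_add_eq_zero_left this, neg_div, Finset.sum_div]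
    refine (IsIntegral.sum _ fun χ hχ => ?_).neg
    split_ifs with e
    · obtain ⟨c, hc⟩ := hc χ e (Finset.ne_of_mem_erase hχ)
      rw [χ.2.apply_one_eq_charDegree, hc, Nat.cast_mul, mul_assoc, mul_div_cancel_left₀ _ hq0]
      exact (isIntegral_natCast c).mul (χ.2.isCharacter.isIntegral _)
    · simpa using isIntegral_zero
  set n := charDegree χ.1 with hn
  have hn0 : (n : ℂ) ≠ 0 := by exact_mod_cast χ.2.charDegree_pos.ne'
  have hβ : ∀ k : ℕ, IsIntegral ℤ (g₀ * χ.1 (z ^ k) / n) ∧ red M (g₀ * χ.1 (z ^ k) / n) = g₀ := by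
    intro k
    set h := (centralizer ({z ^ k} : Set G)).index with hh
    have h2 : ¬ p ∣ h := fun e => P.not_dvd_index (e.trans (index_dvd_of_le fun y hy =>
      mem_centralizer_singleton_iff.2 ((Commute.pow_right
        (mem_centralizer_singleton_iff.1 (hzP hy)) k).eq)))
    obtain ⟨c, hc⟩ : h ∣ q ^ b * g₀ := ((hp.coprime_iff_not_dvd.2 h2).pow_left a).symm.dvd_of_dvd_mul_left
      (by rw [← mul_assoc, ← hg]; exact index_dvd_card _)
    have hω := χ.2.isIntegral_centralChar (z ^ k)
    have e0 : centralChar χ.1 (z ^ k) = h * χ.1 (z ^ k) / n := by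
      rw [centralChar, χ.2.apply_one_eq_charDegree]
    have h3 : IsIntegral ℤ (g₀ * χ.1 (z ^ k) / n) := by
      obtain ⟨u, v, e⟩ := Nat.isCoprime_iff_coprime.2 ((hq.coprime_iff_not_dvd.2 hqχ).pow_left b)
      have e' : (u : ℂ) * q ^ b + v * n = 1 := by exact_mod_cast e
      have hc' : (q : ℂ) ^ b * g₀ = h * c := by exact_mod_cast hc
      rw [show g₀ * χ.1 (z ^ k) / n = u * c * centralChar χ.1 (z ^ k) + v * g₀ * χ.1 (z ^ k) by
        rw [e0]
        field_simp
        linear_combination (-χ.1 (z ^ k) * g₀) * e' + (u * χ.1 (z ^ k)) * hc']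
      exact (((isIntegral_intCast u).mul (isIntegral_natCast c)).mul hω).add
        (((isIntegral_intCast v).mul (isIntegral_natCast g₀)).mul
          (χ.2.isCharacter.isIntegral (z ^ k)))
    refine ⟨h3, mul_left_cancel₀ (red_natCast_ne_zero (M := M) h2) ?_⟩
    have h4 := (sameBlock_iff_red isIrrCharacter_one χ.2).1 hχ (z ^ k)
    rw [← red_mul (natCast_mem _ _) (mem_O_of_isIntegral h3), show (h : ℂ) * (g₀ * χ.1 (z ^ k) / n) =
      centralChar χ.1 (z ^ k) * g₀ by rw [e0]; ring, red_mul (mem_O_of_isIntegral hω)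
      (natCast_mem _ _), ← h4]
    simp [centralChar, hh]
  have hle := CH.le_of_few χ.2 ((χ.2.charCenter_eq_center (χ.2.charKer_eq_bot_of_simple fun e =>
    h1 (Subtype.ext e))).trans hZ) hp.pos hz (m := g₀) fun m ζ e1 e2 e3 => by
      obtain rfl : m = n := by exact_mod_cast e1.symm.trans χ.2.apply_one_eq_charDegree
      have key : ∀ μ ∈ Finset.univ.image ζ, n ≤ g₀ * (Finset.univ.filter (ζ · = μ)).card := by
        intro μ hμ
        obtain ⟨j, -, rfl⟩ := Finset.mem_image.1 hμ
        set A := (Finset.univ.filter (ζ · = ζ j)).card with hA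
        have h0 : ζ j ≠ 0 := fun e => by simpa [e, hp.ne_zero] using e2 j
        have hi : ∀ k : ℕ, (ζ j)⁻¹ ^ k ∈ O M ∧ red M ((ζ j)⁻¹ ^ k) = 1 := fun k => by
          have : ((ζ j)⁻¹ ^ k) ^ p ^ 1 = 1 := by rw [pow_one, pow_right_comm, inv_pow _ p, e2]; simp
          exact ⟨mem_O_of_pow_eq_one (by simpa using hp.ne_zero) this, red_eq_one_of_pow_p_pow this⟩
        have e4 : ∑ k ∈ Finset.range p, g₀ * χ.1 (z ^ k) / n * (ζ j)⁻¹ ^ k = (p * (g₀ * A) : ℕ) / n := by
          have : ∀ k : ℕ, g₀ * χ.1 (z ^ k) / n * (ζ j)⁻¹ ^ k = g₀ / n * ∑ i, (ζ i / ζ j) ^ k :=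
            fun k => by
              rw [← zpow_natCast z, e3]
              simp only [zpow_natCast, div_eq_mul_inv, mul_pow, ← Finset.sum_mul]
              ring
          rw [Finset.sum_congr rfl fun k _ => this k, ← Finset.mul_sum, Finset.sum_comm,
            Finset.sum_congr rfl (g := fun i => if ζ i = ζ j then (p : ℂ) else 0) fun i _ => by
              split_ifs with e
              · simp [e, h0]
              · rw [geom_sum_eq (by rwa [Ne, div_eq_one_iff_eq h0]), div_pow, e2, e2]
                simp, ← Finset.sum_filter, Finset.sum_const]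
          simp only [hA, nsmul_eq_mul]
          push_cast
          ring
        obtain ⟨c, hc⟩ := dvd_of_isIntegral_div (a := p * (g₀ * A)) χ.2.charDegree_pos.ne' (by
          rw [← e4]
          refine IsIntegral.sum _ fun k _ => (hβ k).1.mul (IsIntegral.pow ?_ k)
          exact IsIntegral.of_pow hp.pos (by rw [inv_pow, e2, inv_one]; exact isIntegral_one))
        have e5 := congrArg (red M) e4
        rw [red_sum _ fun k _ => mul_mem (mem_O_of_isIntegral (hβ k).1) (hi k).1,
          Finset.sum_congr rfl fun k _ => by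
            rw [red_mul (mem_O_of_isIntegral (hβ k).1) (hi k).1, (hβ k).2, (hi k).2, mul_one],
          hc, Nat.cast_mul, mul_div_cancel_left₀ _ hn0, red_natCast, Finset.sum_const,
          Finset.card_range, nsmul_eq_mul, CharP.cast_eq_zero, zero_mul, eq_comm,
          natCast_F_eq_zero_iff] at e5
        obtain ⟨c, rfl⟩ := e5
        refine Nat.le_of_dvd (Nat.mul_pos (Nat.pos_of_ne_zero (by rintro rfl; simp at hcop))
          (Finset.card_pos.2 ⟨j, by simp⟩)) ⟨c, Nat.eq_of_mul_eq_mul_left hp.pos ?_⟩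
        rw [hc]; ring
      have := Finset.card_nsmul_le_sum _ _ _ key
      rw [← Finset.mul_sum, ← Finset.card_eq_sum_card_image, Finset.card_univ, Fintype.card_fin,
        smul_eq_mul] at this
      exact Nat.le_of_mul_le_mul_right this χ.2.charDegree_pos
  refine hle.lt_of_ne fun e => ?_
  rcases Nat.eq_zero_or_pos (g₀ - 1) with h | h
  · exact hp.one_lt.ne' (by simpa [h] using e)
  · have h2 := (Nat.prime_dvd_prime_iff_eq Nat.prime_two hp).1
      (e ▸ (show 2 ∣ 6 by norm_num).trans (dvd_pow_self 6 h.ne'))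
    have h3 := (Nat.prime_dvd_prime_iff_eq Nat.prime_three hp).1
      (e ▸ (show 3 ∣ 6 by norm_num).trans (dvd_pow_self 6 h.ne'))
    omega

end Cfsg.Agent.S4484
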