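import Cfsg.Statements.S4485
import Cfsg.Agent.Block.Blich

set_option autoImplicit false
open Cfsg

namespace Cfsg.Agent.S4485

open Cfsg.Agent.Block Cfsg.Agent.BMod Cfsg.Agent.Char MonoidAlgebra

open Subgroup in
theorem normal {p : ℕ} [Fact p.Prime] (n : ℕ) : ∀ {G : Type*} [Group G] [Finite G], p ∣ Nat.card G →
    ∀ P : Sylow p G, (∀ x ∈ (P : Subgroup G), x ≠ 1 → centralizer ({x} : Set G) =
      centralizer ((P : Subgroup G) : Set G)) → ∀ χ : G → ℂ, IsCharacter G χ → (∀ g, χ g = χ 1 → g = 1) →
        charDegree χ ^ 2 + 1 < Nat.card P → Nat.card G = n → (P : Subgroup G).Normal := by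
  induction n using Nat.strong_induction_on with | _ n ih => ?_
  intro G _ _ hp P hs χ hχ hf hd hn
  have := Fintype.ofFinite G
  by_cases h : ∀ K : Subgroup G, K.Normal → (P : Subgroup G) ≤ K → K = ⊤
  · obtain ⟨m, hm, e⟩ := hχ.exists_nat_coeff
    refine ⟨fun x hx g => ?_⟩
    rw [show g * x * g⁻¹ = x from mul_inv_eq_one.1 (hf _ ?_)]; exact hx
    rw [e]
    simp only [Finset.sum_apply, Pi.smul_apply]
    refine Finset.sum_congr rfl fun φ _ => ?_
    by_cases h0 : m φ = 0
    · simp [h0]
    by_cases h1 : φ = irrOne G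
    · simp [h1]
    have h2 := hχ.apply_one_re_le_of_classInner_ne_zero φ.2 (by rw [hm]; exact_mod_cast h0)
    rw [← deg_cast hχ, ← deg_cast_irr] at h2
    rw [← commutatorElement_def, φ.2.apply_one_eq_one_iff.1 (by rw [← deg_cast_irr, (blich P hp hs h1 (lt_of_le_of_lt (by
      gcongr; exact_mod_cast h2) hd) h).2, Nat.cast_one]) _ (commutator_mem_commutator (mem_top g) (mem_top x))]
  push Not at h
  obtain ⟨K, hK, hK2, hK1⟩ := h
  have hQ : Nat.card (P.subtype hK2) = Nat.card P := Nat.card_congr (subgroupOfEquivOfLe hK2).toEquiv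
  have := ih _ (hn ▸ (card_top (G := G) ▸ Transfer.card_lt_of_lt hK1.lt_top))
    ((P.dvd_card_of_dvd_card hp).trans (card_dvd_of_le hK2)) (P.subtype hK2) (fun x hx h1 => ?_) _
    (hχ.restrict K) (fun g hg => Subtype.ext (hf g hg)) (hQ ▸ hd) rfl
  · have := Sylow.characteristic_of_normal _ this
    rw [← map_subgroupOf_eq_of_le hK2]
    exact inferInstanceAs ((P.subtype hK2).1.map K.subtype).Normal
  refine le_antisymm (fun g hg y hy => Subtype.ext ?_) (centralizer_le (Set.singleton_subset_iff.2 hx))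
  exact (hs x hx fun e => h1 (Subtype.ext e)).le (mem_centralizer_singleton_iff.2
    (congrArg Subtype.val (mem_centralizer_singleton_iff.1 hg))) y hy

/-- Let G be a finite group and p a prime dividing its order such that every non-identity element of a Sylow p-subgroup P has the same centralizer as P itself (so P is abelian); let p^n be the order of P. If G has a faithful character of degree x with x² < p^n − 1, then P is normal in G. -/
theorem result {G : Type*} [Group G] [Finite G] (p : ℕ) (hp : p.Prime) (hpG : p ∣ Nat.card G) (P : Sylow p G) (hstar : ∀ x ∈ (P : Subgroup G), x ≠ 1 → Subgroup.centralizer ({x} : Set G) = Subgroup.centralizer ((P : Subgroup G) : Set G)) (n : ℕ) (hn : Nat.card P = p ^ n) (χ : G → ℂ) (hχ : Cfsg.IsCharacter G χ) (hfaith : ∀ g : G, χ g = χ 1 → g = 1) (hdeg : Cfsg.charDegree χ ^ 2 + 1 < p ^ n) : (P : Subgroup G).Normal := by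
  have := Fact.mk hp
  exact normal _ hpG P hstar χ hχ hfaith (hn ▸ hdeg) rfl

end Cfsg.Agent.S4485
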