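import Cfsg.Statements.S4488
import Cfsg.Agent.CH.Lin

set_option autoImplicit false
open Cfsg

namespace Cfsg.Agent.S4488

open Cfsg.Agent.Char

/-- Let the finite group G have a faithful p-rational character χ of degree n (all values of χ lie in the field generated over ℚ by a root of unity of order prime to p), and let p^a be the order of a Sylow p-subgroup of G. Then a ≤ Σ_{i ≥ 0} ⌊n / ((p − 1)·p^i)⌋ (a finite sum; the terms vanish once (p − 1)p^i > n). -/
theorem result {G : Type*} [Group G] [Finite G] (p : ℕ) (hp : p.Prime) (χ : G → ℂ) (hχ : Cfsg.IsCharacter G χ) (hfaith : ∀ g : G, χ g = χ 1 → g = 1) (hrat : (∃ r : ℕ, 0 < r ∧ ¬ p ∣ r ∧ ∀ g : G, χ g ∈ IntermediateField.adjoin ℚ ({Complex.exp (2 * Real.pi * Complex.I / r)} : Set ℂ))) (n : ℕ) (hn : Cfsg.charDegree χ = n) : (Nat.card G).factorization p ≤ ∑ i ∈ Finset.range (n + 1), n / ((p - 1) * p ^ i) := by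
  subst hn
  set n := charDegree χ
  haveI := Fact.mk hp
  obtain ⟨P⟩ : Nonempty (Sylow p G) := inferInstance
  obtain ⟨r, hr0, hr, hK⟩ := hrat
  have h1 := CH.card_dvd_of_rat (hχ.restrict P) (fun g hg => Subtype.ext (hfaith _ hg)) hp P.2
    fun x m hm => by
      obtain ⟨k, hk⟩ := IsPGroup.iff_orderOf.1 P.2 x
      have hc : (p ^ k).Coprime r := (hp.coprime_iff_not_dvd.2 hr).pow_left k
      obtain ⟨m', h1, h2⟩ := Nat.chineseRemainder hc m 1
      obtain ⟨σ, hσ⟩ := exists_ringEquiv_pow (n := p ^ k * r) (m := m')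
        (Nat.mul_ne_zero (pow_pos hp.pos k).ne' hr0.ne')
        (Nat.Coprime.mul_right (h1.gcd_eq.trans (hm.pow_right _)) (h2.gcd_eq.trans (by simp)))
      have e : x ^ m = x ^ m' := pow_eq_pow_iff_modEq.2 (hk ▸ h1.symm)
      rw [e, (hχ.restrict P).apply_pow_eq_map (σ : ℂ →+* ℂ) hσ
        (by rw [pow_mul, ← hk, pow_orderOf_eq_one, one_pow])]
      have hζ := (Complex.isPrimitiveRoot_exp r hr0.ne').pow_eq_one
      refine IntermediateField.adjoin_induction ℚ (p := fun y _ => σ y = y) ?_ (fun q => by simp)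
        (fun a b _ _ ha hb => by rw [map_add, ha, hb]) (fun a _ ha => by rw [map_inv₀, ha])
        (fun a b _ _ ha hb => by rw [map_mul, ha, hb]) (hK x)
      rintro _ rfl
      rw [hσ _ (by rw [pow_mul', hζ, one_pow]), pow_eq_pow_of_modEq h2 hζ, pow_one]
  have := hp.pos
  change _ ∣ p ^ (n / (p - 1)) * (n / (p - 1)).factorial at h1
  rw [P.card_eq_multiplicity, hp.pow_dvd_iff_le_factorization (by positivity),
    Nat.factorization_mul (by positivity) (by positivity), Finsupp.add_apply, hp.factorization_pow,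
    Finsupp.single_eq_same, Nat.factorization_factorial hp (b := n + 1) (Nat.lt_succ_of_le
      ((Nat.log_le_self _ _).trans (Nat.div_le_self _ _)))] at h1
  rw [Finset.range_eq_Ico, Finset.sum_eq_sum_Ico_succ_bot n.succ_pos]
  simpa [Nat.div_div_eq_div_mul] using h1

end Cfsg.Agent.S4488
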