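import Cfsg.Statements.S4489
import Mathlib
import Cfsg.Agent.CharDeep.MGroup
import Cfsg.Agent.Char.Burnside
import Cfsg.Agent.CharDeep.Det
import Cfsg.Agent.Solv.Frattini

set_option autoImplicit false
open Cfsg

namespace Cfsg.Agent.S4489

open Cfsg.Agent.Char Cfsg.Agent.CharDeep Subgroup

def gal {G : Type*} (χ : G → ℂ) : Set (G → ℂ) := Set.range fun σ : ℂ ≃+* ℂ => fun g => σ (χ g)

theorem gal_finite {G : Type*} [Group G] [Finite G] {χ : G → ℂ} (h : IsIrrCharacter G χ) :
    (gal χ).Finite :=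
  (Set.finite_range fun φ : IrrCharacter G => φ.1).subset fun _ ⟨σ, e⟩ =>
    ⟨⟨_, h.map_ringHom (σ : ℂ →+* ℂ)⟩, e⟩

theorem indFun_map {G : Type*} [Group G] [Fintype G] (H : Subgroup G) (θ : H → ℂ) (σ : ℂ ≃+* ℂ) :
    indFun H (fun h => σ (θ h)) = fun g => σ (indFun H θ g) := by
  classical
  ext g
  simp only [indFun_apply, map_mul, map_inv₀, map_natCast, map_sum, extendByZero_apply]
  refine congrArg _ (Finset.sum_congr rfl fun x _ => ?_)
  split_ifs <;> simp

theorem aux.{u} {p : ℕ} (hp : p.Prime) (n : ℕ) : ∀ (G : Type u) [Group G] [Finite G],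
    Nat.card G = n → IsPGroup p G → ∀ χ : G → ℂ, IsIrrCharacter G χ → (χ ≠ fun _ => 1) →
    ∀ a t : ℕ, (charKer χ).index = p ^ a → (gal χ).ncard ≤ (p - 1) * p ^ t →
    (p - 1) * a + 1 ≤ charDegree χ + (p - 1) * (t + 1) * charDegree χ := by
  induction n using Nat.strong_induction_on with | _ n ih => ?_
  intro G _ _ hn hG χ hχ h1 a t ha ht
  haveI := Fact.mk hp
  haveI := Fintype.ofFinite G
  haveI := hG.isNilpotent
  by_cases hd : χ 1 = 1
  · obtain ⟨lam, rfl⟩ := hχ.isCharacter.exists_hom_of_apply_one hd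
    have e : charKer (fun g => (lam g : ℂ)) = lam.ker := by
      ext g
      simp [hχ.isCharacter.mem_charKer]
    haveI : Finite lam.range := Finite.of_surjective _ lam.rangeRestrict_surjective
    obtain ⟨⟨_, g, rfl⟩, hg⟩ := IsCyclic.exists_ofOrder_eq_natCard (α := lam.range)
    rw [← index_ker, ← e, ha, ← orderOf_coe, ← orderOf_units] at hg
    have hζ : IsPrimitiveRoot (lam g : ℂ) (p ^ a) := hg ▸ IsPrimitiveRoot.orderOf _
    rcases a with _ | a
    · simp [charDegree]
    have h2 : (primitiveRoots (p ^ (a + 1)) ℂ : Set ℂ) ⊆ (fun θ => θ g) '' gal fun g => (lam g : ℂ) := by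
      intro y hy
      haveI : NeZero (p ^ (a + 1)) := ⟨(pow_pos hp.pos _).ne'⟩
      obtain ⟨m, -, hm, rfl⟩ := (hζ.isPrimitiveRoot_iff).1
        ((mem_primitiveRoots (pow_pos hp.pos _)).1 hy)
      obtain ⟨σ, hσ⟩ := exists_ringEquiv_pow (pow_pos hp.pos _).ne' hm
      exact ⟨_, ⟨σ, rfl⟩, hσ _ hζ.pow_eq_one⟩
    have h3 := ((Set.ncard_le_ncard h2 ((gal_finite hχ).image _)).trans
      (Set.ncard_image_le (gal_finite hχ))).trans ht
    rw [Set.ncard_coe_finset, hζ.card_primitiveRoots, Nat.totient_prime_pow_succ hp, mul_comm] at h3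
    have h4 := (Nat.pow_le_pow_iff_right hp.one_lt).1
      (Nat.le_of_mul_le_mul_left h3 (by have := hp.two_le; omega))
    have := Nat.mul_le_mul_left (p - 1) (Nat.add_le_add_right h4 1)
    simp [charDegree]
    omega
  obtain ⟨M, ψ, hM, hMi, hψ, rfl⟩ : ∃ (M : Subgroup G) (ψ : M → ℂ), M.Normal ∧ M.index = p ∧
      IsIrrCharacter M ψ ∧ χ = indFun M ψ := by
    obtain ⟨H, lam, rfl⟩ := isMonomial_of_isNilpotent hχ
    obtain ⟨M, hM, hHM⟩ := (eq_top_or_exists_le_coatom H).resolve_left (by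
      rintro rfl
      simp [indFun_one] at hd)
    haveI := Fintype.ofFinite M
    haveI := Solv.normal_of_isCoatom hM
    obtain ⟨k, hk⟩ := hG.index M
    have hq := Solv.prime_index_of_isCoatom hM
    rw [← indFun_indFun_of_le H M hHM] at hχ ⊢
    refine ⟨M, _, this, ((Nat.prime_dvd_prime_iff_eq hq hp).1 (hq.dvd_of_dvd_pow hk.dvd)),
      isIrr_of_isIrr_indFun M (isCharacter_indFun _ ((isCharacter_hom lam).comp
        (subgroupOfEquivOfLe hHM).toMonoidHom)) hχ, rfl⟩
  haveI := Fintype.ofFinite M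
  haveI := Fintype.ofFinite (G ⧸ M)
  have hf : charDegree (indFun M ψ) = p * charDegree ψ :=
    charDegree_eq_of_apply_one (by simp [indFun_one, hMi, hψ.apply_one_eq_charDegree])
  have hψ1 : ψ ≠ fun _ => 1 := by
    rintro rfl
    refine h1 (hχ.eq_of_classInner_ne_zero isIrrCharacter_one ?_)
    rw [classInner_indFun_left _ _ (isClassFunction_const 1), hψ.classInner_self]
    exact one_ne_zero
  obtain ⟨b, hb⟩ := (hG.to_subgroup M).index (charKer ψ)
  have IH := ih _ (hn ▸ card_lt_of_ne_top (by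
    rintro rfl
    exact hp.one_lt.ne (by simpa using hMi))) M rfl (hG.to_subgroup M) ψ hψ hψ1 b
  have hker : ∀ L : Subgroup M, (∀ g, L ≤ charKer (conjN M g ψ)) → p ^ a ≤ p * L.index := by
    intro L hL
    rw [← ha, ← hMi, mul_comm, ← index_map_subtype]
    refine index_antitone ?_
    rintro _ ⟨m, hm, rfl⟩
    refine hχ.isCharacter.mem_charKer.2 ((indFun_normal_coe M ψ m).trans
      (Eq.trans ?_ (indFun_normal_coe M ψ 1).symm))
    exact congrArg _ (Finset.sum_congr rfl fun x _ =>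
      (isCharacter_conjN M hψ.isCharacter x).mem_charKer.1 (hL x hm))
  have hout : ∀ (g : G) (θ : M → ℂ), IsClassFunction M θ →
      conjN M (g : G ⧸ M).out θ = conjN M g θ := fun g θ hθ => by
    obtain ⟨m, hm⟩ := QuotientGroup.mk_out_eq_mul M g
    rw [hm, conjN_mul, conjN_of_mem M (isClassFunction_conjN M hθ g) m.2]
  have hcj : ∀ σ τ : ℂ ≃+* ℂ, (fun g => σ (indFun M ψ g)) = (fun g => τ (indFun M ψ g)) →
      ∃ g, conjN M g (fun m => σ (ψ m)) = fun m => τ (ψ m) := fun σ τ h => by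
    have key : ∀ ρ : ℂ ≃+* ℂ, classInner (fun m : M => ρ (indFun M ψ m)) (fun m => ρ (ψ m)) ≠ 0 :=
      fun ρ => by
        have hρ : IsIrrCharacter G fun g => ρ (indFun M ψ g) := hχ.map_ringHom (ρ : ℂ →+* ℂ)
        rw [← classInner_indFun_right M _ hρ.isClassFunction, indFun_map]
        exact hρ.classInner_self.trans_ne one_ne_zero
    exact exists_conjN_eq M (hχ.map_ringHom (σ : ℂ →+* ℂ)) (hψ.map_ringHom (σ : ℂ →+* ℂ))
      (hψ.map_ringHom (τ : ℂ →+* ℂ)) (key σ) (by
        convert key τ using 2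
        exact funext fun m => congrFun h m)
  choose! s hs using fun θ (h : θ ∈ gal (indFun M ψ)) => h
  have hpos := hψ.charDegree_pos
  obtain ⟨r, rfl⟩ : ∃ r, p = r + 2 := ⟨p - 2, by have := hp.two_le; omega⟩
  rw [hf]
  by_cases hc : ∀ (σ : ℂ ≃+* ℂ) (g : G), conjN M g ψ = (fun m => σ (ψ m)) → conjN M g ψ = ψ
  · have h2 : gal ψ ⊆ (fun θ m => s θ (ψ m)) '' gal (indFun M ψ) := by
      rintro _ ⟨τ, rfl⟩
      obtain ⟨g, hg⟩ := hcj _ τ (hs _ ⟨τ, rfl⟩)
      refine ⟨_, ⟨τ, rfl⟩, Eq.trans ?_ hg⟩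
      have := hc (τ.trans (s _).symm) g (funext fun m =>
        (RingEquiv.eq_symm_apply _).2 (congrFun hg m))
      exact funext fun m => congrArg (s _) (congrFun this m).symm
    replace IH := IH t hb (((Set.ncard_le_ncard h2 ((gal_finite hχ).image _)).trans
      (Set.ncard_image_le (gal_finite hχ))).trans ht)
    have h3 := hker (⨅ q : G ⧸ M, charKer (conjN M q.out ψ)) fun g =>
      (iInf_le _ (g : G ⧸ M)).trans_eq (by rw [hout g ψ hψ.isClassFunction])
    have h4 : ∀ g, (charKer (conjN M g ψ)).index = (r + 2) ^ b := fun g => by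
      rw [← hb, ← index_comap_of_surjective (charKer ψ)
        (f := (MulAut.conjNormal g : MulAut M).toMonoidHom) (MulAut.conjNormal g).surjective]
      congr 1
      ext m
      rw [(isCharacter_conjN M hψ.isCharacter g).mem_charKer, mem_comap,
        hψ.isCharacter.mem_charKer, conjN_apply_one]
      rfl
    have h5 := h3.trans (Nat.mul_le_mul_left _ (index_iInf_le _))
    simp only [h4, Finset.prod_const, Finset.card_univ, ← Nat.card_eq_fintype_card, ← index_eq_card,
      hMi, ← pow_mul, ← pow_succ'] at h5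
    have h6 := (Nat.pow_le_pow_iff_right hp.one_lt).1 h5
    simp only [show r + 2 - 1 = r + 1 from rfl] at IH ⊢
    nlinarith [Nat.mul_le_mul_left (r + 2) IH, Nat.mul_le_mul_left (r + 1) h6]
  · push Not at hc
    obtain ⟨σ, g, e1, e2⟩ := hc
    have h2 : gal ψ ⊆ (fun x : (G → ℂ) × (G ⧸ M) => conjN M x.2.out fun m => s x.1 (ψ m)) ''
        gal (indFun M ψ) ×ˢ Set.univ := by
      rintro _ ⟨τ, rfl⟩
      obtain ⟨g, hg⟩ := hcj _ τ (hs _ ⟨τ, rfl⟩)
      exact ⟨(_, g), ⟨⟨τ, rfl⟩, trivial⟩,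
        (hout g _ (hψ.map_ringHom (s _ : ℂ →+* ℂ)).isClassFunction).trans hg⟩
    have hfin := (gal_finite hχ).prod (Set.finite_univ (α := G ⧸ M))
    replace IH := IH (t + 1) hb (((Set.ncard_le_ncard h2 (hfin.image _)).trans
      (Set.ncard_image_le hfin)).trans (by
        rw [Set.ncard_prod, Set.ncard_univ, ← index_eq_card, hMi, pow_succ, ← mul_assoc]
        exact Nat.mul_le_mul_right _ ht))
    have hN : normalizer ((charKer ψ).map M.subtype : Set G) = ⊤ := by
      haveI := hψ.isClassFunction.normal_charKer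
      have a1 : M ≤ normalizer ((charKer ψ).map M.subtype : Set G) := by
        simpa [normalizer_eq_top, ← MonoidHom.range_eq_map] using
          le_normalizer_map (H := charKer ψ) M.subtype
      refine index_eq_one.1 (((Nat.dvd_prime hp).1 (hMi ▸ index_dvd_of_le a1)).resolve_right
        fun h => e2 (conjN_of_mem M hψ.isClassFunction ?_))
      rw [eq_of_le_of_card_ge a1 (Nat.eq_of_mul_eq_mul_right hp.pos (by
        rw [← h, card_mul_index, h, ← hMi, card_mul_index])).le]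
      refine mem_normalizer_fintype ?_
      rintro _ ⟨m, hm, rfl⟩
      refine ⟨⟨_, hM.conj_mem _ m.2 g⟩, hψ.isCharacter.mem_charKer.2 ?_, rfl⟩
      have := congrFun e1 m
      rw [hψ.isCharacter.mem_charKer.1 hm, ← congrFun e1 1, conjN_apply_one] at this
      exact this
    have h3 := hker (charKer ψ) fun x m hm => by
      obtain ⟨y, hy, e⟩ := (normalizer_eq_top_iff.1 hN).conj_mem _ ⟨m, hm, rfl⟩ x
      rw [(isCharacter_conjN M hψ.isCharacter x).mem_charKer, conjN_apply_one,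
        ← hψ.isCharacter.mem_charKer.1 hy]
      exact congrArg ψ (Subtype.ext e.symm)
    rw [hb, ← pow_succ'] at h3
    have h6 := (Nat.pow_le_pow_iff_right hp.one_lt).1 h3
    simp only [show r + 2 - 1 = r + 1 from rfl] at IH ⊢
    obtain ⟨d, hd⟩ : ∃ d, charDegree ψ = d + 1 := ⟨_, (Nat.succ_pred_eq_of_pos hpos).symm⟩
    rw [hd] at IH ⊢
    nlinarith [Nat.mul_le_mul_left (r + 1) h6, Nat.zero_le (r * r * t * d), Nat.zero_le (r * t * d),
      Nat.zero_le (r * r * d), Nat.zero_le (r * r * t), Nat.zero_le (r * d), Nat.zero_le (r * t),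
      Nat.zero_le (t * d)]

/-- Let P be a finite p-group of order p^a with a > 0, and χ a faithful irreducible character of P of degree f whose field of values ℚ(χ) has degree (p − 1)·p^t over ℚ. Then a ≤ (f − 1)/(p − 1) + (t + 1)·f; in integer form, (p − 1)·a ≤ (f − 1) + (p − 1)(t + 1)·f. -/
theorem result {P : Type*} [Group P] [Finite P] (p a : ℕ) (hp : p.Prime) (ha : 0 < a) (hP : Nat.card P = p ^ a) (χ : Cfsg.IrrCharacter P) (hfaith : ∀ g : P, (χ : P → ℂ) g = (χ : P → ℂ) 1 → g = 1) (f t : ℕ) (hf : Cfsg.charDegree (χ : P → ℂ) = f) (hfield : Module.finrank ℚ (IntermediateField.adjoin ℚ (Set.range (χ : P → ℂ))) = (p - 1) * p ^ t) : (p - 1) * a ≤ (f - 1) + (p - 1) * (t + 1) * f := by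
  subst hf
  have hk : charKer χ.1 = ⊥ := (eq_bot_iff_forall _).2 fun g hg =>
    hfaith g (χ.2.isCharacter.mem_charKer.1 hg)
  have := aux hp _ P rfl (IsPGroup.of_card hP) χ χ.2 (fun h => by
    rw [← χ.2.charKer_eq_top_iff, hk] at h
    have := congrArg (fun H : Subgroup P => Nat.card H) h
    rw [card_bot, card_top, hP] at this
    exact (Nat.one_lt_pow ha.ne' hp.one_lt).ne this) a t (by rw [hk, index_bot, hP]) (by
    set K := IntermediateField.adjoin ℚ (Set.range χ.1)
    haveI : FiniteDimensional ℚ K := Module.finite_of_finrank_pos (by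
      have := hp.two_le
      rw [hfield]
      exact Nat.mul_pos (by omega) (pow_pos hp.pos t))
    rw [← hfield, ← AlgHom.card ℚ K ℂ, ← Nat.card_eq_fintype_card, ← Set.ncard_univ]
    refine le_trans (Set.ncard_le_ncard (t := (fun (τ : K →ₐ[ℚ] ℂ) g =>
      τ ⟨χ.1 g, IntermediateField.subset_adjoin _ _ ⟨g, rfl⟩⟩) '' Set.univ) ?_) Set.ncard_image_le
    rintro _ ⟨σ, rfl⟩
    exact ⟨((σ : ℂ →+* ℂ).toRatAlgHom).comp K.val, trivial, rfl⟩)
  have := χ.2.charDegree_pos
  omega

end Cfsg.Agent.S4489
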