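import Cfsg.Statements.S4493
import Cfsg.Agent.Block.PSolv

set_option autoImplicit false
open Cfsg

namespace Cfsg.Agent.S4493

open Cfsg.Agent.Block Cfsg.Agent.BMod Cfsg.Agent.Char MonoidAlgebra


/-- Let G be a finite solvable group and p a prime. Then G has a normal abelian Sylow p-subgroup if and only if no irreducible character degree of G is divisible by p. -/
theorem result {G : Type*} [Group G] [Finite G] (hsolv : Group.IsSolvable G) (p : ℕ) (hp : p.Prime) : (∃ P : Subgroup G, P.Normal ∧ (∀ x ∈ P, ∀ y ∈ P, x * y = y * x) ∧ IsPGroup p P ∧ ¬ p ∣ P.index) ↔ ∀ χ : Cfsg.IrrCharacter G, ¬ p ∣ Cfsg.charDegree (χ : G → ℂ) := by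
  have := Fact.mk hp
  obtain ⟨S⟩ : Nonempty (Sylow p G) := inferInstance
  rw [← ito_psolv PLocal.pSolv_of_isSolvable S]
  refine ⟨fun ⟨P, h1, h2, h3, h4⟩ => ?_, fun ⟨h1, h2⟩ => ⟨S, h1, fun x hx y hy => congrArg Subtype.val
    (mul_comm' (⟨x, hx⟩ : S) ⟨y, hy⟩), S.isPGroup', S.not_dvd_index⟩⟩
  rw [Transfer.IsSylowIn.eq_of_le ⟨le_top, h3, by rwa [Subgroup.relIndex_top_right]⟩ S.isPGroup' le_top
    ((Solv.le_pCore h3).trans (Solv.pCore_le_sylow S))]
  exact ⟨h1, ⟨⟨fun x y => Subtype.ext (h2 x x.2 y y.2)⟩⟩⟩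

end Cfsg.Agent.S4493
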