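import Cfsg.Statements.S4495
import Cfsg.Agent.Small.SelfCent

set_option autoImplicit false
open Cfsg

namespace Cfsg.Agent.S4495

/-- Let the finite group G contain an element x of prime order p with C_G(x) = ⟨x⟩, and let t be the number of conjugacy classes of elements of order p. If t ≠ p − 1 then the commutator subgroup has index at most (p − 1)/t; if t = p − 1 it has index exactly p. -/
theorem result {G : Type*} [Group G] [Finite G] (p : ℕ) (hp : p.Prime) (x : G) (hx : orderOf x = p) (hC : Subgroup.centralizer ({x} : Set G) = Subgroup.zpowers x) (t : ℕ) (ht : Nat.card {C : ConjClasses G // ∃ g ∈ C.carrier, orderOf g = p} = t) : (t ≠ p - 1 → (commutator G).index * t ≤ p - 1) ∧ (t = p - 1 → (commutator G).index = p) := by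
  have : Fact p.Prime := ⟨hp⟩
  have h := Small.defOne_bot hx hC
  rw [h.card_classes'] at ht
  subst ht
  rw [← h.range_eq_bot_iff, Ne, ← h.range_eq_bot_iff]
  refine ⟨fun e => ?_, fun e => (h.index_commutator_of_bot e).1⟩
  rw [← Small.index_mul_card_EE (Small.expo h.ord).range, mul_comm]
  exact Nat.mul_le_mul_left _ (Nat.le_of_dvd Nat.card_pos
    (h.index_dvd _ (h.mem_commutator_iff.2 e)))

end Cfsg.Agent.S4495
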