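import Cfsg.Statements.S4497
import Cfsg.Agent.Small.SelfCent

set_option autoImplicit false
open Cfsg

namespace Cfsg.Agent.S4497

/-- Let the finite group G contain an element x of prime order p with C_G(x) = ⟨x⟩, let t be the number of conjugacy classes of elements of order p, and let S* = O_{p′}(G) be the largest normal subgroup of order prime to p. Then S* ≤ G′; if t ≠ p − 1 the quotient G′/S* is simple (in particular non-trivial); if t = p − 1 then G′ = S*. -/
theorem result {G : Type*} [Group G] [Finite G] (p : ℕ) (hp : p.Prime) (x : G) (hx : orderOf x = p) (hC : Subgroup.centralizer ({x} : Set G) = Subgroup.zpowers x) (t : ℕ) (ht : Nat.card {C : ConjClasses G // ∃ g ∈ C.carrier, orderOf g = p} = t) : Cfsg.pPrimeCore p G ≤ commutator G ∧ (t ≠ p - 1 → ∀ h : ((Cfsg.pPrimeCore p G).subgroupOf (commutator G)).Normal, IsSimpleGroup (↥(commutator G) ⧸ (Cfsg.pPrimeCore p G).subgroupOf (commutator G))) ∧ (t = p - 1 → commutator G = Cfsg.pPrimeCore p G) := by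
  have : Fact p.Prime := ⟨hp⟩
  have h := Small.defOne_bot hx hC
  rw [h.card_classes'] at ht
  subst ht
  rw [← h.range_eq_bot_iff, Ne, ← h.range_eq_bot_iff]
  have h0 := Solv.not_dvd_card_pPrimeCore p G
  have h1 := h.le_commutator h0
  refine ⟨h1, fun e _ => ?_, fun e => le_antisymm (Solv.le_pPrimeCore ?_) h1⟩
  · have hx' := h.mem_commutator_iff.2 e
    have h' := h.subgroup_bot hx'
    have : Nontrivial (commutator G ⧸ (pPrimeCore p G).subgroupOf (commutator G)) :=
      ⟨⟨(⟨x, hx'⟩ : commutator G), 1, fun e => h0 (h.dvd_card_of_mem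
        ((QuotientGroup.eq_one_iff (⟨x, hx'⟩ : commutator G)).1 e))⟩⟩
    refine ⟨fun M hM => ?_⟩
    let M' := M.comap (QuotientGroup.mk' ((pPrimeCore p G).subgroupOf (commutator G)))
    have hM' : M = M'.map (QuotientGroup.mk' _) :=
      (Subgroup.map_comap_eq_self_of_surjective (QuotientGroup.mk'_surjective _) M).symm
    by_cases hd : p ∣ Nat.card M'
    · right
      have h2 : commutator G = Subgroup.normalClosure {x} := le_antisymm
        (h.commutator_le _ (Subgroup.subset_normalClosure rfl))
        (Subgroup.normalClosure_le_normal (by simpa using hx'))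
      have h3 : ∀ L : Subgroup G, L = Subgroup.normalClosure {x} → ∀ (hL : x ∈ L) (H : Subgroup L),
          H.Normal → ⟨x, hL⟩ ∈ H → H = ⊤ := by
        rintro _ rfl _ H hH h1
        exact h.eq_top_normalClosure H hH h1
      rw [hM', h3 _ h2 hx' M' inferInstance (h'.mem_of_dvd_card M' hd),
        Subgroup.map_top_of_surjective _ (QuotientGroup.mk'_surjective _)]
    · left
      rw [hM', Subgroup.map_eq_bot_iff, QuotientGroup.ker_mk']
      intro g hg
      exact Solv.map_subtype_pPrimeCore_le _ ⟨g, Solv.le_pPrimeCore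
        (hp.coprime_iff_not_dvd.2 hd).symm hg, rfl⟩
  · exact (hp.coprime_iff_not_dvd.2 fun e1 =>
      h.notMem_commutator e (h.mem_of_dvd_card _ e1)).symm

end Cfsg.Agent.S4497
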