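import Cfsg.Statements.S4498
import Cfsg.Agent.Small.BT

set_option autoImplicit false
open Cfsg

namespace Cfsg.Agent.S4498

open Cfsg.Agent.Small Cfsg.Agent.Char Cfsg.Agent.Block in

/-- Let p and q be distinct primes dividing the order of the finite group G, and suppose G has no element of order p·q. Fix maximal ideals M_p over p and M_q over q of the algebraic integers. Then the principal p-block and the principal q-block of G have a non-principal irreducible character in common. -/
theorem result {G : Type*} [Group G] [Finite G] (p q : ℕ) [Fact p.Prime] [Fact q.Prime] (hpq : p ≠ q) (hp : p ∣ Nat.card G) (hq : q ∣ Nat.card G) (hno : ∀ g : G, orderOf g ≠ p * q) (Mp Mq : Ideal Cfsg.AlgInt) (hMp : Cfsg.IsPModular p Mp) (hMq : Cfsg.IsPModular q Mq) : ∃ χ : Cfsg.IrrCharacter G, (χ : G → ℂ) ≠ (fun _ => 1) ∧ χ ∈ Cfsg.principalBlock Mp G ∧ χ ∈ Cfsg.principalBlock Mq G := by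
  classical
  have : PMod p Mp := ⟨hMp⟩
  have : PMod q Mq := ⟨hMq⟩
  have := Fintype.ofFinite G
  obtain ⟨x, hx⟩ := exists_prime_orderOf_dvd_card' p hp
  obtain ⟨y, hy⟩ := exists_prime_orderOf_dvd_card' q hq
  by_contra! hne
  have h := blockPart_eq_zero_of_singular (isBlockUnion_principal (M := Mq))
    (θ := ∑ χ : IrrCharacter G, (if χ ∈ principalBlock Mp G then χ.1 x⁻¹ else 0) • (χ : G → ℂ))
    (fun g hg => by
      refine Eq.trans ?_ (sum_block_orth_weak (isBlockUnion_principal (M := Mp)) (g := g) (h := x)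
        (fun h => ?_) (hx ▸ dvd_rfl))
      · rw [Finset.sum_apply]
        refine Finset.sum_congr rfl fun χ _ => ?_
        split_ifs <;> simp [mul_comm]
      · obtain ⟨k, hk⟩ := Nat.Coprime.mul_dvd_of_dvd_of_dvd
          ((Nat.coprime_primes Fact.out Fact.out).2 hpq) h hg
        have h0 : k ≠ 0 := by rintro rfl; exact (orderOf_pos g).ne' hk
        refine hno (g ^ k) ?_
        rw [orderOf_pow' _ h0, hk, Nat.gcd_mul_left_left, Nat.mul_div_cancel _ (by omega)])
    (hy ▸ dvd_rfl : q ∣ orderOf y)
  rw [blockPart_eq, Finset.sum_apply, Finset.sum_eq_single (irrOne G) (fun χ _ h1 => ?_)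
    (by simp), classInner_sum_irr, if_pos irrOne_mem_principal, if_pos irrOne_mem_principal] at h
  · simp at h
  · rw [classInner_sum_irr]
    split_ifs with h2 h3
    · exact absurd h2 (hne χ (fun e => h1 (Subtype.ext e)) h3)
    · simp
    · simp

end Cfsg.Agent.S4498
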