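import Cfsg.Statements.S4500
import Cfsg.Agent.Small.BT
import Cfsg.Agent.BMod.Rank

set_option autoImplicit false
open Cfsg

namespace Cfsg.Agent.S4500

open Cfsg.Agent.Small Cfsg.Agent.Char Cfsg.Agent.Block in
theorem aux {G : Type*} [Group G] [Finite G] [Nontrivial G] (p q r a b c : ℕ) (hp : p.Prime)
    (hq : q.Prime) (hr : r.Prime) (ha : a ≤ 2) (hpq : p ≠ q) (hpr : p ≠ r)
    (hG : Nat.card G = p ^ a * q ^ b * r ^ c) : ∃ χ : Cfsg.IrrCharacter G,
      (χ : G → ℂ) ≠ (fun _ => 1) ∧ ∃ k : ℕ, Cfsg.charDegree (χ : G → ℂ) = q ^ k := by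
  classical
  rcases Nat.eq_zero_or_pos a with rfl | h0
  · have := isSolvable_of_card_eq_prime_pow_mul hq hr (by simpa using hG)
    have h1 := Subgroup.one_lt_index_of_ne_top (Group.IsSolvable.commutator_lt_top_of_nontrivial G).ne
    rw [← card_hom_units_complex] at h1
    have : Finite (G →* ℂˣ) := Nat.finite_of_card_ne_zero (by omega)
    have := Finite.one_lt_card_iff_nontrivial.1 h1
    obtain ⟨l, hl⟩ := exists_ne (1 : G →* ℂˣ)
    exact ⟨⟨_, isIrrCharacter_hom l⟩, fun e => hl (MonoidHom.ext fun g =>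
      Units.ext (congrFun e g)), 0, charDegree_eq_of_apply_one (by simp)⟩
  have := Fact.mk hp
  have := Fact.mk hr
  obtain ⟨M, _⟩ := exists_pmod p
  obtain ⟨M', _⟩ := exists_pmod r
  obtain ⟨x, hx⟩ := exists_prime_orderOf_dvd_card' (G := G) p
    (hG ▸ ((dvd_pow_self p h0.ne').mul_right _).mul_right _)
  have h1 := sum_block_orth_weak (isBlockUnion_principal (M := M)) (g := 1) (h := x)
    (by simpa using hp.one_lt.ne') (hx ▸ dvd_rfl)
  obtain ⟨χ, h2, h3, h4⟩ : ∃ χ ∈ principalBlock M G, χ ≠ irrOne G ∧ ¬ r ∣ charDegree χ.1 := by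
    by_contra! hne
    have h2 := congrArg (red M') h1
    rw [red_sum _ fun χ _ => by
        split_ifs
        exacts [(O M').mul_mem (irr_mem_O _ _) (irr_mem_O _ _), (O M').zero_mem],
      Finset.sum_eq_single (irrOne G) (fun χ _ h3 => ?_) (by simp),
      if_pos irrOne_mem_principal] at h2
    · simp at h2
    · split_ifs with h4
      · rw [red_mul (irr_mem_O _ _) (irr_mem_O _ _), ← deg_cast_irr, red_natCast,
          (natCast_F_eq_zero_iff _).2 (hne χ h4 h3), zero_mul]
      · exact red_zero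
  have h5 : ¬ p ∣ charDegree χ.1 := fun h => by
    have e1 := blockDefect_eq_of_not_dvd (p := p) (irrOne_mem_principal (M := M) (G := G))
      (by simpa using hp.one_lt.ne')
    have e2 := deg_add_defect p h2
    have e3 := (hp.dvd_iff_one_le_factorization (deg_ne_zero χ.2)).1 h
    have e4 := BMod.height_add_two_le isPBlock_principalBlock h2 (by omega)
    rw [e1] at e4
    rw [e1, add_comm, add_right_inj] at e2
    rw [hG, Nat.factorization_mul (by positivity [hp.pos, hq.pos]) (by positivity [hr.pos]),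
      Nat.factorization_mul (by positivity [hp.pos]) (by positivity [hq.pos]),
      hp.factorization_pow, hq.factorization_pow, hr.factorization_pow] at e4
    simp [hpq, hpr] at e4
    omega
  have h6 := χ.2.charDegree_dvd_card
  rw [hG] at h6
  obtain ⟨k, -, hk⟩ := (Nat.dvd_prime_pow hq).1 (Nat.Coprime.dvd_of_dvd_mul_left
    (((hp.coprime_iff_not_dvd).2 h5).symm.pow_right _) (Nat.Coprime.dvd_of_dvd_mul_right
      (((hr.coprime_iff_not_dvd).2 h4).symm.pow_right _) h6))
  exact ⟨χ, fun e => h3 (Subtype.ext e), k, hk⟩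

/-- Let G be a non-trivial finite group of order p^a · q^b · r^c with p, q, r distinct primes and a ≤ 2. Then G has a non-principal irreducible character whose degree is a power of q, and a non-principal irreducible character whose degree is a power of r; the power may be the zeroth, so a non-principal linear character serves for both. -/
theorem result {G : Type*} [Group G] [Finite G] [Nontrivial G] (p q r a b c : ℕ) (hp : p.Prime) (hq : q.Prime) (hr : r.Prime) (hpq : p ≠ q) (hpr : p ≠ r) (hqr : q ≠ r) (ha : a ≤ 2) (hG : Nat.card G = p ^ a * q ^ b * r ^ c) : (∃ χ : Cfsg.IrrCharacter G, (χ : G → ℂ) ≠ (fun _ => 1) ∧ ∃ k : ℕ, Cfsg.charDegree (χ : G → ℂ) = q ^ k) ∧ ∃ χ : Cfsg.IrrCharacter G, (χ : G → ℂ) ≠ (fun _ => 1) ∧ ∃ k : ℕ, Cfsg.charDegree (χ : G → ℂ) = r ^ k := by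
  exact ⟨aux p q r a b c hp hq hr ha hpq hpr hG,
    aux p r q a c b hp hr hq ha hpr hpq (by rw [hG]; ring)⟩

end Cfsg.Agent.S4500
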