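import Cfsg.Statements.S4502
import Cfsg.Agent.Small.DefLow
import Cfsg.Agent.Small.Princ
import Cfsg.Agent.Small.SelfCent
import Cfsg.Agent.Classical.DicksonAbs
import Cfsg.Agent.CharDeep.Extend

set_option autoImplicit false
open Cfsg

namespace Cfsg.Agent.S4502

open Cfsg.Agent.Small Subgroup

variable {p : ℕ} [hp : Fact p.Prime] {G : Type*} [Group G] [Finite G] {x : G} {K : Subgroup G}

theorem not_dvd_of_mem [Fintype K] (h : DefOne p x K) {χ : IrrCharacter G} {θ : IrrCharacter K}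
    (hχ : χ ∈ blk p x θ) : ¬ p ∣ charDegree χ.1 := fun hd => by
  obtain ⟨X, φ, δ, ε, s⟩ := h.exists_shape θ
  have hE : ¬ p ∣ Nat.card E[h] := Nat.not_dvd_of_pos_of_lt Nat.card_pos (PShape.card_E_lt (h := h))
  have h1 : ¬ p ∣ Nat.card E[h] * charDegree θ.1 := fun e =>
    (hp.out.dvd_mul.1 e).elim hE (h.not_dvd_degree_theta θ)
  have hd' : (p : ℤ) ∣ charDegree χ.1 := Int.natCast_dvd_natCast.2 hd
  rcases (s.mem_blk χ).1 hχ with hX | ⟨a, rfl⟩
  · have h2 := (s.modEq_X hX).dvd_iff.1 hd'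
    refine h1 (Int.natCast_dvd_natCast.1 ?_)
    rw [← h.index_inert_mul θ]
    push_cast
    rw [mul_right_comm]
    refine Dvd.dvd.mul_right ?_ _
    rcases s.δ_sign χ hX with e | e <;> simpa [e] using h2
  · have h2 := (s.modEq_φ a).dvd_iff.1 hd'
    refine h1 (Int.natCast_dvd_natCast.1 ?_)
    rcases s.ε_sign with e | e <;> simpa [e] using h2

theorem count [Fintype K] (h : DefOne p x K) :
    Nat.card (Nx x) * Nat.card {χ : IrrCharacter G // ¬ p ∣ charDegree χ.1} =
      ∑ θ : IrrCharacter K, Nat.card (h.EE θ) * (p * Nat.card K) *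
        (Nat.card (h.EE θ) + (p - 1) / Nat.card (h.EE θ)) := by
  classical
  have := Fintype.ofFinite (Nx x)
  have h1 : ∀ θ : IrrCharacter K, Nat.card (h.EE θ) * (p * Nat.card K) *
      (Nat.card (h.EE θ) + (p - 1) / Nat.card (h.EE θ)) =
      ∑ χ : IrrCharacter G, if χ ∈ blk p x θ then Nat.card (h.inert θ) else 0 := fun θ => by
    obtain ⟨X, φ, δ, ε, s⟩ := h.exists_shape θ
    rw [← h.card_inert, ← s.card_blk, ← Finset.sum_filter, Finset.sum_const, smul_eq_mul, mul_comm,
      Nat.card_eq_fintype_card, Fintype.card_subtype]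
  rw [Finset.sum_congr rfl fun θ _ => h1 θ, Finset.sum_comm, Nat.card_eq_fintype_card
    (α := {χ : IrrCharacter G // _}), Fintype.card_subtype, mul_comm, ← smul_eq_mul,
    ← Finset.sum_const, Finset.sum_filter]
  refine Finset.sum_congr rfl fun χ _ => ?_
  split_ifs with hχ
  · exact (Finset.sum_eq_zero fun θ _ => if_neg fun e => not_dvd_of_mem h e hχ).symm
  · obtain ⟨θ, hθ⟩ := h.exists_mem_blk hχ
    have h2 := h.sum_cj θ (fun θ => if χ ∈ blk p x θ then Nat.card (h.inert θ) else 0)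
      fun θ' h' => if_neg fun e => by
        obtain ⟨n, hn⟩ := h.exists_cj_eq_of_mem hθ e
        exact h' n hn
    have h3 : ∀ n, h.inert (h.cj n θ) = h.inert θ := fun n => Subgroup.ext (h.cj_inert n)
    simp only [h.blk_cj, h3, hθ, if_true, Finset.sum_const, smul_eq_mul, Finset.card_univ] at h2
    rw [mul_comm, ← Nat.card_eq_fintype_card] at h2
    exact Nat.eq_of_mul_eq_mul_left Nat.card_pos h2

/-- Let G be a finite group whose order is divisible by the prime p exactly once, and let P be a Sylow p-subgroup. Then the number of irreducible characters of G of degree not divisible by p equals the number of conjugacy classes of the normalizer of P. -/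
theorem result {G : Type*} [Group G] [Finite G] (p : ℕ) [Fact p.Prime] (hdiv : p ∣ Nat.card G) (hsq : ¬ p ^ 2 ∣ Nat.card G) (P : Sylow p G) : Nat.card {χ : Cfsg.IrrCharacter G // ¬ p ∣ Cfsg.charDegree (χ : G → ℂ)} = Nat.card (ConjClasses (Subgroup.normalizer ((P : Subgroup G) : Set G))) := by
  obtain ⟨x, K, hx, h⟩ := exists_defOne_of_sylow P (Classical.card_sylow_of_card (k := 1) P
    (m := Nat.card G / p) (by rw [pow_one, Nat.mul_div_cancel' hdiv]) (fun e => hsq (by
      rw [← Nat.mul_div_cancel' hdiv, pow_two]; exact Nat.mul_dvd_mul_left _ e)) |>.trans (pow_one p))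
  rw [← hx]
  obtain ⟨K', h'⟩ := h.exists_defOne_subgroup (mem_Nx_self x)
  obtain rfl : K' = K.subgroupOf (Nx x) := Subgroup.ext fun y => by
    rw [h'.mem, mem_subgroupOf, h.mem, Subtype.ext_iff, orderOf_coe]; rfl
  have := Fintype.ofFinite K
  have := Fintype.ofFinite (K.subgroupOf (Nx x))
  have hN : Nx (⟨x, mem_Nx_self x⟩ : Nx x) = ⊤ := by rw [Nx_subgroup, subgroupOf_self]
  have hn : (zpowers (⟨x, mem_Nx_self x⟩ : Nx x)).Normal := normalizer_eq_top_iff.1 hN
  let e := subgroupOfEquivOfLe h.K_le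
  let f : IrrCharacter K ≃ IrrCharacter (K.subgroupOf (Nx x)) :=
    ⟨fun θ => ⟨_, θ.2.comp_equiv e⟩, fun θ => ⟨_, θ.2.comp_equiv e.symm⟩,
      fun θ => by ext; simp, fun θ => by ext; simp⟩
  have he : ∀ n : Nx (⟨x, mem_Nx_self x⟩ : Nx x), expo h'.ord n = expo h.ord n.1 := fun n => by
    have h1 := congrArg Subtype.val (conj_xp_expo h'.ord n 1)
    have h2 := conj_xp_expo h.ord n.1 1
    refine Units.ext (mul_right_cancel₀ one_ne_zero (xp_injective h.ord ?_))
    exact h1.symm.trans h2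
  have hi : ∀ θ (n : Nx (⟨x, mem_Nx_self x⟩ : Nx x)), n ∈ h'.inert (f θ) ↔ n.1 ∈ h.inert θ :=
    fun θ n => ⟨fun k => Subtype.ext (funext fun y => congrFun (congrArg Subtype.val k) (e.symm y)),
      fun k => Subtype.ext (funext fun y => congrFun (congrArg Subtype.val k) (e y))⟩
  have hE : ∀ θ, h'.EE (f θ) = h.EE θ := fun θ => Subgroup.ext fun u =>
    ⟨fun ⟨n, h1, h2⟩ => ⟨n.1, (hi θ n).1 h1, he n ▸ h2⟩,
      fun ⟨n, h1, h2⟩ => ⟨⟨n, hN ▸ mem_top _⟩, (hi θ _).2 h1, (he _).trans h2⟩⟩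
  have h1 := count h'
  rw [← f.sum_comp, hN, card_top, Nat.card_congr e.toEquiv] at h1
  simp only [hE] at h1
  rw [← count h] at h1
  rw [← Nat.eq_of_mul_eq_mul_left Nat.card_pos h1, ← Char.card_irr_eq_card_conjClasses]
  exact Nat.card_congr (Equiv.subtypeUnivEquiv fun χ e => h'.notdvd
    (e.trans (CharDeep.charDegree_dvd_index_of_abelian _ (by
      rintro _ ⟨a, rfl⟩ _ ⟨b, rfl⟩
      exact zpow_mul_comm _ a b) χ.2)))

end Cfsg.Agent.S4502
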