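import Cfsg.Statements.S4505
import Cfsg.Agent.Block.Count

set_option autoImplicit false
open Cfsg

namespace Cfsg.Agent.S4505

open Cfsg.Agent.Block Cfsg.Agent.BMod Cfsg.Agent.Char MonoidAlgebra


/-- Let G be a finite group, p a prime and M a maximal ideal of the algebraic integers containing p. For every σ, the number of p-blocks of defect exactly σ is at most the number of conjugacy classes of p-regular elements whose centralizer has order divisible by p^σ but not by p^(σ+1). -/
theorem result {G : Type*} [Group G] [Finite G] (p : ℕ) [Fact p.Prime] (M : Ideal Cfsg.AlgInt) (hM : Cfsg.IsPModular p M) (σ : ℕ) : Nat.card {B : Set (Cfsg.IrrCharacter G) // Cfsg.IsPBlock M B ∧ Cfsg.blockDefect p B = σ} ≤ Nat.card {C : ConjClasses G // ∃ g : G, ConjClasses.mk g = C ∧ ¬ p ∣ orderOf g ∧ (Nat.card (Subgroup.centralizer ({g} : Set G))).factorization p = σ} := by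
  classical
  have : PMod p M := ⟨hM⟩
  have := Fintype.ofFinite (ConjClasses G)
  have := Fintype.ofFinite {B : Set (Cfsg.IrrCharacter G) // Cfsg.IsPBlock M B ∧ Cfsg.blockDefect p B = σ}
  rw [Nat.card_eq_fintype_card, Nat.card_eq_fintype_card]
  choose χ hχ using fun B : {B : Set (Cfsg.IrrCharacter G) // Cfsg.IsPBlock M B ∧
    Cfsg.blockDefect p B = σ} => IsPBlock.nonempty B.2.1
  refine card_le_of_mul_eq_one (K := F M) (Matrix.of fun B C => red M (blockCoeff B.1 C.1.out))
    (Matrix.of fun C B => red M (centralChar (χ B : G → ℂ) C.1.out)) ?_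
  ext B B'
  simp only [Matrix.mul_apply, Matrix.of_apply]
  rw [← Finset.sum_subtype (Finset.univ.filter fun C => ∃ g : G, ConjClasses.mk g = C ∧
      ¬ p ∣ orderOf g ∧ (Nat.card (Subgroup.centralizer ({g} : Set G))).factorization p = σ)
      (fun _ => by simp only [Finset.mem_filter, Finset.mem_univ, true_and])
    fun C : ConjClasses G => red M (blockCoeff B.1 C.out) * red M (centralChar (χ B' : G → ℂ) C.out),
    Finset.sum_filter_of_ne fun C _ h => ⟨C.out, Quotient.out_eq C, B'.2.2 ▸
      class_of_lam_coeff B'.2.1 B.2.1 (hχ B') (B.2.2.trans B'.2.2.symm).le h⟩, sum_lam_coeff,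
    Matrix.one_apply]
  split_ifs with h
  · exact lam_eB_of_mem B.2.1.isBlockUnion (h ▸ hχ B')
  · exact lam_eB_of_notMem B.2.1.isBlockUnion fun h' =>
      h (Subtype.ext (B.2.1.eq_of_mem B'.2.1 h' (hχ B')))

end Cfsg.Agent.S4505
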