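import Cfsg.Statements.S4506
import Cfsg.Agent.Block.Galois
import Cfsg.Agent.BMod.Rank2

set_option autoImplicit false
open Cfsg

namespace Cfsg.Agent.S4506

open Cfsg.Agent.Block Cfsg.Agent.BMod Cfsg.Agent.Char MonoidAlgebra


/-- Let G be a finite group, p a prime, p^a the p-part of the order of G and g′ its p′-part. Call two irreducible characters p-conjugate when one is obtained from the other by applying a field automorphism of ℂ that fixes the g′-th roots of unity, and let r be the number of characters p-conjugate to the irreducible character χ (χ included). Then the exponent of p in r·χ(1) is at most a; and if p^a divides r·χ(1) then p^a already divides χ(1). -/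
theorem result {G : Type*} [Group G] [Finite G] (p : ℕ) (hp : p.Prime) (χ : Cfsg.IrrCharacter G) (r : ℕ) (hr : Nat.card {ψ : Cfsg.IrrCharacter G // ∃ σ : ℂ ≃+* ℂ, σ (Complex.exp (2 * Real.pi * Complex.I / ((Nat.card G / p ^ (Nat.card G).factorization p) : ℕ))) = Complex.exp (2 * Real.pi * Complex.I / ((Nat.card G / p ^ (Nat.card G).factorization p) : ℕ)) ∧ (ψ : G → ℂ) = fun g => σ ((χ : G → ℂ) g)} = r) : (r * Cfsg.charDegree (χ : G → ℂ)).factorization p ≤ (Nat.card G).factorization p ∧ (p ^ (Nat.card G).factorization p ∣ r * Cfsg.charDegree (χ : G → ℂ) → p ^ (Nat.card G).factorization p ∣ Cfsg.charDegree (χ : G → ℂ)) := by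
  classical
  haveI := Fact.mk hp
  have := Fintype.ofFinite G
  obtain ⟨M, hM⟩ := exists_pmod' p
  set n := Nat.card G / p ^ (Nat.card G).factorization p with hn
  have hG0 : Nat.card G ≠ 0 := Nat.card_pos.ne'
  have hGn : p ^ (Nat.card G).factorization p * n = Nat.card G := Nat.ordProj_mul_ordCompl_eq_self _ _
  have hn0 : n ≠ 0 := (Nat.ordCompl_pos p hG0).ne'
  have hζ := Complex.isPrimitiveRoot_exp n hn0
  set R : Set (IrrCharacter G) := {ψ | ∃ σ : ℂ ≃+* ℂ, σ (Complex.exp (2 * Real.pi * Complex.I / n)) =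
    Complex.exp (2 * Real.pi * Complex.I / n) ∧ ψ.1 = fun g => σ (χ.1 g)} with hR
  replace hr : Nat.card R = r := hr
  have hk : ∀ ψ : R, ∃ k : ℕ, k.Coprime (Nat.card G) ∧ (∀ y : G, ¬ p ∣ orderOf y → y ^ k = y) ∧
      ∀ g, ψ.1.1 g = χ.1 (g ^ k) := fun ⟨ψ, σ, h1, h2⟩ => by
    obtain ⟨k, h3, h4⟩ := exists_pow_of_ringHom hG0 (σ : ℂ →+* ℂ)
    refine ⟨k, h3, fun y hy => ?_, fun g => (congrFun h2 g).trans
      (χ.2.isCharacter.apply_pow_eq_map _ h4 pow_card_eq_one').symm⟩
    have h5 := h4 _ (show Complex.exp (2 * Real.pi * Complex.I / n) ^ Nat.card G = 1 by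
      rw [← hGn, pow_mul', hζ.pow_eq_one, one_pow])
    rw [RingHom.coe_coe, h1, ← pow_one (Complex.exp _), ← pow_mul, one_mul] at h5
    have h6 : n ∣ _ := hζ.dvd_of_pow_eq_one (k + n - 1) (by
      rw [← mul_left_inj' (hζ.ne_zero hn0), ← pow_succ, Nat.sub_add_cancel (le_add_left (Nat.pos_of_ne_zero hn0)), pow_add,
        ← h5, hζ.pow_eq_one]; simp)
    have h7 : orderOf y ∣ n := ((hp.coprime_iff_not_dvd.2 hy).symm.pow_right _).dvd_of_dvd_mul_left
      (hGn ▸ orderOf_dvd_natCard y)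
    have h8 := orderOf_dvd_iff_pow_eq_one.1 (h7.trans h6)
    rw [← mul_left_inj y, ← pow_succ, Nat.sub_add_cancel (le_add_left (Nat.pos_of_ne_zero hn0)), pow_add,
      orderOf_dvd_iff_pow_eq_one.1 h7] at h8
    simpa using h8
  choose k hk1 hk2 hk3 using hk
  have hB := isPBlock_blockOf (M := M) χ
  have hχ := mem_blockOf_self (M := M) χ
  set B := blockOf M χ.1
  have hreg : ∀ ψ ∈ R, ∀ g, ¬ p ∣ orderOf g → χ.1 g = ψ.1 g := fun ψ h g hg => by
    rw [hk3 ⟨ψ, h⟩, hk2 _ g hg]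
  have hRB : ∀ ψ ∈ R, ψ ∈ B := fun ψ h => sameBlock_of_regular (hreg ψ h)
  obtain ⟨a, h1, -, h2, -, h3, h4⟩ := exists_ctrZ hB
  have h5 : ∀ ψ ∈ R, a χ ψ = a χ χ := fun ψ h => by
    rw [← Int.cast_inj (α := ℂ), h1 χ hχ, h1 χ hχ, ← ctr_rho_right, ← rho_eq_rho_iff.2 (hreg ψ h),
      ctr_rho_right]
  have h6 : a χ χ ≠ 0 := fun h => by
    have := h1 χ hχ χ
    rw [h, Int.cast_zero, eq_comm, mul_eq_zero] at this
    exact this.elim (pow_ne_zero _ (Nat.cast_ne_zero.2 hp.ne_zero)) (ctr_irr_self_ne_zero p χ)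
  have h7 : r * a χ χ ^ 2 ≤ p ^ blockDefect p B * a χ χ := by
    rw [← h2 χ hχ, ← hr, card_eq_filter R, ← nsmul_eq_mul,
      ← Finset.sum_const, Finset.sum_filter]
    refine Finset.sum_le_sum fun ψ _ => ?_
    by_cases h : ψ ∈ R
    · rw [if_pos h, if_pos (hRB ψ h), h5 ψ h]
    · rw [if_neg h]; positivity
  have hr0 : r ≠ 0 := by
    rw [← hr]
    haveI : Nonempty R := ⟨⟨χ, RingEquiv.refl _, rfl, rfl⟩⟩
    exact Nat.card_pos.ne'
  have h8 : 0 < a χ χ := by
    have : (0 : ℤ) < r * a χ χ ^ 2 := by positivity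
    exact pos_of_mul_pos_right (this.trans_le h7) (by positivity)
  have h9 : ∀ j, (p : ℤ) ^ j ∣ a χ χ → r.factorization p + j ≤ blockDefect p B := fun j hj => by
    have h10 : r * a χ χ ≤ p ^ blockDefect p B := le_of_mul_le_mul_right (by linarith) h8
    have h11 := (Int.le_of_dvd (by positivity) (mul_dvd_mul
      (Int.natCast_dvd_natCast.2 (Nat.ordProj_dvd r p)) hj)).trans h10
    rw [Nat.cast_pow, ← pow_add] at h11
    exact (pow_le_pow_iff_right₀ (by exact_mod_cast hp.one_lt)).1 h11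
  have h10 := deg_add_defect p hχ
  have h11 := h9 _ (h3 χ hχ χ)
  have h12 := blockDefect_le p B
  rw [hp.pow_dvd_iff_le_factorization (mul_ne_zero hr0 (deg_ne_zero χ.2)),
    hp.pow_dvd_iff_le_factorization (deg_ne_zero χ.2), Nat.factorization_mul hr0 (deg_ne_zero χ.2),
    Finsupp.add_apply]
  refine ⟨by omega, fun h13 => ?_⟩
  have h14 : blockHeight p B χ.1 = 0 := by_contra fun h => by
    have := h9 _ ((h4 χ hχ χ hχ).2 h)
    omega
  by_contra h15
  have hd : blockDefect p B ≠ 0 := by omega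
  haveI : NeZero (p ^ blockDefect p B) := ⟨pow_ne_zero _ hp.ne_zero⟩
  have h16 := Fintype.card_lt_of_injective_of_notMem (fun ψ : R => (k ψ : ZMod (p ^ blockDefect p B)))
    (fun ψ ψ' h => Subtype.ext (Subtype.ext (funext fun g => ?_))) (b := 0) ?_
  · rw [ZMod.card, ← Nat.card_eq_fintype_card] at h16
    have h17 := Nat.le_of_dvd (Nat.pos_of_ne_zero hr0)
      ((hp.pow_dvd_iff_le_factorization hr0 (k := blockDefect p B)).2 (by omega))
    exact h17.not_gt (hr ▸ h16)
  · by_contra h17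
    obtain ⟨x, hx⟩ := exists_isPPart p g
    obtain ⟨D, hD, hxD⟩ : ∃ D, IsDefectGroup p M B D ∧ x ∈ D := by
      by_cases h18 : ψ.1.1 g = 0
      · exact exists_defectGroup_mem hB (hRB _ ψ'.2) hx fun h19 => h17 (h18.trans h19.symm)
      · exact exists_defectGroup_mem hB (hRB _ ψ.2) hx h18
    have h18 : x ^ k ψ = x ^ k ψ' := pow_eq_pow_iff_modEq.2 (((ZMod.natCast_eq_natCast_iff _ _ _).1
      h).of_dvd (IsDefectGroup.card_eq hB hD ▸ Subgroup.orderOf_dvd_natCard D hxD))
    have h19 : Commute x (x⁻¹ * g) := (Commute.refl x).inv_right.mul_right hx.commute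
    refine h17 ?_
    rw [hk3, hk3, ← mul_inv_cancel_left x g, h19.mul_pow, h19.mul_pow, h18, hk2 _ _ hx.not_dvd,
      hk2 _ _ hx.not_dvd]
  · rintro ⟨ψ, h⟩
    have h17 := (dvd_pow_self p hd).trans ((ZMod.natCast_eq_zero_iff _ _).1 h)
    exact hp.one_lt.ne' (Nat.eq_one_of_dvd_coprimes (hk1 ψ) h17
      ((hp.dvd_iff_one_le_factorization hG0).2 (by omega)))

end Cfsg.Agent.S4506
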