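import Cfsg.Statements.S4507
import Cfsg.Agent.Small.DefBlock
import Mathlib.NumberTheory.Cyclotomic.PrimitiveRoots

set_option autoImplicit false
open Cfsg

namespace Cfsg.Agent.S4507

open Cfsg.Agent.Small Cfsg.Agent.Char Cfsg.Agent.Block

theorem exists_unit {p : ℕ} [hp : Fact p.Prime] (σ : ℂ →+* ℂ) :
    ∃ m : (ZMod p)ˣ, ∀ i : ZMod p, σ (ee i) = ee ((m : ZMod p) * i) := by
  obtain ⟨m, hm, h⟩ := exists_pow_of_ringHom hp.out.ne_zero σ
  exact ⟨ZMod.unitOfCoprime m hm, fun i => by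
    rw [h _ (ee_pow_p i), ee_pow, ZMod.coe_unitOfCoprime, mul_comm]⟩

theorem exists_equiv {p : ℕ} [hp : Fact p.Prime] {n : ℕ} (hn : n ≠ 0) (hpn : ¬ p ∣ n)
    (m : (ZMod p)ˣ) : ∃ σ : ℂ ≃+* ℂ, (∀ z : ℂ, z ^ n = 1 → σ z = z) ∧
      ∀ i : ZMod p, σ (ee i) = ee ((m : ZMod p) * i) := by
  have hc : p.Coprime n := (Nat.Prime.coprime_iff_not_dvd hp.out).2 hpn
  obtain ⟨k, hk1, hk2⟩ := Nat.chineseRemainder hc (m : ZMod p).val 1
  have hk : k.Coprime (p * n) := by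
    refine Nat.Coprime.mul_right ?_ ?_
    · rw [Nat.Coprime, hk1.gcd_eq]; exact ZMod.val_coe_unit_coprime m
    · rw [Nat.Coprime, hk2.gcd_eq]; simp
  obtain ⟨σ, hσ⟩ := exists_ringEquiv_pow (mul_ne_zero hp.out.ne_zero hn) hk
  refine ⟨σ, fun z hz => ?_, fun i => ?_⟩
  · rw [hσ z (by rw [mul_comm, pow_mul, hz, one_pow]), pow_eq_pow_mod k hz, hk2,
      ← pow_eq_pow_mod 1 hz, pow_one]
  · rw [hσ _ (by rw [pow_mul, ee_pow_p, one_pow]), ee_pow, (ZMod.natCast_eq_natCast_iff _ _ _).2 hk1,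
      ZMod.natCast_zmod_val, mul_comm]

/-- Let G be a finite group whose order g is divisible by the prime p exactly once, g′ = g/p, and fix a maximal ideal M of the algebraic integers containing p. Call two irreducible characters p-conjugate when a field automorphism of ℂ fixing the g′-th roots of unity carries one to the other. Let B be a p-block of positive defect (its defect group is a Sylow p-subgroup). Then B contains a subset Y (the exceptional family) such that: Y is a full p-conjugacy class (its members are pairwise p-conjugate and every p-conjugate of a member of Y lies in Y); every member of B outside Y is p-conjugate only to itself; the size t of Y divides p − 1 and B has exactly t + (p − 1)/t members; and there are signs δ_χ = ±1 (χ ∈ B) such that for every p-regular element x and every θ ∈ Y, Σ_{χ ∈ B ∖ Y} δ_χ χ(x) + δ_θ θ(x) = 0. -/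
theorem result {G : Type*} [Group G] [Finite G] (p : ℕ) [Fact p.Prime] (M : Ideal Cfsg.AlgInt) (hM : Cfsg.IsPModular p M) (hdiv : p ∣ Nat.card G) (hsq : ¬ p ^ 2 ∣ Nat.card G) (B : Set (Cfsg.IrrCharacter G)) (hB : Cfsg.IsPBlock M B) (hd : 0 < Cfsg.blockDefect p B) : ∃ Y : Set (Cfsg.IrrCharacter G), Y ⊆ B ∧ Y.Nonempty ∧ (∀ θ ∈ Y, ∀ ψ : Cfsg.IrrCharacter G, (∃ σ : ℂ ≃+* ℂ, σ (Complex.exp (2 * Real.pi * Complex.I / ((Nat.card G / p ^ (Nat.card G).factorization p) : ℕ))) = Complex.exp (2 * Real.pi * Complex.I / ((Nat.card G / p ^ (Nat.card G).factorization p) : ℕ)) ∧ (ψ : G → ℂ) = fun g => σ ((θ : G → ℂ) g)) ↔ ψ ∈ Y) ∧ (∀ χ ∈ B, χ ∉ Y → ∀ ψ : Cfsg.IrrCharacter G, (∃ σ : ℂ ≃+* ℂ, σ (Complex.exp (2 * Real.pi * Complex.I / ((Nat.card G / p ^ (Nat.card G).factorization p) : ℕ))) = Complex.exp (2 * Real.pi * Complex.I / ((Nat.card G / p ^ (Nat.card G).factorization p) : ℕ)) ∧ (ψ : G → ℂ) = fun g => σ ((χ : G → ℂ) g)) →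 ψ = χ) ∧ Nat.card Y ∣ p - 1 ∧ Nat.card B = Nat.card Y + (p - 1) / Nat.card Y ∧ ∃ δ : Cfsg.IrrCharacter G → ℤ, (∀ χ ∈ B, δ χ = 1 ∨ δ χ = -1) ∧ ∀ x : G, ¬ p ∣ orderOf x → ∀ θ ∈ Y, (∑ᶠ χ ∈ B \ Y, (δ χ : ℂ) * (χ : G → ℂ) x) + (δ θ : ℂ) * (θ : G → ℂ) x = 0 := by
  classical
  have : PMod p M := ⟨hM⟩
  have hp : p.Prime := Fact.out
  obtain ⟨x, K, h⟩ := exists_defOne_of_dvd hdiv hsq
  have := Fintype.ofFinite K
  have hfac : (Nat.card G).factorization p = 1 := by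
    have h1 := (hp.pow_dvd_iff_le_factorization (Nat.card_pos (α := G)).ne' (k := 1)).1
      (by simpa using hdiv)
    have h2 := mt (hp.pow_dvd_iff_le_factorization (Nat.card_pos (α := G)).ne' (k := 2)).2 hsq
    omega
  have hidx : Nat.card G / p ^ (Nat.card G).factorization p = (Subgroup.zpowers x).index := by
    rw [hfac, pow_one, ← (Subgroup.zpowers x).card_mul_index, Nat.card_zpowers, h.ord,
      Nat.mul_div_cancel_left _ hp.pos]
  have hn : (Subgroup.zpowers x).index ≠ 0 := Subgroup.index_ne_zero_of_finite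
  rw [hidx]
  have hζ := Complex.isPrimitiveRoot_exp _ hn
  have hfix : ∀ σ : ℂ ≃+* ℂ, σ (Complex.exp (2 * Real.pi * Complex.I /
      ((Subgroup.zpowers x).index : ℕ))) = Complex.exp (2 * Real.pi * Complex.I /
      ((Subgroup.zpowers x).index : ℕ)) → ∀ z : ℂ, z ^ (Subgroup.zpowers x).index = 1 → σ z = z := by
    intro σ hσ z hz
    have : NeZero (Subgroup.zpowers x).index := ⟨hn⟩
    obtain ⟨i, -, rfl⟩ := hζ.eq_pow_of_pow_eq_one hz
    rw [map_pow, hσ]
  obtain ⟨χ₀, hχ₀, hχ₀'⟩ : ∃ χ ∈ B, ¬ p ∣ charDegree χ.1 := by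
    obtain ⟨χ, rfl⟩ := hB
    have := Nat.sInf_mem (s := (fun χ : IrrCharacter G => (charDegree (χ : G → ℂ)).factorization p) ''
      blockOf M χ.1) ⟨_, χ, mem_blockOf_self χ, rfl⟩
    obtain ⟨ψ, hψ, e⟩ := this
    refine ⟨ψ, hψ, fun hd' => ?_⟩
    have h1 := (hp.pow_dvd_iff_le_factorization ψ.2.charDegree_pos.ne' (k := 1)).1
      (by simpa using hd')
    rw [blockDefect, hfac, ← e] at hd
    simp only at hd
    omega
  obtain ⟨θ, hθ⟩ := h.exists_mem_blk hχ₀'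
  have hBeq : B = blk p x θ := by rw [IsPBlock.eq_blockOf hB hχ₀, h.blockOf_eq_blk M hθ]
  obtain ⟨X, φ, δ, ε, s⟩ := h.exists_shape θ
  have hX : B \ Set.range φ = X := by
    rw [hBeq, s.blk_eq, Set.union_sdiff_right, s.disjoint.sdiff_eq_left]
  have he : (p - 1) / (h.EE θ).index = Nat.card (h.EE θ) := by
    rw [← index_mul_card_EE (h.EE θ), Nat.mul_div_cancel_left _
      (Nat.pos_of_ne_zero Subgroup.index_ne_zero_of_finite)]
  refine ⟨Set.range φ, ?_, ⟨_, 1, rfl⟩, ?_, fun χ hχ hχ' ψ ⟨σ, hσ, hψ⟩ => ?_, ?_, ?_,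
    fun χ => if χ ∈ X then δ χ else -ε, fun χ hχ => ?_, fun g hg => ?_⟩
  · rintro _ ⟨a, rfl⟩; exact hBeq ▸ s.φ_mem a
  · rintro _ ⟨a, rfl⟩ ψ
    constructor
    · rintro ⟨σ, hσ, hψ⟩
      obtain ⟨m, hm⟩ := exists_unit (p := p) σ.toRingHom
      exact ⟨m * a, Subtype.ext (hψ ▸ funext fun g =>
        ((s.map_eq σ.toRingHom m (hfix σ hσ) hm).2 a g).symm)⟩
    · rintro ⟨b, rfl⟩
      obtain ⟨σ, h1, h2⟩ := exists_equiv hn h.notdvd (b * a⁻¹)
      refine ⟨σ, h1 _ hζ.pow_eq_one, funext fun g => ?_⟩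
      have := (s.map_eq σ.toRingHom _ h1 h2).2 a g
      rw [inv_mul_cancel_right] at this
      exact this.symm
  · obtain ⟨m, hm⟩ := exists_unit (p := p) σ.toRingHom
    have hχX : χ ∈ X := by
      have : χ ∈ B \ Set.range φ := ⟨hχ, hχ'⟩
      rwa [hX] at this
    exact Subtype.ext (hψ ▸ funext fun g => (s.map_eq σ.toRingHom m (hfix σ hσ) hm).1 χ hχX g)
  · rw [s.card_range]; exact ⟨_, (index_mul_card_EE _).symm⟩
  · rw [hBeq, s.card_blk, s.card_range, he, ← index_EE, add_comm]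
  · beta_reduce
    split_ifs with h1
    · exact s.δ_sign χ h1
    · rcases s.ε_sign with e | e <;> simp [e]
  · rintro _ ⟨a, rfl⟩
    beta_reduce
    rw [hX, finsum_mem_coe_finset, if_neg (s.φ_notMem a),
      Finset.sum_congr rfl fun χ hχ => by rw [if_pos hχ], ← s.regular hg a]
    simp

end Cfsg.Agent.S4507
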