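import Cfsg.Statements.S4509
import Cfsg.Agent.Small.SelfCent

set_option autoImplicit false
open Cfsg

namespace Cfsg.Agent.S4509

/-- Let the finite group G contain an element x of prime order p with C_G(x) = ⟨x⟩; let t be the number of conjugacy classes of elements of order p and 1 + n·p the number of subgroups of order p. Then G has a normal subgroup of order 1 + n·p if and only if either t = p − 1, or t < p − 1 and G″ ≠ G′. Moreover, if t = p − 1 then G′ has order 1 + n·p and G/G′ is cyclic of order p; and if t < p − 1 and G″ ≠ G′ then G″ has order 1 + n·p and G′ has order p·(1 + n·p). -/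
theorem result {G : Type*} [Group G] [Finite G] (p : ℕ) (hp : p.Prime) (x : G) (hx : orderOf x = p) (hC : Subgroup.centralizer ({x} : Set G) = Subgroup.zpowers x) (t : ℕ) (ht : Nat.card {C : ConjClasses G // ∃ g ∈ C.carrier, orderOf g = p} = t) (n : ℕ) (hn : Nat.card {H : Subgroup G // Nat.card H = p} = 1 + n * p) : ((∃ S : Subgroup G, S.Normal ∧ Nat.card S = 1 + n * p) ↔ (t = p - 1 ∨ (t < p - 1 ∧ derivedSeries G 2 ≠ derivedSeries G 1))) ∧ (t = p - 1 → Nat.card (commutator G) = 1 + n * p ∧ IsCyclic (G ⧸ commutator G) ∧ (commutator G).index = p) ∧ (t < p - 1 → derivedSeries G 2 ≠ derivedSeries G 1 → Nat.card (derivedSeries G 2) = 1 + n * p ∧ Nat.card (commutator G) = p * (1 + n * p)) := by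
  have : Fact p.Prime := ⟨hp⟩
  have h := Small.defOne_bot hx hC
  rw [h.card_classes'] at ht
  subst ht
  rw [h.card_subgroups] at hn
  have h1 := Small.index_mul_card_EE (Small.expo h.ord).range
  have h2 : (Small.expo h.ord).range.index < p - 1 ↔ (Small.expo h.ord).range ≠ ⊥ := by
    rw [Ne, h.range_eq_bot_iff]
    have := Nat.le_of_dvd (by have := hp.two_le; omega) (Dvd.intro _ h1)
    omega
  have e2 : derivedSeries G 2 = ⁅commutator G, commutator G⁆ := rfl
  rw [← h.range_eq_bot_iff, h2, ← hn, derivedSeries_one, e2]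
  have h3 : (Small.expo h.ord).range ≠ ⊥ → ⁅commutator G, commutator G⁆ ≠ commutator G →
      Nat.card (⁅commutator G, commutator G⁆ : Subgroup G) = Nat.card (Sylow p G) ∧
        Nat.card (commutator G) = p * Nat.card (Sylow p G) := by
    intro e1 e2
    have hx' := h.mem_commutator_iff.2 e1
    have h' := h.subgroup_bot hx'
    have h4 : x ∉ ⁅commutator G, commutator G⁆ := fun e => e2 (le_antisymm
      (Subgroup.commutator_le_left _ _) (h.commutator_le _ e))
    have h5 : (Small.expo h'.ord).range = ⊥ := by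
      by_contra e
      rw [← Subgroup.map_subtype_commutator] at h4
      exact h4 ⟨_, h'.mem_commutator_iff.2 e, rfl⟩
    obtain ⟨h6, h7⟩ := h'.index_commutator_of_bot h5
    have h8 := h.card_sylow_normal _ hx'
    rw [← Subgroup.map_subtype_commutator, Subgroup.card_subtype, h7, h8,
      ← (commutator (commutator G)).index_mul_card, h6, h7, h8]
    exact ⟨rfl, rfl⟩
  refine ⟨⟨fun ⟨S, _, hS⟩ => ?_, ?_⟩, fun e => ?_, h3⟩
  · by_cases e : (Small.expo h.ord).range = ⊥
    · exact Or.inl e
    refine Or.inr ⟨e, fun e1 => ?_⟩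
    have hd : ¬ p ∣ Nat.card S := by
      rw [hS, hn, Nat.dvd_add_left (dvd_mul_left _ _), Nat.dvd_one]
      exact hp.one_lt.ne'
    have h4 := h.card_mul_index_sup hd
    rw [← h.card_sylow, hS] at h4
    have h5 := Subgroup.index_eq_one.1 (Nat.eq_of_mul_eq_mul_left Nat.card_pos
      (h4.trans (mul_one _).symm))
    have h6 : commutator G ≤ S ⊔ Subgroup.zpowers x := by
      refine Subgroup.commutator_le.2 fun a _ b _ => ?_
      obtain ⟨s, hs, a, ha, rfl⟩ := Subgroup.mem_sup_of_normal_left.1 (h5.ge (Subgroup.mem_top a))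
      obtain ⟨t, ht, b, hb, rfl⟩ := Subgroup.mem_sup_of_normal_left.1 (h5.ge (Subgroup.mem_top b))
      have h7 := h.mem_zpowers_of_comm (Small.comm_commutator h.ord ha hb)
      have h8 := (QuotientGroup.eq_one_iff (N := S) (s * a * (t * b) * (s * a)⁻¹ * (t * b)⁻¹ *
          (a * b * a⁻¹ * b⁻¹)⁻¹)).1 (by
        simp [(QuotientGroup.eq_one_iff s).2 hs, (QuotientGroup.eq_one_iff t).2 ht, mul_assoc])
      have := Subgroup.mul_mem_sup h8 h7
      rwa [commutatorElement_def, inv_mul_cancel_right] at this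
    have h7 : ⁅commutator G, commutator G⁆ ≤ S := by
      refine Subgroup.commutator_le.2 fun a ha b hb => ?_
      obtain ⟨s, hs, _, ⟨i, rfl⟩, rfl⟩ := Subgroup.mem_sup_of_normal_left.1 (h6 ha)
      obtain ⟨t, ht, _, ⟨j, rfl⟩, rfl⟩ := Subgroup.mem_sup_of_normal_left.1 (h6 hb)
      rw [← QuotientGroup.eq_one_iff, commutatorElement_def]
      simp [(QuotientGroup.eq_one_iff s).2 hs, (QuotientGroup.eq_one_iff t).2 ht]
      group
    exact hd (h.dvd_card_of_mem (h7 (e1.ge (h.mem_commutator_iff.2 e))))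
  · rintro (e | ⟨e1, e2⟩)
    · exact ⟨_, inferInstance, (h.index_commutator_of_bot e).2⟩
    · exact ⟨_, inferInstance, (h3 e1 e2).1⟩
  · obtain ⟨h4, h5⟩ := h.index_commutator_of_bot e
    exact ⟨h5, isCyclic_of_prime_card h4, h4⟩

end Cfsg.Agent.S4509
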