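import Cfsg.Statements.S4510
import Cfsg.Agent.Block.Count

set_option autoImplicit false
open Cfsg

namespace Cfsg.Agent.S4510

open Cfsg.Agent.Block Cfsg.Agent.BMod Cfsg.Agent.Char MonoidAlgebra


/-- Let G be a finite group, p a prime, M a maximal ideal of the algebraic integers containing p, and call the defect of a conjugacy class the exponent of p in the order of the centralizer of its elements. Two irreducible characters lying in p-blocks of defect exactly d lie in the same block if and only if their central characters (class size times χ(x)/χ(1)) agree modulo the local ideal at M at every p-regular element x whose class has defect exactly d. -/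
theorem result {G : Type*} [Group G] [Finite G] (p : ℕ) [Fact p.Prime] (M : Ideal Cfsg.AlgInt) (hM : Cfsg.IsPModular p M) (d : ℕ) (χ ψ : Cfsg.IrrCharacter G) (hχ : Cfsg.blockDefect p (Cfsg.blockOf M (χ : G → ℂ)) = d) (hψ : Cfsg.blockDefect p (Cfsg.blockOf M (ψ : G → ℂ)) = d) : Cfsg.SameBlock M (χ : G → ℂ) (ψ : G → ℂ) ↔ ∀ x : G, ¬ p ∣ orderOf x → (Nat.card (Subgroup.centralizer ({x} : Set G))).factorization p = d → Cfsg.MemLocalIdeal M (Cfsg.centralChar (χ : G → ℂ) x - Cfsg.centralChar (ψ : G → ℂ) x) := by
  have : PMod p M := ⟨hM⟩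
  refine ⟨fun h x _ _ => h x, fun h => sameBlock_of_lam_eB ?_⟩
  have := Fintype.ofFinite (ConjClasses G)
  have hB := isPBlock_blockOf (M := M) χ
  have hB' := isPBlock_blockOf (M := M) ψ
  suffices lam M ψ (eB M (blockOf M (χ : G → ℂ))) = lam M χ (eB M (blockOf M (χ : G → ℂ))) by
    rw [this, lam_eB_blockOf]; exact one_ne_zero
  rw [← sum_lam_coeff, ← sum_lam_coeff]
  refine Finset.sum_congr rfl fun K _ => ?_
  by_contra hne
  have h1 : ¬ p ∣ orderOf K.out ∧
      (Nat.card (Subgroup.centralizer ({K.out} : Set G))).factorization p = d := by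
    by_cases h0 : red M (blockCoeff (blockOf M (χ : G → ℂ)) K.out) *
      red M (centralChar (χ : G → ℂ) K.out) = 0
    · exact hψ ▸ class_of_lam_coeff hB' hB (mem_blockOf_self ψ) (hχ.trans hψ.symm).le (h0 ▸ hne)
    · exact hχ ▸ class_of_lam_coeff hB hB (mem_blockOf_self χ) le_rfl h0
  exact hne (by rw [(memLocalIdeal_sub_iff (centralChar_mem_O χ.2 _) (centralChar_mem_O ψ.2 _)).1
    (h _ h1.1 h1.2)])

end Cfsg.Agent.S4510
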