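import Cfsg.Statements.S4513
import Cfsg.Agent.BMod.Abel
-- import your own Cfsg.Agent.* helpers here

set_option autoImplicit false
open Cfsg

namespace Cfsg.Agent.S4513

open Cfsg.Agent.BMod Cfsg.Agent.Block Cfsg.Agent.Transfer Cfsg.Agent.Char Cfsg.Agent.CharDeep

/-- Blocks of defect one for p = 2. Let M be a maximal ideal of the algebraic integers containing 2, B a 2-block of the finite group G whose defect group is the subgroup generated by an involution x, C = C_G(x), b a block of C inducing B and θ a member of b taking the same value at x as at 1 (there is exactly one). Then B consists of exactly two irreducible characters, which agree on every element of odd order, and they can be labelled χ₁, χ₂ with signs ε₁, ε₂ = ±1, ε₁ε₂ = −1, such that χᵢ(x y) = εᵢ θ(y) for every element y of C of odd order. -/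
theorem result {G : Type*} [Group G] [Finite G] (M : Ideal Cfsg.AlgInt) (hM : Cfsg.IsPModular 2 M) (x : G) (hx : orderOf x = 2)
    (B : Set (Cfsg.IrrCharacter G)) (hB : Cfsg.IsPBlock M B) (hBD : Cfsg.IsDefectGroup 2 M B (Subgroup.zpowers x))
    (b : Set (Cfsg.IrrCharacter ↥(Subgroup.centralizer ({x} : Set G)))) (hb : Cfsg.IsInducedBlock M (Subgroup.centralizer ({x} : Set G)) b B)
    (θ : Cfsg.IrrCharacter ↥(Subgroup.centralizer ({x} : Set G))) (hθ : θ ∈ b)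
    (hθx : ∀ z : ↥(Subgroup.centralizer ({x} : Set G)), (z : G) = x → (θ : ↥(Subgroup.centralizer ({x} : Set G)) → ℂ) z = (θ : ↥(Subgroup.centralizer ({x} : Set G)) → ℂ) 1) :
    Nat.card B = 2 ∧ (∀ χ ∈ B, ∀ ψ ∈ B, ∀ g : G, ¬ 2 ∣ orderOf g → (χ : G → ℂ) g = (ψ : G → ℂ) g) ∧
      ∃ χ₁ ∈ B, ∃ χ₂ ∈ B, χ₁ ≠ χ₂ ∧ ∃ ε₁ ε₂ : ℤ, (ε₁ = 1 ∨ ε₁ = -1) ∧ (ε₂ = 1 ∨ ε₂ = -1) ∧ ε₁ * ε₂ = -1 ∧
        ∀ y : ↥(Subgroup.centralizer ({x} : Set G)), ¬ 2 ∣ orderOf y →
          (χ₁ : G → ℂ) (x * y) = (ε₁ : ℂ) * (θ : ↥(Subgroup.centralizer ({x} : Set G)) → ℂ) y ∧ (χ₂ : G → ℂ) (x * y) = (ε₂ : ℂ) * (θ : ↥(Subgroup.centralizer ({x} : Set G)) → ℂ) y := by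
  haveI : PMod 2 M := ⟨hM⟩
  have := Fintype.ofFinite G
  classical
  have hx' : ∃ k, orderOf x = 2 ^ k := ⟨1, by simp [hx]⟩
  have hs := isSub_centralizer (p := 2) hx'
  have hP := isPGroup_zpowers_of_orderOf hx'
  have hxP := Subgroup.mem_zpowers x
  have hx1 : x ≠ 1 := fun h => by simp [h] at hx
  have hcard : Nat.card (Subgroup.zpowers x) = 2 := by rw [Nat.card_zpowers, hx]
  have hmem : ∀ v ∈ Subgroup.zpowers x, v ≠ 1 → v = x := fun v hv hv1 => by
    obtain ⟨y, -, hy⟩ := (Nat.card_eq_two_iff' (1 : Subgroup.zpowers x)).1 hcard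
    exact congrArg Subtype.val ((hy ⟨v, hv⟩ fun h => hv1 (congrArg Subtype.val h)).trans
      (hy ⟨x, hxP⟩ fun h => hx1 (congrArg Subtype.val h)).symm)
  have hab := le_centralizer_of_cyclic (P := Subgroup.zpowers x) inferInstance
  have hC := centralizer_zpowers x
  have hN : Subgroup.normalizer (Subgroup.zpowers x : Set G) ≤
      Subgroup.centralizer (Subgroup.zpowers x : Set G) := fun t ht =>
    mem_centralizer_zpowers_iff.2 (mul_inv_eq_iff_eq_mul.1 (hmem _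
      ((Subgroup.mem_normalizer_iff.1 ht x).1 hxP) (by simpa using hx1))).symm
  have he : IsPair 2 (Subgroup.zpowers x) (eS M _ b) := ⟨hP, by rw [hC]; exact isPrim_eS hb.1⟩
  have hm : IsMax 2 (eB M B) (Subgroup.zpowers x) (eS M _ b) := ⟨isPrim_eB hB,
    (isDefectGroup_iff_isDef hB).1 hBD, he, ((isInducedBlock_iff_br hP (hab.trans hC.le) hC.le
      (hC.ge.trans (centralizer_le_normalizer' _))).1 hb).2.2⟩
  have hn := (hm.nil_iff_of_comm hab).2 (NP_le_normalizer.trans hN)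
  have hcomm : ∀ a b : Subgroup.zpowers x, a * b = b * a := fun a b => Subtype.ext (hab b.2 a a.2)
  have hk : Nat.card (IrrCharacter (Subgroup.zpowers x)) = 2 := by rw [card_irr_of_comm hcomm, hcard]
  obtain ⟨χ, hχ, h0⟩ := exists_height_zero 2 (IsPBlock.nonempty hB)
  obtain ⟨Φ, hΦ⟩ := hn.exists_equiv hB hm hχ h0
  have hfu : eS M _ b = fu 2 (Subgroup.zpowers x) (eS M _ b) x := (fq_eq (PLE.refl _)).symm
  have hD : IsDefectGroup 2 M b ((Subgroup.zpowers x).subgroupOf _) := by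
    refine (isDefectGroup_subgroupOf_iff hb.1 (hab.trans hC.le)).2 ?_
    have := hm.isDef_centralizer
    rwa [inf_eq_left.2 hab, hC] at this
  have hZ : (Subgroup.zpowers x).subgroupOf (Subgroup.centralizer {x}) ≤ Subgroup.center _ :=
    fun a ha => Subgroup.mem_center_iff.2 fun g => Subtype.ext (hC.ge g.2 a ha).symm
  have hrc := rc_of_center (IsDefectGroup.isPGroup hD) hZ
  have := normal_of_sup_centralizer (sup_centralizer_of_le_center hZ)
  have h1 := rho_eq_smul_of_rank_one' (hrc.rank_one hb.1 hD)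
    (blockPart_blockPart_self b (sh ⟨x, self_mem_centralizer x⟩ χ.1)) hθ
  have h2 : ∀ ψ ∈ B, ∀ y : Subgroup.centralizer ({x} : Set G), ¬ 2 ∣ orderOf y →
      (ψ : G → ℂ) (x * y) = pu 2 (Subgroup.zpowers x) (eS M _ b) x ψ (x * y) := fun ψ hψ y hy =>
    apply_eq_pu hB hm (blockPart_irr_of_mem hψ) hxP (fun v hv h => by
      rw [hmem v hv fun h1 => hx1 (by simpa [h1] using h)]; exact Fz.refl x) (hs.isPPart hy)
  have h3 : ∀ y : Subgroup.centralizer ({x} : Set G), ¬ 2 ∣ orderOf y →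
      pu 2 (Subgroup.zpowers x) (eS M _ b) x χ (x * y) =
        blockPart b (sh ⟨x, self_mem_centralizer x⟩ χ.1) y := fun y hy => by
    rw [← hs.pj_eq_pu hb.1 he (k := 1) (by simp) hxP (by rw [cj_one]; exact hfu) (irrC χ)]
    exact hs.EE_apply (isClassFunction_blockPart _ _) hy
  obtain ⟨c, hc⟩ : ∃ c, c = blockPart b (sh ⟨x, self_mem_centralizer x⟩ χ.1) 1 / θ.1 1 := ⟨_, rfl⟩
  rw [← hc] at h1
  have h4 : (starRingEnd ℂ) c = c := by
    have e1 := (h2 χ hχ 1 (by simp)).trans (h3 1 (by simp))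
    have e2 : x⁻¹ = x := inv_eq_of_mul_eq_one_right (by rw [← sq, ← hx, pow_orderOf_eq_one])
    rw [hc, ← e1, map_div₀, θ.2.apply_one_eq_charDegree, map_natCast, OneMemClass.coe_one, mul_one,
      ← IsCharacter.apply_inv χ.2.isCharacter, e2]
  have h5 : c * c = 1 := by
    have e1 := hn.mu_eq hB hm hχ h0 hxP
    have e2 := card_mul_ctr_eq_one hrc hb.1 hD hθ fun y hy => by
      by_cases h : (y : G) = 1
      · rw [show y = 1 from Subtype.ext h]
      · exact hθx y (hmem y hy h)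
    rw [Nat.card_congr (Subgroup.subgroupOfEquivOfLe (hab.trans hC.le)).toEquiv, hcard] at e2
    rw [inf_eq_left.2 hab, hcard, ← hs.mm_eq_mu hb.1 he hxP hfu (irrC χ) (irrC χ), mm,
      ctr_eq_inner, h1, ← map_smul, ← ctr_eq_inner, ctr_smul_left, ctr_smul_right, h4] at e1
    linear_combination e1 - c * c * e2
  have h6 : ∀ (ζ : IrrCharacter (Subgroup.zpowers x)) (y : Subgroup.centralizer ({x} : Set G)),
      ¬ 2 ∣ orderOf y → ((Φ ζ).1 : G → ℂ) (x * y) = ζ.1 ⟨x, hxP⟩ * c * θ.1 y := fun ζ y hy => by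
    have e1 := congrFun h1 y
    rw [Pi.smul_apply, rho_apply_of_not_dvd _ hy, rho_apply_of_not_dvd _ hy] at e1
    rw [h2 _ (Φ ζ).2 y hy, hΦ, pu_star he hxP (hn.stable hm (irrC ζ)) (irrC χ), Pi.smul_apply,
      h3 y hy, e1, xt_of_mem _ hxP, smul_eq_mul, smul_eq_mul, mul_assoc]
  obtain ⟨ζ, hζ, -⟩ := (Nat.card_eq_two_iff' (irrOne (Subgroup.zpowers x))).1 hk
  have h7 : ζ.1 ⟨x, hxP⟩ = -1 := by
    have e1 := ζ.2.sum_eq_zero fun h => hζ (Subtype.ext h)
    rw [Finset.sum_eq_add 1 ⟨x, hxP⟩ (fun h => hx1 (congrArg Subtype.val h).symm)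
      (fun v _ hv => (hv.2 (Subtype.ext (hmem v v.2 fun h => hv.1 (Subtype.ext h)))).elim)
      (by simp) (by simp), ζ.2.apply_one_of_comm hcomm] at e1
    linear_combination e1
  obtain ⟨ε, hε, rfl⟩ : ∃ ε : ℤ, (ε = 1 ∨ ε = -1) ∧ (ε : ℂ) = c := by
    rcases mul_self_eq_one_iff.1 h5 with h | h
    · exact ⟨1, Or.inl rfl, by simp [h]⟩
    · exact ⟨-1, Or.inr rfl, by simp [h]⟩
  refine ⟨by rw [← Nat.card_congr Φ, hk], fun χ₁ h₁ χ₂ h₂ g hg => ?_, _, (Φ (irrOne _)).2, _,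
    (Φ ζ).2, fun h => hζ (Φ.injective (Subtype.ext h)).symm, ε, -ε, hε, by omega,
    by rcases hε with rfl | rfl <;> rfl, fun y hy => ⟨?_, ?_⟩⟩
  · obtain ⟨ζ₁, e1⟩ := Φ.surjective ⟨χ₁, h₁⟩
    obtain ⟨ζ₂, e2⟩ := Φ.surjective ⟨χ₂, h₂⟩
    have e3 := hΦ ζ₁
    have e4 := hΦ ζ₂
    rw [e1] at e3
    rw [e2] at e4
    rw [← rho_apply_of_not_dvd χ₁.1 hg, ← rho_apply_of_not_dvd χ₂.1 hg, e3, e4,
      rho_star' hB hm _ (blockPart_irr_of_mem hχ), rho_star' hB hm _ (blockPart_irr_of_mem hχ),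
      xt_one, xt_one, ζ₁.2.apply_one_of_comm hcomm, ζ₂.2.apply_one_of_comm hcomm]
  · rw [h6 _ y hy]; simp
  · rw [h6 _ y hy, h7]; simp

end Cfsg.Agent.S4513
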