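import Cfsg.Statements.S4633
import Cfsg.Agent.BMod.Fusion
import Cfsg.Agent.Block.PPart
import Mathlib.RingTheory.ZMod.UnitsCyclic
import Cfsg.Agent.PGrp.Cyclic
import Cfsg.Agent.Gen2.Cyc
import Mathlib.RingTheory.Ideal.Quotient.Operations
import Mathlib.NumberTheory.Basic
-- import your own Cfsg.Agent.* helpers here

set_option autoImplicit false
open Cfsg

namespace Cfsg.Agent.S4633

open Cfsg.Agent.BMod Cfsg.Agent.Block Cfsg.Agent.Transfer

/-- Let B be a block of the finite group G relative to a maximal ideal M of the algebraic integers containing the prime p, with a nontrivial cyclic defect group P. Let c be a block of C_G(P) inducing B and T the stabilizer of c in N_G(P) (the elements of N_G(P) conjugating c to itself); T contains C_G(P). Then T/C_G(P) is cyclic of order dividing p − 1, and it acts freely on the non-identity elements of P: an element of T fixing some non-identity element of P under conjugation lies in C_G(P). -/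
theorem result {G : Type*} [Group G] [Finite G] (p : ℕ) [Fact p.Prime] (M : Ideal Cfsg.AlgInt) (hM : Cfsg.IsPModular p M) (B : Set (Cfsg.IrrCharacter G)) (hB : Cfsg.IsPBlock M B) (P : Subgroup G) (hPD : Cfsg.IsDefectGroup p M B P) (hP1 : P ≠ ⊥) (hcyc : IsCyclic P) (c : Set (Cfsg.IrrCharacter (Subgroup.centralizer (P : Set G)))) (hc : Cfsg.IsInducedBlock M (Subgroup.centralizer (P : Set G)) c B) (T : Subgroup G) (hT : ∀ g : G, g ∈ T ↔ (g ∈ Subgroup.normalizer (P : Set G) ∧ Cfsg.StabilizesBlock (Subgroup.centralizer (P : Set G)) c g)) [hn : ((Subgroup.centralizer (P : Set G)).subgroupOf T).Normal] : IsCyclic (T ⧸ (Subgroup.centralizer (P : Set G)).subgroupOf T) ∧ (Subgroup.centralizer (P : Set G)).relIndex T ∣ p - 1 ∧ ∀ g ∈ T, ∀ x ∈ P, x ≠ 1 → g * x * g⁻¹ = x → g ∈ Subgroup.centralizer (P : Set G) := by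
  haveI : PMod p M := ⟨hM⟩
  have hp : p.Prime := Fact.out
  have hm := IsMaximalBrauerPair.isMax (isMax_of_induced hPD hc)
  obtain rfl := eq_NP hc.1 hT
  have hab : P ≤ Subgroup.centralizer (P : Set G) := fun x hx y hy =>
    Gen2.mul_comm_of_isCyclic hy hx
  have hi := hm.not_dvd_inertial
  rw [sup_eq_right.2 hab] at hi
  obtain ⟨a, rfl⟩ := (Subgroup.isCyclic_iff_exists_zpowers_eq_top P).1 hcyc
  obtain ⟨n, hn⟩ := orderOf_eq_pow_of_mem hm.pair.1 (Subgroup.mem_zpowers a)
  have hfree : ∀ g ∈ NP (Subgroup.zpowers a) (eS M _ c), ∀ x ∈ Subgroup.zpowers a, x ≠ 1 →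
      g * x * g⁻¹ = x → g ∈ Subgroup.centralizer (Subgroup.zpowers a : Set G) := by
    intro g hg x hx hx1 hgx
    obtain ⟨j, rfl⟩ := Subgroup.mem_zpowers_iff.1 hx
    obtain ⟨k, hk⟩ := Subgroup.mem_zpowers_iff.1
      ((Subgroup.mem_normalizer_iff.1 hg.1 a).1 (Subgroup.mem_zpowers a))
    have h1 := PGrp.dvd_of_commute hk.symm (j := j) (mul_inv_eq_iff_eq_mul.1 hgx)
    have h2 : (p : ℤ) ∣ k - 1 := by
      by_contra h
      apply hx1
      rw [← orderOf_dvd_iff_zpow_eq_one]
      rw [hn] at h1 ⊢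
      push_cast at h1 ⊢
      exact (PGrp.isCoprime_pow_of_not_dvd hp h n).dvd_of_dvd_mul_right h1
    have h3 := dvd_sub_pow_of_dvd_sub h2 n
    refine mem_of_pow_mem_of_not_dvd NP_le_normalizer_centralizer hi hg (n := n) ?_
    rw [← le_centralizer_singleton_iff, Subgroup.zpowers_le, Subgroup.mem_centralizer_singleton_iff]
    refine ((PGrp.commute_iff_dvd (PGrp.pow_conj_eq hk.symm (p ^ n))).2 ?_).symm.eq
    rw [hn]
    push_cast
    rw [one_pow] at h3
    exact (pow_dvd_pow _ n.le_succ).trans h3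
  obtain ⟨z, hz, hz1⟩ := Gen2.exists_mem_orderOf_eq_of_isCyclic (C := Subgroup.zpowers a) (d := p) (by
    rw [Nat.card_zpowers, hn]
    refine dvd_pow_self p ?_
    rintro rfl
    exact hP1 (by simpa using hn))
  have hZ : Subgroup.zpowers z ≤ Subgroup.zpowers a := Subgroup.zpowers_le.2 hz
  have hN := (NP_le_normalizer (f := eS M _ c)).trans
    (Gen2.normalizer_le_normalizer_of_le_of_isCyclic hZ)
  set φ := (Subgroup.zpowers z).normalizerMonoidHom.comp (Subgroup.inclusion hN) with hφ
  have hker : φ.ker = (Subgroup.centralizer (Subgroup.zpowers a : Set G)).subgroupOf _ := by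
    rw [hφ, ← MonoidHom.comap_ker, Subgroup.normalizerMonoidHom_ker]
    ext g
    refine ⟨fun h => hfree g g.2 z hz (fun h => hp.one_lt.ne' (by rw [← hz1, h, orderOf_one])) ?_,
      fun h => centralizer_anti hZ h⟩
    exact mul_inv_eq_iff_eq_mul.2 (h z (Subgroup.mem_zpowers z)).symm
  have hcZ : Nat.card (Subgroup.zpowers z) = p := by rw [Nat.card_zpowers, hz1]
  have hcyc' : IsCyclic (MulAut (Subgroup.zpowers z)) := by
    have : Fact (Nat.card (Subgroup.zpowers z)).Prime := ⟨hcZ ▸ hp⟩
    exact isCyclic_of_injective (IsCyclic.mulAutMulEquiv (Subgroup.zpowers z)).toMonoidHom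
      (IsCyclic.mulAutMulEquiv (Subgroup.zpowers z)).injective
  let ψ := (QuotientGroup.kerLift φ).comp (QuotientGroup.quotientMulEquivOfEq hker.symm).toMonoidHom
  have hψ : Function.Injective ψ :=
    (QuotientGroup.kerLift_injective φ).comp (QuotientGroup.quotientMulEquivOfEq hker.symm).injective
  refine ⟨isCyclic_of_injective ψ hψ, ?_, hfree⟩
  have := Subgroup.card_dvd_of_injective ψ hψ
  rwa [IsCyclic.card_mulAut, hcZ, Nat.totient_prime hp] at this

end Cfsg.Agent.S4633
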