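import Cfsg.Statements.S4634
import Cfsg.Agent.BMod.Perf
import Cfsg.Agent.Gen2.SylowNum
-- import your own Cfsg.Agent.* helpers here

set_option autoImplicit false
open Cfsg

namespace Cfsg.Agent.S4634

open Cfsg.Agent.BMod Cfsg.Agent.Block Cfsg.Agent.Transfer Cfsg.Agent.Char Cfsg.Agent.CharDeep

open scoped ComplexConjugate in
theorem exists_sys {p : ℕ} [Fact p.Prime] {M : Ideal AlgInt} [PMod p M] {H A : Type*} [Group H]
    [Fintype H] [Group A] [Fintype A] {Q : Subgroup H} {f : MonoidAlgebra (F M) H}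
    (hB : IsPBlock M (Set.univ : Set (IrrCharacter H))) (hm : IsMax p (eB M Set.univ) Q f)
    (hc : IsCyclic Q) (hC : Subgroup.centralizer (Q : Set H) = Q) (hN : NP Q f = ⊤) (ι : A ≃* Q) :
    ∃ Θ, Sys p Set.univ Q f ι (aE ι (NP Q f)) (fun η u => η.1 (ι u)) Θ := by
  classical
  have h1 : ∀ u ∈ Q, u ≠ 1 → NP Q f ⊓ Subgroup.centralizer (Subgroup.zpowers u : Set H) ≤
      Subgroup.centralizer (Q : Set H) := fun u hu hu1 =>
    hm.free_of_cyclic hc (Subgroup.zpowers_le.2 hu) (by simpa using hu1)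
  have h := sys0_aE hB hm hC.ge ι h1
  have h2 : ∀ (η : IrrCharacter H) u, pu p Q f (ι u) η (ι u) = η.1 (ι u) := fun η u =>
    (apply_eq_pu hB hm (blockPart_irr_of_mem trivial) (ι u).2 (fun v hv h' =>
      (hm.fz_iff_of_comm hC.ge (ι u).2 hv).2 (hN ▸ mem_cls_top.2 h'))
      (isPPart_self (isSub_zu hm.pair (ι u).2).ord)).symm
  refine h.mk' (n := fun _ => 1) (fun _ _ _ _ => rfl)
    (fun η => (irrG η).comp (Q.subtype.comp ι.toMonoidHom)) fun η u hu => ⟨by simp [h2], ?_⟩
  obtain ⟨Θ, hΘ⟩ := exists_pu_eq_smul hm.pair (ι u).2 (h.rank u hu)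
  have h3 : ∀ χ : IrrCharacter H, mu p Q f (ι u) χ χ =
      χ.1 (ι u) * conj (χ.1 (ι u)) * classInner Θ Θ := fun χ => by
    rw [mu_eq_inner hm.pair (ι u).2 (irrC χ), hΘ, h2, classInner_smul_left, classInner_smul_right,
      mul_assoc]
  have h4 := sum_mu_self hB hm (ι u).2
  simp only [Set.mem_univ, if_true, h3, h.rank u hu, ← Finset.sum_mul] at h4
  rw [sum_irr_mul_conj_of_isConj (IsConj.refl _), ← centralizer_zpowers, le_antisymm
    (by simpa [hN, hC] using h1 _ (ι u).2 (by simpa using hu) : _ ≤ Q)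
    (hC.ge.trans (centralizer_anti (Subgroup.zpowers_le.2 (ι u).2)))] at h4
  rw [h3, Nat.card_congr ι.toEquiv]
  linear_combination (η.1 (ι u) * conj (η.1 (ι u))) * h4

theorem le_deg {H : Type*} [Group H] [Finite H] {Q : Subgroup H} (η : IrrCharacter H) {s : ℤ}
    (hs : s = 1 ∨ s = -1) (h : ∀ u : Q, u ≠ 1 → η.1 u = s) (h1 : ∃ x ∈ Q, η.1 x ≠ η.1 1) :
    Nat.card Q ≤ charDegree η.1 + 1 := by
  classical
  have := Fintype.ofFinite Q
  obtain ⟨n, hn⟩ := ((irrG η).restrict Q).exists_int_classInner isGeneralizedCharacter_one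
  have h2 := card_mul_classInner (fun u : Q => η.1 u) fun _ => 1
  rw [hn, ← Finset.add_sum_erase _ _ (Finset.mem_univ 1), Finset.sum_congr rfl fun u hu => by
    rw [h u (Finset.ne_of_mem_erase hu)], Finset.sum_const,
    Finset.card_erase_of_mem (Finset.mem_univ _), Finset.card_univ, ← Nat.card_eq_fintype_card,
    nsmul_eq_mul, Nat.cast_sub Nat.card_pos, OneMemClass.coe_one, ← deg_cast_irr] at h2
  have h3 : (Nat.card Q : ℤ) * (n - s) = charDegree η.1 - s := by
    apply Int.cast_injective (α := ℂ)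
    push_cast
    simp only [map_one, mul_one, Nat.cast_one] at h2
    linear_combination h2
  obtain ⟨x, hx, h1⟩ := h1
  have h4 : (charDegree η.1 : ℤ) ≠ s := fun h4 => h1 (by
    rw [h ⟨x, hx⟩ fun h => h1 (by rw [show x = 1 from congrArg Subtype.val h]), ← h4,
      ← deg_cast_irr, Int.cast_natCast])
  have := deg_pos η.2
  have := Int.le_of_dvd (by omega) ⟨_, h3.symm⟩
  omega

/-- Let B be a block of the finite group G relative to a maximal ideal M of the algebraic integers containing the prime p, with a nontrivial cyclic defect group P, let c be a block of C_G(P) inducing B, T the stabilizer of c in N_G(P) and e the index of C_G(P) in T. Let F be any finite group of order #P · e having a cyclic subgroup Q of order #P that is its own centralizer (F is then the semidirect product of Q by a cyclic group of order e acting faithfully). Then there is a perfect isometry from the set of all irreducible characters of F onto B whose signs agree on all the characters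 of F that do not contain Q in their kernel. -/
theorem result {G : Type*} [Group G] [Finite G] (p : ℕ) [Fact p.Prime] (M : Ideal Cfsg.AlgInt) (hM : Cfsg.IsPModular p M) (B : Set (Cfsg.IrrCharacter G)) (hB : Cfsg.IsPBlock M B) (P : Subgroup G) (hPD : Cfsg.IsDefectGroup p M B P) (hP1 : P ≠ ⊥) (hcyc : IsCyclic P) (c : Set (Cfsg.IrrCharacter (Subgroup.centralizer (P : Set G)))) (hc : Cfsg.IsInducedBlock M (Subgroup.centralizer (P : Set G)) c B) (T : Subgroup G) (hT : ∀ g : G, g ∈ T ↔ (g ∈ Subgroup.normalizer (P : Set G) ∧ Cfsg.StabilizesBlock (Subgroup.centralizer (P : Set G)) c g)) (e : ℕ) (he : (Subgroup.centralizer (P : Set G)).relIndex T = e) (F : Type*) [Group F] [Finite F] (hF : Nat.card F = Nat.card P * e) (Q : Subgroup F) (hQ : IsCyclic Q) (hQcard : Nat.card Q = Nat.card P) (hQC : Subgroup.centralizer (Q : Set F) = Q) : ∃ (I : Cfsg.IrrCharacter F → Cfsg.IrrCharacter G) (ε : Cfsg.IrrCharacter F → ℤ), Cfsg.IsPerfectIsometry p M (Set.univ : Set (Cfsg.IrrCharacter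 F)) B I ε ∧ ∀ η η' : Cfsg.IrrCharacter F, (∃ x ∈ Q, (η : F → ℂ) x ≠ (η : F → ℂ) 1) → (∃ x ∈ Q, (η' : F → ℂ) x ≠ (η' : F → ℂ) 1) → ε η = ε η' := by
  haveI : PMod p M := ⟨hM⟩
  have := Fintype.ofFinite G
  have := Fintype.ofFinite F
  have := Fintype.ofFinite P
  classical
  have hp : p.Prime := Fact.out
  have hm := IsMaximalBrauerPair.isMax (isMax_of_induced hPD hc)
  rw [eq_NP hc.1 hT] at he
  have h1 : e ∣ p - 1 := he ▸ relIndex_dvd_pred hm hcyc hP1
  have h2 : e < p := (Nat.le_of_dvd (by have := hp.two_le; omega) h1).trans_lt (by have := hp.pos; omega)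
  have h3 : Q.index = e := Nat.eq_of_mul_eq_mul_left Nat.card_pos
    (by rw [Q.card_mul_index, hF, hQcard])
  have he0 : 0 < e := h3 ▸ Nat.pos_of_ne_zero Q.index_ne_zero_of_finite
  obtain ⟨k, hk⟩ := IsPGroup.iff_card.1 hm.pair.1
  have hQp : IsPGroup p Q := IsPGroup.iff_card.2 ⟨k, hQcard.trans hk⟩
  have h4 : ¬ p ∣ Q.index := fun h => (Nat.le_of_dvd (h3 ▸ he0) h).not_gt (h3 ▸ h2)
  have : Q.Normal := Gen2.normal_of_card_sylow_eq_one (hQp.toSylow h4) (by
    have h5 := card_sylow_modEq_one p F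
    rwa [Nat.ModEq, Nat.mod_eq_of_lt hp.one_lt, Nat.mod_eq_of_lt ((Nat.le_of_dvd he0
      (h3 ▸ (hQp.toSylow h4).card_dvd_index)).trans_lt h2)] at h5)
  have h5 : principalBlock M F = Set.univ :=
    Set.eq_univ_of_forall fun χ => sameBlock_of_centralizer_le hQp hQC.le (irrOne F) χ
  have hB' : IsPBlock M (Set.univ : Set (IrrCharacter F)) := h5 ▸ isPBlock_principalBlock
  have h6 : IsPrinc ⊤ (eB M (Set.univ : Set (IrrCharacter F))) := h5 ▸ isPrinc_eB
  obtain ⟨f, hm'⟩ := exists_isMax hB' ((isDefectGroup_iff_isDef hB').2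
    (h6.isDef_iff.2 ⟨le_top, hQp, by simpa using h4⟩))
  have hN : NP Q f = ⊤ := eq_top_iff.2 fun g _ => by
    have : g ∈ Subgroup.normalizer (Q : Set F) := by simp [Subgroup.normalizer_eq_top]
    exact mem_NP.2 ⟨this, (isPrinc_of_mul_br h6 hm'.pair hm'.mul_br).cj_eq
      (normalizer_le_normalizer_centralizer Q this)⟩
  let ι : P ≃* Q := mulEquivOfCyclicCardEq hQcard.symm
  obtain ⟨D, Θ, X, Y, ζ, δ, δ₀, h, hs⟩ := exists_shape_cyclic hB hm hcyc hP1 (MulEquiv.refl P)
  obtain ⟨Θ', h'⟩ := exists_sys hB' hm' hQ hQC hN ι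
  have hE := (card_aE (MulEquiv.refl P) NP_le_normalizer).trans he
  have hE' : Nat.card (aE ι (NP Q f)) = e := by
    rw [card_aE ι NP_le_normalizer, hN, hQC, Subgroup.relIndex_top_right, h3]
  have := (Subgroup.nontrivial_iff_ne_bot P).2 hP1
  obtain ⟨X', Y', ζ', δ', δ₀', hs'⟩ := h'.exists_shape ((card_aE ι NP_le_normalizer).trans_le
    (relIndex_le_rank hB' hm' hQ ((Subgroup.nontrivial_iff_ne_bot Q).1 ι.symm.toEquiv.nontrivial)))
  have h7 : aE ι (NP Q f) = aE (MulEquiv.refl P) (NP P (eS M _ c)) := by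
    by_cases h2' : p = 2
    · obtain rfl : e = 1 := by omega
      rw [Subgroup.card_eq_one.1 hE, Subgroup.card_eq_one.1 hE']
    have := ZMod.isCyclic_units_of_prime_pow p hp h2' k
    have : IsCyclic (MulAut P) := (IsCyclic.mulAutMulEquiv P).isCyclic.2 (hk ▸ this)
    exact Gen2.eq_of_card_eq_of_isCyclic (C := ⊤) le_top le_top (hE'.trans hE.symm)
  have hY := hs'.cardY
  rw [h7] at h' hs'
  obtain ⟨I, ε, h8, h9⟩ := h.exists_perfect h' hs hs'
  refine ⟨I, ε, h8, fun η η' hη hη' => ?_⟩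
  rw [hE'] at hY
  have h10 : ∀ η : IrrCharacter F, (∃ x ∈ Q, η.1 x ≠ η.1 1) → η ∈ X' ∨ Y' = {η} →
      Y'.card * e ≤ charDegree η.1 := fun η hη h => by
    obtain ⟨s, h1, h2⟩ : ∃ s : ℤ, (s = 1 ∨ s = -1) ∧ ∀ u ≠ 1, η.1 (ι u) = s := by
      rcases h with h | h
      · exact ⟨_, hs'.sign η h, hs'.valX η h⟩
      · exact ⟨-δ₀', by have := hs'.sign₀; omega, fun u hu => by simpa [h] using hs'.sum_Y h'.comm hu⟩
    have := le_deg η h1 (fun u hu => by simpa using h2 (ι.symm u) (by simpa using hu)) hη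
    omega
  have h11 : ∀ S : Finset (IrrCharacter F), ∑ χ ∈ S, charDegree χ.1 ^ 2 ≤ (Y'.card * e + 1) * e :=
    fun S => by
      rw [hY, ← hF, ← sum_charDegree_sq]
      exact Finset.sum_le_sum_of_subset (Finset.subset_univ S)
  have h12 : 0 < Y'.card := Nat.pos_of_ne_zero fun h => by
    have : 1 < Nat.card P := Finite.one_lt_card
    rw [h] at hY
    omega
  by_cases ht : Y'.card = 1
  · by_contra hne
    have h13 : ∀ η : IrrCharacter F, η ∈ X' ∨ Y' = {η} := fun η =>
      ((hs'.mem η).1 trivial).imp_right fun h => by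
        obtain ⟨a, ha⟩ := Finset.card_eq_one.1 ht
        rw [ha] at h ⊢
        rw [Finset.mem_singleton.1 h]
    have h14 : ∀ η : IrrCharacter F, (∃ x ∈ Q, η.1 x ≠ η.1 1) → irrOne F ≠ η := by
      rintro _ ⟨x, -, hx⟩ rfl
      exact hx rfl
    have h15 := h11 {irrOne F, η, η'}
    rw [Finset.sum_insert (by simp [h14 η hη, h14 η' hη']),
      Finset.sum_pair fun h => hne (congrArg ε h), ht] at h15
    have := h10 η hη (h13 η)
    have := h10 η' hη' (h13 η')
    have := deg_pos (irrOne F).2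
    rw [ht] at *
    nlinarith
  have h13 : ∀ η : IrrCharacter F, (∃ x ∈ Q, η.1 x ≠ η.1 1) → η ∈ Y' := fun η hη =>
    ((hs'.mem η).1 trivial).resolve_left fun h => by
      have h14 := Nat.pow_le_pow_left (h10 η hη (Or.inl h)) 2
      have h15 := h11 {η}
      rw [Finset.sum_singleton] at h15
      obtain ⟨t, ht'⟩ : ∃ t, Y'.card = t + 2 := ⟨Y'.card - 2, by omega⟩
      rw [ht'] at h14 h15
      nlinarith [Nat.zero_le (t * e * e), Nat.zero_le (t * t * e * e)]
  rw [h9 η (h13 η hη), h9 η' (h13 η' hη')]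

end Cfsg.Agent.S4634
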