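import Cfsg.Statements.S4635
import Cfsg.Agent.BMod.Perf
-- import your own Cfsg.Agent.* helpers here

set_option autoImplicit false
open Cfsg

namespace Cfsg.Agent.S4635

open Cfsg.Agent.BMod Cfsg.Agent.Block Cfsg.Agent.Transfer Cfsg.Agent.Char Cfsg.Agent.CharDeep

/-- Let B be a block of the finite group G relative to a maximal ideal M of the algebraic integers containing the prime p, with a nontrivial cyclic defect group P; let Z be the subgroup of order p of P and H = N_G(Z), which contains N_G(P). Let c be the block of H with defect group P that induces B. Then B and c contain the same number of irreducible characters, have the same p-regular rank, and there is a perfect isometry from c onto B. -/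
theorem result {G : Type*} [Group G] [Finite G] (p : ℕ) [Fact p.Prime] (M : Ideal Cfsg.AlgInt) (hM : Cfsg.IsPModular p M) (B : Set (Cfsg.IrrCharacter G)) (hB : Cfsg.IsPBlock M B) (P : Subgroup G) (hPD : Cfsg.IsDefectGroup p M B P) (hP1 : P ≠ ⊥) (hcyc : IsCyclic P) (Z : Subgroup G) (hZ : Z ≤ P) (hZcard : Nat.card Z = p) (H : Subgroup G) (hH : H = Subgroup.normalizer (Z : Set G)) (c : Set (Cfsg.IrrCharacter H)) (hcD : Cfsg.IsDefectGroup p M c (P.subgroupOf H)) (hc : Cfsg.IsInducedBlock M H c B) : Nat.card c = Nat.card B ∧ Cfsg.blockRank p c = Cfsg.blockRank p B ∧ ∃ (I : Cfsg.IrrCharacter H → Cfsg.IrrCharacter G) (ε : Cfsg.IrrCharacter H → ℤ), Cfsg.IsPerfectIsometry p M c B I ε := by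
  haveI : PMod p M := ⟨hM⟩
  have := Fintype.ofFinite G
  have := Fintype.ofFinite H
  have := Fintype.ofFinite P
  have h1 : Subgroup.normalizer (P : Set G) ≤ H := hH ▸ normalizer_le_of_cyclic hcyc hZ
  have h2 : P ≤ H := Subgroup.le_normalizer.trans h1
  obtain ⟨e, hm, hm'⟩ := exists_isMax_res hc hPD hcD h2 ((centralizer_le_normalizer' P).trans h1)
  obtain ⟨D, Θ, X, Y, ζ, δ, δ₀, h, hs⟩ := exists_shape_cyclic hB hm hcyc hP1 (MulEquiv.refl P)
  obtain ⟨D', Θ', X', Y', ζ', δ', δ₀', h', hs'⟩ := exists_shape_cyclic hc.1 hm'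
    ((Subgroup.subgroupOfEquivOfLe h2).isCyclic.2 hcyc)
    (fun h => hP1 (by rw [← Subgroup.map_subgroupOf_eq_of_le h2, h, Subgroup.map_bot]))
    ((MulEquiv.refl P).trans (Subgroup.subgroupOfEquivOfLe h2).symm)
  rw [aE_res hm.pair h2 (NP_le_normalizer.trans h1)] at h' hs'
  obtain ⟨I, ε, h3, -⟩ := h.exists_perfect h' hs hs'
  exact ⟨Nat.card_congr h3.1.equiv, (h'.rank_eq hs').trans (h.rank_eq hs).symm, I, ε, h3⟩

end Cfsg.Agent.S4635
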