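import Cfsg.Statements.S4636
import Cfsg.Agent.BMod.Basic
import Cfsg.Agent.Gen2.Cyc
-- import your own Cfsg.Agent.* helpers here

set_option autoImplicit false
open scoped Pointwise
open Cfsg

namespace Cfsg.Agent.S4636

open Cfsg.Agent.BMod

/-- Let P be a nontrivial cyclic p-subgroup of the finite group G and Z its subgroup of order p. For every x outside N_G(Z), P meets its conjugate xPx⁻¹ trivially; consequently N_G(Q) ≤ N_G(Z) for every nontrivial subgroup Q of P. -/
theorem result {G : Type*} [Group G] [Finite G] (p : ℕ) [Fact p.Prime] (P : Subgroup G) (hP : IsPGroup p P) (hP1 : P ≠ ⊥) (hcyc : IsCyclic P) (Z : Subgroup G) (hZ : Z ≤ P) (hZcard : Nat.card Z = p) : (∀ x : G, x ∉ Subgroup.normalizer (Z : Set G) → P ⊓ MulAut.conj x • P = ⊥) ∧ ∀ Q : Subgroup G, Q ≤ P → Q ≠ ⊥ → Subgroup.normalizer (Q : Set G) ≤ Subgroup.normalizer (Z : Set G) := by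
  have key : ∀ Q : Subgroup G, Q ≤ P → Q ≠ ⊥ → Z ≤ Q := by
    intro Q hQ hQ1
    refine Gen2.le_of_card_dvd_of_isCyclic hZ hQ ?_
    obtain ⟨n, hn⟩ := IsPGroup.iff_card.1 (hP.to_le hQ)
    rw [hZcard, hn]
    refine dvd_pow_self p ?_
    rintro rfl
    exact hQ1 (Subgroup.card_eq_one.1 (by simpa using hn))
  constructor
  · intro x hx
    by_contra h
    apply hx
    have h1 : Z ≤ sc x P := (key _ inf_le_left h).trans inf_le_right
    rw [← Subgroup.inv_mem_iff, mem_normalizer_iff_sc]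
    refine Gen2.eq_of_card_eq_of_isCyclic ?_ hZ (card_sc _ _)
    rwa [sc_le_iff, inv_inv]
  · intro Q hQ hQ1
    have : IsCyclic Q := Subgroup.isCyclic_of_le hQ
    exact Gen2.normalizer_le_normalizer_of_le_of_isCyclic (key Q hQ hQ1)

end Cfsg.Agent.S4636
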