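import Cfsg.Statements.S4638
import Cfsg.Agent.BMod.Perf
-- import your own Cfsg.Agent.* helpers here

set_option autoImplicit false
open Cfsg

namespace Cfsg.Agent.S4638

open Cfsg.Agent.BMod Cfsg.Agent.Block Cfsg.Agent.Transfer Cfsg.Agent.Char Cfsg.Agent.CharDeep

theorem four_le {I : Type*} {S : Finset I} {z d : I → ℤ} (h0 : ∀ i ∈ S, z i ≠ 0)
    (hd : ∀ i, 0 < d i) (h1 : ∑ i ∈ S, z i ^ 2 = 4) (h2 : ∑ i ∈ S, z i * d i = 0) : 4 ≤ S.card := by
  classical
  by_cases h : ∀ i ∈ S, z i ^ 2 = 1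
  · rw [Finset.sum_congr rfl h] at h1
    simp at h1
    omega
  push Not at h
  obtain ⟨i, hi, h⟩ := h
  have h3 := card_le_sum_sq (S.erase i) fun j hj => h0 j (Finset.mem_of_mem_erase hj)
  have h4 : 4 ≤ z i ^ 2 := by
    have := h0 i hi
    rcases (by rw [Ne, sq_eq_one_iff] at h; omega : 2 ≤ z i ∨ z i ≤ -2) with h | h <;> nlinarith
  rw [← Finset.add_sum_erase _ _ hi] at h1 h2
  rw [Finset.card_eq_zero.1 (show (S.erase i).card = 0 by omega), Finset.sum_empty, add_zero] at h2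
  exact (mul_ne_zero (h0 i hi) (hd i).ne' h2).elim

theorem klein_sys {M : Ideal AlgInt} [PMod 2 M] {G A : Type*} [Group G] [Fintype G] [Group A]
    [Fintype A] [IsKleinFour A] {B : Set (IrrCharacter G)} {P : Subgroup G}
    {e : MonoidAlgebra (F M) G} (hB : IsPBlock M B) (hm : IsMax 2 (eB M B) P e) (ι : A ≃* P) :
    ∃ D Θ X Y ζ δ δ₀, Sys 2 B P e ι (aE ι (NP P e)) D Θ ∧ Shape B (aE ι (NP P e)) D X Y ζ δ δ₀ := by
  classical
  have := Fintype.ofFinite P
  have : Nontrivial A :=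
    Finite.one_lt_card_iff_nontrivial.1 (by rw [IsKleinFour.card_four (G := A)]; norm_num)
  have hP : IsKleinFour P := ⟨(Nat.card_congr ι.toEquiv).symm.trans IsKleinFour.card_four,
    (Monoid.exponent_eq_of_mulEquiv ι).symm.trans IsKleinFour.exponent_two⟩
  have hab : P ≤ Subgroup.centralizer (P : Set G) := fun x hx y hy =>
    congrArg Subtype.val (mul_comm_of_exponent_two hP.exponent_two (⟨y, hy⟩ : P) ⟨x, hx⟩)
  have hT : ∀ u ∈ P, u ≠ 1 → NP P e ⊓ Subgroup.centralizer (Subgroup.zpowers u : Set G) ≤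
      Subgroup.centralizer (P : Set G) := fun u hu hu1 t ht => by
    obtain ⟨n, hn, h1⟩ := hm.pow_mem hab ht.1
    let g := P.normalizerMonoidHom ⟨t, NP_le_normalizer ht.1⟩
    have h2 : g ⟨u, hu⟩ = ⟨u, hu⟩ :=
      Subtype.ext (mul_inv_eq_iff_eq_mul.2 (ht.2 u (Subgroup.mem_zpowers u)).symm)
    have h3 : t ^ 2 ∈ Subgroup.centralizer (P : Set G) := fun x hx => by
      have h4 : g (g ⟨x, hx⟩) = ⟨x, hx⟩ := by
        by_cases h5 : g ⟨x, hx⟩ = ⟨x, hx⟩
        · rw [h5, h5]
        have h6 := IsKleinFour.eq_mul_of_ne_all (x := ⟨x, hx⟩) (y := ⟨u, hu⟩) (z := g ⟨x, hx⟩)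
          (fun h => h5 (by rw [h, map_one])) (fun h => hu1 (congrArg Subtype.val h))
          (fun h => h5 (by rw [h, h2])) (fun h => h5 (by rw [map_eq_one_iff _ g.injective] at h; rw [h, map_one]))
          h5 (fun h => h5 (by rw [g.injective (h.trans h2.symm), h2]))
        rw [h6, map_mul, h2, h6, mul_assoc, IsKleinFour.mul_self, mul_one]
      have h5 : t * (t * x * t⁻¹) * t⁻¹ = x := congrArg Subtype.val h4
      rw [sq, ← h5]; nth_rewrite 2 [h5]; group
    obtain ⟨k, rfl⟩ : Odd n := Nat.not_even_iff_odd.1 (mt even_iff_two_dvd.1 hn)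
    rwa [pow_succ, pow_mul, Subgroup.mul_mem_cancel_left _ (pow_mem h3 k)] at h1
  have h := sys0_aE hB hm hab ι hT
  by_cases hN : NP P e ≤ Subgroup.centralizer (P : Set G)
  · obtain ⟨D, Θ, h1⟩ := exists_sys hB hm hab ι bot_le (by rw [Subgroup.normalizer_eq_top ⊥]; exact le_top)
      (inf_le_left.trans hN) fun _ _ _ => bot_le
    obtain ⟨X, Y, ζ, δ, δ₀, hs⟩ := h1.exists_shape (by
      rw [card_aE ι NP_le_normalizer, Subgroup.relIndex_eq_one.2 hN,
        ((hm.nil_iff_of_comm hab).2 hN).rank_one hB])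
    exact ⟨D, Θ, X, Y, ζ, δ, δ₀, h1, hs⟩
  have hE : Nat.card (aE ι (NP P e)) = 3 := by
    have h1 := card_dual_quot h.comm h.free
    rw [IsKleinFour.card_four (G := A)] at h1
    refine ((Nat.dvd_prime Nat.prime_three).1 ?_).resolve_left ?_
    · exact Dvd.intro_left _ (Nat.succ_injective h1)
    rwa [card_aE ι NP_le_normalizer, Subgroup.relIndex_eq_one]
  obtain ⟨u₀, hu₀⟩ := exists_ne (1 : A)
  have h1 : ∀ u ≠ 1, Fz 2 P e (ι u₀) (ι u) := fun u hu => by
    have h2 := (h.fc_eq hu₀).trans hE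
    rw [fc, Nat.card_eq_fintype_card, Fintype.card_subtype] at h2
    have := Finset.eq_of_subset_of_card_le (s := Finset.univ.filter fun v : P => Fz 2 P e (ι u₀) v)
      (t := Finset.univ.erase 1) (fun v hv => by
        simpa using fun (h : v = 1) => hu₀ (by simpa [h] using (Finset.mem_filter.1 hv).2.isConj))
      (by rw [h2, Finset.card_erase_of_mem (Finset.mem_univ _), Finset.card_univ,
        ← Nat.card_eq_fintype_card, IsKleinFour.card_four (G := P)])
    exact (Finset.mem_filter.1 (this.ge (by simpa using hu : ι u ∈ _))).2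
  obtain ⟨n, -, -, h2⟩ := exists_loc hm hab (Subgroup.zpowers_le.2 (ι u₀).2)
    (hT _ (ι u₀).2 (by simpa using hu₀))
  choose d h2 h3 using fun χ : IrrCharacter G => h2 χ (irrG χ)
  choose z hz using fun χ => (h2 χ).exists_int_of_sq_eq_one (g := ι u₀)
    (by rw [sq, IsKleinFour.mul_self])
  obtain ⟨Θ, h4⟩ := h.mk' (D := fun χ _ => z χ) (n := fun _ => n (ι u₀)) (fun _ _ _ _ => rfl)
    (fun χ => by simpa [Pi.smul_def] using isGeneralizedCharacter_one.intCast_smul (z χ))
    fun χ u hu => by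
      rw [← (h1 u hu).pu_self_eq hm.pair (ι u₀).2 (ι u).2 (irrC χ),
        ← (h1 u hu).mu_eq hm.pair (ι u₀).2 (ι u).2 (irrC χ), ← hz, Nat.card_congr ι.toEquiv]
      exact h3 χ _ le_rfl
  have h5 : ∀ f : IrrCharacter G → ℤ, ∑ χ ∈ B.toFinset, z χ * f χ = ∑ χ, z χ * f χ := fun f =>
    Finset.sum_subset (Finset.subset_univ _) fun χ _ hχ => by
      rw [Int.cast_eq_zero.1 (h4.eq_zero (by simpa using hχ) hu₀), zero_mul]
  have h6 := four_le (S := B.toFinset) (z := z) (d := fun χ => charDegree χ.1)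
    (fun χ hχ h => h4.ne (by simpa using hχ) hu₀ (by simp [h]))
    (fun χ => Int.natCast_pos.2 (deg_pos χ.2)) (by
      have := h4.orth hu₀ hu₀
      rw [if_pos ⟨1, one_mem _, rfl⟩, IsKleinFour.card_four (G := A)] at this
      simp only [sq, h5]
      exact_mod_cast (by simpa using this : ∑ χ, (z χ : ℂ) * z χ = 4)) (by
      have := h4.sum_conj hu₀ 1
      rw [h4.apply_reg hu₀ (by simp), mul_zero] at this
      rw [h5]
      exact_mod_cast (by simpa [deg_cast_irr] using this :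
        ∑ χ : IrrCharacter G, (z χ : ℂ) * charDegree χ.1 = 0))
  obtain ⟨X, Y, ζ, δ, δ₀, hs⟩ := h4.exists_shape (by
    have := h.card_eq
    rw [hE, IsKleinFour.card_four (G := A), Nat.card_coe_set_eq, Set.ncard_eq_toFinset_card'] at this
    omega)
  exact ⟨_, Θ, X, Y, ζ, δ, δ₀, h4, hs⟩

/-- Let B be a block of the finite group G relative to a maximal ideal M of the algebraic integers containing 2, with a Klein four defect group P, and let c be its Brauer correspondent: the block of N_G(P) with defect group P that induces B. Then there is a perfect isometry from c onto B. -/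
theorem result {G : Type*} [Group G] [Finite G] (M : Ideal Cfsg.AlgInt) (hM : Cfsg.IsPModular 2 M) (B : Set (Cfsg.IrrCharacter G)) (hB : Cfsg.IsPBlock M B) (P : Subgroup G) (hPD : Cfsg.IsDefectGroup 2 M B P) (hV : IsKleinFour P) (c : Set (Cfsg.IrrCharacter (Subgroup.normalizer (P : Set G)))) (hcD : Cfsg.IsDefectGroup 2 M c (P.subgroupOf (Subgroup.normalizer (P : Set G)))) (hc : Cfsg.IsInducedBlock M (Subgroup.normalizer (P : Set G)) c B) : ∃ (I : Cfsg.IrrCharacter (Subgroup.normalizer (P : Set G)) → Cfsg.IrrCharacter G) (ε : Cfsg.IrrCharacter (Subgroup.normalizer (P : Set G)) → ℤ), Cfsg.IsPerfectIsometry 2 M c B I ε := by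
  haveI : PMod 2 M := ⟨hM⟩
  have := Fintype.ofFinite G
  have := Fintype.ofFinite (Subgroup.normalizer (P : Set G))
  have := Fintype.ofFinite P
  obtain ⟨e, hm, hm'⟩ := exists_isMax_res hc hPD hcD Subgroup.le_normalizer
    (centralizer_le_normalizer' P)
  obtain ⟨D, Θ, X, Y, ζ, δ, δ₀, h, hs⟩ := klein_sys hB hm (MulEquiv.refl P)
  obtain ⟨D', Θ', X', Y', ζ', δ', δ₀', h', hs'⟩ := klein_sys hc.1 hm'
    ((MulEquiv.refl P).trans (Subgroup.subgroupOfEquivOfLe Subgroup.le_normalizer).symm)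
  rw [aE_res hm.pair Subgroup.le_normalizer NP_le_normalizer] at h' hs'
  obtain ⟨I, ε, h3, -⟩ := h.exists_perfect h' hs hs'
  exact ⟨I, ε, h3⟩

end Cfsg.Agent.S4638
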