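import Cfsg.Statements.S4641
import Cfsg.Agent.BMod.IBr
import Cfsg.Agent.BMod.Rank2

set_option autoImplicit false
open Cfsg

namespace Cfsg.Agent.S4641

open Cfsg.Agent.Block Cfsg.Agent.BMod Cfsg.Agent.Char MonoidAlgebra


/-- Let B be a block of the finite group G relative to a maximal ideal M of the algebraic integers containing the prime p, let p^a be the p-part of the order of G and p^d the order of a defect group D of B, and let g be the greatest common divisor of the degrees of the members of B. Then the p-part of g is exactly p^(a−d), and writing g = p^(a−d)·u there is a positive integer v, prime to p and at least the p-regular rank of B (its number of irreducible Brauer characters), with Σ_{χ ∈ B} χ(1)² = p^(2a−d)·u²·v. -/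
theorem result {G : Type*} [Group G] [Finite G] (p : ℕ) [Fact p.Prime] (M : Ideal Cfsg.AlgInt) (hM : Cfsg.IsPModular p M) (B : Set (Cfsg.IrrCharacter G)) (hB : Cfsg.IsPBlock M B) (D : Subgroup G) (hD : Cfsg.IsDefectGroup p M B D) (a d : ℕ) (ha : (Nat.card G).factorization p = a) (hd : Nat.card D = p ^ d) (g : ℕ) (hg1 : ∀ χ ∈ B, g ∣ Cfsg.charDegree (χ : G → ℂ)) (hg2 : ∀ g' : ℕ, (∀ χ ∈ B, g' ∣ Cfsg.charDegree (χ : G → ℂ)) → g' ∣ g) : g.factorization p = a - d ∧ ∃ v : ℕ, 0 < v ∧ ¬ p ∣ v ∧ Cfsg.blockRank p B ≤ v ∧ ∑ᶠ χ ∈ B, Cfsg.charDegree (χ : G → ℂ) ^ 2 = p ^ (2 * a - d) * (g / p ^ (a - d)) ^ 2 * v := by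
  classical
  haveI : PMod p M := ⟨hM⟩
  have := Fintype.ofFinite G
  have hp : p.Prime := Fact.out
  have hU := IsPBlock.isBlockUnion hB
  obtain rfl : d = blockDefect p B := Nat.pow_right_injective hp.two_le
    (hd.symm.trans (IsDefectGroup.card_eq hB hD))
  subst ha
  obtain ⟨χ₀, h0, h0'⟩ := exists_height_zero p (IsPBlock.nonempty hB)
  have hle := blockDefect_le p B
  have hg0 : g ≠ 0 := fun h => deg_ne_zero χ₀.2 (by simpa [h] using hg1 χ₀ h0)
  have h1 : g.factorization p = (Nat.card G).factorization p - blockDefect p B := by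
    refine le_antisymm ?_ ((hp.pow_dvd_iff_le_factorization hg0).1 (hg2 _ fun χ hχ =>
      (hp.pow_dvd_iff_le_factorization (deg_ne_zero χ.2)).2 ?_))
    · have := (Nat.factorization_le_iff_dvd hg0 (deg_ne_zero χ₀.2)).2 (hg1 χ₀ h0) p
      have := deg_add_defect p h0
      omega
    · have := deg_add_defect p hχ
      omega
  refine ⟨h1, ?_⟩
  rw [← h1]
  set u := g / p ^ g.factorization p with hu
  have hgu : p ^ g.factorization p * u = g := Nat.ordProj_mul_ordCompl_eq_self g p
  have hpu : ¬ p ∣ u := Nat.not_dvd_ordCompl hp hg0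
  haveI := finite_pt (F M) (F M)[G]
  haveI := Fintype.ofFinite (Pt (F M)[G])
  have hdv : ∀ θ : G → ℂ, IsGeneralizedCharacter G θ → blockPart B θ = θ → ∀ n : ℕ, θ 1 = n →
      g ∣ n := fun θ h2 h3 n hn => by
    obtain ⟨m, hm⟩ := int_span_iff.2 ⟨h2, h3⟩
    rw [hm, finsum_mem_irr] at hn
    rw [← Int.natCast_dvd_natCast, show (n : ℤ) = ∑ ψ : IrrCharacter G, if ψ ∈ B then
      m ψ * charDegree ψ.1 else 0 by
        rw [← Int.cast_inj (α := ℂ)]; push_cast; simp only [deg_cast_irr]; exact hn.symm]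
    refine Finset.dvd_sum fun ψ _ => ?_
    split_ifs with h4
    · exact Dvd.dvd.mul_left (Int.natCast_dvd_natCast.2 (hg1 ψ h4)) _
    · exact dvd_zero _
  have key : ∀ γ : PtB (eB M B), ∃ w : ℕ, 0 < w ∧ mult (F M) γ.1.out.2 1 *
      ev (col B 1) (lfi γ.1.out.1) = (g * (p ^ (Nat.card G).factorization p * u) * w : ℕ) := by
    rintro ⟨γ, hγ⟩
    have hi := γ.out.2
    obtain ⟨θ, h2, h3, h4⟩ := exists_gen_dual hU hi hγ
    have h5 : θ 1 = mult (F M) hi 1 := by
      rw [← ev_lfi_one (M := M) h2.isClassFunction, ev_lfi_eq_sum h2.isClassFunction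
        IsIdempotentElem.one, Finset.sum_eq_single γ (fun δ _ hδ => by
          rw [h4 _ δ.out.2, if_neg (by rw [eqv_out_iff]; exact hδ.symm), mul_zero]) (by simp),
        h4 _ hi, if_pos (Eqv.refl hi.idem), mul_one]
    obtain ⟨w₁, hw₁⟩ := hdv θ h2 h3 _ h5
    have h6 : mult (F M) hi 1 ≠ 0 := by
      obtain ⟨T, hT⟩ := exists_dec (F M) (IsIdempotentElem.one (M := (F M)[G]))
      obtain ⟨s, hs⟩ := hT.exists_eqv (F M) hi
      rw [hT.mult_eq hi]
      exact Finset.card_ne_zero.2 ⟨s, by simpa using hs⟩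
    have h7 : IsCharacter G (pc (lfi γ.out.1)) := isCharacter_pc (lfi_spec hi.idem).2.1
    obtain ⟨n, hn⟩ := h7.exists_nat_apply_one
    have h8 : n ≠ 0 := by
      rintro rfl
      exact (linInd_pc M G).ne_zero γ (h7.eq_zero_of_apply_one (by simpa using hn))
    obtain ⟨k, hk⟩ := int_dvd_apply_one_of_vanish (p := p) h7.isGeneralizedCharacter fun g hg => by
      rw [← rho_pc_lfi (p := p) hi.idem, rho_apply_of_dvd _ hg]
    obtain ⟨w₂, hw₂⟩ : p ^ (Nat.card G).factorization p * u ∣ n :=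
      Nat.Coprime.mul_dvd_of_dvd_of_dvd ((hp.coprime_iff_not_dvd.2 hpu).pow_left _)
        (Int.natCast_dvd_natCast.1 ⟨k, by exact_mod_cast hn.symm.trans hk⟩)
        ((Dvd.intro_left _ hgu).trans (hdv _ h7.isGeneralizedCharacter
          (blockPart_pc_lfi hU hi.idem hγ) n hn))
    refine ⟨w₁ * w₂, Nat.pos_of_ne_zero (mul_ne_zero (by rintro rfl; exact h6 hw₁)
      (by rintro rfl; exact h8 hw₂)), ?_⟩
    have h9 : ev (col B 1) (lfi γ.out.1) = n := by
      rw [← hn, ← blockPart_pc_lfi hU hi.idem hγ, blockPart_apply_sum, col, ev_sum_left]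
      refine Finset.sum_congr rfl fun χ _ => ?_
      rw [ev_smul_left, classInner_pc (irr_gen χ)]
      split_ifs <;> simp [mul_comm]
    simp only
    rw [h9, hw₁, hw₂]
    push_cast
    ring
  choose w hw hw' using key
  have h2 : ∑ᶠ χ ∈ B, charDegree (χ : G → ℂ) ^ 2 = p ^ (2 * (Nat.card G).factorization p -
      blockDefect p B) * u ^ 2 * ∑ γ, w γ := by
    rw [← Nat.cast_inj (R := ℂ), ← col_one_one, ← ev_lfi_one (M := M) (isClassFunction_col _ _),
      ev_lfi_eq_sum (isClassFunction_col _ _) IsIdempotentElem.one,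
      ← Fintype.sum_subtype_add_sum_subtype (fun γ : Pt (F M)[G] => eB M B * γ.out.1 = γ.out.1),
      Finset.sum_congr rfl fun γ _ => hw' γ, ← Nat.cast_sum, Finset.sum_eq_zero
        (M := ℂ) fun γ _ => by
        rw [ev_lfi_of_mul_eq_zero hU (blockPart_col _ _) γ.1.out.2.idem
          ((γ.1.out.2.eB_or hU).resolve_right γ.2), mul_zero],
      add_zero, ← Finset.mul_sum, show 2 * (Nat.card G).factorization p -
        blockDefect p B = g.factorization p + (Nat.card G).factorization p by omega, pow_add]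
    congr 2
    conv_lhs => rw [← hgu]
    ring
  have h3 : blockRank p B ≤ ∑ γ, w γ := by
    rw [← card_PtB hU, Nat.card_eq_fintype_card, ← Finset.card_univ, Finset.card_eq_sum_ones]
    exact Finset.sum_le_sum fun γ _ => hw γ
  have h4 := (blockRank_pos (p := p) (IsPBlock.nonempty hB)).trans_le h3
  refine ⟨_, h4, fun h5 => ?_, h3, h2⟩
  have h6 := factorization_sum_deg_sq hB
  have hu0 : u ≠ 0 := fun h => hpu (h ▸ dvd_zero p)
  rw [h2, Nat.factorization_mul (mul_ne_zero (pow_ne_zero _ hp.ne_zero) (pow_ne_zero _ hu0)) h4.ne',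
    Nat.factorization_mul (pow_ne_zero _ hp.ne_zero) (pow_ne_zero _ hu0)] at h6
  have h7 := hp.factorization_pos_of_dvd h4.ne' h5
  simp only [Finsupp.add_apply, hp.factorization_pow, Finsupp.single_eq_same] at h6
  omega

end Cfsg.Agent.S4641
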