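import Cfsg.Statements.S4644
import Cfsg.Agent.BMod.Abel
-- import your own Cfsg.Agent.* helpers here

set_option autoImplicit false
open Cfsg

namespace Cfsg.Agent.S4644

open Cfsg.Agent.BMod Cfsg.Agent.Block Cfsg.Agent.Transfer Cfsg.Agent.Char Cfsg.Agent.CharDeep

/-- Let B be a block of the finite group G relative to a maximal ideal M of the algebraic integers containing the prime p, with a commutative defect group P; let c be a block of C_G(P) inducing B and T the stabilizer of c in N_G(P). Let u be an element of P fixed under conjugation by every element of T, H = C_G(u) (so C_G(P) ≤ H), and f the block of H induced by c inside H. Then B and f have the same p-regular rank and the same number of irreducible characters. -/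
theorem result {G : Type*} [Group G] [Finite G] (p : ℕ) [Fact p.Prime] (M : Ideal Cfsg.AlgInt) (hM : Cfsg.IsPModular p M) (B : Set (Cfsg.IrrCharacter G)) (hB : Cfsg.IsPBlock M B) (P : Subgroup G) (hPD : Cfsg.IsDefectGroup p M B P) (hPab : ∀ x ∈ P, ∀ y ∈ P, x * y = y * x) (c : Set (Cfsg.IrrCharacter (Subgroup.centralizer (P : Set G)))) (hc : Cfsg.IsInducedBlock M (Subgroup.centralizer (P : Set G)) c B) (T : Subgroup G) (hT : ∀ g : G, g ∈ T ↔ (g ∈ Subgroup.normalizer (P : Set G) ∧ Cfsg.StabilizesBlock (Subgroup.centralizer (P : Set G)) c g)) (u : G) (hu : u ∈ P) (huT : ∀ g ∈ T, g * u * g⁻¹ = u) (H : Subgroup G) (hH : H = Subgroup.centralizer ({u} : Set G)) (f : Set (Cfsg.IrrCharacter H)) (hf : Cfsg.IsInducedBlockIn M H (Subgroup.centralizer (P : Set G)) c f) : Cfsg.blockRank p B = Cfsg.blockRank p f ∧ Nat.card B = Nat.card f := by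
  haveI : PMod p M := ⟨hM⟩
  have := Fintype.ofFinite G
  obtain ⟨-, hc', hm⟩ := isMax_iff.1 (isMax_of_induced hPD hc)
  have hab : P ≤ Subgroup.centralizer (P : Set G) := fun x hx y hy => hPab y hy x hx
  have hu' : Subgroup.zpowers u ≤ P := by simpa using hu
  rw [← centralizer_zpowers] at hH
  subst hH
  obtain rfl := eq_NP hc' hT
  obtain ⟨-, hf', h⟩ := (isInducedBlockIn_iff_ple hm.pair.1 hu'
    (hab.trans (centralizer_anti hu'))).1 hf
  obtain rfl : f = bq p P _ (Subgroup.zpowers u) :=
    eS_inj hf' (isPBlock_bq hm.pair hu') ((fq_eq h).symm.trans (eS_bq hm.pair hu').symm)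
  have := watanabe hB hm hab hu' fun g hg =>
    mem_centralizer_zpowers_iff.2 (mul_inv_eq_iff_eq_mul.1 (huT g hg)).symm
  exact ⟨this.1.symm, this.2.symm⟩

end Cfsg.Agent.S4644
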