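import Cfsg.Statements.S4645
import Cfsg.Agent.BMod.Abel
-- import your own Cfsg.Agent.* helpers here

set_option autoImplicit false
open Cfsg

namespace Cfsg.Agent.S4645

open Cfsg.Agent.BMod Cfsg.Agent.Block Cfsg.Agent.Transfer Cfsg.Agent.Char Cfsg.Agent.CharDeep

/-- Let B be a block of the finite group G relative to a maximal ideal M of the algebraic integers containing the prime p, with a nontrivial cyclic defect group P; let c be a block of C_G(P) inducing B and T the stabilizer of c in N_G(P). Let Q be a nontrivial subgroup of P (so C_G(P) ≤ C_G(Q)), f the block of C_G(Q) induced by c inside C_G(Q), and T' the stabilizer of f in N_G(Q). Then T' = T·C_G(Q), the index of C_G(Q) in T' equals the index of C_G(P) in T, f has p-regular rank 1, and f is a nilpotent block of C_G(Q). -/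
theorem result {G : Type*} [Group G] [Finite G] (p : ℕ) [Fact p.Prime] (M : Ideal Cfsg.AlgInt) (hM : Cfsg.IsPModular p M) (B : Set (Cfsg.IrrCharacter G)) (hB : Cfsg.IsPBlock M B) (P : Subgroup G) (hPD : Cfsg.IsDefectGroup p M B P) (hP1 : P ≠ ⊥) (hcyc : IsCyclic P) (c : Set (Cfsg.IrrCharacter (Subgroup.centralizer (P : Set G)))) (hc : Cfsg.IsInducedBlock M (Subgroup.centralizer (P : Set G)) c B) (T : Subgroup G) (hT : ∀ g : G, g ∈ T ↔ (g ∈ Subgroup.normalizer (P : Set G) ∧ Cfsg.StabilizesBlock (Subgroup.centralizer (P : Set G)) c g)) (Q : Subgroup G) (hQP : Q ≤ P) (hQ1 : Q ≠ ⊥) (f : Set (Cfsg.IrrCharacter (Subgroup.centralizer (Q : Set G)))) (hf : Cfsg.IsInducedBlockIn M (Subgroup.centralizer (Q : Set G)) (Subgroup.centralizer (P : Set G)) c f) (T' : Subgroup G) (hT' : ∀ g : G, g ∈ T' ↔ (g ∈ Subgroup.normalizer (Q : Set G) ∧ Cfsg.StabilizesBlock (Subgroup.centralizer (Q : Set G)) f g)) : T' = T ⊔ Subgroup.centralizer (Q : Set G) ∧ (Subgroup.centralizer (Q : Set G)).relIndex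 T' = (Subgroup.centralizer (P : Set G)).relIndex T ∧ Cfsg.blockRank p f = 1 ∧ Cfsg.IsNilpotentBlock p M f := by
  haveI : PMod p M := ⟨hM⟩
  have := Fintype.ofFinite G
  classical
  obtain ⟨-, hc', hm⟩ := isMax_iff.1 (isMax_of_induced hPD hc)
  have hab := le_centralizer_of_cyclic hcyc
  obtain ⟨-, hf', h⟩ := (isInducedBlockIn_iff_ple hm.pair.1 hQP
    (hab.trans (centralizer_anti hQP))).1 hf
  obtain rfl := eq_NP hc' hT
  obtain rfl := eq_NP hf' hT'
  have h1 := hm.free_of_cyclic hcyc hQP hQ1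
  have h2 := (NP_le_normalizer (f := eS M _ c)).trans (normalizer_le_of_cyclic hcyc hQP)
  have h3 := hm.NP_eq_of_comm hab h
  rw [inf_eq_left.2 h2] at h3
  have h4 := isNilpotentBlock_iff_eS.2 ⟨hf', hm.nil_centralizer_of_comm hab h h1⟩
  refine ⟨h3, ?_, (isNilpotentBlock_iff.1 h4).2.rank_one hf', h4⟩
  rw [h3, Solv.relIndex_sup_of_le_normalizer (h2.trans (normalizer_le_normalizer_centralizer Q)),
    ← Subgroup.inf_relIndex_left, le_antisymm h1
      (le_inf hm.pair.centralizer_le_NP (centralizer_anti hQP))]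

end Cfsg.Agent.S4645
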