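import Cfsg.Statements.S4647
import Cfsg.Agent.BMod.Mat
-- import your own Cfsg.Agent.* helpers here

set_option autoImplicit false
open Cfsg

namespace Cfsg.Agent.S4647

open Cfsg.Agent.BMod Cfsg.Agent.Block Cfsg.Agent.Transfer Cfsg.Agent.Char Cfsg.Agent.CharDeep Module MonoidAlgebra

section perm
variable {p : ℕ} [hp : Fact p.Prime] {F : Type*} [Field F] [CharP F p] {H X : Type*} [Group H]
  [Finite H] [MulAction H X] [Fintype X] [DecidableEq X]

variable (F H X) in
/-- Invariant matrices. -/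
def E : Subalgebra F (Matrix X X F) where
  carrier := {T | ∀ (h : H) x y, T (h • x) (h • y) = T x y}
  mul_mem' {a b} ha hb h x y := by
    rw [Matrix.mul_apply, Matrix.mul_apply, ← Equiv.sum_comp (MulAction.toPerm h)]
    exact Finset.sum_congr rfl fun z _ => by rw [MulAction.toPerm_apply, ha, hb]
  add_mem' {a b} ha hb h x y := by rw [Matrix.add_apply, Matrix.add_apply, ha, hb]
  algebraMap_mem' c h x y := by simp [Matrix.algebraMap_matrix_apply]

/-- Nonzero Brauer quotient. -/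
def Nz (R : Subgroup H) (T : E F H X) : Prop :=
  ∃ x y, (∀ h ∈ R, h • x = x) ∧ (∀ h ∈ R, h • y = y) ∧ T.1 x y ≠ 0

theorem exists_mid (hH : IsPGroup p H) {R : Subgroup H} {a b : E F H X} {x y : X}
    (hx : ∀ h ∈ R, h • x = x) (hy : ∀ h ∈ R, h • y = y) (h : (a * b).1 x y ≠ 0) :
    ∃ z, (∀ h ∈ R, h • z = z) ∧ a.1 x z ≠ 0 ∧ b.1 z y ≠ 0 := by
  obtain ⟨z, -, h1, h2⟩ := exists_fixed_of_sum_ne_zero (hH.to_subgroup R) Finset.univ
    (fun _ _ _ => Finset.mem_univ _) (fun z => a.1 x z * b.1 z y) (fun u z _ => by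
      rw [← a.2 u x z, ← b.2 u z y, hx u u.2, hy u u.2]; rfl) h
  exact ⟨z, fun h hh => h1 ⟨h, hh⟩, mul_ne_zero_iff.1 h2⟩

theorem Nz.of_mul (hH : IsPGroup p H) {R : Subgroup H} {a j c : E F H X} (h : Nz R (a * j * c)) :
    Nz R j := by
  obtain ⟨x, y, hx, hy, h⟩ := h
  obtain ⟨z, hz, h1, -⟩ := exists_mid hH hx hy h
  obtain ⟨w, hw, -, h2⟩ := exists_mid hH hx hz h1
  exact ⟨w, z, hw, hz, h2⟩

open Classical in
variable (F) in
/-- The projection onto an orbit. -/
noncomputable def pr (ω : MulAction.orbitRel.Quotient H X) : E F H X :=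
  ⟨Matrix.diagonal fun y => if y ∈ ω.orbit then 1 else 0, fun h x y => by
    simp only [Matrix.diagonal_apply, smul_left_cancel_iff,
      MulAction.orbitRel.Quotient.mem_orbit, MulAction.orbitRel.Quotient.quotient_smul_eq,
      Quotient.mk''_eq_mk]⟩

theorem isLoc_pr (hH : IsPGroup p H) (ω : MulAction.orbitRel.Quotient H X) : IsLoc (pr F ω) := by
  classical
  obtain ⟨x, rfl⟩ := Quotient.exists_rep ω
  set π := pr F (⟦x⟧ : MulAction.orbitRel.Quotient H X) with hπ
  have hx : x ∈ MulAction.orbit H x := MulAction.mem_orbit_self x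
  have h0 : IsIdempotentElem π := Subtype.ext (by
    refine (Matrix.diagonal_mul_diagonal _ _).trans (congrArg _ (funext fun y => ?_))
    split_ifs <;> simp)
  let v : X → F := fun y => if y ∈ MulAction.orbit H x then 1 else 0
  have hv : ∀ (h : H) y, v (h • y) = v y := fun h y => by
    simp only [v, MulAction.mem_orbit_symm (a₂ := x), MulAction.orbit_smul]
  have h1 : ∀ w : X → F, (∀ (h : H) y, w (h • y) = w y) → π.1.mulVec w = w x • v := fun w hw => by
    ext y
    simp only [hπ, pr, Matrix.mulVec_diagonal, v, Pi.smul_apply, smul_eq_mul]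
    rw [mul_comm]
    by_cases hy : y ∈ MulAction.orbit H x
    · obtain ⟨h, rfl⟩ := hy
      rw [hw]; rfl
    · exact (mul_eq_zero_of_right _ (if_neg hy)).trans (mul_eq_zero_of_right _ (if_neg hy)).symm
  have h2 : ∀ (g : E F H X) (w : X → F) (h : H) y,
      g.1.mulVec (fun z => w (h • z)) y = g.1.mulVec w (h • y) := fun g w h y => by
    simp only [Matrix.mulVec, dotProduct]
    rw [← Equiv.sum_comp (MulAction.toPerm h) fun z => g.1 (h • y) z * w z]
    exact Finset.sum_congr rfl fun z _ => by rw [MulAction.toPerm_apply, g.2]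
  have h3 : ∀ g : E F H X, π * g = g → g.1.mulVec v = g.1.mulVec v x • v := fun g hg => by
    rw [← h1 _ fun h y => by rw [← h2]; simp only [hv], Matrix.mulVec_mulVec]
    exact congrArg (fun T : E F H X => T.1.mulVec v) hg.symm
  have h4 : ∀ g : E F H X, IsIdempotentElem g → π * g = g → g.1.mulVec v x = 0 → g = 0 := by
    intro g hg h5 h6
    by_contra h7
    obtain ⟨w, hw⟩ : ∃ w, g.1.mulVec w ≠ 0 := by
      by_contra! h8
      exact h7 (Subtype.ext (Matrix.ext_iff_mulVec.2 fun w => by simp [h8]))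
    letI : DistribMulAction H (X → F) :=
      { smul h w y := w (h⁻¹ • y)
        one_smul w := funext fun y => congrArg w (by simp)
        mul_smul a b w := funext fun y => congrArg w (by simp [mul_smul])
        smul_zero _ := rfl
        smul_add _ _ _ := rfl }
    obtain ⟨u, hu, hu0, hu1⟩ := exists_fixed_ne_zero hH (V := X → F) (fun v => by
      rw [← Nat.cast_smul_eq_nsmul F, CharP.cast_eq_zero, zero_smul])
      (LinearMap.eqLocus g.1.mulVecLin LinearMap.id).toAddSubgroup (fun h w hw =>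
        funext fun y => (h2 g w h⁻¹ y).trans (congrFun hw _)) (v := g.1.mulVec w)
      ((Matrix.mulVec_mulVec _ _ _).trans (congrArg (fun T : E F H X => T.1.mulVec w) hg.eq)) hw
    have hu' : g.1.mulVec u = u := hu
    have h8 : π.1.mulVec u = u := by
      rw [← hu', Matrix.mulVec_mulVec]
      exact congrArg (fun T : E F H X => T.1.mulVec u) h5
    rw [h1 u fun h y => by
      rw [← inv_inv h]; exact congrFun (hu1 h⁻¹) y] at h8
    rw [← h8, Matrix.mulVec_smul, h3 g h5, h6, zero_smul, smul_zero, h8] at hu'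
    exact hu0 hu'.symm
  have hvx : v x = 1 := if_pos hx
  refine ⟨h0, fun h => ?_, fun f hf h5 h6 => ?_⟩
  · have := congrFun (h1 v hv) x
    simp [h, hvx] at this
  · have h7 := congrArg (fun w => f.1.mulVec w x) (h3 f h5)
    simp only [Matrix.mulVec_mulVec, Matrix.mulVec_smul, Pi.smul_apply, smul_eq_mul] at h7
    rw [show f.1 * f.1 = f.1 from congrArg Subtype.val hf.eq] at h7
    rcases IsIdempotentElem.iff_eq_zero_or_one.1 h7.symm with h8 | h8
    · exact .inl (h4 f hf h5 h8)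
    · refine .inr (sub_eq_zero.1 (h4 (π - f) ?_ (by rw [mul_sub, h0.eq, h5]) ?_)).symm
      · rw [IsIdempotentElem, mul_sub, sub_mul, sub_mul, h0.eq, h5, h6, hf.eq, sub_self, sub_zero]
      · change (π.1 - f.1).mulVec v x = 0
        rw [Matrix.sub_mulVec, Pi.sub_apply, h8, h1 v hv]
        simp [hvx]

theorem exists_orbit [IsAlgClosed F] (hH : IsPGroup p H) {b : E F H X} (hb : IsIdempotentElem b)
    (h0 : b ≠ 0) (h : ∀ x : X, Nz (MulAction.stabilizer H x) b →
      b.1.rank ≤ Nat.card (MulAction.orbit H x)) :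
    ∃ x : X, Nz (MulAction.stabilizer H x) b ∧
      ∀ R, Nz R b → ∃ k : H, ∀ h ∈ R, h • k • x = k • x := by
  classical
  have := Fintype.ofFinite (MulAction.orbitRel.Quotient H X)
  obtain ⟨T, hT⟩ := exists_dec F hb
  obtain ⟨j, hj⟩ := T.eq_empty_or_nonempty.resolve_left fun h => h0 (by rw [← hT.sum, h]; rfl)
  have h1 : ∑ ω, pr F ω = (1 : E F H X) := Subtype.ext (by
    ext x y
    simp [pr, Matrix.sum_apply, Matrix.diagonal_apply, Matrix.one_apply,
      MulAction.orbitRel.Quotient.mem_orbit])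
  have hl := hT.loc j hj
  obtain ⟨ω, -, hω⟩ := hl.rosenberg (F := F) (s := Finset.univ) (x := pr F)
    (by rw [h1, mul_one, hl.idem.eq])
  obtain ⟨a, c, h2, h3⟩ := eqv_of_wt_ne_zero hl (isLoc_pr hH ω) (x := 1) (y := 1) (by simpa using hω)
  obtain ⟨x, rfl⟩ := Quotient.exists_rep ω
  set π := pr F (⟦x⟧ : MulAction.orbitRel.Quotient H X) with hπ
  have h4 : π = c * j * a := by rw [← (show π * π = π from (isLoc_pr hH _).idem.eq), ← h3, ← h2]; noncomm_ring
  have h5 : j = a * π * c := by rw [← hl.idem.eq, ← h3, ← h2]; noncomm_ring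
  obtain ⟨h6, h7⟩ := hT.mul_mem hj
  have h8 : Nz (MulAction.stabilizer H x) b := by
    refine Nz.of_mul hH (a := c) (c := j * a) ⟨x, x, fun _ h => h, fun _ h => h, ?_⟩
    rw [mul_assoc, ← mul_assoc b, h6, ← mul_assoc, ← h4]
    simp [hπ, pr]
  have h9 : b.1.rank ≤ j.1.rank := by
    refine (h x h8).trans (le_trans (le_of_eq ?_) ((Matrix.rank_mul_le_left (c.1 * j.1) a.1).trans
      (Matrix.rank_mul_le_right _ _)))
    rw [show c.1 * j.1 * a.1 = π.1 from congrArg Subtype.val h4.symm, hπ, pr, Matrix.rank_diagonal,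
      ← Nat.card_eq_fintype_card]
    exact Nat.card_congr (Equiv.subtypeEquivRight fun y => by
      by_cases hy : y ∈ MulAction.orbit H x <;> simp [hy])
  have h10 := Submodule.eq_of_le_of_finrank_le (show LinearMap.range j.1.mulVecLin ≤
    LinearMap.range b.1.mulVecLin by
      rw [show j.1 = b.1 * j.1 from congrArg Subtype.val h6.symm, Matrix.mulVecLin_mul]
      exact LinearMap.range_comp_le_range _ _) h9
  have h11 : b = j := h7 ▸ Subtype.ext (Matrix.ext_iff_mulVec.2 fun w => by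
    obtain ⟨u, hu⟩ := h10.ge (LinearMap.mem_range_self _ w)
    change j.1.mulVec u = b.1.mulVec w at hu
    change _ = (j.1 * b.1).mulVec w
    rw [← Matrix.mulVec_mulVec, ← hu, Matrix.mulVec_mulVec,
      show j.1 * j.1 = j.1 from congrArg Subtype.val hl.idem.eq])
  refine ⟨x, h8, fun R hR => ?_⟩
  rw [h11, h5] at hR
  obtain ⟨y, z, hy, -, h12⟩ := hR.of_mul hH
  simp only [hπ, pr, Matrix.diagonal_apply, ne_eq, ite_eq_right_iff, not_forall] at h12
  obtain ⟨-, ⟨k, rfl⟩, -⟩ := h12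
  exact ⟨k, hy⟩

end perm


/-- Let B be a block of the finite group G relative to a maximal ideal M of the algebraic integers containing the prime p, p^a the p-part of the order of G and p^d the order of a defect group D of B. If Σ_{χ ∈ B} χ(1)² = p^(2a−d) (the least possible value), then B is nilpotent. -/
theorem result {G : Type*} [Group G] [Finite G] (p : ℕ) [Fact p.Prime] (M : Ideal Cfsg.AlgInt) (hM : Cfsg.IsPModular p M) (B : Set (Cfsg.IrrCharacter G)) (hB : Cfsg.IsPBlock M B) (D : Subgroup G) (hD : Cfsg.IsDefectGroup p M B D) (a d : ℕ) (ha : (Nat.card G).factorization p = a) (hd : Nat.card D = p ^ d) (hmin : ∑ᶠ χ ∈ B, Cfsg.charDegree (χ : G → ℂ) ^ 2 = p ^ (2 * a - d)) : Cfsg.IsNilpotentBlock p M B := by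
  haveI : PMod p M := ⟨hM⟩
  have := Fintype.ofFinite G
  classical
  have hp : p.Prime := Fact.out
  obtain ⟨e, hm⟩ := exists_isMax hB hD
  obtain ⟨S, hS⟩ := hm.pair.1.exists_le_sylow
  have hH : IsPGroup p (S × S) := IsPGroup.of_card (n := 2 * a) (by
    rw [Nat.card_prod, S.card_eq_multiplicity, ha, two_mul, pow_add])
  letI : MulAction (S × S) G :=
    { smul h x := h.1 * x * (h.2 : G)⁻¹
      one_smul x := show ((1 : S) : G) * x * ((1 : S) : G)⁻¹ = x by simp
      mul_smul a b x := show ((a.1 * b.1 : S) : G) * x * ((a.2 * b.2 : S) : G)⁻¹ =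
        a.1 * (b.1 * x * (b.2 : G)⁻¹) * (a.2 : G)⁻¹ by simp [mul_assoc] }
  have hs : ∀ (h : S × S) (x : G), h • x = h.1 * x * (h.2 : G)⁻¹ := fun _ _ => rfl
  let L := LinearMap.toMatrixAlgEquiv (MonoidAlgebra.basis G (F M)) (Algebra.lmul _ _ (eB M B))
  have hL : ∀ x y, L x y = (eB M B).coeff (x * y⁻¹) := fun x y => by
    simp [L, LinearMap.toMatrixAlgEquiv_apply, MonoidAlgebra.basis, coeff_mul_single_apply]
  let b : E (F M) (S × S) G := ⟨L, fun h x y => by
    rw [hL, hL, hs, hs, ← mem_center_iff_coeff.1 (eB_mem_center B) h.1 (x * y⁻¹)]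
    congr 1; group⟩
  have hb : IsIdempotentElem b := Subtype.ext ((hm.prim.idem.map _).map _)
  have hcard : ∀ x : G, Nz (MulAction.stabilizer (S × S) x) b →
      Nat.card (MulAction.stabilizer (S × S) x) ≤ Nat.card D := by
    rintro x ⟨y, z, hy, hz, h⟩
    let φ : S × S →* G := (S : Subgroup G).subtype.comp (MonoidHom.fst _ _)
    refine le_trans (Nat.card_le_card_of_injective (φ.subgroupMap _)
      ((injective_iff_map_eq_one _).2 fun k hk => ?_)) (hm.isDef.card_le le_top
      ((hH.to_subgroup _).map φ) (br_ne_zero_iff.2 ⟨y * z⁻¹, ?_, hL y z ▸ h⟩))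
    · have h1 : (k.1.1 : G) = 1 := congrArg Subtype.val hk
      have h2 : k.1 • x = x := k.2
      rw [hs, h1] at h2
      exact Subtype.ext (Prod.ext (Subtype.ext h1) (Subtype.ext (by simpa using h2)))
    · rintro _ ⟨k, hk, rfl⟩
      have h1 := hy k hk
      have h2 := hz k hk
      rw [hs] at h1 h2
      change k.1 * (y * z⁻¹) = y * z⁻¹ * k.1
      conv_rhs => rw [← h1, ← h2]
      group
  have hrank : L.rank = p ^ (2 * a - d) := by
    rw [Matrix.rank_eq_finrank_range_toLin L (MonoidAlgebra.basis G (F M))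
      (MonoidAlgebra.basis G (F M)), show Matrix.toLin _ _ L = Algebra.lmul _ _ (eB M B) from
      Matrix.toLin_toMatrix _ _ _, ← hmin]
    have hU := IsPBlock.isBlockUnion hB
    have hi : IsIdempotentElem (LinearMap.mulLeftRight ℂ (idem B, (1 : ℂ[G]))) :=
      LinearMap.ext fun x => by simp [← mul_assoc, idem_mul_self B]
    rw [finrank_range_eq hi fun x hx => ⟨by simpa using mul_mem (idem_mem_OG hU) hx, by
      simpa [eB] using redA_mul (idem_mem_OG hU) hx⟩, ← Nat.cast_inj (R := ℂ),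
      ← LinearMap.IsProj.trace (LinearMap.IsIdempotentElem.isProj_range _ hi), trace_mulLeftRight,
      finsum_mem_eq_filter, Finset.sum_filter, Nat.cast_sum]
    refine Finset.sum_congr rfl fun χ _ => ?_
    rw [← mul_one (idem B)]
    split_ifs with h
    · rw [ev_idem_mul_of_mem h]; simp [deg_cast_irr, sq]
    · rw [ev_idem_mul_of_notMem h]; simp
  let R : G → Subgroup G → Subgroup (S × S) := fun g Q =>
    { carrier := {h | (h.2 : G) ∈ Q ∧ (h.1 : G) = g * h.2 * g⁻¹}
      mul_mem' := fun ha hb => ⟨mul_mem ha.1 hb.1, by simp [ha.2, hb.2]⟩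
      one_mem' := ⟨one_mem _, by simp⟩
      inv_mem' := fun ha => ⟨inv_mem ha.1, by simp [ha.2, mul_assoc]⟩ }
  have hR : ∀ g (Q : Subgroup G), g ∈ Subgroup.normalizer (Q : Set G) → br Q (eB M B) ≠ 0 → Nz (R g Q) b := by
    intro g Q hg h
    obtain ⟨c, hc, h⟩ := br_ne_zero_iff.1 h
    refine ⟨c * g, g, fun k hk => ?_, fun k hk => by rw [hs, hk.2]; group, by simpa [b, hL] using h⟩
    rw [hs, ← mul_assoc, hc _ (hk.2 ▸ (Subgroup.mem_normalizer_iff.1 hg _).1 hk.1), hk.2]
    group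
  have hD0 : br D (eB M B) ≠ 0 := fun h => hm.pair.2.ne_zero (by rw [← hm.mul_br, h, mul_zero])
  have h1 := hR 1 D (one_mem _) hD0
  obtain ⟨x, hx, hx'⟩ := exists_orbit hH hb (by
    rintro h; obtain ⟨_, _, -, -, h2⟩ := h1; exact h2 (by rw [h]; rfl)) fun x hx => by
      have h2 := hcard x hx
      have h3 := MulAction.card_orbit_mul_card_stabilizer_eq_card_group (S × S) x
      simp only [← Nat.card_eq_fintype_card, Nat.card_prod] at h3
      rw [S.card_eq_multiplicity, ha, ← pow_add, ← two_mul] at h3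
      refine hrank.trans_le (Nat.le_of_mul_le_mul_right (c := p ^ d) ?_ (pow_pos hp.pos _))
      rw [← pow_add, Nat.sub_add_cancel (by
        have := Subgroup.card_dvd_of_le hS
        rw [hd, S.card_eq_multiplicity, Nat.pow_dvd_pow_iff_le_right hp.one_lt] at this
        omega), ← h3, ← hd]
      gcongr
  obtain ⟨k, hk⟩ := hx' _ h1
  have h2 : R 1 D = MulAction.stabilizer (S × S) (k • x) := by
    refine Subgroup.eq_of_le_of_card_ge hk ?_
    rw [MulAction.stabilizer_smul_eq_stabilizer_map_conj, Subgroup.card_map_of_injective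
      (MulAut.conj k).injective]
    exact (hcard x hx).trans (Nat.card_le_card_of_injective (fun u : D =>
      (⟨(⟨u, hS u.2⟩, ⟨u, hS u.2⟩), u.2, by simp⟩ : R 1 D)) fun u v h =>
        Subtype.ext (congrArg (fun k : R 1 D => (k.1.1 : G)) h))
  refine isNilpotentBlock_iff.2 ⟨hB, hm.nil_of_ple fun Q f hf g hg hg' => ?_⟩
  obtain ⟨l, hl⟩ := hx' _ (hR g Q hg.1 fun h => (hf.left hm.pair).2.ne_zero (by
    rw [← hm.mul_br_of_ple hf, h, mul_zero]))
  let m := l * k⁻¹
  refine mem_of_regular_of_inv_mul_mem (u := (m.1 * m.2⁻¹ : S)) (Subtype.property _) S.isPGroup'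
    (normalizer_le_normalizer_centralizer _ hg.1) (fun u hu => ?_) hg'
  let h : S × S := (⟨g * u * g⁻¹, hS (hf.le ((Subgroup.mem_normalizer_iff.1 hg.1 _).1 hu))⟩,
    ⟨u, hS (hf.le hu)⟩)
  have h3 : m⁻¹ * h * m ∈ R 1 D := by
    rw [h2, MulAction.mem_stabilizer_iff, mul_smul, mul_smul, inv_smul_eq_iff, smul_smul m,
      inv_mul_cancel_right]
    exact hl h ⟨hu, rfl⟩
  have h4 : (m.1 : G)⁻¹ * (g * u * g⁻¹) * m.1 = 1 * ((m.2 : G)⁻¹ * u * m.2) * 1⁻¹ := h3.2
  change u * (((m.1 : G) * (m.2 : G)⁻¹)⁻¹ * g) = ((m.1 : G) * (m.2 : G)⁻¹)⁻¹ * g * u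
  calc _ = m.2 * (1 * ((m.2 : G)⁻¹ * u * m.2) * 1⁻¹) * (m.1 : G)⁻¹ * g := by group
    _ = _ := by rw [← h4]; group


end Cfsg.Agent.S4647
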