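import Cfsg.Statements.S4648
import Cfsg.Agent.BMod.SymLoc
-- import your own Cfsg.Agent.* helpers here

set_option autoImplicit false
open Cfsg

namespace Cfsg.Agent.S4648

open Cfsg.Agent.BMod Cfsg.Agent.Block Cfsg.Agent.Transfer Cfsg.Agent.Char Cfsg.Agent.CharDeep

/-- Let B be a block of the finite group G relative to a maximal ideal M of the algebraic integers containing the prime p, with a nontrivial defect group D. If B has p-regular rank 1 and at most four irreducible characters, then B is nilpotent, D has exactly as many elements as B has irreducible characters, and p is 2 or 3. -/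
theorem result {G : Type*} [Group G] [Finite G] (p : ℕ) [Fact p.Prime] (M : Ideal Cfsg.AlgInt) (hM : Cfsg.IsPModular p M) (B : Set (Cfsg.IrrCharacter G)) (hB : Cfsg.IsPBlock M B) (D : Subgroup G) (hD : Cfsg.IsDefectGroup p M B D) (hD1 : D ≠ ⊥) (hl : Cfsg.blockRank p B = 1) (hk : Nat.card B ≤ 4) : Cfsg.IsNilpotentBlock p M B ∧ Nat.card D = Nat.card B ∧ (p = 2 ∨ p = 3) := by
  haveI : PMod p M := ⟨hM⟩
  have := Fintype.ofFinite G
  have hp : p.Prime := Fact.out
  have h1 := card_eq_of_le_four hB hl hk
  have h2 := IsDefectGroup.card_eq hB hD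
  have h3 : blockDefect p B ≠ 0 := fun h => hD1 (by simpa [h] using h2)
  have h4 : p ≤ 4 := (Nat.le_self_pow h3 p).trans (h1 ▸ hk)
  have h5 : blockDefect p B ≤ 2 := by
    by_contra h
    have := (Nat.pow_le_pow_left hp.two_le 3).trans (Nat.pow_le_pow_right hp.pos (not_le.1 h))
    omega
  have h6 : IsMulCommutative D := by
    interval_cases h : blockDefect p B
    · exact (h3 rfl).elim
    · exact (isCyclic_of_prime_card (by simpa using h2)).isMulCommutative
    · exact IsPGroup.isMulCommutative_of_card_eq_prime_sq h2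
  refine ⟨isNilpotentBlock_iff.2 ⟨hB, nil_of_card_eq hB hD (fun x hx y hy =>
    congrArg Subtype.val (h6.is_comm.comm ⟨y, hy⟩ ⟨x, hx⟩)) hl h1⟩, h2.trans h1.symm, ?_⟩
  have := hp.two_le
  interval_cases p <;> simp_all (config := {decide := true})

end Cfsg.Agent.S4648
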