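import Cfsg.Statements.S4649
import Cfsg.Agent.BMod.Shape
-- import your own Cfsg.Agent.* helpers here

set_option autoImplicit false
open Cfsg

namespace Cfsg.Agent.S4649

open Cfsg.Agent.BMod Cfsg.Agent.Block Cfsg.Agent.Transfer Cfsg.Agent.Char Cfsg.Agent.CharDeep

/-- A block with cyclic defect group, of a finite group relative to a maximal ideal M of the algebraic integers containing the prime p, is nilpotent if and only if its p-regular rank is 1 (it has a unique irreducible Brauer character). -/
theorem result {G : Type*} [Group G] [Finite G] (p : ℕ) [Fact p.Prime] (M : Ideal Cfsg.AlgInt) (hM : Cfsg.IsPModular p M) (B : Set (Cfsg.IrrCharacter G)) (hB : Cfsg.IsPBlock M B) (P : Subgroup G) (hPD : Cfsg.IsDefectGroup p M B P) (hcyc : IsCyclic P) : Cfsg.IsNilpotentBlock p M B ↔ Cfsg.blockRank p B = 1 := by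
  haveI : PMod p M := ⟨hM⟩
  have := Fintype.ofFinite G
  obtain ⟨e, hm⟩ := exists_isMax hB hPD
  rw [isNilpotentBlock_iff, rank_eq_of_cyclic hB hm hcyc, Subgroup.relIndex_eq_one,
    hm.nil_iff_of_comm (le_centralizer_of_cyclic hcyc), and_iff_right hB]

end Cfsg.Agent.S4649
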