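import Cfsg.Statements.S4650
import Cfsg.Agent.BMod.Dict3
import Cfsg.Agent.Block.PPart
-- import your own Cfsg.Agent.* helpers here

set_option autoImplicit false
open Cfsg

namespace Cfsg.Agent.S4650

open Cfsg.Agent.BMod Cfsg.Agent.Block Cfsg.Agent.Transfer

/-- Let B be a block of the finite group G relative to a maximal ideal M of the algebraic integers containing the prime p, with a nontrivial commutative defect group P; let c be a block of C_G(P) inducing B and T the stabilizer of c in N_G(P). Then T/C_G(P) acts freely on the non-identity elements of P (an element of T fixing a non-identity element of P under conjugation lies in C_G(P)) if and only if, for every nontrivial subgroup Q of P, the block of C_G(Q) induced by c inside C_G(Q) is a nilpotent block of C_G(Q). -/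
theorem result {G : Type*} [Group G] [Finite G] (p : ℕ) [Fact p.Prime] (M : Ideal Cfsg.AlgInt) (hM : Cfsg.IsPModular p M) (B : Set (Cfsg.IrrCharacter G)) (hB : Cfsg.IsPBlock M B) (P : Subgroup G) (hPD : Cfsg.IsDefectGroup p M B P) (hPab : ∀ x ∈ P, ∀ y ∈ P, x * y = y * x) (hP1 : P ≠ ⊥) (c : Set (Cfsg.IrrCharacter (Subgroup.centralizer (P : Set G)))) (hc : Cfsg.IsInducedBlock M (Subgroup.centralizer (P : Set G)) c B) (T : Subgroup G) (hT : ∀ g : G, g ∈ T ↔ (g ∈ Subgroup.normalizer (P : Set G) ∧ Cfsg.StabilizesBlock (Subgroup.centralizer (P : Set G)) c g)) : (∀ g ∈ T, ∀ x ∈ P, x ≠ 1 → g * x * g⁻¹ = x → g ∈ Subgroup.centralizer (P : Set G)) ↔ ∀ Q : Subgroup G, Q ≤ P → Q ≠ ⊥ → ∀ f : Set (Cfsg.IrrCharacter (Subgroup.centralizer (Q : Set G))), Cfsg.IsInducedBlockIn M (Subgroup.centralizer (Q : Set G)) (Subgroup.centralizer (P : Set G)) c f → Cfsg.IsNilpotentBlock p M f := by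
  haveI : PMod p M := ⟨hM⟩
  have hmax := isMax_of_induced hPD hc
  have hm := IsMaximalBrauerPair.isMax hmax
  obtain rfl := eq_NP hc.1 hT
  have hab : P ≤ Subgroup.centralizer (P : Set G) := fun x hx y hy => hPab y hy x hx
  constructor
  · intro h Q hQP hQ1 f hf
    have hPC := hab.trans (centralizer_anti hQP)
    have h1 := ((isInducedBlockIn_iff_ple hm.pair.1 hQP hPC).1 hf).2.2
    have hf' := h1.left hm.pair
    refine isNilpotentBlock_iff_eS.2 ⟨hf.2.1, hf'.nil_centralizer_iff.2 fun R g hR h2 x hx hxR _ => ?_⟩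
    have hQC := hQP.trans hPC
    obtain ⟨t, ht, h3⟩ := exists_ext hm.pair h1 hQC le_rfl hf'.centralizer_le_NP
      (by rw [inf_eq_left.2 hPC]; exact hm.isDef_of_le h1 le_rfl hf'.centralizer_le_NP hPC) h2
      (hR.trans (sup_le hQC le_rfl))
    have hx' : t * x * t⁻¹ ∈ NP (sc t R) (cj t g) := by rw [NP_sc]; exact conj_mem_sc.2 hxR
    obtain ⟨y, hy, h4⟩ := hm.exists_NP_of_comm hab h3 (k := t * x * t⁻¹)
      (by rwa [(mem_NP'.1 hx').1, hx'.2])
    have hQR : Q ≤ sc t R := by
      rw [← mem_normalizer_iff_sc.1 (centralizer_le_normalizer' Q ht)]; exact sc_mono t h2.le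
    have h5 : y ∈ Subgroup.centralizer (Q : Set G) := by
      simpa [mul_assoc] using Subgroup.mul_mem _ (Subgroup.mul_mem _ (Subgroup.mul_mem _ ht hx)
        (Subgroup.inv_mem _ ht)) (Subgroup.inv_mem _ (centralizer_anti hQR h4))
    obtain ⟨⟨q, hq⟩, hq1⟩ := Subgroup.ne_bot_iff_exists_ne_one.1 hQ1
    have h6 := h y hy q (hQP hq) (fun h => hq1 (Subtype.ext h))
      (by rw [← h5 q hq]; simp)
    have h7 : t * x * t⁻¹ ∈ Subgroup.centralizer (sc t R : Set G) := by
      simpa using Subgroup.mul_mem _ (centralizer_anti h3.le h6) h4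
    rwa [centralizer_sc, conj_mem_sc] at h7
  · intro h g hg x hx hx1 hgx
    have hQP : Subgroup.zpowers x ≤ P := Subgroup.zpowers_le.2 hx
    have hPC := hab.trans (centralizer_anti hQP)
    obtain ⟨f, h1⟩ := exists_ple hm.pair hQP
    have hf' := h1.left hm.pair
    obtain ⟨f, hf, rfl⟩ := IsPair.exists_eS hf'
    have h2 := (isNilpotentBlock_iff_eS.1 (h _ hQP (by simpa using hx1) f
      ((isInducedBlockIn_iff_ple hm.pair.1 hQP hPC).2 ⟨hc.1, hf.2, h1⟩))).2
    have hgC : g ∈ Subgroup.centralizer (Subgroup.zpowers x : Set G) := by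
      rw [← le_centralizer_singleton_iff, Subgroup.zpowers_le,
        Subgroup.mem_centralizer_singleton_iff]
      conv_lhs => rw [← hgx]
      simp
    obtain ⟨u, hu⟩ := exists_isPPart p g
    have hu1 := IsPPart.mem hu hg
    have hu2 := IsPPart.mem hu hgC
    have h3 := hf'.nil_centralizer_iff.1 h2 P _ (hPC.trans le_sup_right) h1 (u⁻¹ * g)
      (Subgroup.mul_mem _ (Subgroup.inv_mem _ hu2) hgC)
      (Subgroup.mul_mem _ (Subgroup.inv_mem _ hu1) hg) (IsPPart.not_dvd hu)
    have h4 := le_of_normal_of_not_dvd (sup_le hm.pair.le_NP hm.pair.centralizer_le_NP)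
      (by rw [sup_eq_right.2 hab]; exact NP_le_normalizer_centralizer) hm.not_dvd_inertial
      (isPGroup_zpowers_of_orderOf (IsPPart.orderOf_eq hu)) (Subgroup.zpowers_le.2 hu1)
    rw [sup_eq_right.2 hab] at h4
    simpa using Subgroup.mul_mem _ (h4 (Subgroup.mem_zpowers u)) h3

end Cfsg.Agent.S4650
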