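import Cfsg.Statements.S4651
import Cfsg.Agent.KR.B

set_option autoImplicit false
open Cfsg

namespace Cfsg.Agent.S4651

open Cfsg.Agent.KR Cfsg.Agent.BMod Cfsg.Agent.Block

/-- An alternating-sum identity over chains of p-subgroups (the character-count form behind the chain reformulation of Alperin's weight conjecture, which holds unconditionally for the difference k − l). Let b be a block of the finite group G relative to a maximal ideal M of the algebraic integers containing the prime p. Consider the nonempty chains s = {Q_0 < Q_1 < ⋯ < Q_m} of nontrivial p-subgroups of G in which every member is normal in the largest member; let N_G(s) be the intersection of the normalizers of the members (the stabilizer of the chain), and let b_s be the set of irreducible characters of N_G(s) lying in blocks of N_G(s) that induce b. Then #G · (k(b) − l(b)) equals the sum over all such chains s of (−1)^m · #N_G(s) · (k(b_s) − l(b_s)), where k counts irreducible characters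 and l is the p-regular rank; equivalently, k(b) − l(b) is the alternating sum of k(b_s) − l(b_s) over representatives of the conjugacy classes of such chains. -/
theorem result {G : Type*} [Group G] [Finite G] (p : ℕ) [Fact p.Prime] (M : Ideal Cfsg.AlgInt) (hM : Cfsg.IsPModular p M) (b : Set (Cfsg.IrrCharacter G)) (hb : Cfsg.IsPBlock M b) : (Nat.card G : ℤ) * ((Nat.card b : ℤ) - (Cfsg.blockRank p b : ℤ)) = ∑ᶠ s ∈ {s : Finset (Subgroup G) | s.Nonempty ∧ (∀ Q ∈ s, ∀ R ∈ s, Q ≤ R ∨ R ≤ Q) ∧ (∀ Q ∈ s, Q ≠ ⊥ ∧ IsPGroup p Q) ∧ ∃ T ∈ s, ∀ Q ∈ s, Q ≤ T ∧ T ≤ Subgroup.normalizer ((Q : Subgroup G) : Set G)}, (-1 : ℤ) ^ (s.card - 1) * (Nat.card (((⨅ Q ∈ s, Subgroup.normalizer ((Q : Subgroup G) : Set G) : Subgroup G))) : ℤ) * ((Nat.card {ψ : Cfsg.IrrCharacter (((⨅ Q ∈ s, Subgroup.normalizer ((Q : Subgroup G) : Set G) : Subgroup G))) | ∃ β : Set (Cfsg.IrrCharacter (((⨅ Q ∈ s, Subgroup.normalizer ((Q : Subgroup G) : Set G) : Subgroup G)))), ψ ∈ β ∧ Cfsg.IsInducedBlock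 M (((⨅ Q ∈ s, Subgroup.normalizer ((Q : Subgroup G) : Set G) : Subgroup G))) β b} : ℤ) - (Cfsg.blockRank p {ψ : Cfsg.IrrCharacter (((⨅ Q ∈ s, Subgroup.normalizer ((Q : Subgroup G) : Set G) : Subgroup G))) | ∃ β : Set (Cfsg.IrrCharacter (((⨅ Q ∈ s, Subgroup.normalizer ((Q : Subgroup G) : Set G) : Subgroup G)))), ψ ∈ β ∧ Cfsg.IsInducedBlock M (((⨅ Q ∈ s, Subgroup.normalizer ((Q : Subgroup G) : Set G) : Subgroup G))) β b} : ℤ)) := by
  classical
  haveI : PMod p M := ⟨hM⟩
  haveI := Fintype.ofFinite G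
  haveI := Fintype.ofFinite (Finset (Subgroup G))
  have hset : {s : Finset (Subgroup G) | s.Nonempty ∧ (∀ Q ∈ s, ∀ R ∈ s, Q ≤ R ∨ R ≤ Q) ∧
      (∀ Q ∈ s, Q ≠ ⊥ ∧ IsPGroup p Q) ∧ ∃ T ∈ s, ∀ Q ∈ s, Q ≤ T ∧
      T ≤ Subgroup.normalizer ((Q : Subgroup G) : Set G)} =
      ↑((Finset.univ.filter (Ch p)).erase (∅ : Finset (Subgroup G))) := by
    ext s
    rw [Finset.mem_coe, Finset.mem_erase, Finset.mem_filter]
    refine ⟨fun ⟨h0, h1, h2, T, _, h3⟩ => ⟨h0.ne_empty, Finset.mem_univ _, h1, h2,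
      fun Q hQ R hR => (h3 R hR).1.trans (h3 Q hQ).2⟩, fun ⟨h0, _, h⟩ => ?_⟩
    have h1 := Finset.nonempty_iff_ne_empty.2 h0
    obtain ⟨T, hT, h2⟩ := exists_top h.1 h1
    exact ⟨h1, h.1, h.2.1, T, hT, fun Q hQ => ⟨h2 Q hQ, h.2.2 Q hQ T hT⟩⟩
  rw [hset, finsum_mem_coe_finset]
  refine Int.cast_injective (α := ℂ) ?_
  push_cast
  rw [count (IsPBlock.isBlockUnion hb), Finset.sum_congr rfl (g := fun s => ∑ x : G,
    if p ∣ orderOf x then -((-1) ^ s.card * Th M b x (NS s)) else 0) fun s hs => ?_,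
    Finset.sum_comm]
  · refine Finset.sum_congr rfl fun x _ => ?_
    split_ifs with h
    swap
    · simp
    obtain ⟨u, hu⟩ := exists_isPPart (p := p) x
    obtain ⟨k, hk⟩ := IsPPart.orderOf_eq hu
    have h1 := alt_sum (IsPGroup.of_card ((Nat.card_zpowers u).trans hk))
      (fun e => isPPart_one_iff.1 (e ▸ hu) h) (Finset.univ.filter (Ch p)) (by simp)
      (Subgroup.mem_centralizer_singleton_iff.2 (IsPPart.commute hu).eq.symm)
      (fun _ => IsPPart.mem hu) (Th M b x) (fun N hN => dif_neg hN) (Th_loc b hu)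
    rw [← Finset.add_sum_erase (a := ∅) _ _ (by simp [Ch]), show NS (∅ : Finset (Subgroup G)) = ⊤ by
      simp [NS], Th_top (IsPBlock.isBlockUnion hb) hu] at h1
    rw [Finset.sum_neg_distrib, eq_neg_iff_add_eq_zero]
    simpa using h1
  · simp only [Finset.mem_erase, Finset.mem_filter, Finset.mem_univ, true_and] at hs
    obtain ⟨T, hT, h2⟩ := exists_top hs.2.1 (Finset.nonempty_iff_ne_empty.2 hs.1)
    obtain ⟨n, hn⟩ := Nat.exists_eq_succ_of_ne_zero (Finset.card_ne_zero.2
      (Finset.nonempty_iff_ne_empty.2 hs.1))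
    rw [ind_eq_corr (p := p) hb fun β => inducedBlockDefined_of_le (hs.2.2.1 T hT).2
      (fun g hg => mem_NS.2 fun Q hQ => hs.2.2.2 Q hQ T hT hg)
      (fun g hg => mem_NS.2 fun Q hQ => Subgroup.centralizer_le_normalizer _
        (Subgroup.centralizer_le (h2 Q hQ) hg))
      fun g hg => mem_NS.1 hg T hT, mul_assoc, count_sub, Finset.mul_sum, hn]
    refine Finset.sum_congr rfl fun x _ => ?_
    split_ifs
    · rw [Nat.succ_sub_one, pow_succ]
      ring
    · simp

end Cfsg.Agent.S4651
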