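import Cfsg.Statements.S4654
import Cfsg.Agent.BMod.Dict3
-- import your own Cfsg.Agent.* helpers here

set_option autoImplicit false
open Cfsg

namespace Cfsg.Agent.S4654

open Cfsg.Agent.BMod Cfsg.Agent.Block Cfsg.Agent.Transfer

/-- Fix a prime p and a maximal ideal M of the algebraic integers containing p. Let P be a normal p-subgroup of the finite group G, B a p-block of G and e a p-block of C_G(P) such that (P, e) is a Brauer pair of B (as P is normal, this says that e occurs in the idempotent of B, which is supported on C_G(P)). Let T be the stabilizer of e in G under conjugation. Then the idempotent of e is a block idempotent of T: some block E of T has, at every element of T, the same idempotent coefficient as e (zero off C_G(P)); and the idempotent of B is the sum of the distinct G-conjugates of the idempotent of e: its coefficient at g is the sum over all x in G of the coefficient of e at x⁻¹ g x, divided by the order of T. -/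
theorem result {G : Type*} [Group G] [Fintype G] (p : ℕ) [Fact p.Prime] (M : Ideal Cfsg.AlgInt) (hM : Cfsg.IsPModular p M) (P : Subgroup G) [P.Normal] (hP : IsPGroup p P) (B : Set (Cfsg.IrrCharacter G)) (e : Set (Cfsg.IrrCharacter (Subgroup.centralizer (P : Set G)))) (hBe : Cfsg.IsBrauerPairOf p M B P e) (T : Subgroup G) (hT : ∀ x : G, x ∈ T ↔ Cfsg.StabilizesBlock (Subgroup.centralizer (P : Set G)) e x) : (∃ E : Set (Cfsg.IrrCharacter T), Cfsg.IsPBlock M E ∧ ∀ t : T, Cfsg.blockCoeff E t = Cfsg.subgroupBlockCoeff (Subgroup.centralizer (P : Set G)) e (t : G)) ∧ ∀ g : G, Cfsg.blockCoeff B g = (Nat.card T : ℂ)⁻¹ * ∑ x : G, Cfsg.subgroupBlockCoeff (Subgroup.centralizer (P : Set G)) e (x⁻¹ * g * x) := by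
  haveI : PMod p M := ⟨hM⟩
  have hN : (⊤ : Subgroup G) ≤ Subgroup.normalizer (P : Set G) := (Subgroup.normalizer_eq_top P).ge
  have hNC := hN.trans (normalizer_le_normalizer_centralizer P)
  have he := IsBrauerPairOf.isPair hBe
  have hT' : T = NP P (eS M _ e) := eq_NP hBe.1.2 fun y => by
    rw [hT]; exact ⟨fun h => ⟨hN trivial, h⟩, fun h => h.2⟩
  constructor
  · obtain ⟨E, hE, -, h⟩ := exists_block_of_stab (K := T) hBe.1 (hT' ▸ he.le_NP)
      (hT' ▸ he.centralizer_le_NP) hT'.le
    exact ⟨E, hE, h⟩
  · intro g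
    have h1 := (isPrim_Zc_iff_centralizer hP le_top hN le_rfl).1 (isPrim_eB hBe.2.1)
    rw [top_inf_eq] at h1
    have h2 : eB M B = orb ⊤ (eS M _ e) := by
      refine eq_orb_of_mul_ne_zero (isComm_Zc le_rfl) le_top hNC hNC he.2 h1 ?_
      have := IsBrauerPairOf.mul_br hBe
      rw [br_eq_self (mem_Zc.1 h1.mem).2] at this
      rw [this]; exact he.2.ne_zero
    obtain ⟨h3, -, h4, h5, h6⟩ := orb_lift (M := M) hNC hBe.1.2
    have h7 : idem B = orb ⊤ (idemS _ e) :=
      Zc_idem_eq_of_redA_eq (idem_mem_Zc B) (Zc_mono le_rfl le_top h3) (idem_mul_self B) h4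
        (IsPBlock.idem_mem_OG hBe.2.1) h5 (by rw [h6]; exact h2)
    have : Fintype (⊤ : Subgroup G) := Fintype.ofFinite _
    have h8 := card_smul_orb (⊤ : Subgroup G) (idemS _ e)
    rw [inf_stab_idemS hNC hBe.1.2, ← h7] at h8
    have h9 : (⊤ : Subgroup G) ⊓ stab (eS M _ e) = T := by
      rw [hT', NP, Subgroup.normalizer_eq_top]
    rw [h9] at h8
    have h10 := congrArg (fun z => z.coeff g) h8
    simp only [MonoidAlgebra.coeff_smul_apply, MonoidAlgebra.coeff_sum, Finsupp.finsetSum_apply,
      coeff_cj, coeff_idemS, coeff_idem, smul_eq_mul] at h10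
    rw [eq_inv_mul_iff_mul_eq₀ (Nat.cast_ne_zero.2 Nat.card_pos.ne'), h10]
    exact Fintype.sum_equiv Subgroup.topEquiv.toEquiv _ _ fun _ => rfl

end Cfsg.Agent.S4654
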