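import Cfsg.Statements.S4664
import Cfsg.Agent.Block.Count

set_option autoImplicit false
open Cfsg

namespace Cfsg.Agent.S4664

open Cfsg.Agent.Block Cfsg.Agent.BMod Cfsg.Agent.Char MonoidAlgebra


/-- Fix a prime p and a maximal ideal M of the algebraic integers containing p, and let B be a p-block of the finite group G. Let m be the p'-part of the order of G and η = exp(2πi/m). Then every coefficient of the idempotent of B lies in the cyclotomic field ℚ(η). -/
theorem result {G : Type*} [Group G] [Fintype G] (p : ℕ) [Fact p.Prime] (M : Ideal Cfsg.AlgInt) (hM : Cfsg.IsPModular p M) (B : Set (Cfsg.IrrCharacter G)) (hB : Cfsg.IsPBlock M B) (g : G) : Cfsg.blockCoeff B g ∈ IntermediateField.adjoin ℚ ({Complex.exp (2 * Real.pi * Complex.I / ((Nat.card G / p ^ (Nat.card G).factorization p : ℕ) : ℂ))} : Set ℂ) := by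
  classical
  have : PMod p M := ⟨hM⟩
  by_cases hg : p ∣ orderOf g
  · rw [blockCoeff_eq_zero_of_dvd hB.isBlockUnion hg]; exact zero_mem _
  set m := Nat.card G / p ^ (Nat.card G).factorization p
  have hm : 0 < m := Nat.ordCompl_pos p Nat.card_pos.ne'
  have hd : orderOf g ∣ m := by
    have := Nat.ordCompl_dvd_ordCompl_of_dvd (orderOf_dvd_natCard g) p
    rwa [Nat.factorization_eq_zero_of_not_dvd hg, pow_zero, Nat.div_one] at this
  have := NeZero.of_pos hm
  rw [blockCoeff_eq]
  refine mul_mem (inv_mem (natCast_mem _ _)) (sum_mem fun χ _ => ?_)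
  split_ifs
  swap
  · exact zero_mem _
  obtain ⟨n, ζ, h1, h2, h3⟩ := χ.2.isCharacter.exists_eigenvalues g
  rw [h1, ← zpow_neg_one, h3]
  refine mul_mem (natCast_mem _ _) (sum_mem fun i _ => zpow_mem ?_ _)
  obtain ⟨k, -, hk⟩ := (Complex.isPrimitiveRoot_exp m hm.ne').eq_pow_of_pow_eq_one
    (ξ := ζ i) (by obtain ⟨c, hc⟩ := hd; rw [hc, pow_mul, h2, one_pow])
  rw [← hk]
  exact pow_mem (IntermediateField.mem_adjoin_simple_self _ _) _

end Cfsg.Agent.S4664
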