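import Cfsg.Statements.S4666
import Cfsg.Agent.BMod.Rank2
-- import your own Cfsg.Agent.* helpers here

set_option autoImplicit false
open Cfsg

namespace Cfsg.Agent.S4666

open Cfsg.Agent.BMod Cfsg.Agent.Block Cfsg.Agent.Transfer Cfsg.Agent.Char Cfsg.Agent.CharDeep

/-- Fix a prime p and a maximal ideal M of the algebraic integers containing p, and a p-block B of the finite group G of defect d. For every integer combination χ of the irreducible characters in B, p^d times the function that agrees with χ on p-regular elements and vanishes elsewhere is again an integer combination of the irreducible characters in B. -/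
theorem result {G : Type*} [Group G] [Fintype G] (p : ℕ) [Fact p.Prime] (M : Ideal Cfsg.AlgInt) (hM : Cfsg.IsPModular p M) (B : Set (Cfsg.IrrCharacter G)) (hB : Cfsg.IsPBlock M B) (χ : G → ℂ) (hχ : (∃ n : Cfsg.IrrCharacter G → ℤ, ∀ g : G, χ g = ∑ᶠ ψ ∈ B, (n ψ : ℂ) * (ψ : G → ℂ) g)) : (∃ n : Cfsg.IrrCharacter G → ℤ, ∀ g : G, (p ^ Cfsg.blockDefect p B : ℂ) * Cfsg.pRegularPart p χ g = ∑ᶠ ψ ∈ B, (n ψ : ℂ) * (ψ : G → ℂ) g) := by
  classical
  haveI : PMod p M := ⟨hM⟩
  obtain ⟨h1, h2⟩ := int_span_iff.1 hχ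
  refine (int_span_iff (θ := (p ^ blockDefect p B : ℂ) • rho p χ)).2 ⟨?_, ?_⟩
  · refine IsClassFunction.isGeneralizedCharacter_of_forall_int (IsClassFunction.smul
      (isClassFunction_rho (IsGeneralizedCharacter.isClassFunction h1)) _) fun ψ hψ => ?_
    rw [classInner_smul_left, ← ctr]
    by_cases h : (⟨ψ, hψ⟩ : IrrCharacter G) ∈ B
    · obtain ⟨m, hm, -⟩ := exists_ctr_eq' (p := p) (M := M) h h1
      exact ⟨p ^ blockHeight p B ψ * m, by
        rw [ctr_comm h1 (IsIrrCharacter.isGeneralizedCharacter hψ), hm]; push_cast; rfl⟩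
    · exact ⟨0, by rw [ctr_eq_zero (IsPBlock.isBlockUnion hB) h2 h]; simp⟩
  · rw [blockPart_smul, blockPart_rho (IsPBlock.isBlockUnion hB), h2]

end Cfsg.Agent.S4666
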