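import Cfsg.Statements.S4668
import Cfsg.Agent.BMod.Dict3
import Cfsg.Agent.Block.Vanish
import Cfsg.Agent.Solv.CoprimeSylow
-- import your own Cfsg.Agent.* helpers here

set_option autoImplicit false
open Cfsg

namespace Cfsg.Agent.S4668

open Cfsg.Agent.BMod Cfsg.Agent.Block Cfsg.Agent.Transfer

/-- Fix a prime p and a maximal ideal M of the algebraic integers containing p. Let Q₀ < Q₁ < ⋯ < Q_m be a strictly increasing chain of p-subgroups of the finite group G and N the intersection of their normalizers. Then every block idempotent of N is supported on C_G(Q_m): for every p-block E of N, the idempotent coefficient of E vanishes at every element of N outside C_G(Q_m). -/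
theorem result {G : Type*} [Group G] [Fintype G] (p : ℕ) [Fact p.Prime] (M : Ideal Cfsg.AlgInt) (hM : Cfsg.IsPModular p M) (m : ℕ) (Q : Fin (m + 1) → Subgroup G) (hQ : StrictMono Q) (hQp : ∀ i, IsPGroup p (Q i)) (N : Subgroup G) (hN : ∀ g : G, g ∈ N ↔ ∀ i, g ∈ Subgroup.normalizer (Q i : Set G)) (E : Set (Cfsg.IrrCharacter N)) (hE : Cfsg.IsPBlock M E) (n : N) (hn : (n : G) ∉ Subgroup.centralizer (Q (Fin.last m) : Set G)) : Cfsg.blockCoeff E n = 0 := by
  haveI : PMod p M := ⟨hM⟩
  have hp : p.Prime := Fact.out
  by_contra h0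
  have hreg : ¬ p ∣ orderOf (n : G) := fun h => h0
    (blockCoeff_eq_zero_of_dvd (IsPBlock.isBlockUnion hE) (by rwa [Subgroup.orderOf_coe] at h))
  set R := Q (Fin.last m) ⊓ N with hR
  have hRN : N ≤ Subgroup.normalizer (R : Set G) := fun k hk => by
    rw [mem_normalizer_iff_sc, hR, sc_inf, mem_normalizer_iff_sc.1 ((hN k).1 hk _), sc_eq_of_mem hk]
  have h1 : (n : G) ∈ Subgroup.centralizer (R : Set G) := by
    by_contra h
    apply h0
    have := idem_mem_supp_centralizer ((hQp _).to_le inf_le_left) inf_le_right hRN
      (idemS_mem_Zc N E) (idemS_idem N E) (idemS_mem_OG hE) n fun h' => h h'.2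
    rwa [idemS, coeff_inc_coe, coeff_idem] at this
  have key : ∀ i : Fin (m + 1), (n : G) ∈ Subgroup.centralizer (Q i : Set G) := by
    intro i
    induction i using Fin.induction with
    | zero =>
      refine centralizer_anti (le_inf (hQ.monotone (Fin.le_last _)) fun x hx => (hN x).2 fun j => ?_) h1
      exact Subgroup.le_normalizer (hQ.monotone (Fin.zero_le j) hx)
    | succ i ih =>
      have hlt : Q i.castSucc ≤ Q i.succ := (hQ Fin.castSucc_lt_succ).le
      have := (hQp i.succ).isNilpotent
      have h2 := Solv.le_centralizer_of_selfCentralizing (A := Subgroup.zpowers (n : G))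
        (U := Q i.succ) (C := Q i.succ ⊓ Subgroup.centralizer (Subgroup.zpowers (n : G) : Set G))
        (Subgroup.zpowers_le.2 ((hN n).1 n.2 _)) (by
          obtain ⟨k, hk⟩ := IsPGroup.iff_card.1 (hQp i.succ)
          rw [hk, Nat.card_zpowers]
          exact ((hp.coprime_iff_not_dvd.2 hreg).pow_left k).symm) inf_le_left inf_le_right (by
          have h3 : Q i.castSucc ≤
              Q i.succ ⊓ Subgroup.centralizer (Subgroup.zpowers (n : G) : Set G) :=
            le_inf hlt (Subgroup.le_centralizer_iff.1 (Subgroup.zpowers_le.2 ih))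
          refine le_inf inf_le_left ((inf_le_inf_left _ (centralizer_anti h3)).trans ?_)
          refine le_trans ?_ (Subgroup.le_centralizer_iff.1 (Subgroup.zpowers_le.2 h1))
          refine le_inf (inf_le_left.trans (hQ.monotone (Fin.le_last _))) fun x hx => (hN x).2 fun j => ?_
          rcases le_or_gt j i.castSucc with hj | hj
          · exact centralizer_le_normalizer' _ (centralizer_anti (hQ.monotone hj) hx.2)
          · exact Subgroup.le_normalizer (hQ.monotone (Fin.castSucc_lt_iff_succ_le.1 hj) hx.1))
      exact h2 (Subgroup.mem_zpowers _)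
  exact hn (key _)

end Cfsg.Agent.S4668
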