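import Cfsg.Statements.S4670
import Cfsg.Agent.BMod.Dict3
-- import your own Cfsg.Agent.* helpers here

set_option autoImplicit false
open Cfsg

namespace Cfsg.Agent.S4670

open Cfsg.Agent.BMod Cfsg.Agent.Block Cfsg.Agent.Transfer

/-- Fix a prime p and a maximal ideal M of the algebraic integers containing p. Let P be a p-subgroup of the finite group G and H a subgroup containing N_G(P). For every p-block B of G with defect group P there is exactly one p-block c of H with defect group P whose idempotent agrees with that of B, modulo the local ideal at M, at every element of C_G(P) (their Brauer-map images at P coincide); and every p-block c of H with defect group P arises in this way from exactly one such B. This is the Brauer correspondence over H. -/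
theorem result {G : Type*} [Group G] [Fintype G] (p : ℕ) [Fact p.Prime] (M : Ideal Cfsg.AlgInt) (hM : Cfsg.IsPModular p M) (P H : Subgroup G) (hP : IsPGroup p P) (hH : Subgroup.normalizer (P : Set G) ≤ H) : (∀ B : Set (Cfsg.IrrCharacter G), Cfsg.IsPBlock M B → Cfsg.IsDefectGroup p M B P → ∃! c : Set (Cfsg.IrrCharacter H), Cfsg.IsPBlock M c ∧ Cfsg.IsDefectGroup p M c (P.subgroupOf H) ∧ ∀ x : G, x ∈ Subgroup.centralizer (P : Set G) → Cfsg.MemLocalIdeal M (Cfsg.blockCoeff B x - Cfsg.subgroupBlockCoeff H c x)) ∧ (∀ c : Set (Cfsg.IrrCharacter H), Cfsg.IsPBlock M c → Cfsg.IsDefectGroup p M c (P.subgroupOf H) → ∃! B : Set (Cfsg.IrrCharacter G), Cfsg.IsPBlock M B ∧ Cfsg.IsDefectGroup p M B P ∧ ∀ x : G, x ∈ Subgroup.centralizer (P : Set G) → Cfsg.MemLocalIdeal M (Cfsg.blockCoeff B x - Cfsg.subgroupBlockCoeff H c x)) := by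
  haveI : PMod p M := ⟨hM⟩
  have hPH : P ≤ H := Subgroup.le_normalizer.trans hH
  have hCH := (centralizer_le_normalizer' P).trans hH
  have key : ∀ (B : Set (IrrCharacter G)) (c : Set (IrrCharacter H)), IsPBlock M B → IsPBlock M c →
      ((∀ x : G, x ∈ Subgroup.centralizer (P : Set G) →
        MemLocalIdeal M (blockCoeff B x - subgroupBlockCoeff H c x)) ↔
        br P (eB M B) = br P (eS M H c)) := by
    intro B c hB hc
    rw [← sub_eq_zero, ← map_sub, br_eq_zero_iff]
    refine forall₂_congr fun x _ => ?_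
    rw [memLocalIdeal_sub_iff (IsPBlock.blockCoeff_mem_O hB x)
      (by rw [← coeff_idemS]; exact idemS_mem_OG hc x), MonoidAlgebra.coeff_sub, Finsupp.sub_apply,
      sub_eq_zero, coeff_eB, coeff_eS]
  constructor
  · intro B hB hD
    have hD' := (isDefectGroup_iff_isDef hB).1 hD
    have h1 := isPrim_br le_rfl top_le_normalizer_top (isPrim_eB hB) hD'
    have h2 := isDef_br hD'
    rw [top_inf_eq] at h1 h2
    rw [top_inf_eq] at h1
    obtain ⟨e, he, h3, h4⟩ := exists_prim_br_eq (K := H) (H := H) le_rfl Subgroup.le_normalizer hPH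
      (by rwa [inf_eq_right.2 hH, inf_eq_right.2 hCH]) (by rwa [inf_eq_right.2 hH])
    obtain ⟨c, hc, rfl⟩ := exists_eS_eq he
    refine ⟨c, ⟨hc, (isDefectGroup_subgroupOf_iff hc hPH).2 h3, (key B c hB hc).2 h4.symm⟩,
      fun c' hc' => eS_inj hc'.1 hc (eq_of_br_mul_ne_zero (isComm_Zc le_rfl) hP hPH
        (isPrim_eS hc'.1) he ?_)⟩
    rw [← (key B c' hB hc'.1).1 hc'.2.2, h4, h1.idem.eq]
    exact h1.ne_zero
  · intro c hc hD
    have hD' := (isDefectGroup_subgroupOf_iff hc hPH).1 hD
    have h1 := isPrim_br le_rfl Subgroup.le_normalizer (isPrim_eS hc) hD'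
    have h2 := isDef_br hD'
    rw [inf_eq_right.2 hH] at h1 h2
    rw [inf_eq_right.2 hCH] at h1
    obtain ⟨e, he, h3, h4⟩ := exists_prim_br_eq (K := ⊤) (H := ⊤) le_rfl top_le_normalizer_top
      le_top (by rwa [top_inf_eq, top_inf_eq]) (by rwa [top_inf_eq])
    obtain ⟨B, hB, rfl⟩ := exists_eB_eq he
    refine ⟨B, ⟨hB, (isDefectGroup_iff_isDef hB).2 h3, (key B c hB hc).2 h4⟩,
      fun B' hB' => eB_inj hB'.1 hB (eq_of_br_mul_ne_zero (isComm_Zc le_rfl) hP le_top
        (isPrim_eB hB'.1) he ?_)⟩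
    rw [(key B' c hB'.1 hc).1 hB'.2.2, h4, h1.idem.eq]
    exact h1.ne_zero

end Cfsg.Agent.S4670
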