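import Cfsg.Statements.S4672
import Cfsg.Agent.BMod.Cover2
-- import your own Cfsg.Agent.* helpers here

set_option autoImplicit false
open Cfsg

namespace Cfsg.Agent.S4672

open Cfsg.Agent.BMod Cfsg.Agent.Block Cfsg.Agent.Transfer Cfsg.Agent.Char Cfsg.Agent.CharDeep

/-- Fix a prime p and a maximal ideal M of the algebraic integers containing p. Let N be a normal subgroup of the finite group G of p-power index and c a p-block of N stable under conjugation by G. Then the idempotent of c is a block idempotent of G: there is a p-block B of G whose idempotent coefficients agree with those of c on N and vanish off N; and for every defect group P of such a block B, G = NP and P ∩ N is a defect group of c. -/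
theorem result {G : Type*} [Group G] [Fintype G] (p : ℕ) [Fact p.Prime] (M : Ideal Cfsg.AlgInt) (hM : Cfsg.IsPModular p M) (N : Subgroup G) [N.Normal] (hN : ∃ k : ℕ, N.index = p ^ k) (c : Set (Cfsg.IrrCharacter N)) (hc : Cfsg.IsPBlock M c) (hst : ∀ x : G, Cfsg.StabilizesBlock N c x) : (∃ B : Set (Cfsg.IrrCharacter G), Cfsg.IsPBlock M B ∧ ∀ g : G, Cfsg.blockCoeff B g = Cfsg.subgroupBlockCoeff N c g) ∧ ∀ B : Set (Cfsg.IrrCharacter G), Cfsg.IsPBlock M B → (∀ g : G, Cfsg.blockCoeff B g = Cfsg.subgroupBlockCoeff N c g) → ∀ P : Subgroup G, Cfsg.IsDefectGroup p M B P → N ⊔ P = ⊤ ∧ Cfsg.IsDefectGroup p M c ((P ⊓ N).subgroupOf N) := by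
  haveI : PMod p M := ⟨hM⟩
  have hKN := top_le_normalizer_of_normal N
  have hfix : eS M N c ∈ fix (F M) (⊤ : Subgroup G) :=
    mem_fix.2 fun k _ => ((stabilizesBlock_iff hc).1 (hst k)).2
  obtain ⟨k, hk⟩ := hN
  constructor
  · obtain ⟨B, hB, h⟩ := exists_covers (G := G) hc
    have h1 := (covers_iff_eS hB (IsPBlock.isBlockUnion hc)).1 h
    have h2 : eB M B ∈ supp (F M) N := eB_mem_supp_of_regular (p := p) (IsPBlock.isBlockUnion hB)
      fun g hg => mem_of_regular_of_index hk hg
    have h3 := isPrim_of_fix (T := ⊤) (isPrim_eS hc) le_top hfix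
    have h4 := (isPrim_eB hB).mono (Zc_mono le_rfl le_top) (mem_Zc.2 ⟨eB_mem_fix B ⊤, h2⟩)
    exact ⟨B, hB, forall_blockCoeff_eq_iff'.2 (idem_eq_of_eB_eq hB hc
      (h4.eq_of_mul_ne_zero (isComm_Zc le_top) h3 h1))⟩
  · intro B hB h P hP
    have h1 : eB M B = eS M N c := by
      rw [← redA_idemS, ← forall_blockCoeff_eq_iff'.1 h, eB]
    have hP' := (isDefectGroup_iff_isDef hB).1 hP
    rw [h1] at hP'
    refine ⟨?_, (isDefectGroup_subgroupOf_iff hc inf_le_right).2
      (hP'.inf_of_stable le_top hKN (isPrim_eS hc) hfix)⟩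
    rw [sup_comm]
    exact hP'.sup_eq_of_pgroup le_top hKN (isPrim_eS hc) hfix ⟨k, by simpa using hk⟩

end Cfsg.Agent.S4672
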