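import Cfsg.Statements.S4673
import Cfsg.Agent.BMod.Cover2
-- import your own Cfsg.Agent.* helpers here

set_option autoImplicit false
open Cfsg

namespace Cfsg.Agent.S4673

open Cfsg.Agent.BMod Cfsg.Agent.Block Cfsg.Agent.Transfer Cfsg.Agent.Char Cfsg.Agent.CharDeep

/-- Fix a prime p and a maximal ideal M of the algebraic integers containing p. Let N ≤ L be normal subgroups of the finite group G with L/N a p-group, let B be a p-block of G covering the p-block c of N (some member of B has a constituent in c on restriction to N), and suppose that N contains a defect group of B. Then the stabilizer T of c in G satisfies T ∩ L = N. -/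
theorem result {G : Type*} [Group G] [Fintype G] (p : ℕ) [Fact p.Prime] (M : Ideal Cfsg.AlgInt) (hM : Cfsg.IsPModular p M) (N L : Subgroup G) [N.Normal] [L.Normal] [Fintype N] (hNL : N ≤ L) (hLN : ∃ k : ℕ, (N.subgroupOf L).index = p ^ k) (B : Set (Cfsg.IrrCharacter G)) (hB : Cfsg.IsPBlock M B) (c : Set (Cfsg.IrrCharacter N)) (hc : Cfsg.IsPBlock M c) (hcov : (∃ χ ∈ B, ∃ θ ∈ c, Cfsg.classInner (fun n : N => (χ : G → ℂ) n) (θ : N → ℂ) ≠ 0)) (hD : ∃ D : Subgroup G, Cfsg.IsDefectGroup p M B D ∧ D ≤ N) (T : Subgroup G) (hT : ∀ x : G, x ∈ T ↔ Cfsg.StabilizesBlock N c x) : T ⊓ L = N := by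
  haveI : PMod p M := ⟨hM⟩
  have hT' := eq_stab_eS' hc hT
  have hF : FR ⊤ T (eS M N c) := hT' ▸ fr_eS hc
  have hNT : N ≤ T := hT' ▸ le_stab_eS c
  have hKN := top_le_normalizer_of_normal N
  obtain ⟨D, hD, hDN⟩ := hD
  obtain ⟨k, hk⟩ := hLN
  obtain ⟨h1, h2⟩ := hF.exists_eq_orb (isPrim_eB hB) ((covers_iff_eS' hB hc).1 hcov)
  obtain ⟨D', hD'⟩ := exists_isDef (p := p) (isComm_Zc le_rfl) h1
  have h3 : eB M B * eS M N c * eS M N c = eB M B * eS M N c := by rw [mul_assoc, hF.idem.eq]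
  have h4 := hF.isDef_orb (mem_Zc.1 h1.mem).1 h3 hD'
  rw [← h2] at h4
  obtain ⟨g, -, rfl⟩ := ((isDefectGroup_iff_isDef hB).1 hD).exists_sc_eq h4
  have hreg : ∀ g ∈ T ⊓ L, ¬ p ∣ orderOf g → g ∈ N := fun g hg =>
    mem_of_regular_of_relIndex (le_top.trans hKN) hNL hk g hg.2
  have hfix : eS M N c ∈ fix (F M) (T ⊓ L) := fix_anti inf_le_left (mem_Zc.1 hF.mem).1
  have h5 := isPrim_of_regular (le_inf hNT hNL) (isPrim_eS hc) hfix hreg
  obtain ⟨P, hP⟩ := exists_isDef (p := p) (isComm_Zc le_rfl) h5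
  have h6 := br_ne_zero_of_cover (K := T) (N := T ⊓ L) (fun t ht => normalizer_inf_le
    (Subgroup.le_normalizer ht) (top_le_normalizer_of_normal L trivial)) inf_le_left h1 h5
    (by rw [h3]; exact h1.ne_zero) hP.pgroup hP.le hP.br_ne
  obtain ⟨t, -, h7⟩ := hD'.inI P (hP.le.trans inf_le_left) hP.pgroup (right_ne_zero_of_mul h6)
  have h8 : P ≤ N := by
    rw [← sc_le_sc_iff t, sc_eq_of_normal t N, ← sc_eq_of_normal g N]
    exact h7.trans (sc_mono g hDN)
  refine le_antisymm (fun x hx => ?_) (le_inf hNT hNL)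
  obtain ⟨d, hd, n, hn, rfl⟩ := hP.exists_mul_of_regular (le_inf hNT hNL) (le_top.trans hKN)
    (isPrim_eS hc) hfix hreg hx
  exact N.mul_mem (h8 hd) hn

end Cfsg.Agent.S4673
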