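import Cfsg.Statements.S4674
import Cfsg.Agent.BMod.Cover2
-- import your own Cfsg.Agent.* helpers here

set_option autoImplicit false
open Cfsg

namespace Cfsg.Agent.S4674

open Cfsg.Agent.BMod Cfsg.Agent.Block Cfsg.Agent.Transfer Cfsg.Agent.Char Cfsg.Agent.CharDeep

/-- Fix a prime p and a maximal ideal M of the algebraic integers containing p. Let N be a normal subgroup of the finite group G, Q a p-subgroup of N, H = N_G(Q) and L = H ∩ N = N_N(Q). Let d be a p-block of N with defect group Q and e the p-block of L with defect group Q that induces d inside N (its Brauer correspondent). Then block induction from H to G is a bijection from the p-blocks of H covering e onto the p-blocks of G covering d: every block of H covering e induces exactly one block of G, and that block covers d; and every block of G covering d is induced by exactly one block of H covering e. -/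
theorem result {G : Type*} [Group G] [Fintype G] (p : ℕ) [Fact p.Prime] (M : Ideal Cfsg.AlgInt) (hM : Cfsg.IsPModular p M) (N : Subgroup G) [N.Normal] [Fintype N] (Q : Subgroup G) (hQ : IsPGroup p Q) (hQN : Q ≤ N) [Fintype ↥(Subgroup.normalizer (Q : Set G) ⊓ N)] (d : Set (Cfsg.IrrCharacter N)) (hd : Cfsg.IsPBlock M d) (hdQ : Cfsg.IsDefectGroup p M d (Q.subgroupOf N)) (e : Set (Cfsg.IrrCharacter ↥(Subgroup.normalizer (Q : Set G) ⊓ N))) (he : Cfsg.IsPBlock M e) (heQ : Cfsg.IsDefectGroup p M e (Q.subgroupOf (Subgroup.normalizer (Q : Set G) ⊓ N))) (hed : Cfsg.IsInducedBlockIn M N (Subgroup.normalizer (Q : Set G) ⊓ N) e d) : (∀ c : Set (Cfsg.IrrCharacter ↥(Subgroup.normalizer (Q : Set G))), Cfsg.IsPBlock M c → (∃ ψ ∈ c, ∃ ξ ∈ e, Cfsg.classInner (fun l : ↥(Subgroup.normalizer (Q : Set G) ⊓ N) => (ψ : ↥(Subgroup.normalizer (Q : Set G)) → ℂ) (Subgroup.inclusion inf_le_left l)) (ξ : ↥(Subgroup.normalizer (Q : Set G) ⊓ N) → ℂ) ≠ 0) → ∃!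 B : Set (Cfsg.IrrCharacter G), Cfsg.IsInducedBlock M (Subgroup.normalizer (Q : Set G)) c B ∧ (∃ χ ∈ B, ∃ θ ∈ d, Cfsg.classInner (fun n : N => (χ : G → ℂ) n) (θ : N → ℂ) ≠ 0)) ∧ (∀ B : Set (Cfsg.IrrCharacter G), Cfsg.IsPBlock M B → (∃ χ ∈ B, ∃ θ ∈ d, Cfsg.classInner (fun n : N => (χ : G → ℂ) n) (θ : N → ℂ) ≠ 0) → ∃! c : Set (Cfsg.IrrCharacter ↥(Subgroup.normalizer (Q : Set G))), (Cfsg.IsPBlock M c ∧ ∃ ψ ∈ c, ∃ ξ ∈ e, Cfsg.classInner (fun l : ↥(Subgroup.normalizer (Q : Set G) ⊓ N) => (ψ : ↥(Subgroup.normalizer (Q : Set G)) → ℂ) (Subgroup.inclusion inf_le_left l)) (ξ : ↥(Subgroup.normalizer (Q : Set G) ⊓ N) → ℂ) ≠ 0) ∧ Cfsg.IsInducedBlock M (Subgroup.normalizer (Q : Set G)) c B) := by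
  haveI : PMod p M := ⟨hM⟩
  have hKN := top_le_normalizer_of_normal N
  have hdQ' := (isDefectGroup_subgroupOf_iff hd hQN).1 hdQ
  have hQL : Q ≤ Subgroup.normalizer (Q : Set G) ⊓ N := le_inf Subgroup.le_normalizer hQN
  have h1 := ((isInducedBlockIn_iff_br hQ hQL inf_le_right (le_inf
    (inf_le_right.trans (centralizer_le_normalizer' Q)) inf_le_left) inf_le_left).1 hed).2.2
  have h2 := isPrim_br_normalizer (isPrim_eS hd) hdQ'
  rw [inf_comm] at h2
  have h3 := (isPrim_eS he).eq_of_mul_eq (isComm_Zc le_rfl) h2 h1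
  have hcov : ∀ c : Set (IrrCharacter (Subgroup.normalizer (Q : Set G))), IsPBlock M c →
      ((∃ ψ ∈ c, ∃ ξ ∈ e, classInner (fun l : ↥(Subgroup.normalizer (Q : Set G) ⊓ N) =>
        (ψ : ↥(Subgroup.normalizer (Q : Set G)) → ℂ) (Subgroup.inclusion inf_le_left l))
        (ξ : ↥(Subgroup.normalizer (Q : Set G) ⊓ N) → ℂ) ≠ 0) ↔
        eS M _ c * br Q (eS M N d) ≠ 0) := fun c hc => by
    rw [← h3]
    exact coversIn_iff inf_le_left
      (fun k hk => normalizer_inf_le (Subgroup.le_normalizer hk) (hKN trivial)) hc he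
  have hind : ∀ (c : Set (IrrCharacter (Subgroup.normalizer (Q : Set G)))) (B : Set (IrrCharacter G)),
      IsInducedBlock M _ c B ↔ IsPBlock M c ∧ IsPBlock M B ∧ eS M _ c * br Q (eB M B) = eS M _ c :=
    fun c B => isInducedBlock_iff_br hQ Subgroup.le_normalizer (centralizer_le_normalizer' Q) le_rfl
  constructor
  · intro c hc h
    obtain ⟨B, hB⟩ := inducedBlockDefined_of_le hQ Subgroup.le_normalizer
      (centralizer_le_normalizer' Q) le_rfl hc
    exact ⟨B, ⟨hB, (covers_iff_eS' hB.2.1 hd).2 (HK.cover_of_below le_top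
      (mem_Zc.1 (eS_mem_Zc N d)).1 hQ hQN (eB_mem_fix B ⊤) ((hind c B).1 hB).2.2
      ((hcov c hc).1 h))⟩, fun B' hB' => IsInducedBlock.unique hB'.1 hB⟩
  · intro B hB h
    obtain ⟨b', hb', h4, h5⟩ := HK.exists_below hKN le_top (isPrim_eS hd) hdQ' (isPrim_eB hB)
      ((covers_iff_eS' hB hd).1 h)
    have hb'' := hb'
    rw [top_inf_eq] at hb''
    obtain ⟨c, hc, rfl⟩ := exists_eS_eq hb''
    refine ⟨c, ⟨⟨hc, (hcov c hc).2 h5⟩, (hind c B).2 ⟨hc, hB, h4⟩⟩, fun c' hc' => ?_⟩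
    exact eS_inj hc'.1.1 hc (HK.unique hKN le_top (isPrim_eS hd) hdQ' (isPrim_eB hB)
      (by rw [top_inf_eq]; exact isPrim_eS hc'.1.1) ((hind c' B).1 hc'.2).2.2
      ((hcov c' hc'.1.1).1 hc'.1.2) hb' h4 h5)

end Cfsg.Agent.S4674
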