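import Cfsg.Statements.S4681
import Cfsg.Agent.BMod.Fusion
-- import your own Cfsg.Agent.* helpers here

set_option autoImplicit false
open Cfsg

namespace Cfsg.Agent.S4681

open Cfsg.Agent.BMod Cfsg.Agent.Block Cfsg.Agent.Transfer

/-- Fix a prime p and a maximal ideal M of the algebraic integers containing p. Let B₀ be the principal p-block of the finite group G, P a Sylow p-subgroup and e₀ the principal p-block of C_G(P). Then (P, e₀) is a maximal Brauer pair of B₀, and the fusion system of B₀ on (P, e₀) is the fusion system of G on P: its maps from each subgroup of P are exactly the conjugation maps into P by elements of G. -/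
theorem result {G : Type*} [Group G] [Fintype G] (p : ℕ) [Fact p.Prime] (M : Ideal Cfsg.AlgInt) (hM : Cfsg.IsPModular p M) (S : Sylow p G) : Cfsg.IsMaximalBrauerPair p M (Cfsg.principalBlock M G) (S : Subgroup G) (Cfsg.principalBlock M (Subgroup.centralizer ((S : Subgroup G) : Set G))) ∧ ∀ F : Cfsg.FusionSystem (S : Subgroup G), Cfsg.IsBlockFusionSystemOn p M (Cfsg.principalBlock M G) (S : Subgroup G) (Cfsg.principalBlock M (Subgroup.centralizer ((S : Subgroup G) : Set G))) F → ∀ Q : Subgroup G, F.Hom Q = (Cfsg.groupFusionSystem (S : Subgroup G)).Hom Q := by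
  haveI : PMod p M := ⟨hM⟩
  have he := isPrinc_eS (M := M) (Subgroup.centralizer ((S : Subgroup G) : Set G))
  refine ⟨isMax_iff.2 ⟨isPBlock_principalBlock, isPBlock_principalBlock, isPrinc_eB.1,
    isPrinc_eB.isDef_iff.2 (isSylowIn_top S), ⟨S.2, he.1⟩, he.mul_br S.2 isPrinc_eB.1.idem
      (eB_mem_fix _ _) (eB_mem_fix _ _) isPrinc_eB.2⟩, fun F hF Q => ?_⟩
  ext φ
  rw [isBF_of hF]
  constructor
  · rintro ⟨k, hk, f, h1, h2⟩
    exact ⟨h1.le, fun x => by rw [hk]; exact h2.le (conj_mem_sc.2 x.2), k, hk⟩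
  · rintro ⟨h1, h2, k, hk⟩
    have hf := isPrinc_eS (M := M) (Subgroup.centralizer (Q : Set G))
    have hf' := hf.conj k
    rw [← centralizer_sc] at hf'
    refine ⟨k, hk, _, hf.ple he S.2 h1, hf'.ple he S.2 ?_⟩
    rw [← range_eq_sc hk]
    rintro _ ⟨u, rfl⟩
    exact h2 u

end Cfsg.Agent.S4681
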