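import Cfsg.Statements.S4682
import Cfsg.Agent.BMod.Dict3
-- import your own Cfsg.Agent.* helpers here

set_option autoImplicit false
open Cfsg

namespace Cfsg.Agent.S4682

open Cfsg.Agent.BMod Cfsg.Agent.Block Cfsg.Agent.Transfer

/-- Fix a prime p and a maximal ideal M of the algebraic integers containing p, a p-block B of the finite group G with maximal Brauer pair (P, e), P abelian, and a Brauer pair (Q, f) ≤ (P, e). Let T_Q be the stabilizer of f in N_G(Q) and T_P the stabilizer of e in N_G(P). Then every element of T_Q is a product of an element of T_P and an element of C_G(Q); and the index of C_G(Q) in T_Q equals the index of T_P ∩ C_G(Q) in T_P ∩ N_G(Q). -/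
theorem result {G : Type*} [Group G] [Fintype G] (p : ℕ) [Fact p.Prime] (M : Ideal Cfsg.AlgInt) (hM : Cfsg.IsPModular p M) (B : Set (Cfsg.IrrCharacter G)) (P : Subgroup G) (e : Set (Cfsg.IrrCharacter (Subgroup.centralizer (P : Set G)))) (hmax : Cfsg.IsMaximalBrauerPair p M B P e) (hab : ∀ x ∈ P, ∀ y ∈ P, x * y = y * x) (Q : Subgroup G) (f : Set (Cfsg.IrrCharacter (Subgroup.centralizer (Q : Set G)))) (hQP : Q ≤ P) (hf : Cfsg.IsPBlock M f) (hle : Cfsg.SubpairLE p M Q f P e) (TQ : Subgroup G) (hTQ : ∀ y : G, y ∈ TQ ↔ y ∈ Subgroup.normalizer (Q : Set G) ∧ Cfsg.StabilizesBlock (Subgroup.centralizer (Q : Set G)) f y) (TP : Subgroup G) (hTP : ∀ y : G, y ∈ TP ↔ y ∈ Subgroup.normalizer (P : Set G) ∧ Cfsg.StabilizesBlock (Subgroup.centralizer (P : Set G)) e y) : (∀ x ∈ TQ, ∃ y ∈ TP, ∃ c ∈ Subgroup.centralizer (Q : Set G), x = y * c) ∧ ((Subgroup.centralizer (Q : Set G)).subgroupOf TQ).index = ((TP ⊓ Subgroup.centralizer (Q : Set G)).subgroupOf (TP ⊓ Subgroup.normalizer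 (Q : Set G))).index := by
  haveI : PMod p M := ⟨hM⟩
  have hm := IsMaximalBrauerPair.isMax hmax
  have h := SubpairLE.ple hle
  have hf' := h.left hm.pair
  obtain rfl := eq_NP hf hTQ
  obtain rfl := eq_NP hmax.1.1.2 hTP
  have hab' : P ≤ Subgroup.centralizer (P : Set G) := fun x hx y hy => hab y hy x hx
  have key : ∀ x ∈ NP Q (eS M _ f), ∃ y ∈ NP P (eS M _ e) ⊓ Subgroup.normalizer (Q : Set G),
      ∃ c ∈ Subgroup.centralizer (Q : Set G), x = y * c := by
    intro x hx
    obtain ⟨y, hy, h1⟩ := hm.exists_NP_of_comm hab' h (k := x) (by rwa [(mem_NP'.1 hx).1, hx.2])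
    refine ⟨y, ⟨hy, ?_⟩, _, h1, by simp⟩
    simpa using Subgroup.mul_mem _ hx.1 (Subgroup.inv_mem _ (centralizer_le_normalizer' Q h1))
  refine ⟨fun x hx => let ⟨y, hy, h1⟩ := key x hx; ⟨y, hy.1, h1⟩, ?_⟩
  have h1 : SolvStr.IsProd _ _ _ := ⟨h.NP_inf_le, hf'.centralizer_le_NP, key⟩
  change Subgroup.relIndex _ _ = Subgroup.relIndex _ _
  rw [← h1.relIndex_eq, ← Subgroup.inf_relIndex_right (Subgroup.centralizer _),
    ← Subgroup.inf_relIndex_right (_ ⊓ Subgroup.centralizer _)]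
  congr 1
  exact le_antisymm (le_inf (le_inf (inf_le_right.trans inf_le_left) inf_le_left) inf_le_right)
    (inf_le_inf_right _ inf_le_right)

end Cfsg.Agent.S4682
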