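import Cfsg.Statements.S4685
import Cfsg.Agent.BMod.Nilp
-- import your own Cfsg.Agent.* helpers here

set_option autoImplicit false
open Cfsg

namespace Cfsg.Agent.S4685

open Cfsg.Agent.BMod Cfsg.Agent.Block Cfsg.Agent.Transfer Cfsg.Agent.Char Cfsg.Agent.CharDeep

/-- Fix a prime p and a maximal ideal M of the algebraic integers containing p, a p-block B of the finite group G with maximal Brauer pair (P, e) and fusion system F on P. Then for every h the number of irreducible characters of height h in B is divisible by the index of Z(P) ∩ foc(F) in Z(P), where foc(F) is the focal subgroup of F. -/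
theorem result {G : Type*} [Group G] [Fintype G] (p : ℕ) [Fact p.Prime] (M : Ideal Cfsg.AlgInt) (hM : Cfsg.IsPModular p M) (B : Set (Cfsg.IrrCharacter G)) (P : Subgroup G) (e : Set (Cfsg.IrrCharacter (Subgroup.centralizer (P : Set G)))) (hmax : Cfsg.IsMaximalBrauerPair p M B P e) (F : Cfsg.FusionSystem P) (hF : Cfsg.IsBlockFusionSystemOn p M B P e F) (h : ℕ) : ((P ⊓ Subgroup.centralizer (P : Set G) ⊓ F.focalSubgroup).subgroupOf (P ⊓ Subgroup.centralizer (P : Set G))).index ∣ Nat.card {χ : Cfsg.IrrCharacter G // χ ∈ B ∧ Cfsg.blockHeight p B (χ : G → ℂ) = h} := by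
  haveI : PMod p M := ⟨hM⟩
  obtain ⟨hB, -, hm⟩ := isMax_iff.1 hmax
  rw [Subgroup.inf_subgroupOf_left]
  exact relIndex_dvd_card hB hm (fun u hu v hv h => (isBF_of hF).mem_foc hm.pair hu hv h)
    inf_le_left (X := {χ | χ ∈ B ∧ blockHeight p B (χ : G → ℂ) = h}) (fun _ h => h.1)
    (fun χ hχ ψ hψ h => ⟨hψ, (height_congr h).trans hχ.2⟩)
    fun χ hχ u hu => mu_ne_zero_of_center hB hm hu hχ.1

end Cfsg.Agent.S4685
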