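import Cfsg.Statements.S4687
import Cfsg.Agent.BMod.Dict3
-- import your own Cfsg.Agent.* helpers here

set_option autoImplicit false
open Cfsg

namespace Cfsg.Agent.S4687

open Cfsg.Agent.BMod Cfsg.Agent.Block Cfsg.Agent.Transfer

/-- Fix a prime p and a maximal ideal M of the algebraic integers containing p, and a p-block B of the finite group G with maximal Brauer pair (P, e), P abelian. Then B is nilpotent if and only if its inertial quotient is trivial: every element of N_G(P) stabilizing e centralizes P. -/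
theorem result {G : Type*} [Group G] [Fintype G] (p : ℕ) [Fact p.Prime] (M : Ideal Cfsg.AlgInt) (hM : Cfsg.IsPModular p M) (B : Set (Cfsg.IrrCharacter G)) (P : Subgroup G) (e : Set (Cfsg.IrrCharacter (Subgroup.centralizer (P : Set G)))) (hmax : Cfsg.IsMaximalBrauerPair p M B P e) (hab : ∀ x ∈ P, ∀ y ∈ P, x * y = y * x) : Cfsg.IsNilpotentBlock p M B ↔ ∀ x : G, x ∈ Subgroup.normalizer (P : Set G) → Cfsg.StabilizesBlock (Subgroup.centralizer (P : Set G)) e x → x ∈ Subgroup.centralizer (P : Set G) := by
  haveI : PMod p M := ⟨hM⟩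
  have hm := IsMaximalBrauerPair.isMax hmax
  rw [isNilpotentBlock_iff, and_iff_right hmax.1.2.1,
    hm.nil_iff_of_comm fun x hx y hy => hab y hy x hx]
  exact ⟨fun h x h1 h2 => h ((mem_NP_iff hmax.1.1.2).2 ⟨h1, h2⟩), fun h x hx =>
    h x hx.1 ((mem_NP_iff hmax.1.1.2).1 hx).2⟩

end Cfsg.Agent.S4687
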