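import Cfsg.Statements.S4689
import Cfsg.Agent.BMod.Nilp
-- import your own Cfsg.Agent.* helpers here

set_option autoImplicit false
open Cfsg

namespace Cfsg.Agent.S4689

open Cfsg.Agent.BMod Cfsg.Agent.Block Cfsg.Agent.Transfer Cfsg.Agent.Char Cfsg.Agent.CharDeep

/-- Fix a prime p and a maximal ideal M of the algebraic integers containing p, and a nilpotent p-block B of the finite group G. Then B has p-regular rank one (a single irreducible Brauer character), and some χ₀ ∈ B restricts to that Brauer character: every χ ∈ B agrees on the p-regular elements with a natural-number multiple of χ₀. -/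
theorem result {G : Type*} [Group G] [Fintype G] (p : ℕ) [Fact p.Prime] (M : Ideal Cfsg.AlgInt) (hM : Cfsg.IsPModular p M) (B : Set (Cfsg.IrrCharacter G)) (hnil : Cfsg.IsNilpotentBlock p M B) : Cfsg.blockRank p B = 1 ∧ ∃ χ₀ ∈ B, ∀ χ ∈ B, ∃ d : ℕ, ∀ x : G, Cfsg.pRegularPart p (χ : G → ℂ) x = (d : ℂ) * Cfsg.pRegularPart p (χ₀ : G → ℂ) x := by
  haveI : PMod p M := ⟨hM⟩
  obtain ⟨hB, hn⟩ := isNilpotentBlock_iff.1 hnil
  refine ⟨hn.rank_one hB, ?_⟩
  obtain ⟨χ, hχ, h0⟩ := exists_height_zero p (IsPBlock.nonempty hB)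
  obtain ⟨P, hP⟩ := exists_isDefectGroup hB
  obtain ⟨Φ, h⟩ := hn.exists_equiv' hB hP hχ h0
  refine ⟨χ, hχ, fun ψ hψ => ?_⟩
  obtain ⟨ζ, hζ⟩ := Φ.surjective ⟨ψ, hψ⟩
  refine ⟨charDegree (ζ : P → ℂ), fun g => ?_⟩
  have := congrFun (h ζ).1 g
  rwa [hζ] at this

end Cfsg.Agent.S4689
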