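import Cfsg.Statements.S4693
import Cfsg.Agent.BMod.Fusion
-- import your own Cfsg.Agent.* helpers here

set_option autoImplicit false
open Cfsg

namespace Cfsg.Agent.S4693

open Cfsg.Agent.BMod Cfsg.Agent.Block Cfsg.Agent.Transfer

/-- Fix a prime p and a maximal ideal M of the algebraic integers containing p, a p-block B of the finite group G with maximal Brauer pair (P, e) and fusion system F on P, and a Brauer pair (Q, f) ≤ (P, e) with Q centric in F. Suppose every element of G normalizes Q and stabilizes f. Then the idempotent of B agrees with that of f modulo M at every element of G, and f is the idempotent of a nilpotent block of Q·C_G(Q): some p-block of Q·C_G(Q) has the idempotent coefficients of f and is nilpotent. -/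
theorem result {G : Type*} [Group G] [Fintype G] (p : ℕ) [Fact p.Prime] (M : Ideal Cfsg.AlgInt) (hM : Cfsg.IsPModular p M) (B : Set (Cfsg.IrrCharacter G)) (P : Subgroup G) (e : Set (Cfsg.IrrCharacter (Subgroup.centralizer (P : Set G)))) (hmax : Cfsg.IsMaximalBrauerPair p M B P e) (F : Cfsg.FusionSystem P) (hF : Cfsg.IsBlockFusionSystemOn p M B P e F) (Q : Subgroup G) (f : Set (Cfsg.IrrCharacter (Subgroup.centralizer (Q : Set G)))) (hQP : Q ≤ P) (hf : Cfsg.IsPBlock M f) (hle : Cfsg.SubpairLE p M Q f P e) (hcen : F.IsCentric Q) (hG : ∀ x : G, x ∈ Subgroup.normalizer (Q : Set G) ∧ Cfsg.StabilizesBlock (Subgroup.centralizer (Q : Set G)) f x) : (∀ g : G, Cfsg.MemLocalIdeal M (Cfsg.blockCoeff B g - Cfsg.subgroupBlockCoeff (Subgroup.centralizer (Q : Set G)) f g)) ∧ ∃ F' : Set (Cfsg.IrrCharacter ↥(Q ⊔ Subgroup.centralizer (Q : Set G))), Cfsg.IsPBlock M F' ∧ (∀ t : ↥(Q ⊔ Subgroup.centralizer (Q : Set G)), Cfsg.blockCoeff F' t = Cfsg.subgroupBlockCoeff (Subgroup.centralizer (Q : Set G)) f (t : G))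 ∧ Cfsg.IsNilpotentBlock p M F' := by
  haveI : PMod p M := ⟨hM⟩
  have hm := IsMaximalBrauerPair.isMax hmax
  have h := SubpairLE.ple hle
  have hf' := h.left hm.pair
  have hT : (⊤ : Subgroup G) ≤ NP Q (eS M _ f) := fun x _ => (mem_NP_iff hf).2 (hG x)
  have hN := hT.trans NP_le_normalizer
  have h1 := hf'.isPrim_Zc_self le_top le_top hT
  have h2 : eS M _ f = eB M B := by
    refine h1.eq_of_mul_eq (isComm_Zc le_rfl) hm.prim ?_
    have := hm.mul_br_of_ple h
    rwa [br_idem_eq_self hf'.1 le_top hN le_rfl hm.prim.idem hm.prim.mem] at this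
  constructor
  · intro g
    rw [memLocalIdeal_sub_iff (IsPBlock.blockCoeff_mem_O hmax.1.2.1 g)
      (by rw [← coeff_idemS]; exact idemS_mem_OG hf g), ← coeff_eB, ← coeff_eS, h2]
  · obtain ⟨F', hF', h3, h4⟩ := exists_block_of_stab (K := Q ⊔ Subgroup.centralizer (Q : Set G))
      ⟨hf'.1, hf⟩ le_sup_left le_sup_right (le_top.trans hT)
    refine ⟨F', hF', h4, isNilpotentBlock_iff_eS.2 ⟨hF', ?_⟩⟩
    rw [h3]
    intro R g hR hR' hg h5 x hx _ _ hx'
    have hD := ((isBF_of hF).centric_iff hm h).1 hcen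
    have hpr := (SolvStr.isProd_sup_of_le_normalizer
      (Subgroup.le_normalizer.trans (normalizer_le_normalizer_centralizer Q))).symm
    rw [sup_comm] at hpr
    obtain ⟨D, hD', h6⟩ := exists_isDef_ge (isComm_Zc le_sup_right) (hf'.isPrim_Zc le_sup_right
      (le_top.trans hT)) hR hR' (fun h0 => hg.ne_zero (by rw [← h5, h0, mul_zero]))
    have h7 := hD'.inf_of_stable le_sup_right
      (le_top.trans (hN.trans (normalizer_le_normalizer_centralizer Q))) hf'.2
      (fix_anti (le_top.trans hT) mem_fix_NP)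
    have h8 : Q ≤ D := (le_inf le_rfl le_sup_left).trans
      (hf'.inf_le_of_isDef (le_top.trans hN) hD')
    have h9 := Subgroup.eq_of_le_of_card_ge (inf_le_inf_right _ h8) (h7.card_eq hD).le
    have hRQ : R ≤ Q := by
      intro r hr
      obtain ⟨q, hq, c, hc, rfl⟩ := hpr.exists_mul r (hR hr)
      have : c ∈ D ⊓ Subgroup.centralizer (Q : Set G) :=
        ⟨(D.mul_mem_cancel_left (h8 hq)).1 (h6 hr), hc⟩
      rw [← h9] at this
      exact Q.mul_mem hq this.1
    obtain ⟨q, hq, c, hc, rfl⟩ := hpr.exists_mul x hx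
    exact centralizer_anti hRQ (mem_of_regular_of_inv_mul_mem hq hf'.1
      (normalizer_le_normalizer_centralizer Q (hN trivial)) (by simpa using hc) hx')

end Cfsg.Agent.S4693
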