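import Cfsg.Statements.S4694
import Cfsg.Agent.BMod.Central2
-- import your own Cfsg.Agent.* helpers here

set_option autoImplicit false
open Cfsg

namespace Cfsg.Agent.S4694

open Cfsg.Agent.BMod Cfsg.Agent.Block Cfsg.Agent.Transfer Cfsg.Agent.Char Cfsg.Agent.CharDeep

/-- Fix a prime p and a maximal ideal M of the algebraic integers containing p, a p-block B of the finite group G and a Brauer pair (Q, e) of B. Let T be the stabilizer of e in N_G(Q) and suppose that (Q, e) carries a weight: the block of T whose idempotent is that of e contains an irreducible character χ that is constant on the cosets of Q and whose degree has p-part equal to the p-part of the index of Q in T. Then Z(Q) is a defect group of e as a block of C_G(Q), and Q is the largest normal p-subgroup of T: every p-subgroup of T normalized by T lies in Q. -/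
theorem result {G : Type*} [Group G] [Fintype G] (p : ℕ) [Fact p.Prime] (M : Ideal Cfsg.AlgInt) (hM : Cfsg.IsPModular p M) (B : Set (Cfsg.IrrCharacter G)) (Q : Subgroup G) (e : Set (Cfsg.IrrCharacter (Subgroup.centralizer (Q : Set G)))) (hQe : Cfsg.IsBrauerPairOf p M B Q e) (T : Subgroup G) (hT : ∀ y : G, y ∈ T ↔ y ∈ Subgroup.normalizer (Q : Set G) ∧ Cfsg.StabilizesBlock (Subgroup.centralizer (Q : Set G)) e y) (F' : Set (Cfsg.IrrCharacter T)) (hF' : Cfsg.IsPBlock M F') (hF'e : ∀ t : T, Cfsg.blockCoeff F' t = Cfsg.subgroupBlockCoeff (Subgroup.centralizer (Q : Set G)) e (t : G)) (χ : Cfsg.IrrCharacter T) (hχ : χ ∈ F') (hχQ : ∀ q : G, q ∈ Q → ∀ t : T, ∀ t' : T, (t' : G) = q * (t : G) → (χ : T → ℂ) t' = (χ : T → ℂ) t) (hdeg : (Cfsg.charDegree (χ : T → ℂ)).factorization p + (Nat.card Q).factorization p = (Nat.card T).factorization p) : Cfsg.IsDefectGroup p M e ((Q ⊓ Subgroup.centralizer (Q : Set G)).subgroupOf (Subgroup.centralizer (Q : Set G))) ∧ ∀ R : Subgroup G, R ≤ T → IsPGroup p R → (∀ t ∈ T, t ∈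 Subgroup.normalizer (R : Set G)) → R ≤ Q := by
  haveI : PMod p M := ⟨hM⟩
  classical
  have he := hQe.1.2
  have hpair := IsBrauerPairOf.isPair hQe
  have hT' := eq_NP he hT
  have hQT : Q ≤ T := hT' ▸ hpair.le_NP
  have hCT : Subgroup.centralizer (Q : Set G) ≤ T := hT' ▸ hpair.centralizer_le_NP
  have hTN : T ≤ Subgroup.normalizer (Q : Set G) := hT' ▸ NP_le_normalizer
  haveI hn : (Q.subgroupOf T).Normal := (Subgroup.normal_subgroupOf_iff_le_normalizer hQT).2 hTN
  obtain ⟨φ, hφ, hφ'⟩ := IsIrrCharacter.exists_quotient χ.2 (Q.subgroupOf T) fun g hg =>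
    hχQ g hg 1 g (by simp)
  have hφ1 : charDegree φ = charDegree (χ : T → ℂ) := by
    rw [charDegree, charDegree, ← hφ' 1]; rfl
  have h1 := factorization_card_add_index p (Q.subgroupOf T)
  rw [Nat.card_congr (Subgroup.subgroupOfEquivOfLe hQT).toEquiv] at h1
  have h0 : (charDegree ((⟨φ, hφ⟩ : IrrCharacter _) : T ⧸ Q.subgroupOf T → ℂ)).factorization p =
      (Nat.card (T ⧸ Q.subgroupOf T)).factorization p := by
    change (charDegree φ).factorization p = (Q.subgroupOf T).index.factorization p
    rw [hφ1]; omega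
  constructor
  · set f := (QuotientGroup.mk' (Q.subgroupOf T)).comp (Subgroup.inclusion hCT) with hf
    haveI hC : ((Subgroup.centralizer (Q : Set G)).subgroupOf T).Normal :=
      (Subgroup.normal_subgroupOf_iff_le_normalizer hCT).2
        (hTN.trans (normalizer_le_normalizer_centralizer Q))
    haveI : f.range.Normal := by
      rw [hf, MonoidHom.range_comp, Subgroup.inclusion_range]
      exact hC.map _ (QuotientGroup.mk'_surjective _)
    obtain ⟨ξ, h2, -, h3⟩ := exists_defect_zero_under f h0
    have hk : f.ker = (Q ⊓ Subgroup.centralizer (Q : Set G)).subgroupOf _ := by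
      ext x
      simp [hf, Subgroup.mem_subgroupOf]
    have h4 : (fun c => φ (f c)) = fun c : Subgroup.centralizer (Q : Set G) =>
        (χ : T → ℂ) ⟨c, hCT c.2⟩ := funext fun c => hφ' _
    change classInner (fun c => φ (f c)) _ ≠ 0 at h2
    rw [h4] at h2
    have hcov := (coversIn_iff hCT (hTN.trans (normalizer_le_normalizer_centralizer Q)) hF'
        (isPBlock_blockOf (M := M) ξ)).1 ⟨χ, hχ, ξ, mem_blockOf_self ξ, h2⟩
    rw [eS_eq_of_forall_blockCoeff hCT hF'e] at hcov
    have := eS_inj he (isPBlock_blockOf ξ) ((isPrim_eS he).eq_of_mul_ne_zero (isComm_Zc le_rfl)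
      (isPrim_eS (isPBlock_blockOf ξ)) hcov)
    exact isDef_centralizer_of_deg hQe.1.1 he (this ▸ mem_blockOf_self ξ) (hk ▸ h3)
  · intro R hRT hR hN
    haveI : (R.subgroupOf T).Normal := (Subgroup.normal_subgroupOf_iff_le_normalizer hRT).2 hN
    haveI := Subgroup.Normal.map this _ (QuotientGroup.mk'_surjective (Q.subgroupOf T))
    have hb := isPBlock_blockOf (M := M) (⟨φ, hφ⟩ : IrrCharacter _)
    obtain ⟨D, hD⟩ := exists_isDefectGroup (p := p) hb
    have h2 := IsDefectGroup.le_of_normal
      (P := (R.subgroupOf T).map (QuotientGroup.mk' (Q.subgroupOf T))) hb hD ((hR.comap_subtype (K := T)).map (QuotientGroup.mk' (Q.subgroupOf T)))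
    have h3 := IsDefectGroup.card_eq hb hD
    rw [(blockDefect_eq_zero_iff hb (mem_blockOf_self _)).2 h0, pow_zero,
      Subgroup.card_eq_one] at h3
    intro x hx
    have h4 := h2 ⟨⟨x, hRT hx⟩, hx, rfl⟩
    rw [h3, Subgroup.mem_bot, QuotientGroup.mk'_apply, QuotientGroup.eq_one_iff] at h4
    exact h4

end Cfsg.Agent.S4694
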