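import Cfsg.Statements.S4697
import Cfsg.Agent.BMod.KW
import Cfsg.Agent.Solv.Basic
-- import your own Cfsg.Agent.* helpers here

set_option autoImplicit false
open Cfsg

namespace Cfsg.Agent.S4697

open Cfsg.Agent.BMod Cfsg.Agent.Block Cfsg.Agent.Transfer Cfsg.Agent.Char Cfsg.Agent.CharDeep

variable {p : ℕ} [hp : Fact p.Prime] {M : Ideal AlgInt} [PMod p M]

theorem closure_eq {G : Type*} [Group G] {D : Subgroup G} {S : Set D}
    (h : Subgroup.closure S = ⊤) : D = Subgroup.closure (D.subtype '' S) := by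
  rw [← MonoidHom.map_closure, h, ← MonoidHom.range_eq_map, Subgroup.range_subtype]

theorem three {G : Type*} [Group G] [Fintype G] {B : Set (IrrCharacter G)} (hB : IsPBlock M B)
    {D : Subgroup G} (hD : IsDefectGroup p M B D) (hab : D ≤ Subgroup.centralizer (D : Set G))
    {x y z : G} (hx : x ∈ D) (hy : y ∈ D) (hz : z ∈ D)
    (h : D ≤ Subgroup.zpowers x ⊔ Subgroup.zpowers y ⊔ Subgroup.zpowers z)
    (h1 : orderOf x ≤ orderOf z) (h2 : orderOf y ≤ orderOf z) :
    Nat.card B ^ 3 ≤ p ^ (5 * blockDefect p B) := by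
  obtain ⟨b, h3, h4, h5, h6, h7⟩ := exists_major hB hD ⟨hz, hab hz⟩
  have := Fintype.ofFinite (Subgroup.centralizer (Subgroup.zpowers z : Set G))
  have hR := rc_of_center h3.pgroup h3.zpowers_le
  have := normal_of_sup_centralizer (sup_centralizer_of_le_center h3.zpowers_le)
  have := Fintype.ofFinite (_ ⧸ Subgroup.zpowers (zu z))
  let f := QuotientGroup.mk' (Subgroup.zpowers (zu z))
  have hf : Function.Surjective f := QuotientGroup.mk'_surjective _
  have hC : f.ker ≤ _ := (QuotientGroup.ker_mk' _).trans_le h3.zpowers_le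
  have h8 := pow_defect_infl hf hR.ker hC h4.1
  have h9 := card_le_of_two_gen (isPBlock_infl hf hR.ker hC h4.1)
    (isDefectGroup_infl hf hR.ker hC h4.1 h6) (z := f ⟨x, h5 hx⟩) (y := f ⟨y, h5 hy⟩)
    ⟨Subgroup.mem_map_of_mem _ hx, by
      rintro _ ⟨g, hg, rfl⟩
      rw [← map_mul, ← map_mul]
      exact congrArg f (Subtype.ext (hab hx g hg))⟩ (Subgroup.mem_map_of_mem _ hy) (by
      rw [← sup_bot_eq (_ ⊔ _), ← (Subgroup.map_eq_bot_iff _).2 (QuotientGroup.ker_mk' _).ge,
        ← MonoidHom.map_zpowers, ← MonoidHom.map_zpowers, ← Subgroup.map_sup, ← Subgroup.map_sup]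
      refine Subgroup.map_mono ?_
      rw [← Subgroup.map_le_map_iff_of_injective (Subgroup.subtype_injective _), Subgroup.map_sup,
        Subgroup.map_sup, MonoidHom.map_zpowers, MonoidHom.map_zpowers, MonoidHom.map_zpowers,
        Subgroup.subgroupOf_map_subtype]
      exact inf_le_left.trans h)
  have h10 := h3.card_le_of_major h4 h7
  rw [← hR.rank_eq (IsPBlock.isBlockUnion h4.1)] at h10
  have h11 := h10.trans (Nat.mul_le_mul_left _ ((blockRank_le_card p _).trans h9))
  have h12 : p ^ blockDefect p B ≤ orderOf z ^ 3 := by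
    have c : ∀ a ∈ D, ∀ K ≤ D, Nat.card ↥(K ⊔ Subgroup.zpowers a) ≤ Nat.card K * orderOf a :=
      fun a ha K hK => Nat.card_zpowers a ▸ Nat.le_of_dvd (mul_pos Nat.card_pos Nat.card_pos)
        (Solv.card_sup_dvd ((Subgroup.zpowers_le.2 (hab ha)).trans
          ((Subgroup.centralizer_le hK).trans (centralizer_le_normalizer' _))))
    rw [← IsDefectGroup.card_eq hB hD]
    refine (Subgroup.card_le_of_le h).trans ((c z hz _ (sup_le (Subgroup.zpowers_le.2 hx)
      (Subgroup.zpowers_le.2 hy))).trans ((Nat.mul_le_mul_right _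
      (c y hy _ (Subgroup.zpowers_le.2 hx))).trans ?_))
    rw [Nat.card_zpowers, pow_succ, sq]
    gcongr
  rw [QuotientGroup.ker_mk', Nat.card_zpowers, h7, ← Subgroup.orderOf_coe] at h8
  refine (Nat.pow_le_pow_left h11 3).trans (Nat.le_of_mul_le_mul_left ?_
    (pow_pos hp.out.pos (blockDefect p B)))
  calc _ ≤ orderOf z ^ 3 * _ := Nat.mul_le_mul_right _ h12
    _ = _ := by rw [← mul_pow, mul_left_comm, h8]; ring

/-- Let p be a prime, M a maximal ideal of the algebraic integers containing p, and B a p-block of the finite group G with an abelian defect group D of order p^d. If D has rank 2 (its least number of generators is 2) then B contains at most p^d irreducible characters; if D has rank 3 then the number k of irreducible characters in B satisfies k^3 ≤ p^(5d). -/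
theorem result {G : Type*} [Group G] [Finite G] (p : ℕ) [Fact p.Prime] (M : Ideal Cfsg.AlgInt) (hM : Cfsg.IsPModular p M) (B : Set (Cfsg.IrrCharacter G)) (hB : Cfsg.IsPBlock M B) (D : Subgroup G) (hBD : Cfsg.IsDefectGroup p M B D) (hab : IsMulCommutative D) (d : ℕ) (hDd : Nat.card D = p ^ d) : (Group.rank D = 2 → Nat.card B ≤ p ^ d) ∧ (Group.rank D = 3 → Nat.card B ^ 3 ≤ p ^ (5 * d)) := by
  haveI : PMod p M := ⟨hM⟩
  have := Fintype.ofFinite G
  classical
  have hc : D ≤ Subgroup.centralizer (D : Set G) := fun x hx y hy =>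
    congrArg Subtype.val (hab.1.1 (⟨y, hy⟩ : D) ⟨x, hx⟩)
  obtain rfl : d = blockDefect p B := Nat.pow_right_injective hM.1.two_le
    (hDd.symm.trans (IsDefectGroup.card_eq hB hBD))
  obtain ⟨S, h1, h2⟩ := Group.rank_spec D
  have h3 := closure_eq h2
  refine ⟨fun h => ?_, fun h => ?_⟩
  · obtain ⟨x, y, -, rfl⟩ := Finset.card_eq_two.1 (h1.trans h)
    refine card_le_of_two_gen hB hBD ⟨x.2, hc x.2⟩ y.2 (h3.trans ?_).le
    simp [Set.image_insert_eq, Subgroup.zpowers_eq_closure, ← Subgroup.closure_union, Set.pair_comm]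
  obtain ⟨x, y, z, -, -, -, rfl⟩ := Finset.card_eq_three.1 (h1.trans h)
  have h4 : D ≤ Subgroup.zpowers x.1 ⊔ Subgroup.zpowers y.1 ⊔ Subgroup.zpowers z.1 := by
    refine (h3.trans ?_).le
    simp only [Subgroup.zpowers_eq_closure, ← Subgroup.closure_union]
    congr 1
    ext
    simp [Set.image_insert_eq]
    tauto
  rcases le_total (orderOf x.1) (orderOf z.1) with a | a
  · rcases le_total (orderOf y.1) (orderOf z.1) with b | b
    · exact three hB hBD hc x.2 y.2 z.2 h4 a b
    · exact three hB hBD hc x.2 z.2 y.2 (by rwa [sup_right_comm]) (a.trans b) b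
  · rcases le_total (orderOf y.1) (orderOf x.1) with b | b
    · exact three hB hBD hc z.2 y.2 x.2 (by rwa [sup_comm, sup_comm (Subgroup.zpowers z.1), ← sup_assoc]) a b
    · exact three hB hBD hc x.2 z.2 y.2 (by rwa [sup_right_comm]) b (a.trans b)

end Cfsg.Agent.S4697
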