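import Cfsg.Statements.S4699
import Cfsg.Agent.Block.Local

set_option autoImplicit false
open Cfsg

namespace Cfsg.Agent.S4699

open Cfsg.Agent.Block


theorem sum_eq_zero_of_orbits {P X M : Type*} [Group P] [Fintype P] [MulAction P X] [Fintype X]
    [AddCommMonoid M] (f : X → M) (h : ∀ x, (∀ u : P, f (u • x) = 0) ∨
      ((Function.Injective fun u : P => u • x) ∧ ∑ u : P, f (u • x) = 0)) : ∑ x, f x = 0 := by
  classical
  rw [← Finset.sum_fiberwise Finset.univ (Quotient.mk (MulAction.orbitRel P X))]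
  refine Finset.sum_eq_zero fun ω _ => ?_
  obtain ⟨x, rfl⟩ := Quotient.exists_rep ω
  have h1 : (Finset.univ.filter fun y => Quotient.mk (MulAction.orbitRel P X) y =
      Quotient.mk (MulAction.orbitRel P X) x) = Finset.univ.image fun u : P => u • x := by
    ext y
    simp only [Finset.mem_filter, Finset.mem_univ, true_and, Finset.mem_image, Quotient.eq]
    exact Iff.rfl
  rw [h1]
  rcases h x with h2 | ⟨h2, h3⟩
  · refine Finset.sum_eq_zero fun y hy => ?_
    obtain ⟨u, -, rfl⟩ := Finset.mem_image.1 hy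
    exact h2 u
  · rw [Finset.sum_image fun a _ b _ hab => h2 hab, h3]

theorem geom_eq {F E : Type*} [Field F] [Ring E] [Algebra F E] (p n : ℕ) [Fact p.Prime] [CharP F p]
    (T : E) : ∑ i ∈ Finset.range (p ^ n), T ^ i = (T - 1) ^ (p ^ n - 1) := by
  have h : ∑ i ∈ Finset.range (p ^ n), (Polynomial.X : Polynomial F) ^ i =
      (Polynomial.X - 1) ^ (p ^ n - 1) := by
    refine mul_right_cancel₀ (Polynomial.X_sub_C_ne_zero (1 : F)) ?_
    rw [Polynomial.C_1, geom_sum_mul, ← pow_succ, Nat.sub_add_cancel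
      (Nat.one_le_pow _ _ (Fact.out : p.Prime).pos), sub_pow_char_pow, one_pow]
  simpa [map_sum] using congrArg (Polynomial.aeval T) h

theorem trace_vanish {F R : Type*} [Field F] [Ring R] [Algebra F R] (p n : ℕ) [Fact p.Prime]
    [CharP F p] (x x' h : R) (hx : x * x' = 1) (hx' : x' * x = 1) {m k : ℕ} (hm : (x - 1) ^ m = 0)
    (hk : 2 * m ≤ k + p ^ n) :
    (x - 1) ^ k * ∑ i ∈ Finset.range (p ^ n), x ^ i * h * x' ^ i = 0 := by
  set L : Module.End F R := LinearMap.mulLeft F (x - 1) with hL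
  set Q : Module.End F R := LinearMap.mulRight F (1 - x) with hQ
  set S : Module.End F R := LinearMap.mulRight F x' with hS
  set T : Module.End F R := LinearMap.mulLeft F x * S with hT
  have h1 : ∀ i, (T ^ i) h = x ^ i * h * x' ^ i := fun i => by
    rw [hT, (LinearMap.commute_mulLeft_right x x').mul_pow, LinearMap.pow_mulLeft,
      LinearMap.pow_mulRight]
    simp [mul_assoc]
  have h2 : T - 1 = (L + Q) * S := by
    ext a
    simp only [hT, hL, hQ, hS, LinearMap.sub_apply, Module.End.mul_apply, LinearMap.mulRight_apply,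
      LinearMap.mulLeft_apply, Module.End.one_apply, LinearMap.add_apply]
    rw [mul_sub, mul_assoc a x' x, hx']; noncomm_ring
  have h3 : Commute (L + Q) S := by
    refine (LinearMap.commute_mulLeft_right _ _).add_left ?_
    ext a
    simp only [hQ, hS, Module.End.mul_apply, LinearMap.mulRight_apply]
    rw [mul_sub, mul_assoc a x' x, hx', mul_assoc a (1 - x), sub_mul, hx]; noncomm_ring
  have h4 : L ^ k * (L + Q) ^ (p ^ n - 1) = 0 := by
    rw [(LinearMap.commute_mulLeft_right (x - 1) (1 - x)).add_pow', Finset.mul_sum]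
    refine Finset.sum_eq_zero fun ij hij => ?_
    have h5 := Finset.mem_antidiagonal.1 hij
    have h6 : 0 < p ^ n := Nat.one_le_pow _ _ (Fact.out : p.Prime).pos
    rw [mul_smul_comm, ← mul_assoc, ← pow_add]
    by_cases h7 : m ≤ ij.2
    · rw [LinearMap.pow_mulRight, ← neg_sub, neg_pow, pow_eq_zero_of_le h7 hm]; simp
    · rw [LinearMap.pow_mulLeft, pow_eq_zero_of_le (show m ≤ k + ij.1 by omega) hm]; simp
  have h5 := congrArg (fun Φ : Module.End F R => Φ ((S ^ (p ^ n - 1)) h)) h4
  simp only [Module.End.mul_apply, LinearMap.zero_apply] at h5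
  rw [← Module.End.mul_apply (_ ^ (p ^ n - 1)), ← h3.mul_pow, ← h2, ← geom_eq (F := F) p n T, hL,
    LinearMap.pow_mulLeft] at h5
  simpa [h1, Finset.mul_sum] using h5

theorem pow_mul_conj {F R : Type*} [Field F] [Ring R] [Algebra F R] (p : ℕ) [Fact p.Prime]
    [CharP F p] (x : R) {m k : ℕ} (hm : (x - 1) ^ m = 0) (hp : p ≤ m) (hk : ¬ p ∣ k) :
    (x - 1) ^ (m - p) * (x ^ k - 1) ^ (p - 1) = (x - 1) ^ (m - 1) := by
  have hp1 := (Fact.out : p.Prime).one_lt
  have h1 : (x - 1) ^ (m - 1) * x = (x - 1) ^ (m - 1) := by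
    rw [← sub_eq_zero, ← mul_sub_one, ← pow_succ, Nat.sub_add_cancel (by omega), hm]
  have h2 : ∀ i, (x - 1) ^ (m - 1) * x ^ i = (x - 1) ^ (m - 1) := fun i => by
    induction i with
    | zero => simp
    | succ i ih => rw [pow_succ, ← mul_assoc, ih, h1]
  have h3 : ∀ j, (x - 1) ^ (m - 1) * (∑ i ∈ Finset.range k, x ^ i) ^ j =
      (k : F) ^ j • (x - 1) ^ (m - 1) := fun j => by
    induction j with
    | zero => simp
    | succ j ih =>
      rw [pow_succ, ← mul_assoc, ih, smul_mul_assoc, Finset.mul_sum, Finset.sum_congr rfl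
        fun i _ => h2 i, Finset.sum_const, Finset.card_range, ← Nat.cast_smul_eq_nsmul F, smul_smul,
        ← pow_succ]
  have h4 : (k : F) ^ (p - 1) = 1 := by
    have h5 : (k : F) ≠ 0 := fun h => hk ((CharP.cast_eq_zero_iff F p k).1 h)
    refine mul_right_cancel₀ h5 ?_
    rw [← pow_succ, Nat.sub_add_cancel hp1.le, one_mul, ← frobenius_def, map_natCast]
  rw [← mul_geom_sum, (show Commute (x - 1) (∑ i ∈ Finset.range k, x ^ i) by
    rw [Commute, SemiconjBy, mul_geom_sum, geom_sum_mul]).mul_pow, ← mul_assoc, ← pow_add,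
    show m - p + (p - 1) = m - 1 by omega, h3, h4, one_smul]

/-- Let p be a prime and G a finite group whose Sylow p-subgroup P is cyclic of order p^n with n ≥ 2 and meets every other Sylow p-subgroup trivially. Then every faithful irreducible representation of G on a finite-dimensional space over a finite field of characteristic p has dimension at least p^n − (p − 1). -/
theorem result {G : Type*} [Group G] [Finite G] (p : ℕ) [Fact p.Prime] (P : Sylow p G) (hcyc : IsCyclic P) (n : ℕ) (hn : 2 ≤ n) (hPn : Nat.card P = p ^ n) (hTI : ∀ Q : Sylow p G, Q ≠ P → (P : Subgroup G) ⊓ (Q : Subgroup G) = ⊥) (F : Type*) [Field F] [Finite F] [CharP F p] (V : Type*) [AddCommGroup V] [Module F V] [FiniteDimensional F V] (ρ : Representation F G V) (hfaith : Function.Injective ρ) (hirr : ρ.IsIrreducible) : p ^ n - (p - 1) ≤ Module.finrank F V := by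
  classical
  have hp1 := (Fact.out : p.Prime).one_lt
  letI := Fintype.ofFinite (P : Subgroup G)
  letI := Fintype.ofFinite (G ⧸ (P : Subgroup G))
  obtain ⟨x, hx⟩ := hcyc.exists_generator
  have ho : orderOf x = p ^ n := by rw [← hPn]; exact orderOf_eq_card_of_forall_mem_zpowers hx
  have hinv : ∀ g : G, ρ g * ρ g⁻¹ = 1 := fun g => by rw [← map_mul, mul_inv_cancel, map_one]
  have hpow : ∀ j, (ρ x - 1) ^ p ^ j = ρ (x ^ p ^ j : P) - 1 := fun j => by
    rw [← Nat.sub_add_cancel (Nat.one_le_pow j p (by omega)), pow_succ, ← geom_eq (F := F) p j,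
      geom_sum_mul, Nat.sub_add_cancel (Nat.one_le_pow j p (by omega)), ← map_pow, Subgroup.coe_pow]
  have hex : ∃ m, (ρ x - 1) ^ m = 0 := ⟨p ^ n, by rw [hpow, ← ho, pow_orderOf_eq_one]; simp⟩
  obtain ⟨m, hm, hmin⟩ : ∃ m, (ρ x - 1) ^ m = 0 ∧ ∀ j < m, (ρ x - 1) ^ j ≠ 0 :=
    ⟨Nat.find hex, Nat.find_spec hex, fun j hj => Nat.find_min hex hj⟩
  have hpm : p < m := by
    by_contra h
    have h1 := pow_eq_zero_of_le (not_lt.1 h) hm
    replace h1 : ρ (x ^ p ^ 1 : P) - 1 = 0 := (hpow 1).symm.trans (by rw [pow_one]; exact h1)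
    rw [sub_eq_zero, ← map_one ρ] at h1
    have h2 := orderOf_dvd_of_pow_eq_one (Subtype.ext (hfaith h1) : x ^ p ^ 1 = 1)
    rw [ho, Nat.pow_dvd_pow_iff_le_right hp1] at h2
    omega
  by_contra hd
  have hmd : m + p ≤ p ^ n := by
    by_contra h
    refine hmin (Module.finrank F V) (by omega) (LinearMap.ker_eq_top.1 ?_)
    rw [← Module.End.ker_pow_eq_ker_pow_finrank_of_le (m := m) (by omega), hm, LinearMap.ker_zero]
  have hP : ∀ u : P, ∃ k : ℕ, x ^ k = u := fun u => mem_powers_iff_mem_zpowers.2 (hx u)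
  have hc : ∀ u : P, Commute (ρ u) (ρ x - 1) := fun u => by
    obtain ⟨k, rfl⟩ := hP u
    rw [Subgroup.coe_pow, map_pow]
    exact (Commute.refl _).pow_left k |>.sub_right (Commute.one_right _)
  set t : G ⧸ (P : Subgroup G) → Module.End F V :=
    fun c => ρ c.out * (ρ x - 1) ^ (p - 1) * ρ c.out⁻¹ with ht
  have hout : ∀ (g : G) (c : G ⧸ (P : Subgroup G)), ∃ u : P, (g • c).out = g * c.out * u :=
    fun g c => by
      rw [← MulAction.Quotient.mk_smul_out, smul_eq_mul]; exact QuotientGroup.mk_out_eq_mul _ _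
  have h1 : ∀ g c, t (g • c) = ρ g * t c * ρ g⁻¹ := fun g c => by
    obtain ⟨u, hu⟩ := hout g c
    simp only [ht, hu, mul_inv_rev, map_mul, mul_assoc]
    rw [← mul_assoc (ρ u), ((hc u).pow_right _).eq, mul_assoc, ← mul_assoc (ρ u), hinv, one_mul]
  have h2 : ∀ g, ρ g * ∑ c, t c = (∑ c, t c) * ρ g := fun g => by
    rw [Finset.mul_sum, ← Equiv.sum_comp (MulAction.toPerm g) t, Finset.sum_mul]
    refine Finset.sum_congr rfl fun c _ => ?_
    rw [MulAction.toPerm_apply, h1, mul_assoc, ← map_mul, inv_mul_cancel, map_one, mul_one]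
  have h3 : ∑ c, ((ρ x - 1) ^ (m - p) * t c - (ρ x - 1) ^ (m - 1)) = 0 := by
    refine sum_eq_zero_of_orbits (P := P) _ fun c => ?_
    by_cases h : c.out ∈ Subgroup.normalizer ((P : Subgroup G) : Set G)
    · refine Or.inl fun u => ?_
      obtain ⟨v, hv⟩ := hout u c
      have h4 : ((u : G) • c).out ∈ Subgroup.normalizer ((P : Subgroup G) : Set G) :=
        hv ▸ mul_mem (mul_mem (Subgroup.le_normalizer u.2) h) (Subgroup.le_normalizer v.2)
      change _ * t ((u : G) • c) - _ = 0
      rw [ht]; dsimp only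
      generalize ((u : G) • c).out = g at h4
      obtain ⟨k, hk⟩ := hP ⟨g * x * g⁻¹, (Subgroup.mem_normalizer_iff.1 h4 x).1 x.2⟩
      have h5 : ¬ p ∣ k := fun h5 => by
        have h6 : orderOf (x ^ k) = orderOf x := by
          rw [hk, ← Subgroup.orderOf_coe, ← Subgroup.orderOf_coe x]; exact (MulAut.conj g).orderOf_eq x
        rw [orderOf_pow, ho] at h6
        have h7 := (Nat.div_eq_self.1 h6).resolve_left (by positivity)
        exact hp1.ne' (Nat.eq_one_of_dvd_coprimes h7 (dvd_pow_self p (by omega)) h5)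
      have h6 : ρ g * (ρ x - 1) * ρ g⁻¹ = ρ x ^ k - 1 := by
        rw [mul_sub, sub_mul, mul_one, hinv, ← map_mul, ← map_mul, ← map_pow, ← Subgroup.coe_pow, hk]
      have h7 : ∀ j, ρ g * (ρ x - 1) ^ j * ρ g⁻¹ = (ρ x ^ k - 1) ^ j := fun j => by
        induction j with
        | zero => simp only [pow_zero, mul_one, hinv]
        | succ j ih =>
          rw [pow_succ (ρ x ^ k - 1), ← ih, ← h6]
          simp only [mul_assoc]
          rw [← mul_assoc (ρ g⁻¹), ← map_mul, inv_mul_cancel, map_one, one_mul, pow_succ, mul_assoc]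
      rw [h7, pow_mul_conj (F := F) p _ hm hpm.le h5, sub_self]
    refine Or.inr ⟨fun u v huv => ?_, ?_⟩
    · have h4 := hTI (c.out • P) fun h5 => h (Sylow.smul_eq_iff_mem_normalizer.1 h5)
      have h5 : ((v⁻¹ * u : P) : G) • c = c := by
        rw [Subgroup.coe_mul, mul_smul, Subgroup.coe_inv, inv_smul_eq_iff]; exact huv
      obtain ⟨w, hw⟩ := hout (v⁻¹ * u : P) c
      rw [h5] at hw
      have h6 : ((v⁻¹ * u : P) : G) ∈ (P : Subgroup G) ⊓ (c.out • P : Sylow p G) := by
        refine ⟨(v⁻¹ * u).2, ⟨w⁻¹, (w⁻¹).2, ?_⟩⟩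
        change c.out * (w : G)⁻¹ * c.out⁻¹ = _
        rw [mul_inv_eq_iff_eq_mul, mul_inv_eq_iff_eq_mul]; exact hw
      rw [h4, Subgroup.mem_bot, OneMemClass.coe_eq_one, inv_mul_eq_one] at h6
      exact h6.symm
    have h4 : (Finset.range (p ^ n)).image (fun i => x ^ i) = Finset.univ := by
      rw [← ho, image_range_orderOf]; ext y; simpa using hx y
    rw [Finset.sum_sub_distrib, Finset.sum_const, Finset.card_univ, ← Nat.card_eq_fintype_card, hPn,
      ← Nat.cast_smul_eq_nsmul F, (CharP.cast_eq_zero_iff F p _).2 (dvd_pow_self p (by omega)),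
      zero_smul, sub_zero, ← Finset.mul_sum, ← h4, Finset.sum_image
        (by rw [← ho, Finset.coe_range]; exact pow_injOn_Iio_orderOf),
      ← trace_vanish (F := F) p n (ρ x) (ρ (x : G)⁻¹) (t c) (hinv _)
        (by simpa using hinv (x : G)⁻¹) hm (k := m - p) (by omega)]
    congr 1
    refine Finset.sum_congr rfl fun i _ => ?_
    change t (((x ^ i : P) : G) • c) = _
    rw [h1, Subgroup.coe_pow, ← inv_pow, map_pow, map_pow]
  rw [Finset.sum_sub_distrib, Finset.sum_const, Finset.card_univ, ← Nat.card_eq_fintype_card,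
    ← Finset.mul_sum, sub_eq_zero, ← Nat.cast_smul_eq_nsmul F] at h3
  let W : Subrepresentation ρ := ⟨LinearMap.range (∑ c, t c), fun g v ⟨w, hw⟩ =>
    ⟨ρ g w, by rw [← hw, ← Module.End.mul_apply, ← h2, Module.End.mul_apply]⟩⟩
  rcases eq_bot_or_eq_top W with h4 | h4
  · have h5 : ∑ c, t c = 0 := LinearMap.range_eq_bot.1 (congrArg Subrepresentation.toSubmodule h4)
    rw [h5, mul_zero, eq_comm, smul_eq_zero, CharP.cast_eq_zero_iff F p] at h3
    exact h3.elim P.not_dvd_index (hmin _ (by omega))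
  refine hmin (m - p + 1) (by omega) (LinearMap.ext fun v => ?_)
  obtain ⟨w, rfl⟩ : v ∈ LinearMap.range (∑ c, t c) :=
    (congrArg Subrepresentation.toSubmodule h4).ge trivial
  rw [← Module.End.mul_apply, pow_succ', mul_assoc, h3, mul_smul_comm, ← pow_succ',
    Nat.sub_add_cancel (by omega), hm, smul_zero, LinearMap.zero_apply, LinearMap.zero_apply]

end Cfsg.Agent.S4699
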