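import Cfsg.Statements.S4701
import Cfsg.Agent.Small.Brauer3

set_option autoImplicit false
open Cfsg

namespace Cfsg.Agent.S4701

open Cfsg.Agent.Small in

/-- Let G be a finite perfect group and p a prime dividing the order of G with p^3 larger than the order of G. Suppose a Sylow p-subgroup of G is not normal and G has no normal subgroup of order 2. Then p > 3 and G is isomorphic to PSL(2, p), or to SL(2, 2^m) with p = 2^m + 1. -/
theorem result {G : Type*} [Group G] [Finite G] (hperf : commutator G = ⊤) (p : ℕ) [Fact p.Prime] (hdvd : p ∣ Nat.card G) (hbig : Nat.card G < p ^ 3) (P : Sylow p G) (hP : ¬ (P : Subgroup G).Normal) (h2 : ∀ N : Subgroup G, N.Normal → Nat.card N ≠ 2) : (∃ (F : Type) (_ : Field F) (_ : Fintype F), Fintype.card F = p ∧ 3 < p ∧ Nonempty (G ≃* Matrix.ProjectiveSpecialLinearGroup (Fin 2) F)) ∨ (∃ (m : ℕ) (F : Type) (_ : Field F) (_ : Fintype F), Fintype.card F = 2 ^ m ∧ p = 2 ^ m + 1 ∧ 3 < p ∧ Nonempty (G ≃* Matrix.SpecialLinearGroup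 (Fin 2) F)) := by
  have h := bconcl_of_lt_cube hperf hdvd hbig fun e => hP (normal_of_card_sylow_eq_one e P)
  refine (h.of_bot (Subgroup.eq_bot_of_card_eq _ ?_)).sl
  by_contra h1
  have h3 := h2 (Cfsg.pPrimeCore p G) inferInstance
  have h4 : 0 < Nat.card (Cfsg.pPrimeCore p G) := Nat.card_pos
  have h5 := Nat.mul_le_mul_left (Nat.card (G ⧸ Cfsg.pPrimeCore p G))
    (show 3 ≤ Nat.card (Cfsg.pPrimeCore p G) by omega)
  rw [← Subgroup.card_eq_card_quotient_mul_card_subgroup] at h5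
  obtain ⟨h6, h7⟩ := h.card
  obtain ⟨q, rfl⟩ : ∃ q, p = q + 4 := ⟨p - 4, by omega⟩
  simp only [Nat.add_succ_sub_one, show q + 4 - 2 = q + 2 from rfl] at h7
  rcases h7 with h7 | h7 <;> nlinarith [Nat.zero_le (q ^ 3), Nat.zero_le (q ^ 2)]

end Cfsg.Agent.S4701
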