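import Cfsg.Statements.S4705
import Cfsg.Agent.CH.Low2
import Cfsg.Agent.Small.E2

set_option autoImplicit false
open Cfsg

namespace Cfsg.Agent.S4705

open Cfsg.Agent.Small Cfsg.Agent.CH.Low Cfsg.Agent.Char in

/-- Let G be a finite group with centre Z and p > 5 a prime such that a Sylow p-subgroup of G has order p and is not normal. If G has a faithful irreducible character of degree p − 2, then p = 2^a + 1 for some a and G is isomorphic to the direct product of SL(2, 2^a) with Z. -/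
theorem result {G : Type*} [Group G] [Finite G] (p : ℕ) [Fact p.Prime] (hp : 5 < p) (P : Sylow p G) (hP : Nat.card P = p) (hnn : ¬ (P : Subgroup G).Normal) (ζ : G → ℂ) (hζ : Cfsg.IsIrrCharacter G ζ) (hfaith : ∀ g : G, ζ g = ζ 1 → g = 1) (hdeg : Cfsg.charDegree ζ = p - 2) : ∃ (a : ℕ) (F : Type) (_ : Field F) (_ : Fintype F), p = 2 ^ a + 1 ∧ Fintype.card F = 2 ^ a ∧ Nonempty (G ≃* Matrix.SpecialLinearGroup (Fin 2) F × Subgroup.center G) := by
  have hpp : p.Prime := Fact.out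
  obtain ⟨x, K, hx, h⟩ := exists_defOne_of_sylow P hP
  rw [← hx] at hnn
  have := Fintype.ofFinite K
  have hker : charKer ζ = ⊥ := eq_bot_iff.2 fun g hg => hfaith g (hζ.isCharacter.mem_charKer.1 hg)
  have h7 : 7 ≤ p := by
    by_contra h6
    obtain rfl : p = 6 := by omega
    exact absurd hpp (by norm_num)
  obtain ⟨θ, X, φ, δ, ε, a, s, ha, h1 | h1⟩ := h.low_cases (χ := ⟨ζ, hζ⟩) (by simp only; omega)
    fun e => ne_one h (hfaith x e)
  · exfalso
    have h2 := s.degree_φ_of_fixd a h1.1 (ha ▸ h1.2)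
    rw [ha] at h2
    have h3 : Nat.card E[h] ∣ p - 2 + 1 := by
      rw [show p - 2 + 1 = p - 1 by omega]; exact card_EE_dvd _
    have h4 : Nat.card E[h] = 1 :=
      Nat.dvd_one.1 ((Nat.dvd_add_right (hdeg ▸ ⟨_, h2⟩)).1 h3)
    have h5 := s.mem_charCenter_of_card a h1.1 (ha ▸ h1.2) h4
    rw [ha, hζ.charCenter_eq_center hker] at h5
    exact hnn (h.normal_of_forall_mem_Nx fun g => mem_Nx_of_comm
      (Subgroup.mem_center_iff.1 h5 _).symm)
  obtain ⟨hε, hf1, hi, hθ, hd, -⟩ := h1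
  obtain rfl : ζ = (φ a).1 := by rw [ha]
  simp only at hd hf1
  have hK : K ≤ Subgroup.center G := by
    rw [← hζ.charCenter_eq_center hker]; exact le_charCenter s a hε hθ hd
  obtain ⟨ξ, hξ, ξ', hξ', e1, e2, d1, d2⟩ := exists_linear s hK a hfaith h7 hε hf1 hi hθ
    (by omega) (by omega)
  have hξ1 : ξ.1 1 = 1 := by rw [ξ.2.apply_one_eq_charDegree, d1, Nat.cast_one]
  have hres := res_eq s a hε hθ hd
  have hX := fun χ (hχ : χ ∈ X) => apply_X_central s hK hi hθ hχ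
  have hx1 := fun χ (hχ : χ ∈ X) => s.apply_xp_X hχ (j := 1) one_ne_zero
  simp only [xp_one h.ord, hi, hθ] at hx1
  have hE : Nat.card E[h] = 2 := by rw [← h.index_inert_mul θ, hi]; omega
  obtain rfl : K = Subgroup.center G := le_antisymm hK (center_le h hnn)
  obtain ⟨h', hE', hO, hn⟩ := quot_center h hζ.isCharacter hfaith (by omega) hnn
  have hψ := ξ'.2.mul_of_apply_one ξ.2.isCharacter.conj (by simp [hξ1])
  obtain ⟨ψ, hψ1, hψ2⟩ := hψ.exists_quotient (Subgroup.center G) fun g hg => by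
    have h2 := hX ξ hξ ⟨g, hg⟩
    have h3 := hX ξ' hξ' ⟨g, hg⟩
    have h4 := ξ.2.isCharacter.map_mul_of_apply_one hξ1 g g⁻¹
    rw [mul_inv_cancel, hξ1, ξ.2.apply_inv] at h4
    simp only [hξ1, one_mul, Pi.mul_apply, map_one, mul_one] at h2 h3 ⊢
    rw [h3, ← h2, mul_assoc, ← h4, mul_one]
  have hdψ : charDegree ψ = charDegree ξ'.1 := charDegree_eq_of_apply_one (by
    rw [← QuotientGroup.mk_one, hψ2]; simp [hξ1, ξ'.2.apply_one_eq_charDegree])
  have hk := charKer_eq_bot h' hO hψ1.isCharacter (by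
    rw [hψ1.apply_one_eq_charDegree, hψ2, hdψ]
    simp only [Pi.mul_apply, hx1 ξ hξ, hx1 ξ' hξ', e1, e2]
    intro e
    have : ((charDegree ξ'.1 + 1 : ℕ) : ℂ) = 0 := by push_cast at e ⊢; rw [← e]; simp
    exact absurd (Nat.cast_eq_zero.1 this) (by omega))
  obtain ⟨b, F, i1, i2, -, hb, hF, -, ⟨e⟩⟩ := h'.equiv_SL_of_degree (hE' ▸ hE) (by omega) hψ1
    (by omega) hk
  obtain ⟨e'⟩ := equiv_prod (G := G) (Subgroup.disjoint_def.2 fun {g} hg hz => by
    have h2 := hX ξ hξ ⟨g, hz⟩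
    have h3 := congrFun hres ⟨g, hz⟩
    rw [ξ.2.apply_one_eq_one_iff.1 hξ1 g hg, hξ1, one_mul] at h2
    simp only [Pi.smul_apply, ← h2, smul_eq_mul, mul_one] at h3
    exact hfaith g h3) (h'.commutator_eq_top_of_prime hO hn (by rw [hE', hE]; norm_num))
  exact ⟨b, F, i1, i2, by omega, hF, ⟨e'.trans (e.prodCongr (MulEquiv.refl _))⟩⟩

end Cfsg.Agent.S4705
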