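import Cfsg.Statements.S4707
import Cfsg.Agent.Small.PermP
import Cfsg.Agent.S0157
import Cfsg.Agent.S0494

set_option autoImplicit false
open Cfsg

namespace Cfsg.Agent.S4707

open Cfsg.Agent.Small MulAction in

/-- Let p > 3 be a prime and G a primitive permutation group of degree 2p that is not doubly transitive. If a Sylow p-subgroup of G has normalizer of order 2p, then p = 5 and G is isomorphic to the alternating group of degree 5. -/
theorem result {α : Type*} [Fintype α] [DecidableEq α] {p : ℕ} [Fact p.Prime] (hp : 3 < p) (hα : Fintype.card α = 2 * p) (G : Subgroup (Equiv.Perm α)) (hprim : MulAction.IsPreprimitive G α) (hnot2 : ¬ MulAction.IsMultiplyPretransitive G α 2) (P : Sylow p G) (hN : Nat.card (Subgroup.normalizer ((P : Subgroup G) : Set G)) = 2 * p) : p = 5 ∧ Nonempty (G ≃* alternatingGroup (Fin 5)) := by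
  have hα' : Nat.card α = 2 * p := by simpa using hα
  obtain ⟨a⟩ : Nonempty α := (Nat.card_pos_iff.1 (by omega)).1
  have : Nonempty α := ⟨a⟩
  have : Nontrivial α := Finite.one_lt_card_iff_nontrivial.1 (by omega)
  have hO : Cfsg.pPrimeCore p G = ⊥ := pPrimeCore_eq_bot_of_primitive (Ω := α) (by simp [hα])
  have hn : Nat.card (Sylow p G) ≠ 1 := fun e => by
    have := normal_of_card_sylow_eq_one e P
    obtain ⟨x, K, h, -, -⟩ := exists_two_setup P (by omega) hN
    have h1 := h.card_of_sylow P
    have := Perm.isPretransitive_of_normal (α := α) (P : Subgroup G) fun e => by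
      rw [e, Subgroup.card_bot] at h1; omega
    have := Nat.le_of_dvd Nat.card_pos
      (Dvd.intro _ (Perm.card_mul_card_stabilizer (G := (P : Subgroup G)) a))
    omega
  obtain ⟨x, h, hE⟩ := exists_two_bot P (by omega) hN hO hn
  have hs := h.isSimpleGroup_of_prime hO hn (hE ▸ Nat.prime_two)
  obtain ⟨ψ, h1, h2, h4⟩ := (h.exists_degree_of_perm hO hn hE hp hα' (Or.inr rfl)).resolve_right
    fun e => hnot2 ((S0157.result α (by omega)).1 e.2)
  have hS := h.sylow_two_of_degree hE hp h1 h2 h4
  set H := stabilizer G a with hH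
  obtain ⟨T⟩ : Nonempty (Sylow 2 H) := inferInstance
  have key : ∀ Q : Sylow 2 H, ∃ S : Sylow 2 G, (S : Subgroup G).subgroupOf H = Q := fun Q => by
    obtain ⟨S, hS⟩ := (Q.2.map H.subtype).exists_le_sylow
    exact ⟨S, Q.3 (S.2.comap_of_injective _ H.subtype_injective)
      (Subgroup.map_le_iff_le_comap.1 hS)⟩
  obtain ⟨S, hT⟩ := key T
  obtain ⟨hS1, hG, hC⟩ := hS S
  have hab : ∀ S : Sylow 2 G, ∀ u ∈ (S : Subgroup G), ∀ v ∈ (S : Subgroup G), u * v = v * u :=
    fun S u hu v hv => by
      by_cases e : v = 1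
      · simp [e]
      · exact Subgroup.mem_centralizer_singleton_iff.1 (((hS S).2.2 v hv e).ge hu)
  obtain ⟨k, hk⟩ := card_sylow_modEq_of_TI T fun u hu Q hQ huQ => by
    by_contra h5
    obtain ⟨R, hR⟩ := key Q
    have h6 : (u : G) ≠ 1 := fun e => h5 (Subtype.ext e)
    refine hQ (Sylow.ext ?_)
    rw [← hT] at hu
    rw [← hR] at huQ
    rw [← hT, ← hR, ← hC _ hu h6, (hS R).2.2 _ huQ h6]
  obtain ⟨r, hr⟩ : ∃ r, p = 2 * r + 1 := ((Fact.out : p.Prime).odd_of_ne_two (by omega))
  have h5 : Nat.card H = r * (2 * r - 1) := by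
    have := Perm.card_mul_card_stabilizer (G := G) a
    rw [hG, hα', ← hH, hr, Nat.add_sub_cancel] at this
    exact Nat.eq_of_mul_eq_mul_left (show 0 < 2 * (2 * r + 1) by omega) (by rw [this]; ring)
  have h6 : Nat.card T = r := by
    obtain ⟨j, hj⟩ := S.2.exists_card_eq
    have h7 : r = 2 ^ (j - 1) := by
      obtain _ | j := j
      · omega
      · rw [pow_succ] at hj; simp; omega
    rw [T.card_eq_multiplicity, h5, Nat.factorization_mul (by omega) (by omega), Finsupp.add_apply,
      Nat.factorization_eq_zero_of_not_dvd (n := 2 * r - 1) (by omega), add_zero]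
    rw [h7, Nat.prime_two.factorization_pow, Finsupp.single_eq_same]
  have h7 : (T : Subgroup H).index = 2 * r - 1 := by
    have := (T : Subgroup H).card_mul_index
    rw [h6, h5] at this
    exact Nat.eq_of_mul_eq_mul_left (by omega) this
  have h8 := T.card_dvd_index
  rw [hk, h6, h7] at h8
  obtain rfl | hk0 := Nat.eq_zero_or_pos k
  · exfalso
    have hTn := normal_of_card_sylow_eq_one (by simpa using hk) T
    have hco : IsCoatom H := IsPreprimitive.isCoatom_stabilizer_of_isPreprimitive G a
    have h9 : (T : Subgroup H).map H.subtype = (S : Subgroup G) ⊓ H := by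
      rw [← hT, Subgroup.subgroupOf_map_subtype]
    have h10 : Subgroup.normalizer (((S : Subgroup G) ⊓ H : Subgroup G) : Set G) = ⊤ := by
      refine hco.2 _ (lt_of_le_of_ne ?_ fun e => ?_)
      · rw [← Subgroup.normal_subgroupOf_iff_le_normalizer inf_le_right,
          Subgroup.inf_subgroupOf_right, hT]
        exact hTn
      · have : (S : Subgroup G) ≤ H := e ▸ fun s hs => Subgroup.mem_normalizer_fintype
          fun u hu => by rwa [hab S s hs u hu.1, mul_inv_cancel_right]
        have h11 := Nat.card_congr (Subgroup.subgroupOfEquivOfLe this).toEquiv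
        rw [hT] at h11
        omega
    have h11 := Subgroup.card_map_of_injective (K := (T : Subgroup H)) H.subtype_injective
    rw [h9, h6] at h11
    rcases IsSimpleGroup.eq_bot_or_eq_top_of_normal _ (Subgroup.normalizer_eq_top_iff.1 h10) with
      e | e
    · rw [e, Subgroup.card_bot] at h11; omega
    · exact hco.1 (top_le_iff.1 (e ▸ inf_le_right))
  have h9 : r = 2 := by
    obtain ⟨m, hm⟩ := h8
    obtain rfl : k = 1 := by
      by_contra h9
      have : r * 2 ≤ r * k := Nat.mul_le_mul_left _ (by omega)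
      have := Nat.le_of_dvd (by omega) ⟨m, hm⟩
      omega
    obtain _ | _ | m := m
    · omega
    · omega
    · have : 2 * r - 1 < (1 + r * 1) * (m + 1 + 1) := by
        have := Nat.zero_le ((1 + r * 1) * m)
        rw [mul_add, mul_add]; omega
      omega
  subst h9
  exact ⟨hr, S0494.result (by rw [hG, hr])⟩

end Cfsg.Agent.S4707
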