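import Cfsg.Statements.S4708
import Cfsg.Agent.Block.Count
import Cfsg.Agent.BMod.Rank2
import Mathlib.Algebra.Order.Chebyshev

set_option autoImplicit false
open Cfsg

namespace Cfsg.Agent.S4708

open Cfsg.Agent.Block Cfsg.Agent.BMod Cfsg.Agent.Char MonoidAlgebra


/-- Let p be a prime, M a maximal ideal of the algebraic integers containing p, G a finite group and H a normal subgroup. Write λ(X) for the sum of the squares of the degrees of the irreducible characters in the principal p-block of a group X. Then λ(H) ≤ λ(G) ≤ [G : H]·λ(H). -/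
theorem result {G : Type*} [Group G] [Finite G] (p : ℕ) [Fact p.Prime] (M : Ideal Cfsg.AlgInt) (hM : Cfsg.IsPModular p M) (H : Subgroup G) [H.Normal] : (∑ᶠ θ ∈ Cfsg.principalBlock M H, Cfsg.charDegree (θ : H → ℂ) ^ 2) ≤ (∑ᶠ χ ∈ Cfsg.principalBlock M G, Cfsg.charDegree (χ : G → ℂ) ^ 2) ∧ (∑ᶠ χ ∈ Cfsg.principalBlock M G, Cfsg.charDegree (χ : G → ℂ) ^ 2) ≤ H.index * ∑ᶠ θ ∈ Cfsg.principalBlock M H, Cfsg.charDegree (θ : H → ℂ) ^ 2 := by
  classical
  have : PMod p M := ⟨hM⟩
  have := Fintype.ofFinite H
  have h0 := isPBlock_principalBlock (M := M) (G := G)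
  have h0' := isPBlock_principalBlock (M := M) (G := H)
  have hc : Covers H (principalBlock M G) (principalBlock M H) :=
    ⟨_, irrOne_mem_principalBlock, _, irrOne_mem_principalBlock,
      liesOver_iff.2 (ne_of_eq_of_ne (irrOne H).2.classInner_self one_ne_zero)⟩
  constructor
  · simp only [finsum_mem_irr]
    have h1 : ∀ χ : IrrCharacter G, ∑ θ : IrrCharacter H, (if LiesOver H χ θ then
        charDegree (θ : H → ℂ) ^ 2 else 0) ≤ charDegree (χ : G → ℂ) ^ 2 := fun χ => by
      obtain ⟨m, hm, h⟩ := (χ.2.isCharacter.restrict H).exists_nat_coeff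
      have h2 : charDegree (χ : G → ℂ) = ∑ θ : IrrCharacter H, m θ * charDegree (θ : H → ℂ) :=
        deg_eq_of_eq (by simpa [deg_cast_irr] using congrFun h 1)
      rw [h2]
      refine le_trans (Finset.sum_le_sum fun θ _ => ?_)
        (Finset.sum_sq_le_sq_sum_of_nonneg fun _ _ => Nat.zero_le _)
      split_ifs with h3
      · rw [liesOver_iff, hm, Nat.cast_ne_zero] at h3
        exact Nat.pow_le_pow_left (Nat.le_mul_of_pos_left _ (Nat.pos_of_ne_zero h3)) 2
      · exact Nat.zero_le _
    calc _ ≤ ∑ θ : IrrCharacter H, ∑ χ : IrrCharacter G, if χ ∈ principalBlock M G then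
          (if LiesOver H χ θ then charDegree (θ : H → ℂ) ^ 2 else 0) else 0 := by
          refine Finset.sum_le_sum fun θ _ => ?_
          split_ifs with h
          · obtain ⟨χ, h2, h3⟩ := Covers.exists_liesOver hc h0 h0' h
            exact le_trans (by simp [h2, h3]) (Finset.single_le_sum (fun _ _ => Nat.zero_le _)
              (Finset.mem_univ χ))
          · exact Nat.zero_le _
      _ ≤ _ := by
          rw [Finset.sum_comm]
          refine Finset.sum_le_sum fun χ _ => ?_
          split_ifs
          · exact h1 χ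
          · simp
  · have h1 : ∑ᶠ χ ∈ overSet H (principalBlock M H), charDegree (χ : G → ℂ) ^ 2 =
        H.index * ∑ᶠ θ ∈ principalBlock M H, charDegree (θ : H → ℂ) ^ 2 := by
      apply Nat.cast_injective (R := ℂ)
      rw [Nat.cast_mul, ← col_one_one, ← col_one_one, col_one_apply, col_one_apply, ← coeff_idem,
        isInv_principal.idem_overSet, ← mul_assoc, ← Nat.cast_mul, H.index_mul_card, idemS, inv_one,
        inv_one, ← H.coe_one, coeff_inc_coe, coeff_idem]
    rw [← h1, finsum_mem_irr, finsum_mem_irr]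
    refine Finset.sum_le_sum fun χ _ => ?_
    by_cases h : χ ∈ principalBlock M G
    · rw [if_pos h, if_pos (hc.subset_overSet h0 h0'.isBlockUnion h)]
    · simp [h]

end Cfsg.Agent.S4708
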