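import Cfsg.Statements.S4711
import Cfsg.Agent.Block.Galois
import Cfsg.Agent.Block.Quot
import Cfsg.Agent.PLocal.PSolv
import Cfsg.Agent.CharDeep.Clifford

set_option autoImplicit false
open Cfsg

namespace Cfsg.Agent.S4711

open Cfsg.Agent.Block Cfsg.Agent.BMod Cfsg.Agent.Char MonoidAlgebra


/-- Let p be a prime, M a maximal ideal of the algebraic integers containing p, G a finite group, P a Sylow p-subgroup and N = N_G(P). Then G has p-length 1 (G = O_{p',p,p'}(G)) if and only if every irreducible character in the principal p-block of G restricts to an irreducible character of N. -/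
theorem result {G : Type*} [Group G] [Finite G] (p : ℕ) [Fact p.Prime] (M : Ideal Cfsg.AlgInt) (hM : Cfsg.IsPModular p M) (P : Sylow p G) : Cfsg.PLengthLE p 1 G ↔ ∀ χ ∈ Cfsg.principalBlock M G, Cfsg.IsIrrCharacter ↥(Subgroup.normalizer ((P : Subgroup G) : Set G)) (fun n : ↥(Subgroup.normalizer ((P : Subgroup G) : Set G)) => (χ : G → ℂ) n) := by
  classical
  haveI : PMod p M := ⟨hM⟩
  have := Fintype.ofFinite G
  have hp : p.Prime := Fact.out
  rw [PLocal.pLengthLE_succ_iff, PLocal.pLengthLE_zero_iff, ← Subgroup.index_eq_card]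
  have hO : ¬ p ∣ Nat.card (pPrimeCore p G) := by
    rw [← kerOf_principalBlock (M := M)]
    exact not_dvd_card_kerOf isPBlock_principalBlock.isBlockUnion ⟨_, irrOne_mem_principalBlock⟩
  constructor
  · intro h χ hχ
    have h1 : (P : Subgroup G) ≤ pPrimePCore p G := fun x hx => by
      obtain ⟨k, hk⟩ := P.isPGroup' ⟨x, hx⟩
      have h2 : (x : G ⧸ pPrimePCore p G) ^ p ^ k = 1 := by
        rw [← QuotientGroup.mk_pow, show x ^ p ^ k = 1 from congrArg Subtype.val hk]; rfl
      rw [← QuotientGroup.eq_one_iff, ← orderOf_eq_one_iff]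
      exact Nat.eq_one_of_dvd_coprimes (h.symm.pow_left k) (orderOf_dvd_of_pow_eq_one h2)
        (orderOf_dvd_natCard _)
    have h2 : pPrimePCore p G ≤ (P : Subgroup G) ⊔ pPrimeCore p G := by
      have := Subgroup.comap_map_eq (QuotientGroup.mk' (pPrimeCore p G)) P
      rw [QuotientGroup.ker_mk'] at this
      rw [← this]
      exact Subgroup.comap_mono ((Solv.isPGroup_pCore p _).le_sylow_of_normal
        (P.mapSurjective (QuotientGroup.mk'_surjective _)))
    have h3 : Subgroup.normalizer ((P : Subgroup G) : Set G) ⊔ pPrimeCore p G = ⊤ := by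
      rw [eq_top_iff, ← P.normalizer_sup_eq_top' h1]
      exact sup_le le_sup_left (h2.trans (sup_le_sup_right Subgroup.le_normalizer _))
    obtain ⟨φ, h4, h5⟩ := χ.2.exists_quotient _ (apply_eq_of_mem_principal hO hχ)
    simp only [← h5]
    refine h4.comp_of_surjective ((QuotientGroup.mk' _).comp (Subgroup.subtype _)) fun g => ?_
    induction g using QuotientGroup.induction_on with | H g => ?_
    have h6 : g ∈ (⊤ : Subgroup G) := trivial
    rw [← h3, ← SetLike.mem_coe, Subgroup.mul_normal] at h6
    obtain ⟨m, hm, n, hn, rfl⟩ := h6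
    exact ⟨⟨m, hm⟩, by simp [(QuotientGroup.eq_one_iff _).2 hn]⟩
  · intro h
    have h1 : ∀ χ ∈ principalBlock M G, ∑ u : (P : Subgroup G), χ.1 (u : G)⁻¹ ≠ 0 →
        ∀ y ∈ Subgroup.normalClosure ((P : Subgroup G) : Set G), χ.1 y = χ.1 1 := by
      intro χ hχ h0
      have h2 := CharDeep.res_eq_smul_of_invariant ((P : Subgroup G).subgroupOf _) (h χ hχ)
        isIrrCharacter_one (fun _ => rfl) (by
          rw [classInner_one_right]
          refine mul_ne_zero (inv_ne_zero natCard_cast_ne_zero) ?_
          rwa [← Equiv.sum_comp ((Equiv.inv _).trans (Subgroup.subgroupOfEquivOfLe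
            Subgroup.le_normalizer).symm.toEquiv)])
      haveI := χ.2.isClassFunction.normal_charKer
      intro y hy
      refine χ.2.isCharacter.mem_charKer.1 (Subgroup.normalClosure_le_normal (fun u hu => ?_) hy)
      exact χ.2.isCharacter.mem_charKer.2
        ((congrFun h2 ⟨⟨u, Subgroup.le_normalizer hu⟩, hu⟩).trans (congrFun h2 1).symm)
    have h2 : ∀ y : G, ¬ p ∣ orderOf y → col (principalBlock M G) 1 y =
        ∑ χ : IrrCharacter G, if χ ∈ principalBlock M G then χ.1 y * ∑ u : (P : Subgroup G), χ.1 (u : G)⁻¹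
          else 0 := fun y hy => by
      refine (Finset.sum_eq_single (s := Finset.univ)
        (f := fun u : (P : Subgroup G) => col (principalBlock M G) (u : G) y) 1
        (fun u _ hu => col_eq_zero isPBlock_principalBlock.isBlockUnion
          (isPPart_self (orderOf_eq_pow_of_mem P.isPGroup' u.2)) (isPPart_one_iff.2 hy)
          (by simpa using hu)) (by simp)).symm.trans ?_
      simp only [col_apply]
      rw [Finset.sum_comm]
      refine Finset.sum_congr rfl fun χ _ => ?_
      split_ifs <;> simp [Finset.mul_sum]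
    have h3 : IsCharacter G (col (principalBlock M G) 1) :=
      (isClassFunction_col _ _).isCharacter_of_forall_nat fun χ hχ => by
        rw [classInner_col _ _ ⟨χ, hχ⟩]
        split_ifs
        · simpa using hχ.isCharacter.exists_nat_apply_one
        · exact ⟨0, by simp⟩
    have h4 : ∀ y ∈ Subgroup.normalClosure ((P : Subgroup G) : Set G), ¬ p ∣ orderOf y →
        y ∈ pPrimeCore p G := fun y hy hy' => by
      rw [← kerOf_principalBlock (M := M), mem_kerOf]
      refine fun χ hχ => h3.apply_eq_of_classInner_ne_zero χ.2 (by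
        simpa [classInner_col, hχ] using χ.2.apply_one_ne_zero) ?_
      rw [h2 y hy', h2 1 (by simpa using hp.ne_one)]
      refine Finset.sum_congr rfl fun ψ _ => ?_
      split_ifs with h5
      · by_cases h6 : ∑ u : (P : Subgroup G), ψ.1 (u : G)⁻¹ = 0
        · simp [h6]
        · rw [h1 ψ h5 h6 y hy]
      · rfl
    have h5 : (Subgroup.normalClosure ((P : Subgroup G) : Set G)).map (QuotientGroup.mk' _) ≤
        pCore p (G ⧸ pPrimeCore p G) := by
      haveI := (Subgroup.normalClosure_normal (s := ((P : Subgroup G) : Set G))).map _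
        (QuotientGroup.mk'_surjective (pPrimeCore p G))
      refine Solv.le_pCore ?_
      rintro ⟨_, y, hy, rfl⟩
      obtain ⟨x, hx⟩ := exists_isPPart p y
      obtain ⟨k, hk⟩ := hx.orderOf_eq
      have h6 := h4 _ (mul_mem (inv_mem (hx.mem hy)) hy) hx.not_dvd
      refine ⟨k, Subtype.ext ?_⟩
      simp [← QuotientGroup.eq.2 h6, ← QuotientGroup.mk_pow, ← hk]
    exact (hp.coprime_iff_not_dvd.2 fun h6 => P.not_dvd_index (h6.trans (Subgroup.index_dvd_of_le
      (Subgroup.le_normalClosure.trans (Subgroup.map_le_iff_le_comap.1 h5))))).symm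

end Cfsg.Agent.S4711
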