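import Cfsg.Statements.S4712
import Cfsg.Agent.Block.Count
import Cfsg.Agent.Block.Lift
import Cfsg.Agent.BMod.IBr
import Cfsg.Agent.BMod.Sub
import Mathlib.RingTheory.ZMod.UnitsCyclic

set_option autoImplicit false
open Cfsg

namespace Cfsg.Agent.S4712

open Cfsg.Agent.Block Cfsg.Agent.BMod Cfsg.Agent.Char MonoidAlgebra

open scoped Classical ComplexConjugate

variable {p : ℕ} [hp : Fact p.Prime] {M : Ideal AlgInt} [PMod p M] {G : Type*} [Group G]
  [Fintype G] {A : Set (IrrCharacter G)}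

theorem trace_nat (hA : IsBlockUnion M A) (α : G ≃* G) : ∃ n : ℕ,
    ∑ ξ : IrrCharacter G, (if ξ ∈ A then ctr p ξ.1 (fun g => ξ.1 (α g)) else 0) = n := by
  haveI := finite_pt (F M) (F M)[G]
  haveI := Fintype.ofFinite (Pt (F M)[G])
  choose θ h1 h2 h3 using fun γ : PtB (eB M A) => exists_gen_dual hA γ.1.out.2 γ.2
  have h4 : ∀ ξ ∈ A, rho p ξ.1 = rho p (∑ γ, ev ξ.1 (lfi γ.1.out.1) • θ γ) := fun ξ hξ => by
    refine rho_eq_of_pt hA (blockPart_irr_of_mem hξ) (by
      simp only [blockPart_sum, blockPart_smul, h2]) fun i hi he => ?_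
    have h5 := eqv_out (⟨i, hi⟩ : {i : (F M)[G] // IsLoc i})
    rw [ev_sum_left, Finset.sum_eq_single ⟨⟦⟨i, hi⟩⟧, h5.symm.central_mul
      (Quotient.out (⟦⟨i, hi⟩⟧ : Pt (F M)[G])).2.idem
      (fun x => center_comm (eB_mem_center A) x) he⟩ (fun γ _ hγ => by
        rw [ev_smul_left, h3 γ i hi, if_neg, mul_zero]
        exact fun h => hγ (Subtype.ext ((eqv_out_iff' hi).1 h.symm))) (by simp),
      ev_smul_left, h3 _ i hi, if_pos h5, mul_one]
    exact ev_lfi_eqv ξ.2.isClassFunction hi.idem (Quotient.out (⟦⟨i, hi⟩⟧ : Pt (F M)[G])).2.idem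
      h5.symm
  have h5 : ∀ γ : PtB (eB M A), ∃ n : ℕ, ∑ ξ : IrrCharacter G, (if ξ ∈ A then
      ev ξ.1 (lfi γ.1.out.1) * ctr p (θ γ) (fun g => ξ.1 (α g)) else 0) = n := fun γ => by
    have hi := γ.1.out.2
    obtain ⟨h6, h7, h8⟩ := lfi_spec hi.idem
    have h9 : (fun g => pc (lfi γ.1.out.1) (α g)) = ∑ ξ : IrrCharacter G,
        (if ξ ∈ A then ev ξ.1 (lfi γ.1.out.1) else 0) • fun g => ξ.1 (α g) := by
      ext g
      rw [← blockPart_pc_lfi hA hi.idem γ.2, blockPart_apply_sum, Finset.sum_apply]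
      refine Finset.sum_congr rfl fun ξ _ => ?_
      rw [classInner_pc (irr_gen ξ)]
      split_ifs <;> simp
    have h11 : IsLoc (mapA (α.symm : G →* G) γ.1.out.1) := by
      convert hi.map_equiv (domCongr (F M) (F M) α.symm).toRingEquiv
      generalize γ.1.out.1 = z
      induction z using MonoidAlgebra.induction_linear with
      | zero => simp
      | add a b ha hb => simp only [map_add, ha, hb]
      | single g c => simp
    have h10 : ctr p (θ γ) (fun g => pc (lfi γ.1.out.1) (α g)) =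
        if Eqv γ.1.out.1 (mapA (α.symm : G →* G) γ.1.out.1) then 1 else 0 := by
      rw [ctr, classInner_rho, rho_eq_self fun g hg => pc_eq_zero h6 h7 (by simpa using hg),
        ← conj_classInner, ← classInner_comp_mulEquiv _ _ α.symm]
      simp only [MulEquiv.apply_symm_apply]
      erw [classInner_pc ((h1 γ).comp (α.symm : G →* G))]
      rw [← ev_mapA, ← ev_lfi_redA (M := M)
        (h1 γ).isClassFunction (mapA_mem_OG _ h6) (h7.map _), redA_mapA _ h6, h8,
        h3 γ _ h11]
      split_ifs <;> simp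
    refine ⟨if Eqv γ.1.out.1 (mapA (α.symm : G →* G) γ.1.out.1) then 1 else 0, ?_⟩
    rw [Nat.cast_ite, Nat.cast_one, Nat.cast_zero, ← h10, h9, ctr_sum_right]
    refine Finset.sum_congr rfl fun ξ _ => ?_
    obtain ⟨m, hm⟩ := exists_nat_ev_lfi (M := M) ξ.2.isCharacter hi.idem
    rw [ctr_smul_right, hm]
    split_ifs <;> simp
  choose n hn using h5
  refine ⟨∑ γ, n γ, ?_⟩
  simp only [Nat.cast_sum, ← hn]
  rw [Finset.sum_comm]
  refine Finset.sum_congr rfl fun ξ _ => ?_
  split_ifs with hξ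
  · rw [← ctr_rho_left, h4 ξ hξ, ctr_rho_left, ctr_sum_left]
    simp only [ctr_smul_left]
  · simp

theorem sum_ctr {H : Type*} [Group H] [Fintype H] (A : Set (IrrCharacter G)) (f g : H → G) :
    ∑ ξ : IrrCharacter G, (if ξ ∈ A then ctr p (fun y => ξ.1 (f y)) (fun y => ξ.1 (g y)) else 0) =
      (Nat.card H : ℂ)⁻¹ * ∑ y, if p ∣ orderOf y then 0 else col A (g y) (f y) := by
  have : ∀ y : H, (if p ∣ orderOf y then 0 else col A (g y) (f y)) = ∑ ξ : IrrCharacter G,
      if ξ ∈ A then rho p (fun y => ξ.1 (f y)) y * conj (ξ.1 (g y)) else 0 := fun y => by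
    simp only [rho_apply, col_apply, ← IsIrrCharacter.apply_inv (Subtype.prop _)]
    split_ifs <;> simp
  simp only [this]
  rw [Finset.sum_comm, Finset.mul_sum]
  refine Finset.sum_congr rfl fun ξ _ => ?_
  split_ifs
  · rfl
  · simp

theorem sec_nat (hA : IsBlockUnion M A) {k : ℕ} (hk : k.Coprime (Nat.card G))
    (hk' : ∀ y : G, ¬ p ∣ orderOf y → y ^ k = y) {x : G} (hx : ∃ j, orderOf x = p ^ j) :
    ∃ n : ℕ, ∑ χ : IrrCharacter G, (if χ ∈ A then ctr p (sh (selfC x) χ.1)
      (sh (selfC x) fun g => χ.1 (g ^ k)) else 0) = n := by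
  have h1 := sum_ctr (p := p) A (fun y : Subgroup.centralizer {x} => x * y) fun y => (x * y) ^ k
  have hc : ∀ y : Subgroup.centralizer {x}, Commute x y := fun y =>
    (Subgroup.mem_centralizer_singleton_iff.1 y.2).symm
  have ho : orderOf (x ^ k) = orderOf x :=
    (hk.symm.coprime_dvd_left (orderOf_dvd_natCard x)).orderOf_pow
  have h2 : ∀ y : Subgroup.centralizer {x}, ¬ p ∣ orderOf y → (x * y) ^ k = x ^ k * y :=
    fun y hy => by rw [(hc y).mul_pow, hk' y (by simpa using hy)]
  by_cases h : IsConj (x ^ k) x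
  · obtain ⟨t, ht⟩ := isConj_iff.1 h
    have h3 : t ∈ Subgroup.normalizer ((Subgroup.centralizer {x} : Subgroup G) : Set G) := by
      rw [mem_normalizer_iff_sc, ← centralizer_singleton_conj, ← centralizer_zpowers,
        ← centralizer_zpowers]
      congr 2
      refine (Subgroup.eq_of_le_of_card_ge (Subgroup.zpowers_le.2 ?_) ?_).symm
      · nth_rewrite 2 [← ht]
        rw [← conj_pow]
        exact Subgroup.pow_mem _ (Subgroup.mem_zpowers _) _
      · rw [Nat.card_zpowers, Nat.card_zpowers, orderOf_conj']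
    obtain ⟨n, hn⟩ := trace_nat (isBlockUnion_corr (M := M) (A := A))
      ((Subgroup.centralizer {x}).normalizerMonoidHom ⟨t, h3⟩)
    refine ⟨n, h1.trans ?_⟩
    rw [← hn, sum_ctr (p := p) _ (fun y => y)]
    congr 1
    refine Finset.sum_congr rfl fun y _ => ?_
    split_ifs with hy
    · rfl
    set y' := (Subgroup.centralizer {x}).normalizerMonoidHom ⟨t, h3⟩ y
    have h4 : (y' : G) = t * y * t⁻¹ := rfl
    have hy' : ¬ p ∣ orderOf y' := by simpa [y'] using hy
    rw [← col_central_mul _ (self_mem_center_centralizer x), ← col_section hA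
      ((isSub_centralizer hx).isPPart hy') ((isSub_centralizer hx).isPPart hy), h2 y hy,
      col_apply, col_apply]
    refine Finset.sum_congr rfl fun χ _ => ?_
    rw [← χ.2.isClassFunction (x ^ k * y)⁻¹ t, show t * (x ^ k * y)⁻¹ * t⁻¹ =
      (t * x ^ k * t⁻¹ * (t * y * t⁻¹))⁻¹ by group, ht]
    rfl
  · refine ⟨0, h1.trans ?_⟩
    rw [Finset.sum_eq_zero, mul_zero, Nat.cast_zero]
    intro y _
    split_ifs with hy
    · rfl
    rw [h2 y hy]
    exact col_eq_zero hA (isPPart_mul (ho ▸ hx) (by simpa using hy) ((hc y).pow_left k))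
      (isPPart_mul hx (by simpa using hy) (hc y)) h

theorem rank_le (hA : IsBlockUnion M A) {k : ℕ} (hk : k.Coprime (Nat.card G))
    (hk' : ∀ y : G, ¬ p ∣ orderOf y → y ^ k = y) :
    blockRank p A ≤ Nat.card {χ | χ ∈ A ∧ powIrr k hk χ = χ} := by
  obtain ⟨X, hX, hX'⟩ := exists_reps (p := p) (G := G)
  obtain ⟨o, ⟨h1, h2⟩, -⟩ := hX' 1 ⟨0, by simp⟩
  obtain rfl := isConj_one_right.1 h2
  choose! n hn using fun x (hx : x ∈ X) => sec_nat hA hk hk' (hX x hx)
  have h3 : (Nat.card {χ | χ ∈ A ∧ powIrr k hk χ = χ} : ℂ) = ∑ x ∈ X, n x := by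
    rw [Nat.cast_sum, ← Finset.sum_congr rfl hn, Finset.sum_comm, card_eq_filter,
      Finset.card_filter, Nat.cast_sum]
    refine Finset.sum_congr rfl fun χ _ => ?_
    by_cases hχ : χ ∈ A
    · have := congrArg (classInner · (powIrr k hk χ).1) (eq_sum_EE hX hX' χ.2.isClassFunction)
      simp only [classInner_sum_left, classInner_EE _ (powIrr k hk χ).2.isClassFunction,
        classInner_irr] at this
      simp only [hχ, if_true, Set.mem_ofPred_eq, true_and]
      refine Eq.trans ?_ this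
      simp [eq_comm]
    · simp [hχ]
  have h4 : (n 1 : ℂ) = blockRank p A := by
    rw [← hn 1 h1, blockRank_eq_sum hA]
    refine Finset.sum_congr rfl fun χ _ => ?_
    split_ifs
    · have : Function.Surjective (Subgroup.centralizer ({1} : Set G)).subtype := fun g =>
        ⟨⟨g, Subgroup.mem_centralizer_singleton_iff.2 (by simp)⟩, rfl⟩
      rw [ctr_eq_inner, ctr_eq_inner, ← classInner_comp_of_surjective _ _ _ this]
      refine congrArg₂ _ (funext fun y => ?_) (funext fun y => ?_) <;>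
        simp only [rho_apply, Subgroup.subtype_apply, Subgroup.orderOf_coe] <;> split_ifs with hy
      · rfl
      · simp
      · rfl
      · simp [hk' y (by simpa using hy)]
    · rfl
  rw [Nat.cast_inj.1 h3, ← Nat.cast_inj.1 h4]
  exact Finset.single_le_sum (fun _ _ => Nat.zero_le _) h1

/-- Let p be an odd prime, M a maximal ideal of the algebraic integers containing p, G a finite group of order n with p-part p^a, and B a p-block of G. Call an irreducible character χ p-rational when χ(g^k) = χ(g) for every g and every k coprime to n with k ≡ 1 modulo n/p^a (χ is fixed by the Galois automorphisms fixing the roots of unity of order prime to p). Then the number of p-rational irreducible characters in B is at least the p-regular rank of B (the number of irreducible Brauer characters in B). -/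
theorem result {G : Type*} [Group G] [Finite G] (p : ℕ) [Fact p.Prime] (hodd : p ≠ 2) (M : Ideal Cfsg.AlgInt) (hM : Cfsg.IsPModular p M) (B : Set (Cfsg.IrrCharacter G)) (hB : Cfsg.IsPBlock M B) : Cfsg.blockRank p B ≤ Nat.card {χ : Cfsg.IrrCharacter G // χ ∈ B ∧ ∀ k : ℕ, Nat.Coprime k (Nat.card G) → k ≡ 1 [MOD Nat.card G / p ^ (Nat.card G).factorization p] → ∀ g : G, (χ : G → ℂ) (g ^ k) = (χ : G → ℂ) g} := by
  haveI : PMod p M := ⟨hM⟩
  have := Fintype.ofFinite G
  have hp : p.Prime := Fact.out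
  set a := (Nat.card G).factorization p
  set n := Nat.card G / p ^ a
  have hG0 : Nat.card G ≠ 0 := Nat.card_pos.ne'
  have hGn : p ^ a * n = Nat.card G := Nat.ordProj_mul_ordCompl_eq_self _ _
  have hc : (p ^ a).Coprime n := (Nat.coprime_ordCompl hp hG0).pow_left a
  haveI : NeZero (p ^ a) := ⟨pow_ne_zero _ hp.ne_zero⟩
  obtain ⟨u, hu⟩ := (ZMod.isCyclic_units_of_prime_pow p hp hodd a).exists_monoid_generator
  obtain ⟨k, h1, h2⟩ := Nat.chineseRemainder hc (u : ZMod (p ^ a)).val 1
  have hk : k.Coprime (Nat.card G) := hGn ▸ Nat.Coprime.mul_right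
    (h1.gcd_eq.trans (ZMod.val_coe_unit_coprime u)) (h2.gcd_eq.trans (by simp))
  refine (rank_le (IsPBlock.isBlockUnion hB) hk fun y hy => ?_).trans (Nat.card_le_card_of_injective
    (fun χ => ⟨χ.1, χ.2.1, fun l h3 h4 g => ?_⟩) fun _ _ h => Subtype.ext (congrArg (·.1) h))
  · exact (pow_eq_pow_iff_modEq.2 (h2.of_dvd (((hp.coprime_iff_not_dvd.2 hy).symm.pow_right
      a).dvd_of_dvd_mul_left (hGn ▸ orderOf_dvd_natCard y)))).trans (pow_one y)
  · obtain ⟨j, hj⟩ := hu (ZMod.unitOfCoprime l (h3.coprime_dvd_right (Dvd.intro _ hGn)))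
    have h5 : l ≡ k ^ j [MOD Nat.card G] := by
      rw [← hGn]
      refine (Nat.modEq_and_modEq_iff_modEq_mul hc).1 ⟨?_, h4.trans (by simpa using (h2.pow j).symm)⟩
      rw [← ZMod.natCast_eq_natCast_iff, Nat.cast_pow, (ZMod.natCast_eq_natCast_iff _ _ _).2 h1,
        ZMod.natCast_zmod_val]
      exact (congrArg Units.val hj).symm.trans (Units.val_pow_eq_pow_val _ _)
    rw [pow_eq_pow_iff_modEq.2 (h5.of_dvd (orderOf_dvd_natCard g))]
    clear h5 hj
    induction j with
    | zero => simp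
    | succ j ih => rw [pow_succ, pow_mul, (powIrr_eq_iff hk).1 χ.2.2, ih]

end Cfsg.Agent.S4712
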