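import Cfsg.Statements.S4714
import Cfsg.Agent.BMod.Central
-- import your own Cfsg.Agent.* helpers here

set_option autoImplicit false
open Cfsg

namespace Cfsg.Agent.S4714

open Cfsg.Agent.BMod Cfsg.Agent.Block Cfsg.Agent.Transfer Cfsg.Agent.Char Cfsg.Agent.CharDeep

/-- Let p be a prime, M a maximal ideal of the algebraic integers containing p, D a p-subgroup of the finite group G with G = D·C_G(D), and B a p-block with defect group D. Let χ be a member of B having D in its kernel (there is exactly one, the canonical character of B). Then the irreducible characters in B are exactly the functions θ on G for which there is an irreducible character ζ of D such that θ(yx) = ζ(y)χ(x) whenever y ∈ D, x has order prime to p and x commutes with y, and θ(z) = 0 whenever the p-part of z does not lie in D. -/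
theorem result {G : Type*} [Group G] [Finite G] (p : ℕ) [Fact p.Prime] (M : Ideal Cfsg.AlgInt) (hM : Cfsg.IsPModular p M) (D : Subgroup G) (hD : IsPGroup p D) (hG : D ⊔ Subgroup.centralizer (D : Set G) = ⊤) (B : Set (Cfsg.IrrCharacter G)) (hB : Cfsg.IsPBlock M B) (hBD : Cfsg.IsDefectGroup p M B D) (χ : Cfsg.IrrCharacter G) (hχ : χ ∈ B) (hχD : ∀ y ∈ D, (χ : G → ℂ) y = (χ : G → ℂ) 1) : (∀ θ : Cfsg.IrrCharacter G, θ ∈ B ↔ ∃ ζ : Cfsg.IrrCharacter D, (∀ (y : D) (x : G), ¬ p ∣ orderOf x → Commute (y : G) x → (θ : G → ℂ) ((y : G) * x) = (ζ : D → ℂ) y * (χ : G → ℂ) x) ∧ (∀ z : G, (∀ y : G, Cfsg.IsPPart p z y → y ∉ D) → (θ : G → ℂ) z = 0)) ∧ ∀ ζ : Cfsg.IrrCharacter D, ∃ θ ∈ B, (∀ (y : D) (x : G), ¬ p ∣ orderOf x → Commute (y : G) x → (θ : G → ℂ) ((y : G) * x) = (ζ : D → ℂ) y * (χ : G → ℂ) x) ∧ (∀ z : G, (∀ y : G, Cfsg.IsPPart p z y → y ∉ D) → (θ : G → ℂ) z = 0) := by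
  haveI : PMod p M := ⟨hM⟩
  have := normal_of_sup_centralizer hG
  have hv : ∀ θ ∈ B, ∀ z : G, (∀ y : G, IsPPart p z y → y ∉ D) → (θ : G → ℂ) z = 0 :=
    fun θ hθ z hz => by
      obtain ⟨y, hy⟩ := exists_isPPart p z
      exact vanish_of_defect hB hBD hθ z y hy (hz y hy)
  have key : ∀ ζ : IrrCharacter D, ∃ θ ∈ B, (∀ (y : D) (x : G), ¬ p ∣ orderOf x →
      Commute (y : G) x → (θ : G → ℂ) ((y : G) * x) = (ζ : D → ℂ) y * (χ : G → ℂ) x) ∧
      (∀ z : G, (∀ y : G, IsPPart p z y → y ∉ D) → (θ : G → ℂ) z = 0) := fun ζ => by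
    obtain ⟨θ, hθ, hζ⟩ := exists_liesOver_of_pgroup hD hB ζ
    exact ⟨θ, hθ, fun y x hx _ => formula_of_liesOver hG hB hBD hχ hχD hθ hζ y hx, hv θ hθ⟩
  refine ⟨fun θ => ⟨fun hθ => ?_, fun ⟨ζ, h1, h2⟩ => ?_⟩, key⟩
  · obtain ⟨ζ, hζ⟩ := exists_liesOver_under (N := D) θ
    exact ⟨ζ, fun y x hx _ => formula_of_liesOver hG hB hBD hχ hχD hθ hζ y hx, hv θ hθ⟩
  · obtain ⟨θ', hθ', h3, h4⟩ := key ζ
    have : θ = θ' := Subtype.ext (eq_of_formula (p := p) (D := D)
      (fun g y hy hyD => h2 g fun y' hy' => IsPPart.unique hy hy' ▸ hyD)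
      (fun g y hy hyD => h4 g fun y' hy' => IsPPart.unique hy hy' ▸ hyD)
      fun u x hx hc => by rw [h1 u x hx hc, h3 u x hx hc])
    exact this ▸ hθ'

end Cfsg.Agent.S4714
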