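import Cfsg.Statements.S4715
import Cfsg.Agent.BMod.SubF
-- import your own Cfsg.Agent.* helpers here

set_option autoImplicit false
open Cfsg

namespace Cfsg.Agent.S4715

open Cfsg.Agent.BMod Cfsg.Agent.Block Cfsg.Agent.Transfer Cfsg.Agent.Char Cfsg.Agent.CharDeep

/-- Let p be a prime, M a maximal ideal of the algebraic integers containing p, B a p-block of the finite group G with defect group D of order p^d, H = D·C_G(D), b a block of H inducing B, T the stabilizer of b in N_G(D) and e = [T : H] the inertial index of B; let n be the integer with p^n ≤ e < p^(n+1) and p^c the order of the centre of D. Then every irreducible character in B has height h with h + c ≤ n + d. -/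
theorem result {G : Type*} [Group G] [Finite G] (p : ℕ) [Fact p.Prime] (M : Ideal Cfsg.AlgInt) (hM : Cfsg.IsPModular p M) (B : Set (Cfsg.IrrCharacter G)) (hB : Cfsg.IsPBlock M B) (D : Subgroup G) (hBD : Cfsg.IsDefectGroup p M B D) (d : ℕ) (hDd : Nat.card D = p ^ d) (H : Subgroup G) (hH : H = D ⊔ Subgroup.centralizer (D : Set G)) (b : Set (Cfsg.IrrCharacter H)) (hind : Cfsg.IsInducedBlock M H b B) (T : Subgroup G) (hT : ∀ g : G, g ∈ T ↔ (g ∈ Subgroup.normalizer (D : Set G) ∧ ∀ θ ∈ b, ∀ θ' : Cfsg.IrrCharacter H, (∀ h h' : H, (h' : G) = g * h * g⁻¹ → (θ' : H → ℂ) h' = (θ : H → ℂ) h) → θ' ∈ b)) (e : ℕ) (he : H.relIndex T = e) (n : ℕ) (hn : p ^ n ≤ e ∧ e < p ^ (n + 1)) (c : ℕ) (hc : Nat.card (Subgroup.center D) = p ^ c) : ∀ χ ∈ B, Cfsg.blockHeight p B (χ : G → ℂ) + c ≤ n + d := by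
  haveI : PMod p M := ⟨hM⟩
  classical
  have := Fintype.ofFinite G
  intro χ hχ
  have hm := isMax_of_induced_sup hBD hH hind
  set E := eS M H b with hE
  have hd : blockDefect p B = d := by
    rw [← IsDefectGroup.factorization_card hB hBD, hDd, (Fact.out : p.Prime).factorization_pow,
      Finsupp.single_eq_same]
  have hNT : NP D E ≤ T := fun g hg => by
    have hg' := mem_NP'.1 hg
    have h1 : sc g H = H := by rw [hH, sc_sup, ← centralizer_sc, hg'.1]
    refine (hT g).2 ⟨NP_le_normalizer hg, fun θ hθ θ' h => ?_⟩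
    have h2 := hg'.2
    rw [hE, ← eS_conjSet h1] at h2
    rw [← eS_inj (isPBlock_conjSet h1 hind.1) hind.1 h2]
    exact ⟨θ, hθ, h⟩
  have hHT : H ≤ T := (hH.le.trans (sup_le hm.pair.le_NP hm.pair.centralizer_le_NP)).trans hNT
  set S : Finset G := Finset.univ.filter (· ∈ D ⊓ Subgroup.centralizer (D : Set G)) with hS
  have hS1 : ∀ u, u ∈ S ↔ u ∈ D ⊓ Subgroup.centralizer (D : Set G) := fun u => by simp [hS]
  have hcard : S.card = p ^ c := by
    rw [← hc, ← Nat.card_eq_finsetCard]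
    refine (Nat.card_congr (Equiv.ofBijective (fun z : Subgroup.center D =>
      (⟨z, (hS1 _).2 ⟨z.1.2, fun g hg => congrArg Subtype.val
        (Subgroup.mem_center_iff.1 z.2 ⟨g, hg⟩)⟩⟩ : S)) ⟨fun a b h => ?_, fun u => ?_⟩)).symm
    · exact Subtype.ext (Subtype.ext (congrArg (fun x : S => (x : G)) h))
    · have := (hS1 _).1 u.2
      exact ⟨⟨⟨u, this.1⟩, Subgroup.mem_center_iff.2 fun g => Subtype.ext (this.2 g g.2)⟩, rfl⟩
  have hp0 : (0 : ℝ) < p := by exact_mod_cast (Fact.out : p.Prime).pos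
  have h1 := one_le_prod_mu hm.pair S (fun u hu => ((hS1 u).1 hu).1)
    (fun u hu v hv => (hS1 v).2 (Subgroup.zpowers_le.2 ((hS1 u).1 hu)
      (hv ▸ Subgroup.mem_zpowers v))) (irrG χ) (irrG χ) (blockHeight p B χ) fun u hu => by
    refine ⟨mu_ne_zero_of_center hB hm ((hS1 u).1 hu) hχ, ?_⟩
    obtain ⟨w, hw, hw'⟩ := exists_mu hm.pair ((hS1 u).1 hu).1 (irrG χ) hχ
    rwa [defect_bu_of_center hB hm ((hS1 u).1 hu), hw',
      mul_div_cancel_left₀ _ (pow_ne_zero _ (natCast_p_ne_zero M))]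
  have h2 := card_le_sum_of_one_le_prod S _ (fun u hu => norm_pos_iff.2 (div_ne_zero (mul_ne_zero
    (pow_ne_zero _ (natCast_p_ne_zero M)) (mu_ne_zero_of_center hB hm ((hS1 u).1 hu) hχ))
    (pow_ne_zero _ (natCast_p_ne_zero M)))) h1
  rw [Finset.sum_congr rfl fun u hu => by
    rw [defect_bu_of_center hB hm ((hS1 u).1 hu), hd, norm_div, norm_mul, norm_pow, norm_pow,
      Complex.norm_natCast], ← Finset.sum_div, ← Finset.mul_sum, le_div_iff₀ (by positivity),
    sum_eq_sum_tv (p := p) (e := E) S (fun u hu => ((hS1 u).1 hu).1) _ fun u hu r hr h => by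
      rw [h.mu_eq hm.pair ((hS1 u).1 hu).1 (mem_of_mem_tv hr) (irrC χ)]] at h2
  have h3 : ∀ r, (S.filter (Fz p D E · r)).card ≤ e := fun r => by
    rcases (S.filter (Fz p D E · r)).eq_empty_or_nonempty with h | ⟨z, hz⟩
    · simp [h]
    obtain ⟨hz, hzr⟩ := Finset.mem_filter.1 hz
    rw [← he, Subgroup.relIndex, Subgroup.index, Nat.card_eq_fintype_card]
    refine le_trans (Finset.card_le_card (t := Finset.univ.image
      fun q : T ⧸ H.subgroupOf T => (q.out : G) * z * (q.out : G)⁻¹) fun u hu => ?_)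
      Finset.card_image_le
    obtain ⟨hu, hur⟩ := Finset.mem_filter.1 hu
    obtain ⟨k, hk, rfl⟩ := (hzr.trans hur.symm).exists_NP hm ((hS1 _).1 hz) ((hS1 _).1 hu)
    refine Finset.mem_image.2 ⟨(⟨k, hNT hk⟩ : T), Finset.mem_univ _, ?_⟩
    obtain ⟨h, hh⟩ := QuotientGroup.mk_out_eq_mul (H.subgroupOf T) ⟨k, hNT hk⟩
    have h4 : H ≤ Subgroup.centralizer {z} := hH.le.trans (sup_le
      (le_centralizer_singleton_iff.2 ((hS1 _).1 hz).2)
      (Subgroup.centralizer_le (Set.singleton_subset_iff.2 ((hS1 _).1 hz).1)))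
    have h5 : z * ((h : T) : G) = ((h : T) : G) * z := h4 h.2 z rfl
    rw [hh, Subgroup.coe_mul]
    calc k * ((h : T) : G) * z * (k * ((h : T) : G))⁻¹
        = k * (((h : T) : G) * z) * ((h : T) : G)⁻¹ * k⁻¹ := by group
      _ = _ := by rw [← h5]; group
  have h4 : ∑ r ∈ tv p D E, (S.filter (Fz p D E · r)).card • ‖mu p D E r χ χ‖ ≤ e := by
    rw [← mul_one (e : ℝ), ← sum_norm_mu hB hm hχ, Finset.mul_sum]
    refine Finset.sum_le_sum fun r _ => ?_
    rw [nsmul_eq_mul]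
    exact mul_le_mul_of_nonneg_right (by exact_mod_cast h3 r) (norm_nonneg _)
  have h5 : ((p ^ (c + blockHeight p B χ) : ℕ) : ℝ) < (p ^ (d + (n + 1)) : ℕ) := by
    push_cast
    rw [pow_add, pow_add]
    rw [hcard, Nat.cast_pow] at h2
    refine h2.trans_lt (mul_lt_mul_of_pos_left (h4.trans_lt ?_) (by positivity))
    exact_mod_cast hn.2
  have := (Nat.pow_lt_pow_iff_right (Fact.out : p.Prime).one_lt).1 (Nat.cast_lt.1 h5)
  omega

end Cfsg.Agent.S4715
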