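import Cfsg.Statements.S4717
import Cfsg.Agent.Block.Galois
import Cfsg.Agent.Block.Section

set_option autoImplicit false
open Cfsg

namespace Cfsg.Agent.S4717

open Cfsg.Agent.Block Cfsg.Agent.BMod Cfsg.Agent.Char MonoidAlgebra


/-- Let p be a prime, M a maximal ideal of the algebraic integers containing p, and r a natural number; say that a finite group X has deficiency class r when X has no non-principal p-block of defect ≥ r. If G has deficiency class r then so does the centralizer of every p-element of G; conversely, if r > 0 and the centralizer of every element of order p has deficiency class r, then G has deficiency class r. -/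
theorem result {G : Type*} [Group G] [Finite G] (p : ℕ) [Fact p.Prime] (M : Ideal Cfsg.AlgInt) (hM : Cfsg.IsPModular p M) (r : ℕ) : ((∀ B' : Set (Cfsg.IrrCharacter G), Cfsg.IsPBlock M B' → B' ≠ Cfsg.principalBlock M G → Cfsg.blockDefect p B' < r) → ∀ y : G, (∃ k : ℕ, orderOf y = p ^ k) → (∀ B' : Set (Cfsg.IrrCharacter ↥(Subgroup.centralizer ({y} : Set G))), Cfsg.IsPBlock M B' → B' ≠ Cfsg.principalBlock M ↥(Subgroup.centralizer ({y} : Set G)) → Cfsg.blockDefect p B' < r)) ∧ (0 < r → (∀ y : G, orderOf y = p → (∀ B' : Set (Cfsg.IrrCharacter ↥(Subgroup.centralizer ({y} : Set G))), Cfsg.IsPBlock M B' → B' ≠ Cfsg.principalBlock M ↥(Subgroup.centralizer ({y} : Set G)) → Cfsg.blockDefect p B' < r)) → (∀ B' : Set (Cfsg.IrrCharacter G), Cfsg.IsPBlock M B' → B' ≠ Cfsg.principalBlock M G → Cfsg.blockDefect p B' < r)) := by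
  have : PMod p M := ⟨hM⟩
  refine ⟨fun h y hy b hb hne => ?_, fun hr h B hB hne => ?_⟩
  · obtain ⟨B, hB⟩ := inducedBlockDefined_centralizer hy hb
    obtain ⟨D, hD⟩ := exists_isDefectGroup (p := p) hb
    obtain ⟨E, hE, hDE⟩ := hB.exists_defect_ge hD
    have h1 := h B hB.2.1 fun h0 => hne ((isInducedBlock_principal_iff ⟨B, hB⟩).1 (h0 ▸ hB))
    have h2 := Subgroup.card_le_of_le hDE
    rw [Subgroup.card_map_of_injective (Subgroup.subtype_injective _), hD.card_eq hb,
      hE.card_eq hB.2.1, Nat.pow_le_pow_iff_right (Fact.out : p.Prime).one_lt] at h2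
    omega
  · by_contra hlt
    obtain ⟨D, hD⟩ := exists_isDefectGroup (p := p) hB
    have hD1 : Nontrivial D := Finite.one_lt_card_iff_nontrivial.1 (by
      rw [hD.card_eq hB]; exact Nat.one_lt_pow (by omega) (Fact.out : p.Prime).one_lt)
    have := hD.isPGroup.center_nontrivial
    obtain ⟨z, hz⟩ := exists_prime_orderOf_dvd_card' (G := Subgroup.center D) p (by
      obtain ⟨n, hn0, hn⟩ := (hD.isPGroup.to_subgroup (Subgroup.center D)).nontrivial_iff_card.1 this
      rw [hn]; exact dvd_pow_self p hn0.ne')
    let y : G := z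
    have hy : orderOf y = p := by
      simp only [y, Subgroup.orderOf_coe, hz]
    have hyp : IsPGroup p (Subgroup.zpowers y) := isPGroup_zpowers_of_orderOf ⟨1, by simp [hy]⟩
    have hDy : D ≤ Subgroup.centralizer {y} := fun d hd => Subgroup.mem_centralizer_singleton_iff.2
      (congrArg Subtype.val (Subgroup.mem_center_iff.1 z.2 ⟨d, hd⟩))
    have hyD : Subgroup.zpowers y ≤ D := by simp [y]
    have hN : Subgroup.centralizer {y} ≤ Subgroup.normalizer (Subgroup.zpowers y : Set G) := by
      rw [← centralizer_zpowers]; exact centralizer_le_normalizer' _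
    have hx := br_mem_Zc_of_center (centralizer_zpowers y).le hN (eB_mem_center (M := M) B)
    obtain ⟨A, hA, hAe⟩ := exists_eS_eq_idem hx
      (br_idem hyp (eB_mul_self hB.isBlockUnion) (eB_mem_fix B _))
    have h1 : br (D.subgroupOf (Subgroup.centralizer {y})) (eB M A) ≠ 0 := fun h0 => by
      have h2 := br_inc _ (D.subgroupOf (Subgroup.centralizer {y})) (eB M A)
      rw [h0, map_zero, Subgroup.map_subgroupOf_eq_of_le hDy] at h2
      change br D (eS M _ A) = 0 at h2
      rw [hAe, br_br hyD] at h2
      exact ((isDefectGroup_iff_isDef hB).1 hD).br_ne h2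
    obtain ⟨b, hb, hbA, hbr⟩ := exists_block_br_ne_zero hA h1
    have hind : IsInducedBlock M _ b B :=
      (isInducedBlock_iff_eS hyp (zpowers_le_centralizer y) (centralizer_zpowers y).le hN hb hB).2
        (by rw [← hAe, eS_mul_eS hb.isBlockUnion hA, Set.inter_eq_left.2 hbA])
    obtain ⟨E, hE, hDE⟩ := exists_isDefectGroup_ge hb (hD.isPGroup.comap_subtype) hbr
    have h3 := h y hy b hb fun h0 => hne (IsInducedBlock.unique hind
      ((isInducedBlock_principal_iff ⟨B, hind⟩).2 h0))
    have h2 : Nat.card (D.subgroupOf (Subgroup.centralizer {y})) ≤ _ := Subgroup.card_le_of_le hDE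
    rw [Nat.card_congr (Subgroup.subgroupOfEquivOfLe hDy).toEquiv, hD.card_eq hB,
      hE.card_eq hb, Nat.pow_le_pow_iff_right (Fact.out : p.Prime).one_lt] at h2
    omega

end Cfsg.Agent.S4717
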