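import Cfsg.Statements.S4718
import Cfsg.Agent.S4494
import Cfsg.Agent.Invol.Basic
import Cfsg.Agent.Small.BT

set_option autoImplicit false
universe u
open Cfsg

namespace Cfsg.Agent.S4718

theorem landau (k : ℕ) : ∀ r : ℚ, ∃ B : ℕ, ∀ s : Multiset ℕ, s.card ≤ k → (∀ n ∈ s, 0 < n) →
    (s.map fun n : ℕ => (n : ℚ)⁻¹).sum = r → ∀ n ∈ s, n ≤ B := by
  induction k with
  | zero => exact fun r => ⟨0, fun s hs _ _ n hn => by
      rw [Multiset.card_eq_zero.1 (Nat.le_zero.1 hs)] at hn; simp at hn⟩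
  | succ k ih =>
    intro r
    choose B hB using ih
    refine ⟨(Finset.range (⌊(k + 1) / r⌋₊ + 1)).sup fun m => max m (B (r - (m : ℚ)⁻¹)),
      fun s hs h0 hr n hn => ?_⟩
    obtain ⟨m, hm, hmin⟩ := s.toFinset.exists_min_image id ⟨n, Multiset.mem_toFinset.2 hn⟩
    rw [Multiset.mem_toFinset] at hm
    have m0 : (0 : ℚ) < m := by exact_mod_cast h0 m hm
    have h1 : r ≤ (k + 1) * (m : ℚ)⁻¹ := by
      have := Multiset.sum_le_card_nsmul (s.map fun n : ℕ => (n : ℚ)⁻¹) (m : ℚ)⁻¹ fun x hx => by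
        obtain ⟨y, hy, rfl⟩ := Multiset.mem_map.1 hx
        exact inv_anti₀ m0 (by exact_mod_cast hmin y (Multiset.mem_toFinset.2 hy))
      rw [hr, Multiset.card_map, nsmul_eq_mul] at this
      exact this.trans (mul_le_mul_of_nonneg_right (by exact_mod_cast hs) (by positivity))
    obtain ⟨t, rfl⟩ := Multiset.exists_cons_of_mem hm
    rw [Multiset.map_cons, Multiset.sum_cons] at hr
    have h2 : 0 ≤ (t.map fun n : ℕ => (n : ℚ)⁻¹).sum := Multiset.sum_nonneg fun x hx => by
      obtain ⟨y, -, rfl⟩ := Multiset.mem_map.1 hx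
      positivity
    have r0 : 0 < r := by rw [← hr]; positivity
    have h3 : m ∈ Finset.range (⌊(k + 1) / r⌋₊ + 1) := by
      refine Finset.mem_range.2 (Nat.lt_succ_of_le (Nat.le_floor ?_))
      rw [le_div_iff₀ r0, mul_comm, ← le_div_iff₀ m0]
      exact h1
    refine le_trans ?_ (Finset.le_sup (f := fun m => max m (B (r - (m : ℚ)⁻¹))) h3)
    rcases Multiset.mem_cons.1 hn with rfl | hn
    · exact le_max_left _ _
    · exact (hB _ t (by simpa using hs) (fun n hn => h0 n (Multiset.mem_cons_of_mem hn))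
        (by rw [← hr]; ring) n hn).trans (le_max_right _ _)

/-- Landau's theorem. -/
theorem exists_bound (k : ℕ) : ∃ N : ℕ, ∀ (G : Type u) [Group G] [Finite G],
    Nat.card (ConjClasses G) ≤ k → Nat.card G ≤ N := by
  obtain ⟨B, hB⟩ := landau k 1
  refine ⟨B, fun G _ _ h => ?_⟩
  classical
  have := Fintype.ofFinite G
  have h1 : ∀ c : ConjClasses G, ∃ n : ℕ, Fintype.card c.carrier * n = Nat.card G := fun c => by
    obtain ⟨g, rfl⟩ := ConjClasses.mk_surjective c
    refine ⟨Nat.card (Subgroup.centralizer ({g} : Set G)), Eq.trans ?_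
      (Invol.card_class_mul_card_centralizer g)⟩
    rw [← Nat.card_eq_fintype_card]
    exact congrArg (· * _) (Nat.card_congr (Equiv.subtypeEquivRight fun y => by
      rw [ConjClasses.mem_carrier_iff_mk_eq, ConjClasses.mk_eq_mk_iff_isConj, isConj_comm]))
  choose n hn using h1
  have g0 : 0 < Nat.card G := Nat.card_pos
  have n0 : ∀ c, 0 < n c := fun c => Nat.pos_of_mul_pos_left (hn c ▸ g0)
  refine hB (Finset.univ.val.map n) (by simpa using h) (fun m hm => ?_) ?_ _ ?_
  · obtain ⟨c, -, rfl⟩ := Multiset.mem_map.1 hm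
    exact n0 c
  · rw [Multiset.map_map, ← Finset.sum_eq_multiset_sum]
    have h2 : ∀ c, ((n c : ℚ))⁻¹ = Fintype.card c.carrier / Nat.card G := fun c => by
      have : (0 : ℚ) < n c := by exact_mod_cast n0 c
      have h3 : (Fintype.card c.carrier : ℚ) ≠ 0 := by
        exact_mod_cast (Nat.pos_of_mul_pos_right (hn c ▸ g0)).ne'
      rw [← hn c]; push_cast; field_simp
    simp only [Function.comp, h2, ← Finset.sum_div]
    rw [div_eq_one_iff_eq (by exact_mod_cast g0.ne'), Nat.card_eq_fintype_card,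
      ← sum_conjClasses_card_eq_card G]
    simp
  · refine Multiset.mem_map.2 ⟨1, Finset.mem_univ _, ?_⟩
    have : Fintype.card (1 : ConjClasses G).carrier = 1 :=
      Fintype.card_eq_one_iff.2 ⟨⟨1, ConjClasses.mem_carrier_mk⟩, fun y => Subtype.ext
        (isConj_one_right.1 (ConjClasses.mk_eq_mk_iff_isConj.1
          (ConjClasses.mem_carrier_iff_mk_eq.1 y.2)).symm)⟩
    rw [← hn 1, this, one_mul]

/-- Let p be a prime and a a natural number. There is a bound N such that every finite group whose Sylow p-subgroups have order p^a and whose only p-block (relative to a maximal ideal of the algebraic integers containing p) is the principal block has order at most N. -/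
theorem result (p : ℕ) [Fact p.Prime] (a : ℕ) : ∃ N : ℕ, ∀ (G : Type u) [Group G] [Finite G] (M : Ideal Cfsg.AlgInt), Cfsg.IsPModular p M → (Nat.card G).factorization p = a → (∀ B : Set (Cfsg.IrrCharacter G), Cfsg.IsPBlock M B → B = Cfsg.principalBlock M G) → Nat.card G ≤ N := by
  obtain ⟨N, hN⟩ := exists_bound.{u} (p ^ (2 * a) + 4)
  refine ⟨N, fun G _ _ M hM ha h => hN G ?_⟩
  have := hM.2.1
  have h1 := S4494.result p M hM (principalBlock M G) ⟨Char.irrOne G, rfl⟩
  have h2 : principalBlock M G = Set.univ := Set.eq_univ_of_forall fun χ =>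
    h _ ⟨χ, rfl⟩ ▸ Block.sameBlock_refl _
  have h3 : p ^ (2 * blockDefect p (principalBlock M G)) ≤ p ^ (2 * a) :=
    Nat.pow_le_pow_right hM.1.pos (Nat.mul_le_mul_left _ (ha ▸ Nat.sub_le _ _))
  rw [← Char.card_irr_eq_card_conjClasses]
  rw [h2, Nat.card_congr (Equiv.Set.univ _), ← h2] at h1
  omega

end Cfsg.Agent.S4718
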