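import Cfsg.Statements.S4719
import Cfsg.Agent.Block.Defc
import Cfsg.Agent.S4717
import Cfsg.Agent.S4718

set_option autoImplicit false
universe u
open Cfsg

namespace Cfsg.Agent.S4719

open Subgroup Cfsg.Agent.BG

theorem base (a : ℕ) : ∃ N : ℕ, ∀ (G : Type u) [Group G] [Finite G] (M : Ideal AlgInt) (r : ℕ) (A : Subgroup G),
    IsPModular 2 M → ¬ 2 ^ a ∣ Nat.card G →
    (∀ B : Set (IrrCharacter G), IsPBlock M B → B ≠ principalBlock M G → blockDefect 2 B < r) →
    A ≤ center G → 2 ^ r ∣ #A → Nat.card G ≤ N := by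
  have := Nat.fact_prime_two
  choose N hN using S4718.result.{u} 2
  refine ⟨(Finset.range a).sup N, fun G _ _ M r A hM ha hd hA hr => ?_⟩
  have g0 : Nat.card G ≠ 0 := Nat.card_pos.ne'
  refine (hN _ G M hM rfl fun B hB => by_contra fun h => ?_).trans (Finset.le_sup (f := N) (Finset.mem_range.2
    (not_le.1 fun h => ha ((Nat.prime_two.pow_dvd_iff_le_factorization g0).2 h))))
  refine (hd B hB h).not_ge ?_
  have := hM.2.1
  obtain ⟨χ, rfl⟩ := hB
  have h1 : sInf ((fun ψ : IrrCharacter G => (charDegree (ψ : G → ℂ)).factorization 2) '' blockOf M (χ : G → ℂ)) ≤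
      (charDegree (χ : G → ℂ)).factorization 2 := Nat.sInf_le ⟨χ, Block.sameBlock_refl _, rfl⟩
  have h2 : charDegree (χ : G → ℂ) * 2 ^ r ∣ Nat.card G := by
    rw [← (center G).index_mul_card]
    exact Nat.mul_dvd_mul (Char.IsIrrCharacter.charDegree_dvd_index_center χ.2) (hr.trans (card_dvd_of_le hA))
  have h3 := Nat.factorization_le_factorization_of_dvd_right h2 (by
    exact mul_ne_zero (Char.IsIrrCharacter.charDegree_pos χ.2).ne' (by positivity)) g0 (a := 2)
  rw [Nat.factorization_mul (Char.IsIrrCharacter.charDegree_pos χ.2).ne' (by positivity),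
    Nat.prime_two.factorization_pow] at h3
  simp only [Finsupp.add_apply, Finsupp.single_eq_same] at h3
  unfold blockDefect
  omega

theorem key (a j : ℕ) : ∃ N : ℕ, ∀ (G : Type u) [Group G] [Finite G] (M : Ideal AlgInt) (r : ℕ) (E : Subgroup G),
    IsPModular 2 M → ¬ 2 ^ a ∣ Nat.card G →
    (∀ B : Set (IrrCharacter G), IsPBlock M B → B ≠ principalBlock M G → blockDefect 2 B < r) →
    (∀ x ∈ E, ∀ y ∈ E, x * y = y * x) → (∀ x ∈ E, x * x = 1) → #E = 2 ^ (r + 1) →
    2 ^ r ≤ #(E ⊓ center G : Subgroup G) * 2 ^ j → Nat.card G ≤ N := by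
  have := Nat.fact_prime_two
  obtain ⟨N0, h0⟩ := base.{u} a
  have h0' : ∀ (G : Type u) [Group G] [Finite G] (M : Ideal AlgInt) (r : ℕ) (E : Subgroup G),
      IsPModular 2 M → ¬ 2 ^ a ∣ Nat.card G →
      (∀ B : Set (IrrCharacter G), IsPBlock M B → B ≠ principalBlock M G → blockDefect 2 B < r) →
      #E = 2 ^ (r + 1) → 2 ^ r ≤ #(E ⊓ center G : Subgroup G) → Nat.card G ≤ N0 := fun G _ _ M r E hM ha hd cE h => by
    refine h0 G M r _ hM ha hd (inf_le_right : E ⊓ center G ≤ _) ?_
    obtain ⟨k, -, hk⟩ := (Nat.dvd_prime_pow Nat.prime_two).1 (cE ▸ card_dvd_of_le (inf_le_left : E ⊓ center G ≤ E))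
    rw [hk] at h ⊢
    exact pow_dvd_pow 2 ((Nat.pow_le_pow_iff_right one_lt_two).1 h)
  induction j with
  | zero => exact ⟨N0, fun G _ _ M r E hM ha hd _ _ cE h => h0' G M r E hM ha hd cE (by simpa using h)⟩
  | succ j ih =>
    obtain ⟨N, hN⟩ := ih
    obtain ⟨N1, h1⟩ := Defc.dfc_four.{u} a N
    refine ⟨N0 + N1, fun G _ _ M r E hM ha hd ab e2 cE h => ?_⟩
    by_cases hA : 2 ^ r ≤ #(E ⊓ center G : Subgroup G)
    · exact (h0' G M r E hM ha hd cE hA).trans (Nat.le_add_right _ _)
    set A := E ⊓ center G with eA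
    have st : ∀ v ∈ E, v ∉ A → #C1[v] ≤ N := fun v hv hv' => by
      have EC : E ≤ C1[v] := fun x hx => mem_cent1.2 (ab x hx v hv)
      have ov : ∃ k : ℕ, orderOf v = 2 ^ k := 
        ⟨1, (orderOf_eq_prime (p := 2) (x := v) (by rw [sq, e2 v hv]) fun e => hv' (e ▸ one_mem _)).trans rfl⟩
      refine hN C1[v] M r (E.subgroupOf C1[v]) hM (fun e => ha (e.trans (card_subgroup_dvd_card _)))
        ((S4717.result 2 M hM r).1 hd v ov) (fun x hx y hy => Subtype.ext (ab _ hx _ hy))
        (fun x hx => Subtype.ext (e2 _ hx)) ((card_subgroupOf EC).trans cE) (h.trans ?_)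
      have l : A.subgroupOf C1[v] < E.subgroupOf C1[v] ⊓ center C1[v] := by
        refine lt_of_le_of_ne (fun x hx => ⟨hx.1, mem_center_iff.2 fun y => Subtype.ext (mem_center_iff.1 hx.2 y)⟩)
          fun e => hv' ?_
        have : (⟨v, EC hv⟩ : C1[v]) ∈ A.subgroupOf C1[v] :=
          e ▸ ⟨hv, mem_center_iff.2 fun y => Subtype.ext (mem_cent1.1 y.2)⟩
        exact this
      obtain ⟨m, hm⟩ := card_dvd_of_le l.le
      have l2 := not_le.1 fun hh => l.ne (eq_of_le_of_card_ge l.le hh)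
      rw [card_subgroupOf (inf_le_left.trans EC)] at hm l2
      rw [hm] at l2 ⊢
      have : 1 < m := by
        by_contra hh
        nlinarith
      rw [pow_succ', ← mul_assoc]
      exact Nat.mul_le_mul_right _ (Nat.mul_le_mul_left _ this)
    have lt : 2 * #A < #E := by rw [cE, pow_succ']; omega
    obtain ⟨v, hv, hv'⟩ : ∃ v ∈ E, v ∉ A := by
      by_contra! hh
      have := card_le_of_le (show E ≤ A from hh)
      omega
    obtain ⟨w, hw, w1, w2⟩ : ∃ w ∈ E, w ∉ A ∧ v * w ∉ A := by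
      by_contra! hh
      classical
      have := Nat.card_le_card_of_injective (fun w : E => if e : (w : G) ∈ A then (Sum.inl ⟨w, e⟩ : A ⊕ A) else
        Sum.inr ⟨v * w, hh w w.2 e⟩) fun x y e => by
          by_cases hx : (x : G) ∈ A <;> by_cases hy : (y : G) ∈ A <;> simp [hx, hy] at e <;> exact e
      rw [Nat.card_sum] at this
      omega
    exact (h1 G v w ha (e2 v hv) (e2 w hw) (ab v hv w hw) (st v hv hv') (st w hw w1)
      (st _ (mul_mem hv hw) w2)).trans (Nat.le_add_left _ _)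

/-- For every natural number a there is a bound N with the following property. Let G be a finite group with Sylow 2-subgroups of order 2^a and r ≥ 0 such that G has no non-principal 2-block (relative to a maximal ideal of the algebraic integers containing 2) of defect ≥ r, and suppose a Sylow 2-subgroup of G contains an elementary abelian subgroup of order 2^(r+1). Then the order of G is at most N. -/
theorem result (a : ℕ) : ∃ N : ℕ, ∀ (G : Type u) [Group G] [Finite G] (M : Ideal Cfsg.AlgInt) (r : ℕ) (P : Sylow 2 G), Cfsg.IsPModular 2 M → Nat.card P = 2 ^ a → (∀ B : Set (Cfsg.IrrCharacter G), Cfsg.IsPBlock M B → B ≠ Cfsg.principalBlock M G → Cfsg.blockDefect 2 B < r) → (∃ E : Subgroup G, E ≤ (P : Subgroup G) ∧ IsMulCommutative E ∧ (∀ x ∈ E, x * x = 1) ∧ Nat.card E = 2 ^ (r + 1)) → Nat.card G ≤ N := by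
  obtain ⟨N, hN⟩ := key.{u} (a + 1) a
  refine ⟨N, fun G _ _ M r P hM hP hd ⟨E, hE, ab, e2, cE⟩ => hN G M r E hM ?_ hd
    (fun x hx y hy => congrArg Subtype.val (ab.1.1 ⟨x, hx⟩ ⟨y, hy⟩)) e2 cE ?_⟩
  · rw [Nat.prime_two.pow_dvd_iff_le_factorization Nat.card_pos.ne',
      Nat.pow_right_injective le_rfl (P.card_eq_multiplicity.symm.trans hP)]
    omega
  · have h1 := Subgroup.card_le_of_le hE
    rw [cE, hP] at h1
    exact ((Nat.pow_le_pow_right two_pos (Nat.le_succ r)).trans h1).trans (Nat.le_mul_of_pos_left _ Nat.card_pos)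

end Cfsg.Agent.S4719
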