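import Cfsg.Statements.S4720
import Cfsg.Agent.Block.Count
import Cfsg.Agent.BMod.Rank2

set_option autoImplicit false
open Cfsg

namespace Cfsg.Agent.S4720

open Cfsg.Agent.Block Cfsg.Agent.BMod Cfsg.Agent.Char MonoidAlgebra


/-- Let p be a prime, M a maximal ideal of the algebraic integers containing p, P a p-subgroup of the finite group G, N a subgroup with P ≤ N ≤ N_G(P), and U a nonempty subset of P normalized by N such that an element of U and an element of P that are conjugate in G are already conjugate in N, and such that λ(C_G(y)) = w·#C_N(y) for every y ∈ U with one rational number w, where λ(X) denotes the sum of the squares of the degrees of the irreducible characters in the principal p-block of X. For a complex function θ on P and χ in the principal block of G put a_χ(θ) = #P⁻¹ Σ_{y ∈ P} χ(y) θ(y⁻¹). Then for generalized characters θ, η of P with θ vanishing outside U, Σ_χ a_χ(θ)·conj(a_χ(η)) = (w/#P²)·Σ_{y ∈ P} θ(y)·conj(Σ_{x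 ∈ N} η(x y x⁻¹)) (η extended by zero off P; the conjugates lie in P), the first sum over the principal p-block of G. -/
theorem result {G : Type*} [Group G] [Finite G] (p : ℕ) [Fact p.Prime] (M : Ideal Cfsg.AlgInt) (hM : Cfsg.IsPModular p M) (P : Subgroup G) (hP : IsPGroup p P) (N : Subgroup G) (hPN : P ≤ N) (hNN : N ≤ Subgroup.normalizer (P : Set G)) (U : Set G) (hUne : U.Nonempty) (hUP : U ⊆ (P : Set G)) (hUN : ∀ n ∈ N, ∀ u ∈ U, n * u * n⁻¹ ∈ U) (hfus : ∀ u ∈ U, ∀ g : G, g * u * g⁻¹ ∈ (P : Set G) → ∃ n ∈ N, n * u * n⁻¹ = g * u * g⁻¹) (w : ℚ) (hw : ∀ y ∈ U, ((∑ᶠ ψ ∈ Cfsg.principalBlock M ↥(Subgroup.centralizer ({y} : Set G)), Cfsg.charDegree (ψ : ↥(Subgroup.centralizer ({y} : Set G)) → ℂ) ^ 2) : ℚ) = w * Nat.card ↥(N ⊓ Subgroup.centralizer ({y} : Set G))) (θ η : ↥P → ℂ) (hθ : Cfsg.IsGeneralizedCharacter ↥P θ) (hη : Cfsg.IsGeneralizedCharacter ↥P η) (hθU : ∀ y : ↥P, (y : G) ∉ U → θ y = 0) : ∑ᶠ χ ∈ Cfsg.principalBlock M G, ((Nat.card ↥P :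 ℂ)⁻¹ * ∑ᶠ y : ↥P, (χ : G → ℂ) (y : G) * θ y⁻¹) * (starRingEnd ℂ) ((Nat.card ↥P : ℂ)⁻¹ * ∑ᶠ y : ↥P, (χ : G → ℂ) (y : G) * η y⁻¹) = ((w : ℂ) / ((Nat.card ↥P : ℂ) ^ 2)) * ∑ᶠ y : ↥P, θ y * (starRingEnd ℂ) (∑ᶠ x : ↥N, Cfsg.extendByZero P η ((x : G) * (y : G) * (x : G)⁻¹)) := by
  classical
  have : PMod p M := ⟨hM⟩
  have := Fintype.ofFinite G
  have key : ∀ y : P, (y : G) ∈ U → ∀ y' : P, col (principalBlock M G) y y' =
      w * ∑ x : N, if (x : G) * y * (x : G)⁻¹ = y' then (1 : ℂ) else 0 := by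
    intro y hy y'
    have ho := orderOf_eq_pow_of_mem hP y.2
    by_cases h : ∃ n ∈ N, n * y * n⁻¹ = y'
    · obtain ⟨n, hn, h⟩ := h
      have h1 := col_principal_section (M := M) ho (y := 1) (y' := 1)
        (by simp [(Fact.out : p.Prime).ne_one]) (by simp [(Fact.out : p.Prime).ne_one])
      have h2 := congrArg (fun q : ℚ => (q : ℂ)) (hw y hy)
      rw [finsum_mem_irr] at h2
      simp only [Rat.cast_sum, apply_ite (Rat.cast : ℚ → ℂ)] at h2
      rw [col_one_one, finsum_mem_irr, OneMemClass.coe_one, mul_one] at h1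
      push_cast at h1 h2
      rw [← h, isClassFunction_col _ _ _ n, h1, h2, ← Equiv.sum_comp (Equiv.mulLeft (⟨n, hn⟩ : N))]
      congr 1
      rw [Finset.sum_boole, ← Fintype.card_subtype, ← Nat.card_eq_fintype_card, inf_comm,
        ← Subgroup.subgroupOf_map_subtype, Subgroup.card_subtype]
      refine congrArg _ (Nat.card_congr (Equiv.subtypeEquivRight fun x => ?_))
      rw [Subgroup.mem_subgroupOf, Subgroup.mem_centralizer_singleton_iff, ← mul_inv_eq_iff_eq_mul,
        ← (MulAut.conj n).injective.eq_iff]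
      simp [mul_assoc]
    · rw [col_eq_zero isPBlock_principalBlock.isBlockUnion (isPPart_self ho)
        (isPPart_self (orderOf_eq_pow_of_mem hP y'.2)), Finset.sum_eq_zero, mul_zero]
      · exact fun x _ => if_neg fun h' => h ⟨x, x.2, h'⟩
      · rw [isConj_iff]
        rintro ⟨g, hg⟩
        obtain ⟨n, hn, h'⟩ := hfus y hy g (hg ▸ y'.2)
        exact h ⟨n, hn, h'.trans hg⟩
  have h1 : ∀ χ : IrrCharacter G, (if χ ∈ principalBlock M G then
      ((Nat.card P : ℂ)⁻¹ * ∑ y : P, (χ : G → ℂ) (y : G) * θ y⁻¹) * (starRingEnd ℂ)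
      ((Nat.card P : ℂ)⁻¹ * ∑ y : P, (χ : G → ℂ) (y : G) * η y⁻¹) else 0) =
      ((Nat.card P : ℂ) ^ 2)⁻¹ * ∑ y : P, θ y * ∑ y' : P, starRingEnd ℂ (η y') *
        if χ ∈ principalBlock M G then (χ : G → ℂ) y' * (χ : G → ℂ) (y : G)⁻¹ else 0 := by
    intro χ
    split_ifs
    · rw [← Equiv.sum_comp (Equiv.inv P), ← Equiv.sum_comp (Equiv.inv P) (fun y => _ * η y⁻¹)]
      simp only [Equiv.inv_apply, inv_inv, map_mul, map_sum, map_inv₀, map_natCast,
        Subgroup.coe_inv, χ.2.isCharacter.apply_inv, Complex.conj_conj, Finset.mul_sum, Finset.sum_mul]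
      rw [Finset.sum_comm]
      refine Finset.sum_congr rfl fun _ _ => Finset.sum_congr rfl fun _ _ => by ring
    · simp
  rw [finsum_mem_irr]
  simp only [finsum_eq_sum_of_fintype, h1]
  rw [← Finset.mul_sum, Finset.sum_comm, div_eq_mul_inv, mul_comm (w : ℂ), mul_assoc, Finset.mul_sum (a := (w : ℂ))]
  congr 1
  refine Finset.sum_congr rfl fun y _ => ?_
  by_cases hy : (y : G) ∈ U
  swap
  · simp [hθU y hy]
  rw [← Finset.mul_sum, Finset.sum_comm, mul_left_comm]
  congr 1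
  simp only [← Finset.mul_sum, ← col_apply, key y hy]
  simp only [Finset.mul_sum, map_sum]
  rw [Finset.sum_comm]
  refine Finset.sum_congr rfl fun x _ => ?_
  have hx : (x : G) * y * (x : G)⁻¹ ∈ P := (Subgroup.mem_normalizer_iff.1 (hNN x.2) _).1 y.2
  rw [Finset.sum_eq_single ⟨_, hx⟩ (fun b _ hb => by rw [if_neg fun h => hb (Subtype.ext h.symm)]; simp)
    (by simp), CharDeep.extendByZero_of_mem _ _ hx]
  simp [mul_comm]

end Cfsg.Agent.S4720
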