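import Cfsg.Statements.S4721
import Cfsg.Agent.Block.Frob3

set_option autoImplicit false
open Cfsg

namespace Cfsg.Agent.S4721

open Cfsg.Agent.Block Cfsg.Agent.BMod Cfsg.Agent.Char MonoidAlgebra


/-- Let p be a prime, M a maximal ideal of the algebraic integers containing p, and G a finite group with a nontrivial abelian Sylow p-subgroup P, N = N_G(P), C = C_G(P), such that N/C is cyclic of order 3, #P > 4, and C_G(y) ∩ N = C for every non-identity y ∈ P. Then the principal p-block is the disjoint union of a set X of exactly 3 characters containing the principal character and a set Y of (#P − 1)/3 characters, with signs a_χ = ±1 (χ ∈ X, a = 1 at the principal character) and δ = ±1 such that every χ ∈ X takes the value a_χ at every element whose p-part is a non-identity element of P, and there is a map ζ from the non-principal linear characters of P onto Y, constant on N-conjugacy classes, with ζ_ψ(z)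 = δ·Σ ψ'(y) over the N-orbit of ψ, for z with p-part y ≠ 1 in P. If moreover G has an involution lying in no proper normal subgroup of G, then exactly two of the three numbers −δ and a_χ (χ ∈ X non-principal) equal −1, and the product of the degrees of the two non-principal members of X and of any member of Y is a perfect square. -/
theorem result {G : Type*} [Group G] [Finite G] (p : ℕ) [Fact p.Prime] (M : Ideal Cfsg.AlgInt) (hM : Cfsg.IsPModular p M) (P : Sylow p G) (hab : IsMulCommutative P) (hP1 : Nat.card P ≠ 1) (hCN : (Subgroup.centralizer ((P : Subgroup G) : Set G)).relIndex (Subgroup.normalizer ((P : Subgroup G) : Set G)) = 3) (hcyc : ∃ g : G, g ∈ Subgroup.normalizer ((P : Subgroup G) : Set G) ∧ Subgroup.centralizer ((P : Subgroup G) : Set G) ⊔ Subgroup.zpowers g = Subgroup.normalizer ((P : Subgroup G) : Set G)) (hm2 : 3 + 1 < Nat.card P) (hfrob : ∀ y : G, y ∈ (P : Subgroup G) → y ≠ 1 → Subgroup.centralizer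 ({y} : Set G) ⊓ Subgroup.normalizer ((P : Subgroup G) : Set G) = Subgroup.centralizer ((P : Subgroup G) : Set G)) : ∃ (X Y : Set (Cfsg.IrrCharacter G)), Cfsg.principalBlock M G = X ∪ Y ∧ Disjoint X Y ∧ Nat.card X = 3 ∧ Nat.card Y = (Nat.card P - 1) / 3 ∧ (∃ χ₁ ∈ X, (χ₁ : G → ℂ) = fun _ => 1) ∧ ∃ (a : Cfsg.IrrCharacter G → ℤ) (δ : ℤ) (ζ : (↥(P : Subgroup G) →* ℂˣ) → Cfsg.IrrCharacter G), (δ = 1 ∨ δ = -1) ∧ (∀ χ ∈ X, (a χ = 1 ∨ a χ = -1) ∧ ∀ z y : G, Cfsg.IsPPart p z y → y ∈ (P : Subgroup G) → y ≠ 1 → (χ : G → ℂ) z = (a χ : ℂ)) ∧ (∀ ψ : ↥(P : Subgroup G) →* ℂˣ, ψ ≠ 1 → ζ ψ ∈ Y) ∧ (∀ η ∈ Y, ∃ ψ : ↥(P : Subgroup G) →* ℂˣ, ψ ≠ 1 ∧ ζ ψ = η) ∧ (∀ ψ ψ' : ↥(P : Subgroup G) →* ℂˣ, ψ ≠ 1 → (∃ n : G, n ∈ Subgroup.normalizer ((P : Subgroup G) : Set G) ∧ ∀ w w' : ↥(P : Subgroup G), (w' : G) = n * w * n⁻¹ → ψ' w' = ψ w) → ζ ψ' = ζ ψ) ∧ (∀ ψ : ↥(P : Subgroup G) →* ℂˣ, ψ ≠ 1 → ∀ (z : G) (y : ↥(P : Subgroup G)), Cfsg.IsPPart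 p z (y : G) → (y : G) ≠ 1 → (ζ ψ : G → ℂ) z = (δ : ℂ) * ∑ᶠ ψ' ∈ {ψ' : ↥(P : Subgroup G) →* ℂˣ | ∃ n : G, n ∈ Subgroup.normalizer ((P : Subgroup G) : Set G) ∧ ∀ w w' : ↥(P : Subgroup G), (w' : G) = n * w * n⁻¹ → ψ' w' = ψ w}, ((ψ' y : ℂˣ) : ℂ)) ∧ ((∃ t : G, orderOf t = 2 ∧ ∀ K : Subgroup G, K.Normal → t ∈ K → K = ⊤) → Nat.card {χ : Cfsg.IrrCharacter G // χ ∈ X ∧ (χ : G → ℂ) ≠ (fun _ => 1) ∧ a χ = -1} + (if δ = 1 then 1 else 0) = 2 ∧ ∀ η ∈ Y, IsSquare (Cfsg.charDegree (η : G → ℂ) * ∏ᶠ χ ∈ {χ : Cfsg.IrrCharacter G | χ ∈ X ∧ (χ : G → ℂ) ≠ fun _ => 1}, Cfsg.charDegree (χ : G → ℂ))) := by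
  classical
  have : PMod p M := ⟨hM⟩
  have := Fintype.ofFinite G
  rw [← card_autE] at hCN
  have hF := Frob.of_inf P hab hfrob
  obtain ⟨Y, a, δ, ζ, χ₂, χ₃, h2, h3, h23, ha, hb, h⟩ := hF.exists_three (M := M) hCN hm2
  have h1 : Y.card = (Nat.card P - 1) / _ := h.card_eq_div
  have hne : ∀ χ : IrrCharacter G, ((χ : G → ℂ) ≠ fun _ => 1) ↔ χ ≠ irrOne G :=
    fun χ => Subtype.coe_ne_coe (b := irrOne G)
  refine ⟨({irrOne G, χ₂, χ₃} : Finset _), Y, Set.ext fun χ => by simpa [or_assoc] using h.blk χ,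
    Finset.disjoint_coe.2 h.disj, by simpa using Finset.card_eq_three.2 ⟨_, _, _, h2.symm, h3.symm, h23, rfl⟩,
    by rw [← hCN]; exact (Nat.card_eq_finsetCard Y).trans h1, ⟨_, h.one, rfl⟩, a, δ, ζ, h.sign, fun χ hχ => ⟨?_, (h.valX χ hχ).2⟩,
    fun ψ hψ => (h.memY _).2 ⟨ψ, hψ, rfl⟩, fun η hη => (h.memY η).1 hη, h.eq_of_conj,
    fun ψ hψ z y hz hy => ?_, fun ⟨t, ht, hK⟩ => ?_⟩
  · obtain rfl | rfl | rfl : χ = irrOne G ∨ χ = χ₂ ∨ χ = χ₃ := by simpa using hχ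
    exacts [.inl h.a_one, ha, hb]
  · rw [finsum_orbit, h.valY ψ hψ z y hz fun e => hy (congrArg _ e), Int.cast_zero, zero_add]
  have hp : p ≠ 2 := by
    rintro rfl
    obtain ⟨K, hK1, hK2, hK3⟩ := hF.exists_normal_two hCN hm2
    obtain ⟨g, hg⟩ := Invol.exists_conj_invol_mem_sylow (Invol.mul_self_of ht) P
    exact hK2 (hK K hK1 (by simpa [mul_assoc] using hK1.conj_mem _ (hK3 hg) g⁻¹))
  have hs := fun η hη => h.square h2 h3 h23 ha hb (by rw [hCN]; decide) hp ht (fun e => h2 (Subtype.ext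
    (χ₂.2.charKer_eq_top_iff.1 (hK _ χ₂.2.isCharacter.isClassFunction.normal_charKer e)))) (η := η) hη
  refine ⟨?_, fun η hη => ?_⟩
  · obtain ⟨η, hη⟩ := Finset.card_pos.1 (zero_lt_two.trans_le h.two)
    obtain ⟨e1, e2, -⟩ := hs η hη
    rw [Nat.subtype_card (({χ₂, χ₃} : Finset _).filter (a · = -1)) fun χ => by
      simp only [hne, Finset.mem_filter, Finset.coe_insert, Finset.mem_insert, Set.mem_insert_iff,
        Finset.coe_singleton, Finset.mem_singleton, Set.mem_singleton_iff]; grind,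
      Finset.card_filter, Finset.sum_pair h23]
    rcases ha with e | e <;> rcases hb with e' | e' <;> rcases h.sign with rfl | rfl <;> simp_all
  · rw [show {χ : IrrCharacter G | χ ∈ (({irrOne G, χ₂, χ₃} : Finset _) : Set _) ∧ (χ : G → ℂ) ≠ fun _ => 1} =
      {χ₂, χ₃} by ext χ; simp only [hne]; simp; grind, finprod_mem_pair h23]
    exact (hs η hη).2.2

end Cfsg.Agent.S4721
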