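import Cfsg.Statements.S4722
import Cfsg.Agent.BMod.Rank2
import Cfsg.Agent.Char.Burnside
-- import your own Cfsg.Agent.* helpers here

set_option autoImplicit false
open Cfsg

namespace Cfsg.Agent.S4722

open Cfsg.Agent.BMod Cfsg.Agent.Block Cfsg.Agent.Transfer Cfsg.Agent.Char Cfsg.Agent.CharDeep

theorem aux {ι : Type*} [Fintype ι] (a d x : ι → ℝ) (hd : ∀ i, 0 < d i) (h0 : ∑ i, a i * d i = 0)
    (h1 : ∑ i, a i * (x i * d i) = 0) (h2 : ∑ i, a i * (x i ^ 2 * d i) = 0)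
    (h : Nat.card {i // 0 < a i} < 2) {i j : ι} (hi : a i ≠ 0) (hj : a j ≠ 0) : x i = x j := by
  obtain ⟨k, hk⟩ : ∃ k, ∀ l, 0 < a l → l = k := by
    by_cases h' : ∃ k, 0 < a k
    · obtain ⟨k, hk⟩ := h'
      have := Finite.card_le_one_iff_subsingleton.1 (Nat.lt_succ_iff.1 h)
      exact ⟨k, fun l hl => congrArg Subtype.val (this.elim ⟨l, hl⟩ ⟨k, hk⟩)⟩
    · exact ⟨i, fun l hl => absurd ⟨l, hl⟩ h'⟩
  have h3 : ∑ l, a l * d l * (x l - x k) ^ 2 = 0 := by
    calc _ = ∑ l, (a l * (x l ^ 2 * d l) - 2 * x k * (a l * (x l * d l)) + x k ^ 2 * (a l * d l)) :=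
          Finset.sum_congr rfl fun l _ => by ring
      _ = 0 := by
          rw [Finset.sum_add_distrib, Finset.sum_sub_distrib, ← Finset.mul_sum, ← Finset.mul_sum,
            h0, h1, h2]; ring
  have h4 := (Finset.sum_eq_zero_iff_of_nonpos fun l _ => ?_).1 h3
  · have h5 : ∀ l, a l ≠ 0 → x l = x k := fun l hl => by
      have := h4 l (Finset.mem_univ _)
      simpa [hl, (hd l).ne', sub_eq_zero] using this
    rw [h5 i hi, h5 j hj]
  · by_cases hl : 0 < a l
    · simp [hk l hl]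
    · exact mul_nonpos_of_nonpos_of_nonneg (mul_nonpos_of_nonpos_of_nonneg (not_lt.1 hl) (hd l).le)
        (sq_nonneg _)

/-- Let M be a maximal ideal of the algebraic integers containing 2, P a 2-subgroup of the finite group G, U a subset of P, and t an involution of G such that no element of U is inverted by any conjugate of t. Let θ be a generalized character of P vanishing outside U, and for χ in the principal 2-block B₀ put a_χ = #P⁻¹ Σ_{y ∈ P} χ(y) θ(y⁻¹). Then Σ_{χ ∈ B₀} a_χ χ(t)^2/χ(1) = 0, Σ_{χ ∈ B₀} a_χ χ(1) = 0 and Σ_{χ ∈ B₀} a_χ χ(t) = 0. If moreover #P⁻¹ Σ_{y ∈ P} θ(y) ≠ 0, then either at least two of the a_χ have positive real part and at least two have negative real part, or G has a proper normal subgroup containing O_2'(G) and t. -/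
theorem result {G : Type*} [Group G] [Finite G] (M : Ideal Cfsg.AlgInt) (hM : Cfsg.IsPModular 2 M) (P : Subgroup G) (hP : IsPGroup 2 P) (U : Set G) (hUP : U ⊆ (P : Set G)) (t : G) (ht : orderOf t = 2) (hinv : ∀ u ∈ U, ∀ g : G, (g * t * g⁻¹) * u * (g * t * g⁻¹)⁻¹ ≠ u⁻¹) (θ : ↥P → ℂ) (hθ : Cfsg.IsGeneralizedCharacter ↥P θ) (hθU : ∀ y : ↥P, (y : G) ∉ U → θ y = 0) : (∑ᶠ χ ∈ Cfsg.principalBlock M G, ((Nat.card ↥P : ℂ)⁻¹ * ∑ᶠ y : ↥P, (χ : G → ℂ) (y : G) * θ y⁻¹) * (χ : G → ℂ) t ^ 2 / (χ : G → ℂ) 1 = 0) ∧ (∑ᶠ χ ∈ Cfsg.principalBlock M G, ((Nat.card ↥P : ℂ)⁻¹ * ∑ᶠ y : ↥P, (χ : G → ℂ) (y : G) * θ y⁻¹) * (χ : G → ℂ) 1 = 0) ∧ (∑ᶠ χ ∈ Cfsg.principalBlock M G, ((Nat.card ↥P : ℂ)⁻¹ * ∑ᶠ y : ↥P, (χ : G → ℂ) (y : G) * θ y⁻¹) * (χ : G → ℂ) t = 0) ∧ ((Nat.card ↥P : ℂ)⁻¹ * ∑ᶠ y : ↥P, θ y ≠ 0 → (2 ≤ Nat.card {χ : Cfsg.IrrCharacter G // χ ∈ Cfsg.principalBlock M G ∧ 0 < (((Nat.card ↥P : ℂ)⁻¹ * ∑ᶠ y : ↥P, (χ : G → ℂ) (y : G) * θ y⁻¹)).re} ∧ 2 ≤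 Nat.card {χ : Cfsg.IrrCharacter G // χ ∈ Cfsg.principalBlock M G ∧ (((Nat.card ↥P : ℂ)⁻¹ * ∑ᶠ y : ↥P, (χ : G → ℂ) (y : G) * θ y⁻¹)).re < 0}) ∨ ∃ K : Subgroup G, K.Normal ∧ K ≠ ⊤ ∧ Cfsg.pPrimeCore 2 G ≤ K ∧ t ∈ K) := by
  haveI : PMod 2 M := ⟨hM⟩
  have := Fintype.ofFinite G
  classical
  have ht2 : t * t = 1 := by rw [← pow_two, ← ht, pow_orderOf_eq_one]
  simp only [finsum_mem_irr]
  simp only [finsum_eq_sum_of_fintype]
  have hA : ∀ χ : IrrCharacter G, ∃ n : ℤ, (Nat.card P : ℂ)⁻¹ * ∑ y : P, (χ : G → ℂ) y * θ y⁻¹ = n :=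
    fun χ => by
      rw [← classInner_eq_sum_inv (fun y : P => (χ : G → ℂ) y) hθ]
      exact ((irr_gen χ).restrict P).exists_int_classInner hθ
  choose A hA using hA
  let c : IrrCharacter G → ℂ := fun χ => if χ ∈ principalBlock M G then A χ else 0
  have key : ∀ g s : G, IsConj t s → s * g * s⁻¹ = g⁻¹ → ∑ χ, c χ * (χ : G → ℂ) g = 0 := by
    intro g s hs hg
    calc _ = (Nat.card P : ℂ)⁻¹ * ∑ y : P, θ y⁻¹ * col (principalBlock M G) (y⁻¹ : P) g := by
          simp only [col_apply, Finset.mul_sum]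
          rw [Finset.sum_comm]
          refine Finset.sum_congr rfl fun χ _ => ?_
          simp only [c]
          split_ifs
          · rw [← hA, Finset.mul_sum, Finset.sum_mul]
            exact Finset.sum_congr rfl fun y _ => by simp; ring
          · simp
      _ = 0 := by
          rw [Finset.sum_eq_zero fun y _ => ?_, mul_zero]
          by_cases hy : ((y⁻¹ : P) : G) ∈ U
          · obtain ⟨x, hx⟩ := exists_isPPart (p := 2) g
            rw [col_eq_zero (IsPBlock.isBlockUnion isPBlock_principalBlock)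
              (isPPart_self (orderOf_eq_pow_of_mem hP (hUP hy))) hx, mul_zero]
            intro hc
            obtain ⟨k, hk⟩ := isConj_iff.1 hc
            obtain ⟨l, rfl⟩ := isConj_iff.1 hs
            have h1 := IsPPart.unique (hg ▸ IsPPart.conj hx (l * t * l⁻¹)) (IsPPart.inv hx)
            refine hinv _ hy (k⁻¹ * l) ?_
            rw [← hk] at h1
            calc _ = k⁻¹ * (l * t * l⁻¹ * (k * ((y⁻¹ : P) : G) * k⁻¹) * (l * t * l⁻¹)⁻¹) * k := by group
              _ = _ := by rw [h1]; group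
          · rw [hθU _ hy, zero_mul]
  have k1 := key 1 t (IsConj.refl t) (by simp)
  have k2 := key t t (IsConj.refl t) (by rw [ht2, one_mul])
  have k3 := sum_inner_mul_div_eq_zero (isClassFunction_sum_irr c) (u := t) (v := t)
    fun x y hx hy => by
      obtain ⟨l, rfl⟩ := isConj_iff.1 hx
      obtain ⟨k, rfl⟩ := isConj_iff.1 hy
      rw [Finset.sum_apply]
      refine key _ _ hx ?_
      have := eq_inv_of_mul_eq_one_left ht2
      calc _ = l * (t * t) * l⁻¹ * k * t * k⁻¹ * l * t⁻¹ * l⁻¹ := by group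
        _ = k * t⁻¹ * k⁻¹ * l * t⁻¹ * l⁻¹ := by rw [ht2, ← this]; group
        _ = _ := by group
  simp only [classInner_sum_irr] at k3
  simp only [hA]
  refine ⟨(Finset.sum_congr rfl fun χ _ => by simp only [c]; split_ifs <;> ring).trans k3,
    (Finset.sum_congr rfl fun χ _ => by simp only [c]; split_ifs <;> ring).trans k1,
    (Finset.sum_congr rfl fun χ _ => by simp only [c]; split_ifs <;> ring).trans k2, fun h0 => ?_⟩
  rw [or_iff_not_imp_left]
  intro hne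
  have hv : ∀ χ : IrrCharacter G, ∃ n : ℤ, (χ : G → ℂ) t = n := fun χ =>
    (exists_int_apply_invol χ.2.isCharacter ht2).imp fun _ h => h.1
  choose v hv using hv
  let a : IrrCharacter G → ℝ := fun χ => if χ ∈ principalBlock M G then A χ else 0
  let d : IrrCharacter G → ℝ := fun χ => charDegree (χ : G → ℂ)
  have hd : ∀ χ, 0 < d χ := fun χ => Nat.cast_pos.2 (deg_pos χ.2)
  have hac : ∀ χ, c χ = a χ := fun χ => by simp only [a, c]; split_ifs <;> simp
  have hdc : ∀ χ : IrrCharacter G, (χ : G → ℂ) 1 = d χ := fun χ => by simp [d, deg_cast_irr]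
  have e0 : ∑ χ, a χ * d χ = 0 := by
    simp only [hac, hdc] at k1; exact_mod_cast k1
  have e1 : ∑ χ, a χ * (v χ / d χ * d χ) = 0 := by
    simp only [hac, hv] at k2
    simp only [div_mul_cancel₀ _ (hd _).ne']; exact_mod_cast k2
  have e2 : ∑ χ, a χ * ((v χ / d χ) ^ 2 * d χ) = 0 := by
    simp only [hac, hv, hdc] at k3
    rw [Finset.sum_congr rfl fun χ _ => show a χ * ((v χ / d χ) ^ 2 * d χ) = a χ * (v χ * v χ / d χ)
      by field_simp]
    exact_mod_cast k3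
  have ha1 : a (irrOne G) ≠ 0 := by
    simp only [a, if_pos irrOne_mem_principalBlock]
    intro h
    have h' := hA (irrOne G)
    rw [show (A (irrOne G) : ℂ) = 0 by exact_mod_cast h] at h'
    simp only [irrOne_apply, one_mul] at h'
    exact h0 (by rwa [← Equiv.sum_comp (Equiv.inv P)])
  obtain ⟨χ, hχ1, hχ⟩ : ∃ χ, χ ≠ irrOne G ∧ a χ ≠ 0 := by
    by_contra! h
    rw [Finset.sum_eq_single (irrOne G) (fun χ _ h' => by rw [h χ h', zero_mul]) (by simp)] at e0
    exact mul_ne_zero ha1 (hd _).ne' e0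
  have hB : χ ∈ principalBlock M G := by by_contra h; simp [a, h] at hχ
  have hx : v χ / d χ = v (irrOne G) / d (irrOne G) := by
    rw [not_and_or, not_le, not_le] at hne
    rcases hne with h | h
    · refine aux a d (fun χ => v χ / d χ) hd e0 e1 e2 (lt_of_eq_of_lt (Nat.card_congr
        (Equiv.subtypeEquivRight fun ψ => ?_)) h) hχ ha1
      simp only [a]; split_ifs with h' <;> simp [h']
    · refine aux (fun χ => -a χ) d (fun χ => v χ / d χ) hd (by simpa using e0) (by simpa using e1)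
        (by simpa using e2) (lt_of_eq_of_lt (Nat.card_congr
        (Equiv.subtypeEquivRight fun ψ => ?_)) h) (neg_ne_zero.2 hχ) (neg_ne_zero.2 ha1)
      simp only [a]; split_ifs with h' <;> simp [h']
  have h1 : (v (irrOne G) : ℝ) = d (irrOne G) := by
    have := (hv (irrOne G)).symm.trans (hdc (irrOne G))
    exact_mod_cast this
  rw [h1, div_self (hd _).ne', div_eq_one_iff_eq (hd _).ne'] at hx
  refine ⟨charKer χ, χ.2.isClassFunction.normal_charKer, fun h => hχ1 (Subtype.ext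
    ((IsIrrCharacter.charKer_eq_top_iff χ.2).1 h)), fun g hg => χ.2.isCharacter.mem_charKer.2 ?_,
    χ.2.isCharacter.mem_charKer.2 (by rw [hv, hdc, ← hx]; simp)⟩
  exact mem_kerOf.1 (kerOf_principalBlock (p := 2) (M := M) (G := G) ▸ hg) χ hB

end Cfsg.Agent.S4722
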