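import Cfsg.Statements.S4723
import Cfsg.Agent.Block.Galois
import Cfsg.Agent.BMod.Cover2
import Cfsg.Agent.BMod.Rank2

set_option autoImplicit false
open Cfsg

namespace Cfsg.Agent.S4723

open Cfsg.Agent.Block Cfsg.Agent.BMod Cfsg.Agent.Char MonoidAlgebra

open CharDeep

theorem aux {G : Type*} [Group G] [Finite G] {p : ℕ} [hp : Fact p.Prime] {M : Ideal AlgInt}
    [PMod p M] {N : Subgroup G} [N.Normal] {k : ℕ} (hk : N.index = p ^ k)
    {b : Set (IrrCharacter N)} (hb : IsPBlock M b) (hi : IsInv N b) :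
    ∃ θ ∈ b, blockHeight p b θ.1 = 0 ∧ inertia N θ.1 = ⊤ := by
  have := Fintype.ofFinite N
  obtain ⟨B, hB, hc⟩ := exists_covers hb
  have h1 : B = overSet N b := (hc.subset_overSet hB hb.isBlockUnion).antisymm
    fun χ ⟨θ, hθ, h⟩ => by
      rw [hc.eq_of_supp ⟨χ, mem_blockOf_self χ, θ, hθ, h⟩ hB (isPBlock_blockOf χ) hb
        (eB_mem_supp_of_regular hB.isBlockUnion fun g => mem_of_regular_of_index hk)]
      exact mem_blockOf_self χ
  have h2 : ∑ᶠ χ ∈ B, charDegree χ.1 ^ 2 = p ^ k * ∑ᶠ θ ∈ b, charDegree θ.1 ^ 2 := by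
    rw [← Nat.cast_inj (R := ℂ), Nat.cast_mul, ← col_one_one, ← col_one_one, col_one_apply,
      col_one_apply, ← coeff_idem, h1, hi.idem_overSet, idemS, inv_one, inv_one,
      coeff_inc_of_mem _ (one_mem _), ← hk, ← N.index_mul_card, Nat.cast_mul, mul_assoc]
    rfl
  have h3 := factorization_sum_deg_sq hB
  have h4 := factorization_sum_deg_sq hb
  have h5 : ∑ᶠ θ ∈ b, charDegree θ.1 ^ 2 ≠ 0 := fun h => by
    obtain ⟨θ, hθ⟩ := IsPBlock.nonempty hb
    rw [finsum_mem_irr, Finset.sum_eq_zero_iff] at h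
    simpa [hθ, deg_ne_zero θ.2] using h θ
  have h6 := factorization_card_add_index p N
  rw [h2, Nat.factorization_mul (pow_ne_zero _ hp.out.ne_zero) h5] at h3
  rw [hk] at h6
  simp only [Finsupp.add_apply, hp.out.factorization_pow, Finsupp.single_eq_same] at h3 h6
  obtain ⟨χ, hχ, h7⟩ := exists_height_zero p (IsPBlock.nonempty hB)
  have h8 := deg_add_defect p hχ
  obtain ⟨θ, hθ, h9⟩ := h1 ▸ hχ
  have h10 := deg_add_defect p hθ
  have h11 := apply_one_eq_mul_index N χ.2 θ.2 (liesOver_iff.1 h9)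
  obtain ⟨e, he⟩ := (χ.2.isCharacter.restrict N).exists_nat_classInner θ.2.isCharacter
  have he0 : e ≠ 0 := by rintro rfl; exact liesOver_iff.1 h9 (by simpa using he)
  have hi0 : (inertia N θ.1).index ≠ 0 := Subgroup.index_ne_zero_of_finite
  rw [he, ← deg_cast_irr, ← deg_cast_irr] at h11
  have h12 : charDegree χ.1 = e * (inertia N θ.1).index * charDegree θ.1 := by exact_mod_cast h11
  rw [h12, Nat.factorization_mul (mul_ne_zero he0 hi0) (deg_ne_zero θ.2),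
    Nat.factorization_mul he0 hi0] at h8
  simp only [Finsupp.add_apply] at h8
  refine ⟨θ, hθ, by omega, Subgroup.index_eq_one.1 ?_⟩
  obtain ⟨j, -, hj⟩ := (Nat.dvd_prime_pow hp.out).1
    (hk ▸ Subgroup.index_dvd_of_le (le_inertia N θ.2.isClassFunction))
  rw [hj, hp.out.factorization_pow, Finsupp.single_eq_same] at h8
  rw [hj, show j = 0 by omega, pow_zero]

/-- Let p be a prime, M a maximal ideal of the algebraic integers containing p, H a normal subgroup of the finite group G and b a p-block of H. Let T be the stabilizer of b in G. Then b contains a character θ of height zero whose own stabilizer in G (the elements g with θ(g h g⁻¹) = θ(h) for all h ∈ H) has index prime to p in T, i.e. contains a Sylow p-subgroup of T. -/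
theorem result {G : Type*} [Group G] [Finite G] (p : ℕ) [Fact p.Prime] (M : Ideal Cfsg.AlgInt) (hM : Cfsg.IsPModular p M) (H : Subgroup G) [H.Normal] (b : Set (Cfsg.IrrCharacter ↥H)) (hb : Cfsg.IsPBlock M b) (T : Subgroup G) (hT : (∀ g : G, g ∈ T ↔ ∀ θ ∈ b, ∀ θ' : Cfsg.IrrCharacter ↥H, (∀ h h' : ↥H, (h' : G) = g * h * g⁻¹ → (θ' : ↥H → ℂ) h' = (θ : ↥H → ℂ) h) → θ' ∈ b)) : ∃ θ ∈ b, Cfsg.blockHeight p b (θ : ↥H → ℂ) = 0 ∧ ∃ S : Subgroup G, S ≤ T ∧ (∀ g : G, g ∈ S ↔ (g ∈ T ∧ ∀ h h' : ↥H, (h' : G) = g * h * g⁻¹ → (θ : ↥H → ℂ) h' = (θ : ↥H → ℂ) h)) ∧ ¬ p ∣ S.relIndex T := by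
  haveI : PMod p M := ⟨hM⟩
  have hT' : ∀ g ∈ T, ∀ θ ∈ b, conjIrr H g θ ∈ b := fun g hg θ hθ =>
    (hT g⁻¹).1 (inv_mem hg) θ hθ _ fun h h' e => congrArg θ.1 (Subtype.ext (by simp [e, mul_assoc]))
  have hHT : H ≤ T := fun g hg => (hT g).2 fun θ hθ θ' h => by
    rwa [show θ' = θ from Subtype.ext (funext fun n => (h (⟨g, hg⟩⁻¹ * n * ⟨g, hg⟩) n
      (by simp [mul_assoc])).trans (θ.2.isClassFunction.apply_inv_mul_mul _ _))]
  obtain ⟨P⟩ : Nonempty (Sylow p T) := inferInstance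
  have hP := P.isPGroup'.map T.subtype
  set Q := (P : Subgroup T).map T.subtype with hQ
  have hHK : H ≤ Q ⊔ H := le_sup_right
  have hKT : Q ⊔ H ≤ T := sup_le (Subgroup.map_subtype_le _) hHT
  obtain ⟨k, hk⟩ : ∃ k, (H.subgroupOf (Q ⊔ H)).index = p ^ k := by
    obtain ⟨n, hn⟩ := hP.exists_card_eq
    obtain ⟨k, -, hk⟩ := (Nat.dvd_prime_pow (Fact.out : p.Prime)).1
      (hn ▸ Subgroup.relIndex_dvd_card H Q)
    exact ⟨k, (Subgroup.relIndex_sup_right Q H).trans hk⟩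
  obtain ⟨_, ⟨θ, hθ, rfl⟩, h1, h2⟩ := aux hk (isPBlock_subIrr hHK hb)
    (by rintro g _ ⟨θ, hθ, rfl⟩; exact ⟨_, hT' g (hKT g.2) θ hθ, rfl⟩)
  refine ⟨θ, hθ, (height_eq_zero_iff_le p hθ).2 fun ψ hψ =>
    (height_eq_zero_iff_le p (Set.mem_image_of_mem _ hθ)).1 h1 _ ⟨ψ, hψ, rfl⟩, T ⊓ inertia H θ.1, inf_le_left,
    fun g => and_congr_right fun _ => ⟨fun h n n' e => ?_, fun h => (mem_inertia' H).2 fun n =>
      h n _ rfl⟩, fun h => P.not_dvd_index ?_⟩
  · rw [← (mem_inertia' H).1 h n]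
    exact congrArg θ.1 (Subtype.ext e)
  · have h3 : Q ≤ T ⊓ inertia H θ.1 := fun g hg => ⟨hKT (Subgroup.mem_sup_left hg),
      (mem_inertia' H).2 fun n => (mem_inertia' _).1 (h2.ge (Subgroup.mem_top
        (⟨g, Subgroup.mem_sup_left hg⟩ : ↥(Q ⊔ H)))) ⟨⟨n, hHK n.2⟩, n.2⟩⟩
    have h4 := h.trans (Subgroup.relIndex_dvd_of_le_left T h3)
    rwa [hQ, Subgroup.relIndex, Subgroup.subgroupOf,
      Subgroup.comap_map_eq_self_of_injective T.subtype_injective] at h4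

end Cfsg.Agent.S4723
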