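import Cfsg.Statements.S4724
import Cfsg.Agent.CH.Ito4

set_option autoImplicit false
open Cfsg

namespace Cfsg.Agent.S4724

open Cfsg.Agent.Small Cfsg.Agent.Char Cfsg.Agent.Perm Cfsg.Agent.CH.Low MulAction in

/-- Let G be a transitive permutation group of prime degree p having exactly one irreducible character of degree p. Let P be a Sylow p-subgroup and suppose N_G(P) = P·E for a subgroup E with P ∩ E = 1, such that the normalizer of E has order 2·#E and E meets each of its conjugates by elements outside its normalizer trivially. Then p is 5, 7 or 11 and G is isomorphic to PSL(2, p). -/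
theorem result {α : Type*} [Fintype α] [DecidableEq α] {p : ℕ} [Fact p.Prime] (hα : Fintype.card α = p) (G : Subgroup (Equiv.Perm α)) [MulAction.IsPretransitive G α] (huniq : ∃! χ : Cfsg.IrrCharacter G, Cfsg.charDegree (χ : G → ℂ) = p) (P : Sylow p G) (E : Subgroup G) (hPE : (P : Subgroup G) ⊔ E = Subgroup.normalizer ((P : Subgroup G) : Set G)) (hPE' : (P : Subgroup G) ⊓ E = ⊥) (hNE : Nat.card (Subgroup.normalizer (E : Set G)) = 2 * Nat.card E) (hTI : ∀ g : G, g ∉ Subgroup.normalizer (E : Set G) → E ⊓ E.map (MulAut.conj g).toMonoidHom = ⊥) : (p = 5 ∨ p = 7 ∨ p = 11) ∧ ∃ (F : Type) (_ : Field F) (_ : Fintype F), Fintype.card F = p ∧ Nonempty (G ≃* Matrix.ProjectiveSpecialLinearGroup (Fin 2) F) := by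
  classical
  have hp : p.Prime := Fact.out
  have hα' : Nat.card α = p := by simpa using hα
  obtain ⟨x, e, hx, hP, hc⟩ := exists_zcoord hα' P
  obtain ⟨χ, hχ, hu⟩ := huniq
  have h1 := charDegree_sq_le χ
  rw [hχ] at h1
  have hC : Subgroup.centralizer ({x} : Set G) = Subgroup.zpowers x := by
    refine le_antisymm (fun g hg => ?_) (Subgroup.zpowers_le_of_mem (Subgroup.mem_centralizer_singleton_iff.2 rfl))
    obtain ⟨b, hb⟩ := smul_coord hx hc ⟨g, mem_Nx_of_comm (Subgroup.mem_centralizer_singleton_iff.1 hg).symm⟩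
    rw [(expo_eq_one_iff hx _).2 (Subgroup.mem_centralizer_singleton_iff.1 hg).symm] at hb
    rw [show g = x ^ b.val from eq_of_smul_eq_smul (α := α) fun a => by
      obtain ⟨j, rfl⟩ := e.surjective a
      rw [pow_smul_coord hc, hb]; simp]
    exact pow_mem (Subgroup.mem_zpowers x) _
  rw [← hP] at hPE hPE'
  have H : Ito x e E χ := ⟨defOne_bot hx hC, hc, fun h => ?_, hPE, hPE', hNE, fun g m hm m1 h => ?_, χ.2, ?_,
    fun ψ h h' => congrArg Subtype.val (hu ⟨ψ, h⟩ (charDegree_eq_of_apply_one h')), ?_⟩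
  · have := H.simple
    rcases Nat.even_or_odd (Nat.card E) with h | h
    · obtain ⟨rfl, h2⟩ := H.even (even_iff_two_dvd.1 h)
      exact ⟨Or.inl rfl, ZMod 5, _, _, ZMod.card 5, equiv_PSL_of_card (d := 2) rfl le_rfl h2 (ZMod.card 5)⟩
    · have := Fintype.ofFinite G
      exact ⟨Or.inr (H.odd h).1, ZMod p, _, _, ZMod.card p, (H.odd h).2⟩
  · have h2 := index_dvd_of_aff hc ⊤ fun g _ => h g
    rw [← Subgroup.relIndex, Subgroup.relIndex_top_right] at h2
    have h3 := (Subgroup.zpowers x).index_mul_card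
    have h4 := hp.two_le
    have h5 := Nat.le_of_dvd (by omega) h2
    rw [Nat.card_zpowers, hx] at h3
    rw [← h3, sq] at h1
    have := Nat.le_of_mul_le_mul_right h1 hp.pos
    omega
  · by_contra hg
    have := (hTI g hg).le ⟨h, m, hm, rfl⟩
    exact m1 (by simpa using this)
  · obtain ⟨n, hn⟩ := IsCharacter.exists_nat_apply_one (IsIrrCharacter.isCharacter χ.2)
    rw [hn, ← hχ, charDegree_eq_of_apply_one hn]
  · rintro rfl
    rw [Subgroup.normalizer_eq_top_iff.2 inferInstance, Subgroup.card_top, Subgroup.card_bot] at hNE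
    have := hp.two_le
    nlinarith

end Cfsg.Agent.S4724
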