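import Cfsg.Statements.S4726
import Cfsg.Agent.BMod.Ker

set_option autoImplicit false
open Cfsg

namespace Cfsg.Agent.S4726

open Cfsg.Agent.Block Cfsg.Agent.BMod Cfsg.Agent.Char MonoidAlgebra


/-- Let p be a prime, M a maximal ideal of the algebraic integers containing p, H a subgroup of the finite group G and b a p-block of H with defect group D₀ such that C_G(D₀) ≤ H. Then b induces a block of G, and for every block B of G induced by b there is a defect group D of B with Z(D) ≤ Z(D₀) ≤ D₀ ≤ D (as subgroups of G). In particular, if the defect groups of B are abelian then D₀ is a defect group of B. -/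
theorem result {G : Type*} [Group G] [Finite G] (p : ℕ) [Fact p.Prime] (M : Ideal Cfsg.AlgInt) (hM : Cfsg.IsPModular p M) (H : Subgroup G) (b : Set (Cfsg.IrrCharacter ↥H)) (hb : Cfsg.IsPBlock M b) (D₀ : Subgroup ↥H) (hD₀ : Cfsg.IsDefectGroup p M b D₀) (hC : Subgroup.centralizer ((D₀.map H.subtype : Subgroup G) : Set G) ≤ H) : Cfsg.InducedBlockDefined M H b ∧ ∀ B : Set (Cfsg.IrrCharacter G), Cfsg.IsInducedBlock M H b B → (∃ D : Subgroup G, Cfsg.IsDefectGroup p M B D ∧ (Subgroup.center ↥D).map D.subtype ≤ ((Subgroup.center ↥D₀).map D₀.subtype).map H.subtype ∧ ((Subgroup.center ↥D₀).map D₀.subtype).map H.subtype ≤ D₀.map H.subtype ∧ D₀.map H.subtype ≤ D) ∧ (∀ D : Subgroup G, Cfsg.IsDefectGroup p M B D → IsMulCommutative ↥D → Cfsg.IsDefectGroup p M B (D₀.map H.subtype)) := by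
  haveI : PMod p M := ⟨hM⟩
  have hD := (isDefectGroup_iff_isDef_eS hb).1 hD₀
  obtain ⟨ξ, hξ⟩ := IsPBlock.nonempty hb
  have hZ : ∀ (K : Subgroup G) (x : G), x ∈ (Subgroup.center K).map K.subtype ↔
      x ∈ K ∧ x ∈ Subgroup.centralizer (K : Set G) := fun K x =>
    ⟨by rintro ⟨y, hy, rfl⟩
        exact ⟨y.2, fun k hk => congrArg Subtype.val (Subgroup.mem_center_iff.1 hy ⟨k, hk⟩)⟩,
      fun h => ⟨⟨x, h.1⟩, Subgroup.mem_center_iff.2 fun k => Subtype.ext (h.2 k k.2), rfl⟩⟩
  have h1 : ∀ x : (F M)[G], br (D₀.map H.subtype) (trunc (H : Set G) x) = br (D₀.map H.subtype) x :=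
    fun x => by
    ext g
    by_cases hg : g ∈ Subgroup.centralizer (D₀.map H.subtype : Set G)
    · rw [coeff_br_of_mem _ hg, coeff_br_of_mem _ hg, coeff_trunc_of_mem _ (hC hg)]
    · rw [coeff_br_of_notMem _ hg, coeff_br_of_notMem _ hg]
  refine ⟨inducedBlockDefined_of_mul hb hξ fun x hx y hy => ?_, fun B hB => ?_⟩
  · have hx' := BMod.trunc_mem_Zc (center_mem_fix hx H)
    have hy' := BMod.trunc_mem_Zc (center_mem_fix hy H)
    rw [← lamS_trunc H ξ x, ← lamS_trunc H ξ y, ← lamS_mul ξ hx' hy', ← sub_eq_zero, ← map_sub]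
    by_contra h
    refine br_ne_zero_of_lamS hb hξ hD (sub_mem (center_mem_fix (mul_mem hx hy) H)
      (mul_mem hx'.1 hy'.1)) h ?_
    rw [h1, map_sub, br_mul hD.pgroup (center_mem_fix hx _) (center_mem_fix hy _),
      br_mul hD.pgroup (fix_anti hD.le hx'.1) (fix_anti hD.le hy'.1), h1, h1, sub_self]
  have he := (eS_mem_Zc (M := M) H b).1
  obtain ⟨f, hf, h2⟩ := exists_isPair_mul_br hD.pgroup (isPrim_eS hb).idem (fix_anti hD.le he)
    (fix_anti hC he) hD.br_ne
  obtain ⟨D, g, h3, h4⟩ := exists_ple_isDef le_rfl top_le_normalizer_top (isPrim_eB hB.2.1) hf le_top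
    le_top (mul_br_eB_of_induced hB hD.le hC hf h2)
  have h5 : D ⊓ Subgroup.centralizer (D : Set G) ≤ D₀.map H.subtype := by
    have h6 := inf_le_right.trans (centralizer_anti h3.le) (a := D ⊓ Subgroup.centralizer (D : Set G))
    have h7 := h6.trans (centralizer_le_normalizer' _)
    have h8 := h4.pgroup.to_le (inf_le_left (b := Subgroup.centralizer (D : Set G)))
    refine le_sup_left.trans (hD.eq_of_le (sup_le (h6.trans hC) hD.le)
      (h8.to_sup_of_normal_right' hD.pgroup h7) (fun h => ?_) le_sup_right).le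
    refine h3.br_ne_zero (h3.right hf) (le_inf inf_le_left h7) ?_
    rw [← h2, br_mul h8 (fix_anti h6 hf.fix_centralizer) (br_mem_fix h7 (fix_anti (h6.trans hC) he)),
      br_br_sup, h, mul_zero]
  have h6 := (isDefectGroup_iff_isDef hB.2.1).2 h4
  refine ⟨⟨D, h6, fun x hx => ?_, Subgroup.map_mono (Subgroup.map_subtype_le _), h3.le⟩,
    fun E hE hc => ?_⟩
  · obtain ⟨y, hy, rfl⟩ := h5 ((hZ D x).1 hx)
    exact ⟨y, ⟨⟨y, hy⟩, Subgroup.mem_center_iff.2 fun k => Subtype.ext (Subtype.ext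
      (((hZ D _).1 hx).2 k (h3.le ⟨k, k.2, rfl⟩))), rfl⟩, rfl⟩
  · obtain ⟨k, rfl⟩ := IsDefectGroup.exists_sc_eq hB.2.1 hE h6
    rw [show D₀.map H.subtype = sc k E from le_antisymm h3.le fun x hx => h5 ⟨hx, ?_⟩]
    · exact h6
    rw [centralizer_sc]
    exact sc_mono k (show E ≤ Subgroup.centralizer (E : Set G) from
      fun a ha c hc' => congrArg Subtype.val (hc.is_comm.comm ⟨c, hc'⟩ ⟨a, ha⟩)) hx

end Cfsg.Agent.S4726
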