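import Cfsg.Statements.S4727
import Cfsg.Agent.BMod.Ker
-- import your own Cfsg.Agent.* helpers here

set_option autoImplicit false
open Cfsg

namespace Cfsg.Agent.S4727

open Cfsg.Agent.BMod Cfsg.Agent.Block Cfsg.Agent.Transfer Cfsg.Agent.Char Cfsg.Agent.CharDeep Cfsg.Agent.Solv

/-- Let p be a prime, π a set of primes containing p, M a maximal ideal of the algebraic integers containing p, and B a p-block of the finite group G with defect group D; let B₁ be the block of N_G(D) with defect group D that induces B (the Brauer correspondent of B). Suppose every element of O_π'(N_G(D)), the largest normal subgroup of N_G(D) whose order has no prime divisor in π, lies in the kernel of every member of B₁. If y is a p-element whose centralizer C has a normal Hall π'-subgroup (every element of C whose order has no prime divisor in π lies in O_π'(C)), then χ(y x) = χ(y) for every χ ∈ B and every x ∈ C whose order has no prime divisor in π. -/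
theorem result {G : Type*} [Group G] [Finite G] (p : ℕ) [Fact p.Prime] (M : Ideal Cfsg.AlgInt) (hM : Cfsg.IsPModular p M) (π : Set ℕ) (hpπ : p ∈ π) (B : Set (Cfsg.IrrCharacter G)) (hB : Cfsg.IsPBlock M B) (D : Subgroup G) (hBD : Cfsg.IsDefectGroup p M B D) (B₁ : Set (Cfsg.IrrCharacter ↥(Subgroup.normalizer (D : Set G)))) (hB₁ : Cfsg.IsInducedBlock M (Subgroup.normalizer (D : Set G)) B₁ B) (hB₁D : Cfsg.IsDefectGroup p M B₁ (D.subgroupOf (Subgroup.normalizer (D : Set G)))) (hker : ∀ n : ↥(Subgroup.normalizer (D : Set G)), n ∈ Cfsg.piCore {q | q ∉ π} ↥(Subgroup.normalizer (D : Set G)) → n ∈ Cfsg.blockKer B₁) (y : G) (hy : ∃ k : ℕ, orderOf y = p ^ k) (hC : ∀ x : ↥(Subgroup.centralizer ({y} : Set G)), (∀ q : ℕ, q.Prime → q ∣ orderOf x → q ∉ π) → x ∈ Cfsg.piCore {q | q ∉ π} ↥(Subgroup.centralizer ({y} : Set G))) : ∀ χ ∈ B, ∀ x : G, x ∈ Subgroup.centralizer ({y} : Set G) → (∀ q : ℕ, q.Prime → q ∣ orderOf x → q ∉ π) → (χ : G → ℂ) (y * x) = (χ : G → ℂ) y := by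
  haveI : PMod p M := ⟨hM⟩
  have hσ : p ∉ {q | q ∉ π} := fun h => h hpπ
  intro χ hχ x hx hx'
  have hxp : ¬ p ∣ orderOf x := fun h => hx' p Fact.out h hpπ
  have hc : Commute y x := (Subgroup.mem_centralizer_singleton_iff.1 hx).symm
  have hy1 : IsPPart p y y := ⟨1, mul_one _, Commute.one_right _, hy, by
    simpa using (Fact.out : p.Prime).ne_one⟩
  have hy2 : IsPPart p (y * x) y := ⟨x, rfl, hc, hy, hxp⟩
  have hU := IsPBlock.isBlockUnion hB
  have e1 := blockPart_section_centralizer (irrC χ) hU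
    (h := ⟨y, self_mem_centralizer y⟩ * ⟨x, hx⟩) hy2
  have e2 := blockPart_section_centralizer (irrC χ) hU (h := ⟨y, self_mem_centralizer y⟩) hy1
  rw [blockPart_irr_of_mem hχ] at e1 e2
  refine e1.trans (Eq.trans (blockPart_apply_eq_of_forall _ fun ξ hξ => ?_) e2.symm)
  refine ξ.2.isCharacter.apply_mul_of_apply_eq' ?_ _
  have hs := isSub_centralizer (p := p) hy
  obtain ⟨b, hb, hξb⟩ : ∃ b, IsPBlock M b ∧ ξ ∈ b := ⟨_, isPBlock_blockOf ξ, mem_blockOf_self ξ⟩
  have hi := (hs.isInducedBlock_iff hb hB).2 fun ξ' h' =>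
    isBlockUnion_corr ξ hξ ξ' (IsPBlock.sameBlock hb hξb h')
  have hP : IsPGroup p (Subgroup.zpowers y) := by
    obtain ⟨k, hk⟩ := hy
    exact IsPGroup.of_card (by rw [Nat.card_zpowers, hk])
  have hcz := centralizer_zpowers y
  have hf : IsPair p (Subgroup.zpowers y) (eS M _ b) :=
    ⟨hP, by rw [hcz]; exact isPrim_eS hb⟩
  have h0 := mul_br_eB_of_induced hi (zpowers_le_centralizer y) hcz.le hf
    (by rw [hf.br_self]; exact hf.2.idem)
  have h1 := kerP_of_br hσ (isPrim_eB hB) ((isDefectGroup_iff_isDef hB).1 hBD)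
    ((kerP_br_iff hσ hBD hB₁).2 hker) hf h0
  rw [KerP, hcz] at h1
  exact (eS_mul_av_iff (piCoreOf_le _ _) (le_normalizer_piCoreOf _ _) (not_dvd_piCoreOf hσ _)
    (IsPBlock.isBlockUnion hb)).1 h1 ξ hξb _
    (mem_piCoreOf_coe.2 (hC ⟨x, hx⟩ (by simpa using hx')))

end Cfsg.Agent.S4727
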