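import Cfsg.Statements.S4728
import Cfsg.Agent.BMod.Ker
-- import your own Cfsg.Agent.* helpers here

set_option autoImplicit false
open Cfsg

namespace Cfsg.Agent.S4728

open Cfsg.Agent.BMod Cfsg.Agent.Block Cfsg.Agent.Transfer Cfsg.Agent.Char Cfsg.Agent.CharDeep Cfsg.Agent.Solv

/-- Let p be a prime, π a set of primes containing p, M a maximal ideal of the algebraic integers containing p, B a p-block of the finite group G with defect group D, and B₁ the block of N_G(D) with defect group D inducing B. Let D₀ be a p-subgroup, H₀ = D₀·C_G(D₀), and b a block of H₀ inducing B. Write O_π'(X) for the largest normal subgroup of X whose order has no prime divisor in π. Suppose that O_π'(C_G(D₀)) is a normal Hall π'-subgroup of C_G(D₀) (it contains every element of C_G(D₀) whose order has no prime divisor in π) and that every element of it lies in the kernel of every member of b. Then every element of O_π'(N_G(D)) lies in the kernel of every member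 of B₁. -/
theorem result {G : Type*} [Group G] [Finite G] (p : ℕ) [Fact p.Prime] (M : Ideal Cfsg.AlgInt) (hM : Cfsg.IsPModular p M) (π : Set ℕ) (hpπ : p ∈ π) (B : Set (Cfsg.IrrCharacter G)) (hB : Cfsg.IsPBlock M B) (D : Subgroup G) (hBD : Cfsg.IsDefectGroup p M B D) (B₁ : Set (Cfsg.IrrCharacter ↥(Subgroup.normalizer (D : Set G)))) (hB₁ : Cfsg.IsInducedBlock M (Subgroup.normalizer (D : Set G)) B₁ B) (hB₁D : Cfsg.IsDefectGroup p M B₁ (D.subgroupOf (Subgroup.normalizer (D : Set G)))) (D₀ : Subgroup G) (hD₀ : IsPGroup p D₀) (H₀ : Subgroup G) (hH₀ : H₀ = D₀ ⊔ Subgroup.centralizer (D₀ : Set G)) (b : Set (Cfsg.IrrCharacter ↥H₀)) (hb : Cfsg.IsInducedBlock M H₀ b B) (hcompl : ∀ x : ↥(Subgroup.centralizer (D₀ : Set G)), (∀ q : ℕ, q.Prime → q ∣ orderOf x → q ∉ π) → x ∈ Cfsg.piCore {q | q ∉ π} ↥(Subgroup.centralizer (D₀ : Set G))) (hkerb : ∀ x : ↥(Subgroup.centralizer (D₀ : Set G)), x ∈ Cfsg.piCore {q | q ∉ π} ↥(Subgroup.centralizer (D₀ : Set G))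 → ∀ θ ∈ b, ∀ h : ↥H₀, (h : G) = (x : G) → (θ : ↥H₀ → ℂ) h = (θ : ↥H₀ → ℂ) 1) : ∀ n : ↥(Subgroup.normalizer (D : Set G)), n ∈ Cfsg.piCore {q | q ∉ π} ↥(Subgroup.normalizer (D : Set G)) → n ∈ Cfsg.blockKer B₁ := by
  haveI : PMod p M := ⟨hM⟩
  have hσ : p ∉ {q | q ∉ π} := fun h => h hpπ
  subst hH₀
  have hC := centralizer_le_normalizer' D₀
  have hN : D₀ ⊔ Subgroup.centralizer (D₀ : Set G) ≤ Subgroup.normalizer (D₀ : Set G) :=
    sup_le Subgroup.le_normalizer hC
  have h1 := (isPrim_Zc_iff_centralizer hD₀ le_sup_left hN le_rfl).1 (isPrim_eS hb.1)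
  rw [inf_eq_right.2 le_sup_right] at h1
  have hf : IsPair p D₀ (eS M _ b) := by
    refine ⟨hD₀, Zc_mono le_sup_right le_rfl h1.mem, h1.idem, h1.ne_zero, fun f hf hi => ?_⟩
    exact h1.prim f ⟨fix_sup (mem_fix_of_supp_centralizer hf.2) hf.1, hf.2⟩ hi
  refine (kerP_br_iff hσ hBD hB₁).1 (kerP_br hσ (isPrim_eB hB) ((isDefectGroup_iff_isDef hB).1 hBD)
    hf ((isInducedBlock_iff_br hD₀ le_sup_left le_sup_right hN).1 hb).2.2 ?_ ?_)
  · intro x hx hx'
    exact (mem_piCoreOf_coe (h := ⟨x, hx⟩)).2 (hcompl _ (by simpa [IsPiNum] using hx'))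
  · refine (eS_mul_av_iff ((piCoreOf_le _ _).trans le_sup_right) ((hN.trans
      (BMod.normalizer_le_normalizer_centralizer _)).trans (normalizer_le_normalizer_piCoreOf _ _))
      (not_dvd_piCoreOf hσ _) (IsPBlock.isBlockUnion hb.1)).2 fun ξ hξ h hh => ?_
    exact hkerb ⟨h, piCoreOf_le _ _ hh⟩ (mem_piCoreOf_coe.1 hh) ξ hξ h rfl

end Cfsg.Agent.S4728
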