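import Cfsg.Statements.S4729
import Cfsg.Agent.Block.Count2
import Cfsg.Agent.CharDeep.Det

set_option autoImplicit false
open Cfsg

namespace Cfsg.Agent.S4729

open Cfsg.Agent.Block Cfsg.Agent.BMod Cfsg.Agent.Char MonoidAlgebra

lemma dvd_mult {p : ℕ} [Fact p.Prime] {M : Ideal AlgInt} [PMod p M] {n o : ℕ} (ho : ¬ p ∣ o)
    {ζ : Fin n → ℂ} (h : ∀ i, ζ i ^ o = 1) (h1 : ∀ k : ℕ, red M (∑ i, ζ i ^ k) = n) {j : Fin n}
    (hj : ζ j ≠ 1) [DecidablePred fun i => ζ i = ζ j] :
    p ∣ (Finset.univ.filter fun i => ζ i = ζ j).card := by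
  have h0 : o ≠ 0 := by rintro rfl; exact ho (dvd_zero p)
  have hO := fun i => mem_O_of_pow_eq_one (M := M) h0 (h i)
  have hj0 := red_ne_zero_of_pow (M := M) h0 (h j)
  have geo : ∀ x : F M, x ^ o = 1 → x ≠ 1 → ∑ k ∈ Finset.range o, x ^ k = 0 := fun x h1 h2 => by
    rw [geom_sum_eq h2, h1, sub_self, zero_div]
  have hp : ∀ i, red M (ζ i) ^ o = 1 := fun i => by rw [← red_pow (hO i), h, red_one]
  have h2 : ∑ i, ∑ k ∈ Finset.range o, (red M (ζ i) / red M (ζ j)) ^ k = 0 := by
    rw [Finset.sum_comm]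
    simp only [div_pow, ← Finset.sum_div, ← red_pow (hO _), ← red_sum _ fun i _ => pow_mem (hO i) _,
      h1]
    simp only [red_pow (hO _), div_eq_mul_inv, ← inv_pow, ← Finset.mul_sum]
    rw [geo _ (by rw [inv_pow, hp, inv_one]) (by
      rw [Ne, inv_eq_one]; exact mt (eq_one_of_red_eq_one ho (h j)) hj), mul_zero]
  rw [Finset.sum_congr rfl (g := fun i => if ζ i = ζ j then (o : F M) else 0) fun i _ => ?_,
    ← Finset.sum_filter, Finset.sum_const, nsmul_eq_mul, mul_eq_zero, natCast_F_eq_zero_iff,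
    natCast_F_eq_zero_iff] at h2
  · exact h2.resolve_right ho
  split_ifs with h3
  · simp [h3, hj0]
  · exact geo _ (by rw [div_pow, hp, hp, div_one]) fun h4 =>
      h3 (eq_of_red_eq_of_pow ho (h i) (h j) ((div_eq_one_iff_eq hj0).1 h4))

/-- Let p be a prime, M a maximal ideal of the algebraic integers containing p, G a finite perfect group and P a Sylow p-subgroup. If the principal p-block of G contains a faithful irreducible character of degree less than 2p, then the centralizer of P is a p-group. -/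
theorem result {G : Type*} [Group G] [Finite G] (p : ℕ) [Fact p.Prime] (M : Ideal Cfsg.AlgInt) (hM : Cfsg.IsPModular p M) (hperf : commutator G = ⊤) (P : Sylow p G) (χ : Cfsg.IrrCharacter G) (hχ : χ ∈ Cfsg.principalBlock M G) (hfaith : ∀ g : G, (χ : G → ℂ) g = (χ : G → ℂ) 1 → g = 1) (hdeg : Cfsg.charDegree (χ : G → ℂ) < 2 * p) : IsPGroup p ↥(Subgroup.centralizer ((P : Subgroup G) : Set G)) := by
  classical
  have : PMod p M := ⟨hM⟩
  have hp : p.Prime := Fact.out
  suffices h : ∀ y ∈ Subgroup.centralizer ((P : Subgroup G) : Set G), ¬ p ∣ orderOf y → y = 1 by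
    intro g
    obtain ⟨x, hx⟩ := exists_isPPart p g
    obtain ⟨k, hk⟩ := hx.orderOf_eq
    have := h _ (x⁻¹ * g).2 (by rw [Subgroup.orderOf_coe]; exact hx.not_dvd)
    rw [OneMemClass.coe_eq_one, inv_mul_eq_one] at this
    exact ⟨k, by rw [← this, ← hk, pow_orderOf_eq_one]⟩
  intro y hy ho
  obtain ⟨n, ρ, hρ⟩ := χ.2.isCharacter
  obtain ⟨ζ, h1, h2, h3⟩ := exists_eigenvalues_rep ρ y
  have hn : charDegree (χ : G → ℂ) = _ := hρ ▸ charDegree_character ρ
  have h4 : ∏ i, ζ i = 1 := by
    rw [← h3, ← CharDeep.detChar_character, hρ, ← CharDeep.coe_detHom χ.2.isCharacter,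
      Units.val_eq_one, ← MonoidHom.mem_ker]
    exact Abelianization.commutator_subset_ker _ (hperf ▸ Subgroup.mem_top y)
  have h5 := fun j => dvd_mult (M := M) ho h1 (j := j) fun k => by
    have h6 := red_div_of_principal hχ (not_dvd_index_centralizer P (pow_mem hy k))
    have h7 := h2 k
    simp only [zpow_natCast] at h7
    rw [← h7, hρ, ← div_mul_cancel₀ ((χ : G → ℂ) (y ^ k)) χ.2.apply_one_ne_zero,
      red_mul (mem_O_of_red_ne_zero (h6 ▸ one_ne_zero)) (irr_mem_O _ _), h6, one_mul,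
      ← deg_cast_irr, red_natCast, hn]
  have h6 : ∀ j, ζ j ≠ 1 → p ≤ (Finset.univ.filter fun i => ζ i = ζ j).card := fun j hj =>
    Nat.le_of_dvd (Finset.card_pos.2 ⟨j, by simp⟩) (h5 j hj)
  have h7 : ∀ j, ζ j = 1 := fun j => by
    by_contra hj
    have h8 : ∀ i, ζ i ≠ ζ j → ζ i = 1 := fun i hi => by
      by_contra h
      have h9 := Finset.card_le_univ ((Finset.univ.filter fun k => ζ k = ζ i) ∪
        Finset.univ.filter fun k => ζ k = ζ j)
      rw [Finset.card_union_of_disjoint (Finset.disjoint_filter.2 fun k _ h h' => hi (h.symm.trans h')),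
        Fintype.card_fin] at h9
      have := h6 i h
      have := h6 j hj
      omega
    have h9 : (Finset.univ.filter fun i => ζ i = ζ j).card = p := by
      obtain ⟨c, hc⟩ := h5 j hj
      have h9 := Finset.card_le_univ (Finset.univ.filter fun k => ζ k = ζ j)
      have := h6 j hj
      rw [Fintype.card_fin, hc] at h9
      have : c = 1 := by
        have := hp.pos
        have : c < 2 := by nlinarith
        have : c ≠ 0 := by rintro rfl; omega
        omega
      rw [hc, this, mul_one]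
    rw [← Finset.prod_filter_of_ne (p := fun i => ζ i = ζ j) fun i _ h => by_contra fun h' =>
      h (h8 i h'), Finset.prod_congr rfl fun i hi => (Finset.mem_filter.1 hi).2, Finset.prod_const,
      h9] at h4
    exact hj ((pow_eq_one_iff_of_coprime (hp.coprime_iff_not_dvd.2 ho)).1 ⟨h4, h1 j⟩)
  refine hfaith y ?_
  have := h2 1
  rw [zpow_one, hρ] at this
  rw [this, ← deg_cast_irr, hn]
  simp [h7]

end Cfsg.Agent.S4729
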