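import Cfsg.Statements.S4730
import Cfsg.Agent.Block.Count2

set_option autoImplicit false
open Cfsg

namespace Cfsg.Agent.S4730

open Cfsg.Agent.Block Cfsg.Agent.BMod Cfsg.Agent.Char MonoidAlgebra


/-- Let p be a prime, M a maximal ideal of the algebraic integers containing p, and G a finite group with trivial centre, Sylow p-subgroup P of order p^a and centre Z(P) of order p^b. If χ is a faithful irreducible character of G whose degree is a power of p, then the p-block of χ has defect at most a − b; in particular, if P is abelian then χ lies in a block of defect zero. -/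
theorem result {G : Type*} [Group G] [Finite G] (p : ℕ) [Fact p.Prime] (M : Ideal Cfsg.AlgInt) (hM : Cfsg.IsPModular p M) (hZ : Subgroup.center G = ⊥) (P : Sylow p G) (a b : ℕ) (ha : Nat.card P = p ^ a) (hb : Nat.card (Subgroup.center ↥(P : Subgroup G)) = p ^ b) (χ : Cfsg.IrrCharacter G) (hfaith : ∀ g : G, (χ : G → ℂ) g = (χ : G → ℂ) 1 → g = 1) (n : ℕ) (hdeg : Cfsg.charDegree (χ : G → ℂ) = p ^ n) : Cfsg.blockDefect p (Cfsg.blockOf M (χ : G → ℂ)) ≤ a - b ∧ (IsMulCommutative ↥(P : Subgroup G) → Cfsg.blockDefect p (Cfsg.blockOf M (χ : G → ℂ)) = 0) := by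
  classical
  have : PMod p M := ⟨hM⟩
  have hp : p.Prime := Fact.out
  have := Fintype.ofFinite G
  have hB := isPBlock_blockOf (M := M) χ
  suffices h : blockDefect p (blockOf M (χ : G → ℂ)) ≤ a - b by
    refine ⟨h, fun hc => ?_⟩
    rw [Subgroup.center_eq_top, Subgroup.card_top, ha] at hb
    rw [Nat.pow_right_injective hp.two_le hb] at h
    omega
  obtain ⟨ψ, hψ, h0⟩ := exists_height_zero p (IsPBlock.nonempty hB)
  set Z := Subgroup.center (P : Subgroup G)
  have h1 : ∀ z : Z, z ≠ 1 → (ψ : G → ℂ) z / (ψ : G → ℂ) 1 ∈ O M ∧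
      red M ((ψ : G → ℂ) z / (ψ : G → ℂ) 1) = 0 := fun z hz => by
    have h2 := not_dvd_index_centralizer P (g := z) fun x hx =>
      congrArg Subtype.val (Subgroup.mem_center_iff.1 z.2 ⟨x, hx⟩)
    have h3 : (χ : G → ℂ) z = 0 := (χ.2.eq_zero_or_mem_charCenter z (by
      rw [hdeg]; exact (hp.coprime_iff_not_dvd.2 h2).pow_left _)).resolve_right fun h => by
        have := χ.2.isCharacter.charCenter_le_center (eq_bot_iff.2 fun g hg =>
          hfaith g (χ.2.isCharacter.mem_charKer.1 hg)) h
        rw [hZ] at this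
        exact hz (Subtype.ext (Subtype.ext this))
    have h4 := (sameBlock_iff_red χ.2 ψ.2).1 hψ z
    have h5 := red_natCast_ne_zero (M := M) h2
    rw [centralChar, h3, mul_zero, zero_div, red_zero] at h4
    have : (ψ : G → ℂ) z / (ψ : G → ℂ) 1 = centralChar (ψ : G → ℂ) z /
        (Subgroup.centralizer ({(z : G)} : Set G)).index := by
      have := ne_zero_of_red_ne_zero h5
      rw [centralChar]; field_simp
    rw [this, red_div (centralChar_mem_O ψ.2 _) h5, ← h4, zero_div]
    exact ⟨div_mem_O (centralChar_mem_O ψ.2 _) h5, rfl⟩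
  have h2 : ∀ z : Z, (ψ : G → ℂ) z / (ψ : G → ℂ) 1 ∈ O M := fun z => by
    by_cases hz : z = 1
    · simp [hz, ψ.2.apply_one_ne_zero]
    · exact (h1 z hz).1
  have h3 : red M (∑ z : Z, (ψ : G → ℂ) z / (ψ : G → ℂ) 1) ≠ 0 := by
    rw [red_sum _ fun z _ => h2 z, Finset.sum_eq_single 1 (fun z _ hz => (h1 z hz).2) (by simp)]
    simp [ψ.2.apply_one_ne_zero]
  obtain ⟨m, hm⟩ := ((ψ.2.isCharacter.restrict (P : Subgroup G)).restrict Z).exists_nat_classInner
    isCharacter_one
  have h4 : (charDegree (ψ : G → ℂ) : ℂ) / Nat.card Z ∈ O M := by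
    convert div_mem_O (natCast_mem _ m) h3 using 1
    have := ne_zero_of_red_ne_zero h3
    rw [← Finset.sum_div, div_ne_zero_iff] at this
    rw [← hm, classInner_one_right, ← Finset.sum_div, deg_cast_irr]
    field_simp [this.1]
  have h5 := factorization_le_of_div_mem_O (deg_ne_zero ψ.2) Nat.card_pos.ne' h4
  have h6 := deg_add_defect p hψ
  rw [P.card_eq_multiplicity] at ha
  rw [hb, Nat.factorization_pow_self hp] at h5
  have := Nat.pow_right_injective hp.two_le ha
  omega

end Cfsg.Agent.S4730
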