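import Cfsg.Statements.S4731
import Cfsg.Agent.Block.Count2

set_option autoImplicit false
open Cfsg

namespace Cfsg.Agent.S4731

open Cfsg.Agent.Block Cfsg.Agent.BMod Cfsg.Agent.Char MonoidAlgebra


/-- Let p ≠ q be primes, M_p and M_q maximal ideals of the algebraic integers containing p and q respectively, and G a finite group with no element of order pq; let q^b be the q-part of the order of G. For a p-block B_p (relative to M_p), a q-block B_q (relative to M_q) and a p-singular element y, the sum of χ(1)χ(y) over the irreducible characters χ lying in both B_p and B_q is q^b times an algebraic integer. -/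
theorem result {G : Type*} [Group G] [Finite G] (p q : ℕ) [Fact p.Prime] [Fact q.Prime] (hpq : p ≠ q) (Mp Mq : Ideal Cfsg.AlgInt) (hMp : Cfsg.IsPModular p Mp) (hMq : Cfsg.IsPModular q Mq) (hno : ∀ g : G, orderOf g ≠ p * q) (b : ℕ) (hb : (Nat.card G).factorization q = b) (Bp : Set (Cfsg.IrrCharacter G)) (hBp : Cfsg.IsPBlock Mp Bp) (Bq : Set (Cfsg.IrrCharacter G)) (hBq : Cfsg.IsPBlock Mq Bq) (y : G) (hy : p ∣ orderOf y) : ∃ ω : Cfsg.AlgInt, ∑ᶠ χ ∈ Bp ∩ Bq, (Cfsg.charDegree (χ : G → ℂ) : ℂ) * (χ : G → ℂ) y = (q : ℂ) ^ b * (ω : ℂ) := by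
  classical
  have : PMod p Mp := ⟨hMp⟩
  have : PMod q Mq := ⟨hMq⟩
  have := Fintype.ofFinite G
  obtain ⟨Q⟩ : Nonempty (Sylow q G) := inferInstance
  have hp : p.Prime := Fact.out
  have hq : q.Prime := Fact.out
  obtain ⟨z, hz⟩ := exists_isPPart p y⁻¹
  have h1 : ∀ g, q ∣ orderOf g → col (Bp ∩ Bq) y⁻¹ g = 0 := fun g hg => by
    rw [Set.inter_comm, ← blockPart_col, ← blockPart_col_univ, blockPart_blockPart, Set.inter_self,
      ← blockPart_blockPart, blockPart_col_univ]
    refine blockPart_eq_zero_of_singular hBq.isBlockUnion (fun g hg => ?_) hg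
    refine col_eq_zero hBp.isBlockUnion hz (isPPart_one_iff.2 fun h => ?_) fun h => ?_
    · have h2 := (Nat.coprime_primes hp hq).2 hpq |>.mul_dvd_of_dvd_of_dvd h hg
      exact hno _ (orderOf_pow_orderOf_div (orderOf_pos g).ne' h2)
    · exact hz.eq_one_iff.1 (isConj_one_left.1 h) (by rwa [orderOf_inv])
  have h2 : IsIntegral ℤ (classInner (fun u : (Q : Subgroup G) => col (Bp ∩ Bq) y⁻¹ u) fun _ => 1) := by
    have : (fun u : (Q : Subgroup G) => col (Bp ∩ Bq) y⁻¹ u) = ∑ χ : IrrCharacter G,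
        (if χ ∈ Bp ∩ Bq then (χ : G → ℂ) y else 0) • fun u : (Q : Subgroup G) => (χ : G → ℂ) u := by
      ext u; simp only [col, Finset.sum_apply, Pi.smul_apply, inv_inv]
    rw [this, classInner_sum_left]
    refine IsIntegral.sum _ fun χ _ => ?_
    obtain ⟨n, hn⟩ := (χ.2.isCharacter.restrict (Q : Subgroup G)).exists_nat_classInner isCharacter_one
    rw [classInner_smul_left, hn]
    refine IsIntegral.mul ?_ (isIntegral_natCast n)
    split_ifs
    exacts [χ.2.isCharacter.isIntegral y, isIntegral_zero]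
  refine ⟨⟨_, h2⟩, ?_⟩
  dsimp only
  rw [classInner_one_right, Finset.sum_eq_single 1 (fun u _ hu => h1 _ (by_contra fun h =>
    hu (Subtype.ext (eq_one_of_orderOf_pow_of_not_dvd (orderOf_eq_pow_of_mem Q.isPGroup' u.2) h))))
    (by simp), Q.card_eq_multiplicity, hb, Nat.cast_pow, mul_inv_cancel_left₀
      (pow_ne_zero _ (Nat.cast_ne_zero.2 hq.ne_zero)), col_apply, finsum_mem_irr]
  simp [deg_cast_irr]

end Cfsg.Agent.S4731
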