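import Cfsg.Statements.S4732
import Cfsg.Agent.BF.C
import Mathlib.FieldTheory.IsAlgClosed.AlgebraicClosure

set_option autoImplicit false
universe u v
open Cfsg

namespace Cfsg.Agent.S4732

/-- Let p be a prime. There is a function f of two natural-number arguments such that every finite group G admitting a faithful representation of degree n over a field of characteristic p, with Sylow p-subgroups of order p^m, has a normal abelian subgroup A with [G : A] < f(m, n). -/
theorem result (p : ℕ) [Fact p.Prime] : ∃ f : ℕ → ℕ → ℕ, ∀ (G : Type u) [Group G] [Finite G] (F : Type v) [Field F] [CharP F p] (n : ℕ) (ρ : Representation F G (Fin n → F)), Function.Injective ρ → ∀ m : ℕ, (Nat.card G).factorization p = m → ∃ A : Subgroup G, A.Normal ∧ IsMulCommutative A ∧ A.index < f m n := by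
  choose N hN using fun m n => Cfsg.Agent.BF.main.{u, v} p m n
  refine ⟨fun m n => (N m n).factorial + 1, fun G _ _ F _ _ n ρ hρ m hm => ?_⟩
  let K := AlgebraicClosure F
  let φ : Module.End F (Fin n → F) →* Module.End K (Fin n → K) :=
    (Matrix.toLinAlgEquiv' (R := K) (n := Fin n)).toRingEquiv.toMonoidHom.comp
      (((algebraMap F K).mapMatrix (m := Fin n)).toMonoidHom.comp
        (LinearMap.toMatrixAlgEquiv' (R := F) (n := Fin n)).toRingEquiv.toMonoidHom)
  have hφ : Function.Injective φ :=
    (Matrix.toLinAlgEquiv' (R := K) (n := Fin n)).injective.comp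
      ((Matrix.map_injective (algebraMap F K).injective).comp
        (LinearMap.toMatrixAlgEquiv' (R := F) (n := Fin n)).injective)
  obtain ⟨A, hA, hi⟩ := hN m n K (Fin n → K) (by simp) G (φ.comp ρ)
    (hm ▸ Nat.pow_succ_factorization_not_dvd Nat.card_pos.ne' Fact.out)
  refine ⟨A.normalCore, inferInstance, ⟨⟨fun a b => Subtype.ext (hρ (hφ (hA _ (A.normalCore_le a.2) _
    (A.normalCore_le b.2))))⟩⟩, Nat.lt_succ_of_le ?_⟩
  have h : A.normalCore.index ∣ A.index.factorial := by
    rw [Subgroup.normalCore_eq_ker, Subgroup.index_ker, Subgroup.index_eq_card, ← Nat.card_perm]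
    exact Subgroup.card_subgroup_dvd_card _
  exact (Nat.le_of_dvd (Nat.factorial_pos _) h).trans (Nat.factorial_le hi)

end Cfsg.Agent.S4732
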