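import Cfsg.Statements.S4734
import Cfsg.Agent.BMod.Ker
-- import your own Cfsg.Agent.* helpers here

set_option autoImplicit false
open Cfsg

namespace Cfsg.Agent.S4734

open Cfsg.Agent.BMod Cfsg.Agent.Block Cfsg.Agent.Transfer Cfsg.Agent.Char Cfsg.Agent.CharDeep Cfsg.Agent.Solv

/-- Let p be a prime, π a set of primes containing p, M a maximal ideal of the algebraic integers containing p, B a p-block of the finite group G with defect group D, and B₁ the block of N_G(D) with defect group D inducing B. Write O_π'(X) for the largest normal subgroup of X whose order has no prime divisor in π, and suppose every element of O_π'(N_G(D)) lies in the kernel of every member of B₁. Let G₀ be a subgroup and B₀ a block of G₀ with defect group D₀ such that C_G(D₀) ≤ G₀ and B₀ induces B. Then every element of O_π'(G₀) lies in the kernel of every member of B₀. -/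
theorem result {G : Type*} [Group G] [Finite G] (p : ℕ) [Fact p.Prime] (M : Ideal Cfsg.AlgInt) (hM : Cfsg.IsPModular p M) (π : Set ℕ) (hpπ : p ∈ π) (B : Set (Cfsg.IrrCharacter G)) (hB : Cfsg.IsPBlock M B) (D : Subgroup G) (hBD : Cfsg.IsDefectGroup p M B D) (B₁ : Set (Cfsg.IrrCharacter ↥(Subgroup.normalizer (D : Set G)))) (hB₁ : Cfsg.IsInducedBlock M (Subgroup.normalizer (D : Set G)) B₁ B) (hB₁D : Cfsg.IsDefectGroup p M B₁ (D.subgroupOf (Subgroup.normalizer (D : Set G)))) (hker : ∀ n : ↥(Subgroup.normalizer (D : Set G)), n ∈ Cfsg.piCore {q | q ∉ π} ↥(Subgroup.normalizer (D : Set G)) → n ∈ Cfsg.blockKer B₁) (G₀ : Subgroup G) (B₀ : Set (Cfsg.IrrCharacter ↥G₀)) (hB₀ : Cfsg.IsInducedBlock M G₀ B₀ B) (D₀ : Subgroup ↥G₀) (hD₀ : Cfsg.IsDefectGroup p M B₀ D₀) (hC : Subgroup.centralizer ((D₀.map G₀.subtype : Subgroup G) : Set G) ≤ G₀) : ∀ x : ↥G₀, x ∈ Cfsg.piCore {q | q ∉ π} ↥G₀ → x ∈ Cfsg.blockKer B₀ := by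
  haveI : PMod p M := ⟨hM⟩
  have hσ : p ∉ {q | q ∉ π} := fun h => h hpπ
  have hd := (isDefectGroup_iff_isDef_eS hB₀.1).1 hD₀
  generalize D₀.map G₀.subtype = Q at hd hC
  have he := isPrim_eS hB₀.1
  obtain ⟨f, hf, hfb⟩ := exists_isPair_mul_br hd.pgroup he.idem (fix_anti hd.le he.mem.1)
    (fix_anti hC he.mem.1) hd.br_ne
  have h1 := kerP_of_br hσ (isPrim_eB hB) ((isDefectGroup_iff_isDef hB).1 hBD)
    ((kerP_br_iff hσ hBD hB₁).2 hker) hf (mul_br_eB_of_induced hB₀ hd.le hC hf hfb)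
  have hL := not_dvd_piCoreOf hσ G₀
  have hN := le_normalizer_piCoreOf {q | q ∉ π} G₀
  have h2 := mul_av_of_le h1 (piCoreOf_inf_le hC) (not_dvd_of_isPiNum hσ
    ((isPiNum_card_piCoreOf _ _).card_of_le inf_le_left))
  have hm : av (F M) (piCoreOf {q | q ∉ π} G₀) ∈ Zc (F M) G₀ G₀ :=
    ⟨fix_anti hN (av_mem_fix _), supp_mono (piCoreOf_le _ _) (av_mem_supp _)⟩
  rcases he.prim _ hm (av_idem hL) with h | h
  · exfalso
    have := congrArg (fun x => f * br Q x) h
    simp only [map_zero, mul_zero] at this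
    rw [br_mul hd.pgroup (fix_anti hd.le he.mem.1) (fix_anti hd.le hm.1), ← mul_assoc, hfb,
      br_av hd.pgroup (hd.le.trans hN), h2] at this
    exact hf.2.ne_zero this
  · intro x hx ξ hξ
    exact (eS_mul_av_iff (piCoreOf_le _ _) hN hL (IsPBlock.isBlockUnion hB₀.1)).1 h ξ hξ x
      (mem_piCoreOf_coe.2 hx)

end Cfsg.Agent.S4734
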