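import Cfsg.Statements.S4735
import Cfsg.Agent.Block.Count2

set_option autoImplicit false
open Cfsg

namespace Cfsg.Agent.S4735

open Cfsg.Agent.Block Cfsg.Agent.BMod Cfsg.Agent.Char MonoidAlgebra

lemma aux {G : Type*} [Group G] [Finite G] (A : Set (IrrCharacter G)) (x : G) :
    ((∑ᶠ χ ∈ A, Complex.normSq ((χ : G → ℂ) x) : ℝ) : ℂ) = col A x x := by
  simp only [col_self_eq, Complex.normSq_eq_norm_sq]

/-- Let p be a prime, M a maximal ideal of the algebraic integers containing p, G a finite group, H = O_p'(G) and Ḡ = G/H. For x ∈ G write λ(G, x) for the sum of |χ(x)|^2 over the irreducible characters χ in the principal p-block of G. Then λ(G, x) is a positive integer, λ(G, x) = λ(Ḡ, x̄) where x̄ is the image of x, and λ(G, x) ≤ #C_Ḡ(x̄). Moreover λ(G, 1) = [G : H] if and only if the principal block is the only p-block of Ḡ. -/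
theorem result {G : Type*} [Group G] [Finite G] (p : ℕ) [Fact p.Prime] (M : Ideal Cfsg.AlgInt) (hM : Cfsg.IsPModular p M) (x : G) : (∃ n : ℕ, 0 < n ∧ ∑ᶠ χ ∈ Cfsg.principalBlock M G, Complex.normSq ((χ : G → ℂ) x) = n) ∧ ∑ᶠ χ ∈ Cfsg.principalBlock M G, Complex.normSq ((χ : G → ℂ) x) = ∑ᶠ ψ ∈ Cfsg.principalBlock M (G ⧸ Cfsg.pPrimeCore p G), Complex.normSq ((ψ : G ⧸ Cfsg.pPrimeCore p G → ℂ) (QuotientGroup.mk x)) ∧ ∑ᶠ χ ∈ Cfsg.principalBlock M G, Complex.normSq ((χ : G → ℂ) x) ≤ (Nat.card ↥(Subgroup.centralizer ({(QuotientGroup.mk x : G ⧸ Cfsg.pPrimeCore p G)} : Set (G ⧸ Cfsg.pPrimeCore p G))) : ℝ) ∧ ((∑ᶠ χ ∈ Cfsg.principalBlock M G, Cfsg.charDegree (χ : G → ℂ) ^ 2) = (Cfsg.pPrimeCore p G).index ↔ ∀ B : Set (Cfsg.IrrCharacter (G ⧸ Cfsg.pPrimeCore p G)), Cfsg.IsPBlock M B → B = Cfsg.principalBlock M (G ⧸ Cfsg.pPrimeCore p G)) := by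
  classical
  have : PMod p M := ⟨hM⟩
  have hf := QuotientGroup.mk'_surjective (pPrimeCore p G)
  have hk : ¬ p ∣ Nat.card (QuotientGroup.mk' (pPrimeCore p G)).ker := by
    rw [QuotientGroup.ker_mk', ← kerOf_principalBlock (M := M)]
    exact not_dvd_card_kerOf (M := M) isPBlock_principalBlock.isBlockUnion
      ⟨_, irrOne_mem_principalBlock⟩
  have h1 := principalBlock_eq_image_infl (M := M) hf hk
  have h2 : ∑ᶠ χ ∈ principalBlock M G, Complex.normSq ((χ : G → ℂ) x) = ∑ᶠ ψ ∈ principalBlock M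
      (G ⧸ pPrimeCore p G), Complex.normSq ((ψ : G ⧸ pPrimeCore p G → ℂ) (QuotientGroup.mk x)) := by
    rw [h1, finsum_mem_image (infl_injective _ hf).injOn]; rfl
  refine ⟨?_, h2, ?_, ?_⟩
  · obtain ⟨n, hn⟩ := exists_int_of_fixed (x := col (principalBlock M G) x x) (by
      rw [col_apply]
      refine IsIntegral.sum _ fun χ _ => ?_
      split_ifs
      exacts [(χ.2.isCharacter.isIntegral _).mul (χ.2.isCharacter.isIntegral _), isIntegral_zero])
      fun σ => by
        rw [col_apply, map_sum]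
        refine Fintype.sum_bijective _ (galIrr_bijective (σ : ℂ →+* ℂ)) _ _ fun χ => ?_
        simp only [galIrr_mem_principal (M := M), galIrr_apply]
        split_ifs <;> simp
    rw [← aux] at hn
    have h3 : ∑ᶠ χ ∈ principalBlock M G, Complex.normSq ((χ : G → ℂ) x) = n := by exact_mod_cast hn
    have h4 : (1 : ℝ) ≤ n := by
      rw [← h3, finsum_mem_irr]
      refine le_trans (by simp [irrOne_mem_principalBlock]) (Finset.single_le_sum (fun χ _ => ?_)
        (Finset.mem_univ (irrOne G)))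
      split_ifs
      exacts [Complex.normSq_nonneg _, le_rfl]
    lift n to ℕ using (by exact_mod_cast zero_le_one.trans h4)
    exact ⟨n, by exact_mod_cast h4, h3⟩
  · rw [h2, ← sum_irr_norm_sq, finsum_mem_irr]
    refine Finset.sum_le_sum fun χ _ => ?_
    split_ifs
    exacts [(Complex.normSq_eq_norm_sq _).le, sq_nonneg _]
  · rw [h1, finsum_mem_image (infl_injective _ hf).injOn, Subgroup.index, ← sum_charDegree_sq,
      finsum_mem_irr, Finset.sum_eq_sum_iff_of_le fun χ _ => by split_ifs <;> simp [charDegree_infl]]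
    refine ⟨fun h B hB => ?_, fun h χ _ => ?_⟩
    · obtain ⟨χ, hχ⟩ := IsPBlock.nonempty hB
      refine hB.eq_of_mem isPBlock_principalBlock hχ (by_contra fun h' => ?_)
      simpa [h', (deg_ne_zero χ.2).symm, eq_comm (a := 0), deg_ne_zero χ.2] using h χ (Finset.mem_univ _)
    · rw [if_pos (h _ (isPBlock_blockOf χ) ▸ mem_blockOf_self χ), charDegree_infl]

end Cfsg.Agent.S4735
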