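import Cfsg.Statements.S4736
import Cfsg.Agent.Block.PSolv

set_option autoImplicit false
open Cfsg

namespace Cfsg.Agent.S4736

open Cfsg.Agent.Block Cfsg.Agent.BMod Cfsg.Agent.Char MonoidAlgebra


/-- Let p be a prime, M a maximal ideal of the algebraic integers containing p, and G a finite p-solvable group with Sylow p-subgroup P. Then P is abelian if and only if every irreducible character in the principal p-block of G has height zero. -/
theorem result {G : Type*} [Group G] [Finite G] (p : ℕ) [Fact p.Prime] (M : Ideal Cfsg.AlgInt) (hM : Cfsg.IsPModular p M) (hsolv : Cfsg.IsPSolvable p G) (P : Sylow p G) : IsMulCommutative P ↔ ∀ χ ∈ Cfsg.principalBlock M G, Cfsg.blockHeight p (Cfsg.principalBlock M G) (χ : G → ℂ) = 0 := by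
  have : PMod p M := ⟨hM⟩
  refine ⟨fun h χ hχ => by simpa [Subgroup.center_eq_top] using height_le_psolv hsolv isPBlock_principalBlock (isDefectGroup_principal P) hχ, fun h => ?_⟩
  have hf := QuotientGroup.mk'_surjective (pPrimeCore p G)
  have h1 := ((ito_psolv (PLocal.pSolv_quotient hsolv _) (P.mapSurjective hf)).2 fun χ hd => by
    have hχ : infl _ hf χ ∈ principalBlock M G := (principalBlock_psolv hsolv).2 fun n hn => by
      simp [(QuotientGroup.eq_one_iff n).2 hn]
    have h2 := deg_add_defect p hχ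
    rw [h _ hχ, (isDefectGroup_sylow_iff isPBlock_principalBlock P).1 (isDefectGroup_principal P),
      charDegree_infl] at h2
    have := (Fact.out : p.Prime).factorization_pos_of_dvd (deg_ne_zero χ.2) hd
    omega).2
  refine ⟨⟨fun x y => Subtype.ext (mul_inv_eq_one.1 (Subgroup.mem_bot.1 (inf_eq_bot_of_not_dvd
    P.isPGroup' (not_dvd_pPrimeCore (G := G)) ▸ ⟨(QuotientGroup.eq_one_iff _).1 ?_, (x * y * (y * x)⁻¹).2⟩)))⟩⟩
  simpa [← mul_inv_rev, mul_inv_eq_one] using congrArg Subtype.val (mul_comm'
    (⟨_, Subgroup.mem_map_of_mem _ x.2⟩ : P.mapSurjective hf) ⟨_, Subgroup.mem_map_of_mem _ y.2⟩)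

end Cfsg.Agent.S4736
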