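import Cfsg.Statements.S4955
import Cfsg.Agent.Block.Cod
import Cfsg.Agent.CharDeep.Avg
import Cfsg.Agent.BMod.Rank2

set_option autoImplicit false
open Cfsg

namespace Cfsg.Agent.S4955

open Cfsg.Agent.Block Cfsg.Agent.BMod Cfsg.Agent.Char MonoidAlgebra


/-- Let X be a finite group with an abelian normal Sylow p-subgroup V (a normal p-subgroup of index prime to p in which any two elements commute), and let G be a complement to V in X. Then for every v in V, writing C for the centralizer of v in G, the number k(X) of conjugacy classes of X satisfies k(X) ≤ (order of C)·(order of V) − ((order of G) − k(G)); the statement is written with the subtracted term moved to the left. In particular, if some v in V is centralized by no nonidentity element of G, then k(X) is at most the order of V. -/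
theorem result {X : Type*} [Group X] [Finite X] (p : ℕ) [Fact p.Prime] (V : Subgroup X) [V.Normal] (hVp : IsPGroup p V) (hidx : ¬ p ∣ V.index) (hab : ∀ a ∈ V, ∀ b ∈ V, a * b = b * a) (G : Subgroup X) (hGV : Subgroup.IsComplement' V G) (v : X) (hv : v ∈ V) : Nat.card (ConjClasses X) + Nat.card G ≤ Nat.card ↥(G ⊓ Subgroup.centralizer ({v} : Set X)) * Nat.card V + Nat.card (ConjClasses G) := by
  classical
  obtain ⟨M, _⟩ := exists_pmod' p
  letI := Fintype.ofFinite X
  set T := Finset.univ.filter fun χ : IrrCharacter X => ¬ ∀ n ∈ V, χ.1 n = χ.1 1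
  let S := Finset.univ.filter fun g : X => Subgroup.zpowers g = Subgroup.zpowers v
  have hS : ∀ g ∈ S, g ∈ V ∧ Subgroup.centralizer {g} = Subgroup.centralizer {v} := fun g hg => by
    have h := (Finset.mem_filter.1 hg).2
    refine ⟨Subgroup.zpowers_le.2 hv (h ▸ Subgroup.mem_zpowers g), ?_⟩
    rw [← Subgroup.centralizer_closure, ← Subgroup.zpowers_eq_closure, h,
      Subgroup.zpowers_eq_closure, Subgroup.centralizer_closure]
  have h1 : Nat.card (Subgroup.centralizer ({v} : Set X)) =
      Nat.card ↥(G ⊓ Subgroup.centralizer ({v} : Set X)) * Nat.card V := by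
    rw [← Nat.card_prod]
    have hV : V ≤ Subgroup.centralizer {v} := fun a ha =>
      Subgroup.mem_centralizer_singleton_iff.2 (hab a ha v hv)
    refine (Nat.card_eq_of_bijective (fun w => ⟨w.1 * w.2, mul_mem w.1.2.2 (hV w.2.2)⟩)
      ⟨fun a b h => ?_, fun c => ?_⟩).symm
    · have h2 := hGV.symm.1 (a₁ := (⟨a.1, a.1.2.1⟩, a.2)) (a₂ := (⟨b.1, b.1.2.1⟩, b.2))
        (congrArg Subtype.val h)
      exact Prod.ext (Subtype.ext (congrArg (fun w => (w.1 : X)) h2)) (congrArg (fun w => w.2) h2)
    · obtain ⟨⟨g, w⟩, h⟩ := hGV.symm.2 c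
      exact ⟨(⟨g, g.2, (mul_mem_cancel_right (hV w.2)).1 ((show (g * w : X) = c from h) ▸ c.2)⟩, w),
        Subtype.ext h⟩
  have h2 : ∀ g ∈ S, ∑ χ ∈ T, ‖χ.1 g‖ ^ 2 + Nat.card G =
      Nat.card (Subgroup.centralizer ({v} : Set X)) := fun g hg => by
    rw [← (hS g hg).2, ← sum_irr_norm_sq, ← Finset.sum_filter_not_add_sum_filter Finset.univ
      fun χ : IrrCharacter X => ∀ n ∈ V, χ.1 n = χ.1 1, add_right_inj, ← hGV.symm.index_eq_card]
    have h2 := congrArg Complex.re (sum_irr_filter_ker_degree_sq V)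
    rw [Complex.natCast_re, Complex.re_sum] at h2
    refine h2.symm.trans (Finset.sum_congr (by convert rfl) fun χ hχ => ?_)
    rw [(Finset.mem_filter.1 hχ).2 g (hS g hg).1, χ.2.apply_one_eq_charDegree, ← Nat.cast_pow,
      Complex.natCast_re, Complex.norm_natCast, Nat.cast_pow]
  have h3 : ∀ χ ∈ T, (S.card : ℝ) ≤ ∑ g ∈ S, ‖χ.1 g‖ ^ 2 := fun χ _ => by
    refine χ.2.isGeneralizedCharacter.card_le_sum_norm_sq S (fun m hm g hg => ?_) fun g hg h => ?_
    · refine Finset.mem_filter.2 ⟨Finset.mem_univ _, Eq.trans ?_ (Finset.mem_filter.1 hg).2⟩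
      exact le_antisymm (Subgroup.zpowers_le.2 (pow_mem (Subgroup.mem_zpowers g) m))
        (Subgroup.zpowers_le.2 ((CharDeep.pow_mem_iff_of_coprime_card _ hm).1 (Subgroup.mem_zpowers _)))
    obtain ⟨k, hk⟩ := IsPGroup.iff_orderOf.1 hVp ⟨g, (hS g hg).1⟩
    have h3 := red_apply_pElt (M := M) χ.2.isCharacter ⟨k, (Subgroup.orderOf_coe _).trans hk⟩
    rw [h, red_zero, χ.2.apply_one_eq_charDegree, red_natCast, eq_comm, CharP.cast_eq_zero_iff _ p] at h3
    exact hidx (h3.trans (CharDeep.charDegree_dvd_index_of_abelian V hab χ.2))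
  have h4 := Finset.sum_le_sum h3
  rw [Finset.sum_comm, Finset.sum_congr rfl fun g hg => eq_sub_of_add_eq (h2 g hg), Finset.sum_const,
    Finset.sum_const, nsmul_eq_mul, nsmul_eq_mul, mul_comm, mul_le_mul_iff_right₀ (Nat.cast_pos.2
      (Finset.card_pos.2 ⟨v, by simp [S]⟩)), le_sub_iff_add_le, h1] at h4
  have h5 := Finset.card_filter_add_card_filter_not (s := Finset.univ)
    fun χ : IrrCharacter X => ∀ n ∈ V, χ.1 n = χ.1 1
  rw [Finset.card_univ, ← Nat.card_eq_fintype_card, card_irr_eq_card_conjClasses,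
    ← Fintype.card_subtype, ← Nat.card_eq_fintype_card, ← Nat.card_congr (irrQuotientEquiv V),
    Nat.card_congr (β := IrrCharacter G) ?_, card_irr_eq_card_conjClasses (G := G)] at h5
  · norm_cast at h4
    change _ + T.card = _ at h5
    omega
  let e := hGV.symm.QuotientMulEquiv
  exact ⟨fun φ => ⟨_, φ.2.comp_equiv e.symm⟩, fun φ => ⟨_, φ.2.comp_equiv e⟩,
    fun φ => Subtype.ext (funext fun g => by simp), fun φ => Subtype.ext (funext fun g => by simp)⟩

end Cfsg.Agent.S4955
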