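import Cfsg.Statements.S4956
import Cfsg.Agent.Block.Cod
import Cfsg.Agent.Solv.Coprime

set_option autoImplicit false
open Cfsg

namespace Cfsg.Agent.S4956

open Cfsg.Agent.Block Cfsg.Agent.Char MonoidAlgebra


/-- Let X be a finite group, V an abelian normal subgroup of X (any two elements of V commute) and G a complement to V in X whose order is coprime to that of V. Let S be a set of representatives of the orbits of G on V under conjugation: S lies in V and every element of V is conjugate under G to exactly one member of S. Then the number of conjugacy classes of X equals the sum, over s in S, of the number of conjugacy classes of the centralizer of s in G. -/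
theorem result {X : Type*} [Group X] [Finite X] (V : Subgroup X) [V.Normal] (hab : ∀ a ∈ V, ∀ b ∈ V, a * b = b * a) (G : Subgroup X) (hGV : Subgroup.IsComplement' V G) (hcop : (Nat.card V).Coprime (Nat.card G)) (S : Finset X) (hSV : ∀ s ∈ S, s ∈ V) (hrep : ∀ v ∈ V, ∃! s, s ∈ S ∧ ∃ g ∈ G, g * v * g⁻¹ = s) : Nat.card (ConjClasses X) = ∑ s ∈ S, Nat.card (ConjClasses ↥(G ⊓ Subgroup.centralizer ({s} : Set X))) := by
  classical
  have h0 : ∀ y ∈ V, y ∈ G → y = 1 := fun y hy hy' => Subgroup.disjoint_def.1 hGV.disjoint hy hy'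
  let f : (Σ s : S, ConjClasses ↥(G ⊓ Subgroup.centralizer ({s.1} : Set X))) → ConjClasses X :=
    fun w => ConjClasses.mk (w.1 * w.2.out)
  rw [← Finset.sum_coe_sort S, ← Nat.card_sigma]
  refine (Nat.card_eq_of_bijective f ⟨?_, fun K => ?_⟩).symm
  · rintro ⟨s, K⟩ ⟨t, L⟩ h
    obtain ⟨k, hk⟩ := isConj_iff.1 (ConjClasses.mk_eq_mk_iff_isConj.1 h)
    obtain ⟨m, hm1, hm2⟩ := Nat.chineseRemainder hcop 1 0
    have h1 : ∀ s ∈ V, ∀ g ∈ G ⊓ Subgroup.centralizer ({s} : Set X), (s * g) ^ m = s :=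
      fun s hs g hg => by
        rw [(show Commute s g from hg.2 s rfl).mul_pow, pow_eq_pow_of_modEq hm1
          (orderOf_dvd_iff_pow_eq_one.1 (V.orderOf_dvd_natCard hs)), pow_eq_pow_of_modEq hm2
          (orderOf_dvd_iff_pow_eq_one.1 (G.orderOf_dvd_natCard hg.1)), pow_one, pow_zero, mul_one]
    have h2 : k * s * k⁻¹ = t := by
      rw [← h1 s (hSV s s.2) _ K.out.2, ← h1 t (hSV t t.2) _ L.out.2, ← conj_pow, hk]
    have h3 : k * K.out * k⁻¹ = L.out := mul_left_cancel (a := (t : X)) (by rw [← hk, ← h2]; group)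
    obtain ⟨v, g, rfl⟩ : ∃ (v : V) (g : G), (v : X) * g = k := by simpa using hGV.2 k
    have h4 : (g : X) * s * (g : X)⁻¹ = t := by
      rw [← h2, show (v : X) * g * s * (v * g : X)⁻¹ = v * ((g : X) * s * (g : X)⁻¹) * (v : X)⁻¹ by group,
        hab v v.2 _ (Subgroup.Normal.conj_mem ‹_› _ (hSV s s.2) _), mul_inv_cancel_right]
    obtain rfl : s = t := Subtype.ext ((hrep s (hSV s s.2)).unique ⟨s.2, 1, one_mem G, by simp⟩
      ⟨t.2, g, g.2, h4⟩)
    have h5 := mul_mem (mul_mem g.2 K.out.2.1) (inv_mem g.2)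
    have h6 := h0 (L.out * ((g : X) * K.out * (g : X)⁻¹)⁻¹) (by
      rw [← h3, show (v : X) * g * K.out * (v * g : X)⁻¹ * ((g : X) * K.out * (g : X)⁻¹)⁻¹ =
        v * ((g : X) * K.out * (g : X)⁻¹ * (v : X)⁻¹ * ((g : X) * K.out * (g : X)⁻¹)⁻¹) by group]
      exact mul_mem v.2 (Subgroup.Normal.conj_mem ‹_› _ (inv_mem v.2) _)) (mul_mem L.out.2.1 (inv_mem h5))
    rw [← Quotient.out_eq K, ← Quotient.out_eq L]
    exact congrArg _ (ConjClasses.mk_eq_mk_iff_isConj.2 (isConj_iff.2 ⟨⟨g, g.2,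
      Subgroup.mem_centralizer_singleton_iff.2 (mul_inv_eq_iff_eq_mul.1 h4)⟩,
        Subtype.ext (mul_inv_eq_one.1 h6).symm⟩))
  obtain ⟨x, rfl⟩ := ConjClasses.mk_surjective K
  obtain ⟨v, g, rfl⟩ : ∃ (v : V) (g : G), (v : X) * g = x := by simpa using hGV.2 x
  haveI : IsMulCommutative (Subgroup.zpowers (g : X)) := inferInstance
  obtain ⟨k, hk, h1⟩ := Solv.exists_conj_mem_centralizer (A := Subgroup.zpowers (g : X)) (K := V)
    (x := v * g) Subgroup.le_normalizer_of_normal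
    (hcop.symm.coprime_dvd_left (Subgroup.card_dvd_of_le (Subgroup.zpowers_le.2 g.2)))
    (Or.inl inferInstance) (by
      rintro _ ⟨i, rfl⟩
      refine ⟨(v * g : X) ^ i * ((g : X) ^ i)⁻¹, ?_, by generalize (v * g : X) = w; group⟩
      rw [← QuotientGroup.eq_one_iff]
      simp [(QuotientGroup.eq_one_iff (v : X)).2 v.2])
  have h2 : k * (v * g) * k⁻¹ * (g : X)⁻¹ ∈ V := by
    rw [show k * (v * g) * k⁻¹ * (g : X)⁻¹ = k * v * (g * k⁻¹ * (g : X)⁻¹) by group]
    exact mul_mem (mul_mem hk v.2) (Subgroup.Normal.conj_mem ‹_› _ (inv_mem hk) _)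
  obtain ⟨s, ⟨hs, c, hc, rfl⟩, -⟩ := hrep _ h2
  have h3 := h1 g (Subgroup.mem_zpowers _)
  let y : ↥(G ⊓ Subgroup.centralizer ({c * (k * (v * g) * k⁻¹ * (g : X)⁻¹) * c⁻¹} : Set X)) :=
    ⟨c * g * c⁻¹, G.mul_mem (G.mul_mem hc g.2) (G.inv_mem hc), Subgroup.mem_centralizer_singleton_iff.2 (by
      generalize k * (v * g) * k⁻¹ = w at h3
      calc _ = c * (g * w * (g : X)⁻¹) * c⁻¹ := by group
        _ = _ := by rw [h3]; group)⟩
  refine ⟨⟨⟨_, hs⟩, ConjClasses.mk y⟩, ConjClasses.mk_eq_mk_iff_isConj.2 ?_⟩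
  obtain ⟨d, hd⟩ := isConj_iff.1 (isConj_out_mk y)
  refine IsConj.trans (isConj_iff.2 ⟨d, ?_⟩) (isConj_iff.2 ⟨c * k, rfl⟩ : IsConj (v * g : X) _).symm
  have h4 : (d : X) * _ = _ * d := Subgroup.mem_centralizer_singleton_iff.1 d.2.2
  have h5 : (d : X) * _ * (d : X)⁻¹ = c * g * c⁻¹ := congrArg Subtype.val hd
  rw [← mul_assoc, h4, mul_assoc, mul_assoc, ← mul_assoc (d : X), h5]; group

end Cfsg.Agent.S4956
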