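import Cfsg.Statements.S4964
import Cfsg.Agent.BMod.Cover3
import Cfsg.Agent.Solv.Frattini

set_option autoImplicit false
open Cfsg

namespace Cfsg.Agent.S4964

open Cfsg.Agent.Block Cfsg.Agent.BMod Cfsg.Agent.Char MonoidAlgebra

open Subgroup in
lemma key {G : Type*} [Group G] [Finite G] {p : ℕ} [Fact p.Prime] {D : Subgroup G} [D.Normal]
    (hD : IsPGroup p D) {g : G} (hg : ¬ p ∣ orderOf g)
    (h : (g : G ⧸ ⁅D, D⁆) ∈ centralizer (D.map (QuotientGroup.mk' ⁅D, D⁆) : Set (G ⧸ ⁅D, D⁆))) :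
    g ∈ centralizer (D : Set G) := by
  refine Solv.le_centralizer_of_commutator_le_frattini (A := zpowers g)
    (by rw [normalizer_eq_top]; exact le_top) ?_ (le_trans ?_ (Solv.commutator_le_map_frattini hD))
    (mem_zpowers g)
  · obtain ⟨k, hk⟩ := (hD.to_subgroup (frattini D)).exists_card_eq
    rw [hk, Nat.card_zpowers]
    exact ((Nat.Prime.coprime_iff_not_dvd Fact.out).2 hg).symm.pow_right k
  · rw [← QuotientGroup.ker_mk' ⁅D, D⁆, ← Subgroup.map_eq_bot_iff, map_commutator,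
      MonoidHom.map_zpowers, commutator_eq_bot_iff_le_centralizer, le_centralizer_iff, zpowers_le]
    exact h

lemma key2 {G H : Type*} [Group G] [Finite G] [Group H] [Finite H] {p : ℕ} [Fact p.Prime]
    {M : Ideal AlgInt} [PMod p M] {f : G →* H} (hf : Function.Surjective f) (hk : IsPGroup p f.ker)
    {E : Subgroup H} [E.Normal] (hE : IsPGroup p E) (hC : ∀ g, ¬ p ∣ orderOf g →
      f g ∈ Subgroup.centralizer (E : Set H) → g ∈ Subgroup.centralizer (f.ker : Set G))
    {χ ψ : IrrCharacter H} (h : SameBlock M (infl f hf χ : G → ℂ) (infl f hf ψ)) :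
    SameBlock M (χ : H → ℂ) ψ := by
  classical
  refine sameBlock_of_lam_eB ?_
  have hz := eB_mem_center (M := M) (blockOf M (χ : H → ℂ))
  have h3 := br_idem_eq_self hE le_top (Subgroup.normalizer_eq_top _).ge
    le_rfl (isPrim_eB (M := M) (isPBlock_blockOf χ)).idem (eB_mem_Zc _)
  have h7 := fun h => coeff_eB_of_dvd (g := h) (IsPBlock.isBlockUnion (isPBlock_blockOf (M := M) χ))
  have h8 := lam_eB_blockOf (M := M) χ
  generalize eB M (blockOf M (χ : H → ℂ)) = z at *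
  obtain ⟨x, hx⟩ : ∃ x : (F M)[G], ∀ g, x.coeff g = if p ∣ orderOf g then 0 else z.coeff (f g) :=
    ⟨ofFun _, coeff_ofFun _⟩
  have hx' : x ∈ Cen (F M) G := mem_center_iff_coeff.2 fun h g => by
    rw [hx, hx, orderOf_conj', map_mul f, map_mul f, map_inv, mem_center_iff_coeff.1 hz]
  have h4 : ∀ g, x.coeff g ≠ 0 → ¬ p ∣ orderOf g ∧
      g ∈ Subgroup.centralizer (f.ker : Set G) := fun g hg => by
    rw [hx] at hg
    split_ifs at hg with h5
    · exact absurd rfl hg
    exact ⟨h5, hC g h5 (by_contra fun h => hg (h3 ▸ coeff_br_of_notMem _ h))⟩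
  have h1 : mapA f x = z := by
    ext h
    by_cases hh : p ∣ orderOf h
    · rw [coeff_mapA_of_singular (fun g hg => by rw [hx, if_pos hg]) hh, h7 h hh]
    obtain ⟨g, hg, rfl⟩ := exists_regular_preimage hf hh
    have h5 : x.coeff g = z.coeff (f g) := by rw [hx, if_neg hg]
    by_cases h6 : x.coeff g = 0
    · have := Fintype.ofFinite G
      rw [coeff_mapA, ← h5, h6]
      refine Finset.sum_eq_zero fun y _ => ite_eq_right_iff.2 fun e => ?_
      rw [hx, e, ← h5, h6, ite_self]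
    · rw [coeff_mapA_of_ne_zero hk h4 h6, h5]
  rw [← h1, lam_mapA hf ψ hx', ← (sameBlock_iff_lam (infl _ hf χ).2 (infl _ hf ψ).2).1 h,
    ← lam_mapA hf χ hx', h1, h8]
  exact one_ne_zero

/-- Let D be a normal p-subgroup of the finite group G, let D′ be its commutator subgroup (normal in G), and fix a maximal ideal M of the algebraic integers containing p. Then (i) two irreducible characters of G ⧸ D′ lie in the same p-block if and only if their inflations to G do, and (ii) every p-block of G contains the inflation of some irreducible character of G ⧸ D′; so inflation induces a bijection between the p-blocks of G ⧸ D′ and the p-blocks of G. -/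
theorem result {G : Type*} [Group G] [Finite G] (p : ℕ) [Fact p.Prime] (M : Ideal Cfsg.AlgInt) (hM : Cfsg.IsPModular p M) (D : Subgroup G) [D.Normal] (hD : IsPGroup p D) : (∀ χ ψ : Cfsg.IrrCharacter (G ⧸ ⁅D, D⁆), Cfsg.SameBlock M (χ : G ⧸ ⁅D, D⁆ → ℂ) (ψ : G ⧸ ⁅D, D⁆ → ℂ) ↔ Cfsg.SameBlock M ((χ : G ⧸ ⁅D, D⁆ → ℂ) ∘ QuotientGroup.mk) ((ψ : G ⧸ ⁅D, D⁆ → ℂ) ∘ QuotientGroup.mk)) ∧ ∀ B : Set (Cfsg.IrrCharacter G), Cfsg.IsPBlock M B → ∃ χ : Cfsg.IrrCharacter (G ⧸ ⁅D, D⁆), ∃ θ ∈ B, (θ : G → ℂ) = (χ : G ⧸ ⁅D, D⁆ → ℂ) ∘ QuotientGroup.mk := by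
  haveI : PMod p M := ⟨hM⟩
  have hf := QuotientGroup.mk'_surjective ⁅D, D⁆
  have hle := (QuotientGroup.ker_mk' _).le.trans (Subgroup.commutator_le_left D D)
  have := Subgroup.Normal.map ‹D.Normal› _ hf
  refine ⟨fun χ ψ => ⟨sameBlock_infl hf, key2 hf (hD.to_le hle) (hD.map _)
    fun g hg h => centralizer_anti hle (key hD hg h)⟩, fun B hB => ?_⟩
  obtain ⟨χ, hχ⟩ := exists_infl_mem hf (hD.to_le hle) hB
  exact ⟨χ, _, hχ, rfl⟩

end Cfsg.Agent.S4964
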