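import Cfsg.Statements.S4965
import Cfsg.Agent.Block.Cod

set_option autoImplicit false
open Cfsg

namespace Cfsg.Agent.S4965

open Cfsg.Agent.Block Cfsg.Agent.Char MonoidAlgebra


/-- Let X be a finite group with an abelian normal subgroup V (any two elements of V commute), and let φ be the action of X ⧸ V on V induced by conjugation (well defined because V is abelian; the hypothesis hφ says that the class of x acts as conjugation by x). Then X has at most as many conjugacy classes as the semidirect product of V by X ⧸ V formed with this action: the split extension has the largest class number among extensions with the given action. -/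
theorem result {X : Type*} [Group X] [Finite X] (V : Subgroup X) [V.Normal] (hab : ∀ a ∈ V, ∀ b ∈ V, a * b = b * a) (φ : X ⧸ V →* MulAut ↥V) (hφ : ∀ (x : X) (v : ↥V), ((φ (QuotientGroup.mk x) v : ↥V) : X) = x * v * x⁻¹) : Nat.card (ConjClasses X) ≤ Nat.card (ConjClasses (SemidirectProduct ↥V (X ⧸ V) φ)) := by
  have h1 : ∀ ab : (X ⧸ V) × (X ⧸ V), ∃ s : X × X, ∀ x y : X, Commute x y → ab = (↑x, ↑y) →
      Commute s.1 s.2 ∧ ab = (↑s.1, ↑s.2) := fun ab => by
    by_cases h : ∃ x y : X, Commute x y ∧ ab = (↑x, ↑y)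
    · obtain ⟨x, y, h⟩ := h; exact ⟨(x, y), fun _ _ _ _ => h⟩
    · exact ⟨1, fun x y h1 h2 => absurd ⟨x, y, h1, h2⟩ h⟩
  choose s hs using h1
  have h2 : ∀ a b : X, (a : X ⧸ V) = b → a * b⁻¹ ∈ V := fun a b h => by
    rw [← QuotientGroup.eq_one_iff, QuotientGroup.mk_mul, h, QuotientGroup.mk_inv, mul_inv_cancel]
  haveI : Finite (SemidirectProduct V (X ⧸ V) φ) := Finite.of_equiv _ SemidirectProduct.equivProd.symm
  refine Nat.le_of_mul_le_mul_right ?_ (Nat.card_pos (α := X))
  rw [← card_comm_eq_card_conjClasses_mul_card, ← V.card_mul_index, Subgroup.index_eq_card,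
    ← SemidirectProduct.card, ← card_comm_eq_card_conjClasses_mul_card]
  refine Nat.card_le_card_of_injective (fun w => ⟨(⟨⟨w.1.1 * (s (w.1.1, w.1.2)).1⁻¹,
    h2 _ _ (congrArg Prod.fst (hs _ _ _ w.2 rfl).2)⟩, w.1.1⟩, ⟨⟨w.1.2 * (s (w.1.1, w.1.2)).2⁻¹,
    h2 _ _ (congrArg Prod.snd (hs _ _ _ w.2 rfl).2)⟩, w.1.2⟩), ?_⟩) fun a b hab => ?_
  · obtain ⟨⟨x, y⟩, hw⟩ := w
    obtain ⟨h3, h4⟩ := hs _ _ _ hw rfl
    refine SemidirectProduct.ext (Subtype.ext ?_) (congrArg QuotientGroup.mk hw.eq)
    simp only [SemidirectProduct.mul_left, Subgroup.coe_mul]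
    rw [congrArg φ (congrArg Prod.fst h4), congrArg φ (congrArg Prod.snd h4), hφ, hφ]
    dsimp only at h3 ⊢
    generalize s (↑x, ↑y) = t at h3
    calc _ = x * y * (t.1 * t.2)⁻¹ := by group
      _ = _ := by rw [hw.eq, h3.eq]; group
  have h3 := Prod.ext_iff.1 (congrArg Subtype.val hab)
  have h4 := congrArg SemidirectProduct.right h3.1
  have h5 := congrArg SemidirectProduct.right h3.2
  have h6 := congrArg (fun z => (z.left : X)) h3.1
  have h7 := congrArg (fun z => (z.left : X)) h3.2
  dsimp only at h4 h5 h6 h7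
  rw [h4, h5] at h6 h7
  exact Subtype.ext (Prod.ext (mul_right_cancel h6) (mul_right_cancel h7))

end Cfsg.Agent.S4965
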