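import Cfsg.Statements.S4966
import Mathlib.RepresentationTheory.Maschke
import Mathlib.RepresentationTheory.Invariants
import Mathlib.RingTheory.Artinian.Module
import Mathlib.LinearAlgebra.Matrix.BilinearForm
import Mathlib.LinearAlgebra.BilinearForm.Orthogonal

set_option autoImplicit false
open Cfsg

namespace Cfsg.Agent.S4966

open Module LinearMap
universe u
variable {F : Type*} [Field F] {G : Type*} [Group G] {V : Type u} [AddCommGroup V] [Module F V]
  {ρ : Representation F G V} {B : LinearMap.BilinForm F V} {X Y : Submodule F V}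

variable (ρ) in
/-- Invariant subspaces. -/
def Inv (U : Submodule F V) : Prop := ∀ g : G, ∀ u ∈ U, ρ g u ∈ U

/-- Non-degeneracy on a subspace. -/
def ND (B : LinearMap.BilinForm F V) (U : Submodule F V) : Prop :=
  ∀ x ∈ U, (∀ y ∈ U, B x y = 0) → x = 0

/-- Alternating (`true`) or symmetric (`false`) forms. -/
def Ty {V : Type u} [AddCommGroup V] [Module F V] (b : Bool) (A : LinearMap.BilinForm F V) : Prop :=
  if b then ∀ x, A x x = 0 else ∀ x y, A x y = A y x

variable (ρ) in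
/-- Invariant subspaces with a non-degenerate invariant form of the given type. -/
def Good (b : Bool) (U : Submodule F V) : Prop :=
  Inv ρ U ∧ ∃ A, Ty b A ∧ (∀ g, ∀ x ∈ U, ∀ y ∈ U, A (ρ g x) (ρ g y) = A x y) ∧ ND A U

theorem Ty.comp {W : Type u} [AddCommGroup W] [Module F W] {b : Bool} {A : LinearMap.BilinForm F V}
    (h : Ty b A) (f : W →ₗ[F] V) : Ty b (A.compl₁₂ f f) := by
  cases b
  exacts [fun x y => h _ _, fun x => h _]

theorem Ty.add {b : Bool} {A A' : LinearMap.BilinForm F V} (h : Ty b A) (h' : Ty b A') :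
    Ty b (A + A') := by
  cases b
  · exact fun x y => by rw [LinearMap.add_apply, LinearMap.add_apply, LinearMap.add_apply, LinearMap.add_apply, h x y, h' x y]
  · exact fun x => by rw [LinearMap.add_apply, LinearMap.add_apply, h x, h' x, add_zero]

theorem exists_proj (h : Disjoint X Y) : ∃ π : V →ₗ[F] V, (∀ x ∈ X, π x = x) ∧ ∀ y ∈ Y, π y = 0 := by
  obtain ⟨C, h1, h2⟩ := h.symm.exists_isCompl
  exact ⟨X.projection C h2.symm, fun x hx => X.projection_apply_left h2.symm ⟨x, hx⟩,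
    fun y hy => X.projection_apply_right h2.symm ⟨y, h1 hy⟩⟩

theorem Inv.sup (hX : Inv ρ X) (hY : Inv ρ Y) : Inv ρ (X ⊔ Y) := fun g u hu => by
  obtain ⟨x, hx, y, hy, rfl⟩ := Submodule.mem_sup.1 hu
  rw [map_add]
  exact Submodule.add_mem_sup (hX g x hx) (hY g y hy)

theorem Good.sup {b : Bool} (hX : Good ρ b X) (hY : Good ρ b Y) (h : Disjoint X Y) :
    Good ρ b (X ⊔ Y) := by
  obtain ⟨π, p1, p2⟩ := exists_proj h
  obtain ⟨π', q1, q2⟩ := exists_proj h.symm
  obtain ⟨iX, A, a1, a2, a3⟩ := hX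
  obtain ⟨iY, C, c1, c2, c3⟩ := hY
  have e : ∀ x ∈ X, ∀ y ∈ Y, ∀ x' ∈ X, ∀ y' ∈ Y, (A.compl₁₂ π π + C.compl₁₂ π' π') (x + y) (x' + y') =
      A x x' + C y y' := fun x hx y hy x' hx' y' hy' => by
    rw [LinearMap.add_apply, LinearMap.add_apply, compl₁₂_apply, compl₁₂_apply, map_add π, map_add π, map_add π',
      map_add π', p1 x hx, p1 x' hx', p2 y hy, p2 y' hy', q1 y hy, q1 y' hy', q2 x hx, q2 x' hx']
    simp
  refine ⟨iX.sup iY, _, (a1.comp π).add (c1.comp π'), fun g u hu v hv => ?_, fun u hu H => ?_⟩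
  · obtain ⟨x, hx, y, hy, rfl⟩ := Submodule.mem_sup.1 hu
    obtain ⟨x', hx', y', hy', rfl⟩ := Submodule.mem_sup.1 hv
    rw [map_add (ρ g), map_add (ρ g), e _ (iX g _ hx) _ (iY g _ hy) _ (iX g _ hx') _ (iY g _ hy'),
      e _ hx _ hy _ hx' _ hy', a2 g _ hx _ hx', c2 g _ hy _ hy']
  · obtain ⟨x, hx, y, hy, rfl⟩ := Submodule.mem_sup.1 hu
    rw [a3 x hx fun x' hx' => ?_, c3 y hy fun y' hy' => ?_, add_zero]
    · simpa using (e x hx y hy 0 X.zero_mem y' hy').symm.trans (H _ (Submodule.add_mem_sup X.zero_mem hy'))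
    · simpa using (e x hx y hy x' hx' 0 Y.zero_mem).symm.trans (H _ (Submodule.add_mem_sup hx' Y.zero_mem))

theorem good_bot (b : Bool) : Good ρ b ⊥ :=
  ⟨fun g u hu => by simp [(Submodule.mem_bot F).1 hu], 0, by cases b <;> simp [Ty], by simp,
    fun x hx _ => (Submodule.mem_bot F).1 hx⟩

variable (ρ) in
/-- Irreducible (or zero) invariant subspaces. -/
def Irr (X : Submodule F V) : Prop := Inv ρ X ∧ ∀ Y ≤ X, Inv ρ Y → Y = ⊥ ∨ Y = X

theorem Irr.eq_zero (h : Irr ρ X) {N : Submodule F V} (hN : Inv ρ N) (hX : ¬ X ≤ N) {x : V}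
    (hx : x ∈ X) (hx' : x ∈ N) : x = 0 := by
  rcases h.2 (X ⊓ N) inf_le_left (fun g u hu => ⟨h.1 g u hu.1, hN g u hu.2⟩) with e | e
  · exact (Submodule.mem_bot F).1 (e ▸ ⟨hx, hx'⟩)
  · exact absurd (e ▸ inf_le_right) hX

variable [FiniteDimensional F V] [Finite G] [NeZero (Nat.card G : F)]

theorem exists_irr {N : Submodule F V} (hN : N ≠ ⊤) : ∃ X, Irr ρ X ∧ ¬ X ≤ N := by
  obtain ⟨X, ⟨h1, h2⟩, hm⟩ := exists_minimal_of_wellFoundedLT (fun X => Inv ρ X ∧ ¬ X ≤ N)
    ⟨⊤, fun _ _ _ => trivial, fun h => hN (top_le_iff.1 h)⟩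
  refine ⟨X, ⟨h1, fun Y hY iY => ?_⟩, h2⟩
  by_cases hYN : Y ≤ N
  · obtain ⟨C, hC⟩ := exists_isCompl (⟨Y, iY⟩ : Subrepresentation ρ)
    have c1 : Y ⊓ C.toSubmodule = ⊥ := congrArg Subrepresentation.toSubmodule hC.inf_eq_bot
    have c2 : Y ⊔ C.toSubmodule = ⊤ := congrArg Subrepresentation.toSubmodule hC.sup_eq_top
    have e : Y ⊔ C.toSubmodule ⊓ X = X := by rw [← sup_inf_assoc_of_le _ hY, c2, top_inf_eq]
    have := hm (y := C.toSubmodule ⊓ X) ⟨fun g u hu => ⟨C.2 g hu.1, h1 g u hu.2⟩,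
      fun h => h2 (e ▸ sup_le hYN h)⟩ inf_le_right
    exact .inl (le_bot_iff.1 (c1 ▸ le_inf le_rfl (hY.trans (this.trans inf_le_left))))
  · exact .inr (le_antisymm hY (hm ⟨iY, hYN⟩ hY))

omit [FiniteDimensional F V] [Finite G] [NeZero (Nat.card G : F)] in
theorem inv_orth (hI : ∀ g x y, B (ρ g x) (ρ g y) = B x y) (hX : Inv ρ X) :
    Inv ρ (B.orthogonal X) := fun g u hu x hx => by
  have := hI g (ρ g⁻¹ x) u
  rw [← Module.End.mul_apply, ← map_mul, mul_inv_cancel, map_one, Module.End.one_apply] at this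
  exact this.trans (hu _ (hX _ _ hx))

theorem step [Nontrivial V] (hB : B.Nondegenerate) (hI : ∀ g x y, B (ρ g x) (ρ g y) = B x y) :
    ∃ X b, X ≠ ⊥ ∧ ND B X ∧ Good ρ b X := by
  classical
  have hI' : ∀ g x y, B.flip (ρ g x) (ρ g y) = B.flip x y := fun g x y => hI g y x
  obtain ⟨X, hX, X0⟩ := exists_irr (ρ := ρ) (N := ⊥) bot_ne_top
  rw [le_bot_iff] at X0
  by_cases h1 : X ≤ B.flip.orthogonal X
  swap
  · have nd : ND B X := fun x hx H => hX.eq_zero (inv_orth hI' hX.1) h1 hx H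
    have hS : ∀ g x y, (B + B.flip) (ρ g x) (ρ g y) = (B + B.flip) x y := fun g x y => by simp [hI]
    by_cases h2 : X ≤ (B + B.flip).orthogonal X
    · obtain ⟨C, hC⟩ := X.exists_isCompl
      have p := X.projection_apply_mem hC
      have q : ∀ x ∈ X, X.projection C hC x = x := fun x hx => X.projection_apply_left hC ⟨x, hx⟩
      have sk : ∀ x ∈ X, ∀ y ∈ X, B x y + B y x = 0 := fun x hx y hy => h2 hy x hx
      refine ⟨X, decide ((2 : F) ≠ 0), X0, nd, hX.1, B.compl₁₂ (X.projection C hC) (X.projection C hC),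
        ?_, fun g x hx y hy => ?_, fun x hx H => nd x hx fun y hy => ?_⟩
      · by_cases h : (2 : F) = 0
        · simp only [Ty, h, ne_eq, not_true, decide_false, Bool.false_eq_true, if_false]
          intro x y
          have := sk _ (p x) _ (p y)
          simp only [compl₁₂_apply]
          linear_combination this - B (X.projection C hC y) (X.projection C hC x) * h
        · simp only [Ty, h, ne_eq, not_false_iff, decide_true, if_true]
          intro x
          have := sk _ (p x) _ (p x)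
          rw [← two_mul] at this
          exact (mul_eq_zero.1 this).resolve_left h
      · simp only [compl₁₂_apply, q _ hx, q _ hy, q _ (hX.1 g _ hx), q _ (hX.1 g _ hy), hI]
      · simpa only [compl₁₂_apply, q _ hx, q _ hy] using H y hy
    · refine ⟨X, false, X0, nd, hX.1, B + B.flip, fun x y => by simp [add_comm],
        fun g x _ y _ => hS g x y, fun x hx H => hX.eq_zero (inv_orth hS hX.1) h2 hx fun y hy => ?_⟩
      have := H y hy
      simpa [LinearMap.BilinForm.IsOrtho, add_comm] using this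
  let ψ : V →ₗ[F] V := (B.toDual hB).symm.toLinearMap ∘ₗ B.flip
  have hψ : ∀ x y, B (ψ y) x = B x y := fun x y => B.apply_toDual_symm_apply (hB := hB) _ _
  have eψ : ∀ g y, ψ (ρ g y) = ρ g (ψ y) := fun g y => sub_eq_zero.1 (hB.1 _ fun x => by
    obtain ⟨x, rfl⟩ : ∃ z, ρ g z = x := ⟨ρ g⁻¹ x, by
      rw [← Module.End.mul_apply, ← map_mul, mul_inv_cancel, map_one, Module.End.one_apply]⟩
    rw [map_sub, LinearMap.sub_apply, hψ, hI, hI, hψ, sub_self])
  obtain ⟨Y, hY, Y0⟩ := exists_irr (ρ := ρ) (N := B.orthogonal X) fun e => X0 (by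
    refine (Submodule.eq_bot_iff _).2 fun x hx => hB.1 x fun y => ?_
    exact (e ▸ trivial : y ∈ B.orthogonal X) x hx)
  obtain ⟨θ, eθ, t1, t2⟩ : ∃ θ : V →ₗ[F] V, (∀ g y, θ (ρ g y) = ρ g (θ y)) ∧
      ¬ Y ≤ (B.orthogonal X).comap θ ∧ ¬ Y ≤ (B.flip.orthogonal X).comap θ := by
    by_cases a : Y ≤ B.flip.orthogonal X
    · by_cases b : Y ≤ (B.orthogonal X).comap ψ
      · refine ⟨1 + ψ, fun g y => by simp [eψ], fun h => Y0 fun y hy x hx => ?_,
          fun h => Y0 fun y hy x hx => ?_⟩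
        · have : B x (y + ψ y) = 0 := h hy x hx
          rwa [map_add, show B x (ψ y) = 0 from b hy x hx, add_zero] at this
        · have : B (y + ψ y) x = 0 := h hy x hx
          rwa [map_add, LinearMap.add_apply, show B y x = 0 from a hy x hx, zero_add, hψ] at this
      · exact ⟨ψ, eψ, b, fun h => Y0 fun y hy x hx => (hψ x y).symm.trans (h hy x hx)⟩
    · exact ⟨1, fun _ _ => rfl, Y0, a⟩
  have ic : ∀ N, Inv ρ N → Inv ρ (N.comap θ) := fun N hN g u hu => by
    rw [Submodule.mem_comap, eθ]; exact hN g _ hu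
  have iZ : Inv ρ (Y.map θ) := by rintro g _ ⟨y, hy, rfl⟩; exact ⟨_, hY.1 g y hy, eθ g y⟩
  have z1 : ∀ z ∈ Y.map θ, (∀ x ∈ X, B x z = 0) → z = 0 := by
    rintro _ ⟨y, hy, rfl⟩ H
    rw [hY.eq_zero (ic _ (inv_orth hI hX.1)) t1 hy H, map_zero]
  have z2 : ∀ z ∈ Y.map θ, (∀ x ∈ X, B z x = 0) → z = 0 := by
    rintro _ ⟨y, hy, rfl⟩ H
    rw [hY.eq_zero (ic _ (inv_orth hI' hX.1)) t2 hy H, map_zero]
  have z3 : ∀ x ∈ X, (∀ z ∈ Y.map θ, B x z = 0) → x = 0 := fun x hx H =>
    hX.eq_zero (inv_orth hI' iZ) (fun h => t1 fun y hy x hx => h hx _ ⟨y, hy, rfl⟩) hx H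
  have xx : ∀ x ∈ X, ∀ y ∈ X, B x y = 0 := fun x hx y hy => h1 hx y hy
  have dj : Disjoint X (Y.map θ) := Submodule.disjoint_def.2 fun x hx hz => z1 x hz fun y hy => xx y hy x hx
  obtain ⟨π, p1, p2⟩ := exists_proj dj
  obtain ⟨π', q1, q2⟩ := exists_proj dj.symm
  have e : ∀ x ∈ X, ∀ y ∈ Y.map θ, ∀ x' ∈ X, ∀ y' ∈ Y.map θ,
      (B.compl₁₂ π π' - (B.compl₁₂ π π').flip) (x + y) (x' + y') = B x y' - B x' y :=
    fun x hx y hy x' hx' y' hy' => by
      rw [LinearMap.sub_apply, LinearMap.sub_apply, flip_apply, compl₁₂_apply, compl₁₂_apply, map_add π, map_add π,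
        map_add π', map_add π', p1 x hx, p1 x' hx', p2 y hy, p2 y' hy', q1 y hy, q1 y' hy', q2 x hx,
        q2 x' hx']
      simp
  refine ⟨X ⊔ Y.map θ, true, fun h => X0 (le_bot_iff.1 (h ▸ le_sup_left)), fun u hu H => ?_,
    hX.1.sup iZ, B.compl₁₂ π π' - (B.compl₁₂ π π').flip, fun x => by simp, fun g u hu v hv => ?_,
    fun u hu H => ?_⟩
  · obtain ⟨x, hx, y, hy, rfl⟩ := Submodule.mem_sup.1 hu
    obtain rfl := z2 y hy fun x' hx' => by
      simpa [xx x hx x' hx'] using H x' (Submodule.mem_sup_left hx')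
    rw [add_zero] at H ⊢
    exact z3 x hx fun z hz => H z (Submodule.mem_sup_right hz)
  · obtain ⟨x, hx, y, hy, rfl⟩ := Submodule.mem_sup.1 hu
    obtain ⟨x', hx', y', hy', rfl⟩ := Submodule.mem_sup.1 hv
    rw [map_add (ρ g), map_add (ρ g), e _ (hX.1 g _ hx) _ (iZ g _ hy) _ (hX.1 g _ hx') _ (iZ g _ hy'),
      e _ hx _ hy _ hx' _ hy', hI, hI]
  · obtain ⟨x, hx, y, hy, rfl⟩ := Submodule.mem_sup.1 hu
    rw [z3 x hx fun y' hy' => ?_, z1 y hy fun x' hx' => ?_, add_zero]
    · simpa using (e x hx y hy x' hx' 0 (zero_mem _)).symm.trans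
        (H _ (Submodule.add_mem_sup hx' (zero_mem _)))
    · simpa using (e x hx y hy 0 X.zero_mem y' hy').symm.trans
        (H _ (Submodule.add_mem_sup X.zero_mem hy'))

omit [Finite G] [NeZero (Nat.card G : F)] in
theorem split (hB : B.Nondegenerate) (h : ND B X) : IsCompl X (B.orthogonal X) ∧
    (B.restrict (B.orthogonal X)).Nondegenerate := by
  have h1 : (B.restrict X).Nondegenerate := .ofSeparatingLeft fun x H =>
    Subtype.ext (h x x.2 fun y hy => H ⟨y, hy⟩)
  have h2 : IsCompl X (B.orthogonal X) := by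
    refine ⟨Submodule.disjoint_def.2 fun x hx hx' => congrArg Subtype.val
      (h1.2 ⟨x, hx⟩ fun y => hx' y y.2), codisjoint_iff.2 (top_le_iff.1 fun v _ => ?_)⟩
    let x := ((B.restrict X).flip.toDual h1.flip).symm (B.flip v ∘ₗ X.subtype)
    refine Submodule.mem_sup.2 ⟨x, x.2, v - x, fun y hy => ?_, by simp⟩
    have := LinearMap.BilinForm.apply_toDual_symm_apply (hB := h1.flip) (B.flip v ∘ₗ X.subtype) ⟨y, hy⟩
    change B y (v - x) = 0
    rw [map_sub, sub_eq_zero]
    exact this.symm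
  refine ⟨h2, .ofSeparatingRight fun z H => Subtype.ext (hB.2 z fun v => ?_)⟩
  obtain ⟨x, hx, y, hy, rfl⟩ := Submodule.mem_sup.1 (h2.sup_eq_top ▸ trivial : v ∈ X ⊔ B.orthogonal X)
  rw [map_add, LinearMap.add_apply, show B x z = 0 from z.2 x hx, show B y z = 0 from H ⟨y, hy⟩, add_zero]

theorem main (n : ℕ) : ∀ (V : Type u) [AddCommGroup V] [Module F V] [FiniteDimensional F V]
    (ρ : Representation F G V) (B : LinearMap.BilinForm F V), finrank F V = n → B.Nondegenerate →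
    (∀ g x y, B (ρ g x) (ρ g y) = B x y) → ∃ U W, IsCompl U W ∧ Good ρ true U ∧ Good ρ false W := by
  induction n using Nat.strong_induction_on with
  | _ n ih =>
  intro V _ _ _ ρ B hn hB hI
  rcases subsingleton_or_nontrivial V with hV | hV
  · exact ⟨⊥, ⊥, ⟨disjoint_bot_left, by simp [Subsingleton.elim ⊥ (⊤ : Submodule F V)]⟩, good_bot _,
      good_bot _⟩
  obtain ⟨X, b, X0, nd, gd⟩ := step hB hI
  obtain ⟨hc, hZ⟩ := split hB nd
  set Z := B.orthogonal X
  have := Submodule.finrank_add_eq_of_isCompl hc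
  have : finrank F X ≠ 0 := by simpa using X0
  obtain ⟨U, W, c, hU, hW⟩ := ih (finrank F Z) (by omega) Z
    (Subrepresentation.toRepresentation ⟨Z, inv_orth hI gd.1⟩) (B.restrict Z) rfl hZ
    fun g x y => hI g x y
  have tr : ∀ b (U : Submodule F Z), Good (Subrepresentation.toRepresentation
      (⟨Z, inv_orth hI gd.1⟩ : Subrepresentation ρ)) b U → Good ρ b (U.map Z.subtype) := by
    rintro b U ⟨iU, A, a1, a2, a3⟩
    refine ⟨by rintro g _ ⟨u, hu, rfl⟩; exact ⟨_, iU g u hu, rfl⟩, _, a1.comp (Z.projectionOnto X hc.symm),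
      ?_, ?_⟩
    · rintro g _ ⟨x, hx, rfl⟩ _ ⟨y, hy, rfl⟩
      have := a2 g x hx y hy
      simp only [compl₁₂_apply, Submodule.subtype_apply, Submodule.projectionOnto_apply_left, ← this]
      congr 1
      · congr 1; exact Submodule.projectionOnto_apply_left hc.symm ⟨_, inv_orth hI gd.1 g _ x.2⟩
      · exact Submodule.projectionOnto_apply_left hc.symm ⟨_, inv_orth hI gd.1 g _ y.2⟩
    · rintro _ ⟨x, hx, rfl⟩ H
      rw [a3 x hx fun y hy => by simpa using H _ ⟨y, hy, rfl⟩, map_zero]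
  have d : Disjoint (U.map Z.subtype) (W.map Z.subtype) := Submodule.disjoint_map Z.injective_subtype c.1
  have s : U.map Z.subtype ⊔ W.map Z.subtype = Z := by
    rw [← Submodule.map_sup, c.sup_eq_top, Submodule.map_subtype_top]
  have key : ∀ U W : Submodule F V, Disjoint U W → U ⊔ W = Z → Disjoint X U ∧ IsCompl (X ⊔ U) W :=
    fun U W d s => ⟨hc.1.mono_right (s ▸ le_sup_left), Disjoint.disjoint_sup_left_of_disjoint_sup_right
      d (s ▸ hc.1), codisjoint_iff.2 (by rw [sup_assoc, s, hc.sup_eq_top])⟩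
  cases b
  · obtain ⟨k1, k2⟩ := key _ _ d.symm ((sup_comm _ _).trans s)
    exact ⟨_, _, k2.symm, tr _ _ hU, gd.sup (tr _ _ hW) k1⟩
  · obtain ⟨k1, k2⟩ := key _ _ d s
    exact ⟨_, _, k2, gd.sup (tr _ _ hU) k1, tr _ _ hW⟩

omit [FiniteDimensional F V] [Finite G] [NeZero (Nat.card G : F)]

/-- Let F be a finite field of characteristic p, G a finite group of order prime to p, and V a finite-dimensional representation of G over F carrying a nondegenerate G-invariant bilinear form (equivalently, V is self-dual). Then V is the direct sum of two G-invariant subspaces U and W such that U carries a G-invariant alternating bilinear form that is nondegenerate on U and W carries a G-invariant symmetric bilinear form that is nondegenerate on W; moreover when p = 2 the decomposition can be chosen with G acting trivially on W. -/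
theorem result {F : Type*} [Field F] [Fintype F] (p : ℕ) [Fact p.Prime] [CharP F p] {G : Type*} [Group G] [Finite G] (hcop : ¬ p ∣ Nat.card G) {V : Type*} [AddCommGroup V] [Module F V] [FiniteDimensional F V] (ρ : Representation F G V) (B : LinearMap.BilinForm F V) (hB : B.Nondegenerate) (hBinv : ∀ g : G, ∀ x y : V, B (ρ g x) (ρ g y) = B x y) : ∃ U W : Submodule F V, IsCompl U W ∧ (∀ g : G, ∀ u ∈ U, ρ g u ∈ U) ∧ (∀ g : G, ∀ w ∈ W, ρ g w ∈ W) ∧ (∃ A : LinearMap.BilinForm F V, (∀ x : V, A x x = 0) ∧ (∀ g : G, ∀ x ∈ U, ∀ y ∈ U, A (ρ g x) (ρ g y) = A x y) ∧ (∀ x ∈ U, (∀ y ∈ U, A x y = 0) → x = 0)) ∧ (∃ S : LinearMap.BilinForm F V, (∀ x y : V, S x y = S y x) ∧ (∀ g : G, ∀ x ∈ W, ∀ y ∈ W, S (ρ g x) (ρ g y) = S x y) ∧ (∀ x ∈ W, (∀ y ∈ W, S x y = 0) → x = 0)) ∧ (p = 2 → ∀ g : G, ∀ w ∈ W, ρ g w = w) := by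
  have : NeZero (Nat.card G : F) := ⟨fun h => hcop ((CharP.cast_eq_zero_iff F p _).1 h)⟩
  obtain ⟨U, W, hc, hU, hW⟩ := main _ V ρ B rfl hB hBinv
  by_cases hp : p = 2
  swap
  · exact ⟨U, W, hc, hU.1, hW.1, hU.2, hW.2, fun h => absurd h hp⟩
  subst hp
  have h2 : (2 : F) = 0 := CharP.ofNat_eq_zero F 2
  have hU' : Good ρ false U := by
    obtain ⟨i, A, a, b⟩ := hU
    refine ⟨i, A, fun x y => ?_, b⟩
    have := a (x + y)
    simp only [map_add, LinearMap.add_apply, a x, a y] at this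
    linear_combination this - A y x * h2
  obtain ⟨-, S, s1, s2, s3⟩ := hU'.sup hW hc.1
  rw [hc.sup_eq_top] at s2 s3
  have hS : S.Nondegenerate := .ofSeparatingLeft fun x H => s3 x trivial fun y _ => H y
  have hI : ∀ g x y, S (ρ g x) (ρ g y) = S x y := fun g x y => s2 g x trivial y trivial
  have := Fintype.ofFinite G
  have hn : (Fintype.card G : F) ≠ 0 := by rw [← Nat.card_eq_fintype_card]; exact NeZero.ne _
  have av : ∀ y, ∑ g, ρ g y ∈ ρ.invariants := fun y h => by
    rw [map_sum]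
    exact Fintype.sum_equiv (Equiv.mulLeft h) _ _ fun g => by simp
  have sv : ∀ x ∈ ρ.invariants, ∀ y, S x (∑ g, ρ g y) = Fintype.card G * S x y := fun x hx y => by
    rw [map_sum, Finset.sum_congr rfl fun g _ => show S x (ρ g y) = S x y by rw [← hI g x y, hx g]]
    simp
  have nd : ND S ρ.invariants := fun x hx H => hS.1 x fun y =>
    (mul_eq_zero.1 ((sv x hx y).symm.trans (H _ (av y)))).resolve_left hn
  have iW : Inv ρ ρ.invariants := fun g u hu => by rwa [hu g]
  obtain ⟨c1, c2⟩ := split hS nd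
  set Z := S.orthogonal ρ.invariants
  have alt : ∀ z ∈ Z, S z z = 0 := fun z hz => by
    have z0 : ∑ g, ρ g z = 0 := Submodule.disjoint_def.1 c1.1 _ (av z)
      (Z.sum_mem fun g _ => inv_orth hI iW g z hz)
    let q : V →+ F := AddMonoidHom.mk' (fun x => S x x) fun x y => by
      simp only [map_add, LinearMap.add_apply, s1 y x]; linear_combination S x y * h2
    have := congrArg q z0
    rw [map_sum, map_zero, Finset.sum_congr rfl fun g _ => show q (ρ g z) = S z z from hI g z z] at this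
    simpa [hn] using this
  have q : ∀ x ∈ Z, Z.projection _ c1.symm x = x := fun x hx => Z.projection_apply_left c1.symm ⟨x, hx⟩
  refine ⟨Z, ρ.invariants, c1.symm, inv_orth hI iW, iW, ⟨S.compl₁₂ (Z.projection _ c1.symm)
    (Z.projection _ c1.symm), fun x => alt _ (Z.projection_apply_mem c1.symm x), fun g x hx y hy => ?_,
    fun x hx H => ?_⟩, ⟨S, s1, fun g x _ y _ => hI g x y, nd⟩, fun _ g w hw => hw g⟩
  · simp only [compl₁₂_apply, q _ hx, q _ hy, q _ (inv_orth hI iW g _ hx), q _ (inv_orth hI iW g _ hy), hI]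
  · exact congrArg Subtype.val (c2.1 ⟨x, hx⟩ fun y => show S x y = 0 by
      simpa only [compl₁₂_apply, q _ hx, q _ y.2] using H y y.2)

end Cfsg.Agent.S4966
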