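import Cfsg.Statements.S4967
import Mathlib.RingTheory.Trace.Basic


set_option autoImplicit false
open Cfsg

namespace Cfsg.Agent.S4967

open Module

theorem aux {F K H : Type*} [Field F] [Fintype F] [Field K] [Algebra F K] [FiniteDimensional F K]
    [CommGroup H] [Finite H] (χ : H →* K) (hi : Function.Injective χ)
    (hg : Algebra.adjoin F (Set.range χ) = ⊤) :
    (finrank F K = 1 → Nat.card H ≤ 2 ∨ ∀ B : LinearMap.BilinForm F K, B.Nondegenerate →
      ¬ ∀ h x y, B (χ h * x) (χ h * y) = B x y) ∧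
    (2 ≤ finrank F K → ((∃ B : LinearMap.BilinForm F K, B.Nondegenerate ∧
      ∀ h x y, B (χ h * x) (χ h * y) = B x y) ↔
      (Even (finrank F K) ∧ Nat.card H ∣ Fintype.card F ^ (finrank F K / 2) + 1))) := by
  have := Module.finite_of_finite F (M := K)
  have hc := isCyclic_of_injective_ringHom χ hi
  have hinv : ∀ h, χ h * χ h⁻¹ = 1 := fun h => by rw [← map_mul]; simp
  set φ := FiniteField.frobeniusAlgHom F K with hφ
  have hφp : ∀ (i : ℕ) x, (φ ^ i) x = x ^ Fintype.card F ^ i := fun i x => by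
    rw [AlgHom.coe_pow, hφ, FiniteField.coe_frobeniusAlgHom, pow_iterate]
  have hdvd : ∀ k, (∀ h, χ h ^ k = 1) → Nat.card H ∣ k := fun k hk => by
    rw [← IsCyclic.exponent_eq_card]
    exact Monoid.exponent_dvd_of_forall_pow_eq_one fun h => hi (by rw [map_pow, hk, map_one])
  have key : ∀ B : LinearMap.BilinForm F K, B.Nondegenerate → (∀ h x y, B (χ h * x) (χ h * y) = B x y) →
      ∃ i < finrank F K, (i = 0 ∨ finrank F K = 2 * i) ∧ ∀ h, χ h ^ Fintype.card F ^ i = χ h⁻¹ := by
    intro B hB hI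
    have h1 : ∀ h x y, B (χ h * x) y = B x (χ h⁻¹ * y) := fun h x y => by
      rw [← hI h x (χ h⁻¹ * y), ← mul_assoc, hinv, one_mul]
    have ex : ∀ a : K, ∃ b, ∀ x y, B (a * x) y = B x (b * y) := fun a => by
      induction (hg ▸ trivial : a ∈ Algebra.adjoin F (Set.range χ)) using Algebra.adjoin_induction with
      | mem a ha => obtain ⟨h, rfl⟩ := ha; exact ⟨_, h1 h⟩
      | algebraMap c => exact ⟨algebraMap F K c, fun x y => by simp [← Algebra.smul_def]⟩
      | add a b _ _ ha hb =>
        obtain ⟨a', ha⟩ := ha; obtain ⟨b', hb⟩ := hb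
        exact ⟨a' + b', fun x y => by simp [add_mul, ha, hb]⟩
      | mul a b _ _ ha hb =>
        obtain ⟨a', ha⟩ := ha; obtain ⟨b', hb⟩ := hb
        exact ⟨a' * b', fun x y => by rw [mul_assoc, ha, hb, mul_left_comm, mul_assoc]⟩
    choose s hs using ex
    have un : ∀ a b, (∀ x y, B (a * x) y = B x (b * y)) → s a = b := fun a b h =>
      sub_eq_zero.1 (hB.2 _ fun x => by
        have := (hs a x 1).symm.trans (h x 1)
        simpa [sub_eq_zero] using this)
    let σ : K →ₐ[F] K :=
      { toFun := s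
        map_one' := un _ _ (by simp)
        map_mul' := fun a b => un _ _ fun x y => by rw [mul_assoc, hs, hs, mul_left_comm, mul_assoc]
        map_zero' := un _ _ (by simp)
        map_add' := fun a b => un _ _ fun x y => by simp [add_mul, hs]
        commutes' := fun c => un _ _ fun x y => by simp [← Algebra.smul_def] }
    have hσ : ∀ h, σ (χ h) = χ h⁻¹ := fun h => un _ _ (h1 h)
    have h2 : σ ^ 2 = 1 := AlgHom.ext_of_adjoin_eq_top hg (by
      rintro _ ⟨h, rfl⟩
      simp [pow_two, hσ])
    obtain ⟨i, hi⟩ := (FiniteField.bijective_frobeniusAlgHom_pow F K).2 σ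
    have hi' : φ ^ i.1 = σ := hi
    refine ⟨i, i.2, ?_, fun h => by rw [← hφp, hi', hσ]⟩
    rw [← hi', ← pow_mul, ← orderOf_dvd_iff_pow_eq_one, FiniteField.orderOf_frobeniusAlgHom] at h2
    obtain ⟨c, hc⟩ := h2
    have := i.2
    rcases c with _ | _ | c
    · omega
    · omega
    · nlinarith
  have sq1 : (∀ h, χ h ^ Fintype.card F ^ 0 = χ h⁻¹) → ∀ h, χ h ^ 2 = 1 := fun H h => by
    rw [pow_two, ← hinv h, ← H, pow_zero, pow_one]
  refine ⟨fun h1 => or_iff_not_imp_right.2 fun hB => ?_, fun h2 => ⟨?_, ?_⟩⟩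
  · push Not at hB
    obtain ⟨B, hB, hI⟩ := hB
    obtain ⟨i, a, -, b⟩ := key B hB hI
    obtain rfl : i = 0 := by omega
    exact Nat.le_of_dvd two_pos (hdvd 2 (sq1 b))
  · rintro ⟨B, hB, hI⟩
    obtain ⟨i, a, rfl | e, b⟩ := key B hB hI
    · have : (⊤ : Subalgebra F K) ≤ ⊥ := by
        rw [← hg, Algebra.adjoin_le_iff]
        rintro _ ⟨h, rfl⟩
        rcases sq_eq_one_iff.1 (sq1 b h) with e | e <;> rw [e]
        exacts [one_mem _, neg_mem (one_mem _)]
      have := Subalgebra.bot_eq_top_iff_finrank_eq_one.1 (le_antisymm le_top this)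
      omega
    · refine ⟨⟨i, by omega⟩, hdvd _ fun h => ?_⟩
      rw [show finrank F K / 2 = i by omega, pow_succ', b, hinv]
  · rintro ⟨-, hd⟩
    set ψ := φ ^ (finrank F K / 2) with hψ
    refine ⟨(Algebra.traceForm F K).compl₂ ψ.toLinearMap, ⟨fun x hx => ?_, fun y hy => ?_⟩,
      fun h x y => ?_⟩
    · refine (traceForm_nondegenerate F K).1 x fun y => ?_
      obtain ⟨z, rfl⟩ := (Finite.injective_iff_surjective.1 ψ.injective : Function.Surjective ψ) y
      exact hx z
    · exact ψ.injective (((traceForm_nondegenerate F K).2 _ hy).trans (map_zero ψ).symm)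
    · have : χ h * ψ (χ h) = 1 := by
        rw [hψ, hφp, ← pow_succ', ← map_pow, orderOf_dvd_iff_pow_eq_one.1
          ((orderOf_dvd_natCard h).trans hd), map_one]
      change Algebra.trace F K (χ h * x * ψ (χ h * y)) = Algebra.trace F K (x * ψ y)
      rw [map_mul ψ, mul_mul_mul_comm, this, one_mul]

/-- Let F be a finite field with r elements and of characteristic p, H a finite abelian group of order prime to p, and V a faithful irreducible representation of H over F of dimension n (faithful: distinct elements act differently; irreducible: the only H-invariant subspaces are 0 and V). Call V self-dual when it carries a nondegenerate H-invariant bilinear form. If n = 1 and V is self-dual then H has order at most 2. If n ≥ 2 then V is self-dual if and only if n is even and the order of H divides r^(n/2) + 1. -/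
theorem result {F : Type*} [Field F] [Fintype F] (p : ℕ) [Fact p.Prime] [CharP F p] {H : Type*} [CommGroup H] [Finite H] (hcop : ¬ p ∣ Nat.card H) {V : Type*} [AddCommGroup V] [Module F V] [FiniteDimensional F V] (ρ : Representation F H V) (hfaith : Function.Injective ρ) (hirr : ∀ U : Submodule F V, (∀ h : H, ∀ u ∈ U, ρ h u ∈ U) → U = ⊥ ∨ U = ⊤) : (Module.finrank F V = 1 → (∃ B : LinearMap.BilinForm F V, B.Nondegenerate ∧ ∀ h : H, ∀ x y : V, B (ρ h x) (ρ h y) = B x y) → Nat.card H ≤ 2) ∧ (2 ≤ Module.finrank F V → ((∃ B : LinearMap.BilinForm F V, B.Nondegenerate ∧ ∀ h : H, ∀ x y : V, B (ρ h x) (ρ h y) = B x y) ↔ (Even (Module.finrank F V) ∧ Nat.card H ∣ Fintype.card F ^ (Module.finrank F V / 2) + 1))) := by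
  rcases subsingleton_or_nontrivial V with hV | hV
  · simp [Module.finrank_zero_of_subsingleton]
  let A := Algebra.adjoin F (Set.range ρ)
  have hcm : ∀ a ∈ Set.range ρ, ∀ b ∈ Set.range ρ, a * b = b * a := by
    rintro _ ⟨a, rfl⟩ _ ⟨b, rfl⟩; rw [← map_mul, ← map_mul, mul_comm]
  letI : CommRing A := Algebra.adjoinCommRingOfComm F hcm
  let χ : H →* A := (ρ : H →* Module.End F V).codRestrict A fun h => Algebra.subset_adjoin ⟨h, rfl⟩
  have hinj : ∀ a : A, a ≠ 0 → Function.Injective a.1 := fun a ha => by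
    refine LinearMap.ker_eq_bot.1 ((hirr _ fun h u hu => ?_).resolve_right fun e => ha
      (Subtype.ext (LinearMap.ker_eq_top.1 e)))
    have := congrArg (fun x : A => x.1 u) (mul_comm a (χ h))
    exact this.trans (by change ρ h (a.1 u) = 0; rw [LinearMap.mem_ker.1 hu, map_zero])
  have : IsDomain A := by
    have : NoZeroDivisors A := ⟨fun {a b} h => or_iff_not_imp_left.2 fun ha => Subtype.ext
      (LinearMap.ext fun v => hinj a ha ((congrArg (fun x : A => x.1 v) h).trans (map_zero a.1).symm))⟩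
    exact NoZeroDivisors.to_isDomain A
  have := Module.finite_of_finite F (M := A)
  letI : Field A := (Finite.isField_of_domain A).toField
  obtain ⟨v, hv⟩ := exists_ne (0 : V)
  let f : A →ₗ[F] V := (LinearMap.applyₗ v).comp A.val.toLinearMap
  have hf : Function.Bijective f := by
    refine ⟨(injective_iff_map_eq_zero f).2 fun a ha => by_contra fun h =>
      hv (hinj a h (ha.trans (map_zero _).symm)), LinearMap.range_eq_top.1
      ((hirr _ ?_).resolve_left fun e => hv ?_)⟩
    · rintro h _ ⟨a, rfl⟩; exact ⟨χ h * a, rfl⟩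
    · exact (Submodule.eq_bot_iff _).1 e v ⟨1, rfl⟩
  let e := LinearEquiv.ofBijective f hf
  have he : ∀ h a, e (χ h * a) = ρ h (e a) := fun _ _ => rfl
  have iff : (∃ B : LinearMap.BilinForm F V, B.Nondegenerate ∧ ∀ h : H, ∀ x y : V, B (ρ h x) (ρ h y) = B x y) ↔
      ∃ B : LinearMap.BilinForm F A, B.Nondegenerate ∧ ∀ h x y, B (χ h * x) (χ h * y) = B x y := by
    constructor
    · rintro ⟨B, hB, hI⟩
      exact ⟨_, hB.congr e.symm, fun h x y => by simp [he, hI]⟩
    · rintro ⟨B, hB, hI⟩
      refine ⟨_, hB.congr e, fun h x y => ?_⟩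
      obtain ⟨x, rfl⟩ := e.surjective x
      obtain ⟨y, rfl⟩ := e.surjective y
      simp [← he, hI]
  have hg : Algebra.adjoin F (Set.range χ) = ⊤ := by
    have : Set.range χ = (↑) ⁻¹' Set.range ρ := by
      ext a; exact ⟨fun ⟨h, e⟩ => ⟨h, congrArg Subtype.val e⟩, fun ⟨h, e⟩ => ⟨h, Subtype.ext e⟩⟩
    rw [this]
    exact Algebra.adjoin_adjoin_coe_preimage
  have := aux χ (fun a b h => hfaith (congrArg Subtype.val h)) hg
  rw [iff, ← e.finrank_eq]
  exact ⟨fun h1 ⟨B, hB, hI⟩ => (this.1 h1).resolve_right fun h => h B hB hI, this.2⟩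

end Cfsg.Agent.S4967
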