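import Cfsg.Statements.S5006
import Cfsg.Agent.Perm.OneBlock
import Cfsg.Agent.Perm.M24Loc

set_option autoImplicit false
open Cfsg

namespace Cfsg.Agent.S5006

open Cfsg.Agent.Comp Cfsg.Agent.Golay Cfsg.Agent.M24Loc Cfsg.Agent.OneBlock Cfsg.Agent.Char

theorem pgrp {G : Type*} [Group G] {Q : Subgroup G} {k : ℕ} (h : Nat.card Q = 2 ^ k) : IsPGroup 2 Q :=
  IsPGroup.of_card h

theorem odd_one {G : Type*} [Group G] [Finite G] {Q : Subgroup G} {k : ℕ} (h : Nat.card Q = 2 ^ k) {g : G}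
    (hg : g ∈ Q) (ho : ¬ 2 ∣ orderOf g) : g = 1 := by
  have h1 : orderOf g ∣ 2 ^ k := h ▸ Subgroup.orderOf_dvd_natCard Q hg
  obtain ⟨j, -, hj⟩ := (Nat.dvd_prime_pow Nat.prime_two).1 h1
  rcases j with _ | j
  · simpa using hj
  · exact absurd (hj ▸ dvd_pow_self 2 j.succ_ne_zero) ho

theorem loc (z : MG) (hz : orderOf z = 2) : ∃ Q : Subgroup MG, IsPGroup 2 Q ∧ Q ≤ Subgroup.centralizer {z} ∧
      Subgroup.centralizer {z} ≤ Subgroup.normalizer (Q : Set MG) ∧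
      ∀ g ∈ Subgroup.centralizer (Q : Set MG), g ∈ Subgroup.centralizer {z} → ¬ 2 ∣ orderOf g → g = 1 := by
  have key : ∀ (y : MG) (Q : Subgroup MG) (k : ℕ), Nat.card Q = 2 ^ k → y ∈ Q →
      Subgroup.centralizer {y} ≤ Subgroup.normalizer (Q : Set MG) → Subgroup.centralizer (Q : Set MG) = Q →
      ∀ u : MG, u * y * u⁻¹ = z → ∃ Q : Subgroup MG, IsPGroup 2 Q ∧ Q ≤ Subgroup.centralizer {z} ∧
      Subgroup.centralizer {z} ≤ Subgroup.normalizer (Q : Set MG) ∧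
      ∀ g ∈ Subgroup.centralizer (Q : Set MG), g ∈ Subgroup.centralizer {z} → ¬ 2 ∣ orderOf g → g = 1 := by
    rintro y Q k h1 h2 h3 h4 u rfl
    refine ⟨Q.map (MulAut.conj u).toMonoidHom, (pgrp h1).map _, ?_, ?_, fun g hg _ ho => ?_⟩
    · rw [← map_conj_centralizer]
      exact Subgroup.map_mono (h4.ge.trans (Subgroup.centralizer_le (by simpa using h2)))
    · rw [← map_conj_centralizer, ← map_conj_normalizer]
      exact Subgroup.map_mono h3
    · refine odd_one ((card_map_conj u Q).trans h1) ⟨u⁻¹ * g * u, ?_, by simp [mul_assoc]⟩ ho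
      rw [← h4]
      intro q hq
      have := hg (u * q * u⁻¹) ⟨q, hq, rfl⟩
      calc _ = u⁻¹ * (u * q * u⁻¹ * g) * u := by group
        _ = _ := by rw [this]; group
  rcases inv_cases hz with ⟨u, hu⟩ | ⟨u, hu⟩
  · refine key zA _ 4 (card_fixOct oct0_mem) zA_mem (fun g hg => ?_) cent_fixOct0 u hu
    rw [Subgroup.mem_normalizer_iff_map_conj_eq]
    exact (map_conj_fixF g oct0).trans (by rw [CA_le hg])
  · exact key zB _ 6 card_Q64 zB_mem CB_le_norm cent_Q64 u hu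

theorem conjA {g h : MG} (hg : orderOf g = 3) (hg' : fixS g ≠ ∅) (hh : orderOf h = 3) (hh' : fixS h ≠ ∅) :
    IsConj g h := by
  obtain ⟨k, rfl⟩ := conj_x3A hg hg'
  obtain ⟨l, rfl⟩ := conj_x3A hh hh'
  exact (isConj_iff.2 ⟨k, rfl⟩).symm.trans (isConj_iff.2 ⟨l, rfl⟩)

theorem fixS_inv (g : MG) : fixS g⁻¹ = fixS g := by
  ext p; rw [mem_fixS, mem_fixS, inv_smul_eq_iff, eq_comm]

theorem arith (k : ℕ) (a b : ℤ) (h1 : 2 ^ 10 * k ∣ 244823040) (h2 : (2 ^ 10 * k) ^ 2 ≤ 244823040)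
    (ha : a ^ 2 ≤ 1080) (hb : b ^ 2 ≤ 504) (ha' : ((2 ^ 10 * k : ℕ) : ℤ) * 1080 ∣ 244823040 * a)
    (hb' : ((2 ^ 10 * k : ℕ) : ℤ) * 504 ∣ 244823040 * b) (h3 : (3 : ℤ) ∣ (2 ^ 10 * k : ℕ) + 2 * a)
    (h4 : (3 : ℤ) ∣ (2 ^ 10 * k : ℕ) + 2 * b) (h5 : (27 : ℤ) ∣ (2 ^ 10 * k : ℕ) + 14 * a + 12 * b) : False := by
  have hk : k ≤ 15 := by nlinarith
  have a1 : a ≤ 32 := by nlinarith
  have a2 : -32 ≤ a := by nlinarith
  have b1 : b ≤ 22 := by nlinarith
  have b2 : -22 ≤ b := by nlinarith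
  clear ha hb h2
  interval_cases k <;> simp only [Nat.reducePow, Nat.reduceMul, Nat.cast_ofNat, Int.reduceMul] at * <;> omega

/-- All irreducible complex characters of the Mathieu group `M₂₄` lie in a single 2-block: any two of them lie in the same block relative to every maximal ideal of the algebraic integers containing 2. -/
theorem result (M : Ideal Cfsg.AlgInt) (hM : Cfsg.IsPModular 2 M)
    (χ ψ : Cfsg.IrrCharacter ↥Cfsg.M24) : Cfsg.SameBlock M (χ : ↥Cfsg.M24 → ℂ) (ψ : ↥Cfsg.M24 → ℂ) := by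
  haveI : Fact (Nat.Prime 2) := ⟨Nat.prime_two⟩
  refine sameBlock_of hM (fun χ => (mem_principal_or_defect_zero hM loc χ).resolve_right fun h => ?_) χ ψ
  obtain ⟨k, h1, h2, h3⟩ := deg_of_defect_zero χ (e := 10) Nat.prime_two card_M24 (by norm_num) h
  have hχ := IsIrrCharacter.isCharacter χ.2
  have cA : IsConj y3 y3⁻¹ := conjA order_y3 fixS_y3 (by rw [orderOf_inv, order_y3]) (by rw [fixS_inv]; exact fixS_y3)
  have cB : IsConj x3B x3B⁻¹ :=
    isConj_iff.2 (conj_x3B (by rw [orderOf_inv, order_x3B]) (by rw [fixS_inv, fixS_x3B]))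
  obtain ⟨a, a1, a2, a3⟩ := val_three χ order_y3 cA card_Cy
  obtain ⟨b, b1, b2, b3⟩ := val_three χ order_x3B cB card_CxB
  have c1 := dvd_three hχ order_y3 cA a1
  have c2 := dvd_three hχ order_x3B cB b1
  have o3 : ∀ u ∈ P3, u ≠ 1 → orderOf u = 3 := fun u hu h1 =>
    haveI : Fact (Nat.Prime 3) := ⟨Nat.prime_three⟩; orderOf_eq_prime (cube_P3 hu) h1
  have f1 : fixS (1 : MG) ≠ ∅ := Finset.ne_empty_of_mem (a := none) (mem_fixS.2 (one_smul _ _))
  have c3 := dvd_sum hχ P3 (q := fun u => fixS u ≠ ∅) (a := a) (b := b) (n := 14) f1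
    (fun u hu h1 hf => by
      rw [← a1]; exact (IsCharacter.isClassFunction hχ).apply_eq_of_isConj (conjA (o3 u hu h1) hf order_y3 fixS_y3))
    (fun u hu hf => by
      rw [← b1]
      exact ((IsCharacter.isClassFunction hχ).apply_eq_of_isConj (isConj_iff.2
        (conj_x3B (o3 u hu fun e => hf (e ▸ f1)) (not_not.1 hf)))).symm) ncard_P3 card_P3
  rw [h1] at a3 b3 c1 c2 c3
  rw [card_M24] at a3 b3
  exact arith k a b h2 h3 (by exact_mod_cast a2) (by exact_mod_cast b2) (by exact_mod_cast a3) (by exact_mod_cast b3)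
    c1 c2 (by convert c3 using 2 <;> norm_num)

end Cfsg.Agent.S5006
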