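import Cfsg.Statements.S5005
import Cfsg.Agent.S5006
import Cfsg.Agent.BMod.Dict2

set_option autoImplicit false
open Cfsg

namespace Cfsg.Agent.S5005

open Cfsg.Agent.Comp Cfsg.Agent.Golay Cfsg.Agent.M24Loc Cfsg.Agent.OneBlock Cfsg.Agent.Char
open scoped Pointwise

theorem loc (z : K22) (hz : orderOf z = 2) : ∃ Q : Subgroup K22, IsPGroup 2 Q ∧ Q ≤ Subgroup.centralizer {z} ∧
      Subgroup.centralizer {z} ≤ Subgroup.normalizer (Q : Set K22) ∧
      ∀ g ∈ Subgroup.centralizer (Q : Set K22), g ∈ Subgroup.centralizer {z} → ¬ 2 ∣ orderOf g → g = 1 := by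
  have h1 : EG.dec 2 ∈ fixS (z : MG) := mem_fixS.2 z.2.1
  have h2 : EG.dec 5 ∈ fixS (z : MG) := mem_fixS.2 z.2.2
  obtain ⟨u, hu⟩ := conj_zA (g := z) (by rw [Subgroup.orderOf_coe, hz]) (Finset.ne_empty_of_mem h1)
  have ho : fixS (z : MG) ∈ octads := by rw [← hu, fixS_conj, fixS_zA]; exact inv_octads u _ oct0_mem
  have h3 : fixF MG (fixS (z : MG)) ≤ K22 := fun g hg => ⟨mem_fixF.1 hg _ h1, mem_fixF.1 hg _ h2⟩
  have h4 : (z : MG) ∈ fixF MG (fixS (z : MG)) := mem_fixF.2 fun _ h => mem_fixS.1 h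
  have h5 : Nat.card (fixF MG (fixS (z : MG))) = 2 ^ 4 := card_fixOct ho
  refine ⟨(fixF MG (fixS (z : MG))).subgroupOf K22, (S5006.pgrp h5).comap_subtype, fun g hg => ?_, fun g hg => ?_,
    fun g hg _ hn => Subtype.ext (S5006.odd_one h5 (cent_fixOct ho fun q hq => ?_) (by rwa [Subgroup.orderOf_coe]))⟩
  · rw [Subgroup.mem_centralizer_singleton_iff]
    refine Subtype.ext ?_
    have hg' : (g : MG) ∈ fixF MG (fixS (z : MG)) := hg
    have a1 := inv_eq_of_mul_eq_one_right (sq_fixOct ho (mul_mem hg' h4))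
    rw [mul_inv_rev, inv_eq_of_mul_eq_one_right (sq_fixOct ho hg'), inv_eq_of_mul_eq_one_right (sq_fixOct ho h4)] at a1
    exact a1.symm
  · have e : (g : MG) • fixS (z : MG) = fixS (z : MG) := centralizer_le_fixS _ (by
      rw [Subgroup.mem_centralizer_singleton_iff] at hg ⊢; exact congrArg Subtype.val hg)
    refine Subgroup.mem_normalizer_fintype fun q hq => ?_
    exact e ▸ conj_mem_fixF (g : MG) hq
  · exact congrArg Subtype.val (hg ⟨q, h3 hq⟩ hq)

theorem arith (k : ℕ) (a : ℤ) (h1 : 2 ^ 7 * k ∣ 443520) (h2 : (2 ^ 7 * k) ^ 2 ≤ 443520)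
    (ha : a ^ 2 ≤ 36) (ha' : ((2 ^ 7 * k : ℕ) : ℤ) * 36 ∣ 443520 * a)
    (h5 : (9 : ℤ) ∣ (2 ^ 7 * k : ℕ) + 8 * a) : False := by
  have hk : k ≤ 5 := by nlinarith
  have a1 : a ≤ 6 := by nlinarith
  have a2 : -6 ≤ a := by nlinarith
  clear ha h2
  interval_cases k <;> simp only [Nat.reducePow, Nat.reduceMul, Nat.cast_ofNat, Int.reduceMul] at * <;> omega

theorem main (M : Ideal Cfsg.AlgInt) (hM : Cfsg.IsPModular 2 M) (χ ψ : Cfsg.IrrCharacter K22) :
    Cfsg.SameBlock M (χ : K22 → ℂ) (ψ : K22 → ℂ) := by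
  haveI : Fact (Nat.Prime 2) := ⟨Nat.prime_two⟩
  refine sameBlock_of hM (fun χ => (mem_principal_or_defect_zero hM loc χ).resolve_right fun h => ?_) χ ψ
  obtain ⟨k, h1, h2, h3⟩ := deg_of_defect_zero χ (e := 7) Nat.prime_two card_K22 (by norm_num) h
  have hχ := IsIrrCharacter.isCharacter χ.2
  have cj : ∀ g : K22, orderOf g = 3 → IsConj (⟨y3, y3_mem⟩ : K22) g := fun g hg => by
    obtain ⟨k, hk, e⟩ := conj_K22 g.2 (by rw [Subgroup.orderOf_coe, hg])
    exact isConj_iff.2 ⟨⟨k, hk⟩, Subtype.ext e⟩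
  have oy : orderOf (⟨y3, y3_mem⟩ : K22) = 3 := by rw [← Subgroup.orderOf_coe]; exact order_y3
  have cy : Nat.card (Subgroup.centralizer {(⟨y3, y3_mem⟩ : K22)}) = 36 := by
    rw [← card_KCy, ← map_subtype_centralizer (⟨y3, y3_mem⟩ : K22), Subgroup.card_subtype]
  obtain ⟨a, a1, a2, a3⟩ := val_three χ oy (cj _ (by rw [orderOf_inv, oy])) cy
  have hP : Nat.card (P9.subgroupOf K22) = 9 :=
    (Nat.card_congr (Subgroup.subgroupOfEquivOfLe P9_le).toEquiv).trans card_P9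
  have c3 := dvd_sum hχ (P9.subgroupOf K22) (q := fun _ => True) (a := a) (b := 0) (n := 8) trivial
    (fun u hu h1 _ => by
      haveI : Fact (Nat.Prime 3) := ⟨Nat.prime_three⟩
      rw [← a1]
      exact ((IsCharacter.isClassFunction hχ).apply_eq_of_isConj
        (cj u (orderOf_eq_prime (Subtype.ext (cube_P9 hu)) h1))).symm)
    (fun _ _ h => (h trivial).elim) (by simpa [← Nat.card_coe_set_eq] using hP) hP
  rw [h1] at a3 c3
  rw [card_K22] at a3
  exact arith k a h2 h3 (by exact_mod_cast a2) (by exact_mod_cast a3) (by simpa using c3)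

/-- All irreducible complex characters of the Mathieu group `M₂₂` lie in a single 2-block: any two of them lie in the same block relative to every maximal ideal of the algebraic integers containing 2. -/
theorem result (M : Ideal Cfsg.AlgInt) (hM : Cfsg.IsPModular 2 M)
    (χ ψ : Cfsg.IrrCharacter ↥Cfsg.Spor.M22) : Cfsg.SameBlock M (χ : ↥Cfsg.Spor.M22 → ℂ) (ψ : ↥Cfsg.Spor.M22 → ℂ) := by
  obtain ⟨e⟩ := equiv_K22
  obtain ⟨χ, rfl⟩ := (BMod.mapIrr e).surjective χ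
  obtain ⟨ψ, rfl⟩ := (BMod.mapIrr e).surjective ψ
  exact (BMod.sameBlock_mapIrr e χ ψ).2 (main M hM χ ψ)

end Cfsg.Agent.S5005
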