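import Cfsg.Statements.S5013
import Cfsg.Agent.Root.RankOne

set_option autoImplicit false
open Cfsg

namespace Cfsg.Agent.S5013
open Cfsg.Agent.Root

/-- In a rank one group with unipotent subgroups A and B (conjugation written g H g⁻¹), for every non-identity a in A the non-identity b in B with b⁻¹ A b = a⁻¹ B a is unique, every non-identity b in B arises in this way from exactly one such a (so a ↦ b(a) is a bijection between the non-identity elements of A and of B), and no non-identity element of A normalizes B (and vice versa). -/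
theorem result {G : Type*} [Group G] {A B : Subgroup G} (h : Cfsg.IsRankOnePair A B) :
    (∀ a ∈ A, a ≠ 1 → ∃! b : G, b ∈ B ∧ b ≠ 1 ∧ Cfsg.conjBy A b⁻¹ = Cfsg.conjBy B a⁻¹) ∧
    (∀ b ∈ B, b ≠ 1 → ∃! a : G, a ∈ A ∧ a ≠ 1 ∧ Cfsg.conjBy A b⁻¹ = Cfsg.conjBy B a⁻¹) ∧
    A ⊓ Subgroup.normalizer (B : Set G) = ⊥ ∧ B ⊓ Subgroup.normalizer (A : Set G) = ⊥ := by
  refine ⟨fun a ha ha1 => ?_, fun b hb hb1 => ?_, ?_, ?_⟩
  · obtain ⟨b, hb, hb1, e⟩ := h.cond_left a ha ha1
    refine ⟨b, ⟨hb, hb1, e⟩, ?_⟩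
    rintro b' ⟨hb', -, e'⟩
    exact inv_injective (R1.conj_right_inj h (B.inv_mem hb') (B.inv_mem hb) (e'.trans e.symm))
  · obtain ⟨a, ha, ha1, e⟩ := h.cond_right b hb hb1
    refine ⟨a, ⟨ha, ha1, e.symm⟩, ?_⟩
    rintro a' ⟨ha', -, e'⟩
    exact inv_injective (R1.conj_left_inj h (A.inv_mem ha') (A.inv_mem ha) (e'.symm.trans e.symm))
  · rw [eq_bot_iff]
    rintro a ⟨ha, hn⟩
    exact R1.eq_one_left h ha (conjBy_eq_iff_mem_normalizer.2 hn)
  · rw [eq_bot_iff]
    rintro a ⟨ha, hn⟩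
    exact R1.eq_one_right h ha (conjBy_eq_iff_mem_normalizer.2 hn)

end Cfsg.Agent.S5013
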