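import Cfsg.Statements.S5014
import Cfsg.Agent.Root.RankOne

set_option autoImplicit false
open Cfsg

namespace Cfsg.Agent.S5014
open Cfsg.Agent.Root

/-- Let X = ⟨A, B⟩ be a rank one group with unipotent subgroups A and B and let Ω be the set of conjugates of A under X. Then Ω has at least three members, X acts doubly transitively on Ω by conjugation (any two ordered pairs of distinct members are carried to one another by a single element of X), and A acts regularly on Ω with A removed: for C, D in Ω different from A there is exactly one element of A conjugating C to D. -/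
theorem result {G : Type*} [Group G] {A B : Subgroup G} (h : Cfsg.IsRankOnePair A B) :
    (∃ C₁ ∈ Cfsg.unipotentSubgroups A B, ∃ C₂ ∈ Cfsg.unipotentSubgroups A B, ∃ C₃ ∈ Cfsg.unipotentSubgroups A B,
      C₁ ≠ C₂ ∧ C₁ ≠ C₃ ∧ C₂ ≠ C₃) ∧
    (∀ C₁ ∈ Cfsg.unipotentSubgroups A B, ∀ C₂ ∈ Cfsg.unipotentSubgroups A B, ∀ D₁ ∈ Cfsg.unipotentSubgroups A B,
      ∀ D₂ ∈ Cfsg.unipotentSubgroups A B, C₁ ≠ C₂ → D₁ ≠ D₂ →
        ∃ x ∈ A ⊔ B, Cfsg.conjBy C₁ x = D₁ ∧ Cfsg.conjBy C₂ x = D₂) ∧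
    (∀ C ∈ Cfsg.unipotentSubgroups A B, ∀ D ∈ Cfsg.unipotentSubgroups A B, C ≠ A → D ≠ A →
      ∃! a : G, a ∈ A ∧ Cfsg.conjBy C a = D) := by
  refine ⟨?_, ?_, ?_⟩
  · obtain ⟨a, ha, ha1⟩ := R1.exists_left h
    obtain ⟨b, hb, hb1, e⟩ := R1.ex_left h ha ha1
    refine ⟨A, R1.left_mem_unip, B, R1.right_mem_unip h, conjBy A b,
      R1.conj_mem_unip R1.left_mem_unip (Subgroup.mem_sup_right hb), h.ne, ?_, ?_⟩
    · exact fun e' => hb1 (R1.eq_one_right h hb e'.symm)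
    · rw [e]; exact fun e' => ha1 (R1.eq_one_left h ha e'.symm)
  · intro C₁ h₁ C₂ h₂ D₁ h₃ D₂ h₄ hC hD
    obtain ⟨x, hx, rfl, rfl⟩ := R1.exists_conj_pair h h₁ h₂ hC
    obtain ⟨y, hy, rfl, rfl⟩ := R1.exists_conj_pair h h₃ h₄ hD
    exact ⟨y * x⁻¹, Subgroup.mul_mem _ hy (Subgroup.inv_mem _ hx), by simp, by simp⟩
  · intro C hC D hD hCA hDA
    obtain ⟨c, hc, rfl⟩ := ((R1.mem_unip_iff h).1 hC).resolve_left hCA
    obtain ⟨d, hd, rfl⟩ := ((R1.mem_unip_iff h).1 hD).resolve_left hDA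
    refine ⟨d * c⁻¹, ⟨A.mul_mem hd (A.inv_mem hc), by simp⟩, ?_⟩
    rintro a ⟨ha, e⟩
    rw [conjBy_conjBy] at e
    rw [← R1.conj_left_inj h (A.mul_mem ha hc) hd e, mul_inv_cancel_right]

end Cfsg.Agent.S5014
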