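import Cfsg.Statements.S5015
import Cfsg.Agent.Root.RankOne

set_option autoImplicit false
open Cfsg

namespace Cfsg.Agent.S5015
open Cfsg.Agent.Root

/-- Let a group Y act doubly transitively on a set Ω with at least three points, and suppose that the stabilizer of a point α contains a nilpotent subgroup A, normalized by that stabilizer, which acts regularly on the points other than α. Then for any y in Y moving α, the subgroups A and y A y⁻¹ are the unipotent subgroups of a rank one group, and the normal closure of A in Y (the subgroup generated by all conjugates of A) is generated by A and y A y⁻¹ alone. -/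
theorem result {Y Ω : Type*} [Group Y] [MulAction Y Ω]
    (h2 : MulAction.IsMultiplyPretransitive Y Ω 2) (hΩ : 3 ≤ ENat.card Ω) (α : Ω) (A : Subgroup Y)
    (hA : A ≤ MulAction.stabilizer Y α) (hAn : ∀ y ∈ MulAction.stabilizer Y α, Cfsg.conjBy A y = A)
    (hnil : Group.IsNilpotent A) (hreg : ∀ β γ : Ω, β ≠ α → γ ≠ α → ∃! a : Y, a ∈ A ∧ a • β = γ)
    (y : Y) (hy : y ∉ MulAction.stabilizer Y α) :
    Cfsg.IsRankOnePair A (Cfsg.conjBy A y) ∧ Subgroup.normalClosure (A : Set Y) = A ⊔ Cfsg.conjBy A y := by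
  have hyα : y • α ≠ α := hy
  have hfix : ∀ a ∈ A, a • α = α := fun a ha => hA ha
  -- conjugates of `A` only depend on the image of `α`
  have hdep : ∀ x x' : Y, x • α = x' • α → conjBy A x = conjBy A x' := by
    intro x x' e
    rw [conjBy_eq_conjBy_iff]
    apply hAn
    rw [MulAction.mem_stabilizer_iff, mul_smul, e, inv_smul_smul]
  have hregB : ∀ γ δ : Ω, γ ≠ y • α → δ ≠ y • α → ∃ b ∈ conjBy A y, b • γ = δ := by
    intro γ δ hγ hδ
    obtain ⟨a, ⟨ha, e⟩, -⟩ := hreg (y⁻¹ • γ) (y⁻¹ • δ)
      (fun e => hγ (by rw [← e, smul_inv_smul])) (fun e => hδ (by rw [← e, smul_inv_smul]))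
    exact ⟨_, conj_mem_conjBy y ha, by rw [mul_smul, mul_smul, e, smul_inv_smul]⟩
  have hfixB : ∀ b ∈ conjBy A y, b • y • α = y • α := by
    intro b hb
    obtain ⟨a, ha, rfl⟩ := mem_conjBy'.1 hb
    rw [mul_smul, mul_smul, inv_smul_smul, hfix a ha]
  have hsemi : ∀ a ∈ A, ∀ β, β ≠ α → a • β = β → a = 1 := by
    intro a ha β hβ e
    exact (hreg β β hβ hβ).unique ⟨ha, e⟩ ⟨A.one_mem, one_smul _ _⟩
  obtain ⟨γ, hγ1, hγ2⟩ : ∃ γ : Ω, γ ≠ α ∧ γ ≠ y • α := by
    by_contra hcon
    push Not at hcon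
    have hsub : (Set.univ : Set Ω) ⊆ {α, y • α} := by
      intro γ _
      by_cases h : γ = α
      · exact Or.inl h
      · exact Or.inr (hcon γ h)
    have h1 := Set.encard_le_encard hsub
    rw [Set.encard_univ, Set.encard_pair hyα.symm] at h1
    exact absurd (hΩ.trans h1) (by decide)
  have hne : A ≠ conjBy A y := by
    intro e
    obtain ⟨a, ⟨ha, e'⟩, -⟩ := hreg (y • α) γ hyα hγ1
    rw [hfixB a (e ▸ ha)] at e'
    exact hγ2 e'.symm
  have hpair : IsRankOnePair A (conjBy A y) := by
    refine R1.mk' hne hnil (Group.nilpotent_of_mulEquiv (conjByEquiv A y)) ?_ ?_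
    · intro a ha ha1
      have h1 : a • y • α ≠ y • α := fun e => ha1 (hsemi a ha _ hyα e)
      have h2 : a • y • α ≠ α := fun e => hyα (by
        have := congrArg (fun t => a⁻¹ • t) e
        simpa [hfix _ (A.inv_mem ha)] using this)
      obtain ⟨b, hb, e⟩ := hregB α (a • y • α) hyα.symm h1
      refine ⟨b, hb, ?_, ?_⟩
      · rintro rfl; rw [one_smul] at e; exact h2 e.symm
      · rw [conjBy_conjBy]; apply hdep; rw [e, mul_smul]
    · intro b hb hb1
      have h1 : b • α ≠ α := by
        intro e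
        obtain ⟨a, ha, rfl⟩ := mem_conjBy'.1 hb
        have : a • y⁻¹ • α = y⁻¹ • α := by
          rw [mul_smul, mul_smul] at e
          rw [eq_inv_smul_iff, e]
        have h3 : y⁻¹ • α ≠ α := fun e => hyα (by rw [inv_smul_eq_iff] at e; exact e.symm)
        rw [hsemi a ha _ h3 this] at hb1
        simp at hb1
      have h2 : b • α ≠ y • α := fun e => hyα (by
        have := congrArg (fun t => b⁻¹ • t) e
        simpa [hfixB _ ((conjBy A y).inv_mem hb)] using this.symm)
      obtain ⟨a, ⟨ha, e⟩, -⟩ := hreg (y • α) (b • α) hyα h1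
      refine ⟨a, ha, ?_, ?_⟩
      · rintro rfl; rw [one_smul] at e; exact h2 e.symm
      · rw [conjBy_conjBy]; apply hdep; rw [← e, mul_smul]
  refine ⟨hpair, le_antisymm ?_ (sup_le Subgroup.le_normalClosure ?_)⟩
  · refine (Subgroup.closure_le _).2 ?_
    intro z hz
    obtain ⟨a, ha, hc⟩ := Group.mem_conjugatesOfSet_iff.1 hz
    obtain ⟨x, rfl⟩ := isConj_iff.1 hc
    have hx : conjBy A x ≤ A ⊔ conjBy A y := by
      by_cases e : x • α = α
      · rw [hAn x e]; exact le_sup_left
      · obtain ⟨a', ⟨ha', e'⟩, -⟩ := hreg (y • α) (x • α) hyα e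
        rw [hdep x (a' * y) (by rw [mul_smul, e']), ← conjBy_conjBy]
        exact conjBy_le_of_mem le_sup_right (Subgroup.mem_sup_left ha')
    exact hx (conj_mem_conjBy x ha)
  · rw [conjBy_le_iff]
    intro a ha
    exact Subgroup.normalClosure_normal.conj_mem _ (Subgroup.le_normalClosure ha) y

end Cfsg.Agent.S5015
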