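import Cfsg.Statements.S5018
import Cfsg.Agent.Root.Quasisimple

set_option autoImplicit false
open Cfsg

namespace Cfsg.Agent.S5018
open Cfsg.Agent.Root

/-- A rank one group is not nilpotent, and its second centre equals its centre. -/
theorem result {X : Type*} [Group X] {A B : Subgroup X} (h : Cfsg.IsRankOneGroup X A B) :
    Subgroup.upperCentralSeries X 2 = Subgroup.center X ∧ ¬ Group.IsNilpotent X := by
  have hn : ¬ Group.IsNilpotent X := R1.not_isNilpotent_top h.2 h.1
  refine ⟨?_, hn⟩
  rcases R1.normal_dichotomy_top h (Subgroup.upperCentralSeries X 2) inferInstance with e | e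
  · exfalso
    apply hn
    have := h.2.nilpotent_left
    obtain ⟨n, hn⟩ := (Subgroup.isNilpotent_iff_lowerCentralSeries A).1 this
    -- the lower central series of `X` lies in `Z₂` times that of `A`
    set Z := Subgroup.upperCentralSeries X 2
    have hs : A.map (QuotientGroup.mk' Z) = ⊤ := by
      rw [eq_top_iff]
      intro x _
      obtain ⟨y, rfl⟩ := QuotientGroup.mk'_surjective _ x
      obtain ⟨z, hz, a, ha, rfl⟩ := Subgroup.mem_sup_of_normal_left.1 (e ▸ Subgroup.mem_top y)
      exact ⟨a, ha, by simp [(QuotientGroup.eq_one_iff z).2 hz]⟩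
    have h1 : (⊤ : Subgroup X).lowerCentralSeries n ≤ Z := by
      have h2 : ((⊤ : Subgroup X).lowerCentralSeries n).map (QuotientGroup.mk' Z) = ⊥ := by
        rw [Subgroup.map_lowerCentralSeries,
          Subgroup.map_top_of_surjective _ (QuotientGroup.mk'_surjective _), ← hs,
          ← Subgroup.map_lowerCentralSeries, hn, Subgroup.map_bot]
      rw [Subgroup.map_eq_bot_iff, QuotientGroup.ker_mk'] at h2
      exact h2
    rw [Subgroup.nilpotent_iff_lowerCentralSeries]
    refine ⟨n + 2, ?_⟩
    rw [eq_bot_iff, Subgroup.lowerCentralSeries_succ, Subgroup.lowerCentralSeries_succ,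
      ← Subgroup.upperCentralSeries_zero X]
    refine le_trans (Subgroup.commutator_mono ?_ le_rfl)
      (Subgroup.commutator_upperCentralSeries_top_le X 0)
    exact le_trans (Subgroup.commutator_mono h1 le_rfl)
      (Subgroup.commutator_upperCentralSeries_top_le X 1)
  · refine le_antisymm e ?_
    rw [← Subgroup.upperCentralSeries_one]
    exact Subgroup.upperCentralSeries_mono X (by norm_num)

end Cfsg.Agent.S5018
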