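import Cfsg.Statements.S5020
import Cfsg.Agent.Low.Steinb

set_option autoImplicit false
open Cfsg

namespace Cfsg.Agent.S5020

open Cfsg.Agent.Root Cfsg.Agent.Low.Stb

theorem eq_zpowers {X : Type*} [Group X] {A : Subgroup X} {p : ℕ} (hp : p.Prime) (hA : Nat.card A = p)
    {a : X} (ha : a ∈ A) (ha1 : a ≠ 1) : a ^ p = 1 ∧ A = Subgroup.zpowers a := by
  haveI := Fact.mk hp
  have h1 : a ^ p = 1 := by
    have := pow_card_eq_one' (G := A) (x := ⟨a, ha⟩)
    rw [hA] at this
    simpa using congrArg Subtype.val this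
  haveI : Finite A := Nat.finite_of_card_ne_zero (by rw [hA]; exact hp.ne_zero)
  refine ⟨h1, (Subgroup.eq_of_le_of_card_ge (by simpa using ha) ?_).symm⟩
  rw [hA, Nat.card_zpowers, orderOf_eq_prime h1 ha1]

/-- Let X be a special rank one group with abelian unipotent subgroups A and B, and H = N(A) ∩ N(B) its diagonal subgroup. Then either A has at most three elements and X is isomorphic to SL₂(2), SL₂(3) or PSL₂(3); or X = X' A with the commutator subgroup X' quasisimple and the commutator subgroup ⁅A, H⁆ having more than three elements. -/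
theorem result {X : Type*} [Group X] {A B : Subgroup X} (h : Cfsg.IsRankOneGroup X A B)
    (hs : Cfsg.IsSpecialRankOnePair A B) (hab : Cfsg.HasAbelianUnipotents A B) :
    (ENat.card A ≤ 3 ∧ (Nonempty (X ≃* Matrix.SpecialLinearGroup (Fin 2) (ZMod 2)) ∨
        Nonempty (X ≃* Matrix.SpecialLinearGroup (Fin 2) (ZMod 3)) ∨
        Nonempty (X ≃* Matrix.ProjectiveSpecialLinearGroup (Fin 2) (ZMod 3)))) ∨
    (commutator X ⊔ A = ⊤ ∧ Cfsg.IsQuasisimple (commutator X) ∧
      3 < ENat.card ↥(⁅A, Cfsg.rankOneDiagonal A B⁆ : Subgroup X)) := by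
  have hA : Comm A A := comm_self_iff.2 hab.1
  have hB : Comm B B := comm_self_iff.2 hab.2
  by_cases h3 : 3 < ENat.card A
  · right
    have hc : commutator X = ⊤ := by
      have := Sp.commutator_eq hs hA hB h3
      rwa [h.1] at this
    have hp : Group.IsPerfect X := ⟨hc⟩
    refine ⟨by rw [hc, top_sup_eq], ?_, by rwa [Sp.commutator_diag hs hA hB h3]⟩
    rw [hc]
    have h' : IsRankOneGroup ↥(A ⊔ B) (A.subgroupOf (A ⊔ B)) (B.subgroupOf (A ⊔ B)) :=
      R1.isRankOneGroup h.2
    rw [h.1] at h'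
    exact R1.isQuasisimple_of_perfect h' inferInstance
  left
  push Not at h3
  refine ⟨h3, ?_⟩
  haveI : Finite A := by
    by_contra hf
    rw [not_finite_iff_infinite] at hf
    rw [ENat.card_eq_top_of_infinite] at h3
    exact absurd h3 (by simp)
  have hc3 : Nat.card A ≤ 3 := by
    rw [ENat.card_eq_coe_natCard] at h3
    exact_mod_cast h3
  obtain ⟨a, ha, ha1⟩ := R1.exists_left h.2
  obtain ⟨b, r⟩ := R1.ex_rel_left h.2 ha ha1
  have hc1 : 1 < Nat.card A := (Subgroup.one_lt_card_iff_ne_bot _).2 (R1.left_ne_bot h.2)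
  have hBA : Nat.card B = Nat.card A := by
    obtain ⟨x, -, e⟩ := R1.exists_conj_eq h.2
    rw [← e]
    exact (Nat.card_congr (conjByEquiv A x).toEquiv).symm
  have key : ∀ p : ℕ, p.Prime → Nat.card A = p →
      a ^ p = 1 ∧ Subgroup.closure ({a, b} : Set X) = ⊤ := by
    intro p hp e
    obtain ⟨h1, h2⟩ := eq_zpowers hp e ha ha1
    obtain ⟨-, h4⟩ := eq_zpowers hp (hBA.trans e) r.mb r.nb
    refine ⟨h1, ?_⟩
    rw [← h.1, h2, h4, Subgroup.zpowers_eq_closure, Subgroup.zpowers_eq_closure,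
      ← Subgroup.closure_union]
    rfl
  have h23 : Nat.card A = 2 ∨ Nat.card A = 3 := by omega
  rcases h23 with e | e
  · obtain ⟨h1, h2⟩ := key 2 Nat.prime_two e
    left
    have := special_psl2 hs r h1
    rw [h2] at this
    rcases this with ⟨⟨f⟩⟩ | ⟨⟨f⟩⟩
    · exact ⟨Subgroup.topEquiv.symm.trans f⟩
    · have hz : Subgroup.center (Matrix.SpecialLinearGroup (Fin 2) (ZMod 2)) = ⊥ := by
        rw [eq_bot_iff]
        intro z hz
        obtain ⟨c, hc, e⟩ := Matrix.SpecialLinearGroup.mem_center_iff.1 hz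
        have : c = 1 := by clear e; revert c; decide
        subst this
        rw [Subgroup.mem_bot]
        apply Subtype.ext; rw [← e]; simp
      exact ⟨Subgroup.topEquiv.symm.trans (f.trans ((QuotientGroup.quotientMulEquivOfEq hz).trans
        QuotientGroup.quotientBot))⟩
  · obtain ⟨h1, h2⟩ := key 3 Nat.prime_three e
    right
    have := special_psl2 hs r h1
    rw [h2] at this
    rcases this with ⟨⟨f⟩⟩ | ⟨⟨f⟩⟩
    · exact Or.inl ⟨Subgroup.topEquiv.symm.trans f⟩
    · exact Or.inr ⟨Subgroup.topEquiv.symm.trans f⟩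

end Cfsg.Agent.S5020
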