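import Cfsg.Statements.S5021
import Cfsg.Agent.Root.Special2

set_option autoImplicit false
open Cfsg

namespace Cfsg.Agent.S5021
open Cfsg.Agent.Root

/-- In a special rank one group with abelian unipotent subgroups A and B, either A is an elementary abelian p-group for some prime p, or A is torsion-free and divisible (every element of A has an n-th root in A for every positive n). -/
theorem result {X : Type*} [Group X] {A B : Subgroup X} (h : Cfsg.IsRankOneGroup X A B)
    (hs : Cfsg.IsSpecialRankOnePair A B) (hab : Cfsg.HasAbelianUnipotents A B) :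
    (∃ p : ℕ, p.Prime ∧ Cfsg.IsElementaryAbelian p A) ∨
    ((∀ a ∈ A, a ≠ 1 → ¬ IsOfFinOrder a) ∧ ∀ a ∈ A, ∀ n : ℕ, 0 < n → ∃ c ∈ A, c ^ n = a) := by
  have hA : Comm A A := comm_self_iff.2 hab.1
  by_cases ht : ∀ a ∈ A, a ≠ 1 → ¬ IsOfFinOrder a
  · right
    refine ⟨ht, fun a ha n hn => ?_⟩
    by_cases ha1 : a = 1
    · exact ⟨1, A.one_mem, by simp [ha1]⟩
    · exact Sp.root_exists hs ha fun e => ht a ha ha1 (isOfFinOrder_iff_pow_eq_one.2 ⟨n, hn, e⟩)
  · left
    push Not at ht
    obtain ⟨a, ha, ha1, hfin⟩ := ht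
    have ho : orderOf a ≠ 1 := fun e => ha1 (orderOf_eq_one_iff.1 e)
    obtain ⟨p, hp, m, hm⟩ := Nat.exists_prime_and_dvd ho
    have hm0 : 0 < orderOf a := hfin.orderOf_pos
    have hm1 : 0 < m := Nat.pos_of_mul_pos_left (hm ▸ hm0)
    have h1 : a ^ m ≠ 1 := by
      apply pow_ne_one_of_lt_orderOf hm1.ne'
      rw [hm]; have := hp.one_lt; nlinarith
    have h2 : (a ^ m) ^ p = 1 := by rw [← pow_mul, mul_comm, ← hm, pow_orderOf_eq_one]
    refine ⟨p, hp, hab.1, fun x hx => ?_⟩
    by_contra hne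
    have hc : Commute x (a ^ m) := hA x hx _ (A.pow_mem ha m)
    have := Sp.root_unique hs hx (A.mul_mem hx (A.pow_mem ha m))
      (by rw [hc.mul_pow, h2, mul_one]) hne
    exact h1 (by simpa using this)

end Cfsg.Agent.S5021
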