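import Cfsg.Statements.S5023
import Cfsg.Agent.Root.Special

set_option autoImplicit false
open Cfsg

namespace Cfsg.Agent.S5023
open Cfsg.Agent.Root

/-- Let X be a rank one group with unipotent subgroups A and B that acts faithfully on an abelian group V (written additively) with A acting quadratically: a' • (a • v − v) = a • v − v for all a, a' in A and v in V. Then A is either torsion-free or an elementary abelian p-group for some prime p. -/
theorem result {X : Type*} [Group X] {A B : Subgroup X} (h : Cfsg.IsRankOneGroup X A B)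
    {V : Type*} [AddCommGroup V] [DistribMulAction X V] (hf : ∀ x : X, (∀ v : V, x • v = v) → x = 1)
    (hq : ∀ a ∈ A, ∀ a' ∈ A, ∀ v : V, a' • (a • v - v) = a • v - v) :
    (∀ a ∈ A, a ≠ 1 → ¬ IsOfFinOrder a) ∨ ∃ p : ℕ, p.Prime ∧ Cfsg.IsElementaryAbelian p A := by
  let ρ : X →* AddMonoid.End V := DistribMulAction.toAddMonoidEnd X V
  have hqA : ∀ a ∈ A, ∀ a' ∈ A, (ρ a - 1) * (ρ a' - 1) = 0 := by
    intro a ha a' ha'
    ext n
    have := hq a' ha' a ha n
    change a • (a' • n - n) - (a' • n - n) = 0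
    rw [this, sub_self]
  have hinj : Function.Injective ρ := by
    rw [injective_iff_map_eq_one]
    intro x hx
    exact hf x fun v => DFunLike.congr_fun hx v
  by_cases ht : ∀ a ∈ A, a ≠ 1 → ¬ IsOfFinOrder a
  · exact Or.inl ht
  · right
    push Not at ht
    obtain ⟨a, ha, ha1, hfin⟩ := ht
    have ho : orderOf a ≠ 1 := fun e => ha1 (orderOf_eq_one_iff.1 e)
    obtain ⟨p, hp, m, hm⟩ := Nat.exists_prime_and_dvd ho
    have hm0 : 0 < orderOf a := hfin.orderOf_pos
    have hm1 : 0 < m := Nat.pos_of_mul_pos_left (hm ▸ hm0)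
    have h1 : a ^ m ≠ 1 := by
      apply pow_ne_one_of_lt_orderOf hm1.ne'
      rw [hm]; have := hp.one_lt; nlinarith
    refine ⟨p, hp, isMulCommutative_iff.2 fun x hx y hy => hinj ?_,
      quad_pow_eq_one ρ h.2 hqA hinj (A.pow_mem ha m) h1 ?_⟩
    · rw [map_mul, map_mul]
      linear_combination (norm := noncomm_ring) hqA x hx y hy - hqA y hy x hx
    · rw [← pow_mul, mul_comm, ← hm, pow_orderOf_eq_one]

end Cfsg.Agent.S5023
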