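import Cfsg.Statements.S5024
import Cfsg.Agent.Root.RootSet

set_option autoImplicit false
open Cfsg

namespace Cfsg.Agent.S5024
open Cfsg.Agent.Root

/-- Let S be a set of abstract root subgroups of G, A and C members of S, B a rank one partner of A in S and D a rank one partner of C in S. If the rank one group ⟨A, B⟩ is contained in ⟨C, D⟩ then the two coincide, and C and D are conjugates of A inside ⟨A, B⟩. -/
theorem result {G : Type*} [Group G] {S : Set (Subgroup G)} (hS : Cfsg.IsRootSubgroupSet S)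
    {A B C D : Subgroup G} (hA : A ∈ S) (hC : C ∈ S) (hB : B ∈ Cfsg.rankOnePartners S A) (hD : D ∈ Cfsg.rankOnePartners S C)
    (hle : A ⊔ B ≤ C ⊔ D) : A ⊔ B = C ⊔ D ∧ C ∈ Cfsg.unipotentSubgroups A B ∧ D ∈ Cfsg.unipotentSubgroups A B := by
  have h := rs_of hS
  have key : ∀ {A B : Subgroup G}, A ∈ S → IsRankOnePair A B → A ≤ C ⊔ D → B ≤ C ⊔ D →
      A ∈ unipotentSubgroups C D := by
    intro A B hA hr hAle hBle
    by_contra hn
    have hnorm : ∀ E ∈ unipotentSubgroups C D, ∀ a ∈ A, conjBy E a = E := by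
      intro E hE a ha
      have hES : E ∈ S := by obtain ⟨x, -, rfl⟩ := hE; exact hS.conj_mem C hC x
      by_contra hne
      have hp := (R1.pair_of_unip hD.2 hE (R1.conj_mem_unip hE (hAle ha)) (Ne.symm hne)).1
      have h2 := h.rankOne_of_not_comm_conj hA hES ha (R1.not_comm hp)
      obtain ⟨x, hx, e⟩ := R1.exists_conj_eq (R1.symm h2)
      exact hn (e ▸ R1.conj_mem_unip hE (sup_le (R1.unip_le hE) hAle hx))
    -- so `A` centralizes `C` and `D`
    have hc : ∀ {C D : Subgroup G}, C ∈ S → IsRankOnePair C D → (∀ a ∈ A, conjBy C a = C) →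
        (∀ c ∈ C, ∀ a ∈ A, conjBy (conjBy D c) a = conjBy D c) → Comm A C := by
      intro C D _ hr h1 h2 a ha c hc
      have e1 := h2 c hc a ha
      have e2 := h2 1 C.one_mem a ha
      rw [conjBy_one] at e2
      have hm : a * c * a⁻¹ ∈ C := by rw [← h1 a ha]; exact conj_mem_conjBy a hc
      have : conjBy D (a * c * a⁻¹) = conjBy D c := by
        rw [conjBy_mul_of_eq _ (conjBy_inv_of_eq e2), ← conjBy_conjBy, e1]
      have := R1.conj_left_inj hr hm hc this
      exact mul_inv_eq_iff_eq_mul.1 this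
    have h1 : Comm A C := hc hC hD.2 (hnorm C R1.left_mem_unip) fun c hc =>
      hnorm _ (R1.conj_mem_unip (R1.right_mem_unip hD.2) (Subgroup.mem_sup_left hc))
    have h2 : Comm A D := hc hD.1 (R1.symm hD.2) (hnorm D (R1.right_mem_unip hD.2)) fun c hc =>
      hnorm _ (R1.conj_mem_unip R1.left_mem_unip (Subgroup.mem_sup_right hc))
    exact R1.not_comm hr ((h1.sup_right h2).mono le_rfl hBle)
  have h1 := key hA hB.2 (le_sup_left.trans hle) (le_sup_right.trans hle)
  have h2 := key hB.1 (R1.symm hB.2) (le_sup_right.trans hle) (le_sup_left.trans hle)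
  have h3 := R1.unip_eq_of_unip hD.2 h1 h2 hB.2.ne
  exact ⟨(R1.pair_of_unip hD.2 h1 h2 hB.2.ne).2, h3 ▸ R1.left_mem_unip, h3 ▸ R1.right_mem_unip hD.2⟩

end Cfsg.Agent.S5024
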