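import Cfsg.Statements.S5026
import Cfsg.Agent.Root.RootSet2

set_option autoImplicit false
open Cfsg

namespace Cfsg.Agent.S5026
open Cfsg.Agent.Root

/-- Let S be a degenerate set of abstract root subgroups of G (a set of abstract transvection groups) and let a, b be commuting non-identity elements of members of S with a b ≠ 1. Then the members of S centralizing a b are exactly those centralizing both a and b. -/
theorem result {G : Type*} [Group G] {S : Set (Subgroup G)} (hS : Cfsg.IsRootSubgroupSet S) (hdeg : Cfsg.IsDegenerateRootSet S)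
    {a b : G} (ha : a ∈ Cfsg.rootElements S) (hb : b ∈ Cfsg.rootElements S) (hab : a * b = b * a) (hab1 : a * b ≠ 1) :
    Cfsg.centralizingMembers S (Subgroup.zpowers (a * b)) =
      Cfsg.centralizingMembers S (Subgroup.zpowers a) ∩ Cfsg.centralizingMembers S (Subgroup.zpowers b) := by
  have h := rs_of hS
  have hd := h.degenerate_iff.1 hdeg
  obtain ⟨ha1, A, hA, ha⟩ := ha
  obtain ⟨hb1, B, hB, hb⟩ := hb
  have key : ∀ (x : G) (C : Subgroup G), C ≤ Subgroup.centralizer (Subgroup.zpowers x : Set G) ↔
      ∀ c ∈ C, x * c = c * x := by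
    intro x C
    constructor
    · intro h c hc; exact h hc x (Subgroup.mem_zpowers x)
    · rintro h c hc _ ⟨n, rfl⟩
      exact (show Commute x c from h c hc).zpow_left n
  ext C
  simp only [centralizingMembers, Set.mem_setOf_eq, Set.mem_inter_iff, key]
  constructor
  · rintro ⟨hC, hc⟩
    exact ⟨⟨hC, h.comm_of_comm_mul hd hA hB hC ha ha1 hb hab hab1 hc a ha⟩,
      hC, h.comm_of_comm_mul hd hB hA hC hb hb1 ha hab.symm (hab ▸ hab1) (hab ▸ hc) b hb⟩
  · rintro ⟨⟨hC, h1⟩, -, h2⟩
    exact ⟨hC, fun c hc => (show Commute a c from h1 c hc).mul_left (h2 c hc)⟩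

end Cfsg.Agent.S5026
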