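import Cfsg.Statements.S5027
import Cfsg.Agent.Root.RootSet

set_option autoImplicit false
open Cfsg

namespace Cfsg.Agent.S5027
open Cfsg.Agent.Root

/-- Let S be a set of abstract root subgroups of G such that every member of S has a rank one partner in S (the graph of rank one pairs on S has no isolated vertex). Then the second centre of G equals its centre. -/
theorem result {G : Type*} [Group G] {S : Set (Subgroup G)} (hS : Cfsg.IsRootSubgroupSet S)
    (hF : ∀ A ∈ S, ¬ Cfsg.IsIsolatedIn (Cfsg.FAdj S) S A) : Subgroup.upperCentralSeries G 2 = Subgroup.center G := by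
  have h := rs_of hS
  refine le_antisymm ?_ ?_
  · intro z hz
    rw [Subgroup.mem_center_iff]
    intro g
    refine (comm_iSup_elem (S := S) ?_ g (hS.generates ▸ Subgroup.mem_top g)).symm
    intro A hA a ha
    by_cases ha1 : a = 1
    · simp [ha1]
    obtain ⟨B, hB, hr⟩ := (ni_iff hA).1 (hF A hA)
    have h1 : z * a * z⁻¹ * a⁻¹ ∈ Subgroup.center G := by
      rw [← Subgroup.upperCentralSeries_one]
      exact Subgroup.mem_upperCentralSeries_succ_iff.1 hz a
    rw [Subgroup.mem_center_iff] at h1
    have := (h.eq_of_mul_mem hA hB hr (hS.conj_mem A hA z) (fun x _ => (h1 x).symm)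
      (fun x _ => (h1 x).symm) ha ha1 (by
        rw [inv_mul_cancel_right]; exact conj_mem_conjBy z ha)).2
    exact commutatorElement_eq_one_iff_mul_comm.1 this
  · rw [← Subgroup.upperCentralSeries_one]
    exact Subgroup.upperCentralSeries_mono G (by norm_num)

end Cfsg.Agent.S5027
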