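import Cfsg.Statements.S5029
import Cfsg.Agent.Root.RootSet2

set_option autoImplicit false
open Cfsg

namespace Cfsg.Agent.S5029
open Cfsg.Agent.Root

/-- Let S be a set of abstract root subgroups of G, A ∈ S having a rank one partner in S, and B ∈ S with C = ⁅A, B⁆ ∈ S. Then the members of S contained in AC are the conjugates of A by elements of B together with C, they partition AC, the members of S inside AC partition AC so that A is a line partner of C, and for every non-identity a ∈ A the map b ↦ a⁻¹ b⁻¹ a b is an isomorphism from B onto C. -/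
theorem result {G : Type*} [Group G] {S : Set (Subgroup G)} (hS : Cfsg.IsRootSubgroupSet S)
    {A B : Subgroup G} (hA : ¬ Cfsg.IsIsolatedIn (Cfsg.FAdj S) S A) (hAS : A ∈ S) (hB : B ∈ S) (hC : ⁅A, B⁆ ∈ S) :
    Cfsg.membersIn S (A ⊔ ⁅A, B⁆) = (fun b : G => Cfsg.conjBy A b) '' (B : Set G) ∪ {⁅A, B⁆} ∧
    Cfsg.IsSubgroupPartition (A ⊔ ⁅A, B⁆) (Cfsg.membersIn S (A ⊔ ⁅A, B⁆)) ∧
    A ∈ Cfsg.linePartners S ⁅A, B⁆ ∧
    ∀ a ∈ A, a ≠ 1 → ∃ φ : ↥B ≃* ↥⁅A, B⁆, ∀ b : ↥B, (φ b : G) = a⁻¹ * (b : G)⁻¹ * a * b := by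
  have h := rs_of hS
  have hn := (ni_iff hAS).1 hA
  have hc := h.cc_of_mem hAS hB hC
  have l := h.cc_line hAS hB hC hc
  have hmem : membersIn S (A ⊔ ⁅A, B⁆) = (fun b : G => conjBy A b) '' (B : Set G) ∪ {⁅A, B⁆} := by
    ext E
    constructor
    · rintro ⟨hE, hle⟩
      rcases h.cc_members hAS hn hB hC hc hE hle with ⟨b, hb, e⟩ | e
      · exact Or.inl ⟨b, hb, e.symm⟩
      · exact Or.inr e
    · rintro (⟨b, hb, rfl⟩ | rfl)
      · exact ⟨hS.conj_mem A hAS b, hc.conjBy_le' hb⟩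
      · exact ⟨hC, le_sup_right⟩
  have hpart : IsSubgroupPartition (A ⊔ ⁅A, B⁆) (membersIn S (A ⊔ ⁅A, B⁆)) := by
    refine ⟨fun C hC => hC.2, fun x hx hx1 => ?_, ?_⟩
    · obtain ⟨E, hE, h1, h2⟩ := l.cover' hx hx1
      exact ⟨E, ⟨hE, h1⟩, h2⟩
    · intro C hC' D hD hne
      rw [eq_bot_iff]
      rintro x ⟨hxC, hxD⟩
      by_contra hx
      rcases h.cc_members hAS hn hB hC hc hC'.1 hC'.2 with ⟨b, hb, e⟩ | e
      · exact hne (h.ti hC'.1 (e ▸ h.ni_conj' hn hB hb) hD.1 hxC hxD hx).symm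
      rcases h.cc_members hAS hn hB hC hc hD.1 hD.2 with ⟨b, hb, e'⟩ | e'
      · exact hne (h.ti hD.1 (e' ▸ h.ni_conj' hn hB hb) hC'.1 hxD hxC hx)
      exact hne (e.trans e'.symm)
  refine ⟨hmem, hpart, ⟨⟨hAS, l.ne, comm_iff.2 hc.cA⟩, by rw [sup_comm]; exact hpart⟩, ?_⟩
  intro a ha ha1
  have hm : ∀ b ∈ B, a⁻¹ * b⁻¹ * a * b ∈ ⁅A, B⁆ := fun b hb => by
    simpa using hc.mem (A.inv_mem ha) (B.inv_mem hb)
  let φ : B →* ↥⁅A, B⁆ := MonoidHom.mk' (fun b => ⟨_, hm b b.2⟩) (by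
    intro b b'
    ext
    have := hc.cB _ (hm b b.2) b' b'.2
    have h2 := h.comm _ hC _ (hm b b.2) _ (hm b' b'.2)
    simp only [Subgroup.coe_mul]
    calc _ = a⁻¹ * (b' : G)⁻¹ * a * (a⁻¹ * (b : G)⁻¹ * a * b * b') := by group
      _ = _ := by rw [this, h2]; group)
  refine ⟨MulEquiv.ofBijective φ ⟨?_, ?_⟩, fun b => rfl⟩
  · rw [injective_iff_map_eq_one]
    intro b hb
    by_contra hb1
    have e : a⁻¹ * (b : G)⁻¹ * a * b = 1 := congrArg Subtype.val hb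
    apply h.cc_not_mul_comm hAS hn hB hC hc ha ha1 b.2 (fun e => hb1 (Subtype.ext e))
    calc a * b = b * a * (a⁻¹ * (b : G)⁻¹ * a * b) := by group
      _ = _ := by rw [e, mul_one]
  · rintro ⟨c, hc'⟩
    obtain ⟨b, hb, e⟩ := hc.surjL a⁻¹ (A.inv_mem ha) (inv_ne_one.2 ha1) c hc'
    exact ⟨⟨b⁻¹, B.inv_mem hb⟩, Subtype.ext (by simp [φ, e])⟩

end Cfsg.Agent.S5029
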