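import Cfsg.Statements.S5030
import Cfsg.Agent.Root.RootSet4

set_option autoImplicit false
open Cfsg

namespace Cfsg.Agent.S5030
open Cfsg.Agent.Root

theorem half {G : Type*} [Group G] {S : Set (Subgroup G)} (h : RS S) {A B C D E : Subgroup G}
    (hA : A ∈ S) (hB : B ∈ S) (hC : C ∈ S) (hD : D ∈ S) (k1 : CC A B D) (k2 : CC C B E)
    (hAC : Comm A C) {b : G} (hb : b ∈ B) (hb1 : b ≠ 1) :
    (Comm (A ⊔ conjBy C b) (A ⊔ conjBy C b) ↔ Comm A E) ∧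
    Comm ⁅A ⊔ conjBy C b, A ⊔ conjBy C b⁆ (A ⊔ conjBy C b) := by
  have hC' : conjBy C b ∈ S := h.conj_mem C hC B hB b hb
  have hcomm : Comm A (conjBy C b) → Comm (A ⊔ conjBy C b) (A ⊔ conjBy C b) := fun k =>
    ((h.comm A hA).sup_right k).sup_left (k.symm.sup_right (h.comm _ hC'))
  constructor
  · refine ⟨fun k => ?_, fun k => hcomm ?_⟩
    · have : Comm A (C ⊔ conjBy C b) := hAC.sup_right (k.mono le_sup_left le_sup_right)
      rw [h.cc_conj_sup hC k2 hb hb1] at this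
      exact this.mono le_rfl le_sup_right
    · exact (hAC.sup_right k).mono le_rfl (k2.conjBy_le' hb)
  rcases h.pair A hA _ hC' with k | k | ⟨F, hF, k⟩
  · rw [comm_iff.2 (hcomm k)]
    intro x hx y _
    rw [Subgroup.mem_bot.1 hx]; simp
  · exfalso
    obtain ⟨a, ha, ha1⟩ := h.exists_ne_one hA
    have := (h.eq_of_mul_mem hA hC' k hD (z := b * a * b⁻¹) (a := a⁻¹)
      (k1.symm.comm_conj (h.comm A hA) hb _ (conj_mem_conjBy b ha))
      (hAC.conj b _ (conj_mem_conjBy b ha)) (A.inv_mem ha) (by simpa using ha1)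
      (k1.symm.mem hb ha)).2
    exact ha1 (by simpa using this)
  · rw [k.commutator_sup (h.comm A hA) (h.comm _ hC')]
    exact k.cA.sup_right k.cB

theorem three {G : Type*} [Group G] {A B C D E : Subgroup G} (k1 : CC A B D) (k2 : CC C B E)
    (hAC : Comm A C) (k : Comm A E) : Comm C D := by
  have := Subgroup.commutator_commutator_eq_bot_of_rotate (H₁ := A) (H₂ := B) (H₃ := C)
    (by rw [k2.symm.eq]; exact comm_iff.2 k.symm) (by rw [comm_iff.2 hAC.symm]; simp)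
  rw [k1.eq] at this
  exact (comm_iff.1 this).symm

/-- Let S be a set of abstract root subgroups of G and A, B, C ∈ S with ⁅A, B⁆ ∈ S and ⁅B, C⁆ ∈ S, where A and C are different and commute. For a non-identity b ∈ B put X = ⟨A, b⁻¹ C b⟩ and Y = ⟨b⁻¹ A b, C⟩ and R = ⟨A, B, C⟩. Then X and Y are either both abelian or both nilpotent of class exactly two; X and Y commute elementwise; XY is normal in R with R = (XY) B; and R is nilpotent. -/
theorem result {G : Type*} [Group G] {S : Set (Subgroup G)} (hS : Cfsg.IsRootSubgroupSet S)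
    {A B C : Subgroup G} (hA : A ∈ S) (hB : B ∈ S) (hC : C ∈ S) (hAB : ⁅A, B⁆ ∈ S) (hBC : ⁅B, C⁆ ∈ S)
    (hAC : C ∈ Cfsg.commutingPartners S A)
    {b : G} (hb : b ∈ B) (hb1 : b ≠ 1) :
    ((IsMulCommutative ↥(A ⊔ Cfsg.conjBy C b⁻¹) ∧ IsMulCommutative ↥(Cfsg.conjBy A b⁻¹ ⊔ C)) ∨
      ((¬ IsMulCommutative ↥(A ⊔ Cfsg.conjBy C b⁻¹) ∧
          ⁅⁅A ⊔ Cfsg.conjBy C b⁻¹, A ⊔ Cfsg.conjBy C b⁻¹⁆, A ⊔ Cfsg.conjBy C b⁻¹⁆ = ⊥) ∧
        (¬ IsMulCommutative ↥(Cfsg.conjBy A b⁻¹ ⊔ C) ∧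
          ⁅⁅Cfsg.conjBy A b⁻¹ ⊔ C, Cfsg.conjBy A b⁻¹ ⊔ C⁆, Cfsg.conjBy A b⁻¹ ⊔ C⁆ = ⊥))) ∧
    ⁅A ⊔ Cfsg.conjBy C b⁻¹, Cfsg.conjBy A b⁻¹ ⊔ C⁆ = ⊥ ∧
    (∀ r ∈ A ⊔ B ⊔ C, Cfsg.conjBy ((A ⊔ Cfsg.conjBy C b⁻¹) ⊔ (Cfsg.conjBy A b⁻¹ ⊔ C)) r =
      (A ⊔ Cfsg.conjBy C b⁻¹) ⊔ (Cfsg.conjBy A b⁻¹ ⊔ C)) ∧
    ((A ⊔ Cfsg.conjBy C b⁻¹) ⊔ (Cfsg.conjBy A b⁻¹ ⊔ C)) ⊔ B = A ⊔ B ⊔ C ∧
    Group.IsNilpotent ↥(A ⊔ B ⊔ C) := by
  have h := rs_of hS
  have k1 := h.cc_of_mem hA hB hAB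
  have k2 := (h.cc_of_mem hB hC hBC).symm
  have hAC' : Comm A C := comm_iff.1 hAC.2.2
  generalize ⁅A, B⁆ = D at *
  generalize ⁅B, C⁆ = E at *
  have hb' := B.inv_mem hb
  have hb1' : b⁻¹ ≠ 1 := by simpa using hb1
  generalize b⁻¹ = t at *
  obtain ⟨x1, x2⟩ := half h hA hB hC hAB k1 k2 hAC' hb' hb1'
  obtain ⟨y1, y2⟩ := half h hC hB hA hBC k2 k1 hAC'.symm hb' hb1'
  rw [sup_comm C] at y1 y2
  have hXY : Comm (A ⊔ conjBy C t) (conjBy A t ⊔ C) :=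
    ((k1.symm.comm_conj (h.comm A hA) hb').symm.sup_right hAC').sup_left
      ((hAC'.symm.conj t).sup_right (k2.symm.comm_conj (h.comm C hC) hb'))
  have hN : (A ⊔ conjBy C t) ⊔ (conjBy A t ⊔ C) = (A ⊔ D) ⊔ (C ⊔ E) := by
    rw [← h.cc_conj_sup hA k1 hb' hb1', ← h.cc_conj_sup hC k2 hb' hb1']
    ac_rfl
  have hNc : ∀ u ∈ (A ⊔ D) ⊔ (C ⊔ E), ∀ v ∈ (A ⊔ D) ⊔ (C ⊔ E), ∀ w ∈ (A ⊔ D) ⊔ (C ⊔ E),
      u * v * u⁻¹ * v⁻¹ * w = w * (u * v * u⁻¹ * v⁻¹) := by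
    rw [← hN]
    intro u hu v hv
    obtain ⟨x, hx, y, hy, rfl⟩ := hXY.mem_sup.1 hu
    obtain ⟨x', hx', y', hy', rfl⟩ := hXY.mem_sup.1 hv
    have c1 : Commute x y' := hXY x hx y' hy'
    have c2 : Commute x' y := hXY x' hx' y hy
    have c3 : Commute x y := hXY x hx y hy
    have c4 : Commute x' y' := hXY x' hx' y' hy'
    have m1 := Subgroup.commutator_mem_commutator hx hx'
    have m2 := Subgroup.commutator_mem_commutator hy hy'
    rw [commutatorElement_def] at m1 m2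
    have m1' : x * x' * x⁻¹ * x'⁻¹ ∈ A ⊔ conjBy C t :=
      mul_mem (mul_mem (mul_mem hx hx') (inv_mem hx)) (inv_mem hx')
    have m2' : y * y' * y⁻¹ * y'⁻¹ ∈ conjBy A t ⊔ C :=
      mul_mem (mul_mem (mul_mem hy hy') (inv_mem hy)) (inv_mem hy')
    have e : x * y * (x' * y') * (x * y)⁻¹ * (x' * y')⁻¹ =
        (x * x' * x⁻¹ * x'⁻¹) * (y * y' * y⁻¹ * y'⁻¹) := by
      have c5 : Commute (x⁻¹ * x'⁻¹) (y * y' * y⁻¹ * y'⁻¹) :=
        hXY _ (mul_mem (inv_mem hx) (inv_mem hx')) _ m2'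
      calc _ = x * (y * x') * y' * y⁻¹ * (x⁻¹ * y'⁻¹) * x'⁻¹ := by group
        _ = x * x' * ((y * y' * y⁻¹ * y'⁻¹) * (x⁻¹ * x'⁻¹)) := by
          rw [← c2.eq, c1.inv_inv.eq]; group
        _ = _ := by rw [← c5.eq]; group
    rw [e]
    refine comm_sup_elem (fun w hw => ?_) fun w hw => ?_
    · exact (show Commute _ w from x2 _ m1 w hw).mul_left (hXY w hw _ m2').symm
    · exact (show Commute _ w from hXY _ m1' w hw).mul_left (y2 _ m2 w hw)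
  refine ⟨?_, comm_iff.2 hXY, ?_, ?_, ?_⟩
  · by_cases k : Comm A E
    · exact Or.inl ⟨comm_self_iff.1 (x1.2 k), comm_self_iff.1 (y1.2 (three k1 k2 hAC' k))⟩
    · exact Or.inr ⟨⟨fun k' => k (x1.1 (comm_self_iff.2 k')), comm_iff.2 x2⟩,
        ⟨fun k' => k (three k2 k1 hAC'.symm (y1.1 (comm_self_iff.2 k'))), comm_iff.2 y2⟩⟩
  · rw [hN]
    intro r hr
    refine conjBy_mem_of_sup (P := {(A ⊔ D) ⊔ (C ⊔ E)}) (fun x hx F hF => ?_) (fun x hx F hF => ?_)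
      r hr _ rfl
    · refine conjBy_mem_of_sup (P := {(A ⊔ D) ⊔ (C ⊔ E)}) (fun x hx F hF => ?_) (fun x hx F hF => ?_)
        x hx _ hF
      · rw [hF]; exact conjBy_of_mem (Subgroup.mem_sup_left (Subgroup.mem_sup_left hx))
      · rw [hF, conjBy_sup, k1.conjBy_sup_eq hx, k2.conjBy_sup_eq hx]; rfl
    · rw [hF]; exact conjBy_of_mem (Subgroup.mem_sup_right (Subgroup.mem_sup_left hx))
  · refine le_antisymm (sup_le (sup_le (sup_le ?_ ?_) (sup_le ?_ ?_)) ?_) (sup_le (sup_le ?_ ?_) ?_)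
    · exact le_sup_of_le_left le_sup_left
    · exact conjBy_le_of_mem le_sup_right (Subgroup.mem_sup_left (Subgroup.mem_sup_right hb'))
    · exact conjBy_le_of_mem (le_sup_of_le_left le_sup_left)
        (Subgroup.mem_sup_left (Subgroup.mem_sup_right hb'))
    · exact le_sup_right
    · exact le_sup_of_le_left le_sup_right
    · exact le_sup_of_le_left (le_sup_of_le_left le_sup_left)
    · exact le_sup_right
    · exact le_sup_of_le_left (le_sup_of_le_right le_sup_right)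
  · have hs : A ⊔ B ⊔ C = Subgroup.closure ((A : Set G) ∪ B ∪ C) := by
      simp [Subgroup.closure_union]
    have hle : (A ⊔ D) ⊔ (C ⊔ E) ≤ Subgroup.closure ((A : Set G) ∪ B ∪ C) := by
      rw [← hs, ← k1.eq, ← k2.eq]
      refine sup_le (sup_le (le_sup_of_le_left le_sup_left) ?_) (sup_le le_sup_right ?_)
      · exact (Subgroup.commutator_le_sup _ _).trans le_sup_left
      · exact (Subgroup.commutator_le_sup _ _).trans
          (sup_le le_sup_right (le_sup_of_le_left le_sup_right))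
    have mA : ∀ {x}, x ∈ A → x ∈ (A ⊔ D) ⊔ (C ⊔ E) := fun hx =>
      Subgroup.mem_sup_left (Subgroup.mem_sup_left hx)
    have mD : ∀ {x}, x ∈ D → x ∈ (A ⊔ D) ⊔ (C ⊔ E) := fun hx =>
      Subgroup.mem_sup_left (Subgroup.mem_sup_right hx)
    have mC : ∀ {x}, x ∈ C → x ∈ (A ⊔ D) ⊔ (C ⊔ E) := fun hx =>
      Subgroup.mem_sup_right (Subgroup.mem_sup_left hx)
    have mE : ∀ {x}, x ∈ E → x ∈ (A ⊔ D) ⊔ (C ⊔ E) := fun hx =>
      Subgroup.mem_sup_right (Subgroup.mem_sup_right hx)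
    have mc : ∀ {u v}, u ∈ (A ⊔ D) ⊔ (C ⊔ E) → v ∈ (A ⊔ D) ⊔ (C ⊔ E) →
        u * v * u⁻¹ * v⁻¹ ∈ (A ⊔ D) ⊔ (C ⊔ E) := fun hu hv =>
      mul_mem (mul_mem (mul_mem hu hv) (inv_mem hu)) (inv_mem hv)
    have one : ∀ {x y : G} {H : Subgroup G}, x * y = y * x → x * y * x⁻¹ * y⁻¹ ∈ H := by
      intro x y H e; rw [e]; simp
    set R := Subgroup.closure ((A : Set G) ∪ B ∪ C)
    have z1 : ∀ u v, u ∈ D ⊔ E → v ∈ D ⊔ E → u * v * u⁻¹ * v⁻¹ ∈ ucs R 1 := by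
      intro u v hu hv
      have hDE : D ⊔ E ≤ (A ⊔ D) ⊔ (C ⊔ E) := sup_le (fun _ => mD) fun _ => mE
      have hBc := k1.cB.sup_left k2.cB
      refine mem_ucs_succ (hle (mc (hDE hu) (hDE hv))) ?_
      rintro y ((hy | hy) | hy)
      · exact one (hNc u (hDE hu) v (hDE hv) y (mA hy))
      · exact one (hBc _ (mul_mem (mul_mem (mul_mem hu hv) (inv_mem hu)) (inv_mem hv)) y hy)
      · exact one (hNc u (hDE hu) v (hDE hv) y (mC hy))
    have z2 : ∀ u v, u ∈ D ⊔ E → v ∈ (A ⊔ D) ⊔ (C ⊔ E) → (∀ y ∈ B, y * v * y⁻¹ * v⁻¹ ∈ D ⊔ E) →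
        u * v * u⁻¹ * v⁻¹ ∈ ucs R 2 := by
      intro u v hu hv hv'
      have hDE : D ⊔ E ≤ (A ⊔ D) ⊔ (C ⊔ E) := sup_le (fun _ => mD) fun _ => mE
      have hBc := k1.cB.sup_left k2.cB
      refine mem_ucs_succ (hle (mc (hDE hu) hv)) ?_
      rintro y ((hy | hy) | hy)
      · exact one (hNc u (hDE hu) v hv y (mA hy))
      · have := (ucs R 1).inv_mem (z1 u _ hu (hv' y hy))
        convert this using 1
        set w := y * v * y⁻¹ * v⁻¹ with hw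
        have e1 : y * (u * v * u⁻¹ * v⁻¹)⁻¹ * y⁻¹ = (u * (w * v) * u⁻¹ * (w * v)⁻¹)⁻¹ := by
          have c : Commute u y := hBc u hu y hy
          calc _ = y * v * (u * v⁻¹ * u⁻¹) * y⁻¹ := by group
            _ = y * v * y⁻¹ * (y * u) * v⁻¹ * (u⁻¹ * y⁻¹) := by group
            _ = _ := by rw [← c.eq, c.inv_inv.eq, hw]; group
        have e2 := hNc u (hDE hu) v hv w (hDE (hv' y hy))
        have e3 := hNc u (hDE hu) v hv _ (mc (hDE hu) (hDE (hv' y hy)))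
        calc _ = u * v * u⁻¹ * v⁻¹ * (y * (u * v * u⁻¹ * v⁻¹)⁻¹ * y⁻¹) := by group
          _ = u * v * u⁻¹ * v⁻¹ * w * (u * v * u⁻¹ * v⁻¹)⁻¹ * w⁻¹ * (u * w * u⁻¹ * w⁻¹)⁻¹ := by
            rw [e1]; group
          _ = _ := by rw [e2]; group
      · exact one (hNc u (hDE hu) v hv y (mC hy))
    have z3D : ∀ d ∈ D, d ∈ ucs R 3 := by
      intro d hd
      refine mem_ucs_succ (hle (mD hd)) ?_
      rintro y ((hy | hy) | hy)
      · exact one (k1.cA d hd y hy)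
      · exact one (k1.cB d hd y hy)
      · exact z2 d y (Subgroup.mem_sup_left hd) (mC hy) fun z hz =>
          Subgroup.mem_sup_right (k2.symm.mem hz hy)
    have z3E : ∀ d ∈ E, d ∈ ucs R 3 := by
      intro d hd
      refine mem_ucs_succ (hle (mE hd)) ?_
      rintro y ((hy | hy) | hy)
      · exact z2 d y (Subgroup.mem_sup_right hd) (mA hy) fun z hz =>
          Subgroup.mem_sup_left (k1.symm.mem hz hy)
      · exact one (k2.cB d hd y hy)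
      · exact one (k2.cA d hd y hy)
    rw [hs]
    refine isNilpotent_of_ucs (n := 4) fun x hx => mem_ucs_succ (Subgroup.subset_closure hx) ?_
    rcases hx with (hx | hx) | hx <;> rintro y ((hy | hy) | hy)
    · exact one (h.comm A hA x hx y hy)
    · exact z3D _ (k1.mem hx hy)
    · exact one (hAC' x hx y hy)
    · exact z3D _ (k1.symm.mem hx hy)
    · exact one (h.comm B hB x hx y hy)
    · exact z3E _ (k2.symm.mem hx hy)
    · exact one (hAC'.symm x hx y hy)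
    · exact z3E _ (k2.mem hx hy)
    · exact one (h.comm C hC x hx y hy)

end Cfsg.Agent.S5030
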