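import Cfsg.Statements.S5032
import Cfsg.Agent.Root.RootSet2

set_option autoImplicit false
open Cfsg

namespace Cfsg.Agent.S5032
open Cfsg.Agent.Root

/-- Let S be a set of abstract root subgroups of G with more than one member. Then the graph of rank one pairs on S is connected if and only if S is a single conjugacy class of G and some member of S has a rank one partner in S. -/
theorem result {G : Type*} [Group G] {S : Set (Subgroup G)} (hS : Cfsg.IsRootSubgroupSet S) (h2 : ∃ A ∈ S, ∃ B ∈ S, A ≠ B) :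
    Cfsg.IsConnectedFamily (Cfsg.FAdj S) S ↔
      (Cfsg.IsConjClassOfSubgroups S ∧ ∃ A ∈ S, ¬ Cfsg.IsIsolatedIn (Cfsg.FAdj S) S A) := by
  have h := rs_of hS
  constructor
  · intro hc
    obtain ⟨A, hA, B, hB, hne⟩ := h2
    refine ⟨⟨⟨A, hA⟩, fun C hC D hD => ?_⟩, A, hA, (ni_iff hA).2 (ni_of_fconn (hc A hA B hB) hne.symm)⟩
    obtain ⟨g, -, e⟩ := FConn.exists_conj (hc C hC D hD)
    exact ⟨g, e⟩
  · rintro ⟨⟨-, hcl⟩, A, hA, hn⟩ C hC D hD
    rw [ni_iff hA] at hn
    obtain ⟨g, rfl⟩ := hcl A hA C hC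
    obtain ⟨g', rfl⟩ := hcl A hA D hD
    exact (h.fconn_conj hA hn (hS.generates ▸ Subgroup.mem_top g)).symm.trans
      (h.fconn_conj hA hn (hS.generates ▸ Subgroup.mem_top g'))

end Cfsg.Agent.S5032
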