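import Cfsg.Statements.S5033
import Cfsg.Agent.Root.RootSet5

set_option autoImplicit false
open Cfsg

namespace Cfsg.Agent.S5033
open Cfsg.Agent.Root

/-- Quasisimplicity criterion for groups generated by abstract root subgroups. Let S be a set of abstract root subgroups of G with more than one member such that: the graph of rank one pairs on S is connected; no two different members of S have the same set of commuting members of S; if S is degenerate then every member of S has more than three elements; and every rank one pair in S is special. Then for every A ∈ S one has G = G' A with A ∩ G' ≠ 1, and the commutator subgroup G' is quasisimple. Moreover G is perfect if S is non-degenerate, or if some rank one pair A, B in S generates a perfect group. -/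
theorem result {G : Type*} [Group G] {S : Set (Subgroup G)} (hS : Cfsg.IsRootSubgroupSet S) (h2 : ∃ A ∈ S, ∃ B ∈ S, A ≠ B)
    (h1 : Cfsg.IsConnectedFamily (Cfsg.FAdj S) S)
    (h2' : ∀ A ∈ S, ∀ C ∈ S, A ≠ C → Cfsg.centralizingMembers S A ≠ Cfsg.centralizingMembers S C)
    (h3 : Cfsg.IsDegenerateRootSet S → ∀ A ∈ S, 3 < ENat.card A)
    (h4 : ∀ A ∈ S, ∀ B ∈ Cfsg.rankOnePartners S A, Cfsg.IsSpecialRankOnePair A B) :
    (∀ A ∈ S, commutator G ⊔ A = ⊤ ∧ A ⊓ commutator G ≠ ⊥) ∧ Cfsg.IsQuasisimple ↥(commutator G) ∧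
    (Cfsg.IsNondegenerateRootSet S → commutator G = ⊤) ∧
    ((∃ A ∈ S, ∃ B ∈ Cfsg.rankOnePartners S A, Group.IsPerfect ↥(A ⊔ B)) → commutator G = ⊤) := by
  have h := rs_of hS
  have hn : ∀ A ∈ S, NI S A := by
    intro A hA
    obtain ⟨X, hX, Y, hY, hXY⟩ := h2
    by_cases e : X = A
    · exact ni_of_fconn (h1 A hA Y hY) (e ▸ hXY.symm)
    · exact ni_of_fconn (h1 A hA X hX) e
  have hperf : (∃ A ∈ S, ∃ B ∈ S, ∃ C ∈ S, CC A B C) ∨
      ∀ A ∈ S, ∀ B ∈ S, IsRankOnePair A B → A ≤ ⁅A ⊔ B, A ⊔ B⁆ := by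
    by_cases hd : IsDegenerateRootSet S
    · exact Or.inr fun A hA B hB hr =>
        Sp.left_le_commutator (h4 A hA B ⟨hB, hr⟩) (h.comm A hA) (h.comm B hB) (h3 hd A hA)
    · left
      simp only [IsDegenerateRootSet, not_forall, not_not] at hd
      obtain ⟨A, hA, B, hB, hc⟩ := hd
      obtain ⟨hC, k⟩ := rootCommutatorCase_iff.1 hc
      exact ⟨A, hA, B, hB, _, hC, k⟩
  have hp := RS.perfect hn h1 hperf
  have hq := h.isQuasisimple (by obtain ⟨X, hX, -⟩ := h2; exact ⟨X, hX⟩) hn h1 hperf (by
    intro A hA C hC hE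
    by_contra hne
    refine h2' A hA C hC hne (Set.ext fun E => and_congr_right fun hE' => ?_)
    rw [← comm_iff_le_centralizer, ← comm_iff_le_centralizer]
    exact hE E hE')
  rw [hS.generates] at hp hq
  have hc : commutator G = ⊤ := hp
  refine ⟨fun A hA => ?_, hc ▸ hq, fun _ => hc, fun _ => hc⟩
  rw [hc]
  simpa using h.ne_bot A hA

end Cfsg.Agent.S5033
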