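import Cfsg.Statements.S5034
import Cfsg.Agent.Root.RootSet3

set_option autoImplicit false
open Cfsg

namespace Cfsg.Agent.S5034
open Cfsg.Agent.Root

/-- Let S be a non-degenerate class of abstract root subgroups of G, A ∈ S and B a rank one partner of A. Then some line partner C of A has ⁅B, C⁆ ∈ S, and the rank one pair A, B is special. -/
theorem result {G : Type*} [Group G] {S : Set (Subgroup G)} (hS : Cfsg.IsRootSubgroupClass S) (hnd : Cfsg.IsNondegenerateRootSet S)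
    {A B : Subgroup G} (hA : A ∈ S) (hB : B ∈ Cfsg.rankOnePartners S A) :
    (∃ C ∈ Cfsg.linePartners S A, C ∈ Cfsg.commutatorPartners S B) ∧ Cfsg.IsSpecialRankOnePair A B := by
  have h := rs_of hS.1
  have hn := nondeg_ni hS hnd.2.1
  obtain ⟨C, hC, l⟩ := nondeg_line hS hnd.2.2 A hA
  obtain ⟨C₀, hC₀, D, hD, k1, k2, -⟩ := h.exists_natural hn hA hB.1 hB.2 hC l
  exact ⟨⟨C₀, (h.cc_line hA hD hC₀ k2).mem h hC₀ fun E hE _ => hn E hE, hC₀, k1.eq ▸ hD⟩,
    h.special_of_cc hA hB.1 hB.2 hC₀ hD k1 k2⟩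

end Cfsg.Agent.S5034
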