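import Cfsg.Statements.S5035
import Cfsg.Agent.Root.RootSet5

set_option autoImplicit false
open Cfsg

namespace Cfsg.Agent.S5035
open Cfsg.Agent.Root

theorem cc_map {G H : Type*} [Group G] [Group H] (f : G →* H) {A B C : Subgroup G} (k : CC A B C) :
    CC (A.map f) (B.map f) (C.map f) where
  eq := by rw [← Subgroup.map_commutator, k.eq]
  cA := by rintro _ ⟨c, hc, rfl⟩ _ ⟨a, ha, rfl⟩; rw [← map_mul, k.cA c hc a ha, map_mul]
  cB := by rintro _ ⟨c, hc, rfl⟩ _ ⟨a, ha, rfl⟩; rw [← map_mul, k.cB c hc a ha, map_mul]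
  surjL := by
    rintro _ ⟨a, ha, rfl⟩ h1 _ ⟨c, hc, rfl⟩
    obtain ⟨b, hb, rfl⟩ := k.surjL a ha (fun e => h1 (by simp [e])) c hc
    exact ⟨f b, ⟨b, hb, rfl⟩, by simp⟩
  surjR := by
    rintro _ ⟨a, ha, rfl⟩ h1 _ ⟨c, hc, rfl⟩
    obtain ⟨b, hb, rfl⟩ := k.surjR a ha (fun e => h1 (by simp [e])) c hc
    exact ⟨f b, ⟨b, hb, rfl⟩, by simp⟩

theorem r1_map {G H : Type*} [Group G] [Group H] (f : G →* H) {A B : Subgroup G}
    (hr : IsRankOnePair A B) (hB : Comm B B) :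
    A.map f = B.map f ∨ IsRankOnePair (A.map f) (B.map f) := by
  have hK : ∀ x ∈ A ⊔ B, conjBy ((A ⊔ B) ⊓ f.ker) x = (A ⊔ B) ⊓ f.ker := fun x hx => by
    rw [conjBy_inf, conjBy_of_mem hx, conjBy_of_normal]
  rcases R1.normal_dichotomy hr inf_le_left hK with h1 | h1
  · left
    obtain ⟨x, hx, e⟩ := R1.exists_conj_eq hr
    have : f x ∈ A.map f := by
      have := Subgroup.map_mono (f := f) h1 ⟨x, hx, rfl⟩
      rwa [Subgroup.map_sup, (Subgroup.map_eq_bot_iff _).2 inf_le_right, bot_sup_eq] at this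
    rw [← e, map_conjBy, conjBy_of_mem this]
  · right
    obtain ⟨a₀, ha₀, ha1⟩ := R1.exists_left hr
    obtain ⟨b₀, hb₀, hb1⟩ := R1.exists_right hr
    refine R1.map hr f (fun a ha e => ?_) (fun b hb e => ?_) fun e => ?_
    · by_contra h2
      exact R1.not_mul_comm hr ha h2 hb₀ hb1
        (h1 a ⟨Subgroup.mem_sup_left ha, e⟩ b₀ (Subgroup.mem_sup_right hb₀))
    · by_contra h2
      exact R1.not_mul_comm hr ha₀ ha1 hb h2
        (h1 b ⟨Subgroup.mem_sup_right hb, e⟩ a₀ (Subgroup.mem_sup_left ha₀)).symm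
    · obtain ⟨b, hb, e'⟩ : f a₀ ∈ B.map f := e ▸ ⟨a₀, ha₀, rfl⟩
      have := h1 (a₀ * b⁻¹) ⟨Subgroup.mul_mem _ (Subgroup.mem_sup_left ha₀)
        (Subgroup.mem_sup_right (B.inv_mem hb)), by simp [e']⟩ b₀ (Subgroup.mem_sup_right hb₀)
      apply R1.not_mul_comm hr ha₀ ha1 hb₀ hb1
      rw [mul_assoc, hB _ (B.inv_mem hb) b₀ hb₀, ← mul_assoc, ← mul_assoc] at this
      exact mul_right_cancel this

/-- Let S be a set of abstract root subgroups of G whose graph of rank one pairs is connected, and f a homomorphism from G onto a group H. Then either the images of the members of S form a set of abstract root subgroups of H whose graph of rank one pairs is again connected, or H equals the image of a member of S. -/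
theorem result {G H : Type*} [Group G] [Group H] {S : Set (Subgroup G)} (hS : Cfsg.IsRootSubgroupSet S)
    (hc : Cfsg.IsConnectedFamily (Cfsg.FAdj S) S) (f : G →* H) (hf : Function.Surjective f) :
    (Cfsg.IsRootSubgroupSet ((fun A : Subgroup G => A.map f) '' S) ∧
      Cfsg.IsConnectedFamily (Cfsg.FAdj ((fun A : Subgroup G => A.map f) '' S)) ((fun A : Subgroup G => A.map f) '' S)) ∨
    ∃ A ∈ S, A.map f = ⊤ := by
  have h := rs_of hS
  have hgen : (⨆ A ∈ (fun A : Subgroup G => A.map f) '' S, A) = ⊤ := by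
    rw [iSup_image, ← Subgroup.map_top_of_surjective f hf, ← hS.generates]
    simp only [Subgroup.map_iSup]
  by_cases h0 : ∃ A ∈ S, A.map f = ⊥
  · obtain ⟨A, hA, e⟩ := h0
    refine Or.inr ⟨A, hA, ?_⟩
    rw [eq_top_iff, ← hgen]
    refine iSup₂_le ?_
    rintro _ ⟨B, hB, rfl⟩
    obtain ⟨g, -, rfl⟩ := FConn.exists_conj (hc A hA B hB)
    simp only [map_conjBy, e, conjBy_bot, le_refl]
  push Not at h0
  have hcm : ∀ {A B : Subgroup G}, Comm A B → Comm (A.map f) (B.map f) := by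
    rintro A B k _ ⟨a, ha, rfl⟩ _ ⟨b, hb, rfl⟩
    rw [← map_mul, k a ha b hb, map_mul]
  refine Or.inl ⟨⟨?_, ?_, hgen, ?_, ?_⟩, ?_⟩
  · rintro _ ⟨A, hA, rfl⟩
    exact comm_self_iff.1 (hcm (h.comm A hA))
  · rintro _ ⟨A, hA, rfl⟩
    exact h0 A hA
  · rintro _ ⟨A, hA, rfl⟩ g
    obtain ⟨g, rfl⟩ := hf g
    exact ⟨_, hS.conj_mem A hA g, map_conjBy f A g⟩
  · rintro _ ⟨A, hA, rfl⟩ _ ⟨B, hB, rfl⟩
    rcases h.pair A hA B hB with k | k | ⟨C, hC, k⟩
    · exact Or.inl (comm_iff.2 (hcm k))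
    · rcases r1_map f k (h.comm B hB) with e | k'
      · exact Or.inl (comm_iff.2 (by simp only [e]; exact hcm (h.comm B hB)))
      · exact Or.inr (Or.inl k')
    · have k' := cc_map f k
      refine Or.inr (Or.inr (rootCommutatorCase_iff.2 ?_))
      simp only [k'.eq]
      exact ⟨⟨C, hC, rfl⟩, k'⟩
  · rintro _ ⟨A, hA, rfl⟩ _ ⟨B, hB, rfl⟩
    have := hc A hA B hB
    clear hB
    induction this with
    | refl => exact Relation.ReflTransGen.refl
    | tail _ k ih =>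
      rcases r1_map f k.2.2 (h.comm _ k.2.1) with e | k'
      · simp only at ih ⊢; rwa [← e]
      · exact ih.tail ⟨⟨_, k.1, rfl⟩, ⟨_, k.2.1, rfl⟩, k'⟩

end Cfsg.Agent.S5035
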