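import Cfsg.Statements.S5036
import Cfsg.Agent.Root.RootSet4

set_option autoImplicit false
open Cfsg

namespace Cfsg.Agent.S5036
open Cfsg.Agent.Root

/-- Let S be a set of abstract root subgroups of G, A, B ∈ S with C = ⁅A, B⁆ ∈ S, and D ∈ S with ⁅D, C⁆ = A. Put X = ⟨B, D⟩ and N = AC. Then B, D form a rank one pair; the conjugates of A under X are the conjugates of C under X, namely the conjugates of A by elements of B together with C, equally the conjugates of C by elements of D together with A, and they partition N; and the centralizer of N in X is central in X. -/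
theorem result {G : Type*} [Group G] {S : Set (Subgroup G)} (hS : Cfsg.IsRootSubgroupSet S)
    {A B D : Subgroup G} (hA : A ∈ S) (hB : B ∈ S) (hC : ⁅A, B⁆ ∈ S) (hD : D ∈ S) (hDC : ⁅D, ⁅A, B⁆⁆ = A) :
    Cfsg.IsRankOnePair B D ∧
    {E | ∃ x ∈ B ⊔ D, E = Cfsg.conjBy A x} = {E | ∃ x ∈ B ⊔ D, E = Cfsg.conjBy ⁅A, B⁆ x} ∧
    {E | ∃ x ∈ B ⊔ D, E = Cfsg.conjBy A x} = (fun b : G => Cfsg.conjBy A b) '' (B : Set G) ∪ {⁅A, B⁆} ∧
    {E | ∃ x ∈ B ⊔ D, E = Cfsg.conjBy A x} = (fun d : G => Cfsg.conjBy ⁅A, B⁆ d) '' (D : Set G) ∪ {A} ∧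
    Cfsg.IsSubgroupPartition (A ⊔ ⁅A, B⁆) {E | ∃ x ∈ B ⊔ D, E = Cfsg.conjBy A x} ∧
    ∀ x ∈ (B ⊔ D) ⊓ Subgroup.centralizer ((A ⊔ ⁅A, B⁆ : Subgroup G) : Set G), ∀ y ∈ B ⊔ D, x * y = y * x := by
  have h := rs_of hS
  have k1 := h.cc_of_mem hA hB hC
  have k2 : CC D ⁅A, B⁆ A := by
    have := h.cc_of_mem hD hC (by rw [hDC]; exact hA)
    rwa [hDC] at this
  generalize ⁅A, B⁆ = C at *
  have hr := h.rankOne_of_cc_cc hA hB hC hD k1 k2
  have nB : NI S B := ⟨D, hD, hr⟩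
  have nD : NI S D := ⟨B, hB, R1.symm hr⟩
  have hN : ∀ x ∈ B ⊔ D, conjBy (A ⊔ C) x = A ⊔ C := fun x hx =>
    conjBy_mem_of_sup (P := {A ⊔ C}) (fun b hb E hE => by rw [hE]; exact k1.conjBy_sup_eq hb)
      (fun d hd E hE => by
        rw [hE, sup_comm]; exact k2.symm.conjBy_sup_eq hd) x hx _ rfl
  let Φ : Subgroup G → Subgroup G := fun U => (A ⊔ C) ⊓ Subgroup.centralizer (U : Set G)
  have hΦ : ∀ U, ∀ x ∈ B ⊔ D, Φ (conjBy U x) = conjBy (Φ U) x := by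
    intro U x hx
    simp only [Φ, conjBy_inf, hN x hx]
    congr 1
    ext y
    simp only [mem_conjBy, Subgroup.mem_centralizer_iff, SetLike.mem_coe]
    refine ⟨fun H u hu => ?_, fun H u hu => ?_⟩
    · exact eq_of_conj x⁻¹ (H (x * u * x⁻¹) (by simpa [mul_assoc] using hu)) (by group)
    · exact eq_of_conj x (H _ hu) (by group)
  have key : ∀ {A B C : Subgroup G}, A ∈ S → B ∈ S → C ∈ S → NI S B → CC A B C →
      (A ⊔ C) ⊓ Subgroup.centralizer (B : Set G) = C := by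
    intro A B C hA hB hC nB k
    refine le_antisymm ?_ (le_inf le_sup_right (comm_iff_le_centralizer.1 k.cB))
    rintro x ⟨hx, hx'⟩
    obtain ⟨a, ha, c, hc, rfl⟩ := k.cA.symm.mem_sup.1 hx
    obtain ⟨b, hb, hb1⟩ := h.exists_ne_one hB
    by_cases ha1 : a = 1
    · simpa [ha1] using hc
    exfalso
    apply h.cc_not_mul_comm hB nB hA hC k.symm hb hb1 ha ha1
    have := hx' b hb
    rw [mul_assoc, k.cB c hc b hb, ← mul_assoc, ← mul_assoc] at this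
    exact mul_right_cancel this
  have ΦB : Φ B = C := key hA hB hC nB k1
  have ΦD : Φ D = A := by
    simp only [Φ]; rw [sup_comm]; exact key hC hD hA nD k2.symm
  have hT : ∀ E, (∃ x ∈ B ⊔ D, E = conjBy A x) ↔ ∃ U ∈ unipotentSubgroups B D, E = Φ U := by
    intro E
    constructor
    · rintro ⟨x, hx, rfl⟩
      exact ⟨_, R1.conj_mem_unip (R1.right_mem_unip hr) hx, by rw [hΦ _ x hx, ΦD]⟩
    · rintro ⟨U, hU, rfl⟩
      rw [R1.unip_comm hr] at hU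
      obtain ⟨x, hx, rfl⟩ := hU
      rw [sup_comm] at hx
      exact ⟨x, hx, by rw [hΦ _ x hx, ΦD]⟩
  refine ⟨hr, Set.ext fun E => ?_, Set.ext fun E => ?_, Set.ext fun E => ?_, ⟨?_, ?_, ?_⟩, ?_⟩
  · refine (hT E).trans ⟨?_, ?_⟩
    · rintro ⟨_, ⟨x, hx, rfl⟩, rfl⟩
      exact ⟨x, hx, by rw [hΦ _ x hx, ΦB]⟩
    · rintro ⟨x, hx, rfl⟩
      exact ⟨_, ⟨x, hx, rfl⟩, by rw [hΦ _ x hx, ΦB]⟩
  · refine (hT E).trans ⟨?_, ?_⟩
    · rintro ⟨U, hU, rfl⟩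
      rcases (R1.mem_unip_iff hr).1 hU with rfl | ⟨b, hb, rfl⟩
      · exact Or.inr ΦB
      · exact Or.inl ⟨b, hb, by rw [hΦ _ b (Subgroup.mem_sup_left hb), ΦD]⟩
    · rintro (⟨b, hb, rfl⟩ | rfl)
      · exact (hT _).1 ⟨b, Subgroup.mem_sup_left hb, rfl⟩
      · exact ⟨B, R1.left_mem_unip, ΦB.symm⟩
  · refine (hT E).trans ⟨?_, ?_⟩
    · rintro ⟨U, hU, rfl⟩
      rcases (R1.mem_unip_iff' hr).1 hU with rfl | ⟨b, hb, rfl⟩
      · exact Or.inr ΦD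
      · exact Or.inl ⟨b, hb, by rw [hΦ _ b (Subgroup.mem_sup_right hb), ΦB]⟩
    · rintro (⟨b, hb, rfl⟩ | rfl)
      · exact ⟨_, R1.conj_mem_unip R1.left_mem_unip (Subgroup.mem_sup_right hb),
          by rw [hΦ _ b (Subgroup.mem_sup_right hb), ΦB]⟩
      · exact ⟨D, R1.right_mem_unip hr, ΦD.symm⟩
  · rintro E ⟨x, hx, rfl⟩
    rw [← hN x hx]; exact conjBy_mono x le_sup_left
  · intro x hx hx1
    obtain ⟨a, ha, c, hc, rfl⟩ := k1.cA.symm.mem_sup.1 hx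
    by_cases ha1 : a = 1
    · exact ⟨C, (hT _).2 ⟨B, R1.left_mem_unip, ΦB.symm⟩, by simpa [ha1] using hc⟩
    obtain ⟨b, hb, e⟩ := h.cc_cover hA k1 ha ha1 hc
    exact ⟨_, ⟨b, Subgroup.mem_sup_left hb, rfl⟩, e ▸ conj_mem_conjBy b ha⟩
  · intro E₁ h1 E₂ h2 hne
    obtain ⟨U₁, hU₁, rfl⟩ := (hT _).1 h1
    obtain ⟨U₂, hU₂, rfl⟩ := (hT _).1 h2
    obtain ⟨x, hx, rfl, rfl⟩ := R1.exists_conj_pair hr hU₁ hU₂ fun e => hne (by rw [e])
    rw [hΦ _ x hx, hΦ _ x hx, ΦB, ΦD, ← conjBy_inf, conjBy_eq_bot_iff, eq_bot_iff]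
    rintro y ⟨hy1, hy2⟩
    exact h.cc_inf' hA hB nB hC k1 hy2 hy1
  · have hZ : ∀ x ∈ B ⊔ D, conjBy ((B ⊔ D) ⊓ Subgroup.centralizer ((A ⊔ C : Subgroup G) : Set G)) x =
        (B ⊔ D) ⊓ Subgroup.centralizer ((A ⊔ C : Subgroup G) : Set G) := by
      have : ∀ x ∈ B ⊔ D, conjBy ((B ⊔ D) ⊓ Subgroup.centralizer ((A ⊔ C : Subgroup G) : Set G)) x ≤
          (B ⊔ D) ⊓ Subgroup.centralizer ((A ⊔ C : Subgroup G) : Set G) := by
        intro x hx
        refine le_inf (conjBy_le_of_mem inf_le_left hx) (comm_iff_le_centralizer.1 ?_)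
        have := (comm_iff_le_centralizer.2 (inf_le_right :
          (B ⊔ D) ⊓ Subgroup.centralizer ((A ⊔ C : Subgroup G) : Set G) ≤ _)).conj x
        rwa [hN x hx] at this
      exact fun x hx => conjBy_eq_of_le_of_le (this x hx) (this _ (Subgroup.inv_mem _ hx))
    rcases R1.normal_dichotomy hr inf_le_left hZ with h1 | h1
    · exfalso
      refine h.not_comm_of_cc hD hA k2 (Comm.mono (A := _ ⊔ B) ?_ (le_sup_right.trans h1) le_rfl)
      exact ((comm_iff_le_centralizer.2 inf_le_right).mono le_rfl le_sup_right).sup_left k1.cB.symm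
    · exact h1

end Cfsg.Agent.S5036
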