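import Cfsg.Statements.S5037
import Cfsg.Agent.Root.RootSet4

set_option autoImplicit false
open Cfsg

namespace Cfsg.Agent.S5037
open Cfsg.Agent.Root

/-- Let S be a class of abstract root subgroups of G that is either degenerate or non-degenerate (so either the commutator case never occurs, or all three cases occur), and A ≠ C members of S. If every member of S commuting with A commutes with C, then A and C have the same commuting members of S; and if every rank one partner of A is a rank one partner of C, then A and C commute and have the same rank one partners. -/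
theorem result {G : Type*} [Group G] {S : Set (Subgroup G)} (hS : Cfsg.IsRootSubgroupClass S)
    (hdn : Cfsg.IsDegenerateRootSet S ∨ Cfsg.IsNondegenerateRootSet S)
    {A C : Subgroup G} (hA : A ∈ S) (hC : C ∈ S) (hAC : A ≠ C) :
    (Cfsg.centralizingMembers S A ⊆ Cfsg.centralizingMembers S C →
      Cfsg.centralizingMembers S A = Cfsg.centralizingMembers S C) ∧
    (Cfsg.rankOnePartners S A ⊆ Cfsg.rankOnePartners S C →
      ⁅A, C⁆ = ⊥ ∧ Cfsg.rankOnePartners S A = Cfsg.rankOnePartners S C) := by
  have h := rs_of hS.1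
  by_cases hr : ∃ A ∈ S, ∃ B ∈ S, IsRankOnePair A B
  swap
  · have hd : IsDegenerateRootSet S := hdn.resolve_right fun hn => hr hn.2.1
    have hall : ∀ X ∈ S, ∀ Y ∈ S, Comm X Y := fun X hX Y hY =>
      (h.degenerate_iff.1 hd X hX Y hY).resolve_right fun k => hr ⟨X, hX, Y, hY, k⟩
    refine ⟨fun hsub => Set.Subset.antisymm hsub fun E hE =>
      ⟨hE.1, comm_iff_le_centralizer.1 (hall E hE.1 A hA)⟩, fun hsub =>
      ⟨comm_iff.2 (hall A hA C hC), Set.Subset.antisymm hsub fun E hE => ?_⟩⟩
    exact absurd ⟨C, hC, E, hE.1, hE.2⟩ hr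
  have hn := nondeg_ni hS hr
  constructor
  · intro hsub
    have hsub' : ∀ E ∈ S, Comm E A → Comm E C := fun E hE hc =>
      comm_iff_le_centralizer.2 (hsub ⟨hE, comm_iff_le_centralizer.1 hc⟩).2
    have hc : Comm A C := hsub' A hA (h.comm A hA)
    obtain ⟨B, hB, h2⟩ := hn C hC
    have h1 : IsRankOnePair A B := by
      rcases h.pair B hB A hA with k | k | ⟨D, hD, k⟩
      · exact absurd (hsub' B hB k).symm (R1.not_comm h2)
      · exact R1.symm k
      · obtain ⟨F, hF, k', -⟩ := h.triangle hC hB h2 hA hD hc k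
        exact absurd (hsub' D hD k.cB).symm (h.not_comm_of_cc hC hF k')
    have := h.rel_symm_of_partner (fun X Y => ∀ E ∈ S, Comm E X → Comm E Y)
      (fun a b E hE k => b E hE (a E hE k))
      (fun {X Y g} hg a E hE k => by
        have := (a _ (h.conj_mem_iSup hE (Subgroup.inv_mem _ hg)) (by simpa using k.conj g⁻¹)).conj g
        simpa using this)
      (fun {X Y} hX hY a k => R1.not_comm k (a X hX (h.comm X hX))) hA hC hB hc h1 h2 hsub'
    exact Set.Subset.antisymm hsub fun E hE =>
      ⟨hE.1, comm_iff_le_centralizer.1 (this E hE.1 (comm_iff_le_centralizer.2 hE.2))⟩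
  · intro hsub
    have hsub' : ∀ E ∈ S, IsRankOnePair A E → IsRankOnePair C E := fun E hE hc => (hsub ⟨hE, hc⟩).2
    have hc := h.comm_of_partners_subset hn hA hC hsub'
    obtain ⟨B, hB, h1⟩ := hn A hA
    have := h.rel_symm_of_partner (fun X Y => ∀ E ∈ S, IsRankOnePair X E → IsRankOnePair Y E)
      (fun a b E hE k => b E hE (a E hE k))
      (fun {X Y g} hg a E hE k => by
        have := R1.conj (a _ (h.conj_mem_iSup hE (Subgroup.inv_mem _ hg))
          (by simpa using R1.conj k g⁻¹)) g
        simpa using this)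
      (fun {X Y} hX hY a k => (a Y hY k).ne rfl) hA hC hB hc h1 (hsub' B hB h1) hsub'
    exact ⟨comm_iff.2 hc, Set.Subset.antisymm hsub fun E hE => ⟨hE.1, this E hE.1 hE.2⟩⟩

end Cfsg.Agent.S5037
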