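import Cfsg.Statements.S5039
import Cfsg.Agent.Root.RootSet4
import Cfsg.Agent.Root.SL2
import Cfsg.Agent.S5034

set_option autoImplicit false
universe u
open Cfsg

namespace Cfsg.Agent.S5039
open Cfsg.Agent.Root

section
variable {G : Type*} [Group G] {S : Set (Subgroup G)} {A B C D E F U V : Subgroup G}

def Sg (S : Set (Subgroup G)) (E U : Subgroup G) : Prop := U ∈ S ∧ U ≠ E ∧ Comm U E

def Eqv (S : Set (Subgroup G)) (E F : Subgroup G) : Prop := ∀ U, Sg S E U ↔ Sg S F U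

theorem Sg.symm (k : Sg S E U) (hE : E ∈ S) : Sg S U E := ⟨hE, k.2.1.symm, k.2.2.symm⟩

theorem Eqv.symm (k : Eqv S E F) : Eqv S F E := fun U => (k U).symm

theorem Eqv.trans (k : Eqv S E F) (k' : Eqv S F U) : Eqv S E U := fun V => (k V).trans (k' V)

structure Ctx (S : Set (Subgroup G)) (A C D : Subgroup G) : Prop where
  rs : RS S
  deg : ∀ A ∈ S, ∀ B ∈ S, Comm A B ∨ IsRankOnePair A B
  cj : ∀ A ∈ S, ∀ g, conjBy A g ∈ S
  hA : A ∈ S
  hD : D ∈ S
  sg : Sg S A C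
  rA : IsRankOnePair A D
  rC : IsRankOnePair C D

theorem Sg.conj (cj : ∀ A ∈ S, ∀ g, conjBy A g ∈ S) (k : Sg S E U) (g : G) :
    Sg S (conjBy E g) (conjBy U g) := ⟨cj U k.1 g, fun e => k.2.1 (conjBy_inj.1 e), k.2.2.conj g⟩

theorem Eqv.conj (cj : ∀ A ∈ S, ∀ g, conjBy A g ∈ S) (k : Eqv S E F) (g : G) :
    Eqv S (conjBy E g) (conjBy F g) := fun U =>
  ⟨fun h => by simpa using ((k (conjBy U g⁻¹)).1 (by simpa using h.conj cj g⁻¹)).conj cj g,
    fun h => by simpa using ((k (conjBy U g⁻¹)).2 (by simpa using h.conj cj g⁻¹)).conj cj g⟩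

namespace Ctx

theorem not_eqv (h : Ctx S A C D) (hU : U ∈ unipotentSubgroups A D) (hV : V ∈ unipotentSubgroups A D)
    (k : Eqv S U V) : U = V := by
  by_contra hne
  have e := (R1.pair_of_unip h.rA hU hV hne).2
  obtain ⟨y, hy, rfl⟩ := hU
  have h1 := h.sg.conj h.cj y
  have h2 := h1.2.2.sup_right ((k _).1 h1).2.2
  rw [e] at h2
  exact R1.not_comm h.rC (comm_conj_iff.1 (h2.mono le_rfl (conjBy_le_of_mem le_sup_right hy)))

theorem shift (h : Ctx S A C D) {x : G} (hx : x ∈ A) : Ctx S A C (conjBy D x) :=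
  ⟨h.rs, h.deg, h.cj, h.hA, h.cj D h.hD x, h.sg, by
    have := R1.conj h.rA x; rwa [conjBy_of_mem hx] at this, by
    have := R1.conj h.rC x; rwa [h.sg.2.2.conjBy_eq' hx] at this⟩

theorem r1 (h : Ctx S A C D) (hE : E ∈ S) (k : Eqv S A E) : IsRankOnePair E D := by
  refine (h.deg E hE D h.hD).resolve_left fun hc => ?_
  have hne : D ≠ E := fun e => R1.not_comm h.rC (e ▸ ((k C).1 h.sg).2.2)
  exact R1.not_comm h.rA ((k D).2 ⟨h.hD, hne, hc.symm⟩).2.2.symm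

theorem eqv_of_rel (h : Ctx S A C D) (k : Eqv S A E) {e a d : G} (r : Rel E D e d)
    (r' : Rel A D a d) : Eqv S (conjBy D e) (conjBy D a) := by
  rw [← r.eq, ← r'.eq]; exact k.symm.conj h.cj d

theorem ex_eqv (h : Ctx S A C D) (hE : E ∈ S) (k : Eqv S A E) {e : G} (he : e ∈ E) :
    ∃ a ∈ A, Eqv S (conjBy D e) (conjBy D a) := by
  by_cases he1 : e = 1
  · exact ⟨1, A.one_mem, by rw [he1]; exact fun _ => Iff.rfl⟩
  obtain ⟨d, r⟩ := R1.ex_rel_left (h.r1 hE k) he he1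
  obtain ⟨a, r'⟩ := R1.ex_rel_right h.rA r.mb r.nb
  exact ⟨a, r'.ma, h.eqv_of_rel k r r'⟩

def K (h : Ctx S A C D) : Subgroup G where
  carrier := {g | (∀ U, Sg S A U → ∀ u ∈ U, g * u = u * g) ∧
    ∀ x ∈ A, Eqv S (conjBy D (g * x)) (conjBy D x)}
  one_mem' := ⟨by simp, fun x _ => by rw [one_mul]; exact fun _ => Iff.rfl⟩
  mul_mem' := by
    rintro g g' ⟨h1, h2⟩ ⟨h1', h2'⟩
    refine ⟨fun U hU u hu => (show Commute g u from h1 U hU u hu).mul_left (h1' U hU u hu),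
      fun x hx => ?_⟩
    have := (h2' x hx).conj h.cj g
    simp only [conjBy_conjBy] at this
    rw [mul_assoc]
    exact this.trans (h2 x hx)
  inv_mem' := by
    rintro g ⟨h1, h2⟩
    refine ⟨fun U hU u hu => (show Commute g u from h1 U hU u hu).inv_left, fun x hx => ?_⟩
    have := (h2 x hx).conj h.cj g⁻¹
    simp only [conjBy_conjBy, inv_mul_cancel_left] at this
    exact this.symm

theorem conj_mem_K (h : Ctx S A C D) {a g : G} (ha : a ∈ A) (hg : g ∈ h.K) : a * g * a⁻¹ ∈ h.K := by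
  refine ⟨fun U hU u hu => ?_, fun x hx => ?_⟩
  · have c1 : Commute a u := (hU.2.2 u hu a ha).symm
    exact (c1.mul_left (hg.1 U hU u hu)).mul_left c1.inv_left
  · have := (hg.2 _ (A.mul_mem (A.inv_mem ha) hx)).conj h.cj a
    simpa only [conjBy_conjBy, mul_inv_cancel_left, mul_assoc] using this

theorem mem_K (h : Ctx S A C D) (hE : E ∈ S) (k : Eqv S A E) {e a : G} (he : e ∈ E) (ha : a ∈ A)
    (k' : Eqv S (conjBy D e) (conjBy D a)) : a⁻¹ * e ∈ h.K := by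
  refine ⟨fun U hU u hu => ?_, fun x hx => ?_⟩
  · exact (show Commute a u from (hU.2.2 u hu a ha).symm).inv_left.mul_left
      (((k U).1 hU).2.2 u hu e he).symm
  suffices H : Eqv S (conjBy D (e * x)) (conjBy D (a * x)) by
    simpa only [conjBy_conjBy, inv_mul_cancel_left, mul_assoc] using H.conj h.cj a⁻¹
  by_cases hx1 : x = 1
  · simpa only [hx1, mul_one] using k'
  obtain ⟨d, r⟩ := R1.ex_rel_left h.rA hx hx1
  obtain ⟨c, r'⟩ := R1.ex_rel_right h.rC r.mb r.nb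
  have s0 : Sg S (conjBy D x) (conjBy D c) := by
    rw [← r.eq, ← r'.eq]; exact h.sg.conj h.cj d
  have hec : e * c = c * e := (((k C).1 h.sg).2.2 c r'.ma e he).symm
  have hac : ∀ a ∈ A, a * c = c * a := fun a ha => (h.sg.2.2 c r'.ma a ha).symm
  have s1 := (s0.conj h.cj e).symm (h.cj _ (h.cj _ h.hD x) e)
  have s2 := s0.conj h.cj a
  have k2 := k'.conj h.cj c
  simp only [conjBy_conjBy] at s1 s2 k2
  rw [hec] at s1
  rw [← hac a ha] at k2
  have s3 := ((k2 _).1 s1).symm (h.cj _ h.hD _)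
  obtain ⟨a', ha', k3⟩ := (h.shift hx).ex_eqv hE k he
  simp only [conjBy_conjBy] at k3
  have s4 := (k3 _).1 s3
  by_cases e' : conjBy D (a' * x) = conjBy D (a * x)
  · rwa [e'] at k3
  exfalso
  have m : ∀ y ∈ A, conjBy D y ∈ unipotentSubgroups A D := fun y hy =>
    R1.conj_mem_unip (R1.right_mem_unip h.rA) (Subgroup.mem_sup_left hy)
  have h2 := s4.2.2.sup_right s2.2.2
  rw [(R1.pair_of_unip h.rA (m _ (A.mul_mem ha' hx)) (m _ (A.mul_mem ha hx)) e').2] at h2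
  have h3 : conjBy A (a * c) = A := by
    rw [← conjBy_conjBy, h.sg.2.2.conjBy_eq r'.ma, conjBy_of_mem ha]
  have h4 := h2.mono le_rfl le_sup_left
  rw [← h3] at h4
  exact R1.not_comm h.rA (comm_conj_iff.1 h4).symm

theorem eq_one_of_K (h : Ctx S A C D) {a : G} (ha : a ∈ A) (hK : a ∈ h.K) : a = 1 := by
  have := hK.2 1 A.one_mem
  rw [mul_one, conjBy_one] at this
  exact R1.eq_one_left h.rA ha (h.not_eqv (R1.conj_mem_unip (R1.right_mem_unip h.rA)
    (Subgroup.mem_sup_left ha)) (R1.right_mem_unip h.rA) this)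

theorem eqv_of_K (h : Ctx S A C D) {g : G} (hg : g ∈ h.K) : Eqv S A (conjBy A g) := by
  intro U
  constructor
  · intro k
    have := k.conj h.cj g
    rwa [conjBy_eq_of_comm (hg.1 U k)] at this
  · intro k
    have k' : Sg S A (conjBy U g⁻¹) := by simpa using k.conj h.cj g⁻¹
    have := conjBy_eq_of_comm (hg.1 _ k')
    rw [conjBy_conjBy, mul_inv_cancel, conjBy_one] at this
    rwa [this]

theorem le_sup (h : Ctx S A C D) (hE : E ∈ S) (k : Eqv S A E) : E ≤ A ⊔ h.K := fun e he => by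
  obtain ⟨a, ha, k'⟩ := h.ex_eqv hE k he
  have := Subgroup.mul_mem _ (Subgroup.mem_sup_left ha : a ∈ A ⊔ h.K)
    (Subgroup.mem_sup_right (h.mem_K hE k he ha k'))
  simpa using this

theorem commutator_le (h : Ctx S A C D) : ⁅A ⊔ h.K, A ⊔ h.K⁆ ≤ h.K := by
  have hN : ∀ a ∈ A, conjBy h.K a = h.K := fun a ha => conjBy_eq_of_le_of_le
    (conjBy_le_iff.2 fun g hg => h.conj_mem_K ha hg)
    (conjBy_le_iff.2 fun g hg => h.conj_mem_K (A.inv_mem ha) hg)
  refine Subgroup.commutator_le.2 fun x hx y hy => ?_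
  obtain ⟨a, ha, m, hm, rfl⟩ := (mem_sup_of_norm_left hN).1 hx
  obtain ⟨a', ha', m', hm', rfl⟩ := (mem_sup_of_norm_left hN).1 hy
  have h2 := h.K.mul_mem (h.K.mul_mem (h.conj_mem_K ha hm) (h.conj_mem_K (A.mul_mem ha ha')
    (h.K.mul_mem hm' (h.K.inv_mem hm)))) (h.conj_mem_K ha' (h.K.inv_mem hm'))
  convert h2 using 1
  rw [commutatorElement_def]
  calc _ = a * m * a' * m' * m⁻¹ * (a' * a)⁻¹ * a' * m'⁻¹ * a'⁻¹ := by group
    _ = _ := by rw [← h.rs.comm A h.hA a ha a' ha']; group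

theorem fix_conj (h : Ctx S A C D) {t : G} (ht : t ∈ A) (ht2 : t ^ 2 ≠ 1) {g : G} (hg : g ∈ h.K)
    (e : conjBy D g = D) {x : G} (hx : x ∈ A) : conjBy (conjBy D x) g = conjBy D x := by
  have m : ∀ y ∈ A, conjBy D y ∈ unipotentSubgroups A D := fun y hy =>
    R1.conj_mem_unip (R1.right_mem_unip h.rA) (Subgroup.mem_sup_left hy)
  have m' : ∀ y ∈ D, conjBy A y ∈ unipotentSubgroups A D := fun y hy =>
    R1.conj_mem_unip R1.left_mem_unip (Subgroup.mem_sup_right hy)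
  have hgD : ∀ d ∈ D, g * d = d * g := by
    intro d hd
    by_cases hd1 : d = 1
    · simp [hd1]
    obtain ⟨a, r⟩ := R1.ex_rel_right h.rA hd hd1
    have hd' : g * d * g⁻¹ ∈ D := e ▸ conj_mem_conjBy g hd
    have k1 := (h.eqv_of_K (h.K.inv_mem hg)).conj h.cj (g * d)
    have k2 := hg.2 a r.ma
    rw [← conjBy_conjBy, ← r.eq] at k2
    simp only [conjBy_conjBy] at k1 k2
    have := R1.conj_right_inj h.rA hd' hd (h.not_eqv (m' _ hd') (m' _ hd) (k1.symm.trans k2))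
    exact mul_inv_eq_iff_eq_mul.1 this
  by_cases hx1 : x = 1
  · simpa [hx1] using e
  obtain ⟨x', hx', h1, h2⟩ : ∃ x' ∈ A, x' ≠ 1 ∧ x' ≠ x := by
    by_cases e : t = x
    · refine ⟨t ^ 2, A.pow_mem ht 2, ht2, fun e' => hx1 ?_⟩
      rw [← e, pow_two] at e'; rw [← e]; simpa using e'
    · exact ⟨t, ht, fun e' => ht2 (by simp [e']), e⟩
  obtain ⟨d, r⟩ := R1.ex_rel_left h.rA hx' h1
  have h' := h.shift hx
  obtain ⟨d₁, r₁⟩ := R1.ex_rel_left h'.rA (A.mul_mem hx' (A.inv_mem hx)) (by rwa [Ne, mul_inv_eq_one])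
  have e1 : conjBy A d₁ = conjBy A d := by rw [r₁.eq, r.eq]; simp
  have s1 := h.sg.conj h.cj d₁
  rw [e1] at s1
  have s2 : Sg S A (conjBy (conjBy C d₁) d⁻¹) := by simpa using s1.conj h.cj d⁻¹
  have c1 : ∀ u ∈ conjBy C d₁, g * u = u * g := fun u hu => by
    have := hg.1 _ s2 _ (conj_mem_conjBy d⁻¹ hu)
    have c : Commute g d := hgD d r.mb
    refine eq_of_conj d this ?_
    calc _ = g * u * (d * g⁻¹ * d⁻¹) * u⁻¹ := by rw [← c.inv_left.eq]; group
      _ = (d * g * d⁻¹) * u * (d * g⁻¹ * d⁻¹) * u⁻¹ := by rw [← c.eq]; group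
      _ = _ := by group
  exact conjBy_eq_of_comm fun y hy => R1.comm_of_comm_conj h'.rC r₁.mb r₁.nb (hg.1 C h.sg) c1 y
    (Subgroup.mem_sup_right hy)

theorem weyl_formula (h : Ctx S A C D) (hs : IsSpecialRankOnePair A D) {a d g : G} (r : Rel A D a d)
    (hg : g ∈ h.K) : conjBy (conjBy A g) (weyl a d) = conjBy D (a * (a * g * a⁻¹ * g⁻¹) * a⁻¹) := by
  have hE : conjBy A (a * g) ∈ S := h.cj A h.hA _
  have hg' := h.conj_mem_K r.ma hg
  have k : Eqv S A (conjBy A (a * g)) := by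
    have := h.eqv_of_K hg'
    rwa [conjBy_mul_of_mem _ (A.inv_mem r.ma)] at this
  have r' := Sp.rel_inv hs r
  obtain ⟨e₁, r₁⟩ := R1.ex_rel_right (h.r1 hE k) r'.mb r'.nb
  have m1 := h.mem_K hE k r₁.ma r'.ma (h.eqv_of_rel k r₁ r')
  obtain ⟨y, hy, rfl⟩ := mem_conjBy'.1 r₁.ma
  have m2 : a * y ∈ h.K := by
    have := h.K.mul_mem (h.K.mul_mem (h.K.inv_mem (h.conj_mem_K r.ma hg'))  m1) hg'
    have := h.conj_mem_K (A.inv_mem r.ma) this
    convert this using 1; group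
  have hy1 : y = a⁻¹ := eq_inv_of_mul_eq_one_right (h.eq_one_of_K (A.mul_mem r.ma hy) m2)
  subst hy1
  calc _ = conjBy (conjBy (conjBy A (a * g)) d⁻¹) a := by simp only [conjBy_conjBy, weyl, mul_assoc]
    _ = _ := by rw [r₁.eq, conjBy_conjBy]; congr 1; group

theorem false_of_big (h : Ctx S A C D) (hs : IsSpecialRankOnePair A D) (hB : B ∈ S) (hne : A ≠ B)
    (k : Eqv S A B) {a : G} (ha : a ∈ A) (ha2 : a ^ 2 ≠ 1) (ha3 : a ^ 3 ≠ 1) : False := by
  have hr : ∀ E ∈ S, Eqv S A E → A ≠ E → IsRankOnePair A E := fun E hE k hne =>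
    (h.deg A h.hA E hE).resolve_left fun hc => ((k E).1 ⟨hE, hne.symm, hc.symm⟩).2.1 rfl
  have hK : ∀ E ∈ S, Eqv S A E → A ≠ E → ∃ g ∈ h.K, E = conjBy A g := by
    intro E hE k hne
    obtain ⟨e, he, he1⟩ := h.rs.exists_ne_one hE
    obtain ⟨a', r⟩ := R1.ex_rel_right (hr E hE k hne) he he1
    obtain ⟨x, hx, k'⟩ := h.ex_eqv hE k he
    refine ⟨_, h.conj_mem_K (A.mul_mem (A.inv_mem r.ma) hx) (h.mem_K hE k he hx k'), ?_⟩
    rw [conjBy_mul_of_mem _ (A.inv_mem (A.mul_mem (A.inv_mem r.ma) hx)), ← conjBy_inv_of_eq r.eq.symm,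
      conjBy_conjBy]
    congr 1; group
  have ha1 : a ≠ 1 := fun e => ha2 (by simp [e])
  obtain ⟨b, r⟩ := R1.ex_rel_left h.rA ha ha1
  obtain ⟨d, r'⟩ := R1.ex_rel_left h.rA (A.pow_mem ha 2) ha2
  obtain ⟨e, re⟩ := R1.ex_rel_left h.rA (A.mul_mem ha (A.pow_mem ha 2)) (by rwa [← pow_succ'])
  have key := Sp.key_identity hs (h.rs.comm A h.hA) (h.rs.comm D h.hD) r r' re
  set c := a ^ 2 with hc
  set n := weyl a b
  set n' := weyl c d
  have hA' : conjBy A (n'⁻¹ * n) = A := by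
    rw [← conjBy_conjBy, Sp.conjBy_weyl_left hs r, conjBy_inv_of_eq (Sp.conjBy_weyl_left hs r')]
  have k' : Eqv S A (conjBy B (n'⁻¹ * n)) := by
    have := k.conj h.cj (n'⁻¹ * n); rwa [hA'] at this
  have hne' : A ≠ conjBy B (n'⁻¹ * n) := fun e => hne (conjBy_inj.1 (hA'.trans e))
  obtain ⟨g, hg, e1⟩ := hK B hB k hne
  obtain ⟨g', hg', e2⟩ := hK _ (h.cj B hB _) k' hne'
  have mφ : ∀ {x y : G}, x ∈ A → y ∈ h.K → x * (x * y * x⁻¹ * y⁻¹) * x⁻¹ ∈ h.K := fun hx hy =>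
    h.conj_mem_K hx (h.K.mul_mem (h.conj_mem_K hx hy) (h.K.inv_mem hy))
  have f0 : conjBy D (a * (a * g * a⁻¹ * g⁻¹) * a⁻¹) = conjBy D (c * (c * g' * c⁻¹ * g'⁻¹) * c⁻¹) := by
    rw [← h.weyl_formula hs r hg, ← h.weyl_formula hs r' hg', ← e1, ← e2, conjBy_conjBy]
    congr 1; simp [n, n']
  have hcent : ∀ x ∈ A, n'⁻¹ * n * x * (n'⁻¹ * n)⁻¹ = x := by
    intro x hx
    have f1 := h.weyl_formula hs r (h.conj_mem_K hx hg)
    have f2 := h.weyl_formula hs r' (h.conj_mem_K hx hg')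
    have f3 := h.fix_conj ha ha2 (h.K.mul_mem (h.K.inv_mem (mφ r'.ma hg')) (mφ ha hg))
      (conjBy_eq_conjBy_iff.1 f0) (A.inv_mem hx)
    have cx : ∀ {y z : G}, y ∈ A → y * (y * (x * z * x⁻¹) * y⁻¹ * (x * z * x⁻¹)⁻¹) * y⁻¹ =
        x * (y * (y * z * y⁻¹ * z⁻¹) * y⁻¹) * x⁻¹ := by
      intro y z hy
      have cm : Commute x y := h.rs.comm A h.hA x hx y hy
      calc _ = y * (y * x) * z * (x⁻¹ * y⁻¹ * x) * z⁻¹ * (x⁻¹ * y⁻¹) := by group
        _ = (y * x) * y * z * (y⁻¹ * x⁻¹ * x) * z⁻¹ * (y⁻¹ * x⁻¹) := by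
          rw [← cm.eq, cm.inv_inv.eq]; simp only [mul_assoc]; rw [← mul_assoc y x, ← cm.eq, mul_assoc]
        _ = _ := by rw [← cm.eq]; group
    rw [cx ha] at f1
    rw [cx r'.ma] at f2
    have f4 : conjBy D (x * (a * (a * g * a⁻¹ * g⁻¹) * a⁻¹) * x⁻¹) =
        conjBy D (x * (c * (c * g' * c⁻¹ * g'⁻¹) * c⁻¹) * x⁻¹) := by
      rw [conjBy_eq_conjBy_iff]
      have := congrArg (fun U => conjBy U x) f3
      simp only [conjBy_conjBy, mul_inv_cancel, conjBy_one] at this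
      convert this using 2; group
    rw [← f1, ← f2, conjBy_mul_of_mem _ (A.inv_mem hx), conjBy_mul_of_mem _ (A.inv_mem hx),
      ← conjBy_conjBy A g x, ← conjBy_conjBy A g' x, ← e1, ← e2] at f4
    refine R1.conj_left_inj (hr _ (h.cj B hB _) k' hne') (hA' ▸ conj_mem_conjBy _ hx) hx ?_
    have := congrArg (fun U => conjBy U n'⁻¹) f4
    simp only [conjBy_conjBy] at this ⊢
    convert this using 2 <;> simp [n, n', mul_assoc]
  have m : n⁻¹ * e * n ∈ A := by rw [← mem_conjBy, Sp.conjBy_weyl_left hs r]; exact re.mb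
  have e3 : n'⁻¹ * e * n' = n⁻¹ * e * n := by rw [← hcent _ m]; group
  rw [e3] at key
  have := mul_right_cancel key
  rw [hc, pow_two] at this
  exact ha1 (by simpa using this)

end Ctx
end

/-- Let S be a class of abstract root subgroups of G containing two different commuting members. Suppose that, in case S is degenerate and every element of every member of S has order at most 3, the following holds: for every A ∈ S and every rank one partner B of A there are subgroups A₀ ≤ A and B₀ ≤ B generating an image of SL₂(k) with central kernel, k a field with at least four elements, A₀ and B₀ being the images of the unitriangular subgroups. Then every rank one pair A, B in S is special. -/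
theorem result {G : Type u} [Group G] {S : Set (Subgroup G)} (hS : Cfsg.IsRootSubgroupClass S)
    (hcomm : ∃ A ∈ S, ∃ C ∈ S, A ≠ C ∧ ⁅A, C⁆ = ⊥)
    (hH : Cfsg.IsDegenerateRootSet S → (∀ A ∈ S, ∀ a ∈ A, 0 < orderOf a ∧ orderOf a ≤ 3) →
      ∀ A ∈ S, ∀ B ∈ Cfsg.rankOnePartners S A, ∃ A₀ B₀ : Subgroup G, A₀ ≤ A ∧ B₀ ≤ B ∧
        ∃ (k : Type u) (_ : Field k), 3 < ENat.card k ∧ Cfsg.IsPSL2PairOver k A₀ B₀)
    {A B : Subgroup G} (hA : A ∈ S) (hB : B ∈ Cfsg.rankOnePartners S A) : Cfsg.IsSpecialRankOnePair A B := by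
  have h := rs_of hS.1
  obtain ⟨hB, hr⟩ := hB
  by_cases hd : IsDegenerateRootSet S
  swap
  · simp only [IsDegenerateRootSet, not_forall, not_not] at hd
    obtain ⟨X, hX, Y, hY, hc⟩ := hd
    exact (S5034.result hS ⟨hcomm, ⟨A, hA, B, hB, hr⟩, ⟨X, hX, Y, hY, hc⟩⟩ hA ⟨hB, hr⟩).2
  have deg := h.degenerate_iff.1 hd
  have cj := hS.1.conj_mem
  have tri : ∀ {A B C : Subgroup G}, A ∈ S → B ∈ S → IsRankOnePair A B → Sg S A C → ¬ Sg S B C →
      IsRankOnePair C B := by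
    intro A B C hA hB hr s ns
    refine (deg C s.1 B hB).resolve_left fun hc => ns ⟨s.1, fun e => ?_, hc⟩
    exact R1.not_comm hr (e ▸ s.2.2.symm)
  have tri' : ∀ {A B : Subgroup G}, A ∈ S → B ∈ S → IsRankOnePair A B → ¬ Eqv S A B →
      ∃ C, Sg S A C ∧ IsRankOnePair C B := by
    intro A B hA hB hr ne
    simp only [Eqv, not_forall] at ne
    obtain ⟨C, hC⟩ := ne
    by_cases s : Sg S A C
    · exact ⟨C, s, tri hA hB hr s fun s' => hC ⟨fun _ => s', fun _ => s⟩⟩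
    · have s' : Sg S B C := by by_contra s'; exact hC ⟨fun x => absurd x s, fun x => absurd x s'⟩
      obtain ⟨n, -, e1, e2⟩ := R1.exists_swap hr
      have t1 := s'.conj cj n
      have t2 := R1.conj (tri hB hA (R1.symm hr) s' s) n
      rw [e2] at t1; rw [e1] at t2
      exact ⟨_, t1, t2⟩
  by_cases k : Eqv S A B
  swap
  · obtain ⟨C, s, r⟩ := tri' hA hB hr k
    exact h.special_of_triangle deg hA hB hr s.1 s.2.1.symm s.2.2.symm r
  exfalso
  have hn := nondeg_ni hS ⟨A, hA, B, hB, hr⟩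
  obtain ⟨D, hD, rD, kD⟩ : ∃ D ∈ S, IsRankOnePair A D ∧ ¬ Eqv S A D := by
    by_contra hcon
    push Not at hcon
    have hall : ∀ E, FConn S A E → Eqv S A E := by
      intro E hE
      induction hE with
      | refl => exact fun _ => Iff.rfl
      | @tail X Y _ hXY ih =>
        obtain ⟨g, rfl⟩ := hS.2.2 A hA X hXY.1
        have := (hcon _ (cj Y hXY.2.1 g⁻¹) (by simpa using R1.conj hXY.2.2 g⁻¹)).conj cj g
        exact ih.trans (by simpa using this)
    obtain ⟨X, hX, Y, hY, hXY, hc⟩ := hcomm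
    obtain ⟨g, rfl⟩ := hS.2.2 X hX A hA
    have s : Sg S (conjBy X g) (conjBy Y g) := Sg.conj cj ⟨hY, hXY.symm, (comm_iff.1 hc).symm⟩ g
    obtain ⟨g', e⟩ := hS.2.2 _ hA _ s.1
    have := hall _ (h.fconn_conj hA (hn _ hA) (g := g') (hS.1.generates ▸ Subgroup.mem_top _))
    rw [← e] at this
    exact ((this _).1 s).2.1 rfl
  obtain ⟨C, s, rC⟩ := tri' hA hD rD kD
  have ctx : Ctx S A C D := ⟨h, deg, cj, hA, hD, s, rD, rC⟩
  by_cases ho : ∀ A ∈ S, ∀ a ∈ A, 0 < orderOf a ∧ orderOf a ≤ 3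
  · obtain ⟨A₀, B₀, h1, h2, k', _, h3, hp⟩ := hH hd ho A hA B ⟨hB, hr⟩
    have hle : A₀ ⊔ B₀ ≤ A ⊔ ctx.K := sup_le (h1.trans le_sup_left) (h2.trans (ctx.le_sup hB k))
    have hK : A₀ ⊔ B₀ ≤ ctx.K := by
      rw [← psl2_perfect hp h3]
      exact (Subgroup.commutator_mono hle hle).trans ctx.commutator_le
    obtain ⟨a, ha, ha1⟩ := R1.exists_left (psl2_pair hp)
    exact ha1 (ctx.eq_one_of_K (h1 ha) (hK (Subgroup.mem_sup_left ha)))
  · push Not at ho
    obtain ⟨X, hX, x, hx, hox⟩ := ho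
    obtain ⟨g, rfl⟩ := hS.2.2 X hX A hA
    have hpow : ∀ m : ℕ, 0 < m → m ≤ 3 → (g * x * g⁻¹) ^ m ≠ 1 := by
      intro m hm hm3 e
      rw [conj_pow, mul_inv_eq_one, mul_eq_left] at e
      have := orderOf_le_of_pow_eq_one hm e
      have := hox (isOfFinOrder_iff_pow_eq_one.2 ⟨m, hm, e⟩).orderOf_pos
      omega
    exact ctx.false_of_big (h.special_of_triangle deg hA hD rD s.1 s.2.1.symm s.2.2.symm rC) hB hr.ne k
      (conj_mem_conjBy g hx) (hpow 2 (by norm_num) (by norm_num)) (hpow 3 (by norm_num) le_rfl)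

end Cfsg.Agent.S5039
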