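import Cfsg.Statements.S5040
import Cfsg.Agent.Root.RootSet4

set_option autoImplicit false
open Cfsg

namespace Cfsg.Agent.S5040
open Cfsg.Agent.Root

/-- Let S be a non-degenerate class of abstract root subgroups of G and Δ a weak TI-subset of S. Then the members of Δ commute with one another elementwise. -/
theorem result {G : Type*} [Group G] {S : Set (Subgroup G)} (hS : Cfsg.IsRootSubgroupClass S) (hnd : Cfsg.IsNondegenerateRootSet S)
    {Δ : Set (Subgroup G)} (hΔ : Cfsg.IsWeakTISubset S Δ) : Cfsg.IsAbelianFamily Δ := by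
  have h := rs_of hS.1
  have hn := nondeg_ni hS hnd.2.1
  obtain ⟨hsub, -, hne, hti⟩ := hΔ
  -- a root element fixing a member of `Δ` stabilizes `Δ`
  have hfix : ∀ A ∈ Δ, ∀ E ∈ S, Comm E A → ∀ e ∈ E, ∀ C ∈ Δ, conjBy C e ∈ Δ := by
    intro A hA E hE hc e he C hC
    by_cases he1 : e = 1
    · simpa [he1] using hC
    rcases hti e ⟨he1, E, hE, he⟩ with h1 | h1
    · rw [← h1]; exact ⟨C, hC, rfl⟩
    · exact absurd hA (Set.disjoint_left.1 h1 ⟨A, hA, hc.conjBy_eq he⟩)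
  have hnr : ∀ A ∈ Δ, ∀ B ∈ Δ, ¬ IsRankOnePair A B := by
    intro A hA B hB hr
    let H : Subgroup G :=
      { carrier := {x | (∀ C ∈ Δ, conjBy C x ∈ Δ) ∧ ∀ C ∈ Δ, conjBy C x⁻¹ ∈ Δ}
        one_mem' := by simp
        mul_mem' := by
          rintro x y ⟨hx, hx'⟩ ⟨hy, hy'⟩
          refine ⟨fun C hC => ?_, fun C hC => ?_⟩
          · rw [← conjBy_conjBy]; exact hx _ (hy _ hC)
          · rw [mul_inv_rev, ← conjBy_conjBy]; exact hy' _ (hx' _ hC)
        inv_mem' := by rintro x ⟨hx, hx'⟩; exact ⟨hx', by simpa using hx⟩ }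
    have hH : H = ⊤ := nondeg_gen hS hnd (hsub hA) (hsub hB) hr
      (fun C hC l c hc => ⟨hfix A hA C hC l.comm.symm c hc, hfix A hA C hC l.comm.symm _ (C.inv_mem hc)⟩)
      (fun c hc => ⟨hfix B hB B (hsub hB) (h.comm B (hsub hB)) c hc,
        hfix B hB B (hsub hB) (h.comm B (hsub hB)) _ (B.inv_mem hc)⟩)
    apply hne
    refine Set.Subset.antisymm hsub fun E hE => ?_
    obtain ⟨g, rfl⟩ := hS.2.2 A (hsub hA) E hE
    exact (show g ∈ H from hH ▸ Subgroup.mem_top g).1 A hA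
  intro A hA B hB
  have hAS := hsub hA
  have hBS := hsub hB
  rcases h.pair A hAS B hBS with h1 | h1 | ⟨C, hC, h1⟩
  · exact h1
  · exact absurd h1 (hnr A hA B hB)
  exfalso
  obtain ⟨D, hD, k⟩ := h.line_exists_cc hn hC hAS (h.cc_line hAS hBS hC h1).symm
  have hr := h.rankOne_of_cc_cc hAS hBS hC hD h1 k.symm
  obtain ⟨d, hd, hd1⟩ := R1.exists_right hr
  exact hnr B hB _ (hfix A hA D hD k.cB.symm d hd B hB) (R1.pair_conj_right hr hd hd1).1

end Cfsg.Agent.S5040
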