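import Cfsg.Statements.S5041
import Cfsg.Agent.Root.RootSet3

set_option autoImplicit false
open Cfsg

namespace Cfsg.Agent.S5041
open Cfsg.Agent.Root

/-- Let S be a non-degenerate class of abstract root subgroups of G. Then the graph on S joining A to its line partners, and the commuting graph on S, are both connected. -/
theorem result {G : Type*} [Group G] {S : Set (Subgroup G)} (hS : Cfsg.IsRootSubgroupClass S) (hnd : Cfsg.IsNondegenerateRootSet S) :
    Cfsg.IsConnectedFamily (Cfsg.EAdj S S) S ∧ Cfsg.IsConnectedFamily (Cfsg.DAdj S) S := by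
  have h := rs_of hS.1
  have hn := nondeg_ni hS hnd.2.1
  constructor
  · intro A hA B hB
    have := nondeg_lconn hS hnd hA hB
    unfold RS.LConn at this
    clear hB
    induction this with
    | refl => exact Relation.ReflTransGen.refl
    | tail _ hXY ih =>
      exact ih.tail ⟨hXY.1, hXY.2.1, hXY.2.2.mem h hXY.2.1 fun E hE _ => hn E hE⟩
  · intro A hA B hB
    have := nondeg_lconn hS hnd hA hB
    unfold RS.LConn at this
    clear hB
    induction this with
    | refl => exact Relation.ReflTransGen.refl
    | tail _ hXY ih => exact ih.tail ⟨hXY.1, hXY.2.1, hXY.2.2.ne, comm_iff.2 hXY.2.2.comm⟩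

end Cfsg.Agent.S5041
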