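import Cfsg.Statements.S5043
import Cfsg.Agent.Low.RF2

set_option autoImplicit false
open Matrix
open Cfsg

namespace Cfsg.Agent.S5043

/-- Let k be a field and n a natural number. In SL_{n+3}(k) (so in every dimension at least 3) the conjugates of the root subgroup of elementary transvections 1 + c E₁₂ (c ∈ k) — that is, the groups of transvections attached to an incident point–hyperplane pair — form a non-degenerate class of abstract k-root subgroups of SL_{n+3}(k) whose graph of rank one pairs is connected. -/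
theorem result (k : Type*) [Field k] (n : ℕ) :
    Cfsg.IsRootSubgroupClass {A : Subgroup (Matrix.SpecialLinearGroup (Fin (n + 3)) k) |
        ∃ g : Matrix.SpecialLinearGroup (Fin (n + 3)) k,
          A = Cfsg.conjBy (Subgroup.closure {t : Matrix.SpecialLinearGroup (Fin (n + 3)) k |
            ∃ c : k, (t : Matrix (Fin (n + 3)) (Fin (n + 3)) k) = Matrix.transvection 0 1 c}) g} ∧
    Cfsg.IsNondegenerateRootSet {A : Subgroup (Matrix.SpecialLinearGroup (Fin (n + 3)) k) |
        ∃ g : Matrix.SpecialLinearGroup (Fin (n + 3)) k,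
          A = Cfsg.conjBy (Subgroup.closure {t : Matrix.SpecialLinearGroup (Fin (n + 3)) k |
            ∃ c : k, (t : Matrix (Fin (n + 3)) (Fin (n + 3)) k) = Matrix.transvection 0 1 c}) g} ∧
    Cfsg.IsKRootSubgroupSet k {A : Subgroup (Matrix.SpecialLinearGroup (Fin (n + 3)) k) |
        ∃ g : Matrix.SpecialLinearGroup (Fin (n + 3)) k,
          A = Cfsg.conjBy (Subgroup.closure {t : Matrix.SpecialLinearGroup (Fin (n + 3)) k |
            ∃ c : k, (t : Matrix (Fin (n + 3)) (Fin (n + 3)) k) = Matrix.transvection 0 1 c}) g} ∧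
    Cfsg.IsConnectedFamily (Cfsg.FAdj {A : Subgroup (Matrix.SpecialLinearGroup (Fin (n + 3)) k) |
        ∃ g : Matrix.SpecialLinearGroup (Fin (n + 3)) k,
          A = Cfsg.conjBy (Subgroup.closure {t : Matrix.SpecialLinearGroup (Fin (n + 3)) k |
            ∃ c : k, (t : Matrix (Fin (n + 3)) (Fin (n + 3)) k) = Matrix.transvection 0 1 c}) g})
      {A : Subgroup (Matrix.SpecialLinearGroup (Fin (n + 3)) k) |
        ∃ g : Matrix.SpecialLinearGroup (Fin (n + 3)) k,
          A = Cfsg.conjBy (Subgroup.closure {t : Matrix.SpecialLinearGroup (Fin (n + 3)) k |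
            ∃ c : k, (t : Matrix (Fin (n + 3)) (Fin (n + 3)) k) = Matrix.transvection 0 1 c}) g} := by
  have h3 : 3 ≤ Fintype.card (Fin (n + 3)) := by simp
  have h01 : (0 : Fin (n + 3)) ≠ 1 := by simp
  have h02 : (0 : Fin (n + 3)) ≠ 2 := fun e => by
    have := congrArg Fin.val e; simp [Nat.mod_eq_of_lt (show 2 < n + 3 by omega)] at this
  have h12 : (1 : Fin (n + 3)) ≠ 2 := fun e => by
    have := congrArg Fin.val e; simp [Nat.mod_eq_of_lt (show 2 < n + 3 by omega)] at this
  rw [Root.sl_eq h3 h01]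
  have h := Root.rfam_sl (k := k) (ι := Fin (n + 3))
  have hk := h.kroot Root.gen_sl
  have m01 := Root.single_mem_slFam h01 (one_ne_zero (α := k))
  have m02 := Root.single_mem_slFam h02 (one_ne_zero (α := k))
  have m12 := Root.single_mem_slFam h12 (one_ne_zero (α := k))
  have m10 := Root.single_mem_slFam h01.symm (one_ne_zero (α := k))
  refine ⟨⟨hk.1, Root.conjClass_of_connected ⟨_, Set.mem_image_of_mem _ m01⟩ (Root.connected_sl h3)⟩,
    ⟨⟨_, ⟨_, m01, rfl⟩, _, ⟨_, m02, rfl⟩, fun e => ?_, Root.comm_iff.2 (h.comm m01 m02 ?_)⟩,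
    ⟨_, ⟨_, m01, rfl⟩, _, ⟨_, m10, rfl⟩, (h.fadj m01 m10 ?_).2.2⟩,
    ⟨_, ⟨_, m01, rfl⟩, _, ⟨_, m12, rfl⟩, h.rcc m01 m12 ?_ ?_ ?_⟩⟩, hk, Root.connected_sl h3⟩
  · obtain ⟨g, hg⟩ := h.has _ m01 1
    obtain ⟨c, hc⟩ := (Root.mem_rsg (h.sq _ m02)).1 (e ▸ (Root.mem_rsg (h.sq _ m01)).2 ⟨_, hg⟩)
    have e1 := add_left_cancel (hg.symm.trans hc)
    have := congrFun (congrFun e1 0) 1
    simp [single_apply, h12.symm] at this
  · rw [single_mul_single_of_ne _ _ _ _ h01.symm, single_mul_single_of_ne _ _ _ _ h02.symm]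
  · simpa using h.ne _ m01
  · rw [single_mul_single_same, single_mul_single_of_ne _ _ _ _ h02.symm]
  · rw [single_mul_single_of_ne _ _ _ _ h02.symm, zero_mul]
  · rwa [single_mul_single_same, single_mul_single_of_ne _ _ _ _ h02.symm, sub_zero, one_mul]

end Cfsg.Agent.S5043
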