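import Cfsg.Statements.S5045
import Cfsg.Agent.Root.Inv1

set_option autoImplicit false
open Cfsg

namespace Cfsg.Agent.S5045
open Cfsg.Agent.Root

/-- Let G be a finite group generated by a set D of root involutions, and W the set of members of D whose product with every other member of D has even order or is trivial (the isolated vertices of the odd-order-product graph on D). Then W is conjugation-invariant and generates a normal 2-subgroup of G meeting D in exactly W; the commutator of two members of D lying in different connected components of that graph, each with more than one member, lies in the subgroup generated by W; and for a in such a component, every member of D commuting with a, different from a and with product with a in D, lies in that component or in W. -/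
theorem result {G : Type*} [Group G] [Finite G] {D : Set G} (hD : Cfsg.IsRootInvolutionSet D) :
    (∀ w ∈ {w | Cfsg.IsIsolatedElem (Cfsg.OddAdj D) D w}, ∀ g : G, g * w * g⁻¹ ∈ {w | Cfsg.IsIsolatedElem (Cfsg.OddAdj D) D w}) ∧
    (Subgroup.closure {w | Cfsg.IsIsolatedElem (Cfsg.OddAdj D) D w}).Normal ∧
    IsPGroup 2 ↥(Subgroup.closure {w | Cfsg.IsIsolatedElem (Cfsg.OddAdj D) D w}) ∧
    (Subgroup.closure {w | Cfsg.IsIsolatedElem (Cfsg.OddAdj D) D w} : Set G) ∩ D = {w | Cfsg.IsIsolatedElem (Cfsg.OddAdj D) D w} ∧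
    (∀ a ∈ D, ∀ b ∈ D, (∃ a' ∈ Cfsg.elemComponentOf (Cfsg.OddAdj D) D a, a' ≠ a) →
      (∃ b' ∈ Cfsg.elemComponentOf (Cfsg.OddAdj D) D b, b' ≠ b) →
      Cfsg.elemComponentOf (Cfsg.OddAdj D) D a ≠ Cfsg.elemComponentOf (Cfsg.OddAdj D) D b →
        a * b * a⁻¹ * b⁻¹ ∈ Subgroup.closure {w | Cfsg.IsIsolatedElem (Cfsg.OddAdj D) D w}) ∧
    (∀ a ∈ D, (∃ a' ∈ Cfsg.elemComponentOf (Cfsg.OddAdj D) D a, a' ≠ a) →
      Cfsg.productPartners D a ⊆ Cfsg.elemComponentOf (Cfsg.OddAdj D) D a ∪ {w | Cfsg.IsIsolatedElem (Cfsg.OddAdj D) D w}) := by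
  have hW : ∀ w ∈ {w | IsIsolatedElem (OddAdj D) D w}, ∀ g : G,
      g * w * g⁻¹ ∈ {w | IsIsolatedElem (OddAdj D) D w} := fun w hw g =>
    (isolated_iff (hD.conj_mem w hw.1 g)).2 fun x hx o => (isolated_iff hw.1).1 hw _ (hD.conj_mem x hx g⁻¹)
      (by simpa [mul_assoc] using o.conj g⁻¹)
  have hn : (Subgroup.closure {w | IsIsolatedElem (OddAdj D) D w}).Normal :=
    ⟨fun x hx g => (Subgroup.closure_le ((Subgroup.closure _).comap (MulAut.conj g).toMonoidHom)).2
      (fun w hw => Subgroup.subset_closure (hW w hw g)) hx⟩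
  have hp : IsPGroup 2 (Subgroup.closure {w | IsIsolatedElem (OddAdj D) D w}) :=
    isPGroup_closure_of_four (fun x hx => RI.sq hD hx.1)
      (fun x hx y hy => by simpa [RI.inv hD hy.1] using hW x hx y)
      fun x hx y hy => RI.pow_four hD hx.1 hy.1 ((isolated_iff hx.1).1 hx y hy.1)
  have hX : ∀ a ∈ D, (∃ a' ∈ elemComponentOf (OddAdj D) D a, a' ≠ a) →
      productPartners D a ⊆ elemComponentOf (OddAdj D) D a ∪ {w | IsIsolatedElem (OddAdj D) D w} := by
    rintro a ha ⟨a', k, hne⟩ e ⟨⟨he, hc, -⟩, hm⟩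
    obtain ⟨x, hx, o⟩ := OConn.exists_od k.2 hne
    by_cases hi : ∀ y ∈ D, ¬ Od e y
    · exact Or.inr ((isolated_iff he).2 hi)
    push Not at hi
    obtain ⟨y, hy, o'⟩ := hi
    exact Or.inl ⟨he, RI.oconn_of_prod hD ha hx o he (Commute.symm hc) (hc ▸ hm) hy o'⟩
  refine ⟨hW, hn, hp, Set.Subset.antisymm (fun d ⟨h1, hd⟩ => (isolated_iff hd).2 fun x hx o => ?_)
    fun w hw => ⟨Subgroup.subset_closure hw, hw.1⟩, fun a ha b hb h1 h2 hne => ?_, hX⟩
  · obtain ⟨k, hk⟩ := hp ⟨_, mul_mem h1 (hn.conj_mem d h1 x)⟩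
    refine o.not_pow (RI.sq hD hx) (k := k + 1) ?_
    rw [pow_succ', pow_mul, sq]
    simpa [RI.inv hD hx, mul_assoc] using congrArg Subtype.val hk
  rcases RI.pair hD ha hb with k | k | k
  · rw [k.eq]; simp
  · exact absurd (Set.ext fun x => and_congr_right fun _ =>
      ⟨(OConn.of_od ha hb k).symm.trans, (OConn.of_od ha hb k).trans⟩) hne
  rw [RI.inv hD ha, RI.inv hD hb]
  have hc := RI.fo_mem hD ha hb k
  have key : ∀ a ∈ D, ∀ b ∈ D, Fo a b → a * b * a * b ∈ productPartners D a := fun a ha b hb k => by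
    have c := k.comm_left (RI.sq hD ha) (RI.sq hD hb)
    have m : a * b * a * b * a ∈ D := by rw [c.eq, RI.mul_fo hD ha]; exact RI.conj hD ha hb
    exact ⟨⟨RI.fo_mem hD ha hb k, c, fun e => RI.ne_one hD m (by rw [e, RI.sq hD ha])⟩, m⟩
  rcases hX a ha h1 (key a ha b hb k) with k1 | k1
  · rcases hX b hb h2 (key b hb a ha k.symm) with k2 | k2 <;>
      rw [← k.swap (RI.sq hD ha) (RI.sq hD hb)] at k2
    · have := k1.2.trans (OConn.symm k2.2)
      exact absurd (Set.ext fun x => and_congr_right fun _ => ⟨(OConn.symm this).trans, this.trans⟩) hne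
    · exact Subgroup.subset_closure k2
  · exact Subgroup.subset_closure k1

end Cfsg.Agent.S5045
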