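import Cfsg.Statements.S5046
import Cfsg.Agent.Root.Inv1

set_option autoImplicit false
open Cfsg

namespace Cfsg.Agent.S5046
open Cfsg.Agent.Root


theorem union_iff {G : Type*} [Group G] {D : Set G} (hD : IsRootInvolutionSet D) {d x : G} (hd : d ∈ D) :
    x ∈ commutingMembers D d ∪ fourPartners D d ↔ x ∈ D ∧ ¬ Od d x := by
  constructor
  · rintro (h | h)
    · exact ⟨h.1, fun o => o.not_comm (RI.sq hD hd) (RI.sq hD h.1) (Commute.symm h.2)⟩
    · exact ⟨h.1, fun o => o.not_fo (RI.sq hD h.1) ((RI.fo_iff hD hd h.1).1 h.2)⟩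
  · rintro ⟨hx, h⟩
    rcases RI.pair hD hd hx with k | k | k
    · exact Or.inl ⟨hx, k.symm⟩
    · exact absurd k h
    · exact Or.inr ⟨hx, (RI.fo_iff hD hd hx).2 k⟩

/-- Let G be a finite group generated by a set D of root involutions whose odd-order-product graph is connected, and d ∈ D. Then the members e of D with the same commuting members as d are exactly those for which the union of the commuting members of d and the members whose product with d has order 4 equals the corresponding union for e. -/
theorem result {G : Type*} [Group G] [Finite G] {D : Set G} (hD : Cfsg.IsRootInvolutionSet D)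
    (hc : Cfsg.IsConnectedSet (Cfsg.OddAdj D) D) {d : G} (hd : d ∈ D) :
    Cfsg.sameCommutingClass D d =
      {e | e ∈ D ∧ Cfsg.commutingMembers D d ∪ Cfsg.fourPartners D d = Cfsg.commutingMembers D e ∪ Cfsg.fourPartners D e} := by
  ext e
  refine and_congr_right fun he => ⟨fun h => Set.ext fun x => ?_, fun h => Set.ext fun c => ?_⟩
  · have h1 : ∀ c ∈ D, Commute c d → Commute c e := fun c hc k => (h.le ⟨hc, k⟩).2
    have h2 : ∀ c ∈ D, Commute c e → Commute c d := fun c hc k => (h.ge ⟨hc, k⟩).2
    rw [union_iff hD hd, union_iff hD he]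
    exact and_congr_right fun hx => not_congr ⟨RI.od_of_comm hD hd he h2 hx, RI.od_of_comm hD he hd h1 hx⟩
  · have ho : ∀ x ∈ D, Od d x ↔ Od e x := fun x hx => by
      have := Set.ext_iff.1 h x
      rw [union_iff hD hd, union_iff hD he] at this
      tauto
    have hcl : ∀ a ∈ D, ∀ b ∈ D, IsConj a b := fun a ha b hb => RI.oconn_isConj hD (hc a ha b hb)
    exact and_congr_right fun hc' => ⟨RI.comm_of_od hD hcl hd he ho hc',
      RI.comm_of_od hD hcl he hd (fun x hx => (ho x hx).symm) hc'⟩

end Cfsg.Agent.S5046
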