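import Cfsg.Statements.S5047
import Cfsg.Agent.Root.Inv1

set_option autoImplicit false
open Cfsg

namespace Cfsg.Agent.S5047
open Cfsg.Agent.Root


/-- Let G be a finite group generated by a set D of root involutions whose odd-order-product graph is connected, a ∈ D, and b a member of D different from a, commuting with a, with ab ∈ D, but not having the same commuting members as a. Then some member x of D with bx of order 4 has ax of order 3. -/
theorem result {G : Type*} [Group G] [Finite G] {D : Set G} (hD : Cfsg.IsRootInvolutionSet D)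
    (hc : Cfsg.IsConnectedSet (Cfsg.OddAdj D) D) {a b : G} (ha : a ∈ D) (hb : b ∈ Cfsg.productPartners D a)
    (hbE : b ∉ Cfsg.sameCommutingClass D a) : ∃ x ∈ Cfsg.fourPartners D b, orderOf (a * x) = 3 := by
  obtain ⟨⟨hb, hc', -⟩, hm'⟩ := hb
  have hc' : Commute b a := hc'
  have hm : a * b ∈ D := hc' ▸ hm'
  have hcl : ∀ a ∈ D, ∀ b ∈ D, IsConj a b := fun a ha b hb => RI.oconn_isConj hD (hc a ha b hb)
  have key : ∀ a ∈ D, ∀ b ∈ D, Commute b a → a * b ∈ D → (∃ c ∈ D, ¬ (Commute c a ↔ Commute c b)) →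
      ∃ y ∈ D, Fo y a ∧ y * a * y * a = b := by
    intro a ha b hb hc hm ⟨c, hc', hn⟩
    by_contra hcon
    have ho := RI.od_iff_of_le hD (hcl a ha b hb) fun x hx o => by
      by_contra hn
      obtain ⟨y, hy, -, h⟩ := RI.exists_fo hD ha hx o hb hc hm (RI.fo_of_not_od hD ha hx o hb hc.symm hm hn)
      exact hcon ⟨y, hy, h⟩
    exact hn ⟨RI.comm_of_od hD hcl ha hb ho hc', RI.comm_of_od hD hcl hb ha (fun x hx => (ho x hx).symm) hc'⟩
  obtain ⟨w, hw, f1, e1⟩ := key a ha b hb hc' hm (by
    by_contra hn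
    push Not at hn
    exact hbE ⟨hb, Set.ext fun c => and_congr_right fun hc => hn c hc⟩)
  have c1 : Commute b w := e1 ▸ f1.comm_left (RI.sq hD hw) (RI.sq hD ha)
  have e2 : w * b = a * w * a := by rw [← e1, RI.mul_fo hD hw]
  obtain ⟨x, hx, f2, e3⟩ := key b hb w hw c1.symm (c1.eq ▸ e2 ▸ RI.conj hD hw ha)
    ⟨a, ha, fun h => f1.1 (h.1 hc'.symm).symm⟩
  refine ⟨x, ⟨hx, (RI.fo_iff hD hb hx).2 f2.symm⟩, ?_⟩
  have c2 : Commute w x := e3 ▸ f2.comm_left (RI.sq hD hx) (RI.sq hD hb)
  have e4 : a * w = w * b * a := by rw [e2, mul_assoc, RI.sq hD ha, mul_one]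
  have e5 : x * b = b * w * x := by
    rw [← e3, f2.swap (RI.sq hD hx) (RI.sq hD hb), RI.mul_fo hD hb, mul_assoc, RI.sq hD hx, mul_one]
  have e6 : a * x * b = w * (a * x) := by
    calc _ = (a * b) * w * x := by rw [mul_assoc, e5]; group
      _ = b * (a * w) * x := by rw [← hc'.eq]; group
      _ = (b * w) * b * a * x := by rw [e4]; group
      _ = _ := by rw [c1.eq, mul_assoc w, RI.sq hD hb]; group
  have e7 : a * x * w = w * b * (a * x) := by rw [mul_assoc, ← c2.eq, ← mul_assoc, e4]; group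
  have e8 : a * (a * x) ^ 3 = (x * a) * x * (x * a)⁻¹ := by
    simp only [mul_inv_rev, RI.inv hD ha, RI.inv hD hx, pow_succ, pow_zero, one_mul, ← mul_assoc, RI.sq hD ha]
  have e9 : Odd (orderOf (a * x)) ∨ (a * x) ^ 4 = 1 := by
    by_cases o : Od a x
    · exact Or.inl o.2
    · exact Or.inr (RI.pow_four hD ha hx o)
  generalize a * x = r at *
  have c3 : Commute b (r ^ 3) := by
    change _ = _
    symm
    calc _ = r * r * (r * b) := by simp only [pow_succ, pow_zero, one_mul, mul_assoc]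
      _ = r * (r * w) * r := by rw [e6]; group
      _ = r * (w * b * r) * r := by rw [e7]
      _ = (r * w) * b * r * r := by group
      _ = w * b * (r * b) * r * r := by rw [e7]; group
      _ = w * b * w * r * r * r := by rw [e6]; group
      _ = _ := by rw [← c1.eq, mul_assoc b, RI.sq hD hw]; simp only [pow_succ, pow_zero, one_mul, mul_assoc]
  have hne : ¬ Commute r b := fun k => by
    rw [k.eq, mul_left_inj] at e6
    exact f1.1 (e6 ▸ hc')
  refine orderOf_eq_prime ?_ fun e => hne (e ▸ Commute.one_left b)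
  by_contra h3
  have hv : a * r ^ 3 ∈ D := e8 ▸ hD.conj_mem x hx _
  have e10 : a * (a * r ^ 3) = r ^ 3 := by rw [← mul_assoc, RI.sq hD ha, one_mul]
  have h4 : ¬ (r ^ 3) ^ 4 = 1 := fun e => by
    rcases e9 with o | o
    · exact h3 (eq_one_of_odd (k := 2) o (by rw [← pow_mul, mul_comm, pow_mul, pow_orderOf_eq_one, one_pow]) e)
    · rw [pow_succ', mul_eq_one_iff_eq_inv] at o
      have : Commute b r := by have := c3.inv_right; rwa [← o] at this
      exact hne this.symm
  refine RI.not_comm hD ha hv ?_ hb hc'.symm hm (hc'.mul_right c3)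
  by_contra hn
  exact h4 (e10 ▸ RI.pow_four hD ha hv hn)

end Cfsg.Agent.S5047
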