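import Cfsg.Statements.S5049
import Cfsg.Agent.Root.Inv1

set_option autoImplicit false
open Cfsg

namespace Cfsg.Agent.S5049
open Cfsg.Agent.Root

/-- Let G be a finite group generated by a set D of odd transpositions (root involutions with no product of order 4), Q = O₂(G), and for a ∈ D let Q_a be the commutator subgroup of Q with a. Then every member of D commuting with a centralizes Q_a; and for b ∈ D with ab of odd order greater than 1, the centralizer of ab in Q is the intersection of the centralizers of a and b in Q. -/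
theorem result {G : Type*} [Group G] [Finite G] {D : Set G} (hD : Cfsg.IsOddTranspositionSet D) {a : G} (ha : a ∈ D) :
    (∀ e ∈ Cfsg.commutingMembers D a, ∀ q ∈ ⁅Cfsg.pCore 2 G, Subgroup.zpowers a⁆, e * q = q * e) ∧
    (∀ b ∈ Cfsg.oddPartners D a,
      Cfsg.pCore 2 G ⊓ Subgroup.centralizer {a * b} = Cfsg.pCore 2 G ⊓ Subgroup.centralizer {a} ⊓ Subgroup.centralizer {b}) := by
  have h := hD.1
  have hp := Solv.isPGroup_pCore 2 G
  have key : ∀ q ∈ pCore 2 G, ∀ e ∈ D, Commute e a → Commute e (q * a * q⁻¹) := fun q hq e he c => by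
    rcases RI.pair h he (h.conj_mem a ha q) with k | k | k
    · exact k
    · exfalso
      have hm : (e * (q * a * q⁻¹)) ^ 2 ∈ pCore 2 G := by
        have : (e * (q * a * q⁻¹)) ^ 2 = e * q * e⁻¹ * (e * a * q⁻¹ * (e * a)⁻¹) * (e * a * e * q * (e * a * e)⁻¹) *
            ((e * a) * (e * a)) * q⁻¹ := by rw [sq]; group
        rw [this, c.eq, mul_assoc a e (a * e), ← mul_assoc e a e, c.eq, mul_assoc a e e, RI.sq h he, mul_one,
          RI.sq h ha, mul_one]
        have n := (inferInstance : (pCore 2 G).Normal).conj_mem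
        exact mul_mem (mul_mem (mul_mem (n _ hq _) (n _ (inv_mem hq) _)) (n _ hq _)) (inv_mem hq)
      obtain ⟨m, hm⟩ := hp ⟨_, hm⟩
      exact k.not_pow (RI.sq h (h.conj_mem a ha q)) (k := m + 1)
        (by rw [pow_succ', pow_mul]; exact congrArg Subtype.val hm)
    · exact absurd ((RI.fo_iff h he (h.conj_mem a ha q)).2 k) (hD.2 _ he _ (h.conj_mem a ha q))
  refine ⟨fun e he q hq => ?_, fun b hb => le_antisymm (fun q hq => ?_) fun q hq => ⟨hq.1.1, ?_⟩⟩
  · refine ((Subgroup.commutator_le (H₃ := Subgroup.centralizer {e})).2 ?_ hq e rfl)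
    rintro q hq _ ⟨n, rfl⟩ _ rfl
    have c : Commute _ a := he.2
    rw [commutatorElement_def, ← conj_zpow]
    exact ((key q hq _ he.1 c).zpow_right n).mul_right (c.zpow_right n).inv_right
  · have c1 : Commute q (a * b) := (hq.2 _ rfl).symm
    have c2 := key q hq.1 a ha (Commute.refl a)
    have c3 : Commute (a * (q * a * q⁻¹)) a := (Commute.refl a).mul_left c2.symm
    have c4 : Commute (a * (q * a * q⁻¹)) (a * b) := by
      have e : a * (a * b) * a⁻¹ = (a * b)⁻¹ := by
        rw [← mul_assoc, RI.sq h ha, one_mul, mul_inv_rev, RI.inv h hb.1]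
      have := (c1.inv_right.conj a)
      rw [← e, ← mul_assoc, ← mul_assoc, RI.sq h ha, one_mul, RI.inv h ha, mul_assoc _ a a, RI.sq h ha,
        mul_one] at this
      simpa [mul_assoc] using this.mul_left c1.inv_left
    have := RI.eq_one h ha hb.1 ⟨hb.2.1.symm, hb.2.2⟩ (z := a * (q * a * q⁻¹))
      (by rw [mul_assoc, ← mul_assoc _ a, ← c2.eq, mul_assoc a, RI.sq h (h.conj_mem a ha q), mul_one,
        RI.sq h ha]) c3 (by simpa [← mul_assoc, RI.sq h ha] using c3.mul_right c4)
      (by rw [← mul_assoc, RI.sq h ha, one_mul]; exact h.conj_mem a ha q)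
    have c5 : Commute a q := by
      rw [mul_eq_one_iff_inv_eq, RI.inv h ha, eq_mul_inv_iff_mul_eq] at this; exact this
    refine ⟨⟨hq.1, by rintro _ rfl; exact c5⟩, ?_⟩
    rintro _ rfl
    simpa [← mul_assoc, RI.sq h ha] using (c5.mul_left c1.symm).eq
  · rintro _ rfl
    exact (show Commute a q from hq.1.2 a rfl).mul_left (hq.2 b rfl)

end Cfsg.Agent.S5049
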