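import Cfsg.Statements.S5057
import Mathlib.GroupTheory.SpecificGroups.Alternating.Simple

set_option autoImplicit false
open Cfsg

namespace Cfsg.Agent.S5057

open Equiv Equiv.Perm

theorem ct (g : alternatingGroup (Fin 6)) : (g : Perm (Fin 6)).cycleType = 0 ∨ (g : Perm (Fin 6)).cycleType = {2, 2} ∨
    (g : Perm (Fin 6)).cycleType = {3} ∨ (g : Perm (Fin 6)).cycleType = {3, 3} ∨
    (g : Perm (Fin 6)).cycleType = {2, 4} ∨ (g : Perm (Fin 6)).cycleType = {5} := by
  have h1 : (g : Perm (Fin 6)).cycleType.sum ≤ 6 := by
    rw [sum_cycleType]; simpa using Finset.card_le_univ (g : Perm (Fin 6)).support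
  have h2 : ∀ n ∈ (g : Perm (Fin 6)).cycleType, 2 ≤ n := fun n hn => two_le_of_mem_cycleType hn
  have h3 : Even ((g : Perm (Fin 6)).cycleType.sum + (g : Perm (Fin 6)).cycleType.card) := by
    have := mem_alternatingGroup.1 g.2
    rw [sign_of_cycleType] at this
    by_contra h
    rw [Nat.not_even_iff_odd] at h
    rw [h.neg_one_pow] at this
    exact absurd this (by decide)
  generalize (g : Perm (Fin 6)).cycleType = m at *
  have h4 : m.card ≤ 3 := by
    have := Multiset.card_nsmul_le_sum h2
    simp only [smul_eq_mul] at this; omega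
  rcases (by omega : m.card = 0 ∨ m.card = 1 ∨ m.card = 2 ∨ m.card = 3) with h | h | h | h
  · exact .inl (Multiset.card_eq_zero.1 h)
  · obtain ⟨a, rfl⟩ := Multiset.card_eq_one.1 h
    have := h2 a (by simp)
    simp at h1 h3
    interval_cases a <;> first | decide | exact absurd h3 (by decide)
  · obtain ⟨a, b, rfl⟩ := Multiset.card_eq_two.1 h
    have := h2 a (by simp)
    have := h2 b (by simp)
    simp at h1 h3
    have : a ≤ 4 := by omega
    have : b ≤ 4 := by omega
    interval_cases a <;> interval_cases b <;> first | decide | omega | exact absurd h3 (by decide)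
  · obtain ⟨a, b, c, rfl⟩ := Multiset.card_eq_three.1 h
    have := h2 a (by simp)
    have := h2 b (by simp)
    have := h2 c (by simp)
    simp at h1 h3
    obtain rfl : a = 2 := by omega
    obtain rfl : b = 2 := by omega
    obtain rfl : c = 2 := by omega
    exact absurd h3 (by decide)

theorem ord (g : alternatingGroup (Fin 6)) : orderOf g = 1 ∨ orderOf g = 2 ∧ (g : Perm (Fin 6)).cycleType = {2, 2} ∨
    orderOf g = 3 ∨ orderOf g = 4 ∨ orderOf g = 5 := by
  rw [← Subgroup.orderOf_coe, ← lcm_cycleType]
  rcases ct g with h | h | h | h | h | h <;> rw [h] <;> decide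

theorem conj (a b : alternatingGroup (Fin 6)) (ha : orderOf a = 2) (hb : orderOf b = 2) : IsConj a b := by
  have h1 : (a : Perm (Fin 6)).cycleType = {2, 2} := by
    rcases ord a with h | h | h | h | h <;> first | omega | exact h.2
  have h2 : (b : Perm (Fin 6)).cycleType = {2, 2} := by
    rcases ord b with h | h | h | h | h <;> first | omega | exact h.2
  refine alternatingGroup.isConj_of (isConj_iff_cycleType_eq.2 (h1.trans h2.symm)) ?_
  rw [← sum_cycleType, h1]; decide

/-- The involutions of the alternating group of degree 6 form a class of root involutions (a single conjugacy class of involutions generating the group, any two of which commute, have product of odd order, or have product of order 4 whose square is again an involution of the class), and the product of any two of them has order at most 5. -/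
theorem result :
    Cfsg.IsRootInvolutionClass {g : ↥(alternatingGroup (Fin 6)) | orderOf g = 2} ∧
    ∀ d ∈ {g : ↥(alternatingGroup (Fin 6)) | orderOf g = 2}, ∀ e ∈ {g : ↥(alternatingGroup (Fin 6)) | orderOf g = 2},
      orderOf (d * e) ≤ 5 := by
  have hc : ∀ d : alternatingGroup (Fin 6), orderOf d = 2 → ∀ g, orderOf (g * d * g⁻¹) = 2 := fun d hd g => by
    rw [← hd]; exact (MulAut.conj g).orderOf_eq d
  have hne : ∃ t : alternatingGroup (Fin 6), orderOf t = 2 := by
    refine ⟨⟨swap 0 1 * swap 2 3, by simp [mem_alternatingGroup]⟩, orderOf_eq_prime ?_ ?_⟩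
    · exact Subtype.ext (by decide)
    · intro h; exact absurd (congrArg Subtype.val h) (by decide)
  obtain ⟨t, ht⟩ := hne
  refine ⟨⟨⟨fun d hd => hd, ?_, fun d hd g => hc d hd g, fun a ha b hb => ?_⟩, ⟨t, ht⟩, fun a ha b hb => ?_⟩,
    fun d _ e _ => ?_⟩
  · haveI : IsSimpleGroup (alternatingGroup (Fin 6)) := alternatingGroup.isSimpleGroup (by simp)
    have hn : (Subgroup.closure {g : ↥(alternatingGroup (Fin 6)) | orderOf g = 2}).Normal := ⟨fun x hx g => by
      induction hx using Subgroup.closure_induction with
      | mem x hx => exact Subgroup.subset_closure (hc x hx g)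
      | one => simpa using Subgroup.one_mem _
      | mul x y _ _ hx hy => 
        rw [show g * (x * y) * g⁻¹ = (g * x * g⁻¹) * (g * y * g⁻¹) by group]; exact Subgroup.mul_mem _ hx hy
      | inv x _ hx => rw [show g * x⁻¹ * g⁻¹ = (g * x * g⁻¹)⁻¹ by group]; exact Subgroup.inv_mem _ hx⟩
    refine (hn.eq_bot_or_eq_top).resolve_left fun h => ?_
    have : t ∈ Subgroup.closure {g : ↥(alternatingGroup (Fin 6)) | orderOf g = 2} := Subgroup.subset_closure ht
    rw [h, Subgroup.mem_bot] at this
    rw [this, orderOf_one] at ht; omega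
  · have a2 : a * a = 1 := by rw [← pow_two, ← show orderOf a = 2 from ha, pow_orderOf_eq_one]
    have b2 : b * b = 1 := by rw [← pow_two, ← show orderOf b = 2 from hb, pow_orderOf_eq_one]
    rcases ord (a * b) with h | h | h | h | h
    · exact .inr (.inl (by rw [h]; decide))
    · left
      have : a * b * (a * b) = 1 := by rw [← pow_two, ← h.1, pow_orderOf_eq_one]
      calc a * b = (a * a) * (a * b) * (b * b) := by rw [a2, b2]; group
        _ = a * (a * a) * b * (b * b) := by group
        _ = (a * a) * (b * a) * (b * b) * (b * a)⁻¹ * (a * b) := by rw [a2, b2]; group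
        _ = b * a := by
          rw [a2, b2]
          have e : a * b = (a * b)⁻¹ := eq_inv_of_mul_eq_one_left this
          have ea : a⁻¹ = a := inv_eq_of_mul_eq_one_left a2
          have eb : b⁻¹ = b := inv_eq_of_mul_eq_one_left b2
          rw [e, mul_inv_rev a b, ea, eb]; group
    · exact .inr (.inl (by rw [h]; decide))
    · refine .inr (.inr ⟨h, ?_⟩)
      show orderOf ((a * b) ^ 2) = 2
      rw [orderOf_pow_of_dvd (by decide) (by rw [h]; decide), h]
    · exact .inr (.inl (by rw [h]; decide))
  · obtain ⟨g, hg⟩ := isConj_iff.1 (conj a b ha hb)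
    exact ⟨g, hg.symm⟩
  · rcases ord (d * e) with h | h | h | h | h <;> omega

end Cfsg.Agent.S5057
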