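import Cfsg.Statements.S5058
import Cfsg.Agent.Low.RF2

set_option autoImplicit false
open Matrix
open Cfsg

namespace Cfsg.Agent.S5058

/-- Let F be a finite field of characteristic 2 and n a natural number. Then the transvections of SL_{n+3}(F) (so in every dimension at least 3) (the conjugates of the elementary matrices 1 + c E₁₂, c ≠ 0) form a class of root involutions of SL_{n+3}(F); when F has two elements they form a class of {3,4}⁺-transpositions (every product of odd order has order 1 or 3). -/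
theorem result (F : Type*) [Field F] [Fintype F] [CharP F 2] (n : ℕ) :
    Cfsg.IsRootInvolutionClass {t : Matrix.SpecialLinearGroup (Fin (n + 3)) F | ∃ c : F, c ≠ 0 ∧
        ∃ g : Matrix.SpecialLinearGroup (Fin (n + 3)) F, ((g⁻¹ * t * g : Matrix.SpecialLinearGroup (Fin (n + 3)) F) :
          Matrix (Fin (n + 3)) (Fin (n + 3)) F) = Matrix.transvection 0 1 c} ∧
    (Fintype.card F = 2 → Cfsg.IsThreeFourPlusTranspositionSet {t : Matrix.SpecialLinearGroup (Fin (n + 3)) F | ∃ c : F, c ≠ 0 ∧
        ∃ g : Matrix.SpecialLinearGroup (Fin (n + 3)) F, ((g⁻¹ * t * g : Matrix.SpecialLinearGroup (Fin (n + 3)) F) :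
          Matrix (Fin (n + 3)) (Fin (n + 3)) F) = Matrix.transvection 0 1 c}) := by
  have h3 : 3 ≤ Fintype.card (Fin (n + 3)) := by simp
  have h01 : (0 : Fin (n + 3)) ≠ 1 := by simp
  have h := Root.rfam_sl (k := F) (ι := Fin (n + 3))
  have tr : ∀ N ∈ Root.slFam F (Fin (n + 3)), IsTransvection (1 + N) := by
    rintro N hN
    refine ⟨?_, by simpa using h.sq N hN⟩
    obtain ⟨x, φ, h1, h2, -, rfl⟩ := hN
    rw [add_sub_cancel_left]
    refine le_antisymm (rank_vecMulVec_le _ _) (Nat.one_le_iff_ne_zero.2 fun e => ?_)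
    exact vecMulVec_ne_zero h1 h2 (by
      rw [Matrix.rank, Submodule.finrank_eq_zero, LinearMap.range_eq_bot] at e
      exact toLin'.injective (by rw [map_zero]; exact e))
  have e : {t : Matrix.SpecialLinearGroup (Fin (n + 3)) F | ∃ c : F, c ≠ 0 ∧
        ∃ g : Matrix.SpecialLinearGroup (Fin (n + 3)) F, ((g⁻¹ * t * g : Matrix.SpecialLinearGroup (Fin (n + 3)) F) :
          Matrix (Fin (n + 3)) (Fin (n + 3)) F) = Matrix.transvection 0 1 c} =
      {t | ∃ N ∈ Root.slFam F (Fin (n + 3)), SpecialLinearGroup.coeMonoidHom t = 1 + N} := by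
    ext t
    constructor
    · rintro ⟨c, hc, g, hg⟩
      refine ⟨_, h.conj _ (Root.single_mem_slFam h01 hc) g, ?_⟩
      have hg' : SpecialLinearGroup.coeMonoidHom (g⁻¹ * t * g) = 1 + single 0 1 c := hg
      rw [show t = g * (g⁻¹ * t * g) * g⁻¹ by group, map_mul, map_mul, hg', mul_add, add_mul, mul_one,
        ← map_mul, mul_inv_cancel, map_one]
    · rintro ⟨N, hN, ht⟩
      obtain ⟨g, hg⟩ := isConj_iff.1 (Classical.isConj_SL_transvection h3 (s := t)
        (t := SpecialLinearGroup.transvection h01 1) ((show t.1 = _ from ht) ▸ tr N hN)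
        (tr _ (Root.single_mem_slFam h01 one_ne_zero)))
      exact ⟨1, one_ne_zero, g⁻¹, by rw [inv_inv, hg]; rfl⟩
  rw [e]
  have h2 : (2 : F) = 0 := CharP.ofNat_eq_zero F 2
  have hs : IsRootInvolutionSet {t : Matrix.SpecialLinearGroup (Fin (n + 3)) F |
      ∃ N ∈ Root.slFam F (Fin (n + 3)), SpecialLinearGroup.coeMonoidHom t = 1 + N} := by
    refine ⟨?_, ?_, ?_, ?_⟩
    · rintro d ⟨N, hN, hd⟩
      have hd' : SpecialLinearGroup.coeMonoidHom d = 1 + (1 : F) • N := by simpa using hd
      refine orderOf_eq_prime (h.inj ?_) ((h.ne_one hN hd').2 one_ne_zero)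
      rw [pow_two, map_mul, hd', Root.one_add_mul_sq (h.sq N hN), one_add_one_eq_two, h2]; simp
    · refine Classical.eq_top_of_transvection_mem _ fun i j hij c => ?_
      by_cases hc : c = 0
      · subst hc
        exact (show SpecialLinearGroup.transvection hij (0 : F) = 1 from
          Subtype.ext (by simp [SpecialLinearGroup.transvection_coe])) ▸ one_mem _
      · exact Subgroup.subset_closure ⟨_, Root.single_mem_slFam hij hc, rfl⟩
    · rintro d ⟨N, hN, hd⟩ g
      refine ⟨_, h.conj N hN g, ?_⟩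
      rw [map_mul, map_mul, hd, mul_add, add_mul, mul_one, ← map_mul, mul_inv_cancel, map_one]
    · rintro a ⟨N, hN, ha⟩ b ⟨M, hM, hb⟩
      exact (h.inv_pair hN hM ha hb).imp_right (Or.imp_left And.left)
  refine ⟨⟨hs, ⟨SpecialLinearGroup.transvection h01 1, _, Root.single_mem_slFam h01 one_ne_zero, rfl⟩,
    ?_⟩, fun hc => ⟨hs, ?_⟩⟩
  · rintro a ⟨N, hN, ha⟩ b ⟨M, hM, hb⟩
    obtain ⟨g, hg⟩ := isConj_iff.1 (Classical.isConj_SL_transvection h3 ((show a.1 = _ from ha) ▸ tr N hN)
      ((show b.1 = _ from hb) ▸ tr M hM))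
    exact ⟨g, hg.symm⟩
  · rintro a ha b hb ho
    have a2 := hs.orderOf_eq a ha
    have b2 := hs.orderOf_eq b hb
    obtain ⟨N, hN, ha⟩ := ha
    obtain ⟨M, hM, hb⟩ := hb
    rcases h.inv_pair hN hM ha hb with e | e | e
    · left
      have : orderOf (a * b) ∣ 2 := orderOf_dvd_of_pow_eq_one (by
        rw [(show Commute a b from e).mul_pow, ← a2, pow_orderOf_eq_one, a2, ← b2, pow_orderOf_eq_one,
          one_mul])
      rcases (Nat.dvd_prime Nat.prime_two).1 this with e | e
      · exact e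
      · rw [e] at ho; exact absurd ho (by decide)
    · exact .inr (e.2 (by rw [Nat.card_eq_fintype_card, hc]))
    · rw [e.1] at ho; exact absurd ho (by decide)

end Cfsg.Agent.S5058
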