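import Cfsg.Statements.S5060
import Cfsg.Agent.Root.Dickson

set_option autoImplicit false
open Cfsg

namespace Cfsg.Agent.S5060
open Cfsg.Agent.Root

/-- Let k ⊆ K be fields with the characteristic of k not 2 and k not of order 3, and let α ∈ K be a non-zero element algebraic over k. Then the subgroup of SL₂(K) generated by the upper unitriangular matrices with entry c and the lower unitriangular matrices with entry cα, c ranging over k, is exactly the group of matrices of SL₂(K) with all entries in k(α). -/
theorem result {k K : Type*} [Field k] [Field K] [Algebra k K] (hk2 : ringChar k ≠ 2) (hk3 : Nat.card k ≠ 3)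
    (α : K) (hα : IsAlgebraic k α) (hα0 : α ≠ 0) :
    (Subgroup.closure ({g : Matrix.SpecialLinearGroup (Fin 2) K | ∃ c : k, (g : Matrix (Fin 2) (Fin 2) K) = !![1, algebraMap k K c; 0, 1]} ∪
        {g : Matrix.SpecialLinearGroup (Fin 2) K | ∃ c : k, (g : Matrix (Fin 2) (Fin 2) K) = !![1, 0; algebraMap k K c * α, 1]}) :
      Set (Matrix.SpecialLinearGroup (Fin 2) K)) =
    {g : Matrix.SpecialLinearGroup (Fin 2) K | ∀ i j : Fin 2, (g : Matrix (Fin 2) (Fin 2) K) i j ∈ IntermediateField.adjoin k ({α} : Set K)} := by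
  let F := IntermediateField.adjoin k ({α} : Set K)
  let f : F →+* K := F.val.toRingHom
  let a : F := IntermediateField.AdjoinSimple.gen k α
  have hi : IsIntegral k a := by
    rw [← isIntegral_algHom_iff F.val Subtype.val_injective]; exact hα.isIntegral
  have hgen : Algebra.adjoin k {a} = ⊤ := (IntermediateField.adjoin.powerBasis hα.isIntegral).adjoin_gen_eq_top
  have hm : ∀ c : k, algebraMap k K c ∈ F := F.algebraMap_mem
  have hr : ∀ g : Matrix.SpecialLinearGroup (Fin 2) K,
      g ∈ (Matrix.SpecialLinearGroup.map f).range ↔ ∀ i j, g.1 i j ∈ F := by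
    intro g
    constructor
    · rintro ⟨x, rfl⟩ i j
      exact (x.1 i j).2
    · intro h
      refine ⟨⟨Matrix.of fun i j => ⟨g.1 i j, h i j⟩, ?_⟩, rfl⟩
      apply Subtype.val_injective
      have := g.2
      rw [Matrix.det_fin_two] at this ⊢
      exact this
  ext g
  refine Iff.trans ?_ (hr g)
  refine SetLike.ext_iff.1 (le_antisymm ((Subgroup.closure_le _).2 ?_) ?_) g
  · rintro g (⟨c, hc⟩ | ⟨c, hc⟩)
    · refine (hr g).2 fun i j => ?_
      rw [hc]; fin_cases i <;> fin_cases j <;> simp [F.one_mem, F.zero_mem, hm]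
    · refine (hr g).2 fun i j => ?_
      rw [hc]; fin_cases i <;> fin_cases j <;>
        simp [F.one_mem, F.zero_mem, F.mul_mem (hm c) (IntermediateField.mem_adjoin_simple_self k α)]
  · rw [MonoidHom.range_eq_map, Subgroup.map_le_iff_le_comap, top_le_iff]
    refine dickson_core (two_ne_zero_of_ringChar hk2) hk3 (α := a)
      (fun e => hα0 (congrArg Subtype.val e)) hi hgen (fun c => ?_) fun c => ?_
    · rw [Subgroup.mem_comap, Classical.slMap_uSL]
      exact Subgroup.subset_closure (Or.inl ⟨c, rfl⟩)
    · rw [Subgroup.mem_comap, Classical.slMap_lSL]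
      exact Subgroup.subset_closure (Or.inr ⟨c, rfl⟩)

end Cfsg.Agent.S5060
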