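import Cfsg.Statements.S5063
import Cfsg.Agent.Root.Quad6

set_option autoImplicit false
universe u
open Cfsg

namespace Cfsg.Agent.S5063
open Cfsg.Agent.Root


section
variable {k : Type*} [Field k] {M : Type*} [AddCommGroup M] [Module k M]
variable {G H L : Subgroup (GLM k M)} {α β x y : Module.End k M}

theorem comm_cent {G : Type*} [Group G] (L : Subgroup G) : Comm L (Subgroup.centralizer (L : Set G)) :=
  (comm_iff_le_centralizer.2 le_rfl).symm

theorem tensor (hG : IsIrreducibleFor G) (hL : G ≤ L ⊔ Subgroup.centralizer (L : Set (GLM k M)))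
    (hx : Qd L x) (hy : ∀ g ∈ L, y * g.val = g.val * y) (h : x * y = 0) : x = 0 ∨ y = 0 := by
  have hx' : ∀ c ∈ Subgroup.centralizer (L : Set (GLM k M)), x * c.val = c.val * x := fun c hc => by
    have := congrArg Units.val (hc _ hx.unitOf_mem)
    simp only [Units.val_mul, unitOf_val] at this
    linear_combination (norm := noncomm_ring) this
  refine (hG.2 (⨅ g ∈ L, LinearMap.ker (x * g.val)) (fun g hg w hw => ?_)).symm.imp
    (fun e => LinearMap.ext fun v => ?_) fun e => LinearMap.ext fun v => (Submodule.mem_bot k).1 (e ▸ ?_)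
  rotate_left
  · have : v ∈ ⨅ g ∈ L, LinearMap.ker (x * g.val) := e ▸ Submodule.mem_top
    simp only [Submodule.mem_iInf, LinearMap.mem_ker] at this
    simpa using this 1 L.one_mem
  · simp only [Submodule.mem_iInf, LinearMap.mem_ker]
    intro g hg
    rw [← Module.End.mul_apply, mul_assoc, ← hy g hg, ← mul_assoc, h, zero_mul]; rfl
  · obtain ⟨l, hl, c, hc, rfl⟩ := (comm_cent L).mem_sup.1 (hL hg)
    simp only [Submodule.mem_iInf, LinearMap.mem_ker] at hw ⊢
    intro g hg
    have e : x * g.val * (l * c).val = c.val * (x * (g * l).val) := by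
      rw [mul_assoc, ← Units.val_mul, ← mul_assoc, comm_cent L _ (L.mul_mem hg hl) c hc, Units.val_mul,
        ← mul_assoc, hx' c hc, mul_assoc]
    rw [← Module.End.mul_apply, e, Module.End.mul_apply, hw _ (L.mul_mem hg hl), map_zero]

theorem qd_closure (h : Qd H β) : Qd (Subgroup.closure (quadraticElements H)) β := by
  refine ⟨h.sq, fun c => ⟨unitOf _ (h.smul c).sq, ?_, rfl⟩⟩
  by_cases h0 : c • β = 0
  · rw [unitOf_eq_one.2 h0]; exact one_mem _
  · exact Subgroup.subset_closure (mem_quadraticElements.2 (by rw [unitOf_val, add_sub_cancel_left]; exact ⟨h.smul c, h0⟩))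

theorem normal_of (hL : G ≤ L ⊔ Subgroup.centralizer (L : Set (GLM k M))) {g : GLM k M} (hg : g ∈ G) :
    conjBy L g = L := by
  obtain ⟨l, hl, c, hc, rfl⟩ := (comm_cent L).mem_sup.1 (hL hg)
  rw [conjBy_mul_of_eq _ ((comm_cent L).conjBy_eq' hc), conjBy_of_mem hl]

theorem main [FiniteDimensional k M] (h2 : (2 : k) ≠ 0) (h3 : Nat.card k ≠ 3) (hG : IsIrreducibleFor G)
    (hL : L ≤ G) (hC : G ≤ L ⊔ Subgroup.centralizer (L : Set (GLM k M)))
    (hg : Subgroup.closure (quadraticElements L) = L) :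
    ∃ T : Set (Subgroup (GLM k M)), T.Finite ∧ (∀ X ∈ T, X ≤ L ∧
      G ≤ X ⊔ Subgroup.centralizer (X : Set (GLM k M)) ∧ IsQuasisimple X ∧
      X ≤ Subgroup.closure (quadraticElements G ∩ X)) ∧ (∀ X ∈ T, ∀ Y ∈ T, X ≠ Y → Comm X Y) ∧
      ∀ β, Qd L β → β ≠ 0 → ∃ X ∈ T, Qd X β := by
  induction hn : aug L using WellFoundedLT.induction generalizing L with | ind N ih =>
  by_cases h0 : ∃ β, Qd L β ∧ β ≠ 0
  swap
  · exact ⟨∅, Set.finite_empty, by simp, by simp, fun β h h' => (h0 ⟨β, h, h'⟩).elim⟩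
  obtain ⟨α, ⟨h4, h5⟩, h6⟩ := exists_minimalFor_of_wellFoundedLT _ rk h0
  have hα : Min L α := ⟨h4, h5, fun γ h h' => not_lt.1 fun e => (h6 ⟨h, h'⟩ e.le).not_gt e⟩
  have hN : NU L := (nu_of_irreducible hG).of_normal hL fun g hg => normal_of hC hg
  have h := rs_sigma h2 h3 hN
  have hn' := ni_sigma h2 h3 hN
  have hA : EE L α ∈ quadraticRootSubgroups L := mem_quadraticRootSubgroups.2 ⟨α, hα, rfl⟩
  have hq := component_quasisimple h2 h3 hN hA
  have hS : componentOf (FAdj (quadraticRootSubgroups L)) (quadraticRootSubgroups L) (EE L α) ⊆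
      quadraticRootSubgroups L := fun _ hB => hB.1
  have ha : ∀ B ∈ quadraticRootSubgroups L,
      B ∈ componentOf (FAdj (quadraticRootSubgroups L)) (quadraticRootSubgroups L) (EE L α) ∨
      Comm B (⨆ C ∈ componentOf (FAdj (quadraticRootSubgroups L)) (quadraticRootSubgroups L) (EE L α), C) := by
    intro B hB
    by_cases hc : FConn (quadraticRootSubgroups L) B (EE L α)
    · exact Or.inl ⟨hB, hc.symm⟩
    · exact Or.inr ((h.comm_component hn' hc).mono (le_iSup_of_mem (self_mem_component hB)) le_rfl)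
  obtain ⟨δ, hδ, hαδ⟩ := hN.exists_opp h2 h3 hα
  have hD : EE L δ ∈ componentOf (FAdj (quadraticRootSubgroups L)) (quadraticRootSubgroups L) (EE L α) :=
    ⟨mem_quadraticRootSubgroups.2 ⟨δ, hδ, rfl⟩, FConn.of_pair hA (mem_quadraticRootSubgroups.2 ⟨δ, hδ, rfl⟩)
      (hα.special h2 h3 hδ hαδ).1⟩
  generalize componentOf (FAdj (quadraticRootSubgroups L)) (quadraticRootSubgroups L) (EE L α) = S at *
  have h1L : (⨆ C ∈ S, C) ≤ L := iSup₂_le fun C hC => le_of_mem_sigma (hS hC)
  have h10 : (⨆ C ∈ S, C) ≤ ⨆ C ∈ quadraticRootSubgroups L, C := iSup₂_le fun C hC => le_iSup_of_mem (hS hC)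
  have hC1 : G ≤ (⨆ C ∈ S, C) ⊔ Subgroup.centralizer ((⨆ C ∈ S, C : Subgroup (GLM k M)) : Set (GLM k M)) := by
    refine hC.trans (sup_le ((hN.sigma_sup_centralizer h2 h3 hg).ge.trans (sup_le (iSup₂_le fun B hB => ?_)
      (le_sup_of_le_right (inf_le_right.trans (Subgroup.centralizer_le h10)))))
      (le_sup_of_le_right (Subgroup.centralizer_le h1L)))
    rcases ha B hB with h | h
    · exact le_sup_of_le_left (le_iSup_of_mem h)
    · exact le_sup_of_le_right (comm_iff_le_centralizer.1 h)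
  have hcl : (⨆ C ∈ S, C) ≤ Subgroup.closure (quadraticElements G ∩ (⨆ C ∈ S, C : Subgroup (GLM k M))) := by
    refine iSup₂_le fun C hC g hg => ?_
    by_cases h1 : g = 1
    · exact h1 ▸ one_mem _
    obtain ⟨γ, -, rfl⟩ := mem_quadraticRootSubgroups.1 (hS hC)
    exact Subgroup.subset_closure ⟨mem_quadraticElements.2 ⟨hg.1.mono hL,
      fun e => h1 (Units.ext (sub_eq_zero.1 e))⟩, RS.mem_iSup hC hg⟩
  have hδ1 : unitOf δ hδ.qd.sq ∈ ⨆ C ∈ S, C := RS.mem_iSup hD (unitOf_mem_EE hδ.qd.mem_cl _)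
  have hb : ∀ {β}, Qd L β → Qd (⨆ C ∈ S, C) β ∨ ∀ g ∈ (⨆ C ∈ S, C), β * g.val = g.val * β := by
    intro β hβ
    have k0 : ∀ {β} (hβ : β * β = 0), unitOf β hβ ∈ Subgroup.centralizer
        ((⨆ C ∈ S, C : Subgroup (GLM k M)) : Set (GLM k M)) → ∀ g ∈ (⨆ C ∈ S, C), β * g.val = g.val * β := by
      intro β hβ h g hg
      have := congrArg Units.val (h g hg)
      simp only [Units.val_mul, unitOf_val] at this
      linear_combination (norm := noncomm_ring) -this
    refine hN.qd_induction h2 h3 (P := fun β => Qd (⨆ C ∈ S, C) β ∨ ∀ g ∈ (⨆ C ∈ S, C), β * g.val = g.val * β)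
      (fun β hβ h => Or.inr (k0 hβ.sq ((comm_sigma_iff hS).2 fun γ hγ _ => ?_)))
      (fun β₁ β₀ h4 h5 h6 h7 ih => ?_) hβ
    · rw [unitOf_val, mul_add, add_mul, h γ hγ, mul_one, one_mul]
    rcases ha _ (mem_quadraticRootSubgroups.2 ⟨_, h4, rfl⟩) with h | h
    · have q : Qd (⨆ C ∈ S, C) β₁ := ⟨h4.qd.sq, fun c => ⟨_, RS.mem_iSup h (unitOf_mem_EE
        (Submodule.smul_mem _ c h4.qd.mem_cl) (h4.qd.smul c).sq), rfl⟩⟩
      rcases ih with ih | ih
      · exact Or.inl (q.add ih h6 h7)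
      · rw [(tensor hG hC1 q ih h6).resolve_left h4.ne, add_zero]; exact Or.inl q
    · have q := k0 h4.qd.sq (comm_iff_le_centralizer.1 h (unitOf_mem_EE h4.qd.mem_cl _))
      rcases ih with ih | ih
      · rw [(tensor hG hC1 ih q h7).resolve_right h4.ne, add_zero]; exact Or.inr q
      · exact Or.inr fun g hg => by rw [add_mul, mul_add, q g hg, ih g hg]
  generalize (⨆ C ∈ S, C) = L₁ at *
  have hb' : ∀ {β}, Qd L β → Qd L₁ β ∨ Qd (Subgroup.closure (quadraticElements
      (L ⊓ Subgroup.centralizer (L₁ : Set (GLM k M))))) β := fun hβ => (hb hβ).imp_right fun h =>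
    qd_closure ⟨hβ.sq, fun c => ⟨_, ⟨(hβ.smul c).unitOf_mem, fun g hg => Units.ext (by
      simp only [Units.val_mul, unitOf_val, mul_add, add_mul, mul_smul_comm, smul_mul_assoc, h g hg,
        mul_one, one_mul])⟩, rfl⟩⟩
  have hle : Subgroup.closure (quadraticElements (L ⊓ Subgroup.centralizer (L₁ : Set (GLM k M)))) ≤
      L ⊓ Subgroup.centralizer (L₁ : Set (GLM k M)) := (Subgroup.closure_le _).2 fun g hg => hg.1
  have hg' : Subgroup.closure (quadraticElements (L ⊓ Subgroup.centralizer (L₁ : Set (GLM k M)))) ≤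
      Subgroup.closure (quadraticElements (Subgroup.closure (quadraticElements
        (L ⊓ Subgroup.centralizer (L₁ : Set (GLM k M)))))) := Subgroup.closure_mono fun g hg =>
    mem_quadraticElements.2 ((mem_quadraticElements.1 hg).imp_left qd_closure)
  generalize Subgroup.closure (quadraticElements (L ⊓ Subgroup.centralizer (L₁ : Set (GLM k M)))) = L' at *
  have hc' : Comm L' L₁ := comm_iff_le_centralizer.2 (hle.trans inf_le_right)
  have hL' : L' ≤ L := hle.trans inf_le_left
  refine (ih (aug L') (hn ▸ lt_of_le_of_ne (aug_mono hL') fun e => hαδ ?_)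
    (hL'.trans hL) (hC.trans (sup_le (hg.ge.trans ((Subgroup.closure_le _).2 fun g hg => ?_))
      (le_sup_of_le_right (Subgroup.centralizer_le hL'))))
    (le_antisymm ((Subgroup.closure_le _).2 fun g hg => hg.1) hg') rfl).elim fun T ⟨t1, t2, t3, t4⟩ => ?_
  rotate_right
  · refine ⟨insert L₁ T, t1.insert _, ?_, ?_, fun β hβ h0 => ?_⟩
    · rintro X (rfl | hX)
      · exact ⟨h1L, hC1, hq, hcl⟩
      · exact ⟨(t2 X hX).1.trans hL', (t2 X hX).2⟩
    · rintro X (rfl | hX) Y (rfl | hY) hne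
      · exact absurd rfl hne
      · exact (hc'.mono (t2 Y hY).1 le_rfl).symm
      · exact hc'.mono (t2 X hX).1 le_rfl
      · exact t3 X hX Y hY hne
    · rcases hb' hβ with h | h
      · exact ⟨L₁, Or.inl rfl, h⟩
      · obtain ⟨X, hX, h⟩ := t4 β h h0
        exact ⟨X, Or.inr hX, h⟩
  · have h7 : α ∈ aug L' := e ▸ aug_mono EE_le (aug_EE.ge hα.qd.mem_cl)
    have h8 := (aug_le_iff (N := LinearMap.ker (LinearMap.mulRight k δ - LinearMap.mulLeft k δ))).2
      (fun g hg => by
        have := congrArg Units.val (hc' g hg _ hδ1)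
        simp only [Units.val_mul, unitOf_val] at this
        change (g.val - 1) * δ - δ * (g.val - 1) = 0
        linear_combination (norm := noncomm_ring) this) h7
    rw [show α * δ = δ * α from sub_eq_zero.1 h8, mul_assoc, hα.qd.sq, mul_zero]
  · rcases hb' (mem_quadraticElements.1 hg).1 with h | h
    · exact Subgroup.mem_sup_right (comm_iff_le_centralizer.1 hc'.symm (h.mem_of_eq (by simp)))
    · exact Subgroup.mem_sup_left (h.mem_of_eq (by simp))

end

/-- Let k be a field of characteristic not 2 with k not of order 3, M a finite-dimensional k-vector space and G ≤ GL(M) such that (G, M) is a quadratic pair (M irreducible for G, and G generated by its quadratically acting elements σ whose scalar family 1 + c(σ − 1), c ∈ k, lies in G). Write 𝒬_d for the quadratic elements of G of minimal commutator rank, E(σ) for the subgroup generated by the members of 𝒬_d with the same fixed space and commutator space as σ, and Σ for the set of these subgroups. Then G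 is a central product of finitely many quasisimple normal subgroups G₁, …, G_s (pairwise commuting and together generating G), each generated by the quadratic elements of G it contains, and every quadratic element of G lies in one of them. -/
theorem result {k : Type u} [Field k] (hk2 : ringChar k ≠ 2) (hk3 : Nat.card k ≠ 3)
    {M : Type u} [AddCommGroup M] [Module k M] [FiniteDimensional k M]
    {G : Subgroup (LinearMap.GeneralLinearGroup k M)} (hG : Cfsg.IsQuadraticPair G) :
    ∃ (s : ℕ) (Gi : Fin s → Subgroup (LinearMap.GeneralLinearGroup k M)),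
      (∀ i, Gi i ≤ G ∧ ∀ g ∈ G, Cfsg.conjBy (Gi i) g = Gi i) ∧ (∀ i j, i ≠ j → ⁅Gi i, Gi j⁆ = ⊥) ∧ (⨆ i, Gi i) = G ∧
      (∀ i, Cfsg.IsQuasisimple ↥(Gi i) ∧ Subgroup.closure (Cfsg.quadraticElements G ∩ (Gi i : Set (LinearMap.GeneralLinearGroup k M))) = Gi i) ∧
      Cfsg.quadraticElements G ⊆ ⋃ i, (Gi i : Set (LinearMap.GeneralLinearGroup k M)) := by
  obtain ⟨T, t1, t2, t3, t4⟩ := main (two_ne_zero_of_ringChar hk2) hk3 hG.1 le_rfl le_sup_left hG.2
  obtain ⟨s, f, hf, rfl⟩ := t1.fin_param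
  have h5 : quadraticElements G ⊆ ⋃ i, (f i : Set (LinearMap.GeneralLinearGroup k M)) := fun g hg => by
    obtain ⟨_, ⟨i, rfl⟩, h⟩ := t4 _ (mem_quadraticElements.1 hg).1 (mem_quadraticElements.1 hg).2
    exact Set.mem_iUnion.2 ⟨i, h.mem_of_eq (by simp)⟩
  refine ⟨s, f, fun i => ⟨(t2 _ ⟨i, rfl⟩).1, fun g hg => normal_of (t2 _ ⟨i, rfl⟩).2.1 hg⟩,
    fun i j hij => comm_iff.2 (t3 _ ⟨i, rfl⟩ _ ⟨j, rfl⟩ fun e => hij (hf e)),
    le_antisymm (iSup_le fun i => (t2 _ ⟨i, rfl⟩).1) (hG.2.ge.trans ((Subgroup.closure_le _).2 fun g hg => ?_)),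
    fun i => ⟨(t2 _ ⟨i, rfl⟩).2.2.1, le_antisymm ((Subgroup.closure_le _).2 fun g hg => hg.2)
      (t2 _ ⟨i, rfl⟩).2.2.2⟩, h5⟩
  obtain ⟨i, hi⟩ := Set.mem_iUnion.1 (h5 hg)
  exact Subgroup.mem_iSup_of_mem i hi

end Cfsg.Agent.S5063
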