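import Cfsg.Statements.S5064
import Cfsg.Agent.Root.Quad6

set_option autoImplicit false
universe u
open Cfsg

namespace Cfsg.Agent.S5064
open Cfsg.Agent.Root

open Polynomial Cfsg.Agent.Classical

/-- Let k be a field of characteristic not 2 with k not of order 3, M a finite-dimensional k-vector space and G ≤ GL(M) such that (G, M) is a quadratic pair (M irreducible for G, and G generated by its quadratically acting elements σ whose scalar family 1 + c(σ − 1), c ∈ k, lies in G). Write 𝒬_d for the quadratic elements of G of minimal commutator rank, E(σ) for the subgroup generated by the members of 𝒬_d with the same fixed space and commutator space as σ, and Σ for the set of these subgroups. If σ, τ ∈ 𝒬_d and the subgroup H generated by their two scalar families does not act unipotently on M, then H is isomorphic to SL₂ over a simple algebraic extension k(λ) of k. -/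
theorem result {k : Type u} [Field k] (hk2 : ringChar k ≠ 2) (hk3 : Nat.card k ≠ 3)
    {M : Type u} [AddCommGroup M] [Module k M] [FiniteDimensional k M]
    {G : Subgroup (LinearMap.GeneralLinearGroup k M)} (hG : Cfsg.IsQuadraticPair G)
    {σ τ : LinearMap.GeneralLinearGroup k M} (hσ : σ ∈ Cfsg.minimalQuadraticElements G) (hτ : τ ∈ Cfsg.minimalQuadraticElements G)
    (hH : ¬ Cfsg.IsUnipotentOn (Subgroup.closure (Cfsg.scalarFamily σ ∪ Cfsg.scalarFamily τ))) :
    ∃ (K : Type u) (_ : Field K) (_ : Algebra k K) (lam : K), IsAlgebraic k lam ∧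
      IntermediateField.adjoin k ({lam} : Set K) = ⊤ ∧
      Nonempty (↥(Subgroup.closure (Cfsg.scalarFamily σ ∪ Cfsg.scalarFamily τ)) ≃* Matrix.SpecialLinearGroup (Fin 2) K) := by
  have h2 := two_ne_zero_of_ringChar hk2
  have hq : ∀ {σ : GLM k M} {H : Subgroup (GLM k M)}, (σ.val - 1) * (σ.val - 1) = 0 →
      scalarFamily σ ⊆ H → Qd H (σ.val - 1) := fun h h' =>
    ⟨h, fun c => ⟨unitOf _ (smul_sq h c), h' ⟨c, rfl⟩, rfl⟩⟩
  have hle : Subgroup.closure (scalarFamily σ ∪ scalarFamily τ) ≤ G :=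
    (Subgroup.closure_le _).2 (Set.union_subset hσ.1.2.2 hτ.1.2.2)
  have hα := (mem_minimal.1 hσ).mono hle (hq hσ.1.2.1.1 (Set.subset_union_left.trans Subgroup.subset_closure))
  have hβ := (mem_minimal.1 hτ).mono hle (hq hτ.1.2.1.1 (Set.subset_union_right.trans Subgroup.subset_closure))
  have hne : (σ.val - 1) * (τ.val - 1) * (σ.val - 1) ≠ 0 := fun e =>
    hH (unip_mono (hα.aug_le h2 hk3 hβ e).2 ((Subgroup.closure_le _).2 (Set.union_subset
      (fun g ⟨c, hc⟩ => Subgroup.mem_sup_left (mem_EE.2 (by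
        rw [hc, add_sub_cancel_left]; exact Submodule.smul_mem _ c hα.qd.mem_cl)))
      fun g ⟨c, hc⟩ => Subgroup.mem_sup_right (mem_EE.2 (by
        rw [hc, add_sub_cancel_left]; exact Submodule.smul_mem _ c hβ.qd.mem_cl)))))
  have hind : ∀ P : Subgroup (GLM k M), (∀ (c : k) (g : GLM k M), g.val = 1 + c • (σ.val - 1) → g ∈ P) →
      (∀ (c : k) (g : GLM k M), g.val = 1 + c • (τ.val - 1) → g ∈ P) →
      Subgroup.closure (scalarFamily σ ∪ scalarFamily τ) ≤ P := fun P h h' =>
    (Subgroup.closure_le _).2 (Set.union_subset (fun g ⟨c, hc⟩ => h c g hc) fun g ⟨c, hc⟩ => h' c g hc)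
  generalize Subgroup.closure (scalarFamily σ ∪ scalarFamily τ) = H at *
  generalize σ.val - 1 = α at *
  generalize τ.val - 1 = β at *
  obtain ⟨p, u, hp, -, e0, e1, e2, q1, q2⟩ := hα.pair h2 hk3 hβ hne
  haveI : Fact (Irreducible p) := ⟨hp⟩
  have hz : ∀ t, ev α β (t * X) = ev α β t * α * β + ev α β t * β * α := fun t => by
    rw [map_mul, aeval_X, zz, mul_add, mul_assoc, mul_assoc]
  have e3 : ev α β p * β = 0 := by
    rw [← congrArg (ev α β p * ·) e2, ← mul_assoc, ← map_mul, ← mul_assoc, hz, ev_mul_eq_zero e0 (dvd_mul_right _ _),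
      ev_right hβ.qd.sq, mul_assoc β, ev_mul_eq_zero e0 (dvd_mul_right _ _)]
    simp
  have e4 : ∀ s t, AdjoinRoot.mk p s = AdjoinRoot.mk p t → ev α β (s * (u * X)) = ev α β (t * (u * X)) := by
    intro s t h
    have h := (AdjoinRoot.mk_eq_mk.1 h).mul_right u
    rw [← sub_eq_zero, ← map_sub, ← sub_mul, ← mul_assoc, hz, ev_mul_eq_zero e0 h, ev_mul_eq_zero e3 h]
    simp
  have e5 : ev α β (u * X * (u * X)) = ev α β (u * X) := by
    rw [← mul_assoc, hz, hz u, mul_comm (u * X), map_mul _ u, mul_assoc (ev α β u) (ev α β _) α,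
      mul_assoc (ev α β u) (ev α β _) β, e1, e2]
  choose r hr using AdjoinRoot.mk_surjective (g := p)
  let ρ : AdjoinRoot p →ₙ+* Module.End k M :=
    { toFun κ := ev α β (r κ * (u * X))
      map_zero' := by rw [e4 _ 0 (by simp [hr])]; simp
      map_add' := fun x y => by rw [e4 _ (r x + r y) (by simp [hr]), add_mul, map_add]
      map_mul' := fun x y => by
        rw [e4 _ (r x * r y) (by simp [hr]), map_mul, ← e5, ← map_mul, ← map_mul]; congr 1; ring }
  have hρ : ∀ t, ρ (AdjoinRoot.mk p t) = ev α β (t * (u * X)) := fun t => e4 _ _ (hr _)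
  have h1 : ρ 1 = ev α β (u * X) := by simpa using hρ 1
  have sp : SlPair ρ α (ev α β u * β) := by
    refine ⟨hα.qd.sq, (q2 u).sq, ?_, ?_, fun c => ev_left hα.qd.sq _, fun c => ?_, by rw [h1, e1], ?_⟩
    · rw [hz, add_mul, mul_assoc _ α α, hα.qd.sq, mul_zero, add_zero, ev_left hα.qd.sq] at e1
      rw [← mul_assoc, e1]
    · rw [hz, add_mul, mul_assoc _ β β, hβ.qd.sq, mul_zero, zero_add] at e2
      rw [← mul_assoc, mul_assoc _ α, ← ev_left hα.qd.sq, ← mul_assoc, mul_assoc _ β, ← ev_right hβ.qd.sq,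
        mul_assoc, mul_assoc, ← mul_assoc (ev α β u * β), e2]
    · change ev α β _ * _ = _ * ev α β _
      rw [mul_assoc _ β, ← ev_right hβ.qd.sq, ← mul_assoc (ev α β u), ← mul_assoc _ (ev α β u), ← map_mul,
        ← map_mul, mul_comm u (r c * _)]
    · rw [h1, ← mul_assoc, ← map_mul, mul_comm _ u, map_mul, mul_assoc, e2]
  obtain ⟨φ, hφ, e⟩ := exists_sl2_hom sp hα.ne ((Units.coeHom _).comp H.subtype)
    (fun _ _ e => Subtype.ext (Units.ext e)) (fun c => ⟨⟨_, (q1 _).unitOf_mem⟩, rfl⟩)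
    fun c => ⟨⟨_, (q2 (r c * (u * X) * u)).unitOf_mem⟩, by
      rw [← mul_assoc (ρ c)]; exact congrArg (1 + · * β) (map_mul (ev α β) _ _)⟩
  refine ⟨AdjoinRoot p, inferInstance, inferInstance, AdjoinRoot.root p,
    AdjoinRoot.isAlgebraic_root hp.ne_zero, IntermediateField.adjoin_root_eq_top p,
    ⟨(MulEquiv.ofBijective φ ⟨hφ, fun ⟨g, hg⟩ => ?_⟩).symm⟩⟩
  obtain ⟨x, hx⟩ := hind (H.subtype.comp φ).range
    (fun c g hg => ⟨uSL (AdjoinRoot.mk p (C c)), Units.ext ((e _).trans (by
      rw [sl2Hom_uSL, hρ, hg, map_mul, mul_assoc, e1, aeval_C, Algebra.smul_def]))⟩)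
    (fun c g hg => ⟨lSL (AdjoinRoot.mk p (C c * X)), Units.ext ((e _).trans (by
      rw [sl2Hom_lSL, hρ, hg, ← mul_assoc, ← map_mul, show C c * X * (u * X) * u = C c * (u * X * (u * X)) by
        ring, map_mul, e5, mul_assoc, e2, aeval_C, Algebra.smul_def]))⟩) hg
  exact ⟨x, Subtype.ext hx⟩

end Cfsg.Agent.S5064
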