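import Cfsg.Statements.S5065
import Cfsg.Agent.Root.Quad6

set_option autoImplicit false
universe u
open Cfsg

namespace Cfsg.Agent.S5065
open Cfsg.Agent.Root

/-- Let k be a field of characteristic not 2 with k not of order 3, M a finite-dimensional k-vector space and G ≤ GL(M) such that (G, M) is a quadratic pair (M irreducible for G, and G generated by its quadratically acting elements σ whose scalar family 1 + c(σ − 1), c ∈ k, lies in G). Write 𝒬_d for the quadratic elements of G of minimal commutator rank, E(σ) for the subgroup generated by the members of 𝒬_d with the same fixed space and commutator space as σ, and Σ for the set of these subgroups. For σ, τ ∈ 𝒬_d put A = E(σ), B = E(τ) and X = ⟨A, B⟩. Then either X acts unipotently on M, or A and B are the unipotent subgroups of a special rank one group X; in the latter case X contains exactly one central involution acting as −1 on the commutator space [M, X] and trivially on the fixed space C_M(X), and M is the direct sum of C_M(X) and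 [M, X]. -/
theorem result {k : Type u} [Field k] (hk2 : ringChar k ≠ 2) (hk3 : Nat.card k ≠ 3)
    {M : Type u} [AddCommGroup M] [Module k M] [FiniteDimensional k M]
    {G : Subgroup (LinearMap.GeneralLinearGroup k M)} (hG : Cfsg.IsQuadraticPair G)
    {σ τ : LinearMap.GeneralLinearGroup k M} (hσ : σ ∈ Cfsg.minimalQuadraticElements G) (hτ : τ ∈ Cfsg.minimalQuadraticElements G) :
    Cfsg.IsUnipotentOn (Cfsg.sameActionSubgroup G σ ⊔ Cfsg.sameActionSubgroup G τ) ∨
    (Cfsg.IsSpecialRankOnePair (Cfsg.sameActionSubgroup G σ) (Cfsg.sameActionSubgroup G τ) ∧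
      (∃! i : LinearMap.GeneralLinearGroup k M, i ∈ Cfsg.sameActionSubgroup G σ ⊔ Cfsg.sameActionSubgroup G τ ∧ i ≠ 1 ∧ i * i = 1 ∧
        (∀ x ∈ Cfsg.sameActionSubgroup G σ ⊔ Cfsg.sameActionSubgroup G τ, i * x = x * i) ∧
        (∀ m ∈ Cfsg.commutatorSubmodule (Cfsg.sameActionSubgroup G σ ⊔ Cfsg.sameActionSubgroup G τ), (i : M →ₗ[k] M) m = -m) ∧
        (∀ m ∈ Cfsg.fixedSubmodule (Cfsg.sameActionSubgroup G σ ⊔ Cfsg.sameActionSubgroup G τ), (i : M →ₗ[k] M) m = m)) ∧
      IsCompl (Cfsg.fixedSubmodule (Cfsg.sameActionSubgroup G σ ⊔ Cfsg.sameActionSubgroup G τ))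
        (Cfsg.commutatorSubmodule (Cfsg.sameActionSubgroup G σ ⊔ Cfsg.sameActionSubgroup G τ))) := by
  have h2 := two_ne_zero_of_ringChar hk2
  have hα := mem_minimal.1 hσ
  have hβ := mem_minimal.1 hτ
  rw [sameActionSubgroup_eq hα, sameActionSubgroup_eq hβ]
  generalize σ.val - 1 = α at *
  generalize τ.val - 1 = β at *
  by_cases h : α * β * α = 0
  · exact Or.inl (hα.aug_le h2 hk3 hβ h).2
  refine Or.inr ⟨hα.special h2 hk3 hβ h, ?_⟩
  obtain ⟨f, hf, e1, e2⟩ := hα.exists_partner h2 hk3 hβ h
  have f0 : f ≠ 0 := fun e => hα.ne (by rw [← e1, e, mul_zero, zero_mul])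
  rw [← EE_congr (hβ.cl_eq hf f0)]
  have hf := hf.1
  have aa := hα.qd.sq
  have ff := hf.sq
  have ma : α ∈ aug (EE G α ⊔ EE G f) := aug_mono le_sup_left (aug_EE.ge hα.qd.mem_cl)
  have mf : f ∈ aug (EE G α ⊔ EE G f) := aug_mono le_sup_right (aug_EE.ge hf.mem_cl)
  have me : α * f + f * α ∈ aug (EE G α ⊔ EE G f) :=
    add_mem (aug_mul_self (Submodule.mul_mem_mul ma mf)) (aug_mul_self (Submodule.mul_mem_mul mf ma))
  have hw : (unitOf α aa * (unitOf f ff)⁻¹ * unitOf α aa).val = 1 - (α * f + f * α) + α - f := by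
    simp only [Units.val_mul, unitOf_val, val_inv_of_sq ff (unitOf_val ff)]
    linear_combination (norm := noncomm_ring) aa - e1
  have k1 : (1 - (α * f + f * α)) * α = 0 := by linear_combination (norm := noncomm_ring) -e1 - f * aa
  have k2 : α * (1 - (α * f + f * α)) = 0 := by linear_combination (norm := noncomm_ring) -e1 - aa * f
  have k3 : (1 - (α * f + f * α)) * f = 0 := by linear_combination (norm := noncomm_ring) -e2 - α * ff
  have k4 : f * (1 - (α * f + f * α)) = 0 := by linear_combination (norm := noncomm_ring) -e2 - ff * α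
  have hw2 : ((unitOf α aa * (unitOf f ff)⁻¹ * unitOf α aa) ^ 2).val = 1 - 2 * (α * f + f * α) := by
    rw [sq, Units.val_mul, hw]
    linear_combination (norm := noncomm_ring) aa + ff - α * k4 - f * k2 + k1 + k2 - k3 - k4
  have hm : (unitOf α aa * (unitOf f ff)⁻¹ * unitOf α aa) ^ 2 ∈ EE G α ⊔ EE G f :=
    pow_mem (mul_mem (mul_mem (Subgroup.mem_sup_left (unitOf_mem_EE hα.qd.mem_cl _))
      (Subgroup.mem_sup_right (inv_mem (unitOf_mem_EE hf.mem_cl _))))
      (Subgroup.mem_sup_left (unitOf_mem_EE hα.qd.mem_cl _))) 2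
  have hi : IsIdempotentElem (α * f + f * α) := by
    unfold IsIdempotentElem
    linear_combination (norm := noncomm_ring) -α * k4 - f * k2
  generalize (unitOf α aa * (unitOf f ff)⁻¹ * unitOf α aa) ^ 2 = i at *
  have hker : ∀ v, α v = 0 → f v = 0 → (α * f + f * α) v = 0 := fun v h1 h2 => by simp [h1, h2]
  generalize α * f + f * α = ε at *
  let N : Submodule k (Module.End k M) :=
    LinearMap.ker (LinearMap.mulLeft k (1 - ε)) ⊓ LinearMap.ker (LinearMap.mulRight k (1 - ε))
  have hN : ∀ x ∈ aug (EE G α ⊔ EE G f), (1 - ε) * x = 0 ∧ x * (1 - ε) = 0 := by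
    refine aug_sup_le (N := N) (Submodule.mul_le.2 fun x hx y hy => ⟨?_, ?_⟩)
      (aug_EE.le.trans fun x hx => ⟨cl_right hx k1, cl_left hx k2⟩)
      (aug_EE.le.trans fun x hx => ⟨cl_right hx k3, cl_left hx k4⟩)
    · exact (mul_assoc _ _ _).symm.trans (by rw [show (1 - ε) * x = 0 from hx.1, zero_mul])
    · exact (mul_assoc _ _ _).trans (by rw [show y * (1 - ε) = 0 from hy.2, mul_zero])
  have hF : fixedSubmodule (EE G α ⊔ EE G f) = LinearMap.ker ε := by
    ext v
    rw [le_fixed_iff_aug]
    refine ⟨fun h => hker v (h _ ma) (h _ mf), fun h x hx => ?_⟩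
    simpa [LinearMap.mem_ker.1 h] using LinearMap.congr_fun (hN x hx).2 v
  have hC : commutatorSubmodule (EE G α ⊔ EE G f) = LinearMap.range ε := by
    refine le_antisymm (commutatorSubmodule_le.2 fun g hg => ?_) (range_le_commutatorSubmodule me)
    have := (hN _ (mem_aug hg)).1
    rw [sub_mul, one_mul, sub_eq_zero] at this
    rw [this]; exact range_mul_le _ _
  have he : ∀ v, ε (ε v) = ε v := fun v => LinearMap.congr_fun hi v
  rw [hF, hC]
  refine ⟨⟨i, ⟨hm, fun e => hα.ne ?_, Units.ext ?_, fun x hx => Units.ext ?_, ?_, fun v hv => ?_⟩, ?_⟩,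
    (LinearMap.IsIdempotentElem.isProj_range _ hi).isCompl.symm⟩
  · rw [e, Units.val_one, eq_comm, sub_eq_self, two_mul, ← two_smul k, smul_eq_zero_iff_right h2] at hw2
    simpa [hw2] using k1
  · rw [Units.val_mul, hw2, Units.val_one]
    linear_combination (norm := noncomm_ring) 4 * hi.eq
  · obtain ⟨h4, h5⟩ := hN _ (mem_aug hx)
    rw [Units.val_mul, Units.val_mul, hw2]
    linear_combination (norm := noncomm_ring) 2 * h4 - 2 * h5
  · rintro _ ⟨v, rfl⟩
    simp [hw2, two_mul, he]
  · simp [hw2, two_mul, LinearMap.mem_ker.1 hv]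
  · rintro j ⟨-, -, -, -, h4, h5⟩
    refine Units.ext (LinearMap.ext fun v => ?_)
    have := h5 (v - ε v) (by simp [he])
    rw [map_sub, h4 _ ⟨v, rfl⟩] at this
    rw [hw2, two_mul]
    simp only [LinearMap.sub_apply, LinearMap.add_apply, Module.End.one_apply]
    linear_combination (norm := abel) this

end Cfsg.Agent.S5065
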