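import Cfsg.Statements.S5066
import Cfsg.Agent.Root.Quad6
import Cfsg.Agent.S5068

set_option autoImplicit false
universe u
open Cfsg

namespace Cfsg.Agent.S5066
open Cfsg.Agent.Root

/-- Let k be a field of characteristic not 2 with k not of order 3, M a finite-dimensional k-vector space and G ≤ GL(M) such that (G, M) is a quadratic pair (M irreducible for G, and G generated by its quadratically acting elements σ whose scalar family 1 + c(σ − 1), c ∈ k, lies in G). Write 𝒬_d for the quadratic elements of G of minimal commutator rank, E(σ) for the subgroup generated by the members of 𝒬_d with the same fixed space and commutator space as σ, and Σ for the set of these subgroups. Let E, F ∈ Σ generate a subgroup that is nilpotent of class exactly two. Then D = ⁅E, F⁆ belongs to Σ, equals the subgroup generated by the commutators of e with F, and also of E with f, for every non-identity e ∈ E, f ∈ F, and ⟨E, F⟩ lies in U(D), the set of elements g of G normalizing D with (g − 1)M inside the fixed space of D, (g − 1)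 mapping that fixed space into the commutator space of D, and g acting trivially on the commutator space of D. -/
theorem result {k : Type u} [Field k] (hk2 : ringChar k ≠ 2) (hk3 : Nat.card k ≠ 3)
    {M : Type u} [AddCommGroup M] [Module k M] [FiniteDimensional k M]
    {G : Subgroup (LinearMap.GeneralLinearGroup k M)} (hG : Cfsg.IsQuadraticPair G)
    {E F : Subgroup (LinearMap.GeneralLinearGroup k M)} (hE : E ∈ Cfsg.quadraticRootSubgroups G) (hF : F ∈ Cfsg.quadraticRootSubgroups G)
    (h2 : ⁅E ⊔ F, E ⊔ F⁆ ≠ ⊥ ∧ ⁅⁅E ⊔ F, E ⊔ F⁆, E ⊔ F⁆ = ⊥) :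
    ⁅E, F⁆ ∈ Cfsg.quadraticRootSubgroups G ∧
    (∀ e ∈ E, e ≠ 1 → Subgroup.closure ((fun f : LinearMap.GeneralLinearGroup k M => e * f * e⁻¹ * f⁻¹) '' (F : Set (LinearMap.GeneralLinearGroup k M))) = ⁅E, F⁆) ∧
    (∀ f ∈ F, f ≠ 1 → Subgroup.closure ((fun e : LinearMap.GeneralLinearGroup k M => e * f * e⁻¹ * f⁻¹) '' (E : Set (LinearMap.GeneralLinearGroup k M))) = ⁅E, F⁆) ∧
    ((E ⊔ F : Subgroup (LinearMap.GeneralLinearGroup k M)) : Set (LinearMap.GeneralLinearGroup k M)) ⊆ Cfsg.quadraticUnipotentCore G ⁅E, F⁆ := by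
  have h2' := two_ne_zero_of_ringChar hk2
  have hu : IsUnipotentOn (E ⊔ F) := by
    obtain ⟨α, hα, rfl⟩ := mem_quadraticRootSubgroups.1 hE
    obtain ⟨β, hβ, rfl⟩ := mem_quadraticRootSubgroups.1 hF
    refine (hα.aug_le h2' hk3 hβ (not_not.1 fun e => h2.1 ?_)).2
    have := Sp.commutator_eq (hα.special h2' hk3 hβ e) EE_comm EE_comm (three_lt_card_EE h2' hk3 hα.qd hα.ne)
    rw [← h2.2, this, this]
  rcases S5068.result hk2 hk3 hG hE hF hu with h | h
  · have h' := rs_sigma h2' hk3 (nu_of_irreducible hG.1)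
    exact absurd (comm_iff.2 (((h'.comm E hE).sup_right (comm_iff.1 h)).sup_left
      ((comm_iff.1 h).symm.sup_right (h'.comm F hF)))) h2.1
  · exact ⟨h.1, h.2.1, h.2.2.1, h.2.2.2.2.2⟩

end Cfsg.Agent.S5066
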