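import Cfsg.Statements.S5067
import Cfsg.Agent.BG.Base1

set_option autoImplicit false
open Cfsg

namespace Cfsg.Agent.S5067

open Subgroup Cfsg.Agent.BG
open scoped commutatorElement

theorem aux {P : Type*} [Group P] [Group.IsNilpotent P] (hna : ¬ IsMulCommutative P) {E : Subgroup P}
    (hE : IsMulCommutative E) : Group.nilpotencyClass (normalClosure (E : Set P)) < Group.nilpotencyClass P := by
  have h1 : normalClosure (E : Set P) ≤ E ⊔ ⁅(⊤ : Subgroup P), (⊤ : Subgroup P)⁆ := by
    have : (E ⊔ ⁅(⊤ : Subgroup P), (⊤ : Subgroup P)⁆).Normal := ⟨fun x hx g => by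
      simpa [commutatorElement_def] using mul_mem (mem_sup_right (commutator_mem_commutator (mem_top g) (mem_top x))) hx⟩
    exact normalClosure_le_normal fun x hx => mem_sup_left hx
  have h2 : ∀ n, (normalClosure (E : Set P)).lowerCentralSeries (n + 1) ≤ (⊤ : Subgroup P).lowerCentralSeries (n + 2) := by
    intro n
    induction n with
    | zero =>
      have n : ∀ X : Subgroup P, X ≤ N[(⊤ : Subgroup P).lowerCentralSeries 2] := fun X => le_normalizer_of_normal
      refine (commgSS h1 h1).trans (comm_sup_le (n _) (n _) ?_ (commgS _ le_top))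
      rw [commGC]
      exact comm_sup_le (n _) (n _) ((der1_eq_bot.2 hE).le.trans bot_le) (commgS _ le_top)
    | succ n ih => exact commgSS ih le_top
  obtain ⟨c, hc⟩ : ∃ c, Group.nilpotencyClass P = c + 2 := ⟨Group.nilpotencyClass P - 2, by
    have : ¬ Group.nilpotencyClass P ≤ 1 := fun h => hna (by
      rw [← Subgroup.lowerCentralSeries_eq_bot_iff_nilpotencyClass_le] at h
      exact ⟨⟨fun a b => commutatorElement_eq_one_iff_mul_comm.1
        (mem_bot.1 (h.le (commutator_mem_commutator (mem_top a) (mem_top b))))⟩⟩)
    omega⟩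
  rw [hc, Nat.lt_succ_iff, ← Subgroup.lowerCentralSeries_eq_bot_iff_nilpotencyClass_le,
    ← map_eq_bot_iff_of_injective _ (subtype_injective _), top_subtype_lowerCentralSeries, eq_bot_iff]
  exact (h2 c).trans (Subgroup.lowerCentralSeries_eq_bot_iff_nilpotencyClass_le.2 hc.le).le

/-- Let P be a non-abelian nilpotent p-group (every element of p-power order; P possibly infinite) generated by two abelian subgroups E and F. Then the normal closure of E in P, and likewise that of F, has nilpotency class strictly smaller than that of P. -/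
theorem result {P : Type*} [Group P] {p : ℕ} [Fact p.Prime] (hP : IsPGroup p P) [Group.IsNilpotent P]
    (hna : ¬ IsMulCommutative P) {E F : Subgroup P} (hE : IsMulCommutative ↥E) (hF : IsMulCommutative ↥F) (hgen : E ⊔ F = ⊤) :
    Group.nilpotencyClass ↥(Subgroup.normalClosure (E : Set P)) < Group.nilpotencyClass P ∧
    Group.nilpotencyClass ↥(Subgroup.normalClosure (F : Set P)) < Group.nilpotencyClass P := by
  exact ⟨aux hna hE, aux hna hF⟩

end Cfsg.Agent.S5067
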