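import Cfsg.Statements.S5069
import Cfsg.Agent.Root.Quad6

set_option autoImplicit false
universe u
open Cfsg

namespace Cfsg.Agent.S5069
open Cfsg.Agent.Root

/-- Let k be a field of characteristic not 2 with k not of order 3, M a finite-dimensional k-vector space and G ≤ GL(M) such that (G, M) is a quadratic pair (M irreducible for G, and G generated by its quadratically acting elements σ whose scalar family 1 + c(σ − 1), c ∈ k, lies in G). Write 𝒬_d for the quadratic elements of G of minimal commutator rank, E(σ) for the subgroup generated by the members of 𝒬_d with the same fixed space and commutator space as σ, and Σ for the set of these subgroups. Then Σ is a disjoint union of finitely many parts Σ₁, …, Σ_r such that the subgroups G_i generated by the Σ_i commute pairwise, each G_i is quasisimple, and inside G_i the members of Σ_i form a class of abstract root subgroups in which every rank one pair A, B contains subgroups A₀ ≤ A, B₀ ≤ B generating an image of SL₂(k₁) with central kernel on unitriangular subgroups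 for some field k₁ with at least four elements. -/
theorem result {k : Type u} [Field k] (hk2 : ringChar k ≠ 2) (hk3 : Nat.card k ≠ 3)
    {M : Type u} [AddCommGroup M] [Module k M] [FiniteDimensional k M]
    {G : Subgroup (LinearMap.GeneralLinearGroup k M)} (hG : Cfsg.IsQuadraticPair G) :
    ∃ (r : ℕ) (part : Fin r → Set (Subgroup (LinearMap.GeneralLinearGroup k M))),
      (⋃ i, part i) = Cfsg.quadraticRootSubgroups G ∧ (∀ i j, i ≠ j → Disjoint (part i) (part j)) ∧ (∀ i, (part i).Nonempty) ∧
      (∀ i j, i ≠ j → ⁅(⨆ A ∈ part i, A), (⨆ A ∈ part j, A)⁆ = ⊥) ∧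
      (∀ i, Cfsg.IsQuasisimple ↥(⨆ A ∈ part i, A) ∧
        Cfsg.IsRootSubgroupClass ((fun A : Subgroup (LinearMap.GeneralLinearGroup k M) => A.subgroupOf (⨆ B ∈ part i, B)) '' (part i)) ∧
        ∀ A ∈ part i, ∀ B ∈ Cfsg.rankOnePartners (part i) A, ∃ A₀ B₀ : Subgroup (LinearMap.GeneralLinearGroup k M), A₀ ≤ A ∧ B₀ ≤ B ∧
          ∃ (k₁ : Type u) (_ : Field k₁), 3 < ENat.card k₁ ∧ Cfsg.IsPSL2PairOver k₁ A₀ B₀) := by
  have h2 := two_ne_zero_of_ringChar hk2
  have hN := nu_of_irreducible hG.1
  have h := rs_sigma h2 hk3 hN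
  have hn := ni_sigma h2 hk3 hN
  obtain ⟨r, f, hf, e⟩ := (finite_components h2 hk3 hN).fin_param
  have hm : ∀ i, ∃ A ∈ quadraticRootSubgroups G,
      componentOf (FAdj (quadraticRootSubgroups G)) (quadraticRootSubgroups G) A = f i :=
    fun i => e.le ⟨i, rfl⟩
  choose A hA hA' using hm
  have hne : ∀ i j, i ≠ j → ¬ FConn (quadraticRootSubgroups G) (A i) (A j) := fun i j hij hc =>
    hij (hf (by rw [← hA', ← hA', component_eq hc]))
  refine ⟨r, f, Set.Subset.antisymm (Set.iUnion_subset fun i => hA' i ▸ fun B hB => hB.1) fun B hB => ?_,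
    fun i j hij => ?_, fun i => ⟨_, hA' i ▸ self_mem_component (hA i)⟩, fun i j hij => ?_, fun i => ?_⟩
  · obtain ⟨i, hi⟩ := e.ge ⟨B, hB, rfl⟩
    exact Set.mem_iUnion.2 ⟨i, hi ▸ self_mem_component hB⟩
  · rw [← hA', ← hA', Set.disjoint_left]
    exact fun B h1 h2 => hne i j hij (h1.2.trans (FConn.symm h2.2))
  · rw [← hA', ← hA']
    exact comm_iff.2 (h.comm_component hn (hne i j hij))
  · rw [← hA']
    refine ⟨component_quasisimple h2 hk3 hN (hA i),
      (h.component hn).sub_class ⟨_, self_mem_component (hA i)⟩ fconn_component, fun B hB C hC => ?_⟩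
    obtain ⟨A₀, B₀, h4, h5, h6⟩ := (sigma_subpair h2 hk3 hN hB.1 hC.1.1 hC.2).2
    exact ⟨A₀, B₀, h4, h5, k, inferInstance, three_lt_card h2 hk3, h6⟩

end Cfsg.Agent.S5069
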