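import Cfsg.Statements.S5070
import Cfsg.Agent.Low.RF2
import Cfsg.Agent.Classical.SpGen

set_option autoImplicit false
open Matrix
open Cfsg

namespace Cfsg.Agent.S5070

open Cfsg.Agent.Classical Cfsg.Agent.Root

variable {F : Type*} [Field F] {m : ℕ}

/-- The nilpotent part of a symplectic transvection. -/
def nn (p : Fin m ⊕ Fin m → F) : Matrix (Fin m ⊕ Fin m) (Fin m ⊕ Fin m) F :=
  vecMulVec p (Matrix.J (Fin m) F *ᵥ p)

theorem dot_eq (p v : Fin m ⊕ Fin m → F) : (Matrix.J (Fin m) F *ᵥ p) ⬝ᵥ v = sympForm m F v p :=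
  dotProduct_comm _ _

theorem nn_mulVec (p v : Fin m ⊕ Fin m → F) : nn p *ᵥ v = sympForm m F v p • p := by
  rw [nn, AutCl.vecMulVec_mulVec', dot_eq]

theorem nn_ne {p : Fin m ⊕ Fin m → F} (h : p ≠ 0) : nn p ≠ 0 := fun e => by
  obtain ⟨v, hv⟩ := exists_sympForm_ne_zero h
  have := nn_mulVec p v
  rw [e, zero_mulVec, sympForm_swap] at this
  simp [hv, h] at this

theorem mat_ext {A B : Matrix (Fin m ⊕ Fin m) (Fin m ⊕ Fin m) F} (h : ∀ v, A *ᵥ v = B *ᵥ v) : A = B :=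
  toLin'.injective (LinearMap.ext h)

theorem iff_eq (g : Matrix (Fin m ⊕ Fin m) (Fin m ⊕ Fin m) F) (p : Fin m ⊕ Fin m → F) (c : F) :
    (∀ v, g *ᵥ v = v + (c * (v ⬝ᵥ (Matrix.J (Fin m) F *ᵥ p))) • p) ↔ g = 1 + c • nn p := by
  refine ⟨fun h => mat_ext fun v => ?_, ?_⟩
  · rw [h, add_mulVec, one_mulVec, smul_mulVec, nn_mulVec, smul_smul]; rfl
  · rintro rfl v
    rw [add_mulVec, one_mulVec, smul_mulVec, nn_mulVec, smul_smul]; rfl

theorem nnn (p r : Fin m ⊕ Fin m → F) :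
    nn p * nn r * nn p = (sympForm m F p r * sympForm m F r p) • nn p :=
  mat_ext fun v => by
    simp only [← mulVec_mulVec, nn_mulVec, smul_mulVec, mulVec_smul, smul_smul]; congr 1; ring

theorem nn_comm {p r : Fin m ⊕ Fin m → F} (h : sympForm m F p r * sympForm m F r p = 0) :
    nn p * nn r = nn r * nn p := by
  have h1 : sympForm m F p r = 0 := by rw [sympForm_swap r] at h; simpa using h
  have h2 : sympForm m F r p = 0 := by rw [sympForm_swap, h1, neg_zero]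
  exact mat_ext fun v => by simp [← mulVec_mulVec, nn_mulVec, mulVec_smul, h1, h2]

theorem fam : RFam F (symplecticGroup (Fin m) F).subtype (nn '' {p | p ≠ 0}) where
  inj := Subtype.val_injective
  sq := by
    rintro _ ⟨p, -, rfl⟩
    exact mat_ext fun v => by simp [← mulVec_mulVec, nn_mulVec, mulVec_smul]
  ne := by rintro _ ⟨p, hp, rfl⟩; exact nn_ne hp
  has := by
    rintro _ ⟨p, hp, rfl⟩ c
    exact ⟨spT p c, (iff_eq _ _ _).1 (spT_smul p c)⟩
  conj := by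
    rintro _ ⟨p, hp, rfl⟩ g
    refine ⟨g • p, fun h => hp (by rw [← inv_smul_smul g p, h]; exact mulVec_zero _), mat_ext fun v => ?_⟩
    rw [← mulVec_mulVec, ← mulVec_mulVec, nn_mulVec, nn_mulVec, mulVec_smul,
      ← sympForm_smul_smul g⁻¹, inv_smul_smul]
    rfl
  pair := by
    rintro _ ⟨p, hp, rfl⟩ _ ⟨r, hr, rfl⟩
    exact ⟨_, nnn p r, by rw [nnn, mul_comm], fun h => .inl (nn_comm h)⟩

theorem adj {p r : Fin m ⊕ Fin m → F} (hp : p ≠ 0) (hr : r ≠ 0) (h : sympForm m F p r ≠ 0) :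
    FAdj (rsg F (symplecticGroup (Fin m) F).subtype '' (nn '' {p | p ≠ 0}))
      (rsg F (symplecticGroup (Fin m) F).subtype (nn p))
      (rsg F (symplecticGroup (Fin m) F).subtype (nn r)) :=
  fam.fadj ⟨p, hp, rfl⟩ ⟨r, hr, rfl⟩ (by rw [nnn, sympForm_swap r]; simp [h, nn_ne hp])

/-- Let F be a field, m a natural number and V = F^{2(m+1)} with the standard non-degenerate alternating form f(u, v) = uᵀ J v. For a non-zero vector p let T(p) be the group of symplectic transvections v ↦ v + c f(v, p) p, c ∈ F. Then the subgroups T(p), p ≠ 0, generate the symplectic group Sp_{2(m+1)}(F) and form a degenerate class of abstract F-root subgroups of it (any two of them either commute elementwise or are the unipotent subgroups of a rank one group that is an image of SL₂(F) with central kernel, never the commutator case), and their graph of rank one pairs is connected. -/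
theorem result (F : Type*) [Field F] (m : ℕ) :
    Cfsg.IsRootSubgroupClass {A : Subgroup ↥(Matrix.symplecticGroup (Fin (m + 1)) F) | ∃ p : Fin (m + 1) ⊕ Fin (m + 1) → F, p ≠ 0 ∧
        A = Subgroup.closure {g : ↥(Matrix.symplecticGroup (Fin (m + 1)) F) | ∃ c : F, ∀ v : Fin (m + 1) ⊕ Fin (m + 1) → F,
          (g : Matrix (Fin (m + 1) ⊕ Fin (m + 1)) (Fin (m + 1) ⊕ Fin (m + 1)) F) *ᵥ v =
            v + (c * (v ⬝ᵥ (Matrix.J (Fin (m + 1)) F *ᵥ p))) • p}} ∧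
    Cfsg.IsDegenerateRootSet {A : Subgroup ↥(Matrix.symplecticGroup (Fin (m + 1)) F) | ∃ p : Fin (m + 1) ⊕ Fin (m + 1) → F, p ≠ 0 ∧
        A = Subgroup.closure {g : ↥(Matrix.symplecticGroup (Fin (m + 1)) F) | ∃ c : F, ∀ v : Fin (m + 1) ⊕ Fin (m + 1) → F,
          (g : Matrix (Fin (m + 1) ⊕ Fin (m + 1)) (Fin (m + 1) ⊕ Fin (m + 1)) F) *ᵥ v =
            v + (c * (v ⬝ᵥ (Matrix.J (Fin (m + 1)) F *ᵥ p))) • p}} ∧
    Cfsg.IsKRootSubgroupSet F {A : Subgroup ↥(Matrix.symplecticGroup (Fin (m + 1)) F) | ∃ p : Fin (m + 1) ⊕ Fin (m + 1) → F, p ≠ 0 ∧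
        A = Subgroup.closure {g : ↥(Matrix.symplecticGroup (Fin (m + 1)) F) | ∃ c : F, ∀ v : Fin (m + 1) ⊕ Fin (m + 1) → F,
          (g : Matrix (Fin (m + 1) ⊕ Fin (m + 1)) (Fin (m + 1) ⊕ Fin (m + 1)) F) *ᵥ v =
            v + (c * (v ⬝ᵥ (Matrix.J (Fin (m + 1)) F *ᵥ p))) • p}} ∧
    Cfsg.IsConnectedFamily (Cfsg.FAdj {A : Subgroup ↥(Matrix.symplecticGroup (Fin (m + 1)) F) | ∃ p : Fin (m + 1) ⊕ Fin (m + 1) → F, p ≠ 0 ∧
        A = Subgroup.closure {g : ↥(Matrix.symplecticGroup (Fin (m + 1)) F) | ∃ c : F, ∀ v : Fin (m + 1) ⊕ Fin (m + 1) → F,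
          (g : Matrix (Fin (m + 1) ⊕ Fin (m + 1)) (Fin (m + 1) ⊕ Fin (m + 1)) F) *ᵥ v =
            v + (c * (v ⬝ᵥ (Matrix.J (Fin (m + 1)) F *ᵥ p))) • p}})
      {A : Subgroup ↥(Matrix.symplecticGroup (Fin (m + 1)) F) | ∃ p : Fin (m + 1) ⊕ Fin (m + 1) → F, p ≠ 0 ∧
        A = Subgroup.closure {g : ↥(Matrix.symplecticGroup (Fin (m + 1)) F) | ∃ c : F, ∀ v : Fin (m + 1) ⊕ Fin (m + 1) → F,
          (g : Matrix (Fin (m + 1) ⊕ Fin (m + 1)) (Fin (m + 1) ⊕ Fin (m + 1)) F) *ᵥ v =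
            v + (c * (v ⬝ᵥ (Matrix.J (Fin (m + 1)) F *ᵥ p))) • p}} := by
  have e : {A : Subgroup ↥(Matrix.symplecticGroup (Fin (m + 1)) F) | ∃ p : Fin (m + 1) ⊕ Fin (m + 1) → F, p ≠ 0 ∧
        A = Subgroup.closure {g : ↥(Matrix.symplecticGroup (Fin (m + 1)) F) | ∃ c : F, ∀ v : Fin (m + 1) ⊕ Fin (m + 1) → F,
          (g : Matrix (Fin (m + 1) ⊕ Fin (m + 1)) (Fin (m + 1) ⊕ Fin (m + 1)) F) *ᵥ v =
            v + (c * (v ⬝ᵥ (Matrix.J (Fin (m + 1)) F *ᵥ p))) • p}} =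
      rsg F (symplecticGroup (Fin (m + 1)) F).subtype '' (nn '' {p | p ≠ 0}) := by
    simp only [iff_eq, Set.image_image]
    ext A
    exact exists_congr fun p => and_congr_right fun _ => eq_comm
  rw [e]
  have hg : (⨆ A ∈ rsg F (symplecticGroup (Fin (m + 1)) F).subtype '' (nn '' {p | p ≠ 0}), A) = ⊤ := by
    refine eq_top_of_spT_mem _ fun v c => ?_
    by_cases hv : v = 0
    · rw [hv, spT_zero_left]; exact one_mem _
    refine (le_biSup (f := fun B => B) (Set.mem_image_of_mem _ (Set.mem_image_of_mem nn hv)) :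
      rsg F _ _ ≤ _) ?_
    exact Subgroup.subset_closure ⟨c, (iff_eq _ _ _).1 (spT_smul v c)⟩
  have hc : IsConnectedFamily (FAdj (rsg F (symplecticGroup (Fin (m + 1)) F).subtype '' (nn '' {p | p ≠ 0})))
      (rsg F (symplecticGroup (Fin (m + 1)) F).subtype '' (nn '' {p | p ≠ 0})) := by
    rintro _ ⟨_, ⟨p, hp, rfl⟩, rfl⟩ _ ⟨_, ⟨r, hr, rfl⟩, rfl⟩
    obtain ⟨w, -, a, b⟩ := spNondeg_top.exists_both trivial trivial hp hr
    have w0 : w ≠ 0 := by rintro rfl; simp at a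
    exact .tail (.single (adj hp w0 a)) (adj w0 hr (by rw [sympForm_swap]; simpa using b))
  refine ⟨⟨(fam.kroot hg).1, conjClass_of_connected ⟨_, _, ⟨fun _ => 1, fun h => ?_, rfl⟩, rfl⟩ hc⟩,
    fam.degenerate ?_, fam.kroot hg, hc⟩
  · simpa using congrFun h (.inl 0)
  · rintro _ ⟨p, hp, rfl⟩ _ ⟨r, hr, rfl⟩ h
    rw [nnn] at h
    exact nn_comm ((smul_eq_zero.1 h).resolve_right (nn_ne hp))

end Cfsg.Agent.S5070
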