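import Cfsg.Statements.S5071
import Cfsg.Agent.Low.RF2
import Cfsg.Agent.Classical.SUGen

set_option autoImplicit false
open Matrix
open Cfsg

namespace Cfsg.Agent.S5071

open Cfsg.Agent.Classical Cfsg.Agent.Root

variable {F : Type*} [Field F] [Fintype F] {q n : ℕ} [hF : Fact (Fintype.card F = q ^ 2)]

theorem exists_L : ∃ (L : Type) (_ : Field L) (_ : Fintype L) (ι : L →+* F), Fintype.card L = q ∧
    ∀ x : F, x ^ q = x ↔ ∃ c, ι c = x := by
  let K : Subfield F :=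
    { carrier := {x | x ^ q = x}
      mul_mem' := fun {a b} ha hb => by rw [Set.mem_setOf_eq, mul_pow, ha, hb]
      one_mem' := one_pow q
      add_mem' := fun {a b} ha hb => by rw [Set.mem_setOf_eq, add_pow_q, ha, hb]
      zero_mem' := zero_pow_q
      neg_mem' := fun {a} ha => by rw [Set.mem_setOf_eq, neg_pow_q, ha]
      inv_mem' := fun a ha => by rw [Set.mem_setOf_eq, inv_pow, ha] }
  let e : Fin q ≃ K := (Finite.equivFinOfCardEq (card_fixed (F := F) (q := q))).symm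
  letI := e.field
  refine ⟨Fin q, inferInstance, inferInstance, K.subtype.comp (Equiv.ringEquiv e).toRingHom, by simp,
    fun x => ⟨fun h => ⟨e.symm ⟨x, h⟩, ?_⟩, ?_⟩⟩
  · exact congrArg Subtype.val (e.apply_symm_apply ⟨x, h⟩)
  · rintro ⟨c, rfl⟩; exact (e c).2

variable (q) in
/-- The nilpotent part of a unitary transvection. -/
def nn (θ : F) (p : Fin n → F) : Matrix (Fin n) (Fin n) F := vecMulVec (θ • p) fun j => p j ^ q

omit [Fintype F] hF in
theorem nn_mulVec (θ : F) (p v : Fin n → F) : nn q θ p *ᵥ v = (θ * hermForm n F q v p) • p := by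
  rw [nn, AutCl.vecMulVec_mulVec', dotProduct_comm, ← herm_eq_dotProduct, smul_smul, mul_comm]

theorem nn_ne {θ : F} (h0 : θ ≠ 0) {p : Fin n → F} (h : p ≠ 0) : nn q θ p ≠ 0 := fun e => by
  obtain ⟨v, hv⟩ := exists_herm_eq_one (q := q) h
  have := nn_mulVec (q := q) θ p v
  rw [e, zero_mulVec] at this
  rw [hv, mul_one, eq_comm, smul_eq_zero] at this
  exact this.elim h0 h

omit [Fintype F] hF in
theorem mat_ext {A B : Matrix (Fin n) (Fin n) F} (h : ∀ v, A *ᵥ v = B *ᵥ v) : A = B :=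
  toLin'.injective (LinearMap.ext h)

omit [Fintype F] hF in
theorem nnn (θ : F) (p r : Fin n → F) : nn q θ p * nn q θ r * nn q θ p =
    (θ * θ * (hermForm n F q p r * hermForm n F q r p)) • nn q θ p :=
  mat_ext fun v => by
    simp only [← mulVec_mulVec, nn_mulVec, smul_mulVec, mulVec_smul, smul_smul]; congr 1; ring

theorem nn_comm {θ : F} (h0 : θ ≠ 0) {p r : Fin n → F}
    (h : θ * θ * (hermForm n F q p r * hermForm n F q r p) = 0) :
    nn q θ p * nn q θ r = nn q θ r * nn q θ p := by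
  have h1 : hermForm n F q p r = 0 := by
    simp only [mul_eq_zero, h0, false_or, or_self] at h
    exact h.elim id herm_eq_zero_comm.1
  have h2 := herm_eq_zero_comm.1 h1
  exact mat_ext fun v => by simp [← mulVec_mulVec, nn_mulVec, mulVec_smul, h1, h2]

variable (n F q) in
/-- The embedding of `SU` in the matrix algebra. -/
abbrev emb : SU n F q →* Matrix (Fin n) (Fin n) F :=
  SpecialLinearGroup.coeMonoidHom.comp (SU n F q).subtype

variable {L : Type} [Field L] [Algebra L F] (hL : ∀ x : F, x ^ q = x ↔ ∃ c, algebraMap L F c = x)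
  {θ : F} (h0 : θ ≠ 0) (hθ : θ + θ ^ q = 0)
include hL h0 hθ

theorem tr0 (c : L) : algebraMap L F c * θ + (algebraMap L F c * θ) ^ q = 0 := by
  rw [mul_pow, (hL _).2 ⟨c, rfl⟩, ← mul_add, hθ, mul_zero]

theorem iff_eq (g : SU n F q) {p : Fin n → F} (hp : p ≠ 0) (hi : hermForm n F q p p = 0) :
    ((∀ v : Fin n → F, ∃ c : F, g.1.1 *ᵥ v = v + c • p) ∧
      ∀ v : Fin n → F, hermForm n F q v p = 0 → g.1.1 *ᵥ v = v) ↔
      ∃ c : L, emb F q n g = 1 + c • nn q θ p := by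
  constructor
  · rintro ⟨h1, h2⟩
    obtain ⟨w, hw⟩ := exists_herm_eq_one (q := q) hp
    obtain ⟨d, hd⟩ := h1 w
    have h3 := g.2 w w
    change hermForm n F q (g.1.1 *ᵥ w) (g.1.1 *ᵥ w) = _ at h3
    rw [hd] at h3
    have h4 : d + d ^ q = 0 := by
      simp [hw, hi, herm_eq_one_comm hw] at h3; linear_combination h3
    obtain ⟨c, hc⟩ := (hL (d / θ)).1 (by
      rw [div_pow, eq_neg_of_add_eq_zero_right h4, eq_neg_of_add_eq_zero_right hθ, neg_div_neg_eq])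
    refine ⟨c, mat_ext fun v => ?_⟩
    have h5 := h2 (v - hermForm n F q v p • w) (by simp [hw])
    rw [mulVec_sub, mulVec_smul, hd, sub_eq_iff_eq_add] at h5
    rw [add_mulVec, one_mulVec, ← algebraMap_smul F, smul_mulVec, nn_mulVec, hc, smul_smul]
    refine h5.trans ?_
    rw [← mul_assoc, div_mul_cancel₀ _ h0]; module
  · rintro ⟨c, hc⟩
    have : ∀ v, g.1.1 *ᵥ v = v + (algebraMap L F c * (θ * hermForm n F q v p)) • p := fun v => by
      rw [show g.1.1 = _ from hc, add_mulVec, one_mulVec, ← algebraMap_smul F, smul_mulVec, nn_mulVec,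
        smul_smul]
    exact ⟨fun v => ⟨_, this v⟩, fun v hv => by simp [this, hv]⟩

theorem fam : RFam L (emb F q n) (nn q θ '' {p | p ≠ 0 ∧ hermForm n F q p p = 0}) where
  inj := Subtype.val_injective.comp Subtype.val_injective
  sq := by
    rintro _ ⟨p, hp, rfl⟩
    exact mat_ext fun v => by simp [← mulVec_mulVec, nn_mulVec, mulVec_smul, hp.2]
  ne := by rintro _ ⟨p, hp, rfl⟩; exact nn_ne h0 hp.1
  has := by
    rintro _ ⟨p, hp, rfl⟩ c
    refine ⟨suT p _ hp.2 (tr0 hL h0 hθ c), mat_ext fun v =>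
      (suT_smul p _ hp.2 (tr0 hL h0 hθ c) v).trans ?_⟩
    rw [add_mulVec, one_mulVec, ← algebraMap_smul F c, smul_mulVec, nn_mulVec, smul_smul, mul_assoc]
  conj := by
    rintro _ ⟨p, hp, rfl⟩ g
    refine ⟨g • p, ⟨fun h => hp.1 (by rw [← inv_smul_smul g p, h]; exact mulVec_zero _),
      by rw [herm_su_smul, hp.2]⟩, mat_ext fun v => ?_⟩
    rw [← mulVec_mulVec, ← mulVec_mulVec, nn_mulVec, nn_mulVec, mulVec_smul,
      ← herm_su_smul g⁻¹, inv_smul_smul]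
    rfl
  pair := by
    rintro _ ⟨p, hp, rfl⟩ _ ⟨r, hr, rfl⟩
    obtain ⟨μ, hμ⟩ := (hL (θ * θ * (hermForm n F q p r * hermForm n F q r p))).1 (by
      rw [mul_pow, mul_pow, mul_pow, herm_conj, herm_conj, eq_neg_of_add_eq_zero_right hθ]; ring)
    refine ⟨μ, by rw [nnn, ← hμ, algebraMap_smul], by
      rw [nnn, mul_comm (hermForm n F q r p), ← hμ, algebraMap_smul], fun h => .inl (nn_comm h0 ?_)⟩
    rw [← hμ, h, map_zero]

omit hL h0 hθ in
theorem adj {G : Type*} [Group G] {ρ : G →* Matrix (Fin n) (Fin n) F} (h0 : θ ≠ 0)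
    (h : RFam L ρ (nn q θ '' {p | p ≠ 0 ∧ hermForm n F q p p = 0})) :
    IsConnectedFamily (FAdj (rsg L ρ '' (nn q θ '' {p | p ≠ 0 ∧ hermForm n F q p p = 0})))
      (rsg L ρ '' (nn q θ '' {p | p ≠ 0 ∧ hermForm n F q p p = 0})) := by
  rintro _ ⟨_, ⟨p, hp, rfl⟩, rfl⟩ _ ⟨_, ⟨r, hr, rfl⟩, rfl⟩
  obtain ⟨w, hw, a, b⟩ := exists_iso_both hp.1 hr.1 hp.2 hr.2
  have w0 : w ≠ 0 := by rintro rfl; simp at a
  refine .tail (.single (h.fadj ⟨p, hp, rfl⟩ ⟨w, ⟨w0, hw⟩, rfl⟩ ?_))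
    (h.fadj ⟨w, ⟨w0, hw⟩, rfl⟩ ⟨r, hr, rfl⟩ ?_)
  · rw [nnn]; simp [h0, a, nn_ne h0 hp.1, mt herm_eq_zero_comm.1 a]
  · rw [nnn]; simp [h0, b, nn_ne h0 w0, mt herm_eq_zero_comm.1 b]

omit hL h0 hθ

/-- Let F be a finite field with q² elements, n a natural number, and h the Hermitian form Σ uᵢ vᵢ^q on F^{n+2}. For a non-zero isotropic vector p let T(p) be the group of unitary transvections with centre ⟨p⟩: the elements of SU_{n+2}(q) moving every vector by a multiple of p and fixing every vector perpendicular to p. Let Σ be the set of these T(p) and G₀ the subgroup they generate. Then, viewed inside G₀, the members of Σ form a degenerate class of abstract k-root subgroups of G₀ for some field k with q elements (any two commute or are the unipotent subgroups of a rank one group that is an image of SL₂(k) with central kernel, never the commutator case), and their graph of rank one pairs is connected. -/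
theorem result (F : Type*) [Field F] [Fintype F] (q n : ℕ) (hF : Fintype.card F = q ^ 2) :
    Cfsg.IsRootSubgroupClass ((fun A : Subgroup ↥(Cfsg.SU (n + 2) F q) => A.subgroupOf (⨆ B ∈ {A : Subgroup ↥(Cfsg.SU (n + 2) F q) | ∃ p : Fin (n + 2) → F, p ≠ 0 ∧ Cfsg.hermForm (n + 2) F q p p = 0 ∧
          A = Subgroup.closure {g : ↥(Cfsg.SU (n + 2) F q) |
            (∀ v : Fin (n + 2) → F, ∃ c : F, ((g : Matrix.SpecialLinearGroup (Fin (n + 2)) F) : Matrix (Fin (n + 2)) (Fin (n + 2)) F) *ᵥ v = v + c • p) ∧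
            ∀ v : Fin (n + 2) → F, Cfsg.hermForm (n + 2) F q v p = 0 →
              ((g : Matrix.SpecialLinearGroup (Fin (n + 2)) F) : Matrix (Fin (n + 2)) (Fin (n + 2)) F) *ᵥ v = v}}, B)) ''
      {A : Subgroup ↥(Cfsg.SU (n + 2) F q) | ∃ p : Fin (n + 2) → F, p ≠ 0 ∧ Cfsg.hermForm (n + 2) F q p p = 0 ∧
          A = Subgroup.closure {g : ↥(Cfsg.SU (n + 2) F q) |
            (∀ v : Fin (n + 2) → F, ∃ c : F, ((g : Matrix.SpecialLinearGroup (Fin (n + 2)) F) : Matrix (Fin (n + 2)) (Fin (n + 2)) F) *ᵥ v = v + c • p) ∧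
            ∀ v : Fin (n + 2) → F, Cfsg.hermForm (n + 2) F q v p = 0 →
              ((g : Matrix.SpecialLinearGroup (Fin (n + 2)) F) : Matrix (Fin (n + 2)) (Fin (n + 2)) F) *ᵥ v = v}}) ∧
    Cfsg.IsDegenerateRootSet ((fun A : Subgroup ↥(Cfsg.SU (n + 2) F q) => A.subgroupOf (⨆ B ∈ {A : Subgroup ↥(Cfsg.SU (n + 2) F q) | ∃ p : Fin (n + 2) → F, p ≠ 0 ∧ Cfsg.hermForm (n + 2) F q p p = 0 ∧
          A = Subgroup.closure {g : ↥(Cfsg.SU (n + 2) F q) |
            (∀ v : Fin (n + 2) → F, ∃ c : F, ((g : Matrix.SpecialLinearGroup (Fin (n + 2)) F) : Matrix (Fin (n + 2)) (Fin (n + 2)) F) *ᵥ v = v + c • p) ∧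
            ∀ v : Fin (n + 2) → F, Cfsg.hermForm (n + 2) F q v p = 0 →
              ((g : Matrix.SpecialLinearGroup (Fin (n + 2)) F) : Matrix (Fin (n + 2)) (Fin (n + 2)) F) *ᵥ v = v}}, B)) ''
      {A : Subgroup ↥(Cfsg.SU (n + 2) F q) | ∃ p : Fin (n + 2) → F, p ≠ 0 ∧ Cfsg.hermForm (n + 2) F q p p = 0 ∧
          A = Subgroup.closure {g : ↥(Cfsg.SU (n + 2) F q) |
            (∀ v : Fin (n + 2) → F, ∃ c : F, ((g : Matrix.SpecialLinearGroup (Fin (n + 2)) F) : Matrix (Fin (n + 2)) (Fin (n + 2)) F) *ᵥ v = v + c • p) ∧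
            ∀ v : Fin (n + 2) → F, Cfsg.hermForm (n + 2) F q v p = 0 →
              ((g : Matrix.SpecialLinearGroup (Fin (n + 2)) F) : Matrix (Fin (n + 2)) (Fin (n + 2)) F) *ᵥ v = v}}) ∧
    (∃ (L : Type) (_ : Field L) (_ : Fintype L), Fintype.card L = q ∧ Cfsg.IsKRootSubgroupSet L ((fun A : Subgroup ↥(Cfsg.SU (n + 2) F q) => A.subgroupOf (⨆ B ∈ {A : Subgroup ↥(Cfsg.SU (n + 2) F q) | ∃ p : Fin (n + 2) → F, p ≠ 0 ∧ Cfsg.hermForm (n + 2) F q p p = 0 ∧
          A = Subgroup.closure {g : ↥(Cfsg.SU (n + 2) F q) |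
            (∀ v : Fin (n + 2) → F, ∃ c : F, ((g : Matrix.SpecialLinearGroup (Fin (n + 2)) F) : Matrix (Fin (n + 2)) (Fin (n + 2)) F) *ᵥ v = v + c • p) ∧
            ∀ v : Fin (n + 2) → F, Cfsg.hermForm (n + 2) F q v p = 0 →
              ((g : Matrix.SpecialLinearGroup (Fin (n + 2)) F) : Matrix (Fin (n + 2)) (Fin (n + 2)) F) *ᵥ v = v}}, B)) ''
      {A : Subgroup ↥(Cfsg.SU (n + 2) F q) | ∃ p : Fin (n + 2) → F, p ≠ 0 ∧ Cfsg.hermForm (n + 2) F q p p = 0 ∧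
          A = Subgroup.closure {g : ↥(Cfsg.SU (n + 2) F q) |
            (∀ v : Fin (n + 2) → F, ∃ c : F, ((g : Matrix.SpecialLinearGroup (Fin (n + 2)) F) : Matrix (Fin (n + 2)) (Fin (n + 2)) F) *ᵥ v = v + c • p) ∧
            ∀ v : Fin (n + 2) → F, Cfsg.hermForm (n + 2) F q v p = 0 →
              ((g : Matrix.SpecialLinearGroup (Fin (n + 2)) F) : Matrix (Fin (n + 2)) (Fin (n + 2)) F) *ᵥ v = v}})) ∧
    Cfsg.IsConnectedFamily (Cfsg.FAdj ((fun A : Subgroup ↥(Cfsg.SU (n + 2) F q) => A.subgroupOf (⨆ B ∈ {A : Subgroup ↥(Cfsg.SU (n + 2) F q) | ∃ p : Fin (n + 2) → F, p ≠ 0 ∧ Cfsg.hermForm (n + 2) F q p p = 0 ∧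
          A = Subgroup.closure {g : ↥(Cfsg.SU (n + 2) F q) |
            (∀ v : Fin (n + 2) → F, ∃ c : F, ((g : Matrix.SpecialLinearGroup (Fin (n + 2)) F) : Matrix (Fin (n + 2)) (Fin (n + 2)) F) *ᵥ v = v + c • p) ∧
            ∀ v : Fin (n + 2) → F, Cfsg.hermForm (n + 2) F q v p = 0 →
              ((g : Matrix.SpecialLinearGroup (Fin (n + 2)) F) : Matrix (Fin (n + 2)) (Fin (n + 2)) F) *ᵥ v = v}}, B)) ''
      {A : Subgroup ↥(Cfsg.SU (n + 2) F q) | ∃ p : Fin (n + 2) → F, p ≠ 0 ∧ Cfsg.hermForm (n + 2) F q p p = 0 ∧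
          A = Subgroup.closure {g : ↥(Cfsg.SU (n + 2) F q) |
            (∀ v : Fin (n + 2) → F, ∃ c : F, ((g : Matrix.SpecialLinearGroup (Fin (n + 2)) F) : Matrix (Fin (n + 2)) (Fin (n + 2)) F) *ᵥ v = v + c • p) ∧
            ∀ v : Fin (n + 2) → F, Cfsg.hermForm (n + 2) F q v p = 0 →
              ((g : Matrix.SpecialLinearGroup (Fin (n + 2)) F) : Matrix (Fin (n + 2)) (Fin (n + 2)) F) *ᵥ v = v}})) ((fun A : Subgroup ↥(Cfsg.SU (n + 2) F q) => A.subgroupOf (⨆ B ∈ {A : Subgroup ↥(Cfsg.SU (n + 2) F q) | ∃ p : Fin (n + 2) → F, p ≠ 0 ∧ Cfsg.hermForm (n + 2) F q p p = 0 ∧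
          A = Subgroup.closure {g : ↥(Cfsg.SU (n + 2) F q) |
            (∀ v : Fin (n + 2) → F, ∃ c : F, ((g : Matrix.SpecialLinearGroup (Fin (n + 2)) F) : Matrix (Fin (n + 2)) (Fin (n + 2)) F) *ᵥ v = v + c • p) ∧
            ∀ v : Fin (n + 2) → F, Cfsg.hermForm (n + 2) F q v p = 0 →
              ((g : Matrix.SpecialLinearGroup (Fin (n + 2)) F) : Matrix (Fin (n + 2)) (Fin (n + 2)) F) *ᵥ v = v}}, B)) ''
      {A : Subgroup ↥(Cfsg.SU (n + 2) F q) | ∃ p : Fin (n + 2) → F, p ≠ 0 ∧ Cfsg.hermForm (n + 2) F q p p = 0 ∧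
          A = Subgroup.closure {g : ↥(Cfsg.SU (n + 2) F q) |
            (∀ v : Fin (n + 2) → F, ∃ c : F, ((g : Matrix.SpecialLinearGroup (Fin (n + 2)) F) : Matrix (Fin (n + 2)) (Fin (n + 2)) F) *ᵥ v = v + c • p) ∧
            ∀ v : Fin (n + 2) → F, Cfsg.hermForm (n + 2) F q v p = 0 →
              ((g : Matrix.SpecialLinearGroup (Fin (n + 2)) F) : Matrix (Fin (n + 2)) (Fin (n + 2)) F) *ᵥ v = v}}) := by
  have : Fact (Fintype.card F = q ^ 2) := ⟨hF⟩
  obtain ⟨L, _, _, ι, hc, hL⟩ := exists_L (F := F) (q := q)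
  letI := ι.toAlgebra
  obtain ⟨θ, h0, hθ⟩ := exists_trace_zero (F := F) (q := q)
  have h := fam (n := n + 2) hL h0 hθ
  have e : {A : Subgroup ↥(Cfsg.SU (n + 2) F q) | ∃ p : Fin (n + 2) → F, p ≠ 0 ∧ Cfsg.hermForm (n + 2) F q p p = 0 ∧
          A = Subgroup.closure {g : ↥(Cfsg.SU (n + 2) F q) |
            (∀ v : Fin (n + 2) → F, ∃ c : F, ((g : Matrix.SpecialLinearGroup (Fin (n + 2)) F) : Matrix (Fin (n + 2)) (Fin (n + 2)) F) *ᵥ v = v + c • p) ∧
            ∀ v : Fin (n + 2) → F, Cfsg.hermForm (n + 2) F q v p = 0 →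
              ((g : Matrix.SpecialLinearGroup (Fin (n + 2)) F) : Matrix (Fin (n + 2)) (Fin (n + 2)) F) *ᵥ v = v}} =
      rsg L (emb F q (n + 2)) '' (nn q θ '' {p | p ≠ 0 ∧ hermForm (n + 2) F q p p = 0}) := by
    rw [Set.image_image]
    ext A
    refine exists_congr fun p => ?_
    rw [← and_assoc]
    refine and_congr_right fun hp => ?_
    rw [eq_comm, Set.ext fun g => iff_eq hL h0 hθ g hp.1 hp.2]
    rfl
  rw [e]
  have hg := iSup_subgroupOf_top (rsg L (emb F q (n + 2)) '' (nn q θ '' {p | p ≠ 0 ∧ hermForm (n + 2) F q p p = 0}))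
  rw [h.image_sub] at hg ⊢
  have h' := h.sub _ fun N hN => le_biSup (f := fun B => B) (Set.mem_image_of_mem (rsg L _) hN)
  obtain ⟨v, hv⟩ := exists_isotropic (F := F) (q := q) (n := n + 2) (by omega)
  refine ⟨⟨(h'.kroot hg).1, conjClass_of_connected ⟨_, _, ⟨v, hv, rfl⟩, rfl⟩ (adj h0 h')⟩,
    h'.degenerate ?_, ⟨L, inferInstance, inferInstance, hc, h'.kroot hg⟩, adj h0 h'⟩
  rintro _ ⟨p, hp, rfl⟩ _ ⟨r, hr, rfl⟩ h
  rw [nnn] at h
  exact nn_comm h0 ((smul_eq_zero.1 h).resolve_right (nn_ne h0 hp.1))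

end Cfsg.Agent.S5071
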