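import Cfsg.Statements.S5072
import Cfsg.Agent.Low.RF2

set_option autoImplicit false
open Matrix
open Cfsg

namespace Cfsg.Agent.S5072

open Cfsg.Agent.Root

variable {F : Type*} [Field F] {m : ℕ}

local notation "V" => Fin m ⊕ Fin m → F
local notation "Q" => quadFormPlus m F

/-- The polar form. -/
def B : V →ₗ[F] V →ₗ[F] F :=
  LinearMap.mk₂ F (fun u v => u ⬝ᵥ (v ∘ Sum.swap)) (fun _ _ _ => add_dotProduct ..)
    (fun _ _ _ => smul_dotProduct ..) (fun _ _ _ => dotProduct_add ..) (fun _ _ _ => dotProduct_smul ..)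

theorem B_eq (u v : V) : B u v = ∑ i, u (.inl i) * v (.inr i) + ∑ i, u (.inr i) * v (.inl i) := by
  simp [B, dotProduct]

theorem B_comm (u v : V) : B u v = B v u := by
  rw [B_eq, B_eq, add_comm]; simp only [mul_comm]

theorem Q_add (u v : V) : Q (u + v) = Q u + Q v + B u v := by
  simp only [B_eq, quadFormPlus, Pi.add_apply, ← Finset.sum_add_distrib]
  exact Finset.sum_congr rfl fun i _ => by ring

theorem Q_smul (c : F) (u : V) : Q (c • u) = c * c * Q u := by
  simp only [quadFormPlus, Pi.smul_apply, Finset.mul_sum, smul_eq_mul]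
  exact Finset.sum_congr rfl fun i _ => by ring

theorem Q_sub (u v : V) : Q (u - v) = Q u + Q v - B u v := by
  rw [sub_eq_add_neg, Q_add, ← neg_one_smul F v, Q_smul]; simp [sub_eq_add_neg]

theorem B_self {u : V} (h : Q u = 0) : B u u = 0 := by
  rw [B_eq]; simp only [mul_comm (u (.inr _))]; rw [← quadFormPlus, h, add_zero]

theorem polar (v p : V) : Q (v + p) - Q v - Q p = B v p := by rw [Q_add]; ring

theorem eq_zero {d : V} (h : ∀ v, B v d = 0) : d = 0 := by
  ext i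
  simpa [B] using h (Pi.single i.swap 1)

theorem exists_dual {p r : V} (h : LinearIndependent F ![p, r]) : ∃ w, B w p = 1 ∧ B w r = 0 := by
  obtain ⟨φ, h1, h2⟩ := Submodule.exists_dual_map_eq_bot_of_notMem (R := F) (x := p) (p := F ∙ r)
    (fun e => by
      obtain ⟨a, ha⟩ := Submodule.mem_span_singleton.1 e
      exact (linearIndependent_fin2.1 h).2 a ha) inferInstance
  have e : ∀ x, B (fun i => φ (Pi.single i.swap 1)) x = φ x := fun x => by
    rw [B_comm, LinearMap.pi_apply_eq_sum_univ φ x]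
    simp only [B, LinearMap.mk₂_apply, dotProduct, Function.comp, Sum.swap_swap, smul_eq_mul]
    exact Finset.sum_congr rfl fun i _ => by congr 2; ext j; simp [Pi.single_apply, eq_comm]
  have h3 : φ r = 0 := by
    have : φ r ∈ (F ∙ r).map φ := ⟨r, Submodule.mem_span_singleton_self r, rfl⟩
    rwa [h2] at this
  exact ⟨(φ p)⁻¹ • fun i => φ (Pi.single i.swap 1), by simp [e, h1], by simp [e, h3]⟩

/-- The nilpotent part of a Siegel transformation. -/
def nn (p r : V) : Matrix (Fin m ⊕ Fin m) (Fin m ⊕ Fin m) F :=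
  vecMulVec r (p ∘ Sum.swap) - vecMulVec p (r ∘ Sum.swap)

theorem nn_mulVec (p r v : V) : nn p r *ᵥ v = B v p • r - B v r • p := by
  rw [nn, sub_mulVec, AutCl.vecMulVec_mulVec', AutCl.vecMulVec_mulVec', dotProduct_comm,
    dotProduct_comm (r ∘ _)]
  rfl

theorem mat_ext {A C : Matrix (Fin m ⊕ Fin m) (Fin m ⊕ Fin m) F} (h : ∀ v, A *ᵥ v = C *ᵥ v) : A = C :=
  toLin'.injective (LinearMap.ext h)

theorem nn_ne {p r : V} (h : LinearIndependent F ![p, r]) : nn p r ≠ 0 := fun e => by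
  obtain ⟨w, h1, h2⟩ := exists_dual h
  have := nn_mulVec p r w
  rw [e, zero_mulVec, h1, h2] at this
  exact (linearIndependent_fin2.1 h).1 (by simpa using this.symm)

theorem li_of_ne {p r : V} (h : nn p r ≠ 0) : LinearIndependent F ![p, r] := by
  refine linearIndependent_fin2.2 ⟨fun e => h ?_, fun a e => h ?_⟩
  · rw [show r = 0 from e]; exact mat_ext fun v => by simp [nn_mulVec]
  · rw [← show a • r = p from e]; exact mat_ext fun v => by simp [nn_mulVec, smul_smul, mul_comm]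

theorem nnn (p r x y : V) : nn p r * nn x y * nn p r = (B p y * B r x - B p x * B r y) • nn p r :=
  mat_ext fun v => by
    simp only [← mulVec_mulVec, nn_mulVec, smul_mulVec, map_sub, map_smul, LinearMap.sub_apply,
      LinearMap.smul_apply, smul_eq_mul, B_comm x, B_comm y]
    module

/-- Singular lines. -/
def Ln (p r : V) : Prop := LinearIndependent F ![p, r] ∧ Q p = 0 ∧ Q r = 0 ∧ Q (p + r) = 0

theorem ln_iff {p r : V} : Ln p r ↔ LinearIndependent F ![p, r] ∧ Q p = 0 ∧ Q r = 0 ∧ B p r = 0 :=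
  and_congr_right fun _ => and_congr_right fun a => and_congr_right fun b => by
    rw [Q_add, a, b, add_zero, zero_add]

theorem Ln.symm {p r : V} (h : Ln p r) : Ln r p :=
  ⟨LinearIndependent.pair_symm_iff.1 h.1, h.2.2.1, h.2.1, add_comm p r ▸ h.2.2.2⟩

variable (m F) in
/-- The embedding in the matrix algebra. -/
abbrev emb : isometryGroup F Q →* Matrix (Fin m ⊕ Fin m) (Fin m ⊕ Fin m) F :=
  (Units.coeHom _).comp (isometryGroup F Q).subtype

theorem emb_Q (g : isometryGroup F Q) (v : V) : Q (emb F m g *ᵥ v) = Q v := g.2 v v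

theorem emb_B (g : isometryGroup F Q) (u v : V) : B (emb F m g *ᵥ u) (emb F m g *ᵥ v) = B u v := by
  rw [← polar, ← polar, ← mulVec_add, emb_Q, emb_Q, emb_Q]

theorem iff_eq (g : isometryGroup F Q) {p r : V} (h : Ln p r) :
    (∀ v : V, Q (v + p) - Q v - Q p = 0 → Q (v + r) - Q v - Q r = 0 → emb F m g *ᵥ v = v) ↔
      ∃ c : F, emb F m g = 1 + c • nn p r := by
  simp only [polar]
  constructor
  · intro H
    obtain ⟨a, a1, a2⟩ := exists_dual h.1
    obtain ⟨b, b1, b2⟩ := exists_dual h.symm.1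
    obtain ⟨-, hp, hr, hpr⟩ := ln_iff.1 h
    have h0 : ∀ v, emb F m g *ᵥ (v - B v p • a - B v r • b) = v - B v p • a - B v r • b := fun v =>
      H _ (by simp [a1, b2]) (by simp [a2, b1])
    have h1 : ∀ w, ∃ s t : F, emb F m g *ᵥ w = w + (s • p + t • r) := fun w => by
      refine ⟨B a (emb F m g *ᵥ w - w), B b (emb F m g *ᵥ w - w), ?_⟩
      rw [← sub_eq_iff_eq_add', ← sub_eq_zero]
      refine eq_zero fun v => ?_
      have := emb_B g (v - B v p • a - B v r • b) w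
      rw [h0] at this
      simp only [map_sub, map_add, map_smul, LinearMap.sub_apply, LinearMap.smul_apply,
        smul_eq_mul] at this ⊢
      linear_combination this
    obtain ⟨s, c, ha⟩ := h1 a
    obtain ⟨t, d, hb⟩ := h1 b
    have e1 := emb_Q g a
    have e2 := emb_Q g b
    have e3 := emb_B g a b
    rw [ha] at e1 e3
    rw [hb] at e2 e3
    simp [Q_add, Q_smul, hp, hr, hpr, a1, a2, b1, b2, B_self hp, B_self hr, B_comm r p, B_comm p b,
      B_comm r b] at e1 e2 e3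
    refine ⟨c, mat_ext fun v => ?_⟩
    have := h0 v
    rw [mulVec_sub, mulVec_sub, mulVec_smul, mulVec_smul, ha, hb, e1, e2, sub_sub, sub_eq_iff_eq_add]
      at this
    rw [this, add_mulVec, one_mulVec, smul_mulVec, nn_mulVec, show t = -c by linear_combination e3]
    module
  · rintro ⟨c, hc⟩ v h1 h2
    rw [hc, add_mulVec, one_mulVec, smul_mulVec, nn_mulVec, h1, h2]; simp

theorem rk1 {a b c d : F} (h : b * c - a * d = 0) :
    ∃ s t u w : F, a = s * u ∧ b = s * w ∧ c = t * u ∧ d = t * w := by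
  by_cases ha : a = 0
  · by_cases hb : b = 0
    · exact ⟨0, 1, c, d, by simp [ha, hb]⟩
    · exact ⟨b, d, 0, 1, by simpa [ha, hb] using h⟩
  · exact ⟨a, c, 1, b / a, by simp, by field_simp, by simp, by field_simp; linear_combination -h⟩

variable (m F) in
/-- The family of nilpotent parts of Siegel transformations. -/
def fm : Set (Matrix (Fin m ⊕ Fin m) (Fin m ⊕ Fin m) F) := {N | ∃ p r, Ln p r ∧ N = nn p r}

theorem sq0 {p r : V} (h : Ln p r) : nn p r * nn p r = 0 := by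
  obtain ⟨-, hp, hr, hpr⟩ := ln_iff.1 h
  exact mat_ext fun v => by
    simp [← mulVec_mulVec, nn_mulVec, B_self hp, B_self hr, hpr, B_comm r p]

theorem fam : RFam F (emb F m) (fm F m) where
  inj := Units.val_injective.comp Subtype.val_injective
  sq := by rintro _ ⟨p, r, h, rfl⟩; exact sq0 h
  ne := by rintro _ ⟨p, r, h, rfl⟩; exact nn_ne h.1
  has := by
    rintro _ ⟨p, r, h, rfl⟩ c
    refine ⟨⟨⟨1 + c • nn p r, 1 + (-c) • nn p r, by rw [one_add_mul_sq (sq0 h)]; simp,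
      by rw [one_add_mul_sq (sq0 h)]; simp⟩, fun v _ => ?_⟩, rfl⟩
    obtain ⟨-, hp, hr, hpr⟩ := ln_iff.1 h
    change Q ((1 + c • nn p r) *ᵥ v) = Q v
    rw [add_mulVec, one_mulVec, smul_mulVec, nn_mulVec]
    simp [Q_add, Q_sub, Q_smul, hp, hr, B_comm r p, hpr, mul_comm]
  conj := by
    rintro _ ⟨p, r, h, rfl⟩ g
    have e : emb F m g * nn p r * emb F m g⁻¹ = nn (emb F m g *ᵥ p) (emb F m g *ᵥ r) :=
      mat_ext fun v => by
        have : ∀ x, B (emb F m g⁻¹ *ᵥ v) x = B v (emb F m g *ᵥ x) := fun x => by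
          rw [← emb_B g, mulVec_mulVec, ← map_mul, mul_inv_cancel, map_one, one_mulVec]
        rw [← mulVec_mulVec, ← mulVec_mulVec, nn_mulVec, nn_mulVec, mulVec_sub, mulVec_smul,
          mulVec_smul, this, this]
    refine ⟨_, _, ⟨li_of_ne fun e0 => nn_ne h.1 ?_, by rw [emb_Q, h.2.1], by rw [emb_Q, h.2.2.1],
      by rw [← mulVec_add, emb_Q, h.2.2.2]⟩, e⟩
    have : emb F m g⁻¹ * (emb F m g * nn p r * emb F m g⁻¹) * emb F m g = nn p r := by
      rw [mul_assoc, mul_assoc, ← map_mul, ← mul_assoc, ← mul_assoc, ← map_mul]; simp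
    rw [← this, e, e0]; simp
  pair := by
    rintro _ ⟨p, r, h, rfl⟩ _ ⟨x, y, h', rfl⟩
    refine ⟨_, nnn .., by rw [nnn, B_comm x, B_comm x, B_comm y, B_comm y, mul_comm], fun h0 => ?_⟩
    obtain ⟨s, t, u, w, ha, hb, hc, hd⟩ := rk1 h0
    have e : nn p r * nn x y - nn x y * nn p r = nn (t • p - s • r) (w • x - u • y) :=
      mat_ext fun v => by
        simp only [sub_mulVec, ← mulVec_mulVec, nn_mulVec, map_sub, map_smul, LinearMap.sub_apply,
          LinearMap.smul_apply, smul_eq_mul, B_comm x, B_comm y, ha, hb, hc, hd]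
        module
    obtain ⟨-, hp, hr, hpr⟩ := ln_iff.1 h
    obtain ⟨-, hx, hy, hxy⟩ := ln_iff.1 h'
    refine or_iff_not_imp_left.2 fun h1 => ⟨_, _, ln_iff.2 ⟨li_of_ne (e ▸ sub_ne_zero.2 h1), ?_, ?_, ?_⟩, e⟩
    · simp [Q_sub, Q_smul, hp, hr, hpr]
    · simp [Q_sub, Q_smul, hx, hy, hxy]
    · simp [ha, hb, hc, hd]; ring

/-- Connectedness in the graph of rank one pairs. -/
def Cn (p r x y : V) : Prop := Relation.ReflTransGen (FAdj (rsg F (emb F m) '' fm F m))
  (rsg F (emb F m) (nn p r)) (rsg F (emb F m) (nn x y))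

theorem Cn.symm {p r x y : V} (h : Cn p r x y) : Cn x y p r :=
  haveI : Std.Symm (FAdj (rsg F (emb F m) '' fm F m)) := ⟨fun _ _ h => ⟨h.2.1, h.1, R1.symm h.2.2⟩⟩
  Relation.ReflTransGen.symmetric.symm _ _ h

theorem Cn.trans {p r x y z w : V} (h : Cn p r x y) (h' : Cn x y z w) : Cn p r z w :=
  Relation.ReflTransGen.trans h h'

theorem cn_swap (p r : V) : Cn p r r p := by
  have : nn r p = (-1 : F) • nn p r := by simp [nn]
  rw [Cn, this, rsg_smul _ (by simp)]

theorem cn_opp {p r x y : V} (h : Ln p r) (hx : Q x = 0) (hy : Q y = 0) (hxy : B x y = 0)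
    (h1 : B p y = 0) (h2 : B p x ≠ 0) (h3 : B r y ≠ 0) : Cn p r x y := by
  have : nn p r * nn x y * nn p r ≠ 0 := by rw [nnn]; simp [h1, h2, h3, nn_ne h.1]
  exact .single (fam.fadj ⟨p, r, h, rfl⟩ ⟨x, y, ln_iff.2 ⟨li_of_ne fun e => this (by simp [e]), hx, hy,
    hxy⟩, rfl⟩ this)

theorem step {p r r' : V} (h : Ln p r) (h' : Ln p r') (e : B r r' = 0) : Cn p r p r' := by
  obtain ⟨w, w0, w1, w2⟩ : ∃ w, B w p = 0 ∧ B w r ≠ 0 ∧ B w r' ≠ 0 := by
    obtain ⟨a, a1, a2⟩ := exists_dual h.symm.1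
    obtain ⟨b, b1, b2⟩ := exists_dual h'.symm.1
    by_cases h1 : B a r' = 0
    · by_cases h2 : B b r = 0
      · exact ⟨a + b, by simp [*], by simp [*], by simp [*]⟩
      · exact ⟨b, b2, h2, by simp [b1]⟩
    · exact ⟨a, a2, by simp [a1], h1⟩
  obtain ⟨a, a1, -⟩ := exists_dual h.1
  obtain ⟨-, hp, hr, hpr⟩ := ln_iff.1 h
  obtain ⟨-, -, -, hpr'⟩ := ln_iff.1 h'
  set x := a - Q a • p with hx
  set z := w - (Q w / B w r) • r with hz
  have x0 : Q x = 0 := by simp [hx, Q_sub, Q_smul, hp, a1]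
  have x1 : B p x = 1 := by simp [hx, B_self hp, B_comm p a, a1]
  have z0 : Q z = 0 := by simp [hz, Q_sub, Q_smul, hr, w1]
  have z1 : B p z = 0 := by simp [hz, hpr, B_comm p w, w0]
  have y0 : Q (z - B x z • p) = 0 := by simp [Q_sub, Q_smul, hp, z0, B_comm z p, z1]
  have y1 : B x (z - B x z • p) = 0 := by simp [B_comm x p, x1]
  have y2 : B p (z - B x z • p) = 0 := by simp [z1, B_self hp]
  refine (cn_opp h x0 y0 y1 y2 (by simp [x1]) ?_).trans (cn_opp h' x0 y0 y1 y2 (by simp [x1]) ?_).symm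
  · simpa [hz, B_comm r p, hpr, B_self hr, B_comm r w] using w1
  · simpa [hz, B_comm r' p, hpr', B_comm r' r, e, B_comm r' w] using w2

theorem li_or {p r s : V} (h : LinearIndependent F ![p, r]) (s0 : s ≠ 0) :
    LinearIndependent F ![p, s] ∨ LinearIndependent F ![r, s] := by
  by_contra hc
  simp only [linearIndependent_fin2, not_or, not_and, not_forall, not_not] at hc h
  obtain ⟨a, ha⟩ := hc.1 s0
  obtain ⟨b, hb⟩ := hc.2 s0
  simp only [Matrix.cons_val_zero, Matrix.cons_val_one] at ha hb h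
  have b0 : b ≠ 0 := by rintro rfl; exact h.1 (by simpa using hb.symm)
  exact h.2 (a / b) (by rw [← ha, ← hb, smul_smul, div_mul_cancel₀ _ b0])

/-- The standard maximal totally singular subspace. -/
def E (s : V) : Prop := ∀ i, s (.inr i) = 0

theorem E.q {s : V} (h : E s) : Q s = 0 := by simp [quadFormPlus, h _]

theorem E.b {s t : V} (h : E s) (h' : E t) : B s t = 0 := by simp [B_eq, h _, h' _]

theorem exists_E (hm : 3 ≤ m) (x y : V) : ∃ s, s ≠ 0 ∧ E s ∧ B s x = 0 ∧ B s y = 0 := by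
  obtain ⟨z, z0, h1, h2⟩ := exists_dot_zero (ι := Fin m) (by simpa using hm) (x ∘ .inr) (y ∘ .inr)
  refine ⟨Sum.elim z 0, fun e => z0 (funext fun i => congrFun e (.inl i)), fun _ => rfl, ?_, ?_⟩
  · simpa [B_eq, dotProduct] using h1
  · simpa [B_eq, dotProduct] using h2

theorem toE (hm : 3 ≤ m) {p r : V} (h : Ln p r) : ∃ s t, E s ∧ E t ∧ Ln s t ∧ Cn p r s t := by
  obtain ⟨s, x, hs, hx, hc⟩ : ∃ s x, E s ∧ Ln s x ∧ Cn p r s x := by
    obtain ⟨s, s0, hs, h1, h2⟩ := exists_E hm p r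
    rw [B_comm] at h1 h2
    rcases li_or h.1 s0 with a | a
    · have b := ln_iff.2 ⟨a, h.2.1, hs.q, h1⟩
      exact ⟨s, p, hs, b.symm, (step h b h2).trans (cn_swap ..)⟩
    · have b := ln_iff.2 ⟨a, h.2.2.1, hs.q, h2⟩
      exact ⟨s, r, hs, b.symm, (cn_swap ..).trans ((step h.symm b h1).trans (cn_swap ..))⟩
  obtain ⟨y, hy, -⟩ := exists_dual hx.1
  obtain ⟨t, t0, ht, h1, h2⟩ := exists_E hm x y
  have b : Ln s t := ln_iff.2 ⟨linearIndependent_fin2.2 ⟨t0, fun a e => by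
    rw [← show a • t = s from e, map_smul, B_comm, h2] at hy; simp at hy⟩, hs.q, ht.q, hs.b ht⟩
  exact ⟨s, t, hs, ht, b, hc.trans (step hx b (B_comm x t ▸ h1))⟩

theorem cn (hm : 3 ≤ m) {p r x y : V} (h : Ln p r) (h' : Ln x y) : Cn p r x y := by
  obtain ⟨s, s', hs, hs', h1, c1⟩ := toE hm h
  obtain ⟨t, t', ht, ht', h2, c2⟩ := toE hm h'
  refine c1.trans (Cn.trans ?_ c2.symm)
  rcases li_or h2.1 (linearIndependent_fin2.1 h1.symm.1).1 with a | a
  · have b := ln_iff.2 ⟨a, ht.q, hs.q, ht.b hs⟩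
    exact (step h1 b.symm (hs'.b ht)).trans ((cn_swap ..).trans (step b h2 (hs.b ht')))
  · have b := ln_iff.2 ⟨a, ht'.q, hs.q, ht'.b hs⟩
    exact (step h1 b.symm (hs'.b ht')).trans ((cn_swap ..).trans
      ((step b h2.symm (hs.b ht)).trans (cn_swap ..)))

/-- Let F be a field, m a natural number and V = F^{2(m+3)} with the hyperbolic quadratic form q(x, y) = Σ xᵢ yᵢ (non-degenerate, Witt index m + 3 ≥ 3). For a singular line ℓ (a 2-dimensional subspace on which q vanishes) let T(ℓ) be the group of isometries of q fixing every vector of ℓ^⊥ (the Siegel transvection group of ℓ), let Σ be the set of these groups and G₀ the subgroup they generate. Then, viewed inside G₀, the members of Σ form a set of abstract F-root subgroups of G₀ (any two commute, or are the unipotent subgroups of a rank one group that is an image of SL₂(F) with central kernel, or satisfy the commutator case), and their graph of rank one pairs is connected.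 -/
theorem result (F : Type*) [Field F] (m : ℕ) :
    Cfsg.IsKRootSubgroupSet F ((fun A : Subgroup ↥(Cfsg.isometryGroup F (Cfsg.quadFormPlus (m + 3) F)) => A.subgroupOf (⨆ B ∈ {A : Subgroup ↥(Cfsg.isometryGroup F (Cfsg.quadFormPlus (m + 3) F)) | ∃ p r : Fin (m + 3) ⊕ Fin (m + 3) → F, LinearIndependent F ![p, r] ∧
          Cfsg.quadFormPlus (m + 3) F p = 0 ∧ Cfsg.quadFormPlus (m + 3) F r = 0 ∧
          Cfsg.quadFormPlus (m + 3) F (p + r) = 0 ∧
          A = Subgroup.closure {σ : ↥(Cfsg.isometryGroup F (Cfsg.quadFormPlus (m + 3) F)) | ∀ v : Fin (m + 3) ⊕ Fin (m + 3) → F,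
            Cfsg.quadFormPlus (m + 3) F (v + p) - Cfsg.quadFormPlus (m + 3) F v - Cfsg.quadFormPlus (m + 3) F p = 0 →
            Cfsg.quadFormPlus (m + 3) F (v + r) - Cfsg.quadFormPlus (m + 3) F v - Cfsg.quadFormPlus (m + 3) F r = 0 →
              ((σ : Matrix.GeneralLinearGroup (Fin (m + 3) ⊕ Fin (m + 3)) F) : Matrix (Fin (m + 3) ⊕ Fin (m + 3)) (Fin (m + 3) ⊕ Fin (m + 3)) F) *ᵥ v = v}}, B)) ''
      {A : Subgroup ↥(Cfsg.isometryGroup F (Cfsg.quadFormPlus (m + 3) F)) | ∃ p r : Fin (m + 3) ⊕ Fin (m + 3) → F, LinearIndependent F ![p, r] ∧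
          Cfsg.quadFormPlus (m + 3) F p = 0 ∧ Cfsg.quadFormPlus (m + 3) F r = 0 ∧
          Cfsg.quadFormPlus (m + 3) F (p + r) = 0 ∧
          A = Subgroup.closure {σ : ↥(Cfsg.isometryGroup F (Cfsg.quadFormPlus (m + 3) F)) | ∀ v : Fin (m + 3) ⊕ Fin (m + 3) → F,
            Cfsg.quadFormPlus (m + 3) F (v + p) - Cfsg.quadFormPlus (m + 3) F v - Cfsg.quadFormPlus (m + 3) F p = 0 →
            Cfsg.quadFormPlus (m + 3) F (v + r) - Cfsg.quadFormPlus (m + 3) F v - Cfsg.quadFormPlus (m + 3) F r = 0 →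
              ((σ : Matrix.GeneralLinearGroup (Fin (m + 3) ⊕ Fin (m + 3)) F) : Matrix (Fin (m + 3) ⊕ Fin (m + 3)) (Fin (m + 3) ⊕ Fin (m + 3)) F) *ᵥ v = v}}) ∧
    Cfsg.IsConnectedFamily (Cfsg.FAdj {A : Subgroup ↥(Cfsg.isometryGroup F (Cfsg.quadFormPlus (m + 3) F)) | ∃ p r : Fin (m + 3) ⊕ Fin (m + 3) → F, LinearIndependent F ![p, r] ∧
          Cfsg.quadFormPlus (m + 3) F p = 0 ∧ Cfsg.quadFormPlus (m + 3) F r = 0 ∧
          Cfsg.quadFormPlus (m + 3) F (p + r) = 0 ∧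
          A = Subgroup.closure {σ : ↥(Cfsg.isometryGroup F (Cfsg.quadFormPlus (m + 3) F)) | ∀ v : Fin (m + 3) ⊕ Fin (m + 3) → F,
            Cfsg.quadFormPlus (m + 3) F (v + p) - Cfsg.quadFormPlus (m + 3) F v - Cfsg.quadFormPlus (m + 3) F p = 0 →
            Cfsg.quadFormPlus (m + 3) F (v + r) - Cfsg.quadFormPlus (m + 3) F v - Cfsg.quadFormPlus (m + 3) F r = 0 →
              ((σ : Matrix.GeneralLinearGroup (Fin (m + 3) ⊕ Fin (m + 3)) F) : Matrix (Fin (m + 3) ⊕ Fin (m + 3)) (Fin (m + 3) ⊕ Fin (m + 3)) F) *ᵥ v = v}})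
      {A : Subgroup ↥(Cfsg.isometryGroup F (Cfsg.quadFormPlus (m + 3) F)) | ∃ p r : Fin (m + 3) ⊕ Fin (m + 3) → F, LinearIndependent F ![p, r] ∧
          Cfsg.quadFormPlus (m + 3) F p = 0 ∧ Cfsg.quadFormPlus (m + 3) F r = 0 ∧
          Cfsg.quadFormPlus (m + 3) F (p + r) = 0 ∧
          A = Subgroup.closure {σ : ↥(Cfsg.isometryGroup F (Cfsg.quadFormPlus (m + 3) F)) | ∀ v : Fin (m + 3) ⊕ Fin (m + 3) → F,
            Cfsg.quadFormPlus (m + 3) F (v + p) - Cfsg.quadFormPlus (m + 3) F v - Cfsg.quadFormPlus (m + 3) F p = 0 →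
            Cfsg.quadFormPlus (m + 3) F (v + r) - Cfsg.quadFormPlus (m + 3) F v - Cfsg.quadFormPlus (m + 3) F r = 0 →
              ((σ : Matrix.GeneralLinearGroup (Fin (m + 3) ⊕ Fin (m + 3)) F) : Matrix (Fin (m + 3) ⊕ Fin (m + 3)) (Fin (m + 3) ⊕ Fin (m + 3)) F) *ᵥ v = v}} := by
  have e : {A : Subgroup ↥(Cfsg.isometryGroup F (Cfsg.quadFormPlus (m + 3) F)) | ∃ p r : Fin (m + 3) ⊕ Fin (m + 3) → F, LinearIndependent F ![p, r] ∧
          Cfsg.quadFormPlus (m + 3) F p = 0 ∧ Cfsg.quadFormPlus (m + 3) F r = 0 ∧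
          Cfsg.quadFormPlus (m + 3) F (p + r) = 0 ∧
          A = Subgroup.closure {σ : ↥(Cfsg.isometryGroup F (Cfsg.quadFormPlus (m + 3) F)) | ∀ v : Fin (m + 3) ⊕ Fin (m + 3) → F,
            Cfsg.quadFormPlus (m + 3) F (v + p) - Cfsg.quadFormPlus (m + 3) F v - Cfsg.quadFormPlus (m + 3) F p = 0 →
            Cfsg.quadFormPlus (m + 3) F (v + r) - Cfsg.quadFormPlus (m + 3) F v - Cfsg.quadFormPlus (m + 3) F r = 0 →
              ((σ : Matrix.GeneralLinearGroup (Fin (m + 3) ⊕ Fin (m + 3)) F) : Matrix (Fin (m + 3) ⊕ Fin (m + 3)) (Fin (m + 3) ⊕ Fin (m + 3)) F) *ᵥ v = v}} =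
      rsg F (emb F (m + 3)) '' fm F (m + 3) := by
    ext A
    constructor
    · rintro ⟨p, r, a, b, c, d, rfl⟩
      exact ⟨_, ⟨p, r, ⟨a, b, c, d⟩, rfl⟩, congrArg Subgroup.closure
        (Set.ext fun g => (iff_eq g ⟨a, b, c, d⟩).symm)⟩
    · rintro ⟨_, ⟨p, r, h, rfl⟩, rfl⟩
      exact ⟨p, r, h.1, h.2.1, h.2.2.1, h.2.2.2, congrArg Subgroup.closure
        (Set.ext fun g => (iff_eq g h).symm)⟩
  rw [e]
  have h := fam (F := F) (m := m + 3)
  have hg := iSup_subgroupOf_top (rsg F (emb F (m + 3)) '' fm F (m + 3))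
  rw [h.image_sub] at hg ⊢
  refine ⟨(h.sub _ fun N hN => le_biSup (f := fun B => B) (Set.mem_image_of_mem (rsg F _) hN)).kroot hg, ?_⟩
  rintro _ ⟨_, ⟨p, r, h1, rfl⟩, rfl⟩ _ ⟨_, ⟨x, y, h2, rfl⟩, rfl⟩
  exact cn (by omega) h1 h2

end Cfsg.Agent.S5072
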