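import Cfsg.Statements.S5073
import Cfsg.Agent.Root.Quad6

set_option autoImplicit false
universe u
open Cfsg

namespace Cfsg.Agent.S5073
open Cfsg.Agent.Root

/-- Let k be a field of characteristic not 2 with k not of order 3, M a finite-dimensional k-vector space and G ≤ GL(M) such that (G, M) is a quadratic pair (M irreducible for G, and G generated by its quadratically acting elements σ whose scalar family 1 + c(σ − 1), c ∈ k, lies in G). Write 𝒬_d for the quadratic elements of G of minimal commutator rank, E(σ) for the subgroup generated by the members of 𝒬_d with the same fixed space and commutator space as σ, and Σ for the set of these subgroups. Let E, F ∈ Σ. If some non-identity element of E commutes with some non-identity element of F, or some non-identity element of E normalizes F, then E and F commute elementwise. -/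
theorem result {k : Type u} [Field k] (hk2 : ringChar k ≠ 2) (hk3 : Nat.card k ≠ 3)
    {M : Type u} [AddCommGroup M] [Module k M] [FiniteDimensional k M]
    {G : Subgroup (LinearMap.GeneralLinearGroup k M)} (hG : Cfsg.IsQuadraticPair G)
    {E F : Subgroup (LinearMap.GeneralLinearGroup k M)} (hE : E ∈ Cfsg.quadraticRootSubgroups G) (hF : F ∈ Cfsg.quadraticRootSubgroups G)
    (h : (∃ e ∈ E, e ≠ 1 ∧ ∃ f ∈ F, f ≠ 1 ∧ e * f = f * e) ∨ E ⊓ Subgroup.normalizer (F : Set (LinearMap.GeneralLinearGroup k M)) ≠ ⊥) :
    ⁅E, F⁆ = ⊥ := by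
  have h2 := two_ne_zero_of_ringChar hk2
  have hN := nu_of_irreducible hG.1
  have h' := rs_sigma h2 hk3 hN
  have hn := ni_sigma h2 hk3 hN
  rcases h with ⟨e, he, he1, f, hf, hf1, h⟩ | h
  · rcases h'.pair E hE F hF with k1 | k1 | ⟨C, hC, k1⟩
    · exact comm_iff.2 k1
    · exact absurd h (R1.not_mul_comm k1 he he1 hf hf1)
    · exact absurd h (h'.cc_not_mul_comm hE (hn E hE) hF hC k1 he he1 hf hf1)
  · obtain ⟨⟨e, he, hn'⟩, he1⟩ := Subgroup.ne_bot_iff_exists_ne_one.1 h
    have he1 : e ≠ 1 := fun e => he1 (Subtype.ext e)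
    have hn' := conjBy_eq_iff_mem_normalizer.2 hn'
    rcases h'.pair E hE F hF with k1 | k1 | ⟨C, hC, k1⟩
    · exact comm_iff.2 k1
    · exact absurd (R1.eq_one_left k1 he hn') he1
    · exact absurd hn' (h'.cc_conj_ne hF (hn F hF) hE hC k1.symm he he1)

end Cfsg.Agent.S5073
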