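import Cfsg.Statements.S5077
import Cfsg.Agent.Fus.Sat
-- import your own Cfsg.Agent.* helpers here

set_option autoImplicit false
open Cfsg

namespace Cfsg.Agent.S5077

/-- A fusion system over a finite p-group S is saturated if and only if (Sylow axiom) every fully normalized subgroup is fully centralized and fully automized, and (extension axiom) every fully centralized subgroup is receptive. -/
theorem result {Ω : Type*} [Group Ω] {S : Subgroup Ω} [Finite S] (p : ℕ) [Fact p.Prime] (hS : IsPGroup p S) (F : Cfsg.FusionSystem S) : F.IsSaturated p ↔ ((∀ P : Subgroup Ω, F.IsFullyNormalized P → F.IsFullyCentralized P ∧ F.IsFullyAutomized p P) ∧ (∀ P : Subgroup Ω, F.IsFullyCentralized P → F.IsReceptive P)) :=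
  open Subgroup Cfsg.Agent.Fus Cfsg.Agent.Loc Equiv in by
  refine ⟨fun h => ?_, fun h => sat_of_fn fun P hP => ⟨(h.1 P hP).2, h.2 P (h.1 P hP).1⟩⟩
  have hF : Sat F p := ⟨hS, h⟩
  exact ⟨fun P hP => ⟨hF.fc_of_fn hP, hF.fa_of_fn hP⟩, fun P hP => hF.rec_of_fc hP⟩

end Cfsg.Agent.S5077
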