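import Cfsg.Statements.S5081
import Cfsg.Agent.Fus.Alp
-- import your own Cfsg.Agent.* helpers here

set_option autoImplicit false
open Cfsg

namespace Cfsg.Agent.S5081

/-- Let F be a saturated fusion system over a finite p-group S, P a proper subgroup of S that is fully normalized, and H the subgroup of Aut_F(P) generated by the automorphisms that extend to maps of the system defined on strictly larger subgroups of S. Then either P is not essential and H is all of Aut_F(P), or P is essential and the image of H in Out_F(P) = Aut_F(P)/Inn(P) is strongly p-embedded there. -/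
theorem result {Ω : Type*} [Group Ω] {S : Subgroup Ω} [Finite S] (p : ℕ) [Fact p.Prime] (hS : IsPGroup p S) (F : Cfsg.FusionSystem S) (hF : F.IsSaturated p) (P : Subgroup Ω) (hPS : P < S) (hPn : F.IsFullyNormalized P) (H : Subgroup (MulAut P)) (hH : H = Subgroup.closure {α : MulAut P | ∃ (Q : Subgroup Ω) (hPQ : P < Q) (φ : Q →* Ω), φ ∈ F.Hom Q ∧ ∀ x : P, φ (Subgroup.inclusion hPQ.le x) = α x}) : (¬ F.IsEssential p P ∧ H = F.autGroup P) ∨ (F.IsEssential p P ∧ ∃ _ : ((Cfsg.Inn P).subgroupOf (F.autGroup P)).Normal, Cfsg.IsStronglyPEmbedded p ((H.subgroupOf (F.autGroup P)).map (QuotientGroup.mk' ((Cfsg.Inn P).subgroupOf (F.autGroup P))))) :=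
  open Subgroup Cfsg.Agent.Fus Cfsg.Agent.Loc Equiv in by
  have hs : Sat F p := ⟨hS, hF⟩
  have hH' : H.map (toPerm P) = Hgen F P := by
    rw [hH, MonoidHom.map_closure, Hgen]
    congr 1
    ext a
    constructor
    · rintro ⟨α, ⟨Q, hPQ, φ, hφ, e⟩, rfl⟩
      obtain ⟨g, hg, e'⟩ := exists_perm_of_mem hφ
      have e2 : ∀ x ∈ P, g x = toPerm P α x := fun x hx => by
        rw [toPerm_apply α hx, ← e, e']; rfl
      exact ⟨(mem_AutF hPS.le).2 ⟨(hg.mono hPQ.le).congr fun x hx => (e2 x hx).symm, supp_toPerm α⟩,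
        Q, hPQ, g, hg, e2⟩
    · rintro ⟨⟨α, -, rfl⟩, R, hR, g, hg, e⟩
      exact ⟨α, ⟨R, hR, _, hg.toHom_mem, fun x => by rw [← toPerm_coe, ← e x x.2]; rfl⟩, rfl⟩
  by_cases hE : F.IsEssential p P
  · refine Or.inr ⟨hE, inferInstance, ?_⟩
    have := hs.spe_of_Hgen_ne hE.1 hPn hPS (hs.Hgen_ne hE)
    rwa [← hH', ← comap_comap, comap_map_eq_self_of_injective (toPerm_injective P)] at this
  · refine Or.inl ⟨hE, map_injective (toPerm_injective P) ?_⟩
    rw [hH']; exact hs.Hgen_eq hPn hPS hE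

end Cfsg.Agent.S5081
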