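import Cfsg.Statements.S5083
import Cfsg.Agent.Fus.Alp
-- import your own Cfsg.Agent.* helpers here

set_option autoImplicit false
open Cfsg

namespace Cfsg.Agent.S5083

/-- If F is a saturated fusion system over a finite p-group S in which Aut_F(P) is a p-group for every P ≤ S, then F is the inner fusion system of S (all its maps are conjugations by elements of S). -/
theorem result {Ω : Type*} [Group Ω] {S : Subgroup Ω} [Finite S] (p : ℕ) [Fact p.Prime] (hS : IsPGroup p S) (F : Cfsg.FusionSystem S) (hF : F.IsSaturated p) (h : ∀ P : Subgroup Ω, P ≤ S → IsPGroup p (F.autGroup P)) : F = Cfsg.innerFusionSystem S :=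
  open Subgroup Cfsg.Agent.Fus Cfsg.Agent.Loc Equiv in by
  have hs : Sat F p := ⟨hS, hF⟩
  refine sub_antisymm (hs.sub_of_AutF fun P hP a ha => ?_) (inner_sub F le_rfl)
  obtain ⟨h1, -, h3⟩ := hs.base_fcr hP
  have h4 : IsPGroup p (AutF F P) := (h P h1.1).map (toPerm P)
  rw [← pCoreOf_eq_self h4, (radical_iff.1 h3).2] at ha
  exact (iso_of_AutF h1.1 (AutK_le_AutF _ h1.1 h1.1 ha)).mor

end Cfsg.Agent.S5083
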