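import Cfsg.Statements.S5084
import Cfsg.Agent.Fus.Alp
-- import your own Cfsg.Agent.* helpers here

set_option autoImplicit false
open Cfsg

namespace Cfsg.Agent.S5084

/-- In a saturated fusion system over a finite p-group S, a subgroup Q is central in the system if and only if Q ≤ S and no element of Q is conjugate in the system to any element other than itself. -/
theorem result {Ω : Type*} [Group Ω] {S : Subgroup Ω} [Finite S] (p : ℕ) [Fact p.Prime] (hS : IsPGroup p S) (F : Cfsg.FusionSystem S) (hF : F.IsSaturated p) (Q : Subgroup Ω) : F.IsCentral Q ↔ (Q ≤ S ∧ ∀ x ∈ Q, ∀ y : Ω, F.IsConjElt x y → y = x) :=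
  open Subgroup Cfsg.Agent.Fus Cfsg.Agent.Loc Equiv in by
  have hs : Sat F p := ⟨hS, hF⟩
  refine ⟨fun h => ⟨h.1, fun x hx y hy => ?_⟩, fun h => hs.central_of_fix h.1 fun P f hf x hx hxQ => ?_⟩
  · obtain ⟨f, hf, rfl⟩ := isConjElt_iff.1 hy
    exact central_fix h hf (mem_zpowers x) hx
  · exact h.2 x hxQ _ (isConjElt_iff.2 ⟨f, hf.mono ((zpowers_le).2 hx), rfl⟩)

end Cfsg.Agent.S5084
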