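import Cfsg.Statements.S5085
import Cfsg.Agent.Fus.Grp
-- import your own Cfsg.Agent.* helpers here

set_option autoImplicit false
open Cfsg

namespace Cfsg.Agent.S5085

/-- In any fusion system, a characteristic subgroup of a subgroup that is normal in the system is itself normal in the system. -/
theorem result {Ω : Type*} [Group Ω] {S : Subgroup Ω} (F : Cfsg.FusionSystem S) (Q U : Subgroup Ω) (hQ : F.IsNormal Q) (hUQ : U ≤ Q) (hU : (U.subgroupOf Q).Characteristic) : F.IsNormal U :=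
  open Subgroup Cfsg.Agent.Fus Cfsg.Agent.Loc Equiv in by
  refine normal_iff'.2 ⟨hUQ.trans hQ.1, fun P f hf => ?_⟩
  obtain ⟨g, hg, e1, e2⟩ := (normal_iff'.1 hQ).2 P f hf
  refine ⟨g, hg.mono (sup_le_sup_left hUQ _), e1, ?_⟩
  have hgQ := hg.mono le_sup_right
  let φ : Q →* Q := hgQ.homOn.toHom.codRestrict Q fun x => e2.le (mem_img_of_mem g x.2)
  have hb : Function.Bijective φ := by
    refine ⟨fun x y e => Subtype.ext (hgQ.injOn x.2 y.2 (congrArg Subtype.val e)), fun y => ?_⟩
    obtain ⟨x, hx, e⟩ := hgQ.homOn.mem_img.1 (e2.ge y.2)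
    exact ⟨⟨x, hx⟩, Subtype.ext e⟩
  have h := characteristic_iff_map_eq.1 hU (MulEquiv.ofBijective φ hb)
  have h2 := congrArg (Subgroup.map Q.subtype) h
  rw [subgroupOf_map_subtype, inf_eq_left.2 hUQ, Subgroup.map_map] at h2
  rw [hgQ.homOn.img_eq_map hUQ]
  convert h2 using 2
  ext x; rfl

end Cfsg.Agent.S5085
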