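import Cfsg.Statements.S5087
import Cfsg.Agent.Fus.Alp
-- import your own Cfsg.Agent.* helpers here

set_option autoImplicit false
open Cfsg

namespace Cfsg.Agent.S5087

/-- In a saturated fusion system over a finite p-group S, a subgroup Q is normal in the system if and only if every subgroup P that equals S or is essential contains Q and every element of Aut_F(P) maps Q onto itself. -/
theorem result {Ω : Type*} [Group Ω] {S : Subgroup Ω} [Finite S] (p : ℕ) [Fact p.Prime] (hS : IsPGroup p S) (F : Cfsg.FusionSystem S) (hF : F.IsSaturated p) (Q : Subgroup Ω) : F.IsNormal Q ↔ ∀ P : Subgroup Ω, (P = S ∨ F.IsEssential p P) → (Q ≤ P ∧ ∀ α ∈ F.autGroup P, (Q.subgroupOf P).map α.toMonoidHom = Q.subgroupOf P) :=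
  open Subgroup Cfsg.Agent.Fus Cfsg.Agent.Loc Equiv in by
  have hs : Sat F p := ⟨hS, hF⟩
  have key : ∀ (P : Subgroup Ω), Q ≤ P → ∀ α : MulAut P,
      (Q.subgroupOf P).map α.toMonoidHom = Q.subgroupOf P ↔ Maps (toPerm P α) Q Q := by
    intro P hQ α
    have h1 := ((homOn_toPerm α).mono hQ).maps_img
    rw [img_eq_map_of_eq (P.subtype.comp α.toMonoidHom) (fun x => (toPerm_coe α x).symm) hQ,
      ← map_map] at h1
    constructor
    · intro e; rwa [e, subgroupOf_map_subtype, inf_eq_left.2 hQ] at h1
    · intro h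
      apply map_injective P.subtype_injective
      rw [h1.unique h, subgroupOf_map_subtype, inf_eq_left.2 hQ]
  constructor
  · intro h P hP
    obtain ⟨h1, h2, h3⟩ := hs.base_fcr hP
    have hle := normal_le_cr hS h h2 h3
    exact ⟨hle, fun α hα => (key P hle α).2 (sc_maps (sc_of_normal h) ((mem_autGroup h1.1).1 hα) hle)⟩
  · intro h
    refine hs.normal_of_base fun P hP => ⟨(h P hP).1, ?_⟩
    rintro _ ⟨α, hα, rfl⟩
    exact (key P (h P hP).1 α).1 ((h P hP).2 α hα)

end Cfsg.Agent.S5087
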