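import Cfsg.Statements.S5088
import Cfsg.Agent.Fus.Nrm
-- import your own Cfsg.Agent.* helpers here

set_option autoImplicit false
open Cfsg

namespace Cfsg.Agent.S5088

/-- In a saturated fusion system over a finite p-group, a subgroup Q is normal in the system if and only if there is a chain of subgroups 1 = Q₀ ≤ Q₁ ≤ ⋯ ≤ Qₙ = Q such that each Qᵢ with i ≥ 1 is strongly closed in the system and [Q, Qᵢ] ≤ Qᵢ₋₁. -/
theorem result {Ω : Type*} [Group Ω] {S : Subgroup Ω} [Finite S] (p : ℕ) [Fact p.Prime] (hS : IsPGroup p S) (F : Cfsg.FusionSystem S) (hF : F.IsSaturated p) (Q : Subgroup Ω) : F.IsNormal Q ↔ ∃ (n : ℕ) (Qs : Fin (n + 1) → Subgroup Ω), Qs 0 = ⊥ ∧ Qs (Fin.last n) = Q ∧ Monotone Qs ∧ ∀ i : Fin n, F.StronglyClosed (Qs i.succ) ∧ ⁅Q, Qs i.succ⁆ ≤ Qs (Fin.castSucc i) :=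
  open Subgroup Cfsg.Agent.Fus Cfsg.Agent.Loc Equiv in by
  have hs : Sat F p := ⟨hS, hF⟩
  constructor
  · intro h
    have := finite_of_le h.1
    obtain ⟨n, hn⟩ := exists_Zs_eq (hS.to_le h.1)
    exact ⟨n, fun i => Zs Q i, Zs_zero Q, hn, fun i j hij => Zs_mono Q hij, fun i =>
      ⟨sc_of_normal (normal_Zs h _), by rw [commutator_comm]; exact commutator_Zs Q i⟩⟩
  · rintro ⟨n, Qs, h0, hn, hm, h⟩
    refine hs.normal_of_chain n (fun i => if hi : i < n + 1 then Qs ⟨i, hi⟩ else Q) (by simpa using h0)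
      (by simp only [Nat.lt_succ_self, dif_pos]; exact hn) fun i hi => ?_
    simp only [show i < n + 1 by omega, show i + 1 < n + 1 by omega, dif_pos]
    exact ⟨hm (Fin.mk_le_mk.2 (Nat.le_succ i)), h ⟨i, hi⟩⟩

end Cfsg.Agent.S5088
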