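import Cfsg.Statements.S5089
import Cfsg.Agent.Fus.Nrm
-- import your own Cfsg.Agent.* helpers here

set_option autoImplicit false
open Cfsg

namespace Cfsg.Agent.S5089

/-- A saturated fusion system over a finite p-group has a nontrivial subgroup that is normal in the system (O_p(F) ≠ 1) if and only if some nontrivial abelian subgroup is strongly closed in the system. -/
theorem result {Ω : Type*} [Group Ω] {S : Subgroup Ω} [Finite S] (p : ℕ) [Fact p.Prime] (hS : IsPGroup p S) (F : Cfsg.FusionSystem S) (hF : F.IsSaturated p) : F.core ≠ ⊥ ↔ ∃ Q : Subgroup Ω, Q ≠ ⊥ ∧ IsMulCommutative Q ∧ F.StronglyClosed Q :=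
  open Subgroup Cfsg.Agent.Fus Cfsg.Agent.Loc Equiv in by
  have hs : Sat F p := ⟨hS, hF⟩
  constructor
  · intro h
    have := finite_of_le (core_le F)
    refine ⟨_, CS_self_ne_bot (hS.to_le (core_le F)) h, ?_, sc_of_normal (normal_CS_self (normal_core F))⟩
    exact le_centralizer_iff_isMulCommutative.1 (inf_le_right.trans (centralizer_anti inf_le_left))
  · rintro ⟨Q, h1, h2, h3⟩ e
    exact h1 (le_bot_iff.1 (e ▸ le_core (hs.normal_of_abelian h3 (commutator_self_eq_bot_iff.2 h2))))

end Cfsg.Agent.S5089
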