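import Cfsg.Statements.S5094
import Cfsg.Agent.Fus.Ctl
import Cfsg.Agent.Invol.ZS
-- import your own Cfsg.Agent.* helpers here

set_option autoImplicit false
open Cfsg

namespace Cfsg.Agent.S5094

/-- Glauberman's Z*-Theorem in fusion language: for a finite group G with Sylow 2-subgroup S, the centre of the fusion system of G on S is the set of elements of S whose image in G/O(G) is central, O(G) being the largest normal subgroup of odd order. -/
theorem result {G : Type*} [Group G] [Finite G] (S : Sylow 2 G) : (Cfsg.groupFusionSystem (S : Subgroup G)).center = (S : Subgroup G) ⊓ (Subgroup.center (G ⧸ Cfsg.oddCore G)).comap (QuotientGroup.mk' (Cfsg.oddCore G)) :=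
  open Subgroup Cfsg.Agent.Fus Cfsg.Agent.Loc Equiv in by
  have hF := grpFS_group (S : Subgroup G)
  refine le_antisymm (fun x hx => ?_) fun x hx => ?_
  · refine ⟨center_le _ hx, mem_center_iff.2 fun g' => ?_⟩
    obtain ⟨g, rfl⟩ := QuotientGroup.mk'_surjective _ g'
    have := Invol.comm_mem_oddCore_of_weaklyClosed S (center_le _ hx) (fun s hs => (center_le_CS _ hx).2 s hs)
      (fun k g hg => by
        have h1 := zpowers_le.2 (center_le _ (pow_mem hx k))
        have := central_fix (central_center _) (hF.mor_cp h1 (mem_top g) (by rwa [cj_zpowers, zpowers_le]))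
          (mem_zpowers _) (pow_mem hx k)
        rw [cp_apply] at this
        rw [this]; exact mem_zpowers _) g
    rw [← QuotientGroup.eq_one_iff, ← QuotientGroup.mk'_apply, map_mul, map_mul, map_mul, map_inv, map_inv,
      mul_inv_eq_one, mul_inv_eq_iff_eq_mul] at this
    exact this.symm
  · have key : ∀ g, g * x * g⁻¹ ∈ (S : Subgroup G) → g * x * g⁻¹ = x := fun g hg => by
      rw [← mul_inv_eq_one, ← mem_bot, ← Invol.inf_eq_bot_of_odd S.isPGroup' Invol.odd_oddCore]
      refine mem_inf.2 ⟨mul_mem hg (inv_mem hx.1), ?_⟩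
      rw [← QuotientGroup.eq_one_iff, ← QuotientGroup.mk'_apply, map_mul, map_mul, map_mul, map_inv,
        map_inv, mem_center_iff.1 hx.2, mul_inv_cancel_right, mul_inv_cancel]
    refine (sat_group S).mem_center ⟨hx.1, fun s hs => mul_inv_eq_iff_eq_mul.1 (key s
      ((S : Subgroup G).mul_mem ((S : Subgroup G).mul_mem hs hx.1) ((S : Subgroup G).inv_mem hs)))⟩ fun P f hf hP => ?_
    obtain ⟨g, -, e⟩ := hF.exists_of_mor hf
    rw [e x hP]
    exact key g (e x hP ▸ hf.mem_S hP)

end Cfsg.Agent.S5094
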