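import Cfsg.Statements.S5095
import Cfsg.Agent.Fus.Alp
-- import your own Cfsg.Agent.* helpers here

set_option autoImplicit false
open Cfsg

namespace Cfsg.Agent.S5095

/-- In a saturated fusion system over a finite p-group S: if Q ≤ P ≤ S with Q centric, and two maps of the system with source P agree on Q, then they differ by an inner automorphism of P induced by an element of the centre of Q. -/
theorem result {Ω : Type*} [Group Ω] {S : Subgroup Ω} [Finite S] (p : ℕ) [Fact p.Prime] (hS : IsPGroup p S) (F : Cfsg.FusionSystem S) (hF : F.IsSaturated p) (P Q : Subgroup Ω) (hQP : Q ≤ P) (hQ : F.IsCentric Q) (φ φ' : P →* Ω) (hφ : φ ∈ F.Hom P) (hφ' : φ' ∈ F.Hom P) (h : ∀ x : P, (x : Ω) ∈ Q → φ x = φ' x) : ∃ z : P, (z : Ω) ∈ Q ∧ (z : Ω) ∈ Subgroup.centralizer (Q : Set Ω) ∧ ∀ y : P, φ' y = φ (z * y * z⁻¹) :=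
  open Subgroup Cfsg.Agent.Fus Cfsg.Agent.Loc Equiv in by
  have hs : Sat F p := ⟨hS, hF⟩
  obtain ⟨f, hf, e⟩ := exists_perm_of_mem hφ
  obtain ⟨f', hf', e'⟩ := exists_perm_of_mem hφ'
  obtain ⟨z, hz, ez⟩ := hs.eq_conj_of_centric hf' Q hQP hQ f hf fun x hx => by
    rw [← e ⟨x, hQP hx⟩, ← e' ⟨x, hQP hx⟩, h _ hx]
  have hzQ := centric_CS_le hQ hz
  exact ⟨⟨z, hQP hzQ⟩, hzQ, hz.2, fun y => by rw [e', e, ez y y.2]; rfl⟩

end Cfsg.Agent.S5095
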