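import Cfsg.Statements.S5096
import Cfsg.Agent.Fus.Grp
-- import your own Cfsg.Agent.* helpers here

set_option autoImplicit false
open Cfsg

namespace Cfsg.Agent.S5096

/-- For any fusion system over a subgroup S and any Q ≤ S, the maps of the normalizer system N_F(Q) — those maps between subgroups of N_S(Q) that extend to the subgroup generated with Q carrying Q onto Q — form a fusion system over N_S(Q). -/
theorem result {Ω : Type*} [Group Ω] {S : Subgroup Ω} (F : Cfsg.FusionSystem S) (Q : Subgroup Ω) (hQ : Q ≤ S) : ∃ E : Cfsg.FusionSystem (Cfsg.FusionSystem.normalizerIn S Q), F.IsNormalizerSystem Q E :=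
  open Subgroup Cfsg.Agent.Fus Cfsg.Agent.Loc Equiv in by
  let N := FusionSystem.normalizerIn S Q
  let M : Subgroup Ω → (Ω → Ω) → Prop := fun P f => P ≤ N ∧ (∀ x ∈ P, f x ∈ N) ∧
    ∃ g, Mor F (P ⊔ Q) g ∧ (∀ x ∈ P, g x = f x) ∧ img g Q = Q
  have hm : ∀ P f, M P f → Mor F P f := fun P f ⟨_, _, g, h1, h2, _⟩ =>
    (h1.mono le_sup_left).congr fun x hx => (h2 x hx).symm
  refine ⟨ofMor N M (fun P f h => ⟨h.1, h.2.1⟩) (fun P f h x hx y hy e => (hm P f h).injOn hx hy e)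
    (fun P g hP hg => ⟨hP, fun x hx => mul_mem (mul_mem hg (hP hx)) (inv_mem hg), cp g,
      mor_cp F (sup_le (hP.trans (NS_le _ _)) hQ) hg.1, fun _ _ => rfl, (maps_cp hg.2).img_eq⟩) ?_ ?_, ?_⟩
  · rintro P R f g ⟨a1, a2, a, a3, a4, a5⟩ ⟨b1, b2, b, b3, b4, b5⟩ h
    refine ⟨a1, fun x hx => b2 _ (h x hx), fun x => b (a x), b3.comp a3 (a3.homOn.mem_of_sup
      (fun x hx => mem_sup_left (a4 x hx ▸ h x hx)) fun x hx => mem_sup_right (a5.le (mem_img_of_mem a hx))),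
      fun x hx => by simp only [a4 x hx, b4 _ (h x hx)], ?_⟩
    rw [← (a3.homOn.mono le_sup_right).img_img, a5, b5]
  · rintro P f ⟨a1, a2, a, a3, a4, a5⟩ hf
    obtain ⟨b, b1, b2, b3⟩ := a3.exists_inv
    rw [a3.homOn.img_sup, a5, img_congr a4] at b1
    have e : ∀ x ∈ P, b (f x) = x := fun x hx => by rw [← a4 x hx, b2 x (mem_sup_left hx)]
    refine ⟨b, ⟨img_le_iff.2 a2, fun y hy => ?_, b, b1, fun _ _ => rfl, ?_⟩, e⟩
    · obtain ⟨x, hx, rfl⟩ := hf.mem_img.1 hy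
      rw [e x hx]; exact a1 hx
    · conv_lhs => rw [← a5]
      rw [(a3.homOn.mono le_sup_right).img_img, img_congr fun x hx => b2 x (mem_sup_right hx), img_id]
  · intro P
    ext φ
    constructor
    · rintro ⟨f, hf, e⟩
      have hf' := hm P f hf
      obtain ⟨a1, a2, a, a3, a4, a5⟩ := hf
      exact ⟨hf'.mem_Hom e, a1, fun x => e x ▸ a2 x x.2, _, a3.toHom_mem, fun x => by
        rw [e, ← a4 x x.2]; rfl, by rw [← a3.homOn.img_eq_map le_sup_right, a5]⟩
    · rintro ⟨-, h2, h3, ψ, hψ, h4, h5⟩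
      refine ⟨ext1 φ, ⟨h2, fun x hx => by rw [ext1_apply φ hx]; exact h3 _, ext1 ψ, mor_of_mem hψ,
        fun x hx => by rw [ext1_apply φ hx, ← h4, ext1_apply ψ (mem_sup_left hx)]; rfl, ?_⟩,
        fun x => (ext1_coe φ x).symm⟩
      rw [img_eq_map_of_eq ψ (fun x => (ext1_coe ψ x).symm) le_sup_right, h5]

end Cfsg.Agent.S5096
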