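import Cfsg.Statements.S5106
import Cfsg.Agent.Fus.Nrm
-- import your own Cfsg.Agent.* helpers here

set_option autoImplicit false
open Cfsg

namespace Cfsg.Agent.S5106

/-- In a saturated fusion system over a finite p-group S, a subgroup R ≤ S is normal in the system if and only if every map of the system whose source is a subgroup of R is the restriction of an element of Aut_F(R). -/
theorem result {Ω : Type*} [Group Ω] {S : Subgroup Ω} [Finite S] (p : ℕ) [Fact p.Prime] (hS : IsPGroup p S) (F : Cfsg.FusionSystem S) (hF : F.IsSaturated p) (R : Subgroup Ω) (hRS : R ≤ S) : F.IsNormal R ↔ ∀ (P : Subgroup Ω) (hPR : P ≤ R) (φ : P →* Ω), φ ∈ F.Hom P → ∃ α ∈ F.autGroup R, ∀ x : P, ((α (Subgroup.inclusion hPR x) : R) : Ω) = φ x :=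
  open Subgroup Cfsg.Agent.Fus Cfsg.Agent.Loc Equiv in by
  have hs : Sat F p := ⟨hS, hF⟩
  constructor
  · intro h P hPR φ hφ
    obtain ⟨g, hg, e, hm⟩ := normal_ext h (mor_of_mem hφ)
    obtain ⟨α, hα, e'⟩ := Iso.res_mem ⟨hg.mono le_sup_right, hm⟩
    exact ⟨α, hα, fun x => by rw [← toPerm_coe, e', coe_inclusion, res_apply hm (hPR x.2), ← ext1_coe φ, ← e x x.2]⟩
  · intro h
    refine hs.normal_of_ext hRS fun P hP f hf => ?_
    obtain ⟨α, hα, e⟩ := h P hP _ hf.toHom_mem
    exact ⟨_, iso_of_AutF hRS (toPerm_mem_AutF.2 hα), fun x hx => by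
      rw [toPerm_apply α (hP hx)]; exact e ⟨x, hx⟩⟩

end Cfsg.Agent.S5106
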