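import Cfsg.Statements.S5107
import Cfsg.Agent.Fus.Nrm
-- import your own Cfsg.Agent.* helpers here

set_option autoImplicit false
open Cfsg

namespace Cfsg.Agent.S5107

/-- If a Sylow p-subgroup S of a finite group G has nilpotency class at most two and its centre is strongly closed in S with respect to G, then every map of the fusion system of G on S is conjugation by an element of N_G(S), and S is the largest subgroup normal in that fusion system. -/
theorem result {G : Type*} [Group G] [Finite G] (p : ℕ) [Fact p.Prime] (S : Sylow p G) (hcl : ⁅(S : Subgroup G), (S : Subgroup G)⁆ ≤ (S : Subgroup G) ⊓ Subgroup.centralizer ((S : Subgroup G) : Set G)) (hZ : Cfsg.IsStronglyClosed ((S : Subgroup G) ⊓ Subgroup.centralizer ((S : Subgroup G) : Set G)) (S : Subgroup G)) : (∀ (P : Subgroup G) (φ : P →* G), φ ∈ (Cfsg.groupFusionSystem (S : Subgroup G)).Hom P → ∃ g ∈ Subgroup.normalizer ((S : Subgroup G) : Set G), ∀ x : P, φ x = g * (x : G) * g⁻¹) ∧ (Cfsg.groupFusionSystem (S : Subgroup G)).core = S :=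
  open Subgroup Cfsg.Agent.Fus Cfsg.Agent.Loc Equiv in by
  have hs := sat_group S
  have hG := grpFS_group (S : Subgroup G)
  have hn : (groupFusionSystem (S : Subgroup G)).IsNormal S := by
    refine hs.normal_of_chain 2 (fun i => if i = 0 then ⊥ else if i = 1 then
      (S : Subgroup G) ⊓ centralizer ((S : Subgroup G) : Set G) else S) rfl rfl fun i hi => ?_
    have : i = 0 ∨ i = 1 := by omega
    rcases this with rfl | rfl
    · refine ⟨bot_le, hG.sc_iff.2 ⟨hZ.1, fun x hx g _ => hZ.2 x hx g⟩, ?_⟩
      simp only [zero_add, one_ne_zero, if_false, if_true, le_bot_iff]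
      rw [commutator_comm, commutator_eq_bot_iff_le_centralizer]; exact inf_le_right
    · exact ⟨inf_le_left, sc_S _, hcl⟩
  refine ⟨fun P φ hφ => ?_, le_antisymm (core_le _) (le_core hn)⟩
  obtain ⟨k, hk, e, hm⟩ := normal_ext hn (mor_of_mem hφ)
  obtain ⟨g, -, eg⟩ := hG.exists_of_mor hk
  exact ⟨g, maps_cp_iff.1 (hm.congr fun x hx => (eg x (mem_sup_right hx)).symm),
    fun x => by rw [← ext1_coe φ, ← e x x.2, eg x (mem_sup_left x.2)]⟩

end Cfsg.Agent.S5107
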