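import Cfsg.Statements.S5119
import Cfsg.Agent.Fus.Nml
-- import your own Cfsg.Agent.* helpers here

set_option autoImplicit false
open Cfsg

namespace Cfsg.Agent.S5119

/-- Let F be a saturated fusion system over a finite p-group S and E a subsystem of F over a subgroup T that is strongly closed in F. Then E is invariant in F (invariance under Aut_F(T) plus the Frattini condition) if and only if the strong invariance condition holds: for P ≤ Q ≤ T, every map φ of E from P into Q and every map ψ of F with source Q, the transported map ψ φ ψ⁻¹ on ψ(P) is a map of E. -/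
theorem result {Ω : Type*} [Group Ω] {S : Subgroup Ω} [Finite S] (p : ℕ) [Fact p.Prime] (hS : IsPGroup p S) (F : Cfsg.FusionSystem S) (hF : F.IsSaturated p) {T : Subgroup Ω} (E : Cfsg.FusionSystem T) (hE : E.IsSubsystemOf F) (hT : F.StronglyClosed T) : E.IsInvariantIn F ↔ ∀ (P Q : Subgroup Ω) (hPQ : P ≤ Q) (_ : Q ≤ T) (φ : P →* Ω) (_ : φ ∈ E.Hom P) (hφQ : ∀ x : P, φ x ∈ Q) (ψ : Q →* Ω) (_ : ψ ∈ F.Hom Q), ∃ χ ∈ E.Hom ((P.subgroupOf Q).map ψ), ∀ (x : P) (hx : ψ (Subgroup.inclusion hPQ x) ∈ (P.subgroupOf Q).map ψ), χ ⟨ψ (Subgroup.inclusion hPQ x), hx⟩ = ψ ⟨φ x, hφQ x⟩ :=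
  open Subgroup Cfsg.Agent.Fus Cfsg.Agent.Loc Equiv in by
  have hs : Sat F p := ⟨hS, hF⟩
  rw [inv_iff]
  constructor
  · intro h P Q hPQ hQ φ hφ hφQ ψ hψ
    have := h.finite
    obtain ⟨f, hf, e⟩ := exists_perm_of_mem hφ
    obtain ⟨k, hk, e'⟩ := exists_perm_of_mem hψ
    have h1 := h.sconj hk hQ hf hPQ (fun x hx => e ⟨x, hx⟩ ▸ hφQ ⟨x, hx⟩) (hk.mono hPQ).maps_img
    rw [img_eq_map_of_eq ψ e' hPQ] at h1
    exact ⟨_, h1.toHom_mem, fun x hx => by simp [e, e']⟩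
  · intro h
    refine hs.inv_of_sconj hE hT fun {k f P Q R} hk hQ hf hPQ hm hR => ?_
    obtain ⟨χ, hχ, e⟩ := h P Q hPQ hQ _ hf.toHom_mem (fun x => hm x x.2) _ hk.toHom_mem
    have e1 := hk.homOn.img_eq_map hPQ
    rw [hR.img_eq] at e1
    refine ((mor_of_mem hχ).mono e1.le).congr fun y hy => ?_
    obtain ⟨x, hx, rfl⟩ := hR.exists_eq hy
    rw [ext1_apply _ (e1.le hy)]
    simpa using (e ⟨x, hx⟩ (e1.le hy)).symm

end Cfsg.Agent.S5119
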