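import Cfsg.Statements.S5121
import Cfsg.Agent.Fus.Model2
-- import your own Cfsg.Agent.* helpers here

set_option autoImplicit false
open Cfsg

namespace Cfsg.Agent.S5121

/-- Let G be a finite group with Sylow p-subgroup S and C_G(O_p(G)) ≤ O_p(G). For every subgroup T ≤ S and every normal subsystem E over T of the fusion system of G on S there is exactly one normal subgroup H of G containing T as a Sylow p-subgroup whose fusion system on T is E. -/
theorem result {G : Type*} [Group G] [Finite G] (p : ℕ) [Fact p.Prime] (S : Sylow p G) (hG : Subgroup.centralizer ((Cfsg.pCore p G : Subgroup G) : Set G) ≤ Cfsg.pCore p G) (T : Subgroup G) (hTS : T ≤ S) (E : Cfsg.FusionSystem T) (hE : E.IsNormalIn (Cfsg.groupFusionSystem (S : Subgroup G)) p) : ∃ H : Subgroup G, (∃ hTH : T ≤ H, H.Normal ∧ (∃ R : Sylow p H, (R : Subgroup H) = T.subgroupOf H) ∧ ∀ P : Subgroup G, E.Hom P = (Cfsg.fusionSystemOfSubgroup H T hTH).Hom P) ∧ ∀ H' : Subgroup G, (∃ hTH' :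 T ≤ H', H'.Normal ∧ (∃ R : Sylow p H', (R : Subgroup H') = T.subgroupOf H') ∧ ∀ P : Subgroup G, E.Hom P = (Cfsg.fusionSystemOfSubgroup H' T hTH').Hom P) → H' = H :=
  open Subgroup Cfsg.Agent.Fus Cfsg.Agent.Loc Equiv in by
  obtain ⟨K, ⟨-, hn, hT, hK⟩, hu⟩ := (grpFS_group _).exists_normal (sylIn_top S) (chP_top.2 hG) ((ni_iff S.isPGroup').1 hE)
  refine ⟨K, ⟨hT.le, normal_of_top_le_normalizer hn, (sylIn_iff_exists_sylow hT.le).2 hT, fun P => ?_⟩, ?_⟩
  · rw [hK.hom_eq (grpFS_sub K T hT.le)]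
  · rintro H' ⟨h₁, h₂, h₃, h₄⟩
    refine hu H' le_top le_normalizer_of_normal ((sylIn_iff_exists_sylow h₁).1 h₃) ?_
    rw [fs_ext h₄]
    exact grpFS_sub H' T h₁

end Cfsg.Agent.S5121
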