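import Cfsg.Statements.S5122
import Cfsg.Agent.Fus.Grp
-- import your own Cfsg.Agent.* helpers here

set_option autoImplicit false
open Cfsg

namespace Cfsg.Agent.S5122

/-- Let G be a finite group with Sylow p-subgroup S. Every subgroup P of S has a G-conjugate Q ≤ S such that N_S(Q) is a Sylow p-subgroup of N_G(Q); and for any Q ≤ S with that property, C_S(Q) is a Sylow p-subgroup of C_G(Q) and the automorphisms of Q induced by N_S(Q) form a Sylow p-subgroup of those induced by N_G(Q). -/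
theorem result {G : Type*} [Group G] [Finite G] (p : ℕ) [Fact p.Prime] (S : Sylow p G) : (∀ P : Subgroup G, P ≤ S → ∃ g : G, P.map (MulAut.conj g).toMonoidHom ≤ S ∧ (∃ R : Sylow p ↥(Subgroup.normalizer ((P.map (MulAut.conj g).toMonoidHom : Subgroup G) : Set G)), (R : Subgroup ↥(Subgroup.normalizer ((P.map (MulAut.conj g).toMonoidHom : Subgroup G) : Set G))) = (Cfsg.FusionSystem.normalizerIn (S : Subgroup G) (P.map (MulAut.conj g).toMonoidHom)).subgroupOf (Subgroup.normalizer ((P.map (MulAut.conj g).toMonoidHom : Subgroup G) : Set G)))) ∧ ∀ Q : Subgroup G, Q ≤ S → (∃ R : Sylow p ↥(Subgroup.normalizer (Q : Set G)), (R : Subgroup ↥(Subgroup.normalizer (Q : Set G))) = (Cfsg.FusionSystem.normalizerIn (S : Subgroup G) Q).subgroupOf (Subgroup.normalizer (Q : Set G))) → (∃ R : Sylow p ↥(Subgroup.centralizer (Q : Set G)), (R : Subgroup ↥(Subgroup.centralizer (Q : Set G))) = (Cfsg.FusionSystem.centralizerIn (S : Subgroup G) Q).subgroupOf (Subgroup.centralizer (Q : Set G))) ∧ (∃ R :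 Sylow p ↥(Cfsg.autInducedBy ⊤ Q), (R : Subgroup ↥(Cfsg.autInducedBy ⊤ Q)) = (Cfsg.autInducedBy (S : Subgroup G) Q).subgroupOf (Cfsg.autInducedBy ⊤ Q)) :=
  open Subgroup Cfsg.Agent.Fus Cfsg.Agent.Loc Equiv in by
  have h := grpFS_group (S : Subgroup G)
  have e1 : ∀ P : Subgroup G, FusionSystem.normalizerIn ⊤ P = normalizer (P : Set G) := fun P => top_inf_eq _
  have e2 : ∀ P : Subgroup G, FusionSystem.centralizerIn ⊤ P = centralizer (P : Set G) := fun P => top_inf_eq _
  constructor
  · intro P hP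
    obtain ⟨f, Q, hf, hQ⟩ := exists_fn (groupFusionSystem (S : Subgroup G)) hP
    obtain ⟨g, -, rfl, -⟩ := h.exists_of_iso hf
    refine ⟨g, hf.le', ?_⟩
    rw [sylIn_iff_exists_sylow (NS_le_normalizer _ _), ← e1]
    exact (h.fn_iff (sylIn_top S) hf.le').1 hQ
  · intro Q hQ hR
    rw [sylIn_iff_exists_sylow (NS_le_normalizer _ _), ← e1, ← h.fn_iff (sylIn_top S) hQ] at hR
    constructor
    · rw [sylIn_iff_exists_sylow (CS_le_centralizer _ _), ← e2, ← h.fc_iff (sylIn_top S) hQ]
      exact (sat_group S).fc_of_fn hR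
    · have h1 := (sat_group S).syl hR
      rw [h.AutF_eq hQ] at h1
      have h2 := sylIn_of_map_injective (toPerm_injective Q) h1
      exact (sylIn_iff_exists_sylow h2.le).2 h2

end Cfsg.Agent.S5122
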