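import Cfsg.Statements.S5139
import Cfsg.Agent.Fus.Ppi
-- import your own Cfsg.Agent.* helpers here

set_option autoImplicit false
open Cfsg

namespace Cfsg.Agent.S5139

/-- Let G be a finite group with Sylow p-subgroup S and O^p(G) the subgroup generated by the elements of order prime to p. Then the p-residual subsystem of the fusion system of G on S — the saturated subsystem of p-power index over the hyperfocal subgroup — is the fusion system of O^p(G) on S ∩ O^p(G): its maps are exactly the conjugation maps by elements of O^p(G) between subgroups of S ∩ O^p(G). -/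
theorem result {G : Type*} [Group G] [Finite G] (p : ℕ) [Fact p.Prime] (S : Sylow p G) (E : Cfsg.FusionSystem ((Cfsg.groupFusionSystem (S : Subgroup G)).hyperfocalSubgroup p)) (hE : (Cfsg.groupFusionSystem (S : Subgroup G)).IsPResidual p E) : ∃ h : (S : Subgroup G) ⊓ Cfsg.pResidual p G ≤ Cfsg.pResidual p G, ∀ P : Subgroup G, E.Hom P = (Cfsg.fusionSystemOfSubgroup (Cfsg.pResidual p G) ((S : Subgroup G) ⊓ Cfsg.pResidual p G) h).Hom P :=
  open Subgroup Cfsg.Agent.Fus Cfsg.Agent.Loc Equiv in by
  refine ⟨inf_le_right, fun P => ?_⟩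
  have hs := sylIn_top S
  have hG := grpFS_group (S : Subgroup G)
  obtain ⟨h1, h2⟩ := (presidual_iff S.isPGroup').1 hE
  have e : OpA p (⊤ : Subgroup G) = pResidual p G := by rw [OpA_eq_pResidualOf, pResidualOf_top]
  have hH := grpFS_sub (pResidual p G) ((S : Subgroup G) ⊓ pResidual p G) inf_le_right
  refine h2.hom_eq (hG.ppi hH hs le_top e.le rfl) h1 (hH.sat (hs.inf_normal' le_top ?_)) (by rw [hG.hyp_eq hs, e]) P
  rw [← e]; exact le_normalizer_OpA p _

end Cfsg.Agent.S5139
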