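import Cfsg.Statements.S5346
import Cfsg.Agent.Fischer.Small
-- import your own Cfsg.Agent.* helpers here

set_option autoImplicit false
open Cfsg

namespace Cfsg.Agent.S5346

/-- Let D be a conjugation-invariant generating set of 3-transpositions of a finite group G and d a member of D. Then D has width 1 (no two different members of D commute) if and only if G is the product of the subgroup generated by d with the largest normal 3-subgroup of G. -/
theorem result {G : Type*} [Group G] [Finite G] {D : Set G} (hD : Cfsg.IsThreeTranspositionGroup D) {d : G} (hd : d ∈ D) : Cfsg.commutingWidth D = 1 ↔ Subgroup.zpowers d ⊔ Cfsg.pCore 3 G = ⊤ := by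
  open Fischer in
  rw [commutingWidth_eq_one_iff ⟨d, hd⟩]
  refine ⟨fun h => TG.sup_pCore_three hD h hd, fun h a ha b hb hc => ?_⟩
  apply TT.eq_of_mul_mem_three hD.1 ha hb (Solv.isPGroup_pCore 3 G) _ hc
  have key : ∀ x ∈ D, d * x ∈ pCore 3 G := by
    intro x hx
    have hx' : x ∈ Subgroup.zpowers d ⊔ pCore 3 G := h ▸ Subgroup.mem_top x
    rw [← SetLike.mem_coe, Subgroup.mul_normal] at hx'
    obtain ⟨y, hy, z, hz, rfl⟩ := hx'
    have : y = 1 ∨ y = d := by
      obtain ⟨k, rfl⟩ := hy
      have h2 : d ^ (2 : ℤ) = 1 := by rw [zpow_two, TT.sq hD.1 hd]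
      rcases Int.even_or_odd' k with ⟨j, rfl | rfl⟩
      · left; simp [zpow_mul, h2]
      · right; simp [zpow_add, zpow_mul, h2]
    rcases this with rfl | rfl
    · exfalso
      simp only [one_mul] at hx
      exact TT.ne_one hD.1 hx (eq_one_of_isPGroup_of_pow (Solv.isPGroup_pCore 3 G) hz
        (by rw [pow_two, TT.sq hD.1 hx]) (by norm_num))
    · simpa [← mul_assoc, TT.sq hD.1 hd] using hz
  have := mul_mem (inv_mem (key a ha)) (key b hb)
  simpa [TT.inv hD.1 ha, mul_assoc] using this

end Cfsg.Agent.S5346
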