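import Cfsg.Statements.S5351
import Cfsg.Agent.Fischer.Layer
-- import your own Cfsg.Agent.* helpers here

set_option autoImplicit false
open Cfsg

namespace Cfsg.Agent.S5351

/-- Let D be a conjugacy class of 3-transpositions generating the finite group G, with at least two members. Then for every prime p > 3 the largest normal p-subgroup of G is central, and exactly one of the following holds: the largest normal 2-subgroup of G is not central; the largest normal 3-subgroup of G is not central; the layer of G (the product of its components) is non-trivial. -/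
theorem result {G : Type*} [Group G] [Finite G] {D : Set G} (hD : Cfsg.IsThreeTranspositionClass D) (hD2 : ∃ a ∈ D, ∃ b ∈ D, a ≠ b) : (∀ p : ℕ, p.Prime → 3 < p → Cfsg.pCore p G ≤ Subgroup.center G) ∧ ((¬ Cfsg.pCore 2 G ≤ Subgroup.center G ∧ Cfsg.pCore 3 G ≤ Subgroup.center G ∧ Cfsg.layer G = ⊥) ∨ (Cfsg.pCore 2 G ≤ Subgroup.center G ∧ ¬ Cfsg.pCore 3 G ≤ Subgroup.center G ∧ Cfsg.layer G = ⊥) ∨ (Cfsg.pCore 2 G ≤ Subgroup.center G ∧ Cfsg.pCore 3 G ≤ Subgroup.center G ∧ Cfsg.layer G ≠ ⊥)) := by
  open Fischer in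
  refine ⟨fun p hp h3 => TG.pCore_le_center (TC.group hD) hp h3, ?_⟩
  by_cases hl : layer G = ⊥
  · obtain ⟨d, hd⟩ := TC.nonempty hD
    have hn : ¬ (pCore 2 G ≤ Subgroup.center G ∧ pCore 3 G ≤ Subgroup.center G) := by
      rintro ⟨h2, h3⟩
      obtain ⟨L, hL⟩ := TC.exists_component hD hD2 h2 h3
      exact Sig.layer_eq_bot_iff.1 hl L hL
    rcases TG.Vs_or_Ws hd with h | h
    · have h2 := TC.pCore_two_le_center hD hd h
      exact Or.inr (Or.inl ⟨h2, fun h3 => hn ⟨h2, h3⟩, hl⟩)
    · have h3 := TC.pCore_three_le_center hD hd h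
      exact Or.inl ⟨fun h2 => hn ⟨h2, h3⟩, h3, hl⟩
  · have := mt Sig.layer_eq_bot_iff.2 hl
    push Not at this
    obtain ⟨L, hL⟩ := this
    have := TG.component_normal (TC.group hD) hL
    exact Or.inr (Or.inr ⟨TC.pCore_two_le_center_of_qs hD hL.2,
      TC.pCore_three_le_center_of_qs hD hL.2, hl⟩)

end Cfsg.Agent.S5351
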