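import Cfsg.Statements.S5354
import Cfsg.Agent.Fischer.Prim
-- import your own Cfsg.Agent.* helpers here

set_option autoImplicit false
open Cfsg

namespace Cfsg.Agent.S5354

/-- Let D be a conjugation-invariant generating set of 3-transpositions of the finite group G on which G acts primitively by conjugation, and suppose two different members of D commute (width at least 2). Then G has a quasisimple normal subgroup L of index at most 2 with the generalized Fitting subgroup of G equal to L times the centre, the commuting graph of D is connected, and for d in D the subgroup generated by the members of D commuting with d is a maximal D-subgroup: it is proper, and every subgroup generated by members of D that contains it is either it or G. -/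
theorem result {G : Type*} [Group G] [Finite G] {D : Set G} (hD : Cfsg.IsThreeTranspositionGroup D) (hprim : Cfsg.IsPrimitiveUnderConj D) (hw : ∃ a ∈ D, ∃ b ∈ D, a ≠ b ∧ Commute a b) : (∃ L : Subgroup G, L.Normal ∧ Cfsg.IsQuasisimple L ∧ L.index ≤ 2 ∧ Cfsg.generalizedFittingSubgroup G = L ⊔ Subgroup.center G) ∧ (Cfsg.commutingGraph D).Connected ∧ ∀ d ∈ D, Subgroup.closure {y : G | y ∈ D ∧ Commute d y} ≠ ⊤ ∧ ∀ H : Subgroup G, Cfsg.IsDSubgroup D H → Subgroup.closure {y : G | y ∈ D ∧ Commute d y} ≤ H → H = Subgroup.closure {y : G | y ∈ D ∧ Commute d y} ∨ H = ⊤ := by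
  open Fischer in
  obtain ⟨L, h1, h2, h3, -, h5⟩ := prim_structure hD hprim hw
  refine ⟨⟨L, h1, h2, h3, h5⟩, prim_connected hD hprim hw, fun d hd => ⟨fun h => ?_, fun H hH hle => ?_⟩⟩
  · obtain ⟨e, he, hde⟩ := TC.exists_not_commute (prim_class hD hprim) hprim.2.1 hd
    have : Subgroup.closure {y : G | y ∈ D ∧ Commute d y} ≤ Subgroup.centralizer {d} := by
      rw [Subgroup.closure_le]
      intro y hy
      exact Invol.mem_centralizer_singleton.2 hy.2.symm
    exact hde (Invol.mem_centralizer_singleton.1 (this (h ▸ Subgroup.mem_top e))).symm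
  · by_cases k : ∃ e ∈ D, e ∈ H ∧ ¬ Commute d e
    · obtain ⟨e, he, heH, hde⟩ := k
      exact Or.inr (prim_maximal hD hprim hw hd he hde
        (fun y hy c => hle (Subgroup.subset_closure ⟨hy, c⟩)) heH)
    · push Not at k
      left
      refine le_antisymm ?_ hle
      rw [← hH]
      exact Subgroup.closure_mono fun y hy => ⟨hy.1, k y hy.1 hy.2⟩

end Cfsg.Agent.S5354
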