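import Cfsg.Statements.S5355
import Cfsg.Agent.FI.Pln

set_option autoImplicit false
open Cfsg

namespace Cfsg.Agent.S5355

open Cfsg.Agent.FI Cfsg.Agent.Fischer Equiv Subgroup

/-- Let D be a conjugacy class of 3-transpositions generating the finite group G, with at least two members, and d a member of D. Suppose that every member of D commuting with d commutes with exactly the same members of D as d does, and that exactly one member of D other than d commutes with d. Then G is isomorphic to the symmetric group of degree 4. -/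
theorem result {G : Type*} [Group G] [Finite G] {D : Set G} (hD : Cfsg.IsThreeTranspositionClass D) (hD2 : ∃ a ∈ D, ∃ b ∈ D, a ≠ b) {d : G} (hd : d ∈ D) (hV : {y : G | y ∈ D ∧ Commute d y} = {v : G | v ∈ D ∧ ∀ e ∈ D, Commute v e ↔ Commute d e}) (hm : {y : G | y ∈ D ∧ Commute d y}.ncard = 2) : Nonempty (G ≃* Equiv.Perm (Fin 4)) := by
  have hG := TC.group hD
  have w := TG.wt hG
  have h1 : (Dd D d).ncard = 1 := by
    have : {y : G | y ∈ D ∧ Commute d y} = insert d (Dd D d) := by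
      ext y
      by_cases k : y = d
      · simp [k, hd]
      · simp [k, mem_Dd]
    rw [this, Set.ncard_insert_of_notMem (not_mem_Dd_self d)] at hm
    omega
  have uq : ∀ x ∈ D, ∀ y ∈ Dd D x, ∀ z ∈ Dd D x, y = z := by
    intro x hx y hy z hz
    obtain ⟨g, rfl⟩ := TC.exists_conj hD hd hx
    rw [← TG.ncard_Dd_conj hG g, Set.ncard_eq_one] at h1
    obtain ⟨u, hu⟩ := h1
    rw [hu] at hy hz
    exact hy.trans hz.symm
  obtain ⟨v, hv⟩ : ∃ v, v ∈ Dd D d := by
    obtain ⟨u, hu⟩ := Set.ncard_eq_one.1 h1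
    exact ⟨u, hu ▸ rfl⟩
  obtain ⟨e, he, n⟩ := TC.exists_not_commute hD hD2 hd
  have nv : ∀ y ∈ D, ¬ Commute d y → Br v y := fun y hy k => wbr w hv.1 hy fun c =>
    k (uq v hv.1 d (Dd_symm hd hv) y ⟨hy, fun q => k (q ▸ hv.2.2), c⟩ ▸ rfl)
  obtain ⟨φ, p1, p2, p3⟩ := hom_S4 (w.sq _ hd) (w.sq _ he) (w.sq _ hv.1) hv.2.2 (wbr w hd he n) (nv e he n).symm
  have inj := hom_S4_injective (φ := φ) (by rw [p1, p3]; exact hv.2.1.symm)
  have mem : ∀ σ : Perm (Fin 4), φ (σ * swap 0 1 * σ⁻¹) ∈ D := fun σ => by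
    rw [map_mul, map_mul, map_inv, p1]; exact TG.conj hG _ hd
  have rg : ∀ σ : Perm (Fin 4), ∀ p ∈ D, Commute (φ (σ * swap 0 1 * σ⁻¹)) p → p ∈ φ.range := by
    intro σ p hp c
    by_cases k : p = φ (σ * swap 0 1 * σ⁻¹)
    · exact ⟨_, k.symm⟩
    · refine ⟨σ * swap 2 3 * σ⁻¹, uq _ (mem σ) _ ?_ _ ⟨hp, k, c⟩⟩
      simp only [map_mul, map_inv, p1, p3]
      exact (TG.conj_mem_Dd hG _).2 hv
  refine ⟨(MulEquiv.ofBijective φ ⟨inj, MonoidHom.range_eq_top.1 (eq_top_iff.2 (hG.2.2 ▸ (closure_le _).2 ?_))⟩).symm⟩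
  intro p hp
  by_cases c1 : Commute d p
  · exact rg 1 p hp (by simpa [p1] using c1)
  by_cases c2 : Commute e p
  · exact rg (swap 0 2) p hp (by rwa [(by decide : swap 0 2 * swap 0 1 * (swap 0 2)⁻¹ = swap (1 : Fin 4) 2), p2])
  by_cases c3 : Commute (d * e * d) p
  · refine rg (swap 1 2) p hp ?_
    rwa [(by decide : swap 1 2 * swap 0 1 * (swap 1 2)⁻¹ = swap (0 : Fin 4) 1 * swap 1 2 * swap 0 1), map_mul, map_mul,
      p1, p2]
  have P := Pl.mk' w hd he hp n c1 c2 c3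
  have ne : ∀ {x y : G}, ¬ Commute x y → x ≠ y := fun n q => n (q ▸ rfl)
  have fx : ∀ x, x ≠ ![0, 0] → Br v (plPt d e p x) := fun x hx =>
    have m := P.pt_mem w.conj hd he hp x
    nv _ m fun c => hx (P.pt_inj (ne n) (ne c1) (ne c2) (ne c3) (plPt_d.trans
      (weq w hd m c (by simpa only [plPt_d] using P.pt_br ![0, 0] x))).symm)
  have f4 := fx (tA ![1, 0] ![0, 1]) (by decide)
  have f5 := fx (tA (tA ![0, 0] ![1, 0]) ![0, 1]) (by decide)
  simp only [P.pt_tri, plPt_d, plPt_c, plPt_p] at f4 f5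
  refine absurd ((P.gamma (w.sq _ hv.1) hv.2.2.symm (nv e he n) (nv p hp c1) f4 f5).2 ?_) hv.2.1
  have := (TG.conj_mem_Dd hG (zz d e p)).2 hv
  rw [conj_eq_of_commute P.zd] at this
  exact (mul_inv_eq_iff_eq_mul.1 (uq d hd _ this _ hv)).symm

end Cfsg.Agent.S5355
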