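import Cfsg.Statements.S5356
import Cfsg.Agent.FI.Nc2

set_option autoImplicit false
open Cfsg

namespace Cfsg.Agent.S5356

open Cfsg.Agent.FI Cfsg.Agent.Fischer Subgroup

/-- Let D be a conjugacy class of 3-transpositions generating the finite group G, with at least two members, and d a member of D such that every member of D commuting with d commutes with exactly the same members of D as d. Then there is a Sylow 3-subgroup P of G normalized by d such that G is generated by d, P and the largest normal 2-subgroup of G. -/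
theorem result {G : Type*} [Group G] [Finite G] {D : Set G} (hD : Cfsg.IsThreeTranspositionClass D) (hD2 : ∃ a ∈ D, ∃ b ∈ D, a ≠ b) {d : G} (hd : d ∈ D) (hV : {y : G | y ∈ D ∧ Commute d y} = {v : G | v ∈ D ∧ ∀ e ∈ D, Commute v e ↔ Commute d e}) : ∃ P : Sylow 3 G, d ∈ Subgroup.normalizer (P : Set G) ∧ Subgroup.zpowers d ⊔ (P : Subgroup G) ⊔ Cfsg.pCore 2 G = ⊤ := by
  have hG := TC.group hD
  refine exists_sylow_three hD (fun a ha b hb c => ?_) hd (TC.exists_not_commute hD hD2 hd)
  obtain ⟨g, rfl⟩ := TC.exists_conj hD hd ha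
  obtain ⟨b, rfl⟩ : ∃ x, b = g * x * g⁻¹ := ⟨g⁻¹ * b * g, by group⟩
  exact TG.mul_mem_pCore_two hG ha (TG.conj_mem_Vs hG g
    ((Set.ext_iff.1 hV b).1 ⟨(TG.conj_mem_iff hG g).1 hb, (commute_conj_iff g).1 c⟩))

end Cfsg.Agent.S5356
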