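import Cfsg.Statements.S5358
import Cfsg.Agent.FI.OutR

set_option autoImplicit false
open scoped MatrixGroups
open Cfsg

namespace Cfsg.Agent.S5358

open Cfsg.Agent.FI Cfsg.Agent.Fischer Cfsg.Agent.Geom

/-- Let Q be a non-degenerate quadratic form on the n-dimensional coordinate space over the field with three elements and u, v vectors of the same non-zero norm Q(u) = Q(v) spanning different lines (v ≠ u and v ≠ −u). Then the reflection matrices of u and v commute if and only if u and v are orthogonal for the polar form of Q. -/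
theorem result (n : ℕ) (Q : QuadraticForm (ZMod 3) (Fin n → ZMod 3)) (hQ : (QuadraticMap.polarBilin Q).Nondegenerate) (u v : Fin n → ZMod 3) (hu : Q u ≠ 0) (huv : Q u = Q v) (h1 : v ≠ u) (h2 : v ≠ -u) : Commute (Cfsg.reflectionMatrix (⇑Q) u) (Cfsg.reflectionMatrix (⇑Q) v) ↔ QuadraticMap.polar (⇑Q) u v = 0 := by
  rw [← commute_rfI_iff zmod_three_cases (nondeg_of_polarBilin hQ) hu huv h1.symm
    (fun h => h2 (by rw [h, neg_neg])), ← coe_rfI, ← coe_rfI]
  exact ⟨fun h => Subtype.ext (Units.ext h), fun h => congrArg (fun x : isometryGroup (ZMod 3) ⇑Q => x.1.1) h⟩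

end Cfsg.Agent.S5358
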