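import Cfsg.Statements.S5360
import Cfsg.Agent.FI.OutR

set_option autoImplicit false
open scoped MatrixGroups
open Cfsg

namespace Cfsg.Agent.S5360

open Cfsg.Agent.FI Cfsg.Agent.Fischer Cfsg.Agent.Geom

/-- Let Q be a non-degenerate quadratic form on the n-dimensional coordinate space over the field with three elements, n ≥ 5, c a non-zero scalar, and R the subgroup of the isometry group generated by the reflections of norm c. Then the commutator subgroup of R is quasisimple of index at most 2, the generalized Fitting subgroup of R is the product of the centre and the commutator subgroup, and R acts primitively by conjugation on its reflections of norm c. -/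
theorem result (n : ℕ) (hn : 5 ≤ n) (Q : QuadraticForm (ZMod 3) (Fin n → ZMod 3)) (hQ : (QuadraticMap.polarBilin Q).Nondegenerate) (c : ZMod 3) (hc : c ≠ 0) : Cfsg.IsQuasisimple (commutator ↥(Cfsg.reflectionSubgroup (⇑Q) c)) ∧ (commutator ↥(Cfsg.reflectionSubgroup (⇑Q) c)).index ≤ 2 ∧ Cfsg.generalizedFittingSubgroup ↥(Cfsg.reflectionSubgroup (⇑Q) c) = Subgroup.center ↥(Cfsg.reflectionSubgroup (⇑Q) c) ⊔ commutator ↥(Cfsg.reflectionSubgroup (⇑Q) c) ∧ Cfsg.IsPrimitiveUnderConj {g : ↥(Cfsg.reflectionSubgroup (⇑Q) c) | (g : ↥(Cfsg.isometryGroup (ZMod 3) (⇑Q))) ∈ Cfsg.reflectionsOfNorm (⇑Q) c} := by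
  have h := nondeg_of_polarBilin hQ
  have hn' : 5 ≤ Fintype.card (Fin n) := by simpa
  have hD := class_refl_three h (by omega) hc
  obtain ⟨χ, -, h2, h3⟩ := exists_ker_reflSub h hn' hc
  have hL : IsQuasisimple ((Omega _ ⇑Q).subgroupOf (reflectionSubgroup ⇑Q c)) :=
    (Sig.qs_subgroupOf_iff (omega_le_reflSub h hn' hc)).2 (qs_Omega h hn')
  obtain ⟨d, hd⟩ := TC.nonempty hD
  have hi : ((Omega _ ⇑Q).subgroupOf (reflectionSubgroup ⇑Q c)).index ≤ 2 :=
    index_le_two_of_mul_mem (TC.group hD) hd fun a ha => by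
      obtain ⟨u, hu, e1⟩ := (mem_reflNorm _).1 hd
      obtain ⟨v, hv, e2⟩ := (mem_reflNorm _).1 ha
      rw [Subgroup.mem_subgroupOf, Subgroup.coe_mul, ← e1, ← e2, mem_Omega_iff, map_mul, isometryEquiv_rfI,
        isometryEquiv_rfI]
      exact refl_mul_refl_mem_commutator h (t := 1) (by rwa [show Q v = c from hv]) one_ne_zero
        (by rw [show Q u = c from hu, show Q v = c from hv]; ring)
  have hw := TC.width_two_of_qs hD hL
  have hp := TC.primitive_of_index hD (let ⟨a, ha, b, hb, h, _⟩ := hw; ⟨a, ha, b, hb, h⟩) hL hi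
  obtain ⟨L, hn, k1, k2, -, k3⟩ := prim_structure (TC.group hD) hp hw
  rw [commutator_eq_of_qs k1 k2]
  exact ⟨k1, k2, by rw [k3, sup_comm], hp⟩

end Cfsg.Agent.S5360
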