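import Cfsg.Statements.S5361
import Cfsg.Agent.Fischer.Rank3
-- import your own Cfsg.Agent.* helpers here

set_option autoImplicit false
open Cfsg

namespace Cfsg.Agent.S5361

/-- Let D be a conjugacy class of 3-transpositions generating the finite group G, and suppose the centre of G is trivial and some two different members of D commute. Then the following are equivalent: (1) the commutator subgroup of G is simple (possibly of prime order); (2) G acts primitively on D by conjugation; (3) the largest normal 2-subgroup and the largest normal 3-subgroup of G are trivial and the commuting graph of D is connected. -/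
theorem result {G : Type*} [Group G] [Finite G] {D : Set G} (hD : Cfsg.IsThreeTranspositionClass D) (hZ : Subgroup.center G = ⊥) (hw : ∃ a ∈ D, ∃ b ∈ D, a ≠ b ∧ Commute a b) : (IsSimpleGroup (commutator G) ↔ Cfsg.IsPrimitiveUnderConj D) ∧ (Cfsg.IsPrimitiveUnderConj D ↔ (Cfsg.pCore 2 G = ⊥ ∧ Cfsg.pCore 3 G = ⊥ ∧ (Cfsg.commutingGraph D).Connected)) := by
  open Fischer in
  have hG := TC.group hD
  have hD2 : ∃ a ∈ D, ∃ b ∈ D, a ≠ b := by
    obtain ⟨a, ha, b, hb, k, -⟩ := hw; exact ⟨a, ha, b, hb, k⟩
  obtain ⟨d, hd⟩ := TC.nonempty hD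
  refine ⟨⟨fun hs => (TC.prim_of_simple hD hs fun hc => ?_).1, fun hp => ?_⟩, ⟨fun hp => ⟨?_, ?_, ?_⟩,
    fun h => TC.primitive_of_connected hD hD2 (h.1 ▸ bot_le) (h.2.1 ▸ bot_le) h.2.2⟩⟩
  · obtain ⟨e, he, hde⟩ := TC.exists_not_commute hD hD2 hd
    obtain ⟨y, hy⟩ := TC.exists_Dd hD hw hd
    have m1 := TC.mul_mem_of_index hD (TC.index_commutator_le hD) hd he
    have m2 := TC.mul_mem_of_index hD (TC.index_commutator_le hD) hd hy.1
    have c : Commute (d * e) (d * y) :=
      congrArg Subtype.val (hc.is_comm.comm (⟨_, m1⟩ : commutator G) ⟨_, m2⟩)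
    have c2 : Commute e (d * y) := by
      have := ((Commute.refl d).mul_right hy.2.2).inv_left.mul_left c
      rwa [inv_mul_cancel_left] at this
    exact hde ((TT.commute_mul_iff hD.1 hd hy.1 he hy.2.1.symm).1 c2).1.symm
  · obtain ⟨L, h1, h2, h3, -, -⟩ := prim_structure hG hp hw
    rw [commutator_eq_of_qs h2 h3]
    apply Sig.qs_simple_of_center_eq_bot h2
    rw [eq_bot_iff]
    intro x hx
    have : (Subgroup.center L).map L.subtype ≤ fittingSubgroup G := by
      have : IsMulCommutative ((Subgroup.center L).map L.subtype) := inferInstance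
      exact Solv.le_fitting_of_isMulCommutative
    rw [TG.fitting_eq_center hG (TC.pCore_two_le_center_of_qs hD h2)
      (TC.pCore_three_le_center_of_qs hD h2), hZ] at this
    have := this ⟨x, hx, rfl⟩
    simpa using this
  · rw [eq_bot_iff, ← hZ]; exact TC.pCore_two_le_center hD hd (prim_Vs hG hp hd)
  · rw [eq_bot_iff, ← hZ]; exact TC.pCore_three_le_center hD hd (prim_Ws hG hp hw hd)
  · exact prim_connected hG hp hw

end Cfsg.Agent.S5361
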