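import Cfsg.Statements.S5363
-- import your own Cfsg.Agent.* helpers here

set_option autoImplicit false
open Cfsg

namespace Cfsg.Agent.S5363

theorem inv_pow_conj {G : Type*} [Group G] {x r : G} (h : x * r = r⁻¹ * x) (n : ℕ) :
    x * r ^ n = (r ^ n)⁻¹ * x := by
  induction n with
  | zero => simp
  | succ n ih => rw [pow_succ, ← mul_assoc, ih, mul_assoc, h, ← mul_assoc, ← mul_inv_rev, ← pow_succ', pow_succ]

/-- Let D be a conjugation-invariant set of involutions of a finite group G. Then every product of two members of D has odd order or order 2 if and only if, for every a in D and every b in D different from a and commuting with a, the members of D commuting with a b are exactly those commuting with both a and b. -/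
theorem result {G : Type*} [Group G] [Finite G] {D : Set G} (hinv : ∀ d ∈ D, orderOf d = 2) (hconj : ∀ g : G, ∀ d ∈ D, g * d * g⁻¹ ∈ D) : (∀ a ∈ D, ∀ b ∈ D, Odd (orderOf (a * b)) ∨ orderOf (a * b) = 2) ↔ ∀ a ∈ D, ∀ b ∈ D, b ≠ a → Commute a b → {y : G | y ∈ D ∧ Commute (a * b) y} = {y : G | y ∈ D ∧ Commute a y} ∩ {y : G | y ∈ D ∧ Commute b y} := by
  have hsq : ∀ a ∈ D, a * a = 1 := fun a ha => by
    rw [← pow_two, ← hinv a ha, pow_orderOf_eq_one]
  have hi : ∀ a ∈ D, a⁻¹ = a := fun a ha => inv_eq_of_mul_eq_one_right (hsq a ha)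
  have hc2 : ∀ a ∈ D, ∀ b ∈ D, (a * b) ^ 2 = 1 → Commute a b := by
    intro a ha b hb h
    have := inv_eq_of_mul_eq_one_right ((pow_two _).symm.trans h)
    rw [mul_inv_rev, hi a ha, hi b hb] at this
    exact this.symm
  constructor
  · intro h a ha b hb hne hab
    ext y
    simp only [Set.mem_setOf_eq, Set.mem_inter_iff]
    refine ⟨fun ⟨hy, hc⟩ => ?_, fun ⟨⟨hy, h1⟩, _, h2⟩ => ⟨hy, h1.mul_left h2⟩⟩
    have e1 : Commute a y → Commute b y := fun h1 => by
      have : b = a * (a * b) := by rw [← mul_assoc, hsq a ha, one_mul]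
      rw [this]; exact h1.mul_left hc
    have e2 : Commute b y → Commute a y := fun h1 => by
      have : a = (a * b) * b := by rw [mul_assoc, hsq b hb, mul_one]
      rw [this]; exact hc.mul_left h1
    have : Commute a y := by
      rcases h y hy a ha with h1 | h1
      · rcases h y hy b hb with h2 | h2
        · exfalso
          obtain ⟨k, hk⟩ := h1.mul h2
          have f1 : (y * a) ^ (2 * k + 1) = 1 := by
            rw [← hk, pow_mul, pow_orderOf_eq_one, one_pow]
          have f2 : (y * b) ^ (2 * k + 1) = 1 := by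
            rw [← hk, mul_comm (orderOf _), pow_mul, pow_orderOf_eq_one, one_pow]
          have f3 : y * b = (y * a) * (a * b) := by
            rw [mul_assoc, ← mul_assoc a, hsq a ha, one_mul]
          have f4 : Commute (y * a) (a * b) :=
            hc.symm.mul_left ((Commute.refl a).mul_right hab)
          have f5 : (a * b) ^ 2 = 1 := by
            rw [hab.mul_pow, pow_two, pow_two, hsq a ha, hsq b hb, one_mul]
          rw [f3, f4.mul_pow, f1, one_mul, pow_succ, pow_mul, f5, one_pow, one_mul] at f2
          exact hne (by rw [eq_inv_of_mul_eq_one_right f2, hi a ha])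
        · exact e2 (hc2 y hy b hb (h2 ▸ pow_orderOf_eq_one _)).symm
      · exact (hc2 y hy a ha (h1 ▸ pow_orderOf_eq_one _)).symm
    exact ⟨⟨hy, this⟩, hy, e1 this⟩
  · intro h a ha b hb
    rcases Nat.even_or_odd (orderOf (a * b)) with ⟨m, hm⟩ | ho
    swap
    · exact Or.inl ho
    right
    set r := a * b with hr
    have hm0 : 0 < m := by have := orderOf_pos r; omega
    have hxr : a * r = r⁻¹ * a := by
      rw [hr, mul_inv_rev, hi a ha, hi b hb, ← mul_assoc, hsq a ha, mul_assoc, hsq a ha]; simp
    have h2 : r ^ m * r ^ m = 1 := by rw [← pow_add, ← hm, pow_orderOf_eq_one]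
    have hz1 : r ^ m ≠ 1 := pow_ne_one_of_lt_orderOf hm0.ne' (by omega)
    have hzi : (r ^ m)⁻¹ = r ^ m := inv_eq_of_mul_eq_one_right h2
    have haz : Commute a (r ^ m) := by
      have := inv_pow_conj hxr m
      rwa [hzi] at this
    have hb' : b = a * r := by rw [hr, ← mul_assoc, hsq a ha, one_mul]
    have hcD : a * r ^ m ∈ D := by
      rcases Nat.even_or_odd' m with ⟨k, rfl | rfl⟩
      · have := hconj (r ^ k)⁻¹ a ha
        rw [← inv_pow_conj hxr k] at this
        convert this using 1; group
      · have := hconj (r ^ k)⁻¹ b hb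
        rw [hb', ← mul_assoc, ← inv_pow_conj hxr k] at this
        convert this using 1; group
    have := h a ha _ hcD (fun e => hz1 (by simpa using e)) ((Commute.refl a).mul_right haz)
    have hbm : b ∈ {y : G | y ∈ D ∧ Commute (a * (a * r ^ m)) y} := by
      refine ⟨hb, ?_⟩
      rw [← mul_assoc, hsq a ha, one_mul, hb']
      exact haz.symm.mul_right ((Commute.refl r).pow_left m)
    rw [this] at hbm
    have hab : Commute a b := hbm.1.2
    refine orderOf_eq_prime ?_ fun e => hz1 (by rw [e, one_pow])
    rw [hr, hab.mul_pow, pow_two, pow_two, hsq a ha, hsq b hb, one_mul]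

end Cfsg.Agent.S5363
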