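import Cfsg.Statements.S5364
-- import your own Cfsg.Agent.* helpers here

set_option autoImplicit false
open Cfsg

namespace Cfsg.Agent.S5364

/-- Let D be a conjugation-invariant set of involutions of a finite group G and t an involution in the centre of G such that d t does not lie in D for any d in D. If the images of the members of D in G modulo the subgroup generated by t satisfy the 3-transposition order conditions (each has order 2 and any two have product of order at most 3), then so do the members of D. -/
theorem result {G : Type*} [Group G] [Finite G] {D : Set G} (hinv : ∀ d ∈ D, orderOf d = 2) (hconj : ∀ g : G, ∀ d ∈ D, g * d * g⁻¹ ∈ D) (t : G) (ht : orderOf t = 2) (htZ : t ∈ Subgroup.center G) (hDt : ∀ d ∈ D, d * t ∉ D) [(Subgroup.zpowers t).Normal] (himg : Cfsg.IsThreeTranspositionSet ((QuotientGroup.mk : G → G ⧸ Subgroup.zpowers t) '' D)) : Cfsg.IsThreeTranspositionSet D := by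
  have hsq : ∀ a ∈ D, a * a = 1 := fun a ha => by
    rw [← pow_two, ← hinv a ha, pow_orderOf_eq_one]
  have hi : ∀ a ∈ D, a⁻¹ = a := fun a ha => inv_eq_of_mul_eq_one_right (hsq a ha)
  have hz : ∀ x : G, (QuotientGroup.mk x : G ⧸ Subgroup.zpowers t) = 1 → x = 1 ∨ x = t := by
    classical
    intro x hx
    rw [QuotientGroup.eq_one_iff, mem_zpowers_iff_mem_range_orderOf, ht] at hx
    obtain ⟨k, hk, rfl⟩ := Finset.mem_image.1 hx
    rw [Finset.mem_range] at hk
    interval_cases k <;> simp
  refine ⟨hinv, fun a ha b hb => ?_⟩
  have hc : t * b = b * t := (Subgroup.mem_center_iff.1 htZ b).symm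
  rcases himg.2 _ ⟨a, ha, rfl⟩ _ ⟨b, hb, rfl⟩ with h | h
  · rcases hz ((a * b) ^ 2) (by simpa using h) with h | h
    · exact Or.inl h
    · refine (hDt b hb ?_).elim
      have := hconj a b hb
      rw [hi a ha] at this
      convert this using 1
      rw [← hc, ← h, pow_two, mul_assoc, mul_assoc a b b, hsq b hb, mul_one]
  · rcases hz ((a * b) ^ 3) (by simpa using h) with h | h
    · exact Or.inr h
    · refine (hDt b hb ?_).elim
      have := hconj (a * b) a ha
      rw [mul_inv_rev, hi a ha, hi b hb] at this
      convert this using 1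
      rw [← hc, ← h, pow_succ, pow_two, mul_assoc, mul_assoc a b b, hsq b hb, mul_one]
      group

end Cfsg.Agent.S5364
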