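import Cfsg.Statements.S5365
import Cfsg.Agent.FI.S5
import Cfsg.Agent.Fischer.VW

set_option autoImplicit false
open Cfsg

namespace Cfsg.Agent.S5365

open Cfsg.Agent.FI Cfsg.Agent.Fischer Equiv Subgroup

/-- Let D be a non-empty conjugation-invariant set of involutions of a finite group G satisfying the 3-transposition order conditions, and suppose that for every d in D the members of D other than d commuting with d generate a subgroup isomorphic to the symmetric group of degree 3, and the largest normal 3-subgroup of the centralizer of d has order 3. Then the subgroup generated by D is isomorphic to the symmetric group of degree 5 or to the direct product of two symmetric groups of degree 3. -/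
theorem result {G : Type*} [Group G] [Finite G] {D : Set G} (hD : Cfsg.IsThreeTranspositionSet D) (hconj : ∀ g : G, ∀ d ∈ D, g * d * g⁻¹ ∈ D) (hne : D.Nonempty) (hloc : ∀ d ∈ D, Nonempty (↥(Subgroup.closure {y : G | y ∈ D ∧ y ≠ d ∧ Commute d y}) ≃* Equiv.Perm (Fin 3)) ∧ Nat.card (Cfsg.pCore 3 ↥(Subgroup.centralizer ({d} : Set G))) = 3) : Nonempty (↥(Subgroup.closure D) ≃* Equiv.Perm (Fin 5)) ∨ Nonempty (↥(Subgroup.closure D) ≃* Equiv.Perm (Fin 3) × Equiv.Perm (Fin 3)) := by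
  have w : WT D := ⟨fun _ => TT.sq hD, fun _ a _ b => TT.commute_or_br hD a b, fun x a y b => by
    simpa only [TT.inv hD a] using hconj x y b⟩
  have ne : ∀ {x y : G}, ¬ Commute x y → x ≠ y := fun n q => n (q ▸ rfl)
  have L : ∀ d ∈ D, (∀ x ∈ Dd D d, ∀ y ∈ Dd D d, Commute x y → x = y) ∧
      (∀ x ∈ Dd D d, ∀ y ∈ Dd D d, ¬ Commute x y → ∀ z ∈ Dd D d, z = x ∨ z = y ∨ z = x * y * x) ∧
      ∃ x ∈ Dd D d, ∃ y ∈ Dd D d, ¬ Commute x y := by
    intro d hd
    obtain ⟨e⟩ : Nonempty (closure (Dd D d) ≃* Perm (Fin 3)) := (hloc d hd).1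
    let s : ∀ x ∈ Dd D d, closure (Dd D d) := fun x hx => ⟨x, Subgroup.subset_closure hx⟩
    have s1 : ∀ x hx, e (s x hx) * e (s x hx) = 1 := fun x hx => by
      rw [← map_mul, ← map_one e]; exact congrArg e (Subtype.ext (w.sq _ hx.1))
    have s2 : ∀ x hx, e (s x hx) ≠ 1 := fun x hx q =>
      TT.ne_one hD hx.1 (congrArg Subtype.val (e.map_eq_one_iff.1 q))
    refine ⟨fun x hx y hy c => ?_, fun x hx y hy n z hz => ?_, ?_⟩
    · refine congrArg Subtype.val (e.injective ((by decide : ∀ σ τ : Perm (Fin 3), σ * σ = 1 ∧ τ * τ = 1 ∧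
        σ ≠ 1 ∧ τ ≠ 1 ∧ σ * τ = τ * σ → σ = τ) _ _ ⟨s1 x hx, s1 y hy, s2 x hx, s2 y hy, ?_⟩))
      rw [← map_mul, ← map_mul]; exact congrArg e (Subtype.ext c)
    · have := (by decide +kernel : ∀ σ : Perm (Fin 3), σ * σ = 1 ∧ σ ≠ 1 → ∀ τ : Perm (Fin 3), τ * τ = 1 ∧ τ ≠ 1 →
        ∀ ρ : Perm (Fin 3), ρ * ρ = 1 ∧ ρ ≠ 1 → σ = τ ∨ ρ = σ ∨ ρ = τ ∨ ρ = σ * τ * σ)
        _ ⟨s1 x hx, s2 x hx⟩ _ ⟨s1 y hy, s2 y hy⟩ _ ⟨s1 z hz, s2 z hz⟩
      replace this := this.resolve_left fun q => ne n (congrArg Subtype.val (e.injective q))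
      simpa only [← map_mul, e.apply_eq_iff_eq, Subtype.ext_iff, s, coe_mul] using this
    · by_contra k
      push Not at k
      have := eq_one_of_isPGroup_of_pow (isPGroup_closure_of_commute (fun a ha => w.sq _ ha.1) k)
        (e.symm (swap 0 1 * swap 1 2)).2 (q := 3)
        (by rw [← coe_pow, ← map_pow, (by decide : (swap (0 : Fin 3) 1 * swap 1 2) ^ 3 = 1), map_one, coe_one])
        (by norm_num)
      exact absurd (e.symm.map_eq_one_iff.1 (Subtype.ext this)) (by decide)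
  have cl : ∀ {H : Subgroup G} {d x y p : G}, d ∈ D → x ∈ Dd D d → y ∈ Dd D d → ¬ Commute x y → d ∈ H → x ∈ H →
      y ∈ H → p ∈ D → Commute d p → p ∈ H := by
    intro H d x y p hd hx hy n a b c hp k
    by_cases q : p = d
    · exact q ▸ a
    · rcases (L d hd).2.1 x hx y hy n p ⟨hp, q, k⟩ with rfl | rfl | rfl
      exacts [b, c, mul_mem (mul_mem b c) b]
  obtain ⟨d, hd⟩ := hne
  obtain ⟨a, ha, b, hb, nab⟩ := (L d hd).2.2
  obtain ⟨e, he, nde⟩ : ∃ e ∈ Dd D a, ¬ Commute d e := by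
    obtain ⟨x, hx, y, hy, n⟩ := (L a ha.1).2.2
    by_cases c : Commute d x
    · exact ⟨y, hy, by rwa [(L a ha.1).1 d (Dd_symm hd ha) x hx c]⟩
    · exact ⟨x, hx, c⟩
  have t := w.conj _ hd _ he.1
  have fin : ∀ {H : Type} [Group H] (φ : H →* G), Function.Injective φ → D ⊆ φ.range → φ.range ≤ closure D →
      Nonempty (closure D ≃* H) := fun φ h1 h2 h3 =>
    ⟨(MulEquiv.subgroupCongr (le_antisymm ((closure_le _).2 h2) h3)).trans (MonoidHom.ofInjective h1).symm⟩
  have sub : ∀ x ∈ D, x ∈ closure D := fun x hx => Subgroup.subset_closure hx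
  by_cases c : Commute b e
  · obtain ⟨φ, p1, p2⟩ := hom_S3 (w.sq _ ha.1) (w.sq _ hb.1) (wbr w ha.1 hb.1 nab)
    obtain ⟨ψ, q1, q2⟩ := hom_S3 (w.sq _ hd) (w.sq _ he.1) (wbr w hd he.1 nde)
    have r1 := range_hom_S3 φ
    have r2 := range_hom_S3 ψ
    rw [p1, p2] at r1
    rw [q1, q2] at r2
    have cm : ∀ σ τ, Commute (φ σ) (ψ τ) := fun σ τ => by
      have : closure {a, b} ≤ centralizer (closure {d, e} : Subgroup G) := by
        rw [centralizer_closure, closure_le]
        rintro _ (rfl | rfl) _ (rfl | rfl)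
        exacts [ha.2.2, he.2.2.symm, hb.2.2, c.symm]
      exact (this (r1 ▸ ⟨σ, rfl⟩) _ (r2 ▸ ⟨τ, rfl⟩)).symm
    have i1 := hom_S3_injective (φ := φ) (by rw [p1, p2]; exact ne nab)
    have i2 := hom_S3_injective (φ := ψ) (by rw [q1, q2]; exact ne nde)
    have rg := MonoidHom.noncommCoprod_range φ ψ cm
    rw [r1, r2] at rg
    refine .inr (fin (φ.noncommCoprod ψ cm) ?_ (fun p hp => ?_) ?_)
    · rw [injective_iff_map_eq_one]
      rintro ⟨σ, τ⟩ q
      have q : φ σ = (ψ τ)⁻¹ := eq_inv_of_mul_eq_one_left q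
      obtain rfl : σ = 1 := (by decide : ∀ σ : Perm (Fin 3), (∀ ρ, ρ * σ = σ * ρ) → σ = 1) σ fun ρ =>
        i1 (by rw [map_mul, map_mul, q]; exact (cm ρ τ).inv_right)
      rw [map_one, eq_comm, inv_eq_one, ← map_one ψ] at q
      rw [i2 q]; rfl
    · have ma : a ∈ closure {a, b} ⊔ closure {d, e} := mem_sup_left (Subgroup.subset_closure (by simp))
      have mb : b ∈ closure {a, b} ⊔ closure {d, e} := mem_sup_left (Subgroup.subset_closure (by simp))
      have md : d ∈ closure {a, b} ⊔ closure {d, e} := mem_sup_right (Subgroup.subset_closure (by simp))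
      have me : e ∈ closure {a, b} ⊔ closure {d, e} := mem_sup_right (Subgroup.subset_closure (by simp))
      have nb : ∀ {x y z : G}, ¬ Commute x y → Commute x z → y ≠ z := fun n c q => n (q ▸ c)
      have ae : a ∈ Dd D e := Dd_symm ha.1 he
      have be : b ∈ Dd D e := ⟨hb.1, nb nab he.2.2, c.symm⟩
      have eb : e ∈ Dd D b := Dd_symm he.1 be
      have ta := Commute.tri ha.2.2.symm he.2.2
      have tb := Commute.tri hb.2.2.symm c
      rw [SetLike.mem_coe, rg]
      by_contra np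
      have n1 := fun k => np (cl hd ha hb nab md ma mb hp k)
      have n2 := fun k => np (cl he.1 ae be nab me ma mb hp k)
      have n3 := fun k => np (cl t ⟨ha.1, (nb (wthird w hd nde) ha.2.2).symm, ta.symm⟩
        ⟨hb.1, (nb (wthird w hd nde) hb.2.2).symm, tb.symm⟩ nab (mul_mem (mul_mem md me) md) ma mb hp k)
      have n4 := fun k => np (cl ha.1 (Dd_symm hd ha) he nde ma md me hp k)
      have P := Pl.mk' w hd he.1 hp nde n1 n2 n3
      have ws : ∀ {x y u v : G}, x ∈ D → y ∈ D → u ∈ Dd D x → v ∈ Dd D x → u ∈ Dd D y → v ∈ Dd D y →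
          ¬ Commute u v → x * y ∈ pCore 3 G := by
        intro x y u v hx hy h1 h2 h3 h4 n
        have s : ∀ {x y}, x ∈ D → u ∈ Dd D x → v ∈ Dd D x → u ∈ Dd D y → v ∈ Dd D y → Dd D x ⊆ Dd D y := by
          intro x y hx h1 h2 h3 h4 z hz
          rcases (L x hx).2.1 u h1 v h2 n z hz with rfl | rfl | rfl
          exacts [h3, h4, (w.dd y).conj _ h3 _ h4]
        have e := (s hx h1 h2 h3 h4).antisymm (s hy h3 h4 h1 h2)
        have : (closure D).Normal := Classical.closure_normal_of_conj_mem hconj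
        refine Solv.map_subtype_pCore_le_of_isSubnormal (this.isSubnormal) ⟨⟨x, sub x hx⟩ * ⟨y, sub y hy⟩, ?_, rfl⟩
        refine TG.mul_mem_pCore_three' ((w.subtype _).group (TT.ne_one hD · rfl) (closure_subtype_eq_top D)) hx
          ⟨hy, Set.ext fun z => ?_⟩
        simpa only [mem_Dd, Set.mem_ofPred_eq, Ne, Subtype.ext_iff, commute_iff_eq, coe_mul] using
          Set.ext_iff.1 e z
      have u1 := ws hd he.1 ha hb ae be nab
      have u2 := ws ha.1 hb.1 (Dd_symm hd ha) he (Dd_symm hd hb) eb nde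
      have u3 : zz d e p ∈ pCore 3 G := by
        have := mul_mem u1 ((inferInstance : (pCore 3 G).Normal).conj_mem _ u1 p)
        rw [w.inv hp] at this
        simpa only [zz, mul_assoc] using this
      have le : (pCore 3 G).subgroupOf (centralizer {d}) ≤ pCore 3 (centralizer ({d} : Set G)) :=
        Solv.le_pCore ((Solv.isPGroup_pCore 3 G).comap_subtype)
      have : Fact (Nat.Prime 3) := ⟨by norm_num⟩
      obtain ⟨k, hk⟩ := mem_zpowers_of_prime_card (hloc d hd).2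
        (g := ⟨⟨_, mem_centralizer_singleton_iff.2 P.zd⟩, le u3⟩)
        (g' := ⟨⟨_, mem_centralizer_singleton_iff.2 (ha.2.2.mul_right hb.2.2).symm⟩, le u2⟩) fun q => by
          have q : zz d e p = 1 := congrArg (fun x => x.1.1) q
          exact ne nde ((P.beta (w.sq _ ha.1) ha.2.2.symm he.2.2 (wbr w ha.1 hp n4) rfl rfl).2.2.2.2
            (q ▸ Commute.one_right a))
      have hk : zz d e p ^ k = a * b := congrArg (fun x => x.1.1) hk
      exact n4 ((wmul_iff w ha.1 hb.1 hp (ne nab)).1 (hk ▸ P.zp.symm.zpow_right k)).1.symm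
    · rw [rg]
      refine sup_le ((closure_le _).2 ?_) ((closure_le _).2 ?_) <;> rintro _ (rfl | rfl)
      exacts [sub _ ha.1, sub _ hb.1, sub _ hd, sub _ he.1]
  · obtain ⟨φ, p1, p2, p3, p4⟩ := hom_S5 (w.sq _ ha.1) (w.sq _ hb.1) (w.sq _ he.1) (w.sq _ hd)
      (wbr w ha.1 hb.1 nab) (wbr w hb.1 he.1 c) (wbr w hd he.1 nde).symm he.2.2 ha.2.2.symm hb.2.2.symm
    refine .inl (fin φ (hom_S5_injective (by rw [p1, p2]; exact ne nab)) (fun p hp => ?_)
      (range_le_of_swaps fun i => ?_))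
    · by_contra np
      have cj : ∀ g {x y}, x ∈ Dd D y → g * x * g⁻¹ ∈ Dd D (g * y * g⁻¹) := fun g x y k =>
        ⟨hconj g x k.1, fun q => k.2.1 ((conj_inj g).1 q), (commute_conj_iff g).2 k.2.2⟩
      have key : ∀ g ∈ φ.range, ∀ q ∈ D, q ∉ φ.range → ¬ Commute (g * a * g⁻¹) q := fun g hg q hq n k =>
        have m : ∀ x ∈ φ.range, g * x * g⁻¹ ∈ φ.range := fun x hx => mul_mem (mul_mem hg hx) (inv_mem hg)
        n (cl (hconj g a ha.1) (cj g (Dd_symm hd ha)) (cj g he) (mt (commute_conj_iff g).1 nde) (m _ ⟨_, p1⟩)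
          (m _ ⟨_, p4⟩) (m _ ⟨_, p3⟩) hq k)
      have key' : ∀ τ : Perm (Fin 5), τ.IsSwap → ∀ q ∈ D, q ∉ φ.range → ¬ Commute (φ τ) q := by
        intro τ hτ
        obtain ⟨i, j, n, rfl⟩ := hτ
        obtain ⟨σ, q⟩ := isConj_iff.1 (Perm.isConj_swap (by decide : (0 : Fin 5) ≠ 1) n)
        rw [← q, map_mul, map_mul, map_inv, p1]
        exact key _ ⟨σ, rfl⟩
      have out : ∀ g ∈ φ.range, g ∈ D → g * p * g ∉ φ.range := fun g hg h k =>
        np (tri_tri (w.sq _ h) p ▸ mul_mem (mul_mem hg k) hg)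
      have kb := p2 ▸ key' (swap 1 2) ⟨_, _, by decide, rfl⟩
      have md : d ∈ φ.range := ⟨_, p4⟩
      have me : e ∈ φ.range := ⟨_, p3⟩
      have P := Pl.mk' w hd he.1 hp nde (p4 ▸ key' (swap 3 4) ⟨_, _, by decide, rfl⟩ p hp np)
        (p3 ▸ key' (swap 2 3) ⟨_, _, by decide, rfl⟩ p hp np) (by
          have := key' (swap 3 4 * swap 2 3 * swap 3 4) ⟨2, 4, by decide, by decide⟩ p hp np
          rwa [map_mul, map_mul, p3, p4] at this)
      have m1 := w.conj _ he.1 _ hp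
      have m2 := w.conj _ t _ hp
      have g := P.gamma (w.sq _ hb.1) hb.2.2.symm (wbr w hb.1 he.1 c) (wbr w hb.1 hp (kb p hp np))
        (wbr w hb.1 m1 (kb _ m1 (out e me he.1))) (wbr w hb.1 m2 (kb _ m2 (out _ (mul_mem (mul_mem md me) md) t)))
      have := cj (zz d e p) hb
      rw [conj_eq_of_commute P.zd] at this
      exact hb.2.1 (g.2 (mul_inv_eq_iff_eq_mul.1 ((L d hd).1 _ hb _ this g.1).symm).symm)
    · fin_cases i
      exacts [(p1.symm ▸ sub _ ha.1 : φ (swap 0 1) ∈ _), (p2.symm ▸ sub _ hb.1 : φ (swap 1 2) ∈ _),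
        (p3.symm ▸ sub _ he.1 : φ (swap 2 3) ∈ _), (p4.symm ▸ sub _ hd : φ (swap 3 4) ∈ _)]

end Cfsg.Agent.S5365
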