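import Cfsg.Statements.S5366
import Cfsg.Agent.FI.Fsp

set_option autoImplicit false
open Cfsg

namespace Cfsg.Agent.S5366

open Cfsg.Agent.FI Cfsg.Agent.Fischer Cfsg.LineSystem

/-- Let L be a nondegenerate Fischer space on the point type X (every point on a line). Then for every point x the map t(x) — sending a point collinear with x to the third point of their common line and fixing every other point — is a permutation of X of order 2 and an automorphism of the line system; and the set of all t(x) satisfies the 3-transposition order conditions in the permutation group of X (any two have product of order at most 3). -/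
theorem result {X : Type*} (L : Set (Set X)) (hL : Cfsg.IsFischerSpace L) (hnd : Cfsg.LineSystem.IsNondegenerate L) : (∀ x : X, ∃ σ : Equiv.Perm X, ⇑σ = Cfsg.LineSystem.lineMap L x ∧ orderOf σ = 2 ∧ Cfsg.LineSystem.IsIso L L σ) ∧ Cfsg.IsThreeTranspositionSet {σ : Equiv.Perm X | ∃ x : X, ⇑σ = Cfsg.LineSystem.lineMap L x} := by
  have h := k2_lineMap hL.1
  have e := lines_lineMap hL.1 hL.2.1
  have hd := h.dist (e.symm ▸ hL)
  generalize lineMap L = t at h e hd
  subst e
  let σ : X → Equiv.Perm X := fun x => Function.Involutive.toPerm (t x) (h.inv x)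
  have sq : ∀ x, σ x * σ x = 1 := fun x => Equiv.ext (h.inv x)
  have ne : ∀ x, σ x ≠ 1 := by
    intro x k
    obtain ⟨l, hl, hx⟩ := hnd x
    obtain ⟨y, hy, n⟩ : ∃ y ∈ l, y ≠ x := by
      by_contra c
      push Not at c
      have := Set.ncard_le_ncard (t := {x}) (fun y hy => c y hy : l ⊆ {x}) (Set.finite_singleton x)
      rw [h.ncard hl, Set.ncard_singleton] at this
      omega
    exact (h.third hl hy hx n).1 (Equiv.ext_iff.1 k y)
  have tri : ∀ x y, σ x * σ y * σ x = σ (t x y) := fun x y => Equiv.ext fun z => by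
    change t x (t y (t x z)) = t (t x y) z
    rw [hd, h.inv]
  have ex : ∀ {τ : Equiv.Perm X} {x}, ⇑τ = t x → τ = σ x := fun k => Equiv.coe_inj.1 k
  refine ⟨fun x => ⟨σ x, rfl, orderOf_of_sq (sq x) (ne x), isIso_of_hom _ (hd x)⟩, TT.mk ?_ ?_ ?_⟩
  · rintro _ ⟨x, k⟩; exact ex k ▸ sq x
  · rintro _ ⟨x, k⟩; exact ex k ▸ ne x
  · rintro _ ⟨x, k⟩ _ ⟨y, l⟩
    rw [ex k, ex l]
    by_cases c : t x y = y
    · exact .inl (commute_of_tri (sq x) (by rw [tri, c]))
    · exact .inr (by rw [Br, tri, tri, h.br x y c])

end Cfsg.Agent.S5366
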