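import Cfsg.Statements.S5367
import Cfsg.Agent.FI.Pln

set_option autoImplicit false
open Cfsg

namespace Cfsg.Agent.S5367

open Cfsg.Agent.FI Cfsg.Agent.Fischer Cfsg.LineSystem Equiv

/-- Let D be a conjugation-invariant generating set of 3-transpositions of a finite group G. Then the line system on D whose lines are the triples {x, y, y x y⁻¹} for non-commuting members x, y of D is a Fischer space: two points lie on at most one line, lines have three points, and two different meeting lines generate a subspace isomorphic to the dual affine plane of order two or to the affine plane of order three. -/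
theorem result {G : Type*} [Group G] [Finite G] {D : Set G} (hD : Cfsg.IsThreeTranspositionGroup D) : Cfsg.IsFischerSpace (Cfsg.threeTranspositionLines D) := by
  have w := TG.wt hD
  let t : D → D → D := fun x y => ⟨x * y * x, w.conj _ x.2 _ y.2⟩
  have ti : ∀ x y : D, t x y = y ↔ Commute (x : G) y := fun x y => by
    rw [w.commute_iff x.2, Subtype.ext_iff]
  have h : K2 t := ⟨fun x => (ti x x).2 rfl, fun x y => Subtype.ext (tri_tri (w.sq _ x.2) _),
    fun x y k => Subtype.ext (wbr w x.2 y.2 (mt (ti x y).2 k)).symm⟩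
  have e : threeTranspositionLines D = lines t := by
    ext l
    refine exists_congr fun x => exists_congr fun y => and_congr (by rw [Ne, ti, Commute.symm_iff]) ?_
    rw [w.inv y.2]
    exact iff_of_eq (congrArg _ (Set.ext fun z => by simp [Subtype.ext_iff, t]))
  rw [e]
  refine ⟨h.partialLinear, fun _ => h.ncard, fun l hl m hm n ⟨a, ha, ha'⟩ => ?_⟩
  obtain ⟨c, hc, hc'⟩ : ∃ c ∈ m, c ∉ l := by
    by_contra k
    push Not at k
    exact n (Set.eq_of_subset_of_ncard_le k (by rw [h.ncard hl, h.ncard hm])).symm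
  have ac : c ≠ a := fun q => hc' (q ▸ ha)
  obtain ⟨nc, rfl⟩ := h.third hm hc ha' ac
  have ex : ∀ b ∈ l, b ≠ a → t a b ≠ b ∧ l = {b, a, t a b} := fun b hb n => h.third hl hb ha n
  by_cases k : ∃ b ∈ l, b ≠ a ∧ Commute (b : G) c
  · obtain ⟨b, hb, ba, bc⟩ := k
    obtain ⟨nb, rfl⟩ := ex b hb ba
    obtain ⟨φ, h1, h2, h3⟩ := hom_S4 (w.sq _ b.2) (w.sq _ a.2) (w.sq _ c.2) bc
      (wbr w a.2 b.2 (mt (ti _ _).2 nb)).symm (wbr w a.2 c.2 (mt (ti _ _).2 nc))
    have inj := hom_S4_injective (φ := φ) (by rw [h1, h3]; exact fun q => hc' (Subtype.ext q ▸ hb))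
    let σ : DualAffinePoint → Perm (Fin 4) := fun x =>
      if x.1 = {0, 1} then swap 0 1 else if x.1 = {1, 2} then swap 1 2 else if x.1 = {2, 3} then swap 2 3
      else if x.1 = {0, 2} then swap 0 2 else if x.1 = {1, 3} then swap 1 3 else swap 0 3
    have s1 : ∀ x y, σ (tD x y) = σ x * σ y * σ x := by decide +kernel
    have s2 : Function.Injective σ := by decide +kernel
    have gen : ∀ T : Set G, (∀ x ∈ T, ∀ y ∈ T, x * y * x ∈ T) → b.1 ∈ T → a.1 ∈ T → c.1 ∈ T → ∀ y, φ (σ y) ∈ T := by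
      intro T hT k1 k2 k3
      refine gen_of_step (s := tD) (A := {⟨{0, 1}, rfl⟩, ⟨{1, 2}, rfl⟩, ⟨{2, 3}, rfl⟩}) (by decide +kernel)
        (T := {y | φ (σ y) ∈ T}) (fun y hy => ?_) fun x hx y hy => ?_
      · simp only [Finset.mem_insert, Finset.mem_singleton] at hy
        rcases hy with rfl | rfl | rfl
        exacts [(h1.symm ▸ k1 : φ (swap 0 1) ∈ T), (h2.symm ▸ k2 : φ (swap 1 2) ∈ T),
          (h3.symm ▸ k3 : φ (swap 2 3) ∈ T)]
      · change _ ∈ T
        rw [s1, map_mul, map_mul]; exact hT _ hx _ hy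
    let f : DualAffinePoint → D := fun y => ⟨φ (σ y), gen D w.conj b.2 a.2 c.2 y⟩
    have ft : ∀ x y, f (tD x y) = t (f x) (f y) := fun x y => Subtype.ext (by simp only [f, t, s1, map_mul])
    have f1 : f ⟨{0, 1}, rfl⟩ = b := Subtype.ext h1
    have f2 : f ⟨{1, 2}, rfl⟩ = a := Subtype.ext h2
    have f3 : f ⟨{2, 3}, rfl⟩ = c := Subtype.ext h3
    refine .inl (dual_eq ▸ h.iso_span (f := f) (fun x y q => s2 (inj (congrArg Subtype.val q))) ft ?_
      fun T h1 h2 y => ?_)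
    · rintro _ ((rfl | rfl | rfl) | rfl | rfl | rfl)
      exacts [⟨_, f1⟩, ⟨_, f2⟩, ⟨_, (ft _ _).trans (congrArg₂ t f2 f1)⟩, ⟨_, f3⟩, ⟨_, f2⟩,
        ⟨_, (ft _ _).trans (congrArg₂ t f2 f3)⟩]
    · obtain ⟨z, hz, q⟩ := gen (Subtype.val '' T) (by
        rintro _ ⟨x, hx, rfl⟩ _ ⟨y, hy, rfl⟩; exact ⟨_, h2 x hx y hy, rfl⟩) ⟨b, h1 (by simp), rfl⟩
        ⟨a, h1 (by simp), rfl⟩ ⟨c, h1 (by simp), rfl⟩ y
      exact (Subtype.ext q : z = f y) ▸ hz
  · push Not at k
    obtain ⟨b, hb, ba⟩ : ∃ b ∈ l, b ≠ a := by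
      by_contra c
      push Not at c
      have := Set.ncard_le_ncard (t := {a}) (fun y hy => c y hy : l ⊆ {a})
      rw [h.ncard hl, Set.ncard_singleton] at this
      omega
    obtain ⟨nb, rfl⟩ := ex b hb ba
    have n1 := mt (ti _ _).2 nb
    have n2 := mt (ti _ _).2 nc
    have n3 := k b hb ba
    have n4 := k (t a b) (by simp) (h.ne' nb)
    have P := Pl.mk' w a.2 b.2 c.2 n1 n2 n3 n4
    let f : (Fin 2 → ZMod 3) → D := fun y => ⟨plPt a.1 b.1 c.1 y, P.pt_mem w.conj a.2 b.2 c.2 y⟩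
    have ft : ∀ x y, f (tA x y) = t (f x) (f y) := fun x y => Subtype.ext (P.pt_tri x y)
    have f1 : f ![0, 0] = a := Subtype.ext plPt_d
    have f2 : f ![1, 0] = b := Subtype.ext plPt_c
    have f3 : f ![0, 1] = c := Subtype.ext plPt_p
    have ne : ∀ {x y : G}, ¬ Commute x y → x ≠ y := fun n q => n (q ▸ rfl)
    refine .inr (aff_eq ▸ h.iso_span (f := f)
      (fun x y q => P.pt_inj (ne n1) (ne n2) (ne n3) (ne n4) (congrArg Subtype.val q)) ft ?_ fun T h1 h2 y => ?_)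
    · rintro _ ((rfl | rfl | rfl) | rfl | rfl | rfl)
      exacts [⟨_, f2⟩, ⟨_, f1⟩, ⟨_, (ft _ _).trans (congrArg₂ t f1 f2)⟩, ⟨_, f3⟩, ⟨_, f1⟩,
        ⟨_, (ft _ _).trans (congrArg₂ t f1 f3)⟩]
    · obtain ⟨z, hz, q⟩ := P.pt_mem (T := Subtype.val '' T) (by
        rintro _ ⟨x, hx, rfl⟩ _ ⟨y, hy, rfl⟩; exact ⟨_, h2 x hx y hy, rfl⟩) ⟨a, h1 (by simp), rfl⟩
        ⟨b, h1 (by simp), rfl⟩ ⟨c, h1 (by simp), rfl⟩ y
      exact (Subtype.ext q : z = f y) ▸ hz

end Cfsg.Agent.S5367
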