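import Cfsg.Statements.S5387
import Cfsg.Agent.Known.L34Mul
import Cfsg.Agent.Known.L34Eq
import Cfsg.Agent.Schur.Lift
import Cfsg.Agent.Schur.Hopf

set_option autoImplicit false
open Cfsg

namespace Cfsg.Agent.S5387

open Cfsg.Agent.Schur Cfsg.Agent.Known Subgroup

theorem aux {G L M : Type*} [Group G] [Group L] [Group M] [Finite L] [Finite M]
    (hG : HasSchurMultiplier G (Multiplicative (ZMod 3 × ZMod 4 × ZMod 4))) {σ : L →* G} {τ : M →* G}
    (hσ : IsCentralExt σ) (hτ : IsCentralExt τ) (h1 : ∀ x ∈ σ.ker, x * x = 1) (h2 : ∀ x ∈ τ.ker, x * x = 1) :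
    Nat.card (commutator (pullback σ τ)) ≤ Nat.card G * 4 := by
  let ρ := τ.comp (pullSnd σ τ)
  have h3 : ∀ x ∈ ρ.ker, x.1.1 ∈ σ.ker ∧ x.1.2 ∈ τ.ker := fun x hx => ⟨(show σ x.1.1 = τ x.1.2 from x.2).trans hx, hx⟩
  have hρ : IsCentralExt ρ := ⟨hτ.surj.comp (isCentralExt_pullSnd hσ τ).surj, fun x hx => mem_center_iff.2 fun y =>
    Subtype.ext (Prod.ext (mem_center_iff.1 (hσ.central (h3 x hx).1) _) (mem_center_iff.1 (hτ.central (h3 x hx).2) _))⟩
  obtain ⟨f, hf⟩ := exists_surj_mul hG hρ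
  have h4 : Nat.card (mul ρ) ≤ 4 := by
    have : Function.Surjective fun p : Fin 2 × Fin 2 => f (Multiplicative.ofAdd (0, (p.1.1 : ZMod 4), (p.2.1 : ZMod 4))) := by
      intro z
      obtain ⟨a, rfl⟩ := hf z
      obtain ⟨p, b, e⟩ := (by decide : ∀ a : Multiplicative (ZMod 3 × ZMod 4 × ZMod 4), ∃ p : Fin 2 × Fin 2, ∃ b,
        a = Multiplicative.ofAdd (0, (p.1.1 : ZMod 4), (p.2.1 : ZMod 4)) * (b * b)) a
      have : f b * f b = 1 := Subtype.ext (Subtype.ext (Prod.ext (h1 _ (h3 _ (f b).2.1).1) (h2 _ (h3 _ (f b).2.1).2)))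
      exact ⟨p, by rw [e, map_mul, map_mul, this, mul_one]⟩
    simpa using Nat.card_le_card_of_surjective _ this
  have := finite_base_of_hasSchurMultiplier hG
  let r := ρ.comp (commutator (pullback σ τ)).subtype
  rw [← r.ker.index_mul_card, index_ker]
  refine Nat.mul_le_mul (card_le_card_group _) ((Nat.card_le_card_of_injective
    (fun x : r.ker => (⟨x.1.1, x.2, x.1.2⟩ : mul ρ)) fun x y e => Subtype.ext (Subtype.ext (Subtype.ext_iff.1 e :))).trans h4)

theorem surj_fst {G L M : Type*} [Group G] [Group L] [Group M] (σ : L →* G) {τ : M →* G} (h : Function.Surjective τ) :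
    Function.Surjective (pullFst σ τ) := fun x => let ⟨y, hy⟩ := h (σ x); ⟨⟨(x, y), hy.symm⟩, rfl⟩

theorem aux2 {P L : Type*} [Group P] [Group L] [Finite P] (h : Group.IsPerfect L) {p : P →* L} (hp : Function.Surjective p)
    (hc : Nat.card (commutator P) ≤ Nat.card L) : Nonempty (commutator P ≃* L) := by
  have : Function.Surjective (p.comp (commutator P).subtype) := fun x => by
    have : x ∈ (commutator P).map p := by rw [map_commutator_of_surjective hp, Group.isPerfect_def.1 h]; trivial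
    obtain ⟨y, hy, e⟩ := this
    exact ⟨⟨y, hy⟩, e⟩
  exact ⟨MulEquiv.ofBijective _ (this.bijective_of_nat_card_le hc)⟩

/-- Up to isomorphism there is at most one quasisimple group whose centre is elementary abelian of order 4 and whose central quotient is isomorphic to the projective special linear group of dimension 3 over the field with four elements: any two such groups are isomorphic. -/
theorem result {L₁ L₂ : Type*} [Group L₁] [Finite L₁] [Group L₂] [Finite L₂] (F : Type) [Field F] [Fintype F] (hF : Fintype.card F = 4) (h₁ : Cfsg.IsQuasisimple L₁) (h₂ : Cfsg.IsQuasisimple L₂) (hc₁ : Nat.card (Subgroup.center L₁) = 4) (hc₂ : Nat.card (Subgroup.center L₂) = 4) (he₁ : ∀ x ∈ Subgroup.center L₁, x * x = 1) (he₂ : ∀ x ∈ Subgroup.center L₂, x * x = 1) (e₁ : L₁ ⧸ Subgroup.center L₁ ≃* Matrix.ProjectiveSpecialLinearGroup (Fin 3) F) (e₂ : L₂ ⧸ Subgroup.center L₂ ≃* Matrix.ProjectiveSpecialLinearGroup (Fin 3) F) : Nonempty (L₁ ≃* L₂) := by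
  obtain ⟨e⟩ := L34T.equiv hF
  have key : ∀ {L : Type _} [Group L] (e' : L ⧸ center L ≃* Matrix.ProjectiveSpecialLinearGroup (Fin 3) F),
      ((e'.trans e).toMonoidHom.comp (QuotientGroup.mk' (center L))).ker = center L := fun e' => by
    rw [MonoidHom.ker_comp_of_injective _ _ (e'.trans e).injective, QuotientGroup.ker_mk']
  have key' : ∀ {L : Type _} [Group L] (e' : L ⧸ center L ≃* Matrix.ProjectiveSpecialLinearGroup (Fin 3) F),
      ((e'.trans e).toMonoidHom.comp (QuotientGroup.mk' (center L))).ker = center L := fun e' => by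
    rw [MonoidHom.ker_comp_of_injective _ _ (e'.trans e).injective, QuotientGroup.ker_mk']
  have s1 : IsCentralExt ((e₁.trans e).toMonoidHom.comp (QuotientGroup.mk' (center L₁))) :=
    ⟨(e₁.trans e).surjective.comp (QuotientGroup.mk'_surjective _), (key e₁).le⟩
  have s2 : IsCentralExt ((e₂.trans e).toMonoidHom.comp (QuotientGroup.mk' (center L₂))) :=
    ⟨(e₂.trans e).surjective.comp (QuotientGroup.mk'_surjective _), (key' e₂).le⟩
  have h := aux L34T.mult s1 s2 (by rwa [key]) (by rwa [key'])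
  obtain ⟨a⟩ := aux2 h₁.1 (surj_fst _ s2.surj) (h.trans_eq (by
    rw [← hc₁, ← Nat.card_congr (e₁.trans e).toEquiv, card_eq_card_quotient_mul_card_subgroup (center L₁)]))
  obtain ⟨b⟩ := aux2 h₂.1 (isCentralExt_pullSnd s1 _).surj (h.trans_eq (by
    rw [← hc₂, ← Nat.card_congr (e₂.trans e).toEquiv, card_eq_card_quotient_mul_card_subgroup (center L₂)]))
  exact ⟨a.symm.trans b⟩

end Cfsg.Agent.S5387
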