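import Cfsg.Statements.S5392
import Cfsg.Agent.Leech.Simple
import Cfsg.Agent.S1567

set_option autoImplicit false
open Cfsg

namespace Cfsg.Agent.S5392

open Cfsg.Agent.Leech Cfsg.Agent.Comp Cfsg.Agent.Golay

/-- The Leech lattice modulo twice itself is a faithful irreducible module for the first Conway group: an automorphism of the rank-24 lattice built from the length-24 code that moves every lattice vector only by twice a lattice vector lies in the centre of the automorphism group (the centre consists of ±1, which act trivially there, so the kernel is exactly the centre), and an additive subgroup lying between twice the lattice and the lattice that is invariant under all lattice automorphisms is one of the two. -/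
theorem result : (∀ g : ↥Cfsg.Co0, (∀ v : ↥Cfsg.leechLattice, ∃ w : ↥Cfsg.leechLattice, ((g • v : ↥Cfsg.leechLattice) : Cfsg.GolayPt → ℤ) - (v : Cfsg.GolayPt → ℤ) = 2 • (w : Cfsg.GolayPt → ℤ)) → g ∈ Subgroup.center ↥Cfsg.Co0) ∧ ∀ M : AddSubgroup (Cfsg.GolayPt → ℤ), (∀ v ∈ Cfsg.leechLattice, (2 : ℤ) • v ∈ M) → M ≤ Cfsg.leechLattice → (∀ g : ↥Cfsg.Co0, ∀ v : ↥Cfsg.leechLattice, (v : Cfsg.GolayPt → ℤ) ∈ M → ((g • v : ↥Cfsg.leechLattice) : Cfsg.GolayPt → ℤ) ∈ M) → (∀ x ∈ M, ∃ w ∈ Cfsg.leechLattice, x = (2 : ℤ) • w) ∨ M = Cfsg.leechLattice := by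
  refine ⟨fun g h => mem_center_Co0.2 (pm_cases fun z hz => ?_), fun M h2 hle hinv => ?_⟩
  · obtain ⟨w, e⟩ := h z
    rcases short_cases (g • z).2 z.2 w.2 (by rw [sqNorm_act, hz]; norm_num) (by rw [hz]; norm_num) e with e | e | e
    exacts [Or.inl (Subtype.ext e), Or.inr (Subtype.ext e), absurd (hz.symm.trans e.2.1) (by norm_num)]
  refine or_iff_not_imp_left.2 fun h => ?_
  push Not at h
  obtain ⟨x, hx, h⟩ := h
  obtain ⟨y, hy, z, e⟩ := count_lat.1 ⟨x, hle hx⟩
  have e' : x = y + (2 : ℤ) • (z : V) := sub_eq_iff_eq_add'.1 ((congrArg Subtype.val e).trans (by simp [two_smul]))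
  have hyM : (y : V) ∈ M := by simpa [e'] using sub_mem hx (h2 _ z.2)
  have tr {N : ℤ} (ht : TrOn (⊤ : Subgroup CG) (Sh N)) {a : LL} (ha : a ∈ Sh N) (hM : (a : V) ∈ M) (b : LL) (hb : b ∈ Sh N) :
      (b : V) ∈ M := let ⟨g, _, e⟩ := ht a ha b hb; e ▸ hinv g a hM
  have key {a : LL} (ha : a ∈ Sh 32) (hM : (a : V) ∈ M) : M = leechLattice :=
    hle.antisymm (S1567.result.ge.trans ((AddSubgroup.closure_le _).2 fun b hb => tr tr32 ha hM ⟨b, hb.1⟩ hb.2))
  have h0 := le_sqNorm y.2 fun e0 => h z z.2 (by rw [e', e0, zero_add])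
  have h16 := sixteen_dvd_sqNorm y.2
  rcases (by omega : sqNorm (y : V) = 32 ∨ sqNorm (y : V) = 48 ∨ sqNorm (y : V) = 64) with h | h | h
  · exact key h hyM
  · exact key (a := vv + wh) (by decide +kernel)
      (add_mem (tr tr48 h hyM _ (by decide +kernel)) (tr tr48 h hyM _ (by decide +kernel)))
  · exact key (a := e8 none - (e8 none - ze)) (by decide +kernel)
      (sub_mem (tr tr64 h hyM _ (by decide +kernel)) (tr tr64 h hyM _ (by decide +kernel)))

end Cfsg.Agent.S5392
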