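import Cfsg.Statements.S5394
import Cfsg.Agent.Golay.Classes

set_option autoImplicit false
open Cfsg

namespace Cfsg.Agent.S5394

open Cfsg.Agent.Comp Cfsg.Agent.Golay MulAction
set_option maxRecDepth 100000

/-- The automorphism group of the length-24 code built from the squares modulo 23 has exactly two conjugacy classes of involutions: an involution either fixes exactly the eight points of an octad or has no fixed points, both kinds occur, and any two involutions of the same kind are conjugate in the group. -/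
theorem result : (∀ g ∈ Cfsg.M24, orderOf g = 2 → (Finset.univ.filter fun p => g p = p) ∈ Cfsg.octads ∨ ∀ p, g p ≠ p) ∧ (∃ g ∈ Cfsg.M24, orderOf g = 2 ∧ (Finset.univ.filter fun p => g p = p) ∈ Cfsg.octads) ∧ (∃ g ∈ Cfsg.M24, orderOf g = 2 ∧ ∀ p, g p ≠ p) ∧ ∀ g ∈ Cfsg.M24, ∀ h ∈ Cfsg.M24, orderOf g = 2 → orderOf h = 2 → ((∀ p, g p ≠ p) ↔ (∀ p, h p ≠ p)) → ∃ k ∈ Cfsg.M24, k * g * k⁻¹ = h := by
  refine ⟨fun g hg h => ?_, ⟨zA, zA.2, (Subgroup.orderOf_coe _).trans order_zA, ?_⟩,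
    ⟨zB, zB.2, (Subgroup.orderOf_coe _).trans order_zB, fixS_eq_empty.1 fixS_zB⟩, fun g hg h hh h1 h2 e => ?_⟩
  · rcases inv_cases ((orderOf_mk hg).trans h) with ⟨k, e⟩ | ⟨k, e⟩
    · left
      show fixS ⟨g, hg⟩ ∈ octads
      rw [← e, fixS_conj, fixS_zA]; exact inv_octads k _ oct0_mem
    · right
      refine (fixS_eq_empty (g := ⟨g, hg⟩)).1 ?_
      rw [← e, fixS_conj, fixS_zB, Finset.smul_finset_empty]
  · exact (fixS_zA ▸ oct0_mem : fixS zA ∈ octads)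
  · have key : ∀ {z : MG}, (∃ k : MG, k * z * k⁻¹ = ⟨g, hg⟩) → (∃ k : MG, k * z * k⁻¹ = ⟨h, hh⟩) →
        ∃ k ∈ M24, k * g * k⁻¹ = h := fun {z} ⟨k, e1⟩ ⟨k', e2⟩ => ⟨(k' * k⁻¹ : MG), (k' * k⁻¹).2,
      congrArg Subtype.val (show k' * k⁻¹ * ⟨g, hg⟩ * (k' * k⁻¹)⁻¹ = ⟨h, hh⟩ by rw [← e1, ← e2]; group)⟩
    have e' : fixS ⟨g, hg⟩ = ∅ ↔ fixS ⟨h, hh⟩ = ∅ := fixS_eq_empty.trans (e.trans (fixS_eq_empty (g := ⟨h, hh⟩)).symm)
    by_cases h0 : fixS ⟨g, hg⟩ = ∅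
    · exact key (conj_zB ((orderOf_mk hg).trans h1) h0) (conj_zB ((orderOf_mk hh).trans h2) (e'.1 h0))
    · exact key (conj_zA ((orderOf_mk hg).trans h1) h0) (conj_zA ((orderOf_mk hh).trans h2) (mt e'.2 h0))

end Cfsg.Agent.S5394
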