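import Cfsg.Statements.S5396
import Cfsg.Agent.PGrp.Heis
import Mathlib.Tactic.Group

set_option autoImplicit false
open Cfsg

namespace Cfsg.Agent.S5396
open scoped commutatorElement

open PGrp

/-- For every n ≥ 1 there exist finite extraspecial 2-groups of order 2^(2n+1) whose 2-rank (the largest rank of an elementary abelian subgroup) is n, and ones whose 2-rank is n + 1 (so for each such order there are two non-isomorphic extraspecial 2-groups, told apart by their 2-rank). -/
theorem result (n : ℕ) (hn : 1 ≤ n) : ∀ r ∈ ({n, n + 1} : Set ℕ), ∃ (E : Type) (_ : Group E) (_ : Finite E), Cfsg.IsExtraspecial 2 E ∧ Nat.card E = 2 ^ (2 * n + 1) ∧ sSup {k : ℕ | ∃ A : Subgroup E, Cfsg.IsElementaryAbelian 2 A ∧ Nat.card A = 2 ^ k} = r := by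
  obtain ⟨m, rfl⟩ := Nat.exists_eq_add_of_le' hn
  intro r hr
  obtain ⟨k, rfl⟩ : ∃ k, r = k + 1 := by rcases hr with rfl | rfl <;> exact ⟨_, rfl⟩
  obtain ⟨E, _, _, z, h, hE, hc, hk⟩ := exists_ES_two (m := m) (k := k) (by
    simp only [Set.mem_insert_iff, Set.mem_singleton_iff] at hr; omega)
  refine ⟨E, inferInstance, inferInstance, hE, hc, IsGreatest.csSup_eq ⟨?_, ?_⟩⟩
  · obtain ⟨A, hA, -, hc⟩ := h.exists_elem hk
    exact ⟨A, hA, hc⟩
  · rintro l ⟨A, hA, hc⟩
    have := (h.pRankLE_iff hk).2 le_rfl A hA.1 hA.2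
    rwa [hc, Nat.pow_le_pow_iff_right one_lt_two] at this

end Cfsg.Agent.S5396
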