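import Cfsg.Statements.S5401
import Cfsg.Agent.Fischer.Ty
-- import your own Cfsg.Agent.* helpers here

set_option autoImplicit false
open Cfsg

namespace Cfsg.Agent.S5401

/-- Existence of the Fischer 3-transposition groups: there exist finite groups generated by a conjugacy class of 3-transpositions on which they act primitively that are of type M(22), of type M(23), and of type M(24) respectively. -/
theorem result : (∃ (X : Type) (_ : Group X) (_ : Finite X) (E : Set X), Cfsg.IsThreeTranspositionClass E ∧ Cfsg.IsPrimitiveUnderConj E ∧ Cfsg.IsOfTypeM22 X E) ∧ (∃ (X : Type) (_ : Group X) (_ : Finite X) (E : Set X), Cfsg.IsThreeTranspositionClass E ∧ Cfsg.IsPrimitiveUnderConj E ∧ Cfsg.IsOfTypeM23 X E) ∧ (∃ (X : Type) (_ : Group X) (_ : Finite X) (E : Set X), Cfsg.IsThreeTranspositionClass E ∧ Cfsg.IsPrimitiveUnderConj E ∧ Cfsg.IsOfTypeM24 X E) := by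
  exact ⟨⟨_, _, inferInstance, _, Fischer.F22.cls, Fischer.F22.prim, Fischer.F22.b.k.ty Fischer.F22.fl.z⟩,
    ⟨_, _, inferInstance, _, Fischer.F23.cls, Fischer.F23.prim, Fischer.F23.b.k.ty Fischer.F23.fl.z⟩,
    ⟨_, _, inferInstance, _, Fischer.F24.cls, Fischer.F24.prim, Fischer.F24.b.k.ty Fischer.F24.fl.z⟩⟩

end Cfsg.Agent.S5401
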