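import Cfsg.Statements.S5408
import Cfsg.Agent.Mon.Basic

set_option autoImplicit false
open Cfsg

namespace Cfsg.Agent.S5408

/-- Let G be a finite group of Monster type at the involution z with Q the extraspecial normal subgroup of order 2^25 of C = C_G(z) (so C/Q is identified with the first Conway group with Q modulo its centre the Leech lattice modulo 2, and z is not weakly closed in Q). Then Q is of plus type: it contains an elementary abelian subgroup of order 2^13. -/
theorem result {G : Type*} [Group G] [Finite G] (z : G) (Q : Subgroup (Subgroup.centralizer ({z} : Set G))) [Q.Normal] (hM : Cfsg.IsOfMonsterType z Q) : ∃ E : Subgroup Q, Cfsg.IsElementaryAbelian 2 E ∧ Nat.card E = 2 ^ 13 := by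
  obtain ⟨π, P, H⟩ := Mon.MT.of_type hM
  obtain ⟨x, hx, hne⟩ := H.nwc
  have h := H.pair hx hne
  have e := Subgroup.equivMapOfInjective Q _ (Subgroup.centralizer ({z} : Set G)).subtype_injective
  set Q' := Q.map (Subgroup.centralizer ({z} : Set G)).subtype
  refine ⟨((Q' ⊓ BG.cj x Q').subgroupOf Q').map e.symm.toMonoidHom, ⟨⟨⟨?_⟩⟩, ?_⟩, ?_⟩
  · rintro ⟨_, a, ha, rfl⟩ ⟨_, b, hb, rfl⟩
    refine Subtype.ext (Commute.map (Subtype.ext ?_ : Commute a b) e.symm.toMonoidHom)
    exact Mon.Pair.inter_comm h ha.1 ha.2 hb.1 hb.2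
  · rintro _ ⟨a, ha, rfl⟩
    rw [← map_pow, show a ^ 2 = 1 from Subtype.ext (by rw [pow_two]; exact Mon.Pair.inter_sq h ha.1 ha.2), map_one]
  · rw [Subgroup.card_map_of_injective e.symm.injective, Nat.card_congr (Subgroup.subgroupOfEquivOfLe inf_le_left).toEquiv]
    exact H.card_inter h

end Cfsg.Agent.S5408
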