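import Cfsg.Statements.S5413
import Cfsg.Agent.Mon.T5

set_option autoImplicit false
open Cfsg

namespace Cfsg.Agent.S5413

/-- Let G be a finite group of Monster type at the involution z with Q the extraspecial normal subgroup of order 2^25 of C = C_G(z) (so C/Q is identified with the first Conway group with Q modulo its centre the Leech lattice modulo 2, and z is not weakly closed in Q). Let s be a conjugate of z in Q other than z and let B be a Sylow 5-subgroup of the joint centralizer of z and s. Then the centralizer of B modulo B is a group of Harada–Norton type (an involution whose centralizer D has generalized Fitting subgroup R extraspecial of order 2^9 with D/R the wreath product of the alternating group of degree 5 by a group of order 2, the involution not weakly closed in R). -/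
theorem result {G : Type*} [Group G] [Finite G] (z : G) (Q : Subgroup (Subgroup.centralizer ({z} : Set G))) [Q.Normal] (hM : Cfsg.IsOfMonsterType z Q) (s : G) (hsQ : ∃ hsc : s ∈ Subgroup.centralizer ({z} : Set G), (⟨s, hsc⟩ : Subgroup.centralizer ({z} : Set G)) ∈ Q) (hs : IsConj z s) (hs1 : s ≠ z) (B : Subgroup G) (hB : B ≤ Subgroup.centralizer ({z, s} : Set G)) (hBp : Nat.card B = 5 ^ (Nat.card ↥(Subgroup.centralizer ({z, s} : Set G))).factorization 5) [hn : (B.subgroupOf (Subgroup.centralizer (B : Set G))).Normal] : Cfsg.IsOfHaradaNortonType (↥(Subgroup.centralizer (B : Set G)) ⧸ B.subgroupOf (Subgroup.centralizer (B : Set G))) := by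
  obtain ⟨π, P, H⟩ := Mon.MT.of_type hM
  obtain ⟨π, P, β, H, h1, rfl, ho⟩ := H.norm_B ⟨_, hsQ.2, rfl⟩ hs hs1 hB Nat.prime_five (by decide) hBp Mon.T5.ord
    (by norm_num)
  obtain ⟨f, g, h3, h4, e, h5, h6⟩ := Mon.T5.hom
  obtain ⟨zD, _, h⟩ := H.odd h1 Nat.prime_five (by decide) ho
    (by rw [← map_pow, ← Mon.T5.ord, pow_orderOf_eq_one, map_one]) Mon.T5.inj Mon.T5.dual (n := 4) rfl (by decide) f
    h3 h4 g (fun K hK h => e ▸ Mon.T5.normal_W K hK h _) (Mon.pow_ne h4 h6 (by decide) h5) h6
    ⟨_, hsQ.2, rfl⟩ hs hs1 (Mon.mem_C2.1 (hB (Subgroup.mem_zpowers β))).2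
  exact ⟨_, _, _, h⟩

end Cfsg.Agent.S5413
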