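import Cfsg.Statements.S5414
import Cfsg.Agent.Mon.Three
import Cfsg.Agent.Mon.T3B

set_option autoImplicit false
open Cfsg

namespace Cfsg.Agent.S5414

/-- Let G be a finite group of Monster type at the involution z with Q the extraspecial normal subgroup of order 2^25 of C = C_G(z) (so C/Q is identified with the first Conway group with Q modulo its centre the Leech lattice modulo 2, and z is not weakly closed in Q). Let s be a conjugate of z in Q other than z and let Y be a subgroup of order 3 of the joint centralizer L of z and s that is not 3-central in L (Y lies in the centre of no Sylow 3-subgroup of L). Then the centralizer of Y modulo Y is a group of Thompson type (an involution whose centralizer D has generalized Fitting subgroup R extraspecial of order 2^9 with D/R the alternating group of degree 9, the involution not weakly closed in R). -/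
theorem result {G : Type*} [Group G] [Finite G] (z : G) (Q : Subgroup (Subgroup.centralizer ({z} : Set G))) [Q.Normal] (hM : Cfsg.IsOfMonsterType z Q) (s : G) (hsQ : ∃ hsc : s ∈ Subgroup.centralizer ({z} : Set G), (⟨s, hsc⟩ : Subgroup.centralizer ({z} : Set G)) ∈ Q) (hs : IsConj z s) (hs1 : s ≠ z) (Y : Subgroup G) (hY : Y ≤ Subgroup.centralizer ({z, s} : Set G)) (hY3 : Nat.card Y = 3) (hnc : ∀ P : Sylow 3 ↥(Subgroup.centralizer ({z, s} : Set G)), ¬ Y.subgroupOf (Subgroup.centralizer ({z, s} : Set G)) ≤ (Subgroup.center ↥(P : Subgroup ↥(Subgroup.centralizer ({z, s} : Set G)))).map (P : Subgroup ↥(Subgroup.centralizer ({z, s} : Set G))).subtype) [hn : (Y.subgroupOf (Subgroup.centralizer (Y : Set G))).Normal] : Cfsg.IsOfThompsonType (↥(Subgroup.centralizer (Y : Set G)) ⧸ Y.subgroupOf (Subgroup.centralizer (Y : Set G))) := by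
  obtain ⟨π, P, H⟩ := Mon.MT.of_type hM
  obtain ⟨π, P, β, σ, H, rfl, ho, h1, rfl | rfl, h2⟩ := H.norm3 ⟨_, hsQ.2, rfl⟩ hs hs1 hY hY3
  · obtain ⟨S, hS⟩ := h2.2 (by rw [M24Loc.card_Cy]; norm_num)
    exact (hnc S hS).elim
  obtain ⟨f, h3, h4⟩ := Mon.T3B.hom
  obtain ⟨g, h5, h6⟩ := Mon.T3B.ex_g0
  have : IsSimpleGroup (alternatingGroup (Fin 9)) := alternatingGroup.isSimpleGroup (by simp)
  obtain ⟨zD, _, h⟩ := H.odd h1 Nat.prime_three (by decide) ho
    (by rw [← map_pow, ← Golay.order_x3B, pow_orderOf_eq_one, map_one]) Mon.T3B.inj Mon.T3B.dual (n := 4) rfl (by decide) f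
    h3 h4 g (fun K hK h => (hK.eq_bot_or_eq_top.resolve_left h) ▸ trivial) (Mon.pow_ne h4 h6 (by decide) h5) h6
    ⟨_, hsQ.2, rfl⟩ hs hs1 (Mon.mem_C2.1 (hY (Subgroup.mem_zpowers β))).2
  exact ⟨_, _, _, h⟩

end Cfsg.Agent.S5414
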