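import Cfsg.Statements.S5416
import Cfsg.Agent.Mon.T7
import Cfsg.Agent.GW.D8A6

set_option autoImplicit false
open Cfsg

namespace Cfsg.Agent.S5416

/-- Let G be a finite group of Monster type at the involution z with Q the extraspecial normal subgroup of order 2^25 of C = C_G(z) (so C/Q is identified with the first Conway group with Q modulo its centre the Leech lattice modulo 2, and z is not weakly closed in Q). Let s be a conjugate of z in Q other than z and let B be a Sylow 7-subgroup of the joint centralizer of z and s. Then the centralizer of B modulo B is a group of Held type (an involution whose centralizer D has generalized Fitting subgroup R extraspecial of order 2^7 with D/R isomorphic to SL(3, 2), exactly 29 of its conjugates lying in R, and the involution not weakly closed in R). -/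
theorem result {G : Type*} [Group G] [Finite G] (z : G) (Q : Subgroup (Subgroup.centralizer ({z} : Set G))) [Q.Normal] (hM : Cfsg.IsOfMonsterType z Q) (s : G) (hsQ : ∃ hsc : s ∈ Subgroup.centralizer ({z} : Set G), (⟨s, hsc⟩ : Subgroup.centralizer ({z} : Set G)) ∈ Q) (hs : IsConj z s) (hs1 : s ≠ z) (B : Subgroup G) (hB : B ≤ Subgroup.centralizer ({z, s} : Set G)) (hBp : Nat.card B = 7 ^ (Nat.card ↥(Subgroup.centralizer ({z, s} : Set G))).factorization 7) [hn : (B.subgroupOf (Subgroup.centralizer (B : Set G))).Normal] : Cfsg.IsOfHeldType (↥(Subgroup.centralizer (B : Set G)) ⧸ B.subgroupOf (Subgroup.centralizer (B : Set G))) := by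
  obtain ⟨π, P, H⟩ := Mon.MT.of_type hM
  obtain ⟨π, P, β, H, h1, rfl, ho⟩ := H.norm_B ⟨_, hsQ.2, rfl⟩ hs hs1 hB (by norm_num) (by decide) hBp Mon.T7.ord
    (by norm_num)
  obtain ⟨f, h3, h4⟩ := Mon.T7.hom
  obtain ⟨g, h5, h6⟩ := Mon.T7.ex_g0
  have := GW.isSimpleGroup_SL3_two
  obtain ⟨zD, _, h, h'⟩ := H.odd h1 (by norm_num) (by decide) ho
    (by rw [← map_pow, ← Mon.T7.ord, pow_orderOf_eq_one, map_one]) Mon.T7.inj Mon.T7.dual (n := 3) rfl (by decide) f
    h3 h4 g (fun K hK h => (hK.eq_bot_or_eq_top.resolve_left h) ▸ trivial) (Mon.pow_ne h4 h6 (by decide) h5) h6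
    ⟨_, hsQ.2, rfl⟩ hs hs1 (Mon.mem_C2.1 (hB (Subgroup.mem_zpowers β))).2
  exact ⟨_, _, _, h, h', by rw [H.count h1 (by norm_num) (by decide) ho, Mon.T7.frames]⟩

end Cfsg.Agent.S5416
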