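import Cfsg.Statements.S5420
import Cfsg.Agent.Invol.Basic
import Cfsg.Agent.Loc.Syl

set_option autoImplicit false
open Cfsg

namespace Cfsg.Agent.S5420

theorem comm_of {G : Type*} [Group G] [Finite G] {K A : Subgroup G} (hK : Odd (Nat.card K)) (hA : IsPGroup 2 A)
    {k a : G} (hk : k ∈ K) (ha : a ∈ A) (h1 : a ∈ Subgroup.normalizer (K : Set G))
    (h2 : k ∈ Subgroup.normalizer (A : Set G)) : a * k = k * a := by
  have m1 : a * k * a⁻¹ * k⁻¹ ∈ K := K.mul_mem ((Subgroup.mem_normalizer_iff.1 h1 k).1 hk) (K.inv_mem hk)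
  have m2 : a * k * a⁻¹ * k⁻¹ ∈ A := by
    have := A.mul_mem ha ((Subgroup.mem_normalizer_iff.1 h2 a⁻¹).1 (A.inv_mem ha))
    simpa [mul_assoc] using this
  have := Invol.eq_one_of_odd_of_mem_isPGroup hA m2 (Invol.odd_orderOf_of_mem hK m1)
  calc a * k = a * k * a⁻¹ * k⁻¹ * (k * a) := by group
    _ = k * a := by rw [this, one_mul]

/-- Let Q be an extraspecial 2-subgroup of the finite group G whose centralizer in G is its centre Z and which is normal in the centralizer of Z. If Z lies in the largest normal 2-subgroup of G, then Q is a large extraspecial 2-subgroup of G: it normalizes no non-trivial subgroup of G of odd order. -/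
theorem result {G : Type*} [Group G] [Finite G] (Q : Subgroup G) (hL1 : Cfsg.IsExtraspecial 2 ↥Q) (hL2 : Subgroup.centralizer (Q : Set G) = ((Subgroup.center ↥Q).map Q.subtype)) (hL3 : Subgroup.centralizer (((Subgroup.center ↥Q).map Q.subtype) : Set G) ≤ Subgroup.normalizer (Q : Set G)) (hZ : ((Subgroup.center ↥Q).map Q.subtype) ≤ Cfsg.pCore 2 G) : Cfsg.IsLargeExtraspecial Q := by
  refine ⟨hL1, hL2, hL3, fun K hK hQ => eq_bot_iff.2 fun k hk => ?_⟩
  haveI := Loc.pCore_normal' 2 G
  have h1 : k ∈ Subgroup.normalizer (Q : Set G) := hL3 fun z hz =>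
    comm_of hK (Loc.isPGroup_pCore 2 G) hk (hZ hz) (hQ (Subgroup.map_subtype_le _ hz))
      (by rw [Subgroup.normalizer_eq_top]; trivial)
  have h2 : k ∈ Subgroup.centralizer (Q : Set G) := fun q hq => comm_of hK hL1.1.1 hk hq (hQ hq) h1
  rw [hL2] at h2
  exact Invol.eq_one_of_odd_of_mem_isPGroup hL1.1.1 (Subgroup.map_subtype_le _ h2) (Invol.odd_orderOf_of_mem hK hk)

end Cfsg.Agent.S5420
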