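import Cfsg.Statements.S5421
import Cfsg.Agent.LES.Basic

set_option autoImplicit false
open Cfsg

namespace Cfsg.Agent.S5421

open Subgroup Cfsg.Agent.BG Cfsg.Agent.Invol Cfsg.Agent.LES

/-- Let Q be an extraspecial 2-subgroup of the finite group G whose centralizer in G is its centre Z and which is normal in the centralizer of Z. If some involution b of Q outside Z has Z inside the largest normal 2-subgroup of the centralizer of b, then Q is a large extraspecial 2-subgroup of G. -/
theorem result {G : Type*} [Group G] [Finite G] (Q : Subgroup G) (hL1 : Cfsg.IsExtraspecial 2 ↥Q) (hL2 : Subgroup.centralizer (Q : Set G) = ((Subgroup.center ↥Q).map Q.subtype)) (hL3 : Subgroup.centralizer (((Subgroup.center ↥Q).map Q.subtype) : Set G) ≤ Subgroup.normalizer (Q : Set G)) (b : G) (hbQ : b ∈ Q) (hbZ : b ∉ ((Subgroup.center ↥Q).map Q.subtype)) (hb : orderOf b = 2) (hZ : ((Subgroup.center ↥Q).map Q.subtype) ≤ (Cfsg.pCore 2 ↥(Subgroup.centralizer ({b} : Set G))).map (Subgroup.centralizer ({b} : Set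 G)).subtype) : Cfsg.IsLargeExtraspecial Q := by
  have : Fact (Nat.Prime 2) := ⟨Nat.prime_two⟩
  obtain ⟨z, h⟩ := LE.of_ext hL1 hL2 hL3
  rw [h.center_eq] at hbZ hZ
  rw [← Op_eq] at hZ
  refine h.large_of_inv hbQ (mul_self_of hb) (ne_one_of hb) (fun e => hbZ (e ▸ mem_zpowers b)) fun K ho hQ k hk =>
    mem_centralizer_singleton.2 (LE.comm_of ho (Op_pgroup 2 _) hk.1 (hZ (mem_zpowers z)) (hQ h.zQ)
      ((pcore_normal _ _).2 hk.2))

end Cfsg.Agent.S5421
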