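import Cfsg.Statements.S5424
import Cfsg.Agent.LES.Holo

set_option autoImplicit false
open Cfsg

namespace Cfsg.Agent.S5424

open Subgroup Cfsg.Agent.BG Cfsg.Agent.Invol Cfsg.Agent.LES Matrix

theorem z2u : ∀ a : ZMod 2, a ≠ 0 → a = 1 := by decide

theorem toGL_bij (k : ℕ) : Function.Bijective (SpecialLinearGroup.toGL : SpecialLinearGroup (Fin k) (ZMod 2) →* _) :=
  ⟨SpecialLinearGroup.toGL_injective, fun g => ⟨⟨g, z2u _ g.det_ne_zero⟩, Units.ext rfl⟩⟩

/-- Let G be the special linear group of degree n + 2 over the field with two elements, n ≥ 2, let z be a transvection, and let Q be the largest normal 2-subgroup of the centralizer C of z. Then Q is extraspecial of order 2^(2n+1) with an elementary abelian subgroup of order 2^(n+1) (plus type), Q is a large extraspecial 2-subgroup of G, and C is the split extension of Q by the special linear group of degree n over the field with two elements. -/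
theorem result (n : ℕ) (hn : 2 ≤ n) (z : Matrix.SpecialLinearGroup (Fin (n + 2)) (ZMod 2)) (hz : (z : Matrix (Fin (n + 2)) (Fin (n + 2)) (ZMod 2)) = Matrix.transvection 0 1 1) (Q : Subgroup (Matrix.SpecialLinearGroup (Fin (n + 2)) (ZMod 2))) (hQ : Q = (Cfsg.pCore 2 ↥(Subgroup.centralizer ({z} : Set (Matrix.SpecialLinearGroup (Fin (n + 2)) (ZMod 2))))).map (Subgroup.centralizer ({z} : Set (Matrix.SpecialLinearGroup (Fin (n + 2)) (ZMod 2)))).subtype) : Cfsg.IsExtraspecial 2 ↥Q ∧ Nat.card ↥Q = 2 ^ (2 * n + 1) ∧ (∃ E : Subgroup (Matrix.SpecialLinearGroup (Fin (n + 2)) (ZMod 2)), E ≤ Q ∧ Cfsg.IsElementaryAbelian 2 E ∧ Nat.card ↥E = 2 ^ (n + 1)) ∧ Cfsg.IsLargeExtraspecial Q ∧ ∃ K : Subgroup (Matrix.SpecialLinearGroup (Fin (n + 2)) (ZMod 2)), K ≤ Subgroup.centralizer ({z} : Set (Matrix.SpecialLinearGroup (Fin (n + 2)) (ZMod 2))) ∧ Q ⊓ K = ⊥ ∧ Q ⊔ K = Subgroup.centralizer ({z} : Set (Matrix.SpecialLinearGroup (Fin (n + 2)) (ZMod 2))) ∧ Nonempty (↥K ≃*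 Matrix.SpecialLinearGroup (Fin n) (ZMod 2)) := by
  have : Fact (Nat.Prime 2) := ⟨Nat.prime_two⟩
  let T := (MulEquiv.ofBijective _ (toGL_bij (n + 2))).trans (Geom.glEquiv (Fin (n + 2)) (ZMod 2))
  let e : Fin (n + 2) → ZMod 2 := Pi.single 1 1
  have e1 : e 1 = 1 := by simp [e]
  have ext : ∀ {g h}, T g e = T h e → (∀ x, x 1 = 0 → T g x = T h x) → g = h := fun {g h} k1 k2 =>
    T.injective (LinearEquiv.ext fun x => by
      rw [← sub_add_cancel x (x 1 • e), map_add, map_add, map_smul, map_smul, k1, k2 _ (by simp [e1])])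
  have Tm : ∀ g h x, T (g * h) x = T g (T h x) := fun g h x => by rw [map_mul]; rfl
  have Ti : ∀ g x, T g (T g⁻¹ x) = x := fun g x => by rw [← Tm, mul_inv_cancel, map_one]; rfl
  have Ti' : ∀ g x, T g⁻¹ (T g x) = x := fun g x => by rw [← Tm, inv_mul_cancel, map_one]; rfl
  have T1 : ∀ x, T 1 x = x := fun x => by rw [map_one]; rfl
  let U : Subgroup (SpecialLinearGroup (Fin (n + 2)) (ZMod 2)) :=
    { carrier := {g | ∀ x, x 1 = 0 → T g x = x}
      one_mem' := fun x _ => T1 x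
      mul_mem' := fun ha hb x hx => by rw [Tm, hb x hx, ha x hx]
      inv_mem' := fun {a} ha x hx => by rw [← congrArg (T a⁻¹) (ha x hx), Ti'] }
  let P : Subgroup (SpecialLinearGroup (Fin (n + 2)) (ZMod 2)) :=
    { carrier := {g | ∀ x, T g x 1 = x 1}
      one_mem' := fun x => by rw [T1]
      mul_mem' := fun ha hb x => by rw [Tm, ha, hb]
      inv_mem' := fun {a} ha x => by rw [← ha (T a⁻¹ x), Ti] }
  let S : Subgroup (SpecialLinearGroup (Fin (n + 2)) (ZMod 2)) :=
    { carrier := {g | T g e = e}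
      one_mem' := T1 e
      mul_mem' := fun {a b} ha hb => by show T (a * b) e = e; rw [Tm, hb, ha]
      inv_mem' := fun {a} ha => by show T a⁻¹ e = e; rw [← congrArg (T a⁻¹) ha, Ti'] }
  have fU : ∀ g ∈ U, ∀ x, T g x = x + x 1 • (T g e - e) := fun g hg x => by
    conv_lhs => rw [← sub_add_cancel x (x 1 • e), map_add, map_smul, hg _ (by simp [e1])]
    module
  have UP : ∀ g ∈ U, (T g e - e) 1 = 0 := fun g hg => by
    rw [Pi.sub_apply, e1, z2u (T g e 1) fun h => by
      rw [(T g).injective (hg _ h), e1] at h; exact one_ne_zero h, sub_self]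
  have UP' : U ≤ P := fun g hg x => by rw [fU g hg, Pi.add_apply, Pi.smul_apply, UP g hg]; simp
  have two : ∀ v : Fin (n + 2) → ZMod 2, v + v = 0 := fun v => funext fun i => CharTwo.add_self_eq_zero _
  have τ : ∀ v : Fin (n + 2) → ZMod 2, v 1 = 0 → ∃ g ∈ U, T g e - e = v := fun v hv =>
    ⟨T.symm (LinearEquiv.ofInvolutive (LinearMap.id + (LinearMap.proj 1).smulRight v) fun x => by
      simp [hv, add_assoc, two]), fun x hx => by simp [LinearEquiv.ofInvolutive, hx], by simp [LinearEquiv.ofInvolutive, e1]⟩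
  have dm : ∀ g ∈ U, ∀ h ∈ U, T (g * h) e - e = (T g e - e) + (T h e - e) := fun g hg h hh => by
    rw [Tm, fU g hg, UP' hh, e1]; module
  have inj : ∀ g ∈ U, ∀ h ∈ U, T g e - e = T h e - e → g = h := fun g hg h hh k =>
    ext (sub_left_injective k) fun x hx => by rw [hg x hx, hh x hx]
  have hU : Abelem 2 U := ⟨⟨⟨fun a b => Subtype.ext (inj _ (a * b).2 _ (b * a).2 (by
      rw [Subgroup.coe_mul, Subgroup.coe_mul, dm _ a.2 _ b.2, dm _ b.2 _ a.2]; exact add_comm _ _))⟩⟩,
    fun g hg => inj _ (pow_mem hg 2) _ (one_mem _) (by rw [pow_two, dm g hg g hg, two, T1, sub_self])⟩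
  have PU : P ≤ N[U] := fun m hm => mem_norm_of_cj_le fun _ hg' => by
    obtain ⟨g, hg, rfl⟩ := mem_cj'.1 hg'
    intro x hx
    rw [Tm, Tm, hg _ (by rw [inv_mem hm, hx]), Ti]
  let H := LinearMap.ker (LinearMap.proj 1 : (Fin (n + 2) → ZMod 2) →ₗ[ZMod 2] ZMod 2)
  let δ : U ≃ H := Equiv.ofBijective (fun g => ⟨T g.1 e - e, UP _ g.2⟩)
    ⟨fun a b k => Subtype.ext (inj _ a.2 _ b.2 (congrArg Subtype.val k)), fun v => by
      obtain ⟨g, hg, k⟩ := τ v.1 v.2; exact ⟨⟨g, hg⟩, Subtype.ext k⟩⟩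
  have δm : ∀ a b : U, δ (a * b) = δ a + δ b := fun a b => Subtype.ext (dm _ a.2 _ b.2)
  have cU : Nat.card U = 2 ^ (n + 1) := by
    have h1 := (LinearMap.proj 1 : (Fin (n + 2) → ZMod 2) →ₗ[ZMod 2] ZMod 2).finrank_range_add_finrank_ker
    rw [LinearMap.range_eq_top.2 (fun a => ⟨fun _ => a, rfl⟩)] at h1
    rw [Nat.card_congr δ, Module.natCard_eq_pow_finrank (K := ZMod 2), Nat.card_zmod]
    simp only [finrank_top, Module.finrank_self, Module.finrank_fin_fun] at h1
    congr 1; show Module.finrank _ H = _; simp only [H]; omega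
  have Tz : ∀ x, T z x = x + x 1 • Pi.single 0 1 := fun x => by
    show (z : Matrix (Fin (n + 2)) (Fin (n + 2)) (ZMod 2)) *ᵥ x = _
    rw [hz, transvection, add_mulVec, one_mulVec, single_mulVec]
    congr 1; ext i; by_cases hi : i = 0 <;> simp [hi]
  have zU : z ∈ U := fun x hx => by simp [Tz, hx]
  have e0 : (Pi.single 0 1 : Fin (n + 2) → ZMod 2) ≠ 0 := by simp
  have z1 : z ≠ 1 := fun h => e0 (by simpa [h, T1, e1] using Tz e)
  have cP : C1[z] ≤ P := fun g hg x => by
    have k : ∀ x, x 1 • T g (Pi.single 0 1) = T g x 1 • Pi.single 0 1 := fun x => by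
      have := congrArg (fun h => T h x) (mem_centralizer_singleton.1 hg).eq
      simpa [Tm, Tz] using this
    have k1 := k e
    rw [e1, one_smul, z2u (T g e 1) (fun h => e0 ((T g).injective (by rw [k1, h]; simp))), one_smul] at k1
    simpa [k1] using congrFun (k x) 0 |>.symm
  have cm : ∀ m ∈ P ⊓ S, ∀ g ∈ U, T (m * g * m⁻¹) e - e = T m (T g e - e) := fun m hm g hg => by
    rw [Tm, Tm, (S.inv_mem hm.2 : T m⁻¹ e = e), map_sub, (hm.2 : T m e = e)]
  obtain ⟨h, c, l, tr, K, k1, k2, k3, ⟨k4⟩⟩ := holo (M := P ⊓ S) (by omega : 1 ≤ n) hU cU (inf_le_left.trans PU) zU z1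
    (fun g hg => by
      obtain ⟨u, hu, k⟩ := τ (T g e - e) (by rw [Pi.sub_apply, cP hg, sub_self])
      have : u⁻¹ * g ∈ P ⊓ S := ⟨P.mul_mem (P.inv_mem (UP' hu)) (cP hg), by
        show T (u⁻¹ * g) e = e
        rw [Tm, ← sub_left_injective k, Ti']⟩
      simpa using mul_mem (mem_sup_left hu) (mem_sup_right this))
    (fun m hm k => ext (by rw [T1]; exact hm.2) fun x hx => by
      obtain ⟨u, hu, rfl⟩ := τ x hx
      rw [← cm m hm u hu, k u hu, T1])
    (fun φ => by
      let ψ : H ≃+ H := { (δ.symm.trans φ.toEquiv).trans δ with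
        map_add' := fun a b => by
          obtain ⟨a, rfl⟩ := δ.surjective a
          obtain ⟨b, rfl⟩ := δ.surjective b
          simp [← δm] }
      let ψ' : H ≃ₗ[ZMod 2] H := { ψ with map_smul' := ZMod.map_smul ψ }
      let pr : (Fin (n + 2) → ZMod 2) →ₗ[ZMod 2] H := LinearMap.codRestrict H
        (LinearMap.id - (LinearMap.proj 1).smulRight e) fun x => by simp [H, e1]
      let L : (H ≃ₗ[ZMod 2] H) → (Fin (n + 2) → ZMod 2) →ₗ[ZMod 2] (Fin (n + 2) → ZMod 2) := fun a =>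
        H.subtype ∘ₗ a.toLinearMap ∘ₗ pr + (LinearMap.proj 1).smulRight e
      have L0 : ∀ a x, L a x = (a (pr x)).1 + x 1 • e := fun a x => rfl
      have L1 : ∀ a x, L a x 1 = x 1 := fun a x => by
        rw [L0, Pi.add_apply, show (a (pr x)).1 1 = 0 from (a (pr x)).2]; simp [e1]
      have L2 : ∀ a x, pr (L a x) = a (pr x) := fun a x => Subtype.ext (by
        show L a x - L a x 1 • e = _
        rw [L1, L0, add_sub_cancel_right])
      have L3 : ∀ a, L a ∘ₗ L a.symm = LinearMap.id := fun a => LinearMap.ext fun x => by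
        show L a (L a.symm x) = x
        rw [L0, L2, L1, a.apply_symm_apply]; exact sub_add_cancel _ _
      let m := T.symm (LinearEquiv.ofLinearMap (L ψ') (L ψ'.symm) (L3 ψ') (L3 ψ'.symm))
      have hm : ∀ x, T m x = L ψ' x := fun x => by simp [m]
      have mm : m ∈ P ⊓ S := ⟨fun x => by rw [hm, L1], by
        show T m e = e
        rw [hm, L0, show pr e = 0 from Subtype.ext (by show e - e 1 • e = 0; simp [e1])]; simp [e1]⟩
      refine ⟨m, mm, fun u => inj _ (φ u).2 _ ((mem_normalizer_iff.1 (PU mm.1) _).1 u.2) ?_⟩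
      rw [cm m mm _ u.2, hm, L0, UP _ u.2, zero_smul, add_zero, show pr (T u.1 e - e) = δ u from Subtype.ext (by
        show _ - (T u.1 e - e) 1 • e = _
        rw [UP _ u.2, zero_smul, sub_zero]; rfl)]
      show (δ (φ u)).1 = (δ (φ (δ.symm (δ u)))).1
      rw [δ.symm_apply_apply])
  subst hQ
  refine ⟨h.isExtraspecial, c, ⟨U, l, hU, cU⟩, ?_, K, k1, k2, k3, ⟨k4.trans (MulEquiv.ofBijective _ (toGL_bij n)).symm⟩⟩
  obtain ⟨u, hu, uz⟩ : ∃ u ∈ U, u ∉ zpowers z := by
    by_contra hn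
    push Not at hn
    have := card_le_of_le (show U ≤ zpowers z from hn)
    rw [cU, Nat.card_zpowers, h.z2] at this
    have := Nat.pow_le_pow_right two_pos (show 2 ≤ n + 1 by omega); omega
  obtain ⟨g, rfl⟩ := tr u hu fun e => uz (e ▸ one_mem _)
  exact h.large_of_conj (l hu) (fun e => uz (by rw [e]; exact mem_zpowers z)) (h.sym (by
    rw [c]; exact lt_of_lt_of_le (by norm_num) (Nat.pow_le_pow_right two_pos (show 5 ≤ 2 * n + 1 by omega))) (l hu))

end Cfsg.Agent.S5424
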