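import Cfsg.Statements.S5425
import Cfsg.Agent.Perm.M24Loc
import Cfsg.Agent.Comp.Loc
import Cfsg.Agent.GW.D8A6
import Cfsg.Agent.SE.Odd

set_option autoImplicit false
open Cfsg

namespace Cfsg.Agent.S5425

open Cfsg.Agent.Comp Cfsg.Agent.Golay Cfsg.Agent.M24Loc Cfsg.Agent.BG MulAction Subgroup
set_option maxRecDepth 100000
open scoped Pointwise

abbrev S3 := Matrix.SpecialLinearGroup (Fin 3) (ZMod 2)

def vsL : List ℕ := [115589658066991, 57400367398959, 102341563007023, 31931211333679, 10537979232303,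
  92916525711407, 67761707565103]
def xs (j : ℕ) : S3 := if j = 0 then ⟨!![0, 1, 0; 1, 0, 0; 0, 1, 1], by decide⟩ else ⟨!![0, 1, 0; 0, 1, 1; 1, 1, 0], by decide⟩
def pt (i : ℕ) : Fin 3 → ZMod 2 := ![(i + 1 : ℕ), ((i + 1) / 2 : ℕ), ((i + 1) / 4 : ℕ)]

theorem hv : ∀ i < 7, ∃ x, kTr.P (nthL 0 vsL i) x := fun i hi => ⟨_, kTr_P (a := nthL 0 vsL i) (by revert i; decide +kernel)⟩

theorem surj : ∃ ψ : CA →* S3, Function.Surjective ψ ∧
    ∀ g, g ∈ ψ.ker ↔ ∀ i < 7, ∀ x, kTr.P (nthL 0 vsL i) x → (g : MG) • x = x :=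
  exists_surj_of_tabs kTr funcRM codes_CA closure_CA (act := tabA 3 7 [546721, 152243]) hv
    (inj_of_nodupL (by decide +kernel)) (by decide +kernel) GW.card_SL3_two (by norm_num)
    [[0], [1], [0, 0, 0, 1, 1], [0, 0, 0, 0, 1, 1, 0], [1, 0, 0, 1, 1, 1], [1, 1, 1, 0, 0, 1]] [0, 1, 3]
    (by decide +kernel) (MulAction.toPermHom S3 (Fin 3 → ZMod 2)) pt xs (by decide +kernel) (by decide +kernel)

def tK : List (ℕ × List ℕ) := [(0, [984818244535754528103549039458486304, 56309642665383560893727683285391086, 17373878287749928363964521697592357, 595377762605651806603473204212305634, 220936747177167854428600348808088631, 610608572884302883531917819079526417, 100327829384751139628944586312894177, 15146615486491371631578399895492035]), (2, [984818244535754528103549039458486304, 596085106108387374149617372143260704, 141880944412207115791378052993729568, 96408257287489942480231221687979456, 975244946738286962933843889408738752, 232705614072857730879342046028979296,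 92554599617748618805508498738166304]), (1, [984818244535754528103549039458486304, 236437577943183694705541378877197024, 70608755053016239570278662041700512])]
def K0 : Subgroup MG := closure (genSet RM (flatT tK))
theorem codes_tK : CodesIn RM (flatT tK) CA := codes_cent rep_zA.1 (by decide +kernel)
theorem card_K0 : Nat.card K0 = 168 := card_closure_of_ss par24 tK (codes_tK.mono le_top) (by decide +kernel)
theorem K0_le : K0 ≤ CA := codes_tK.closure_le funcRM
def LK : List ℕ := [25523618155390068245918828816620706, 93031226804240878105079080693184547,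
  148313008354686156374555200472187426, 715899867741825895021549649896978533]
theorem codes_LK : CodesIn RM LK K0 := fun c hc => by
  obtain ⟨g, -, hg⟩ := codesM (L := LK) (by decide +kernel) c hc
  exact ⟨g, mem_of_sift par24 codes_tK.closure hg
    (allL_iff.1 (show allL LK (sift 24 5 31 tK) = true by decide +kernel) c hc), hg⟩

theorem main : IsExtraspecial 2 (Op 2 CA) ∧ #(Op 2 CA) = 2 ^ 7 ∧ fixF MG oct0 ≤ Op 2 CA ∧
    Z[Op 2 CA] = zpowers zA ∧ Op 2 CA ⊓ K0 = ⊥ ∧ Op 2 CA ⊔ K0 = CA ∧ Nonempty (K0 ≃* S3) := by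
  obtain ⟨ψ, hψ⟩ := surj
  have hz : zA ∈ CA := mem_centralizer_singleton_iff.2 rfl
  obtain ⟨h1, h2, -, h3, h4, h5⟩ := ES_ker kTr hψ (codes_cent (L := [89050452943134395784836707552255441,
    59317465573737292098069919107168997, 716029164389534722277168366271627362, 17778971828081681694961650211701943,
    234127864083396158983920601914215425, 132956921724781123582626894802818606]) rep_zA.1 (by decide +kernel))
    (z := ⟨zA, hz⟩) rep_zA.1 base_all card_CA GW.card_SL3_two (k := 6) (by decide +kernel)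
  have := GW.isSimpleGroup_SL3_two
  have h6 : Op 2 CA = ψ.ker.map CA.subtype := by
    rw [Op_eq, pCore_eq_ker hψ.1 h4.isPGroup
      (Gen2.pCore_eq_bot_of_isSimpleGroup (not_comm_of_card GW.card_SL3_two (by norm_num)) 2)]
  have e := ψ.ker.equivMapOfInjective CA.subtype CA.subtype_injective
  have hE : fixF MG oct0 ≤ CA := cent_fixOct0.ge.trans (centralizer_le (by simpa using zA_mem))
  have h7 : ψ.ker.map CA.subtype ⊓ K0 = ⊥ := by
    have := chainK_mul_le (C := kTr) (fun a => a % 9) 10 [115589658066991, 57400367398959, 31931211333679]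
      (fun b hb => ⟨_, kTr_P (by revert b; decide +kernel)⟩) (H := ψ.ker.map CA.subtype ⊓ K0)
      (fun b hb x hx g ⟨⟨k, hk, e⟩, _⟩ => by
        simp only [List.mem_cons, List.not_mem_nil, or_false] at hb
        rcases hb with rfl | rfl | rfl
        exacts [e ▸ (hψ.2 k).1 hk 0 (by norm_num) x hx, e ▸ (hψ.2 k).1 hk 1 (by norm_num) x hx,
          e ▸ (hψ.2 k).1 hk 3 (by norm_num) x hx]) LK K0 codes_LK inf_le_right
    rw [card_K0, show chainK _ _ _ _ _ = 168 by decide +kernel] at this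
    exact eq_bot_of_card_le _ (by omega)
  have h8 : Function.Bijective (ψ.comp (inclusion K0_le)) := by
    refine (Nat.bijective_iff_injective_and_card _).2 ⟨(injective_iff_map_eq_one _).2 fun k hk => Subtype.ext ?_,
      card_K0.trans GW.card_SL3_two.symm⟩
    exact mem_bot.1 (h7 ▸ ⟨⟨_, hk, rfl⟩, k.2⟩ : (k : MG) ∈ ⊥)
  rw [h6]
  refine ⟨PGrp.ES_of_mulEquiv h2 e, (card_subtype _ _).trans h1, ?_, ?_, h7, ?_, ⟨MulEquiv.ofBijective _ h8⟩⟩
  · rw [← closure_E16]
    refine CodesIn.closure_le (fun c hc => ?_) funcRM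
    obtain ⟨g, hg, hr⟩ := codes_ker kTr hψ.2 (codes_E16.mono hE) (by decide +kernel) c hc
    exact ⟨g, ⟨g, hg, rfl⟩, hr⟩
  · refine le_antisymm ?_ (zpowers_le.2 ⟨⟨_, h3, rfl⟩, fun g ⟨k, _, e⟩ => e ▸ mem_centralizer_singleton_iff.1 k.2⟩)
    rintro _ ⟨⟨k, hk, rfl⟩, h⟩
    have : (⟨k, hk⟩ : ψ.ker) ∈ center ψ.ker :=
      mem_center_iff.2 fun g => Subtype.ext (Subtype.ext (h g.1 ⟨g.1, g.2, rfl⟩))
    obtain ⟨n, hn⟩ := h5 ▸ this
    exact ⟨n, congrArg (fun x : ψ.ker => ((x : CA) : MG)) hn⟩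
  · refine le_antisymm (sup_le (map_subtype_le _) K0_le) fun g hg => ?_
    obtain ⟨k, hk⟩ := h8.2 (ψ ⟨g, hg⟩)
    have : g * (k : MG)⁻¹ ∈ ψ.ker.map CA.subtype := ⟨⟨g, hg⟩ * (inclusion K0_le k)⁻¹, by
      rw [SetLike.mem_coe, MonoidHom.mem_ker, map_mul, map_inv, ← hk]; exact mul_inv_cancel _, rfl⟩
    simpa using mul_mem (mem_sup_left this : _ ∈ _ ⊔ K0) (mem_sup_right k.2)

theorem no_odd {K : Subgroup MG} (hK : Odd #K) (h : fixF MG oct0 ≤ N[K]) : K = ⊥ := by
  have h1 : ∀ v ∈ fixF MG oct0, v ≠ 1 → K ⊓ C1[v] = ⊥ := fun v hv h1 => eq_bot_iff.2 fun g ⟨g1, g2⟩ => by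
    have e : fixS v = oct0 := Finset.Subset.antisymm (fun p hp => by_contra fun hp' =>
      h1 (eq_one_of_fixOct oct0_mem hv hp' (mem_fixS.1 hp))) fun p hp => mem_fixS.2 (mem_fixF.1 hv p hp)
    have g3 : g • oct0 = oct0 := e ▸ centralizer_le_fixS v g2
    have odd1 : ∀ u ∈ K, u ∈ fixF MG oct0 → u = 1 := fun u u1 u2 => by
      have a1 := orderOf_dvd_natCard K u1
      have a2 : orderOf u ∣ 2 := orderOf_dvd_of_pow_eq_one (by rw [sq]; exact sq_fixOct oct0_mem u2)
      exact orderOf_eq_one_iff.1 (Nat.eq_one_of_dvd_coprimes (Nat.coprime_two_right.2 hK) a1 a2)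
    refine odd1 g g1 (cent_fixOct0 ▸ fun u hu => ?_)
    have := odd1 (g * u * g⁻¹ * u⁻¹) (by
      simpa [mul_assoc] using mul_mem g1 ((mem_normalizer_iff.1 (h hu) _).1 (inv_mem g1)))
      (mul_mem (g3 ▸ conj_mem_fixF g hu) (inv_mem hu))
    rw [mul_inv_eq_one, mul_inv_eq_iff_eq_mul] at this
    exact this.symm
  obtain ⟨a, ha, ra⟩ := CodesIn_CM codes_E16 (by decide +kernel) _ List.mem_cons_self
  obtain ⟨b, hb, rb⟩ := CodesIn_CM codes_E16 (by decide +kernel) _ (List.mem_cons_of_mem _ List.mem_cons_self)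
  have a1 : a ≠ 1 := fun e => absurd ((canCM.eq_iff ra grpCM.one).1 e) (by decide +kernel)
  have b1 : b ≠ 1 := fun e => absurd ((canCM.eq_iff rb grpCM.one).1 e) (by decide +kernel)
  have c1 : a * b ≠ 1 := fun e => absurd ((canCM.eq_iff (grpCM.mul ra rb) grpCM.one).1 e) (by decide +kernel)
  have i1 := SE.inverts_of_cent_eq_bot (sq_fixOct oct0_mem ha) hK (h ha) (h1 a ha a1)
  have i2 := SE.inverts_of_cent_eq_bot (sq_fixOct oct0_mem hb) hK (h hb) (h1 b hb b1)
  rw [← h1 _ (mul_mem ha hb) c1]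
  refine le_antisymm (le_inf le_rfl fun k hk => mem_centralizer_singleton_iff.2 ?_) inf_le_left
  have := i1 _ (inv_mem hk)
  rw [inv_inv, ← i2 k hk] at this
  calc k * (a * b) = a * (b * k * b⁻¹) * a⁻¹ * (a * b) * (b⁻¹ * b) := by rw [this]; simp
    _ = a * b * k * (b⁻¹ * b) := by group
    _ = _ := by simp

/-- In the Mathieu group of degree 24 (the automorphism group of the length-24 binary Golay code, acting on the 24 coordinates), let z be an involution whose fixed points form an octad (the support of a code word of weight 8), and let Q be the largest normal 2-subgroup of the centralizer C of z. Then Q is extraspecial of order 2^7 with an elementary abelian subgroup of order 16 (plus type), Q is a large extraspecial 2-subgroup, and C is the split extension of Q by the special linear group of degree 3 over the field with two elements. -/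
theorem result (z : ↥Cfsg.M24) (hz : orderOf z = 2) (hfix : (Finset.univ.filter fun p : Cfsg.GolayPt => (z : Equiv.Perm Cfsg.GolayPt) p = p) ∈ Cfsg.octads) (Q : Subgroup ↥Cfsg.M24) (hQ : Q = (Cfsg.pCore 2 ↥(Subgroup.centralizer ({z} : Set ↥Cfsg.M24))).map (Subgroup.centralizer ({z} : Set ↥Cfsg.M24)).subtype) : Cfsg.IsExtraspecial 2 ↥Q ∧ Nat.card ↥Q = 2 ^ 7 ∧ (∃ E : Subgroup ↥Cfsg.M24, E ≤ Q ∧ Cfsg.IsElementaryAbelian 2 E ∧ Nat.card ↥E = 2 ^ 4) ∧ Cfsg.IsLargeExtraspecial Q ∧ ∃ K : Subgroup ↥Cfsg.M24, K ≤ Subgroup.centralizer ({z} : Set ↥Cfsg.M24) ∧ Q ⊓ K = ⊥ ∧ Q ⊔ K = Subgroup.centralizer ({z} : Set ↥Cfsg.M24) ∧ Nonempty (↥K ≃* Matrix.SpecialLinearGroup (Fin 3) (ZMod 2)) := by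
  obtain ⟨k, rfl⟩ := conj_zA hz (fun e => by
    have : (fixS z).card = 8 := hfix.2
    rw [e] at this; simp at this)
  obtain ⟨h1, h2, h3, h4, h5, h6, ⟨e⟩⟩ := main
  have hQ' : Q = cj k (Op 2 CA) := by rw [hQ, ← Op_eq, C1_conj]; exact pcoreJ _ _ _
  have hZ : Z[Q] = zpowers (k * zA * k⁻¹) := by rw [hQ', C_cj, ← cj_inf, h4, cj_zpowers]
  have hE : cj k (fixF MG oct0) ≤ Q := hQ' ▸ cj_mono k h3
  have hES : IsExtraspecial 2 Q := hQ' ▸ PGrp.ES_of_mulEquiv h1 (cjEquiv k _)
  refine ⟨hES, by rw [hQ', card_cj, h2], ⟨cj k (fixF MG oct0), hE, ⟨abelian_cj _ (le_centralizer_iff_isMulCommutative.1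
    cent_fixOct0.ge), fun a ha => ?_⟩, by rw [card_cj, card_fixOct oct0_mem]; rfl⟩, ⟨hES, ?_, ?_, fun K hK hN => ?_⟩,
    cj k K0, C1_conj k zA ▸ cj_mono k K0_le, by rw [hQ', ← cj_inf, h5, cj_bot], by rw [hQ', ← cj_sup, h6, C1_conj],
    ⟨(cjEquiv k K0).symm.trans e⟩⟩
  · have := sq_fixOct oct0_mem (mem_cj.1 ha)
    rw [show k⁻¹ * a * k * (k⁻¹ * a * k) = k⁻¹ * a ^ 2 * k⁻¹⁻¹ by rw [sq]; group, conj_eq_one_iff] at this
    exact this
  · rw [map_subtype_center]
    refine le_antisymm (le_inf ((centralizer_le hE).trans ?_) le_rfl) inf_le_right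
    rw [C_cj, cent_fixOct0]; exact hE
  · rw [map_subtype_center, hZ, Comp.centralizer_zpowers, hQ, ← Op_eq]
    exact (pcore_normal _ _).2
  · rw [← cj_eq_bot (g := k⁻¹)]
    exact no_odd (by rwa [card_cj]) (by rw [N_cj, le_cj_iff, inv_inv]; exact hE.trans hN)

end Cfsg.Agent.S5425
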