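import Cfsg.Statements.S5426
import Cfsg.Agent.LES.Struct

set_option autoImplicit false
open Cfsg

namespace Cfsg.Agent.S5426

open Subgroup Cfsg.Agent.BG Cfsg.Agent.Invol Cfsg.Agent.LES

/-- Let Q be a large extraspecial 2-subgroup of the finite group G (extraspecial; centralizer equal to its centre; normal in the centralizer of its centre; normalizing no non-trivial subgroup of odd order) with centre generated by z, and let M be the normal closure of z in G. Then one of the following holds: Q is normal in G; or M is abelian and the generalized Fitting subgroup of G is its largest normal 2-subgroup; or M is the generalized Fitting subgroup of G and is a non-abelian simple group; or M is the generalized Fitting subgroup of G and is the direct product of a non-abelian simple subgroup L and its conjugate u L u⁻¹ by some u in Q (the two meet trivially and commute elementwise), with z = z₁ (u z₁ u⁻¹) for some z₁ in L whose centralizer in L is a Sylow 2-subgroup of L with Frattini subgroup inside the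 subgroup generated by z₁, and Q is not the largest normal 2-subgroup of the centralizer of z. -/
theorem result {G : Type*} [Group G] [Finite G] (Q : Subgroup G) (hQ : Cfsg.IsLargeExtraspecial Q) (z : G) (hz : ((Subgroup.center ↥Q).map Q.subtype) = Subgroup.zpowers z) (M : Subgroup G) (hM : M = Subgroup.normalClosure ({z} : Set G)) : Q.Normal ∨ (IsMulCommutative ↥M ∧ Cfsg.generalizedFittingSubgroup G = Cfsg.pCore 2 G) ∨ (M = Cfsg.generalizedFittingSubgroup G ∧ IsSimpleGroup ↥M ∧ ¬ IsMulCommutative ↥M) ∨ (M = Cfsg.generalizedFittingSubgroup G ∧ ∃ (L : Subgroup G) (u : G), u ∈ Q ∧ IsSimpleGroup ↥L ∧ ¬ IsMulCommutative ↥L ∧ L ⊓ (L).map (MulAut.conj u).toMonoidHom = ⊥ ∧ (∀ x ∈ L, ∀ y ∈ (L).map (MulAut.conj u).toMonoidHom, x * y = y * x) ∧ L ⊔ (L).map (MulAut.conj u).toMonoidHom = M ∧ ∃ z₁ ∈ L, z = z₁ * (u * z₁ * u⁻¹) ∧ (∃ R : Sylow 2 ↥L, (R : Subgroup ↥L) = (Subgroup.centralizer ({z₁} : Set G)).subgroupOf L ∧ (frattini ↥(R : Subgroup ↥L)).map ((L.subtype).comp (R : Subgroup ↥L).subtype) ≤ Subgroup.zpowers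 z₁) ∧ Q ≠ (Cfsg.pCore 2 ↥(Subgroup.centralizer ({z} : Set G))).map (Subgroup.centralizer ({z} : Set G)).subtype) := by
  have : Fact (Nat.Prime 2) := ⟨Nat.prime_two⟩
  rcases struct hQ (LE.of_large hQ hz) hM with h | h | ⟨h1, L, u, a1, a2, a3, a4, a5, a6, w, hw, a7, a8, a9, a10⟩
  · exact Or.inr (Or.inl h)
  · exact Or.inr (Or.inr (Or.inl h))
  obtain ⟨R, hR⟩ := sylow_of_sylowIn a8
  refine Or.inr (Or.inr (Or.inr ⟨h1, L, u, a1, a2, a3, a4, a5, a6, w, hw, a7, ⟨R, ?_, ?_⟩, a10⟩))
  · exact map_injective L.subtype_injective (by rw [hR, subgroupOf_map_subtype, inf_comm])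
  · rw [← map_map, map_le_iff_le_comap]
    obtain ⟨b1, b2⟩ := (Phi_min a8.pg).1 a9
    have m : ∀ x ∈ (R : Subgroup L), x.1 ∈ L ⊓ C1[w] := fun x hx => hR ▸ mem_map_of_mem _ hx
    exact (Phi_min R.isPGroup').2 ⟨commutator_le.2 fun a ha b hb => commutator_le.1 b1 _ (m a ha) _ (m b hb),
      fun x hx => b2 _ (m x hx)⟩

end Cfsg.Agent.S5426
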