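import Cfsg.Statements.S5427
import Cfsg.Agent.LES.Struct

set_option autoImplicit false
open Cfsg

namespace Cfsg.Agent.S5427

open Subgroup Cfsg.Agent.BG Cfsg.Agent.Invol Cfsg.Agent.LES

/-- Let z be an involution of the finite group G whose centralizer C has generalized Fitting subgroup Q, an extraspecial 2-group of width at least 2 (order 2^(2w+1), w ≥ 2). Let K be a subgroup of G such that the subgroup U generated by the K-conjugates of z is abelian and C is generated by the C-conjugates of U. Suppose that either some K-conjugate of z other than z lies in Q, or some element u of U ∩ Q outside the subgroup generated by z has z in the largest normal 2-subgroup of its centralizer. Then G is simple and Q is a large extraspecial 2-subgroup of G. -/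
theorem result {G : Type*} [Group G] [Finite G] (z : G) (hz : orderOf z = 2) (Q : Subgroup G) (hQC : Q ≤ Subgroup.centralizer ({z} : Set G)) (hF : (Cfsg.generalizedFittingSubgroup ↥(Subgroup.centralizer ({z} : Set G))).map (Subgroup.centralizer ({z} : Set G)).subtype = Q) (hQ : Cfsg.IsExtraspecial 2 ↥Q) (w : ℕ) (hw : 2 ≤ w) (hcard : Nat.card ↥Q = 2 ^ (2 * w + 1)) (K U : Subgroup G) (hU : U = Subgroup.closure {x : G | ∃ k ∈ K, x = k * z * k⁻¹}) (hUab : IsMulCommutative ↥U) (hgen : Subgroup.closure {x : G | ∃ c ∈ Subgroup.centralizer ({z} : Set G), ∃ u ∈ U, x = c * u * c⁻¹} = Subgroup.centralizer ({z} : Set G)) (h3 : (∃ k ∈ K, k * z * k⁻¹ ∈ Q ∧ k * z * k⁻¹ ≠ z) ∨ ∃ u ∈ U ⊓ Q, u ∉ Subgroup.zpowers z ∧ (∃ hz' : z ∈ Subgroup.centralizer ({u} : Set G), (⟨z, hz'⟩ : ↥(Subgroup.centralizer ({u} : Set G))) ∈ Cfsg.pCore 2 ↥(Subgroup.centralizer ({u} : Set G)))) : IsSimpleGroup G ∧ Cfsg.IsLargeExtraspecial Q := by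
  have : Fact (Nat.Prime 2) := ⟨Nat.prime_two⟩
  obtain ⟨h, hO⟩ := LE.of_fstar hz hF hQ
  have h8 : 8 < Nat.card Q := by
    rw [hcard]; exact lt_of_lt_of_le (by norm_num) (Nat.pow_le_pow_right two_pos (show 5 ≤ 2 * w + 1 by omega))
  have hl : IsLargeExtraspecial Q := by
    rcases h3 with ⟨k, -, h1, h2⟩ | ⟨u, hu, h1, hz', h2⟩
    · exact h.large_of_conj h1 h2 (h.sym h8 h1)
    have u2 : ∀ u ∈ U, u * u = 1 := fun u hu => by
      have hu' := hu
      rw [hU] at hu'
      induction hu' using closure_induction with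
      | mem x hx => obtain ⟨k, -, rfl⟩ := hx; exact (h.conj k).zz
      | one => simp
      | mul x y hx hy h1 h2 =>
        rw [← hU] at hx hy
        rw [(show Commute y x from IsMulCommutative.comm hUab hy hx).mul_mul_mul_comm, h1 hx, h2 hy, one_mul]
      | inv x hx h1 => rw [← mul_inv_rev, h1 (hU ▸ hx), inv_one]
    refine h.large_of_inv hu.2 (u2 u hu.1) (fun e => h1 (e ▸ one_mem _)) (fun e => h1 (e ▸ mem_zpowers u))
      fun K ho hQ k hk => mem_centralizer_singleton.2 (LE.comm_of ho Sig.isPGroup_pcIn hk.1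
        (show z ∈ Sig.pcIn 2 C1[u] from ⟨_, h2, rfl⟩) (hQ h.zQ) (Sig.le_normalizer_pcIn le_normalizer hk.2))
  refine ⟨simple_of hl h hO ?_, hl⟩
  have lU : U ≤ normalClosure {z} := by
    rw [hU, closure_le]
    rintro _ ⟨k, -, rfl⟩
    exact normalClosure_normal.conj_mem _ (subset_normalClosure (Set.mem_singleton z)) k
  rw [← hgen, closure_le]
  rintro _ ⟨c, -, u, hu, rfl⟩
  exact normalClosure_normal.conj_mem _ (lU hu) c

end Cfsg.Agent.S5427
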