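import Cfsg.Statements.S5428
import Cfsg.Agent.LES.Img
import Cfsg.Agent.Sig.Lbal

set_option autoImplicit false
open Cfsg

namespace Cfsg.Agent.S5428

open Subgroup Cfsg.Agent.BG Cfsg.Agent.Invol Cfsg.Agent.LES

/-- Let z be an involution of the finite group G whose centralizer C has generalized Fitting subgroup Q extraspecial (as a 2-group), let A be a subgroup of C of odd order, and let R be the centralizer of A in Q; suppose R has order at least 32, the largest normal subgroup of odd order of the centralizer of the subgroup generated by A and R lies in A, the order of that centralizer is not divisible by 4, and g is an element of G with g z g⁻¹ in R but outside the centre Z of Q. Let M be the subgroup generated by A and the centralizer of A (A is normal in it). Then: the centralizer in M of the subgroup generated by R and A, joined with A, equals the subgroup generated by A and Z; the image of R in M/A is a large extraspecial 2-subgroup of M/A; and g z g⁻¹ is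 conjugate to z inside the subgroup generated by R and the centralizer of A in g Q g⁻¹. -/
theorem result {G : Type*} [Group G] [Finite G] (z : G) (hz : orderOf z = 2) (Q : Subgroup G) (hQC : Q ≤ Subgroup.centralizer ({z} : Set G)) (hF : (Cfsg.generalizedFittingSubgroup ↥(Subgroup.centralizer ({z} : Set G))).map (Subgroup.centralizer ({z} : Set G)).subtype = Q) (hQ : Cfsg.IsExtraspecial 2 ↥Q) (A : Subgroup G) (hA : A ≤ Subgroup.centralizer ({z} : Set G)) (hAodd : Odd (Nat.card ↥A)) (R : Subgroup G) (hR : R = Q ⊓ Subgroup.centralizer (A : Set G)) (hR32 : 32 ≤ Nat.card ↥R) (hO : (Cfsg.oddCore ↥(Subgroup.centralizer ((A ⊔ R : Subgroup G) : Set G))).map (Subgroup.centralizer ((A ⊔ R : Subgroup G) : Set G)).subtype ≤ A) (h4 : ¬ 4 ∣ Nat.card ↥(Subgroup.centralizer ((A ⊔ R : Subgroup G) : Set G))) (g : G) (hgR : g * z * g⁻¹ ∈ R) (hgZ : g * z * g⁻¹ ∉ ((Subgroup.center ↥Q).map Q.subtype)) (M : Subgroup G) (hM : M = Subgroup.centralizer (A : Set G) ⊔ A) [hn : (A.subgroupOf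 M).Normal] : (M ⊓ Subgroup.centralizer ((R ⊔ A : Subgroup G) : Set G)) ⊔ A = A ⊔ ((Subgroup.center ↥Q).map Q.subtype) ∧ Cfsg.IsLargeExtraspecial ((R.subgroupOf M).map (QuotientGroup.mk' (A.subgroupOf M))) ∧ ∃ x ∈ R ⊔ ((Q).map (MulAut.conj g).toMonoidHom ⊓ Subgroup.centralizer (A : Set G)), x * (g * z * g⁻¹) * x⁻¹ = z := by
  have : Fact (Nat.Prime 2) := ⟨Nat.prime_two⟩
  obtain ⟨h, -⟩ := LE.of_fstar hz hF hQ
  rw [h.center_eq] at hgZ ⊢
  rw [← cj_def]
  have nA : A ≤ N[Q] := fun a ha => h.nQ a (mem_centralizer_singleton.1 (hA ha))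
  have hE : ES R z := by
    rcases h.cent_odd nA hAodd with e | e
    · rw [hR, e, Nat.card_zpowers, hz] at hR32; omega
    · exact hR ▸ e
  have RQ : R ≤ Q := hR ▸ inf_le_left
  have RC : R ≤ C[A] := hR ▸ inf_le_right
  have RM : R ≤ M := hM ▸ RC.trans le_sup_left
  have h1 := h.conj g
  have sz : g * z * g⁻¹ ≠ z := fun e => hgZ (by rw [e]; exact mem_zpowers z)
  have zP := h.sym (lt_of_lt_of_le (by omega) (card_le_of_le RQ)) (RQ hgR)
  set s := g * z * g⁻¹
  obtain ⟨r, hr, e1⟩ := hE.exists_conj hgR h1.z1 sz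
  obtain ⟨y, hy, e2⟩ := h1.exists_cent (fun a ha => h1.nQ a (RC hgR a ha)) hAodd zP (RC hE.zQ) h.z1 sz.symm
  have e3 := swap_conj h1.zz e1 e2 (h1.zc y hy.1) (h.zc s (RQ hgR))
  have zH : z ∈ C[A ⊔ R] := by rw [cent_sup]; exact ⟨RC hE.zQ, fun y hy => (hE.zc y hy).eq⟩
  have key : C[A ⊔ R] ≤ A ⊔ zpowers z := by
    have pz : IsPGroup 2 (zpowers z) := h.pg.to_le (zpowers_le.2 h.zQ)
    have sy : SylowIn 2 (zpowers z) C[A ⊔ R] := sylow_mk (zpowers_le.2 zH) pz fun hd => h4 (by
      rw [← card_mul_relIndex (zpowers_le.2 zH), Nat.card_zpowers, hz]; exact Nat.mul_dvd_mul_left 2 hd)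
    rw [← (Burnside_normal_complement sy (inf_le_left.trans (centralizer_le
      ((zpowers_le.2 hE.zQ).trans le_sup_right)))).sup, ← Sig.oddCore_map]
    exact sup_le_sup_right hO _
  have dec : ∀ x ∈ M, ∃ c ∈ C[A], ∃ a ∈ A, x = c * a := fun x hx =>
    (mem_sup_norml ((normG A).trans (cent_norm A))).1 (hM ▸ hx)
  let π := QuotientGroup.mk' (A.subgroupOf M)
  have AM : A ≤ M := hM ▸ le_sup_right
  have hk : (Nat.card π.ker).Coprime 2 := by
    rw [QuotientGroup.ker_mk', Nat.card_congr (subgroupOfEquivOfLe AM).toEquiv]; exact Nat.coprime_two_right.2 hAodd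
  have k1 : ∀ x : M, π x = 1 ↔ x.1 ∈ A := fun x => QuotientGroup.eq_one_iff x
  have odd : ∀ x ∈ A, x * x = 1 → x = 1 := fun x hx => eq_one_of_odd_of_mul_self (odd_orderOf_of_mem hAodd hx)
  have z1 : π ⟨z, RM hE.zQ⟩ ≠ 1 := fun e => h.z1 (odd z ((k1 _).1 e) h.zz)
  have cR : ∀ x : M, (∀ y ∈ R, Commute x.1 y) → π x = 1 ∨ π x = π ⟨z, RM hE.zQ⟩ := fun x hx => by
    obtain ⟨c, hc, a, ha, e⟩ := dec x x.2
    have : c ∈ C[A ⊔ R] := by
      rw [cent_sup]
      refine ⟨hc, fun y hy => ?_⟩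
      rw [show c = x * a⁻¹ by rw [e]; simp]
      exact ((hx y hy).mul_left (show Commute a y from RC hy a ha).inv_left).eq.symm
    obtain ⟨b, hb, w, hw, e'⟩ := (mem_sup_normr (hA.trans (cent1_le_norm_zpowers z))).1 (key this)
    rcases (mem_zp hz).1 hw with rfl | rfl
    · left; rw [k1, e, e', mul_one]; exact mul_mem hb ha
    · right
      rw [← mul_inv_eq_one, ← map_inv, ← map_mul, k1]
      show x.1 * w⁻¹ ∈ A
      rw [e, e', mul_assoc b, ← (mem_centralizer_singleton.1 (hA ha)).eq, ← mul_assoc, mul_inv_cancel_right]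
      exact mul_mem hb ha
  have eI := h.toES.image π RQ RM hE.zQ z1 (fun x _ => cR x) hE.nab
  have lI : LE ((R.subgroupOf M).map π) (π ⟨z, RM hE.zQ⟩) := ⟨eI, fun x hx => by
    have : x ∈ C[(R.subgroupOf M).map π] := fun y hy => (hx y hy).eq.symm
    rw [PLocal.centralizer_map_of_coprime (P := R.subgroupOf M) (QuotientGroup.mk'_surjective _) hk
      (hE.pg.comap_subtype)] at this
    obtain ⟨x, hx', rfl⟩ := this
    exact cR x fun y hy => (congrArg Subtype.val (hx' ⟨y, RM hy⟩ hy)).symm, fun x hx => by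
    have : x ∈ C[(zpowers (⟨z, RM hE.zQ⟩ : M)).map π] := by
      rw [MonoidHom.map_zpowers]; rintro _ ⟨k, rfl⟩; exact (hx.zpow_right k).eq.symm
    rw [PLocal.centralizer_map_of_coprime (QuotientGroup.mk'_surjective _) hk
      (isPGroup_zpowers (n := 1) (Subtype.ext (by simpa [pow_two] using h.zz)))] at this
    obtain ⟨x, hx', rfl⟩ := this
    have xz : Commute x.1 z := (congrArg Subtype.val (hx' _ (mem_zpowers _))).symm
    obtain ⟨c, hc, a, ha, e⟩ := dec x x.2
    have cz : Commute c z := by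
      rw [show c = x * a⁻¹ by rw [e]; simp]; exact xz.mul_left (mem_centralizer_singleton.1 (hA ha)).inv_left
    have : x.1 ∈ N[R] := by
      rw [e]
      refine mul_mem ?_ (cent_sub _ (centsC.1 RC ha))
      rw [hR]
      exact normsI (zpowers_le.2 (h.nQ c cz)) (zpowers_le.2 (normG _ hc)) (mem_zpowers c)
    exact norms_map π le_rfl (mem_map_of_mem _ (mem_normalizer_iff.2 fun y => mem_normalizer_iff.1 this y))⟩
  obtain ⟨a, ha, b, hb, k2, k3, k4⟩ := hE.nab_cent (by omega) hgR
  refine ⟨le_antisymm (sup_le (inf_le_right.trans (by rw [sup_comm R]; exact key)) le_sup_left)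
    (sup_le le_sup_right (zpowers_le.2 (mem_sup_left ⟨RM hE.zQ, by rw [sup_comm R]; exact zH⟩))),
    LE.large_image h.toES π RQ RM hE.zQ lI hgR (fun e => sz ?_) (mul_mem (hM ▸ mem_sup_left hy.2) (RM hr)) e3
      ha hb k2 k3 k4, y * r, mul_mem (mem_sup_right hy) (mem_sup_left hr), e3⟩
  rw [← mul_inv_eq_one, ← map_inv, ← map_mul, k1] at e
  exact mul_inv_eq_one.1 (eq_one_of_odd_of_mem_isPGroup h.pg (mul_mem (RQ hgR) (inv_mem h.zQ))
    (odd_orderOf_of_mem hAodd e))

end Cfsg.Agent.S5428
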