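import Cfsg.Statements.S5429
import Cfsg.Agent.LES.Img

set_option autoImplicit false
open Cfsg

namespace Cfsg.Agent.S5429

open Subgroup Cfsg.Agent.BG Cfsg.Agent.Invol Cfsg.Agent.LES

/-- Let z be an involution of the finite group G with centralizer C whose generalized Fitting subgroup Q is extraspecial of width at least 3 (order 2^(2w+1), w ≥ 3); let g be an element of G with g z g⁻¹ in Q but outside the centre Z of Q, and t an involution lying in both Q and g Q g⁻¹ that is not conjugate to z; write P for the centralizer of t in Q and suppose that the elements of C acting trivially by conjugation on P modulo the subgroup generated by t and z are exactly the elements of Q. Then the image of P in the centralizer of t modulo the subgroup generated by t is a large extraspecial 2-subgroup there, and g z g⁻¹ is conjugate to z inside the subgroup generated by P and the centralizer of t in g Q g⁻¹. -/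
theorem result {G : Type*} [Group G] [Finite G] (z : G) (hz : orderOf z = 2) (Q : Subgroup G) (hQC : Q ≤ Subgroup.centralizer ({z} : Set G)) (hF : (Cfsg.generalizedFittingSubgroup ↥(Subgroup.centralizer ({z} : Set G))).map (Subgroup.centralizer ({z} : Set G)).subtype = Q) (hQ : Cfsg.IsExtraspecial 2 ↥Q) (w : ℕ) (hw : 3 ≤ w) (hcard : Nat.card ↥Q = 2 ^ (2 * w + 1)) (g : G) (hgQ : g * z * g⁻¹ ∈ Q) (hgZ : g * z * g⁻¹ ∉ ((Subgroup.center ↥Q).map Q.subtype)) (t : G) (ht : orderOf t = 2) (htQ : t ∈ Q ⊓ (Q).map (MulAut.conj g).toMonoidHom) (htz : ¬ IsConj z t) (P : Subgroup G) (hP : P = Q ⊓ Subgroup.centralizer ({t} : Set G)) (hCP : ∀ c ∈ Subgroup.centralizer ({z} : Set G), (∀ x ∈ P, ∃ y ∈ Subgroup.closure ({t, z} : Set G), c * x * c⁻¹ = x * y) ↔ c ∈ Q) [hn : ((Subgroup.zpowers t).subgroupOf (Subgroup.centralizer ({t} : Set G))).Normal] : Cfsg.IsLargeExtraspecial ((P.subgroupOf (Subgroup.centralizer ({t} : Set G))).map (QuotientGroup.mk' ((Subgroup.zpowers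 t).subgroupOf (Subgroup.centralizer ({t} : Set G))))) ∧ ∃ x ∈ P ⊔ ((Q).map (MulAut.conj g).toMonoidHom ⊓ Subgroup.centralizer ({t} : Set G)), x * (g * z * g⁻¹) * x⁻¹ = z := by
  have : Fact (Nat.Prime 2) := ⟨Nat.prime_two⟩
  obtain ⟨h, -⟩ := LE.of_fstar hz hF hQ
  rw [h.center_eq] at hgZ
  rw [← cj_def] at htQ ⊢
  have c7 : 128 ≤ Nat.card Q := by
    rw [hcard]; exact le_trans (by norm_num) (Nat.pow_le_pow_right two_pos (show 7 ≤ 2 * w + 1 by omega))
  have h1 := h.conj g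
  have sz : g * z * g⁻¹ ≠ z := fun e => hgZ (by rw [e]; exact mem_zpowers z)
  have zP := h.sym (by omega) hgQ
  have zs : IsConj z (g * z * g⁻¹) := isConj_iff.2 ⟨g, rfl⟩
  set s := g * z * g⁻¹
  have t1 := ne_one_of ht
  have tz : t ≠ z := fun e => htz (e ▸ IsConj.refl _)
  have ts : t ≠ s := fun e => htz (e ▸ zs)
  have ntz : ¬ IsConj z (t * z) := fun c => by
    obtain ⟨q, -, e⟩ := h.exists_conj htQ.1 t1 tz
    exact htz (c.trans (isConj_iff.2 ⟨q, e⟩).symm)
  have nts : ¬ IsConj z (t * s) := fun c => by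
    obtain ⟨q, -, e⟩ := h1.exists_conj htQ.2 t1 ts
    exact htz (c.trans (isConj_iff.2 ⟨q, e⟩).symm)
  have PQ : P ≤ Q := hP ▸ inf_le_left
  have PM : P ≤ C1[t] := hP ▸ inf_le_right
  have mP : ∀ y ∈ Q, Commute y t → y ∈ P := fun y hy c => hP ▸ ⟨hy, mem_centralizer_singleton.2 c⟩
  have zD := mP z h.zQ (h.zc t htQ.1).symm
  have sD := mP s hgQ (h1.zc t htQ.2).symm
  obtain ⟨r, hr, e1⟩ : ∃ r ∈ P, r * s * r⁻¹ = s * z := by
    by_contra hn
    push Not at hn
    rcases h.perp1 htQ.1 hgQ fun y hy c => cj_eq_iff_comm.1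
      ((h.comm y hy s hgQ).resolve_right (hn y (mP y hy c))) with e | e | e | e
    exacts [h1.z1 e, sz e, ts e.symm, ntz (e ▸ zs)]
  obtain ⟨y, hy, e2⟩ : ∃ y ∈ cj g Q ⊓ C1[t], y * z * y⁻¹ = z * s := by
    by_contra hn
    push Not at hn
    rcases h1.perp1 htQ.2 zP fun y hy c => cj_eq_iff_comm.1
      ((h1.comm y hy z zP).resolve_right (hn y ⟨hy, mem_centralizer_singleton.2 c⟩)) with e | e | e | e
    exacts [h.z1 e, sz e.symm, tz e.symm, nts (e ▸ IsConj.refl _)]
  have e3 := swap_conj h1.zz e1 e2 (h1.zc y hy.1) (h.zc s hgQ)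
  refine ⟨?_, y * r, mul_mem (mem_sup_right hy) (mem_sup_left hr), e3⟩
  let π := QuotientGroup.mk' ((zpowers t).subgroupOf C1[t])
  have k1 : ∀ x : C1[t], π x = 1 ↔ x.1 = 1 ∨ x.1 = t := fun x => (QuotientGroup.eq_one_iff x).trans (mem_zp ht)
  have k2 : ∀ x y : C1[t], π x = π y ↔ x.1 = y ∨ x.1 = t * y := fun x y => by
    rw [← mul_inv_eq_one, ← map_inv, ← map_mul, k1]; simp [mul_inv_eq_iff_eq_mul]
  have z1 : π ⟨z, PM zD⟩ ≠ 1 := fun e => ((k1 _).1 e).elim h.z1 tz.symm
  have cR : ∀ x : C1[t], x.1 ∈ P → (∀ y ∈ P, Commute x.1 y) → π x = 1 ∨ π x = π ⟨z, PM zD⟩ := fun x hx c => by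
    rw [k1, k2]
    rcases h.perp1 htQ.1 (PQ hx) fun y hy e => (c y (mP y hy e)).symm with e | e | e | e <;> simp [e]
  obtain ⟨a, ha, b, hb, k3, k4, k5⟩ : ∃ a ∈ P, ∃ b ∈ P, Commute a s ∧ Commute b s ∧ ¬ Commute a b := by
    by_contra hn
    push Not at hn
    have l1 : zpowers s ⊔ zpowers z ≤ Q := sup_le (zpowers_le.2 hgQ) (zpowers_le.2 h.zQ)
    have l2 : zpowers t ⊔ (zpowers s ⊔ zpowers z) ≤ Q := sup_le (zpowers_le.2 htQ.1) l1
    have c1 := Nat.le_of_dvd (Nat.mul_pos Nat.card_pos Nat.card_pos) (card_sup_dvd (A := zpowers s) (B := zpowers z)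
      (Or.inl ((zpowers_le.2 (mem_centralizer_singleton.2 (h.zc s hgQ))).trans (cent1_le_norm_zpowers z))))
    have c2 := Nat.le_of_dvd (Nat.mul_pos Nat.card_pos Nat.card_pos) (card_sup_dvd (A := zpowers t)
      (B := zpowers s ⊔ zpowers z) (Or.inr ((sup_le (zpowers_le.2 (PM sD)) (zpowers_le.2 (PM zD))).trans
        (cent1_le_norm_zpowers t))))
    rw [Nat.card_zpowers, Nat.card_zpowers, hz, h1.z2] at c1
    rw [Nat.card_zpowers, ht] at c2
    have zA : z ∈ zpowers t ⊔ (zpowers s ⊔ zpowers z) := mem_sup_right (mem_sup_right (mem_zpowers z))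
    have c3 := h.card_cent l2 zA
    have c4 := h.dperp l2 zA
    set B := Q ⊓ C[zpowers t ⊔ (zpowers s ⊔ zpowers z)]
    have m : ∀ x ∈ B, x ∈ P ∧ Commute x s := fun x hx =>
      ⟨mP x hx.1 (hx.2 t (mem_sup_left (mem_zpowers t))).symm,
        (hx.2 s (mem_sup_right (mem_sup_left (mem_zpowers s)))).symm⟩
    have c5 := card_le_of_le (show B ≤ Q ⊓ C[B] from le_inf inf_le_left fun x hx y hy =>
      (hn y (m y hy).1 x (m x hx).1 (m y hy).2 (m x hx).2).eq)
    rw [c4] at c5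
    nlinarith
  have eI := h.toES.image π PQ PM zD z1 cR ⟨a, ha, b, hb, k5⟩
  have cz : ∀ x : C1[t], Commute (π x) (π ⟨z, PM zD⟩) → Commute x.1 z := fun x c => by
    have := cj_eq_iff_comm.2 c
    rw [← map_inv, ← map_mul, ← map_mul, k2] at this
    exact cj_eq_iff_comm.1 (this.resolve_right fun e => ntz (isConj_iff.2 ⟨x, e⟩))
  refine LE.large_image h.toES π PQ PM zD ⟨eI, fun x hx => ?_, fun x hx => ?_⟩ sD
    (fun e => ((k2 _ _).1 e).elim sz fun e => ntz (e ▸ zs)) (mul_mem hy.2 (PM hr)) e3 ha hb k3 k4 k5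
  · obtain ⟨x, rfl⟩ := QuotientGroup.mk'_surjective _ x
    have xQ := (hCP x (mem_centralizer_singleton.2 (cz x (hx _ eI.zQ)))).1 fun y hy => by
      have := cj_eq_iff_comm.2 (hx _ (mem_map_of_mem (x := ⟨y, PM hy⟩) _ hy))
      rw [← map_inv, ← map_mul, ← map_mul, k2] at this
      rcases this with e | e
      · exact ⟨1, one_mem _, by simpa using e⟩
      · exact ⟨t, subset_closure (by simp), e.trans (mem_centralizer_singleton.1 (PM hy)).eq.symm⟩
    exact eI.cen _ (mem_map_of_mem _ (mP _ xQ (mem_centralizer_singleton.1 x.2))) hx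
  · obtain ⟨x, rfl⟩ := QuotientGroup.mk'_surjective _ x
    have : x.1 ∈ N[P] := by
      rw [hP]
      exact normsI (zpowers_le.2 (h.nQ _ (cz x hx))) (zpowers_le.2 (normG _ x.2)) (mem_zpowers _)
    exact norms_map π le_rfl (mem_map_of_mem _ (mem_normalizer_iff.2 fun y => mem_normalizer_iff.1 this y))

end Cfsg.Agent.S5429
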