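import Cfsg.Statements.S5430
import Cfsg.Agent.LES.Pair

set_option autoImplicit false
open Cfsg

namespace Cfsg.Agent.S5430

open Subgroup Cfsg.Agent.BG Cfsg.Agent.Invol Cfsg.Agent.LES

/-- Let Q be a large extraspecial 2-subgroup of the finite group G (extraspecial; centralizer equal to its centre; normal in the centralizer of its centre; normalizing no non-trivial subgroup of odd order) with centre generated by z, an involution, of width w ≥ 2 (order 2^(2w+1)); let g be an element outside the centralizer H of z with g z g⁻¹ in Q; write V for the subgroup generated by z and g z g⁻¹, X for the subgroup generated by Q and g Q g⁻¹, R for the subgroup generated by the centralizer of z in g Q g⁻¹ and the centralizer of g z g⁻¹ in Q, and E for the intersection of Q and g Q g⁻¹. Then R is the centralizer of V in X and is the largest normal 2-subgroup of X, and X/R is isomorphic to the symmetric group of degree 3; moreover the normalizer of V is the product of X and the centralizer of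 V in H, X is normal in it, and modulo R it is the direct product of X/R and of the centralizer of V in H modulo R. -/
theorem result {G : Type*} [Group G] [Finite G] (Q : Subgroup G) (hQ : Cfsg.IsLargeExtraspecial Q) (z : G) (hz : ((Subgroup.center ↥Q).map Q.subtype) = Subgroup.zpowers z) (hz2 : orderOf z = 2) (w : ℕ) (hw : 2 ≤ w) (hcard : Nat.card ↥Q = 2 ^ (2 * w + 1)) (g : G) (hgH : g ∉ Subgroup.centralizer ({z} : Set G)) (hgQ : g * z * g⁻¹ ∈ Q) (V X R E : Subgroup G) (hV : V = Subgroup.closure ({z, g * z * g⁻¹} : Set G)) (hX : X = Q ⊔ (Q).map (MulAut.conj g).toMonoidHom) (hR : R = ((Q).map (MulAut.conj g).toMonoidHom ⊓ Subgroup.centralizer ({z} : Set G)) ⊔ (Q ⊓ Subgroup.centralizer ({g * z * g⁻¹} : Set G))) (hE : E = Q ⊓ (Q).map (MulAut.conj g).toMonoidHom) : R = X ⊓ Subgroup.centralizer (V : Set G) ∧ R = (Cfsg.pCore 2 ↥X).map X.subtype ∧ (∃ h : (R.subgroupOf X).Normal, Nonempty (↥X ⧸ R.subgroupOf X ≃* Equiv.Perm (Fin 3))) ∧ Subgroup.normalizer (V : Set G) = X ⊔ (Subgroup.centralizer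 ({z} : Set G) ⊓ Subgroup.centralizer (V : Set G)) ∧ (∀ y ∈ Subgroup.normalizer (V : Set G), ∀ x ∈ X, y * x * y⁻¹ ∈ X) ∧ R ≤ Subgroup.centralizer ({z} : Set G) ⊓ Subgroup.centralizer (V : Set G) ∧ (∀ x ∈ X, ∀ c ∈ Subgroup.centralizer ({z} : Set G) ⊓ Subgroup.centralizer (V : Set G), x * c * x⁻¹ * c⁻¹ ∈ R) ∧ X ⊓ (Subgroup.centralizer ({z} : Set G) ⊓ Subgroup.centralizer (V : Set G)) = R := by
  have h := LE.of_large hQ hz
  have h8 : 8 < Nat.card Q := by
    rw [hcard]; exact lt_of_lt_of_le (by norm_num) (Nat.pow_le_pow_right two_pos (show 5 ≤ 2 * w + 1 by omega))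
  have p := h.pair h8 hgQ fun e => hgH (mem_centralizer_singleton.2 (cj_eq_iff_comm.1 e))
  subst hV hX hR
  simp only [← cj_def]
  have e : C1[z] ⊓ C[closure {z, g * z * g⁻¹}] = C[closure {z, g * z * g⁻¹}] :=
    inf_eq_right.2 fun x hx => mem_centralizer_singleton.2 (Pair.mem_CV.1 hx).1
  rw [e]
  refine ⟨p.R_eq, p.R_Op, ⟨p.R_normal.subgroupOf, ?_⟩, p.norm_V, fun y hy x hx => ?_, p.R_le_C,
    fun x hx c hc => (p.X_commSub hx).2 c hc, p.R_eq.symm⟩
  · obtain ⟨ψ, hs, hk, -⟩ := p.exists_S3
    have := p.R_normal.subgroupOf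
    exact ⟨(QuotientGroup.quotientMulEquivOfEq hk.symm).trans (QuotientGroup.quotientKerEquivOfSurjective ψ hs)⟩
  · rw [p.norm_V] at hy
    have : (Q ⊔ cj g Q) ⊔ C[closure {z, g * z * g⁻¹}] ≤ N[Q ⊔ cj g Q] := sup_le (normG _)
      (normsY (fun c hc => h.nQ c (Pair.mem_CV.1 hc).1) fun c hc => p.hP.nQ c (Pair.mem_CV.1 hc).2)
    exact (mem_normalizer_iff.1 (this hy) x).1 hx

end Cfsg.Agent.S5430
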