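import Cfsg.Statements.S5431
import Cfsg.Agent.LES.Pair

set_option autoImplicit false
open Cfsg

namespace Cfsg.Agent.S5431

open Subgroup Cfsg.Agent.BG Cfsg.Agent.Invol Cfsg.Agent.LES

/-- Let Q be a large extraspecial 2-subgroup of the finite group G (extraspecial; centralizer equal to its centre; normal in the centralizer of its centre; normalizing no non-trivial subgroup of odd order) with centre generated by z, an involution, of width w ≥ 2 (order 2^(2w+1)); let g be an element outside the centralizer H of z with g z g⁻¹ in Q; write V for the subgroup generated by z and g z g⁻¹, X for the subgroup generated by Q and g Q g⁻¹, R for the subgroup generated by the centralizer of z in g Q g⁻¹ and the centralizer of g z g⁻¹ in Q, and E for the intersection of Q and g Q g⁻¹. Then V is the centre of R, E lies in the second centre of R, R is nilpotent of class at most 3, E and R/E are elementary abelian, R/E is the direct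 product of the images of the centralizer of g z g⁻¹ in Q and of the centralizer of z in g Q g⁻¹ (R is their product and they meet in E), and the commutator subgroup of X and E lies in V. -/
theorem result {G : Type*} [Group G] [Finite G] (Q : Subgroup G) (hQ : Cfsg.IsLargeExtraspecial Q) (z : G) (hz : ((Subgroup.center ↥Q).map Q.subtype) = Subgroup.zpowers z) (hz2 : orderOf z = 2) (w : ℕ) (hw : 2 ≤ w) (hcard : Nat.card ↥Q = 2 ^ (2 * w + 1)) (g : G) (hgH : g ∉ Subgroup.centralizer ({z} : Set G)) (hgQ : g * z * g⁻¹ ∈ Q) (V X R E : Subgroup G) (hV : V = Subgroup.closure ({z, g * z * g⁻¹} : Set G)) (hX : X = Q ⊔ (Q).map (MulAut.conj g).toMonoidHom) (hR : R = ((Q).map (MulAut.conj g).toMonoidHom ⊓ Subgroup.centralizer ({z} : Set G)) ⊔ (Q ⊓ Subgroup.centralizer ({g * z * g⁻¹} : Set G))) (hE : E = Q ⊓ (Q).map (MulAut.conj g).toMonoidHom) : (Subgroup.center ↥R).map R.subtype = V ∧ E ≤ (Subgroup.upperCentralSeries ↥R 2).map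 R.subtype ∧ Subgroup.upperCentralSeries ↥R 3 = ⊤ ∧ Cfsg.IsElementaryAbelian 2 E ∧ (∀ x ∈ R, ∀ y ∈ R, x * y * x⁻¹ * y⁻¹ ∈ E ∧ x ^ 2 ∈ E) ∧ ((Q).map (MulAut.conj g).toMonoidHom ⊓ Subgroup.centralizer ({z} : Set G)) ⊓ (Q ⊓ Subgroup.centralizer ({g * z * g⁻¹} : Set G)) = E ∧ ⁅X, E⁆ ≤ V := by
  have h := LE.of_large hQ hz
  have h8 : 8 < Nat.card Q := by
    rw [hcard]; exact lt_of_lt_of_le (by norm_num) (Nat.pow_le_pow_right two_pos (show 5 ≤ 2 * w + 1 by omega))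
  have p := h.pair h8 hgQ fun e => hgH (mem_centralizer_singleton.2 (cj_eq_iff_comm.1 e))
  simp only [← cj_def] at hX hR hE ⊢
  set s := g * z * g⁻¹
  set P := cj g Q
  have h1 := p.hP
  have zV : z ∈ V := hV ▸ Pair.zV
  have sV : s ∈ V := hV ▸ Pair.sV
  have VQ : V ≤ Q := hV ▸ p.V_le
  have VP : V ≤ P := by rw [hV, ← Pair.V_comm]; exact p.symm.V_le
  have VE : V ≤ E := hE ▸ le_inf VQ VP
  have EQ : E ≤ Q := hE ▸ inf_le_left
  have EP : E ≤ P := hE ▸ inf_le_right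
  have RC : R ≤ C[V] := hR ▸ hV ▸ p.R_le_C
  have RX : R ≤ X := hR ▸ hX ▸ Pair.R_le_X
  have ER : E ≤ R := fun e he => hR ▸ mem_sup_right ⟨EQ he, mem_centralizer_singleton.2 (h1.zc e (EP he))⟩
  have XE : X ≤ commSub V E := hX ▸ sup_le (h.le_commSub zV VQ EQ) (h1.le_commSub sV VP EP)
  have hZ : (center R).map R.subtype = V := by
    rw [map_subtype_center]
    refine le_antisymm (fun x hx => ?_) (le_inf (VE.trans ER) (centsC.1 RC))
    rw [hV, p.mem_V]
    exact h.cent_A p.sQ h1.zz h1.z1 p.ne fun y hy c =>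
      hx.2 y (hR ▸ mem_sup_right ⟨hy, mem_centralizer_singleton.2 c⟩)
  have u1 : ∀ x : R, x.1 ∈ V → x ∈ Subgroup.upperCentralSeries R 1 := fun x hx => by
    rw [Subgroup.upperCentralSeries_one]
    obtain ⟨y, hy, e⟩ := hZ.ge hx
    rwa [← Subtype.ext e]
  have u2 : ∀ x : R, x.1 ∈ E → x ∈ Subgroup.upperCentralSeries R 2 := fun x hx =>
    Subgroup.mem_upperCentralSeries_succ_iff.2 fun y => u1 _ (by
      have := inv_mem ((XE (RX y.2)).2 x hx)
      simpa [commutatorElement_def, mul_assoc] using this)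
  have nE : X ≤ N[E] := fun x hx => mem_norm_of_cj_le fun _ hu' => by
    obtain ⟨u, hu, rfl⟩ := mem_cj'.1 hu'
    simpa using mul_mem (VE ((XE hx).2 u hu)) hu
  have AB : ∀ a ∈ Q ⊓ C1[s], ∀ b ∈ P ⊓ C1[z], a * b * a⁻¹ * b⁻¹ ∈ E := fun a ha b hb => hE ▸
    ⟨by simpa [mul_assoc] using mul_mem ha.1 (h.conj_mem (mem_centralizer_singleton.1 hb.2) (Q.inv_mem ha.1)),
      P.mul_mem (h1.conj_mem (mem_centralizer_singleton.1 ha.2) hb.1) (P.inv_mem hb.1)⟩
  have flip : ∀ a b : G, a * b * a⁻¹ * b⁻¹ ∈ E → b * a * b⁻¹ * a⁻¹ ∈ E := fun a b e => by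
    simpa [mul_assoc] using inv_mem e
  have RR0 : ∀ T : Set G, (∀ a ∈ Q ⊓ C1[s], ∀ c ∈ T, a * c * a⁻¹ * c⁻¹ ∈ E) →
      (∀ a ∈ P ⊓ C1[z], ∀ c ∈ T, a * c * a⁻¹ * c⁻¹ ∈ E) → R ≤ commSub E T := fun T k1 k2 => by
    rw [hR]
    exact sup_le (fun a ha => ⟨nE (hX ▸ mem_sup_right ha.1), k2 a ha⟩) fun a ha => ⟨nE (hX ▸ mem_sup_left ha.1), k1 a ha⟩
  have RA := RR0 (Q ⊓ C1[s] : Subgroup G)
    (fun a ha c hc => (h.le_commSub (T := Q) (VE zV) EQ le_rfl ha.1).2 c hc.1) fun b hb a ha => flip _ _ (AB a ha b hb)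
  have RB := RR0 (P ⊓ C1[z] : Subgroup G) AB
    (fun a ha c hc => (h1.le_commSub (T := P) (VE sV) EP le_rfl ha.1).2 c hc.1)
  have RR := RR0 R (fun a ha c hc => flip _ _ ((RA hc).2 a ha)) fun a ha c hc => flip _ _ ((RB hc).2 a ha)
  have sqE : ∀ x ∈ R, x ^ 2 ∈ E := fun x hx => by
    have nb : P ⊓ C1[z] ≤ N[Q ⊓ C1[s]] := normsI (fun y hy => h.nQ y (mem_centralizer_singleton.1 hy.2))
      (norms_cent1 fun y hy => mem_centralizer_singleton.2 (h1.zc y hy.1))
    obtain ⟨b, hb, a, ha, rfl⟩ := (mem_sup_normr nb).1 (hR ▸ hx)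
    have a2 : a * a ∈ E := by rcases h.sq a ha.1 with e | e <;> simp [e, VE zV]
    have b2 : b * b ∈ E := by rcases h1.sq b hb.1 with e | e <;> simp [e, VE sV]
    have := mul_mem (mul_mem b2 (flip _ _ (AB a ha b⁻¹ (inv_mem hb)))) a2
    rwa [show b * b * (b⁻¹ * a * b⁻¹⁻¹ * a⁻¹) * (a * a) = (b * a) ^ 2 by rw [pow_two]; group] at this
  have e2 : ∀ e ∈ E, e ^ 2 = 1 := fun e he => by
    rw [pow_two]
    rcases h.sq e (EQ he) with e1 | e1
    · exact e1
    · exact (h1.sq e (EP he)).resolve_right fun e2 => p.ne (e2.symm.trans e1)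
  refine ⟨hZ, fun e he => ⟨⟨e, ER he⟩, u2 _ he, rfl⟩, eq_top_iff.2 fun x _ =>
    Subgroup.mem_upperCentralSeries_succ_iff.2 fun y => u2 _ ((RR x.2).2 y y.2), ⟨⟨⟨fun a b => Subtype.ext ?_⟩⟩, e2⟩,
    fun x hx y hy => ⟨(RR hx).2 y hy, sqE x hx⟩, ?_, commutator_le.2 fun x hx e he => (XE hx).2 e he⟩
  · exact (commute_of_mul_sq (pow_two a.1 ▸ e2 a a.2) (pow_two b.1 ▸ e2 b b.2)
      (pow_two (a.1 * b.1) ▸ e2 _ (mul_mem a.2 b.2))).eq
  · rw [hE]
    exact le_antisymm (fun x hx => ⟨hx.2.1, hx.1.1⟩) fun x hx =>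
      ⟨⟨hx.2, mem_centralizer_singleton.2 (h.zc x hx.1)⟩, hx.1, mem_centralizer_singleton.2 (h1.zc x hx.2)⟩

end Cfsg.Agent.S5431
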