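import Cfsg.Statements.S5432
import Cfsg.Agent.PGrp.ES
import Cfsg.Agent.LES.Basic

set_option autoImplicit false
open Cfsg

namespace Cfsg.Agent.S5432

open Subgroup Cfsg.Agent.PGrp Cfsg.Agent.Geom

theorem z2a : ∀ a b : ZMod 2, (a = 0 ↔ b = 0) → a = b := by decide

theorem z2b : ∀ z₁ z₂ : ZMod 2, z₁ ^ 2 + 1 * z₁ * z₂ + 1 * z₂ ^ 2 = 0 → z₁ = 0 ∧ z₂ = 0 := by decide

theorem exists_lin {E : Type*} [Group E] [Finite E] {z : E} (h : IsES 2 z) {W : Type*} [AddCommGroup W] [Module (ZMod 2) W]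
    (f : E → W) (hf : ∀ x y, f (x * y) = f x + f y) (hz : f z = 0) :
    ∃ L : h.V →ₗ[ZMod 2] W, ∀ x, L (h.π x) = f x := by
  have h1 : f 1 = 0 := by simpa using hf 1 1
  have k : ∀ x, f (h.out (h.π x)) = f x := fun x => by
    obtain ⟨u, hu, e⟩ := h.exists_out x
    rcases (LES.mem_zp h.ord).1 hu with rfl | rfl <;> simp [e, hf, h1, hz]
  refine ⟨(AddMonoidHom.mk' (fun v => f (h.out v)) fun v w => ?_).toZModLinearMap 2, k⟩
  obtain ⟨x, rfl⟩ := h.mk_surjective v
  obtain ⟨y, rfl⟩ := h.mk_surjective w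
  rw [← h.mk_mul, k, k, k, hf]

theorem out_equiv {E : Type*} [Group E] [Finite E] {z : E} (h : IsES 2 z) (hZ : center E = zpowers z) :
    Nonempty (Out E ≃* h.quad.isom) := by
  have : Fact (Nat.Prime 2) := ⟨Nat.prime_two⟩
  have fz : ∀ φ : MulAut E, φ z = z := fun φ => by
    have : φ z ∈ zpowers z := hZ ▸ (MulEquivClass.apply_mem_center φ h.cen)
    exact ((LES.mem_zp h.ord).1 this).resolve_left (by simpa using h.ne_one)
  choose L hL using fun φ : MulAut E => exists_lin h (fun x => h.π (φ x)) (fun x y => by rw [map_mul, h.mk_mul])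
    (by rw [fz, h.mk_eq_zero]; exact mem_zpowers z)
  have ext : ∀ {a b : h.V ≃ₗ[ZMod 2] h.V}, (∀ x, a (h.π x) = b (h.π x)) → a = b := fun k => LinearEquiv.ext fun v => by
    obtain ⟨x, rfl⟩ := h.mk_surjective v; exact k x
  have li : ∀ φ : MulAut E, L φ ∘ₗ L φ⁻¹ = LinearMap.id := fun φ => LinearMap.ext fun v => by
    obtain ⟨x, rfl⟩ := h.mk_surjective v; simp [hL]
  let T : MulAut E → h.V ≃ₗ[ZMod 2] h.V := fun φ => LinearEquiv.ofLinearMap (L φ) (L φ⁻¹) (li φ) (li φ⁻¹)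
  have hT : ∀ φ x, T φ (h.π x) = h.π (φ x) := hL
  let θ : MulAut E →* h.quad.isom := MonoidHom.mk' (fun φ => ⟨T φ, Formed.mem_isom_ofQuad.2 fun v => by
    obtain ⟨x, rfl⟩ := h.mk_surjective v
    rw [hT]
    have : h.Q (h.π (φ x)) = 0 ↔ h.Q (h.π x) = 0 := by
      rw [h.Q_eq_zero, h.Q_eq_zero, ← map_pow, EmbeddingLike.map_eq_one_iff]
    exact z2a _ _ this⟩)
    fun φ ψ => Subtype.ext (ext fun x => by simp [hT])
  have sur : Function.Surjective θ := fun g => by
    obtain ⟨φ, -, hφ⟩ := h.exists_mulEquiv h g.1 (fun v w => by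
      rw [← h.quad_B, ← h.quad_B]; exact (Formed.isIso_of_mem_isom g.2).1 v w) (Formed.mem_isom_ofQuad.1 g.2)
    exact ⟨φ, Subtype.ext (ext fun x => (hT φ x).trans (hφ x))⟩
  have ker : θ.ker = Inn E := by
    ext φ
    refine ⟨fun k => ?_, ?_⟩
    · have m : ∀ x, φ x * x⁻¹ ∈ zpowers z := fun x => by
        have : h.π (φ x) = h.π x := (hT φ x).symm.trans (congrArg (fun g : h.quad.isom => g.1 (h.π x)) k)
        rw [← h.mk_eq_zero, h.mk_mul, h.mk_inv, this, add_neg_cancel]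
      obtain ⟨f, hf⟩ := exists_lin h (fun x => h.lg (φ x * x⁻¹)) (fun x y => h.ez_injective (by
        rw [h.ez_add, h.ez_lg (m _), h.ez_lg (m _), h.ez_lg (m _), map_mul, mul_inv_rev,
          mul_assoc (φ x) x⁻¹, ← (h.commute_of_mem (m y) x⁻¹).eq]; group)) (h.ez_injective (by
          rw [h.ez_lg (m _), fz, h.ez_zero, mul_inv_cancel]))
      obtain ⟨v, hv⟩ := (h.B.toDual ((Formed.nondeg_iff _).1 (h.nondeg_iff.2 hZ))).surjective f
      obtain ⟨w, rfl⟩ := h.mk_surjective v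
      refine ⟨w, MulEquiv.ext fun x => ?_⟩
      have : h.B (h.π w) (h.π x) = f (h.π x) := by rw [← hv]; rfl
      have := congrArg h.ez this
      rw [h.ez_B, hf, h.ez_lg (m x)] at this
      exact mul_right_cancel this
    · rintro ⟨w, rfl⟩
      refine Subtype.ext (ext fun x => (hT _ x).trans ?_)
      show h.π (w * x * w⁻¹) = h.π x
      rw [h.mk_mul, h.mk_mul, h.mk_inv]; abel
  exact ⟨(QuotientGroup.quotientMulEquivOfEq ker.symm).trans (QuotientGroup.quotientKerEquivOfSurjective θ sur)⟩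

/-- Let E be an extraspecial 2-group of order 2^(2n+1), n ≥ 1. If E contains an elementary abelian subgroup of order 2^(n+1) (plus type), then its outer automorphism group is isomorphic to the full isometry group of the hyperbolic quadratic form in dimension 2n over the field with two elements; otherwise (minus type) it is isomorphic to the full isometry group of the elliptic quadratic form in dimension 2n over that field. -/
theorem result {E : Type*} [Group E] [Finite E] (hE : Cfsg.IsExtraspecial 2 E) (n : ℕ) (hn : 1 ≤ n) (hcard : Nat.card E = 2 ^ (2 * n + 1)) : ((∃ A : Subgroup E, Cfsg.IsElementaryAbelian 2 A ∧ Nat.card ↥A = 2 ^ (n + 1)) → Nonempty (Cfsg.Out E ≃* Cfsg.isometryGroup (ZMod 2) (Cfsg.quadFormPlus n (ZMod 2)))) ∧ ((¬ ∃ A : Subgroup E, Cfsg.IsElementaryAbelian 2 A ∧ Nat.card ↥A = 2 ^ (n + 1)) → Nonempty (Cfsg.Out E ≃* Cfsg.isometryGroup (ZMod 2) (Cfsg.quadFormMinus (n - 1) (ZMod 2) 1 1))) := by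
  have : Fact (Nat.Prime 2) := ⟨Nat.prime_two⟩
  obtain ⟨z, h, hZ⟩ := exists_isES hE
  obtain ⟨e⟩ := out_equiv h hZ
  obtain ⟨m, rfl⟩ := Nat.exists_eq_add_of_le' hn
  have nd := h.quad_nondeg_iff.2 hZ
  have fr := h.finrank_eq hcard
  rcases h.wittIndex_cases hZ hcard with k | k
  · refine ⟨fun _ => ?_, fun hn => ?_⟩
    · obtain ⟨g, hg⟩ := exists_isIso_plus nd fr k
      rw [← coe_quadPlus]
      exact ⟨e.trans (hg.isomCongr.trans (isometryEquiv (quadPlus (ZMod 2) (m + 1))).symm)⟩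
    · obtain ⟨A, h1, -, h2⟩ := h.exists_elem k
      exact absurd ⟨A, h1, h2⟩ hn
  · refine ⟨fun ⟨A, h1, h2⟩ => ?_, fun _ => ?_⟩
    · have := (h.pRankLE_iff k).2 le_rfl A h1.1 h1.2
      rw [h2] at this
      exact absurd ((Nat.pow_le_pow_iff_right one_lt_two).1 this) (by omega)
    · obtain ⟨g, hg⟩ := exists_isIso_minus (a := 1) (b := 1) nd fr k z2b
      show Nonempty (Out E ≃* isometryGroup (ZMod 2) (quadFormMinus m (ZMod 2) 1 1))
      rw [← coe_quadMinus]
      exact ⟨e.trans (hg.isomCongr.trans (isometryEquiv (quadMinus (ZMod 2) m 1 1)).symm)⟩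

end Cfsg.Agent.S5432
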