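import Cfsg.Statements.S5433
import Cfsg.Agent.Invol.Basic

set_option autoImplicit false
open Cfsg

namespace Cfsg.Agent.S5433

/-- Let Q be a large extraspecial 2-subgroup of the finite group G (extraspecial; centralizer equal to its centre; normal in the centralizer of its centre; normalizing no non-trivial subgroup of odd order), and L a normal subgroup of G containing Q. Then G is the product of L and the normalizer of Q. -/
theorem result {G : Type*} [Group G] [Finite G] (Q : Subgroup G) (hQ : Cfsg.IsLargeExtraspecial Q) (L : Subgroup G) [L.Normal] (hQL : Q ≤ L) : L ⊔ Subgroup.normalizer (Q : Set G) = ⊤ := by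
  classical
  haveI : Fact (Nat.Prime 2) := ⟨Nat.prime_two⟩
  obtain ⟨hE, hC, hN, -⟩ := hQ
  set Z := (Subgroup.center ↥Q).map Q.subtype with hZ
  have cZ : Nat.card Z = 2 := by rw [hZ, Subgroup.card_map_of_injective Q.subtype_injective, hE.2]
  obtain ⟨P, hP⟩ := (hE.1.1.comap_of_injective L.subtype L.subtype_injective).exists_le_sylow
  set T := (P : Subgroup L).map L.subtype with hT
  have hQT : Q ≤ T := fun q hq => ⟨⟨q, hQL hq⟩, hP hq, rfl⟩
  have pT : IsPGroup 2 T := P.isPGroup'.map _
  have hQ0 : Q ≠ ⊥ := fun h => by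
    have : Z = ⊥ := by rw [hZ, eq_bot_iff]; exact (Subgroup.map_subtype_le _).trans h.le
    rw [this] at cZ; simp at cZ
  obtain ⟨z, hzT, hz2, hzc⟩ := Invol.exists_central_invol pT (fun h => hQ0 (eq_bot_iff.2 (h ▸ hQT)))
  have uq : ∀ w ∈ T, orderOf w = 2 → (∀ s ∈ T, Commute s w) → Subgroup.zpowers w = Z := fun w hw h2 hc => by
    refine Subgroup.eq_of_le_of_card_ge (Subgroup.zpowers_le.2 ?_) (by rw [cZ, Nat.card_zpowers, h2])
    rw [← hC]; exact fun q hq => (hc q (hQT hq)).eq
  have hle : Subgroup.normalizer (T : Set G) ≤ Subgroup.normalizer (Q : Set G) := fun g hg => hN ?_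
  · rw [eq_top_iff, ← Sylow.normalizer_sup_eq_top P, sup_comm]
    exact sup_le_sup_left hle _
  have h1 := uq z hzT hz2 hzc
  have h2 := uq (g * z * g⁻¹) ((Subgroup.mem_normalizer_iff.1 hg z).1 hzT) (by rw [Invol.orderOf_conj', hz2])
    fun s hs => by
      have := (hzc (g⁻¹ * s * g) ((Subgroup.mem_normalizer_iff.1 hg _).2 (by simpa [mul_assoc] using hs))).eq
      show s * (g * z * g⁻¹) = g * z * g⁻¹ * s
      calc s * (g * z * g⁻¹) = g * (g⁻¹ * s * g * z) * g⁻¹ := by group
        _ = _ := by rw [this]; group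
  have h3 : g * z * g⁻¹ = z := by
    have hm : g * z * g⁻¹ ∈ Subgroup.zpowers z := by rw [h1, ← h2]; exact Subgroup.mem_zpowers _
    rw [mem_zpowers_iff_mem_range_orderOf, hz2] at hm
    simp only [Finset.range_add_one, Finset.range_zero, Finset.mem_image, Finset.mem_insert] at hm
    obtain ⟨i, hi | hi | hi, e⟩ := hm
    · rw [← e, hi]; simp
    · rw [hi, pow_zero] at e
      exact absurd (by simpa using e.symm) (Invol.ne_one_of hz2)
    · simp at hi
  intro w hw
  rw [SetLike.mem_coe, ← h1] at hw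
  obtain ⟨k, rfl⟩ := hw
  exact ((show Commute g z from mul_inv_eq_iff_eq_mul.1 h3).zpow_right k).eq.symm

end Cfsg.Agent.S5433
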