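import Cfsg.Statements.S5434
import Cfsg.Agent.LES.Struct
import Cfsg.Agent.Sig.Fpf1

set_option autoImplicit false
open Cfsg

namespace Cfsg.Agent.S5434

open Subgroup Cfsg.Agent.BG Cfsg.Agent.Invol Cfsg.Agent.LES

/-- Let Q be a large extraspecial 2-subgroup of the finite group G (extraspecial; centralizer equal to its centre; normal in the centralizer of its centre; normalizing no non-trivial subgroup of odd order), and A a non-trivial subgroup of odd order of the normalizer of Q. Then Q is the central product of the centralizer of A in Q and the commutator subgroup [Q, A] (they generate Q and commute elementwise), [Q, A] is extraspecial, and the centralizer of A in Q is either the centre of Q or extraspecial. -/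
theorem result {G : Type*} [Group G] [Finite G] (Q : Subgroup G) (hQ : Cfsg.IsLargeExtraspecial Q) (A : Subgroup G) (hA : A ≤ Subgroup.normalizer (Q : Set G)) (hAodd : Odd (Nat.card ↥A)) (hA1 : A ≠ ⊥) : (Q ⊓ Subgroup.centralizer (A : Set G)) ⊔ ⁅Q, A⁆ = Q ∧ (∀ x ∈ Q ⊓ Subgroup.centralizer (A : Set G), ∀ y ∈ ⁅Q, A⁆, x * y = y * x) ∧ Cfsg.IsExtraspecial 2 ↥⁅Q, A⁆ ∧ (Q ⊓ Subgroup.centralizer (A : Set G) = ((Subgroup.center ↥Q).map Q.subtype) ∨ Cfsg.IsExtraspecial 2 ↥(Q ⊓ Subgroup.centralizer (A : Set G))) := by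
  have : Fact (Nat.Prime 2) := ⟨Nat.prime_two⟩
  obtain ⟨z, h⟩ := LE.of_ext hQ.1 hQ.2.1 hQ.2.2.1
  have hZ : Z[Q] = zpowers z := by rw [← map_subtype_center, h.center_eq]
  have := Sig.es_comm hQ.1 hA (h.coprime hAodd) (by
    rw [hZ]; exact centsC.1 (zpowers_le.2 fun a ha => (h.norm_comm (hA ha)).eq)) fun e => hA1 (eq_bot_iff.2 fun a ha => by
      rcases h.cQ a fun y hy => (commG1'.1 e ha y hy).symm with e | e
      · exact e
      · have := odd_orderOf_of_mem hAodd ha
        rw [e, h.z2] at this; exact absurd this (by decide))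
  refine ⟨by rw [sup_comm]; exact coprime_cent_prod hA (h.coprime hAodd) h.sol,
    fun x hx y hy => (this.2.2.2 hx y hy).symm, this.1, ?_⟩
  rw [h.center_eq]
  exact (h.cent_odd hA hAodd).imp id ES.isExtraspecial

end Cfsg.Agent.S5434
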