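import Cfsg.Statements.S5436
import Cfsg.Agent.LES.Struct

set_option autoImplicit false
open Cfsg

namespace Cfsg.Agent.S5436

open Subgroup Cfsg.Agent.BG Cfsg.Agent.Invol Cfsg.Agent.LES

/-- Let z be an involution of the finite group G with centralizer H whose generalized Fitting subgroup Q is extraspecial of width at least 2 (order 2^(2w+1), w ≥ 2); suppose some conjugate of z other than z lies in Q, H/Q is a non-abelian simple group, H acts irreducibly by conjugation on Q modulo the subgroup generated by z (the only H-invariant subgroups of Q containing z are that subgroup and Q), and Q is not the subgroup generated by the conjugates of z lying in H. Then G is simple. -/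
theorem result {G : Type*} [Group G] [Finite G] (z : G) (hz : orderOf z = 2) (Q : Subgroup (Subgroup.centralizer ({z} : Set G))) [Q.Normal] (hF : Cfsg.generalizedFittingSubgroup ↥(Subgroup.centralizer ({z} : Set G)) = Q) (hQ : Cfsg.IsExtraspecial 2 ↥Q) (w : ℕ) (hw : 2 ≤ w) (hcard : Nat.card ↥Q = 2 ^ (2 * w + 1)) (hnwc : ∃ g : G, (∃ hq : g * z * g⁻¹ ∈ Subgroup.centralizer ({z} : Set G), (⟨g * z * g⁻¹, hq⟩ : Subgroup.centralizer ({z} : Set G)) ∈ Q) ∧ g * z * g⁻¹ ≠ z) (hsimp : IsSimpleGroup (↥(Subgroup.centralizer ({z} : Set G)) ⧸ Q)) (hna : ¬ IsMulCommutative (↥(Subgroup.centralizer ({z} : Set G)) ⧸ Q)) (hirr : ∀ W : Subgroup (Subgroup.centralizer ({z} : Set G)), W.Normal → W ≤ Q → (W = Q ∨ ∀ x ∈ W, (x : G) ∈ Subgroup.zpowers z)) (hwcl : Subgroup.closure {x : Subgroup.centralizer ({z} : Set G) | IsConj z (x : G)} ≠ Q) : IsSimpleGroup G := by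
  have : Fact (Nat.Prime 2) := ⟨Nat.prime_two⟩
  have e := equivMapOfInjective Q _ C1[z].subtype_injective
  obtain ⟨h, hO⟩ := LE.of_fstar hz (congrArg (map C1[z].subtype) hF) (PGrp.ES_of_mulEquiv hQ e)
  have h8 : 8 < Nat.card (Q.map C1[z].subtype) := by
    rw [← Nat.card_congr e.toEquiv, hcard]
    exact lt_of_lt_of_le (by norm_num) (Nat.pow_le_pow_right two_pos (show 5 ≤ 2 * w + 1 by omega))
  obtain ⟨g, ⟨hq, hg⟩, hne⟩ := hnwc
  have h1 : g * z * g⁻¹ ∈ Q.map C1[z].subtype := ⟨_, hg, rfl⟩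
  refine simple_of (h.large_of_conj h1 hne (h.sym h8 h1)) h hO ?_
  set W := closure {x : C1[z] | IsConj z (x : G)} with hW
  have nW : W.Normal := normal_top_iff.1 ⟨le_top, norms_closure fun c _ x hx =>
    IsConj.trans hx (isConj_iff.2 ⟨c.1, rfl⟩)⟩
  have lQ : Q ≤ W := by
    rcases hirr (W ⊓ Q) inferInstance inf_le_right with e | e
    · exact inf_eq_right.1 e
    · rcases (mem_zp hz).1 (e ⟨_, hq⟩ ⟨subset_closure (isConj_iff.2 ⟨g, rfl⟩), hg⟩) with e | e
      · exact absurd e (h.conj g).z1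
      · exact absurd e hne
  have : W = ⊤ := by
    rcases hsimp.eq_bot_or_eq_top_of_normal _ (nW.map _ (QuotientGroup.mk'_surjective Q)) with e | e
    · rw [Subgroup.map_eq_bot_iff, QuotientGroup.ker_mk'] at e
      exact absurd (le_antisymm e lQ) hwcl
    · have := comap_map_eq (QuotientGroup.mk' Q) W
      rwa [e, comap_top, QuotientGroup.ker_mk', sup_eq_left.2 lQ, eq_comm] at this
  intro x hx
  have k : W ≤ (normalClosure {z}).comap C1[z].subtype := by
    rw [hW, closure_le]
    intro y hy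
    obtain ⟨c, hc⟩ := isConj_iff.1 hy
    refine mem_comap.2 (show y.1 ∈ normalClosure {z} from ?_)
    rw [← hc]
    exact normalClosure_normal.conj_mem _ (subset_normalClosure (Set.mem_singleton z)) c
  exact k (this ▸ mem_top (⟨x, hx⟩ : C1[z]))

end Cfsg.Agent.S5436
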