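import Cfsg.Statements.S5437
import Cfsg.Agent.Invol.Basic

set_option autoImplicit false
open Cfsg

namespace Cfsg.Agent.S5437

theorem fix_iff {G : Type*} [Group G] (H : Subgroup G) (x g : G) :
    x • (g : G ⧸ H) = (g : G ⧸ H) ↔ g⁻¹ * x * g ∈ H := by
  rw [MulAction.Quotient.smul_coe, QuotientGroup.eq, smul_eq_mul, ← H.inv_mem_iff]
  simp [mul_assoc]

/-- Let I be a set of involutions of the finite group G closed under conjugation, and H a subgroup of G. The following are equivalent: (1) for every member x of I lying in H, the conjugates of x lying in H form a single H-class and the centralizer of x lies in H; (2) for every g outside H, no member of I lies in both H and g H g⁻¹; (3) every member of I lying in H fixes exactly one coset in the action of G on the cosets of H. -/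
theorem result {G : Type*} [Group G] [Finite G] (I : Set G) (hI : ∀ x ∈ I, orderOf x = 2) (hIc : ∀ g : G, ∀ x ∈ I, g * x * g⁻¹ ∈ I) (H : Subgroup G) : ((∀ x ∈ I, x ∈ H → (∀ g : G, g * x * g⁻¹ ∈ H → ∃ h ∈ H, h * x * h⁻¹ = g * x * g⁻¹) ∧ Subgroup.centralizer ({x} : Set G) ≤ H) ↔ (∀ g : G, g ∉ H → ∀ x ∈ I, ¬ (x ∈ H ∧ x ∈ (H : Subgroup G).map (MulAut.conj g).toMonoidHom))) ∧ ((∀ g : G, g ∉ H → ∀ x ∈ I, ¬ (x ∈ H ∧ x ∈ (H : Subgroup G).map (MulAut.conj g).toMonoidHom)) ↔ ∀ x ∈ I, x ∈ H → ∃! c : G ⧸ H, x • c = c) := by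
  refine ⟨⟨fun h g hg x hx ⟨hxH, hxg⟩ => hg ?_, fun h x hx hxH => ⟨fun g hg => ?_, fun c hc => ?_⟩⟩,
    ⟨fun h x hx hxH => ⟨((1 : G) : G ⧸ H), (fix_iff H x 1).2 (by simpa using hxH), fun c hc => ?_⟩,
      fun h g hg x hx ⟨hxH, hxg⟩ => hg ?_⟩⟩
  · rw [Invol.mem_map_conj_iff] at hxg
    obtain ⟨k, hk, e⟩ := (h x hx hxH).1 g⁻¹ (by simpa using hxg)
    have : g * k ∈ Subgroup.centralizer ({x} : Set G) := by
      rw [Invol.mem_centralizer_singleton]
      have : g * k * x * (g * k)⁻¹ = x := by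
        calc g * k * x * (g * k)⁻¹ = g * (k * x * k⁻¹) * g⁻¹ := by group
          _ = x := by rw [e]; group
      exact mul_inv_eq_iff_eq_mul.1 this
    have h2 := (h x hx hxH).2 this
    simpa using H.mul_mem h2 (H.inv_mem hk)
  · by_cases hgH : g ∈ H
    · exact ⟨g, hgH, rfl⟩
    · exact absurd ⟨hg, Invol.conj_mem_map_conj g hxH⟩ (h g hgH _ (hIc g x hx))
  · by_contra hcH
    refine h c hcH x hx ⟨hxH, Invol.mem_map_conj_iff.2 ?_⟩
    have := (Invol.mem_centralizer_singleton.1 hc).eq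
    rw [mul_assoc, ← this]; simpa using hxH
  · obtain ⟨g, rfl⟩ := QuotientGroup.mk_surjective c
    have hg := (fix_iff H x g).1 hc
    by_contra hne
    refine h g (fun hgH => hne ?_) x hx ⟨hxH, Invol.mem_map_conj_iff.2 hg⟩
    rw [QuotientGroup.eq]; simpa using hgH
  · rw [Invol.mem_map_conj_iff] at hxg
    have := (h x hx hxH).unique ((fix_iff H x g).2 hxg) ((fix_iff H x 1).2 (by simpa using hxH))
    rw [QuotientGroup.eq] at this; simpa using this

end Cfsg.Agent.S5437
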