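import Cfsg.Statements.S5439
import Cfsg.Agent.Invol.Basic
import Cfsg.Agent.S5437

set_option autoImplicit false
open Cfsg

namespace Cfsg.Agent.S5439

open S5437 in
theorem mem_of_comm {G : Type*} [Group G] (H : Subgroup G) {x : G} (hx : x ∈ H) (h : ∃! c : G ⧸ H, x • c = c)
    {g : G} (hg : g⁻¹ * x * g ∈ H) : g ∈ H := by
  have := h.unique ((fix_iff H x g).2 hg) ((fix_iff H x 1).2 (by simpa using hx))
  rw [QuotientGroup.eq] at this; simpa using this

/-- Let I and J be two different conjugacy classes of involutions of the finite group G and H a subgroup such that every member of I ∪ J fixes exactly one coset in the action on the cosets of H, and such that for every a in I ∩ H and every b in (I ∪ J) ∩ H different from a and commuting with it, the centralizer of a b lies in H. Then H = G. -/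
theorem result {G : Type*} [Group G] [Finite G] (I J : Set G) (a₀ b₀ : G) (ha₀ : orderOf a₀ = 2) (hb₀ : orderOf b₀ = 2) (hI : I = {x | IsConj a₀ x}) (hJ : J = {x | IsConj b₀ x}) (hIJ : I ≠ J) (H : Subgroup G) (hfix : ∀ x ∈ I ∪ J, ∃! c : G ⧸ H, x • c = c) (hcent : ∀ a ∈ I, a ∈ H → ∀ b ∈ I ∪ J, b ∈ H → a ≠ b → a * b = b * a → Subgroup.centralizer ({a * b} : Set G) ≤ H) : H = ⊤ := by
  by_contra hne
  obtain ⟨g, hg⟩ : ∃ g, g ∉ H := by
    by_contra h; push Not at h; exact hne (eq_top_iff.2 fun g _ => h g)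
  have ex : ∀ x ∈ I ∪ J, ∃ y, IsConj x y ∧ y ∈ H := fun x hx => by
    obtain ⟨c, hc, -⟩ := hfix x hx
    obtain ⟨k, rfl⟩ := QuotientGroup.mk_surjective c
    exact ⟨k⁻¹ * x * k, isConj_iff.2 ⟨k⁻¹, by simp⟩, (S5437.fix_iff H x k).1 hc⟩
  obtain ⟨a, haI, haH⟩ := ex a₀ (Or.inl (by rw [hI]; exact IsConj.refl _))
  obtain ⟨b', hbJ, hbH⟩ := ex b₀ (Or.inr (by rw [hJ]; exact IsConj.refl _))
  set b := g * b' * g⁻¹ with hb
  have hbJ' : IsConj b₀ b := hbJ.trans (isConj_iff.2 ⟨g, rfl⟩)
  have ha2 : orderOf a = 2 := by rw [← Invol.orderOf_of_isConj haI, ha₀]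
  have hb2 : orderOf b = 2 := by rw [← Invol.orderOf_of_isConj hbJ', hb₀]
  have haI' : a ∈ I := by rw [hI]; exact haI
  have hbJ'' : b ∈ J := by rw [hJ]; exact hbJ'
  have hbn : b ∉ H := fun hbH' =>
    hg (mem_of_comm H hbH' (hfix b (Or.inr hbJ'')) (by rw [hb]; simpa [mul_assoc] using hbH))
  have hnc : ¬ IsConj a b := fun h => hIJ (by
    rw [hI, hJ]; ext x
    have : IsConj a₀ b₀ := (haI.trans h).trans hbJ'.symm
    exact ⟨fun hx => this.symm.trans hx, fun hx => this.trans hx⟩)
  have a2 := Invol.mul_self_of ha2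
  have b2 := Invol.mul_self_of hb2
  obtain ⟨k, hk, hka, hkb⟩ := Invol.exists_commute_of_not_isConj a2 b2 hnc
  set u := (a * b) ^ k with hu
  have huH : u ∈ H := mem_of_comm H haH (hfix a (Or.inl haI'))
    (by rw [mul_assoc, ← hka.eq]; simpa using haH)
  have hmem : a * u ∈ I ∪ J := by
    rcases Nat.even_or_odd k with h | h
    · left; rw [hI]; exact haI.trans (Invol.isConj_left_of_even a2 b2 h)
    · right; rw [hJ]; exact hbJ'.trans (Invol.isConj_right_of_odd a2 b2 h)
  have := hcent a haI' haH (a * u) hmem (H.mul_mem haH huH)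
    (fun h => Invol.ne_one_of hk (by simpa using h.symm))
    (by rw [mul_assoc a u a, hka.eq])
  refine hbn (this (Invol.mem_centralizer_singleton.2 ?_))
  rw [Invol.mul_self_cancel a2]; exact hkb.symm

end Cfsg.Agent.S5439
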