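import Cfsg.Statements.S5438
import Cfsg.Agent.Invol.Basic
import Cfsg.Agent.S5439

set_option autoImplicit false
open Cfsg

namespace Cfsg.Agent.S5438

theorem orb {K X : Type*} [Group K] [MulAction K X] [Finite K] (ω : X) (a b : K) (ha : a * a = 1) (hb : b * b = 1)
    (haω : a • ω = ω) (hu : ∀ x, a • x = x → x = ω) : ∃ x ∈ MulAction.orbit K ω, b • x = x := by
  haveI : Fact (Nat.Prime 2) := ⟨Nat.prime_two⟩
  haveI : Finite (MulAction.orbit K ω) := Set.finite_range _
  have pa : IsPGroup 2 (Subgroup.zpowers a) := Invol.isPGroup_zpowers (n := 1) (by simpa [pow_two] using ha)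
  have pb : IsPGroup 2 (Subgroup.zpowers b) := Invol.isPGroup_zpowers (n := 1) (by simpa [pow_two] using hb)
  have h1 := pa.card_modEq_card_fixedPoints (MulAction.orbit K ω)
  have h2 : Nat.card (MulAction.fixedPoints (Subgroup.zpowers a) (MulAction.orbit K ω)) = 1 := by
    rw [Nat.card_eq_one_iff_exists]
    refine ⟨⟨⟨ω, MulAction.mem_orbit_self ω⟩, fun ⟨g, hg⟩ => Subtype.ext ?_⟩, fun ⟨⟨x, hx⟩, hf⟩ => ?_⟩
    · have : g ∈ MulAction.stabilizer K ω := (Subgroup.zpowers_le.2 haω) hg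
      exact this
    · exact Subtype.ext (Subtype.ext (hu x (congrArg Subtype.val (hf ⟨a, Subgroup.mem_zpowers a⟩))))
  rw [h2] at h1
  obtain ⟨⟨x, hx⟩, hf⟩ := pb.nonempty_fixed_point_of_prime_not_dvd_card (MulAction.orbit K ω)
    (by have := h1; unfold Nat.ModEq at this; omega)
  exact ⟨x, hx, congrArg Subtype.val (hf ⟨b, Subgroup.mem_zpowers b⟩)⟩

/-- Let z be a 2-central involution of the finite group G (an involution central in some Sylow 2-subgroup) and H a subgroup containing z such that the coset H is the only coset of H fixed by z (in the action of G on the cosets of H). Then H has odd index in G, and for every 2-element x of H the conjugates of x lying in H form a single H-class. -/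
theorem result {G : Type*} [Group G] [Finite G] (z : G) (hz : Cfsg.IsTwoCentralInvolution z) (H : Subgroup G) (hzH : z ∈ H) (hfix : ∀ g : G, g⁻¹ * z * g ∈ H → g ∈ H) : Odd H.index ∧ ∀ x ∈ H, (∃ k : ℕ, orderOf x = 2 ^ k) → ∀ g : G, g * x * g⁻¹ ∈ H → ∃ h ∈ H, h * x * h⁻¹ = g * x * g⁻¹ := by
  haveI : Fact (Nat.Prime 2) := ⟨Nat.prime_two⟩
  obtain ⟨hz2, P, hzP, hP⟩ := hz
  have hPH : (P : Subgroup G) ≤ H := fun s hs => hfix s (by rw [mul_assoc, ← hP s hs]; simpa using hzH)
  refine ⟨?_, fun x hx ⟨k, hk⟩ g hg => ?_⟩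
  · have h1 := P.not_dvd_index
    have h2 := Subgroup.index_dvd_of_le hPH
    rw [← Nat.not_even_iff_odd, even_iff_two_dvd]
    exact fun h => h1 (h.trans h2)
  have key : ∀ y ∈ H, y ^ 2 ^ k = 1 → ∃ h ∈ H, Commute (h⁻¹ * z * h) y := fun y hy hyk => by
    obtain ⟨h, hh, e⟩ := Invol.exists_conj_into_sylow_of_le (Invol.isPGroup_zpowers hyk)
      (Subgroup.zpowers_le.2 hy) (P.subtype hPH)
    have := e y (Subgroup.mem_zpowers y)
    rw [Sylow.coe_subtype, Subgroup.subgroupOf_map_subtype] at this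
    refine ⟨h, hh, ?_⟩
    have e2 := hP _ this.1
    show h⁻¹ * z * h * y = y * (h⁻¹ * z * h)
    calc h⁻¹ * z * h * y = h⁻¹ * (z * (h * y * h⁻¹)) * h := by group
      _ = y * (h⁻¹ * z * h) := by rw [← e2]; group
  have hxk : x ^ 2 ^ k = 1 := by rw [← hk, pow_orderOf_eq_one]
  obtain ⟨h1, hh1, c1⟩ := key x hx hxk
  obtain ⟨h2, hh2, c2⟩ := key _ hg (by rw [conj_pow, hxk]; simp)
  set y := g * x * g⁻¹ with hy
  have z2 := Invol.mul_self_of hz2
  let K := Subgroup.centralizer ({y} : Set G)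
  let a : K := ⟨g * (h1⁻¹ * z * h1) * g⁻¹, Invol.mem_centralizer_singleton.2 (by
    show _ * _ = _ * _
    calc g * (h1⁻¹ * z * h1) * g⁻¹ * y = g * (h1⁻¹ * z * h1 * x) * g⁻¹ := by rw [hy]; group
      _ = _ := by rw [c1.eq, hy]; group)⟩
  let b : K := ⟨h2⁻¹ * z * h2, Invol.mem_centralizer_singleton.2 c2⟩
  have sq : ∀ w : G, w⁻¹ * z * w * (w⁻¹ * z * w) = 1 := fun w => by
    calc w⁻¹ * z * w * (w⁻¹ * z * w) = w⁻¹ * (z * z) * w := by group
      _ = 1 := by rw [z2]; simp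
  obtain ⟨c, ⟨d, rfl⟩, hc⟩ := orb ((g : G) : G ⧸ H) a b
    (Subtype.ext (by have := sq (h1 * g⁻¹); simp only [a]; simpa [mul_assoc] using this))
    (Subtype.ext (sq h2))
    ((S5437.fix_iff H a.1 g).2 (by simpa [a, mul_assoc] using H.mul_mem (H.inv_mem hh1) (H.mul_mem hzH hh1)))
    (fun c hc => by
      obtain ⟨w, rfl⟩ := QuotientGroup.mk_surjective c
      have h3 := (S5437.fix_iff H a.1 w).1 hc
      have h4 := hfix (h1 * g⁻¹ * w) (by simpa [a, mul_assoc] using h3)
      rw [eq_comm, QuotientGroup.eq]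
      simpa [mul_assoc] using H.mul_mem (H.inv_mem hh1) h4)
  have h3 := (S5437.fix_iff H b.1 (d.1 * g)).1 hc
  have h4 := hfix (h2 * (d.1 * g)) (by simpa [b, mul_assoc] using h3)
  refine ⟨d.1 * g, by simpa using H.mul_mem (H.inv_mem hh2) h4, ?_⟩
  have := (Invol.mem_centralizer_singleton.1 d.2).eq
  calc d.1 * g * x * (d.1 * g)⁻¹ = d.1 * y * d.1⁻¹ := by rw [hy]; group
    _ = y := by rw [this]; group

end Cfsg.Agent.S5438
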