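import Cfsg.Statements.S5458
import Cfsg.Agent.Fischer.Base
-- import your own Cfsg.Agent.* helpers here

set_option autoImplicit false
open Cfsg

namespace Cfsg.Agent.S5458

/-- Let G be a finite group with trivial centre generated by a conjugation-invariant set D of 3-transpositions on which it acts primitively, of type M(22), and suppose G also has an involution whose centralizer is quasisimple with quotient by it the projective special unitary group of dimension 6 over the field with four elements and which is not weakly closed in that centralizer. Let T be a Sylow 2-subgroup of G. Then the subgroup generated by the members of D lying in T is the Thompson subgroup of T (generated by the elementary abelian subgroups of T of largest order). -/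
theorem result {G : Type*} [Group G] [Finite G] {D : Set G} (hD : Cfsg.IsThreeTranspositionGroup D) (hprim : Cfsg.IsPrimitiveUnderConj D) (h22 : Cfsg.IsOfTypeM22 G D) (hM : ∃ d : G, orderOf d = 2 ∧ Cfsg.IsQuasisimple ↥(Subgroup.centralizer ({d} : Set G)) ∧ (∃ (_ : ((Subgroup.zpowers d).subgroupOf (Subgroup.centralizer ({d} : Set G))).Normal) (K : Type) (_ : Field K) (_ : Fintype K), Fintype.card K = 4 ∧ Nonempty (↥(Subgroup.centralizer ({d} : Set G)) ⧸ (Subgroup.zpowers d).subgroupOf (Subgroup.centralizer ({d} : Set G)) ≃* Cfsg.PSU 6 K 2)) ∧ ∃ g : G, g * d * g⁻¹ ∈ Subgroup.centralizer ({d} : Set G) ∧ g * d * g⁻¹ ≠ d) (T : Sylow 2 G) : Subgroup.closure {x : G | x ∈ D ∧ x ∈ (T : Subgroup G)} = Cfsg.thompsonSubgroupOf 2 (T : Subgroup G) := by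
  have h := Fischer.b22 hD hprim h22
  obtain ⟨B, k, e⟩ := h.k.wEq.2
  obtain ⟨g, hg⟩ := Fischer.TG.exists_conj_sylow hD (E := {b | b ∈ B}) k.2.1 k.2.2 T
  replace k := k.conj h.fl.wt (h.fl.top g)
  have m : ∀ b ∈ B.map fun x => g * x * g⁻¹, b ∈ (T : Subgroup G) := List.forall_mem_map.2 hg
  rw [Cfsg.thompsonSubgroupOf, h.bs.main k (by simpa using e) T.isPGroup' (Subgroup.subtype_injective _)
    (by simpa only [Subgroup.range_subtype] using m)]
  exact congrArg _ (Set.ext fun x => ⟨fun a => h.bs.max k (by simpa using e) T.isPGroup' m a.1 a.2,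
    fun a => ⟨k.2.1 x a, m x a⟩⟩)

end Cfsg.Agent.S5458
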