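import Cfsg.Statements.S5459
import Cfsg.Agent.Fischer.Prim
-- import your own Cfsg.Agent.* helpers here

set_option autoImplicit false
open Cfsg

namespace Cfsg.Agent.S5459

theorem conj_inv {G : Type*} [Group G] [Finite G] {Z : Subgroup G} (ho : Odd (Nat.card Z)) {d c : G} (hd : d * d = 1)
    (hc : c ∈ Z) (h : d * c * d⁻¹ = c⁻¹) : ∃ y ∈ Subgroup.zpowers c, y * d * y⁻¹ = c * d := by
  obtain ⟨k, hk⟩ := ho
  have h1 : c ^ (2 * k + 1) = 1 := by
    have := pow_card_eq_one' (x := (⟨c, hc⟩ : Z))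
    rw [hk] at this; exact congrArg Subtype.val this
  refine ⟨c ^ (k + 1), pow_mem (Subgroup.mem_zpowers c) _, ?_⟩
  have h2 : d * (c ^ (k + 1))⁻¹ * d⁻¹ = c ^ (k + 1) := by
    rw [← inv_pow, ← conj_pow, ← inv_inv (d * c⁻¹ * d⁻¹)]
    simp only [mul_inv_rev, inv_inv, ← mul_assoc, h]
  rw [mul_assoc, mul_inv_eq_iff_eq_mul.1 h2, ← mul_assoc, ← pow_add, show k + 1 + (k + 1) = 2 * k + 1 + 1 by ring,
    pow_succ, h1, one_mul]

/-- Let G be a finite group with a quasisimple normal subgroup L and an involution d such that G is generated by L and d, the centre of L has odd order, and d inverts every element of the centre of L. If the commuting graph on the conjugacy class of the image of d in G modulo the centre of L is connected, then the commuting graph on the conjugacy class of d is connected. -/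
theorem result {G : Type*} [Group G] [Finite G] (L : Subgroup G) [L.Normal] (hL : Cfsg.IsQuasisimple ↥L) (d : G) (hd : orderOf d = 2) (hgen : L ⊔ Subgroup.zpowers d = ⊤) (hodd : Odd (Nat.card ↥(Subgroup.center ↥L))) (hinv : ∀ c ∈ (Subgroup.center ↥L).map L.subtype, d * c * d⁻¹ = c⁻¹) [hn : ((Subgroup.center ↥L).map L.subtype).Normal] (hconn : (Cfsg.commutingGraph (conjugatesOf (QuotientGroup.mk d : G ⧸ (Subgroup.center ↥L).map L.subtype))).Connected) : (Cfsg.commutingGraph (conjugatesOf d)).Connected := by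
  set Z := (Subgroup.center ↥L).map L.subtype with hZ
  have sq := Fischer.sq_of_orderOf hd
  have ho : Odd (Nat.card Z) := by rwa [hZ, Subgroup.card_map_of_injective L.subtype_injective]
  have cL : ∀ c ∈ Z, ∀ x ∈ L, Commute c x := by
    rintro _ ⟨c, hc, rfl⟩ x hx
    exact (congrArg Subtype.val (Subgroup.mem_center_iff.1 hc ⟨x, hx⟩)).symm
  have ZL : Z ≤ L := Subgroup.map_subtype_le _
  -- every conjugate inverts `Z`
  have inv : ∀ a ∈ conjugatesOf d, a * a = 1 ∧ ∀ c ∈ Z, a * c * a⁻¹ = c⁻¹ := by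
    intro a ha
    obtain ⟨g, rfl⟩ := isConj_iff.1 ha
    refine ⟨by rw [conj_mul, sq]; simp, fun c hc => ?_⟩
    have := hinv _ (hn.conj_mem c hc g⁻¹)
    rw [show g * d * g⁻¹ * c * (g * d * g⁻¹)⁻¹ = g * (d * (g⁻¹ * c * g⁻¹⁻¹) * d⁻¹) * g⁻¹ by group, this]; group
  have cj : ∀ a ∈ conjugatesOf d, ∀ g, g * a * g⁻¹ ∈ conjugatesOf d := fun a ha g =>
    IsConj.trans ha (isConj_iff.2 ⟨g, rfl⟩)
  -- lifting of commuting pairs
  have lift : ∀ a ∈ conjugatesOf d, ∀ b ∈ conjugatesOf d,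
      Commute (QuotientGroup.mk a : G ⧸ Z) (QuotientGroup.mk b) → ∃ y ∈ Z, Commute a (y * b * y⁻¹) := by
    intro a ha b hb hc
    have m : (a * b) * (a * b) ∈ Z := by
      rw [← QuotientGroup.eq_one_iff]
      simp only [QuotientGroup.mk_mul]
      rw [mul_assoc, ← mul_assoc (b : G ⧸ Z), ← hc.eq, mul_assoc, ← QuotientGroup.mk_mul, (inv b hb).1, ← mul_assoc,
        ← QuotientGroup.mk_mul, (inv a ha).1]; simp
    obtain ⟨k, hk⟩ := ho
    have h1 : (a * b * (a * b)) ^ (2 * k + 1) = 1 := by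
      have := pow_card_eq_one' (x := (⟨_, m⟩ : Z))
      rw [hk] at this; exact congrArg Subtype.val this
    have mc := Z.pow_mem m (k + 1)
    have h4 : (a * b * (a * b)) ^ (k + 1) * (a * b * (a * b)) ^ (k + 1) = a * b * (a * b) := by
      rw [← pow_add, show k + 1 + (k + 1) = 2 * k + 1 + 1 by ring, pow_succ, h1, one_mul]
    generalize (a * b * (a * b)) ^ (k + 1) = c at mc h4
    obtain ⟨y, hy, e⟩ := conj_inv ⟨k, hk⟩ (inv b hb).1 mc ((inv b hb).2 _ mc)
    refine ⟨y, Subgroup.zpowers_le.2 mc hy, ?_⟩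
    rw [Fischer.commute_iff_sq (inv a ha).1 (inv _ (cj b hb y)).1, e]
    have h5 : b * c⁻¹ = c * b := by simpa [mul_inv_eq_iff_eq_mul] using (inv b hb).2 _ (Z.inv_mem mc)
    have h6 : a * c = c⁻¹ * a := mul_inv_eq_iff_eq_mul.1 ((inv a ha).2 _ mc)
    rw [_root_.sq, ← mul_assoc a c, h6, show c⁻¹ * a * b * (c⁻¹ * a * b) = c⁻¹ * a * (b * c⁻¹) * (a * b) by group, h5,
      show c⁻¹ * a * (c * b) * (a * b) = c⁻¹ * (a * c) * b * (a * b) by group, h6,
      show c⁻¹ * (c⁻¹ * a) * b * (a * b) = (c * c)⁻¹ * (a * b * (a * b)) by group, h4, inv_mul_cancel]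
  refine Fischer.connected_of_induction ⟨d, IsConj.refl d⟩ fun X x hx hxX hX => ?_
  let Y : Set G := {b | b ∈ conjugatesOf d ∧ ∀ X' : Set G, x ∈ X' →
    (∀ a ∈ conjugatesOf d, ∀ b ∈ conjugatesOf d, a ∈ X' → Commute a b → b ∈ X') → b ∈ X'}
  have yc : ∀ a ∈ Y, ∀ b ∈ conjugatesOf d, Commute a b → b ∈ Y := fun a ha b hb c =>
    ⟨hb, fun X' h1 h2 => h2 a ha.1 b hb (ha.2 X' h1 h2) c⟩
  have h1 : ∀ b ∈ conjugatesOf d, ∃ y ∈ Z, y * b * y⁻¹ ∈ Y := by
    intro b hb
    have mp : ∀ b ∈ conjugatesOf d, (QuotientGroup.mk b : G ⧸ Z) ∈ conjugatesOf (QuotientGroup.mk d : G ⧸ Z) :=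
      fun b hb => (QuotientGroup.mk' Z).map_isConj hb
    obtain ⟨a, ha, e⟩ := Fischer.connected_induction hconn (X := (QuotientGroup.mk : G → G ⧸ Z) '' Y) (mp x hx)
      ⟨x, ⟨hx, fun _ h _ => h⟩, rfl⟩ (by
        rintro _ - β hβ ⟨a, ha, rfl⟩ c
        obtain ⟨γ, rfl⟩ := isConj_iff.1 hβ
        obtain ⟨g, rfl⟩ := QuotientGroup.mk_surjective γ
        obtain ⟨y, hy, k⟩ := lift a ha.1 _ (cj d (IsConj.refl d) g) c
        refine ⟨_, yc a ha _ (cj _ (cj d (IsConj.refl d) g) y) k, ?_⟩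
        rw [QuotientGroup.mk_mul, QuotientGroup.mk_mul, QuotientGroup.mk_inv, (QuotientGroup.eq_one_iff y).2 hy,
          one_mul, inv_one, mul_one]
        rfl) (mp b hb)
    have m : a * b⁻¹ ∈ Z := by
      rw [← QuotientGroup.eq_one_iff, QuotientGroup.mk_mul, QuotientGroup.mk_inv, e, mul_inv_cancel]
    obtain ⟨y, hy, k⟩ := conj_inv ho (inv b hb).1 m ((inv b hb).2 _ m)
    exact ⟨y, Subgroup.zpowers_le.2 m hy, by rw [k]; simpa using ha⟩
  have h2 : ∀ g, g * x * g⁻¹ ∈ Y → g ∈ Fischer.cstab Y := fun g hg =>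
    Fischer.mem_cstab_of_finite fun b hb => hb.2 {b | g * b * g⁻¹ ∈ Y} hg fun a _ b hb ha c =>
      yc _ ha _ (cj b hb g) ((Fischer.commute_conj_iff g).2 c)
  have h3 : L ≤ Fischer.cstab Y := by
    have p : ⁅L, L⁆ = L := by
      have := congrArg (Subgroup.map L.subtype) hL.1.commutator_eq_top
      rwa [commutator, Subgroup.map_commutator, ← MonoidHom.range_eq_map, L.range_subtype] at this
    rw [← p, Subgroup.commutator_le]
    intro u hu v hv
    obtain ⟨y, hy, e⟩ := h1 _ (cj x hx u)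
    obtain ⟨z, hz, e'⟩ := h1 _ (cj x hx v)
    have m := h2 (y * u) (by simpa [mul_assoc] using e)
    have m' := h2 (z * v) (by simpa [mul_assoc] using e')
    have : u * v * u⁻¹ * v⁻¹ = y * u * (z * v) * (y * u)⁻¹ * (z * v)⁻¹ := by
      have c1 := cL y hy _ (L.mul_mem (L.mul_mem hu (L.mul_mem (ZL hz) hv)) (L.inv_mem hu))
      have c2 := cL z hz _ hu
      have c3 := cL z hz _ (L.mul_mem (L.mul_mem (L.mul_mem hu hv) (L.inv_mem hu)) (L.inv_mem hv))
      rw [show y * u * (z * v) * (y * u)⁻¹ =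
        y * (u * (z * v) * u⁻¹) * y⁻¹ by group, c1.eq, mul_inv_cancel_right, ← mul_assoc u z, ← c2.eq,
        show z * u * v * u⁻¹ * (z * v)⁻¹ = z * (u * v * u⁻¹ * v⁻¹) * z⁻¹ by group, c3.eq, mul_inv_cancel_right]
    rw [commutatorElement_def, this]
    exact mul_mem (mul_mem (mul_mem m m') (inv_mem m)) (inv_mem m')
  intro b hb
  obtain ⟨y, hy, e⟩ := h1 b hb
  exact ((h3 (ZL hy) b).1 e).2 X hxX hX

end Cfsg.Agent.S5459
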