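import Cfsg.Statements.S5466
import Cfsg.Agent.Fischer.Cent
import Cfsg.Agent.S0815
-- import your own Cfsg.Agent.* helpers here

set_option autoImplicit false
open Cfsg

namespace Cfsg.Agent.S5466

/-- Let G be a finite group with trivial centre generated by a conjugation-invariant set D of 3-transpositions on which it acts primitively, such that for some d in D the subgroup generated by the members of D other than d commuting with d has central largest normal 2- and 3-subgroups, and suppose G with D is of type M(24), and let L be the commutator subgroup of G. Let d₁, d₂, d₃ be distinct pairwise commuting members of D, j their product, E the subgroup generated by d₁ d₂ and d₁ d₃ (a four-group lying in L), CL the centralizer of j in L and K its generalized Fitting subgroup. Then K is quasisimple with centre E, K is the centralizer of E in L, K modulo E is isomorphic to the projective special unitary group of dimension 6 over the field with four elements,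 CL/K is isomorphic to the symmetric group of degree 3, and CL modulo E is isomorphic to the full automorphism group of that unitary group. -/
theorem result {G : Type*} [Group G] [Finite G] {D : Set G} (hD : Cfsg.IsThreeTranspositionGroup D) (hprim : Cfsg.IsPrimitiveUnderConj D) (d₀ : G) (hd₀ : d₀ ∈ D) (h3 : Cfsg.pCore 3 ↥(Subgroup.closure {y : G | y ∈ D ∧ y ≠ d₀ ∧ Commute d₀ y}) ≤ Subgroup.center ↥(Subgroup.closure {y : G | y ∈ D ∧ y ≠ d₀ ∧ Commute d₀ y})) (h2 : Cfsg.pCore 2 ↥(Subgroup.closure {y : G | y ∈ D ∧ y ≠ d₀ ∧ Commute d₀ y}) ≤ Subgroup.center ↥(Subgroup.closure {y : G | y ∈ D ∧ y ≠ d₀ ∧ Commute d₀ y})) (h24 : Cfsg.IsOfTypeM24 G D) (L : Subgroup G) (hL : L = commutator G) (d₁ d₂ d₃ : G) (h₁ : d₁ ∈ D) (h₂ : d₂ ∈ D) (h₃ : d₃ ∈ D) (h12 : d₁ ≠ d₂) (h13 : d₁ ≠ d₃) (h23 : d₂ ≠ d₃) (c12 : Commute d₁ d₂) (c13 : Commute d₁ d₃) (c23 : Commute d₂ d₃) (E CL K : Subgroup G) (hE : E = Subgroup.closure ({d₁ * d₂, d₁ * d₃} : Set G)) (hCL : CL = L ⊓ Subgroup.centralizer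 ({d₁ * d₂ * d₃} : Set G)) (hK : K = (Cfsg.generalizedFittingSubgroup ↥CL).map CL.subtype) : Cfsg.IsQuasisimple ↥K ∧ (Subgroup.center ↥K).map K.subtype = E ∧ K = L ⊓ Subgroup.centralizer (E : Set G) ∧ (∃ (_ : (E.subgroupOf K).Normal) (F : Type) (_ : Field F) (_ : Fintype F), Fintype.card F = 4 ∧ Nonempty (↥K ⧸ E.subgroupOf K ≃* Cfsg.PSU 6 F 2)) ∧ ∃ _ : (K.subgroupOf CL).Normal, Nonempty (↥CL ⧸ K.subgroupOf CL ≃* Equiv.Perm (Fin 3)) ∧ E ≤ CL ∧ ∃ (_ : (E.subgroupOf CL).Normal) (F : Type) (_ : Field F) (_ : Fintype F), Fintype.card F = 4 ∧ Nonempty (↥CL ⧸ E.subgroupOf CL ≃* MulAut (Cfsg.PSU 6 F 2)) := by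
  have h := Fischer.b24 hD hprim h24
  have k := Fischer.cl_three h₁ h₂ h₃ h12 h13 h23 c12 c13 c23
  have z := h.cz' k
  obtain ⟨lam, u⟩ := (h.cz3 k).2.2
  obtain ⟨h1, h2, h3, h4, h5, h6, h7, h8⟩ := h.twist z u.tr1 (C := CL) rfl (by simp [hCL, hL, mul_assoc])
  have ku := Fischer.KU.map h1 ⟨lam, u⟩
  have q : Cfsg.IsQuasisimple ↥(commutator G ⊓ Subgroup.centralizer {y | y ∈ [d₁, d₂, d₃]}) := ⟨h3, h2 ▸ ku.simple⟩
  obtain rfl : K = _ := hK.trans (h6 q)
  have eZ : E = Subgroup.closure ((· * d₁) '' {y | y ∈ [d₁, d₂, d₃]}) := by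
    rw [hE, show {y | y ∈ [d₁, d₂, d₃]} = ({d₁, d₂, d₃} : Set G) by ext; simp, Set.image_insert_eq, Set.image_pair,
      h.fl.wt.sq d₁ h₁, Subgroup.closure_insert_one, ← c12.eq, ← c13.eq]
  rw [← eZ] at h7
  have lE := h7 ▸ Subgroup.map_subtype_le _
  have nE : (E.subgroupOf CL).Normal := by
    have := h5.1
    refine ⟨fun x hx c => ?_⟩
    rw [Subgroup.mem_subgroupOf, ← h7] at hx ⊢
    obtain ⟨x', hx', e⟩ := hx
    have m := this.conj_mem x (by rw [Subgroup.mem_subgroupOf, ← e]; exact x'.2) c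
    refine ⟨⟨_, m⟩, Subgroup.mem_center_iff.2 fun g => Subtype.ext ?_, rfl⟩
    have := congrArg Subtype.val (Subgroup.mem_center_iff.1 hx' ⟨_, this.conj_mem ⟨g, h4 g.2⟩ g.2 c⁻¹⟩)
    simp only [Subgroup.coe_mul, Subgroup.coe_inv, inv_inv, ← e, Subgroup.subtype_apply] at this ⊢
    calc _ = c * ((c : G)⁻¹ * g * c * x') * (c : G)⁻¹ := by group
      _ = _ := by rw [this]; group
  obtain ⟨f, hf, -⟩ := Fischer.uk_TP.kmap u
  have eK : E.subgroupOf (commutator G ⊓ Subgroup.centralizer {y | y ∈ [d₁, d₂, d₃]}) = Subgroup.center _ := by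
    rw [← h7]; exact Subgroup.comap_map_eq_self_of_injective (Subgroup.subtype_injective _) _
  refine ⟨q, h7, le_antisymm (le_inf (hL ▸ inf_le_left) fun c hc x hx => ?_) fun c hc => ⟨hL ▸ hc.1, ?_⟩,
    ⟨eK ▸ inferInstance, Fischer.F4, inferInstance, inferInstance, Fischer.factF4.out, ?_⟩, h5.1, h5.2, lE.trans h4, nE,
    Fischer.F4, inferInstance, inferInstance, Fischer.factF4.out,
    h8 hf Fischer.closure_TP Fischer.center_psu ?_ _ eZ⟩
  · obtain ⟨x, hx', rfl⟩ := h7.ge hx
    exact (congrArg Subtype.val (Subgroup.mem_center_iff.1 hx' ⟨c, hc⟩)).symm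
  · have e2 : Commute c (d₁ * d₂) := (hc.2 _ (hE ▸ Subgroup.subset_closure (by simp))).symm
    have e3 : Commute c (d₁ * d₃) := (hc.2 _ (hE ▸ Subgroup.subset_closure (by simp))).symm
    have n := h.k.noCL.mono (show 2 ≤ 4 by decide)
    have a2 := ((Fischer.cl_two h₁ h₂ h12 c12).conj_of_comm h.fl.wt n (by simp) h.fl.top (by simpa using e2)).1 d₁
      (by simp)
    have a3 := ((Fischer.cl_two h₁ h₃ h13 c13).conj_of_comm h.fl.wt n (by simp) h.fl.top (by simpa using e3)).1 d₁
      (by simp)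
    have e1 : Commute c d₁ := mul_inv_eq_iff_eq_mul.1 (by
      simp only [List.mem_cons, List.not_mem_nil, or_false] at a2 a3
      exact a2.resolve_right fun a2 => a3.elim (fun a3 => h12 (a3.symm.trans a2)) fun a3 => h23 (a2.symm.trans a3))
    refine Fischer.mem_cent_list.2 ?_
    simpa [e1] using And.intro (e1.inv_right.mul_right e2) (e1.inv_right.mul_right e3)
  · obtain ⟨lam', u'⟩ := ku
    have := u'.exists_psu
    rw [← h2] at this
    have n : (E.subgroupOf (commutator G ⊓ Subgroup.centralizer {y | y ∈ [d₁, d₂, d₃]})).Normal := by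
      rw [eK]; infer_instance
    exact ⟨(QuotientGroup.quotientMulEquivOfEq eK).trans this.some⟩
  · rw [Cfsg.Agent.S0815.result 2 1 le_rfl (q := 2) rfl Fischer.factF4.out 6 (by decide) (by decide)]; rfl

end Cfsg.Agent.S5466
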