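import Cfsg.Statements.S5467
import Cfsg.Agent.Small.F24C

set_option autoImplicit false
open Cfsg

namespace Cfsg.Agent.S5467



/-- Let G be a finite group with trivial centre generated by a conjugation-invariant set D of 3-transpositions on which it acts primitively, such that for some d in D the subgroup generated by the members of D other than d commuting with d has central largest normal 2- and 3-subgroups, and suppose G with D is of type M(24), and let L be the commutator subgroup of G. Let z be the product of four distinct pairwise commuting members of D (an involution of L) and C its centralizer in L. Then the generalized Fitting subgroup Q of C is extraspecial of order 2^13, and C has normal subgroups Q ≤ N ≤ M with N/Q of order 3, M/N isomorphic to the projective special unitary group of dimension 4 over the field with nine elements, and M of index 2 in C. -/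
theorem result {G : Type*} [Group G] [Finite G] {D : Set G} (hD : Cfsg.IsThreeTranspositionGroup D) (hprim : Cfsg.IsPrimitiveUnderConj D) (d₀ : G) (hd₀ : d₀ ∈ D) (h3 : Cfsg.pCore 3 ↥(Subgroup.closure {y : G | y ∈ D ∧ y ≠ d₀ ∧ Commute d₀ y}) ≤ Subgroup.center ↥(Subgroup.closure {y : G | y ∈ D ∧ y ≠ d₀ ∧ Commute d₀ y})) (h2 : Cfsg.pCore 2 ↥(Subgroup.closure {y : G | y ∈ D ∧ y ≠ d₀ ∧ Commute d₀ y}) ≤ Subgroup.center ↥(Subgroup.closure {y : G | y ∈ D ∧ y ≠ d₀ ∧ Commute d₀ y})) (h24 : Cfsg.IsOfTypeM24 G D) (L : Subgroup G) (hL : L = commutator G) (z : G) (l : List G) (hl : (l.Nodup ∧ l.length = 4 ∧ (∀ a ∈ l, a ∈ D) ∧ (∀ a ∈ l, ∀ b ∈ l, Commute a b) ∧ l.prod = z)) (C : Subgroup G) (hC : C = L ⊓ Subgroup.centralizer ({z} : Set G)) : ∃ (Q : Subgroup ↥C) (_ : Q.Normal), Cfsg.generalizedFittingSubgroup ↥C = Q ∧ Cfsg.IsExtraspecial 2 ↥Q ∧ Nat.card Q = 2 ^ 13 ∧ ∃ (N M : Subgroup ↥C) (_ : N.Normal) (_ : M.Normal), Q ≤ N ∧ N ≤ M ∧ Nat.card N = 3 * Nat.card Q ∧ (∃ (K :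 Type) (_ : Field K) (_ : Fintype K), Fintype.card K = 9 ∧ Nonempty (↥M ⧸ N.subgroupOf M ≃* Cfsg.PSU 4 K 3)) ∧ M.index = 2 := by
  have h := Fischer.b24 hD hprim h24
  obtain ⟨ψ, e⟩ := h.iso
  have k := Fischer.KMap.of_equiv Fischer.F24.wt ψ e
  obtain ⟨u, -, c⟩ := h.k.trA 4 (by decide) _ l (k.cl Small.F24C.cl) ⟨hl.1, hl.2.2.1, hl.2.2.2.1⟩ rfl hl.2.1
  have ez : ψ.trans (MulAut.conj u) [Small.F24C.y 5, Small.F24C.y 7, Small.F24C.y 9, Small.F24C.y 11].prod = z := by
    rw [← hl.2.2.2.2, ← c, Fischer.prod_map_conj, ← map_list_prod]; rfl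
  have f := (ψ.trans (MulAut.conj u)).subgroupMap
    (commutator _ ⊓ Subgroup.centralizer {[Small.F24C.y 5, Small.F24C.y 7, Small.F24C.y 9, Small.F24C.y 11].prod})
  have e' : Subgroup.map ((ψ.trans (MulAut.conj u) : _ ≃* G) : _ →* G) (commutator _ ⊓ Subgroup.centralizer
      {[Small.F24C.y 5, Small.F24C.y 7, Small.F24C.y 9, Small.F24C.y 11].prod}) = C := by
    rw [Subgroup.map_inf _ _ _ (MulEquiv.injective _), map_commutator_eq, MonoidHom.range_eq_top.2 (MulEquiv.surjective _),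
      hC, hL, ← ez]
    congr 1
    ext x
    obtain ⟨x, rfl⟩ := (ψ.trans (MulAut.conj u)).surjective x
    refine (Subgroup.mem_map_iff_mem (MulEquiv.injective _)).trans ?_
    rw [Subgroup.mem_centralizer_singleton_iff, Subgroup.mem_centralizer_singleton_iff, ← map_mul, ← map_mul,
      (MulEquiv.injective _).eq_iff]
  rw [e'] at f
  obtain ⟨Q, N, M, π, t, q, _, _, h1, h2', h3', h4, h5, h6, h7, h8, h9, k1, k2, k3⟩ := Small.F24C.p67.congr f.symm
  obtain ⟨_, ⟨g⟩⟩ := Small.quot_of_ker h6 h7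
  obtain ⟨g'⟩ := Known.U43T.equiv Known.F9.card
  exact ⟨Q, ‹_›, Small.fstar_of (.of_card h2') h9 k1 k2 k3, h1, h2', N, M, ‹_›, Subgroup.normal_of_index_eq_two h8, h3', h4,
    by rw [h5, h2'], ⟨Known.F9, inferInstance, inferInstance, Known.F9.card, ⟨g.trans g'.symm⟩⟩, h8⟩

end Cfsg.Agent.S5467
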