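import Cfsg.Statements.S5468
import Cfsg.Agent.Fischer.Cent
-- import your own Cfsg.Agent.* helpers here

set_option autoImplicit false
open Cfsg

namespace Cfsg.Agent.S5468

/-- Let G be a finite group with trivial centre generated by a conjugation-invariant set D of 3-transpositions on which it acts primitively, such that for some d in D the subgroup generated by the members of D other than d commuting with d has central largest normal 2- and 3-subgroups, and suppose G with D is of type M(23). Let d₁, d₂ be distinct commuting members of D, j = d₁ d₂, K the joint centralizer of d₁ and d₂ and C the centralizer of j. Then K has index 2 in C, the centre of K is the subgroup generated by d₁ and d₂, K is quasisimple with K modulo its centre isomorphic to the projective special unitary group of dimension 6 over the field with four elements, and C modulo the subgroup generated by d₁ and d₂ has trivial centre (so it is that unitary group extended by an outer involution). -/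
theorem result {G : Type*} [Group G] [Finite G] {D : Set G} (hD : Cfsg.IsThreeTranspositionGroup D) (hprim : Cfsg.IsPrimitiveUnderConj D) (d₀ : G) (hd₀ : d₀ ∈ D) (h3 : Cfsg.pCore 3 ↥(Subgroup.closure {y : G | y ∈ D ∧ y ≠ d₀ ∧ Commute d₀ y}) ≤ Subgroup.center ↥(Subgroup.closure {y : G | y ∈ D ∧ y ≠ d₀ ∧ Commute d₀ y})) (h2 : Cfsg.pCore 2 ↥(Subgroup.closure {y : G | y ∈ D ∧ y ≠ d₀ ∧ Commute d₀ y}) ≤ Subgroup.center ↥(Subgroup.closure {y : G | y ∈ D ∧ y ≠ d₀ ∧ Commute d₀ y})) (h23 : Cfsg.IsOfTypeM23 G D) (d₁ d₂ : G) (h₁ : d₁ ∈ D) (h₂ : d₂ ∈ D) (hne : d₁ ≠ d₂) (hc : Commute d₁ d₂) (K C V : Subgroup G) (hK : K = Subgroup.centralizer ({d₁, d₂} : Set G)) (hC : C = Subgroup.centralizer ({d₁ * d₂} : Set G)) (hV : V = Subgroup.closure ({d₁, d₂} : Set G)) [hn : (V.subgroupOf C).Normal] : K ≤ C ∧ (K.subgroupOf C).index = 2 ∧ (Subgroup.center ↥K).map K.subtype = V ∧ Cfsg.IsQuasisimple ↥K ∧ (∃ (F : Type) (_ : Field F) (_ : Fintype F), Fintype.card F = 4 ∧ Nonempty (↥K ⧸ Subgroup.center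 ↥K ≃* Cfsg.PSU 6 F 2)) ∧ Subgroup.center (↥C ⧸ V.subgroupOf C) = ⊥ := by
  have h := Fischer.b23 hD hprim h23
  have k := Fischer.cl_two h₁ h₂ hne hc
  have z := h.cz k
  have s : ({d₁, d₂} : Set G) = {y | y ∈ [d₁, d₂]} := by ext; simp
  have p : [d₁, d₂].prod = d₁ * d₂ := by simp
  rw [s] at hK hV
  have m : ∀ c, c ∈ K ↔ ∀ a ∈ [d₁, d₂], Commute c a := fun c => by rw [hK, ← Fischer.mem_cent_list]
  have le : K ≤ C := fun c hc => hC ▸ Subgroup.mem_centralizer_singleton_iff.2
    (p ▸ (Fischer.CL.comm_prod ((m c).1 hc)).eq)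
  obtain ⟨lam, u⟩ := (h.cz2 k).2.2
  refine ⟨le, Fischer.index_of_perm (Fischer.perm_quot' h.fl.wt z.nc z.h3 z.tr k h.fl.top (L := ⊤)
    (fun _ => ⟨1, trivial, fun _ _ => Commute.one_left _⟩) (by simp [hC]) fun c _ => m c), ?_, ?_, ?_, ?_⟩
  · rw [hK, hV, z.cen, z.center_eq]
  · rw [hK, z.cen]
    exact ⟨h.rl7.perfect h.fl.wt k z.tr (by simp) u.tr1, (h.cz2 k).2.2.simple⟩
  · rw [hK, z.cen]
    exact ⟨Fischer.F4, inferInstance, inferInstance, Fischer.factF4.out, u.exists_psu⟩
  · rw [eq_bot_iff]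
    intro q hq
    obtain ⟨c, rfl⟩ := QuotientGroup.mk_surjective q
    rw [Subgroup.mem_bot, QuotientGroup.eq_one_iff, Subgroup.mem_subgroupOf, hV]
    refine z.mem_of (p ▸ Subgroup.mem_centralizer_singleton_iff.1 (hC.le c.2)) fun y hy u hu => ?_
    have my : y ∈ C := le ((m y).2 fun a ha => (hy.2.2 a ha).symm)
    have := Subgroup.mem_center_iff.1 hq (QuotientGroup.mk ⟨y, my⟩)
    rw [← QuotientGroup.mk_mul, ← QuotientGroup.mk_mul, eq_comm, QuotientGroup.eq_iff_div_mem,
      Subgroup.mem_subgroupOf, hV, z.zen] at this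
    have e := (this u hu).symm
    rwa [show ((c * ⟨y, my⟩ / (⟨y, my⟩ * c) : C) : G) = c * y * (c : G)⁻¹ * y⁻¹ by simp [div_eq_mul_inv, mul_assoc],
      h.fl.wt.inv hy.1] at e

end Cfsg.Agent.S5468
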