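import Cfsg.Statements.S5469
import Cfsg.Agent.Small.F22C

set_option autoImplicit false
open Cfsg

namespace Cfsg.Agent.S5469



/-- Let G be a finite group with trivial centre generated by a conjugation-invariant set D of 3-transpositions on which it acts primitively, such that for some d in D the subgroup generated by the members of D other than d commuting with d has central largest normal 2- and 3-subgroups, and suppose G with D is of type M(22). Let d₁, d₂ be distinct commuting members of D, j = d₁ d₂, K the joint centralizer of d₁ and d₂, C the centralizer of j and V the subgroup generated by d₁ and d₂. Then K has index 2 in C, V is the centre of K, and C has a normal subgroup E containing V with E/V elementary abelian of order 2^8 and C/E isomorphic to the full automorphism group of the projective special unitary group of dimension 4 over the field with four elements. -/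
theorem result {G : Type*} [Group G] [Finite G] {D : Set G} (hD : Cfsg.IsThreeTranspositionGroup D) (hprim : Cfsg.IsPrimitiveUnderConj D) (d₀ : G) (hd₀ : d₀ ∈ D) (h3 : Cfsg.pCore 3 ↥(Subgroup.closure {y : G | y ∈ D ∧ y ≠ d₀ ∧ Commute d₀ y}) ≤ Subgroup.center ↥(Subgroup.closure {y : G | y ∈ D ∧ y ≠ d₀ ∧ Commute d₀ y})) (h2 : Cfsg.pCore 2 ↥(Subgroup.closure {y : G | y ∈ D ∧ y ≠ d₀ ∧ Commute d₀ y}) ≤ Subgroup.center ↥(Subgroup.closure {y : G | y ∈ D ∧ y ≠ d₀ ∧ Commute d₀ y})) (h22 : Cfsg.IsOfTypeM22 G D) (d₁ d₂ : G) (h₁ : d₁ ∈ D) (h₂ : d₂ ∈ D) (hne : d₁ ≠ d₂) (hc : Commute d₁ d₂) (K C V : Subgroup G) (hK : K = Subgroup.centralizer ({d₁, d₂} : Set G)) (hC : C = Subgroup.centralizer ({d₁ * d₂} : Set G)) (hV : V = Subgroup.closure ({d₁, d₂} : Set G)) : K ≤ C ∧ (K.subgroupOf C).index = 2 ∧ (Subgroup.center ↥K).map K.subtype = V ∧ ∃ E : Subgroup G, V ≤ E ∧ E ≤ C ∧ (∀ c ∈ C, ∀ x ∈ E, c * x * c⁻¹ ∈ E) ∧ Nat.card E = 2 ^ 10 ∧ (∀ x ∈ E, ∀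 y ∈ E, x * y * x⁻¹ * y⁻¹ ∈ V ∧ x ^ 2 ∈ V) ∧ ∃ (_ : (E.subgroupOf C).Normal) (F : Type) (_ : Field F) (_ : Fintype F), Fintype.card F = 4 ∧ Nonempty (↥C ⧸ E.subgroupOf C ≃* MulAut (Cfsg.PSU 4 F 2)) := by
  have h := Fischer.b22 hD hprim h22
  have k := Fischer.cl_two h₁ h₂ hne hc
  obtain ⟨ψ, e1, e2⟩ := Small.F22A.exists_iso h k
  obtain ⟨E, π, k1, k2, k3, k4, k5, k6, k7⟩ : Small.P22 _ d₁ d₂ := e1 ▸ e2 ▸ Small.F22C.p22.map ψ
  subst hC hK
  obtain ⟨le, i, -⟩ := Small.idx2 h k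
  have s := h.fl.wt.sq _ h₁
  have l := sup_le (Subgroup.zpowers_le.2 (Subgroup.mem_centralizer_singleton_iff.2 ((Commute.refl _).mul_right hc)))
    fun k hk => Subgroup.mem_centralizer_singleton_iff.2 (k6 k hk).2.symm
  have ca : ∀ x ∈ Subgroup.zpowers d₁ ⊔ E, Commute d₁ x := fun x hx => (Subgroup.mem_centralizer_singleton_iff.1
    (sup_le (Subgroup.zpowers_le.2 (Subgroup.mem_centralizer_singleton_iff.2 rfl))
      (fun k hk => Subgroup.mem_centralizer_singleton_iff.2 (k6 k hk).1.symm) hx)).symm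
  have b : d₂ = d₁ * (d₁ * d₂) := by rw [← mul_assoc, s, one_mul]
  have es := LES.ES.of_mem k2 k4 (fun e => hne (by rw [b, e, mul_one])) (le_sup_right.trans l)
  have v1 : d₁ ∈ V := hV ▸ Subgroup.subset_closure (by simp)
  have v2 : d₁ * d₂ ∈ V := mul_mem v1 (hV ▸ Subgroup.subset_closure (by simp))
  have m1 : d₁ ∈ Subgroup.zpowers d₁ ⊔ E := Subgroup.mem_sup_left (Subgroup.mem_zpowers _)
  have two := fun x => Small.mem_sup_two (x := x) s fun k hk => (k6 k hk).1
  have p : ∀ x ∈ Subgroup.zpowers d₁ ⊔ E, ∃ e ∈ E, x * x = e * e ∧ ∀ y ∈ Subgroup.zpowers d₁ ⊔ E,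
      x * y * x⁻¹ = e * y * e⁻¹ := fun x hx => (two x hx).elim (fun c => ⟨x, c, rfl, fun _ _ => rfl⟩) fun c =>
    ⟨_, c, by rw [← (ca x hx).mul_mul_mul_comm, s, one_mul], fun y hy => by
      rw [← (ca _ (mul_mem (mul_mem hx hy) (inv_mem hx))).mul_inv_cancel]; group⟩
  obtain ⟨n, ⟨q⟩⟩ := Small.quot_of_ker k1.surj (N := (Subgroup.zpowers d₁ ⊔ E).subgroupOf _) (Subgroup.ext k7)
  refine ⟨le, i, le_antisymm ?_ ?_, _, ?_, l, fun c hc x hx => n.conj_mem ⟨x, l hx⟩ hx ⟨c, hc⟩, ?_, fun x hx y hy => ?_,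
    n, Spor.F4, inferInstance, inferInstance, Spor.F4.card, ⟨q.trans Small.o6.2.some⟩⟩
  · rintro _ ⟨c, hz, rfl⟩
    show c.1 ∈ V
    have cc : ∀ x ∈ Subgroup.zpowers d₁ ⊔ E, Commute c.1 x := fun x hx =>
      (congrArg Subtype.val (Subgroup.mem_center_iff.1 hz ⟨x, by
        rintro _ (rfl | rfl)
        exacts [ca x hx, b ▸ (ca x hx).mul_left (Subgroup.mem_centralizer_singleton_iff.1 (l hx)).symm]⟩)).symm
    rcases two _ ((k7 ⟨c, le c.2⟩).1 ((k1.core Small.o6.1).2.1 fun x hx => Subtype.ext (cc x ((k7 x).1 hx)).symm))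
      with m | m
    · rcases es.cen c m fun y hy => cc y (Subgroup.mem_sup_right hy) with e | e
      exacts [e.symm ▸ one_mem V, e.symm ▸ v2]
    · refine (mul_mem_cancel_left v1).1 ?_
      rcases es.cen _ m fun y hy => (k6 y hy).1.mul_left (cc y (Subgroup.mem_sup_right hy)) with e | e
      exacts [e ▸ one_mem V, e ▸ v2]
  · rw [hV, Subgroup.closure_le]
    intro x hx
    refine ⟨⟨x, fun y hy => ?_⟩, Subgroup.mem_center_iff.2 fun g => Subtype.ext (g.2 x hx).symm, rfl⟩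
    rcases hx with rfl | rfl <;> rcases hy with rfl | rfl
    exacts [rfl, hc.symm, hc, rfl]
  · rw [hV, Subgroup.closure_le]
    rintro x (rfl | rfl)
    exacts [m1, b ▸ mul_mem m1 (Subgroup.mem_sup_right k4)]
  · rw [(Fischer.prod_two s m1 k5 le_sup_right (fun k hk => (k6 k hk).1)
      (Small.card_sup_two s fun k hk => (k6 k hk).1)).1, k3]; rfl
  · obtain ⟨e, he, a1, a2⟩ := p x hx
    obtain ⟨f, hf, -, a3⟩ := p y hy
    rw [a2 y hy, pow_two, a1, mul_assoc, mul_assoc, ← mul_assoc y, a3 _ (Subgroup.mem_sup_right (inv_mem he))]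
    exact ⟨(es.comm f hf _ (inv_mem he)).elim (fun c => by simp [c, one_mem]) fun c => by simpa [c] using v2,
      (es.sq e he).elim (· ▸ one_mem V) (· ▸ v2)⟩

end Cfsg.Agent.S5469
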