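import Cfsg.Statements.S5471
import Cfsg.Agent.Fischer.Cent
-- import your own Cfsg.Agent.* helpers here

set_option autoImplicit false
open Cfsg

namespace Cfsg.Agent.S5471

/-- Let G be a finite group with trivial centre generated by a conjugation-invariant set D of 3-transpositions on which it acts primitively, such that for some d in D the subgroup generated by the members of D other than d commuting with d has central largest normal 2- and 3-subgroups, and suppose G with D is of type M(23). Let d₁, d₂, d₃ be distinct pairwise commuting members of D and j their product. Then the joint centralizer of d₁, d₂, d₃ is normal in the centralizer of j with quotient isomorphic to the symmetric group of degree 3. -/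
theorem result {G : Type*} [Group G] [Finite G] {D : Set G} (hD : Cfsg.IsThreeTranspositionGroup D) (hprim : Cfsg.IsPrimitiveUnderConj D) (d₀ : G) (hd₀ : d₀ ∈ D) (h3 : Cfsg.pCore 3 ↥(Subgroup.closure {y : G | y ∈ D ∧ y ≠ d₀ ∧ Commute d₀ y}) ≤ Subgroup.center ↥(Subgroup.closure {y : G | y ∈ D ∧ y ≠ d₀ ∧ Commute d₀ y})) (h2 : Cfsg.pCore 2 ↥(Subgroup.closure {y : G | y ∈ D ∧ y ≠ d₀ ∧ Commute d₀ y}) ≤ Subgroup.center ↥(Subgroup.closure {y : G | y ∈ D ∧ y ≠ d₀ ∧ Commute d₀ y})) (h23 : Cfsg.IsOfTypeM23 G D) (d₁ d₂ d₃ : G) (h₁ : d₁ ∈ D) (h₂ : d₂ ∈ D) (h₃ : d₃ ∈ D) (h12 : d₁ ≠ d₂) (h13 : d₁ ≠ d₃) (h23 : d₂ ≠ d₃) (c12 : Commute d₁ d₂) (c13 : Commute d₁ d₃) (c23 : Commute d₂ d₃) (K C : Subgroup G) (hK : K = Subgroup.centralizer ({d₁, d₂, d₃} : Set G)) (hC : C = Subgroup.centralizer ({d₁ * d₂ * d₃} : Set G)) : K ≤ C ∧ ∃ _ : (K.subgroupOf C).Normal, Nonempty (↥C ⧸ K.subgroupOf C ≃* Equiv.Perm (Fin 3)) := by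
  have h := Fischer.b23 hD hprim ‹_›
  have k := Fischer.cl_three h₁ h₂ h₃ h12 h13 h23 c12 c13 c23
  have m : ∀ c, c ∈ K ↔ ∀ a ∈ [d₁, d₂, d₃], Commute c a := fun c => by
    rw [hK, ← Fischer.mem_cent_list, show ({d₁, d₂, d₃} : Set G) = {y | y ∈ [d₁, d₂, d₃]} by ext; simp]
  refine ⟨fun c hc => hC ▸ Subgroup.mem_centralizer_singleton_iff.2 ?_, Fischer.perm_quot' h.fl.wt (l := [d₁, d₂, d₃]) h.k.noCL le_rfl
    (h.k.trA 3 (by decide)) k h.fl.top (L := ⊤) (fun _ => ⟨1, trivial, fun _ _ => Commute.one_left _⟩)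
    (by simp [hC, mul_assoc]) fun c _ => m c⟩
  simpa [mul_assoc] using (Fischer.CL.comm_prod ((m c).1 hc)).eq

end Cfsg.Agent.S5471
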