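import Cfsg.Statements.S5473
import Cfsg.Agent.Small.F22C

set_option autoImplicit false
open Cfsg

namespace Cfsg.Agent.S5473



/-- Let G be a finite group with trivial centre generated by a conjugation-invariant set D of 3-transpositions on which it acts primitively, such that for some d in D the subgroup generated by the members of D other than d commuting with d has central largest normal 2- and 3-subgroups, and suppose G with D is of type M(22), and let A be the automorphism group of G. Let d₁, d₂ be distinct commuting members of D and j the inner automorphism of their product. Then the generalized Fitting subgroup Q of the centralizer of j in A is a large extraspecial 2-subgroup of A of order 2^11 (extraspecial; centralizer equal to its centre; normal in the centralizer of its centre; normalizing no non-trivial odd-order subgroup), and the centralizer of j modulo Q is isomorphic to the full automorphism group of the projective special unitary group of dimension 4 over the field with four elements.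 -/
theorem result {G : Type*} [Group G] [Finite G] {D : Set G} (hD : Cfsg.IsThreeTranspositionGroup D) (hprim : Cfsg.IsPrimitiveUnderConj D) (d₀ : G) (hd₀ : d₀ ∈ D) (h3 : Cfsg.pCore 3 ↥(Subgroup.closure {y : G | y ∈ D ∧ y ≠ d₀ ∧ Commute d₀ y}) ≤ Subgroup.center ↥(Subgroup.closure {y : G | y ∈ D ∧ y ≠ d₀ ∧ Commute d₀ y})) (h2 : Cfsg.pCore 2 ↥(Subgroup.closure {y : G | y ∈ D ∧ y ≠ d₀ ∧ Commute d₀ y}) ≤ Subgroup.center ↥(Subgroup.closure {y : G | y ∈ D ∧ y ≠ d₀ ∧ Commute d₀ y})) (h22 : Cfsg.IsOfTypeM22 G D) (d₁ d₂ : G) (h₁ : d₁ ∈ D) (h₂ : d₂ ∈ D) (hne : d₁ ≠ d₂) (hc : Commute d₁ d₂) (j : MulAut G) (hj : j = MulAut.conj (d₁ * d₂)) (Q : Subgroup (MulAut G)) (hQ : Q = (Cfsg.generalizedFittingSubgroup ↥(Subgroup.centralizer ({j} : Set (MulAut G)))).map (Subgroup.centralizer ({j} : Set (MulAut G))).subtype) : Cfsg.IsLargeExtraspecial Q ∧ Nat.card Q = 2 ^ 11 ∧ Q ≤ Subgroup.centralizer ({j} : Set (MulAut G)) ∧ ∃ (_ : (Q.subgroupOf (Subgroup.centralizer ({j} : Set (MulAut G)))).Normal) (F : Type) (_ : Field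 F) (_ : Fintype F), Fintype.card F = 4 ∧ Nonempty (↥(Subgroup.centralizer ({j} : Set (MulAut G))) ⧸ Q.subgroupOf (Subgroup.centralizer ({j} : Set (MulAut G))) ≃* MulAut (Cfsg.PSU 4 F 2)) := by
  have h := Fischer.b22 hD hprim h22
  obtain ⟨ψ, rfl, rfl⟩ := Small.F22A.exists_iso h (Fischer.cl_two h₁ h₂ hne hc)
  have p := Small.F22C.p73.map (MulAut.congr ψ)
  rw [show MulAut.congr ψ _ = j from hj ▸ MulEquiv.ext fun x => by simp] at p
  obtain ⟨π, k1, k2, k3, g, x, k4, k5, k6⟩ := p
  rw [(k1.core Small.o6.1).2.2] at hQ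
  have f := π.ker.equivMapOfInjective _ (Subgroup.subtype_injective _)
  rw [← hQ] at f
  have c := (Nat.card_congr f.toEquiv).symm.trans k3
  have o : orderOf j = 2 := by
    have := Fact.mk Nat.prime_two
    refine orderOf_eq_prime ?_ fun e => k6 (by rw [k5, e]; simp)
    rw [hj, ← map_pow, hc.mul_pow, pow_two, pow_two, h.fl.wt.sq _ h₁, h.fl.wt.sq _ h₂, mul_one, map_one]
  have l := (LES.LE.of_fstar o (by rw [hQ, Sig.fstarIn, (k1.core Small.o6.1).2.2]) (PGrp.ES_of_mulEquiv k2 f)).1
  have m : g * j * g⁻¹ ∈ Q := hQ ▸ ⟨x, k4, k5⟩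
  obtain ⟨n, ⟨e⟩⟩ := Small.quot_of_ker k1.surj (N := Q.subgroupOf _)
    (hQ ▸ (Subgroup.comap_map_eq_self_of_injective (Subgroup.subtype_injective _) _).symm)
  exact ⟨l.large_of_conj m (k5 ▸ k6) (l.sym (by rw [c]; decide) m), c, hQ ▸ Subgroup.map_subtype_le _, n, Spor.F4,
    inferInstance, inferInstance, Spor.F4.card, ⟨e.trans Small.o6.2.some⟩⟩

end Cfsg.Agent.S5473
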