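import Cfsg.Statements.S5515
import Cfsg.Agent.Fischer.AutE
import Cfsg.Agent.Fischer.Ty
import Cfsg.Agent.S2608
-- import your own Cfsg.Agent.* helpers here

set_option autoImplicit false
open Cfsg

namespace Cfsg.Agent.S5515

theorem aux {G : Type*} [Group G] [Finite G] (e : generalizedFittingSubgroup G ≃* Fischer.P8)
    [(generalizedFittingSubgroup G).Normal] (q : G ⧸ generalizedFittingSubgroup G ≃* Equiv.Perm (Fin 3)) :
    Function.Injective (Fischer.conjE _ e) ∧
      Nat.card ((QuotientGroup.mk' (Inn Fischer.P8)).comp (Fischer.conjE _ e)).range = 6 := by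
  have i := Fischer.conjE_inj e Fischer.P8_facts.1 S1265.result
  refine ⟨i, ?_⟩
  rw [← Subgroup.index_ker, Fischer.comap_conjE e i, Subgroup.index, Nat.card_congr q.toEquiv, Nat.card_perm, Nat.card_fin]
  rfl

/-- Let G and G′ be finite groups whose generalized Fitting subgroups are isomorphic to PΩ⁺(8, 3) (the commutator subgroup of the isometry group of the hyperbolic quadratic form in dimension 8 over the field with three elements, modulo its centre) with quotients isomorphic to the symmetric group of degree 3. Then G and G′ are isomorphic. -/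
theorem result {G G' : Type*} [Group G] [Finite G] [Group G'] [Finite G'] (hF : Nonempty (↥(Cfsg.generalizedFittingSubgroup G) ≃* Cfsg.POmega (ZMod 3) (Cfsg.quadFormPlus 4 (ZMod 3)))) (hF' : Nonempty (↥(Cfsg.generalizedFittingSubgroup G') ≃* Cfsg.POmega (ZMod 3) (Cfsg.quadFormPlus 4 (ZMod 3)))) [hn : (Cfsg.generalizedFittingSubgroup G).Normal] [hn' : (Cfsg.generalizedFittingSubgroup G').Normal] (hq : Nonempty (G ⧸ Cfsg.generalizedFittingSubgroup G ≃* Equiv.Perm (Fin 3))) (hq' : Nonempty (G' ⧸ Cfsg.generalizedFittingSubgroup G' ≃* Equiv.Perm (Fin 3))) : Nonempty (G ≃* G') := by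
  obtain ⟨i, c⟩ := aux hF.some hq.some
  obtain ⟨i', c'⟩ := aux hF'.some hq'.some
  have : Fact (Nat.Prime 3) := ⟨by decide⟩
  obtain ⟨o⟩ := (if_pos rfl).mp (S2608.result (F := ZMod 3) (p := 3) (f := 1) (m := 4) le_rfl (by simp) (by decide) le_rfl)
  let o' : Out Fischer.P8 ≃* Equiv.Perm (Fin 4) := o.trans MulEquiv.prodUnique
  obtain ⟨u, hu⟩ := Fischer.s4_conj (Subgroup.map o'.toMonoidHom _) (Subgroup.map o'.toMonoidHom _)
    ((Subgroup.card_map_of_injective o'.injective).trans c) ((Subgroup.card_map_of_injective o'.injective).trans c')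
  refine Fischer.equiv_of_out _ i _ i' (o'.symm u) fun x => ?_
  have := hu (o' x)
  rw [Subgroup.mem_map_equiv, Subgroup.mem_map_equiv, map_mul, map_mul, map_inv, o'.symm_apply_apply] at this
  exact this

end Cfsg.Agent.S5515
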