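import Cfsg.Statements.S5516
import Cfsg.Agent.Small.O83C
import Cfsg.Agent.Small.O83Eq
import Cfsg.Agent.S5515
import Cfsg.Agent.Loc.BpBal
import Cfsg.Agent.FG.Three

set_option autoImplicit false
open Cfsg

namespace Cfsg.Agent.S5516



/-- PΩ⁺(8, 3) (the commutator subgroup of the isometry group of the hyperbolic quadratic form in dimension 8 over the field with three elements, modulo its centre) has exactly 13 conjugacy classes of subgroups of order 3; and a finite group G whose generalized Fitting subgroup L is isomorphic to PΩ⁺(8, 3) with G/L the symmetric group of degree 3 has exactly 7 orbits, under conjugation, on the subgroups of L of order 3. -/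
theorem result {G : Type*} [Group G] [Finite G] (L : Subgroup G) (hL : L = Cfsg.generalizedFittingSubgroup G) (hF : Nonempty (↥L ≃* Cfsg.POmega (ZMod 3) (Cfsg.quadFormPlus 4 (ZMod 3)))) [hn : L.Normal] (hq : Nonempty (G ⧸ L ≃* Equiv.Perm (Fin 3))) : (∃ Y : Fin 13 → Subgroup (Cfsg.POmega (ZMod 3) (Cfsg.quadFormPlus 4 (ZMod 3))), (∀ i, Nat.card (Y i) = 3) ∧ (∀ i j, (∃ g : Cfsg.POmega (ZMod 3) (Cfsg.quadFormPlus 4 (ZMod 3)), (Y i).map (MulAut.conj g).toMonoidHom = Y j) → i = j) ∧ (∀ X : Subgroup (Cfsg.POmega (ZMod 3) (Cfsg.quadFormPlus 4 (ZMod 3))), Nat.card X = 3 → ∃ i, ∃ g : Cfsg.POmega (ZMod 3) (Cfsg.quadFormPlus 4 (ZMod 3)), X.map (MulAut.conj g).toMonoidHom = Y i)) ∧ ∃ Y : Fin 7 → Subgroup G, (∀ i, Y i ≤ L ∧ Nat.card (Y i) = 3) ∧ (∀ i j, (∃ g : G, (Y i).map (MulAut.conj g).toMonoidHom = Y j) → i = j) ∧ ∀ X : Subgroup G, X ≤ L → Nat.card X = 3 → ∃ i, ∃ g : G, X.map (MulAut.conj g).toMonoidHom = Y i := by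
  obtain ⟨ψ, h1, h2, h3⟩ := Small.O83C.main
  obtain ⟨e⟩ := Small.O83T.equiv
  refine ⟨(h1.congr e (L := ⊤) fun _ => Iff.rfl).spec_top, ?_⟩
  subst hL
  have := Small.O83T.mdl.finite
  have : Finite (Small.O83P.G ⋊[ψ] DihedralGroup 3) := Finite.of_equiv _ SemidirectProduct.equivProd.symm
  set K := (SemidirectProduct.inl : Small.O83P.G →* Small.O83P.G ⋊[ψ] DihedralGroup 3).range with hK
  have k : K = SemidirectProduct.rightHom.ker := SemidirectProduct.range_inl_eq_ker_rightHom
  have n : K.Normal := k ▸ inferInstance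
  let i := e.trans (MonoidHom.ofInjective (SemidirectProduct.inl_injective (φ := ψ)))
  have f := Loc.fstar_eq_of_cent (L := K) (Sig.qs_of_mulEquiv Fischer.P8_facts.2 i) h3
  have n' : (generalizedFittingSubgroup (Small.O83P.G ⋊[ψ] DihedralGroup 3)).Normal := f ▸ n
  obtain ⟨s⟩ := FG.equiv_S3 (G := DihedralGroup 3) (by rw [DihedralGroup.nat_card]) fun h =>
    absurd (h.is_comm.comm (.r 1) (.sr 0)) (by decide)
  obtain ⟨u⟩ := S5515.result hF ⟨(MulEquiv.subgroupCongr f).trans i.symm⟩ hq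
    ⟨((QuotientGroup.quotientMulEquivOfEq (f.trans k)).trans
      (QuotientGroup.quotientKerEquivOfSurjective _ SemidirectProduct.rightHom_surjective)).trans s⟩
  refine (h2.congr u fun x => ?_).spec
  have := Sig.fstarIn_map_of_injective (K := ⊤) (f := u.toMonoidHom) u.injective
  rw [Subgroup.map_top_of_surjective _ u.surjective, Sig.fstarIn_top, Sig.fstarIn_top, f] at this
  rw [this]
  exact Subgroup.mem_map_iff_mem u.injective

end Cfsg.Agent.S5516
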