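import Cfsg.Statements.S5517
import Cfsg.Agent.Fischer.Pull
-- import your own Cfsg.Agent.* helpers here

set_option autoImplicit false
open Cfsg

namespace Cfsg.Agent.S5517

/-- Let G be a finite group with trivial centre generated by a conjugation-invariant set D of 3-transpositions on which it acts primitively, such that for some d in D the subgroup generated by the members of D other than d commuting with d has central largest normal 2- and 3-subgroups, and suppose G with D is of type M(22). Then G has a subgroup L generated by the members of D it contains and isomorphic to Ω(7, 3) (the commutator subgroup of the isometry group of a non-degenerate 7-dimensional quadratic form over the field with three elements, modulo its centre), and every Sylow 3-subgroup of L is a Sylow 3-subgroup of G. -/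
theorem result {G : Type*} [Group G] [Finite G] {D : Set G} (hD : Cfsg.IsThreeTranspositionGroup D) (hprim : Cfsg.IsPrimitiveUnderConj D) (d₀ : G) (hd₀ : d₀ ∈ D) (h3 : Cfsg.pCore 3 ↥(Subgroup.closure {y : G | y ∈ D ∧ y ≠ d₀ ∧ Commute d₀ y}) ≤ Subgroup.center ↥(Subgroup.closure {y : G | y ∈ D ∧ y ≠ d₀ ∧ Commute d₀ y})) (h2 : Cfsg.pCore 2 ↥(Subgroup.closure {y : G | y ∈ D ∧ y ≠ d₀ ∧ Commute d₀ y}) ≤ Subgroup.center ↥(Subgroup.closure {y : G | y ∈ D ∧ y ≠ d₀ ∧ Commute d₀ y})) (h22 : Cfsg.IsOfTypeM22 G D) : ∃ L : Subgroup G, Cfsg.IsDSubgroup D L ∧ Nonempty (↥L ≃* Cfsg.POmega (ZMod 3) (Cfsg.quadFormOdd 3 (ZMod 3))) ∧ ∀ P : Sylow 3 ↥L, ∃ P' : Sylow 3 G, (P : Subgroup ↥L).map L.subtype = (P' : Subgroup G) := by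
  have h := Fischer.b22 hD hprim h22
  obtain ⟨X, -, h1, ⟨e⟩⟩ := h.o7
  refine ⟨_, congrArg Subgroup.closure h1, ⟨e⟩, fun P => ⟨Sylow.ofCard (P.toSubgroup.map (Subgroup.closure X).subtype) ?_, rfl⟩⟩
  rw [Subgroup.card_map_of_injective (Subgroup.subtype_injective _), P.card_eq_multiplicity, Nat.card_congr e.toEquiv,
    Fischer.card_P7, h.card, Fischer.fac_eq (k := 9) (m := 232960) Nat.prime_three (by norm_num) (by norm_num),
    Fischer.fac_eq (k := 9) (m := 3280076800) Nat.prime_three (by norm_num) (by norm_num)]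

end Cfsg.Agent.S5517
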