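import Cfsg.Statements.S5519
import Cfsg.Agent.Small.F22C

set_option autoImplicit false
open Cfsg

namespace Cfsg.Agent.S5519



/-- Let G be a finite group with trivial centre generated by a conjugation-invariant set D of 3-transpositions on which it acts primitively, such that for some d in D the subgroup generated by the members of D other than d commuting with d has central largest normal 2- and 3-subgroups, and suppose G with D is of type M(22). Let d₁, d₂ be distinct commuting members of D and C the centralizer of their product. Then the generalized Fitting subgroup of C is the direct product of a group of order 2 and an extraspecial 2-group of order 2^9, and C modulo it is isomorphic to the full isometry group of the elliptic quadratic form in dimension 6 over the field with two elements. -/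
theorem result {G : Type*} [Group G] [Finite G] {D : Set G} (hD : Cfsg.IsThreeTranspositionGroup D) (hprim : Cfsg.IsPrimitiveUnderConj D) (d₀ : G) (hd₀ : d₀ ∈ D) (h3 : Cfsg.pCore 3 ↥(Subgroup.closure {y : G | y ∈ D ∧ y ≠ d₀ ∧ Commute d₀ y}) ≤ Subgroup.center ↥(Subgroup.closure {y : G | y ∈ D ∧ y ≠ d₀ ∧ Commute d₀ y})) (h2 : Cfsg.pCore 2 ↥(Subgroup.closure {y : G | y ∈ D ∧ y ≠ d₀ ∧ Commute d₀ y}) ≤ Subgroup.center ↥(Subgroup.closure {y : G | y ∈ D ∧ y ≠ d₀ ∧ Commute d₀ y})) (h22 : Cfsg.IsOfTypeM22 G D) (d₁ d₂ : G) (h₁ : d₁ ∈ D) (h₂ : d₂ ∈ D) (hne : d₁ ≠ d₂) (hc : Commute d₁ d₂) (C : Subgroup G) (hC : C = Subgroup.centralizer ({d₁ * d₂} : Set G)) [hn : (Cfsg.generalizedFittingSubgroup ↥C).Normal] : (∃ (E : Type) (_ : Group E) (_ : Finite E), Cfsg.IsExtraspecial 2 E ∧ Nat.card E = 2 ^ 9 ∧ Nonempty (↥(Cfsg.generalizedFittingSubgroup ↥C) ≃* Multiplicative (ZMod 2) × E)) ∧ Nonempty (↥C ⧸ Cfsg.generalizedFittingSubgroup ↥C ≃* Cfsg.isometryGroup (ZMod 2) (Cfsg.quadFormMinus 2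 (ZMod 2) 1 1)) := by
  have h := Fischer.b22 hD hprim h22
  obtain ⟨ψ, rfl, rfl⟩ := Small.F22A.exists_iso h (Fischer.cl_two h₁ h₂ hne hc)
  obtain ⟨E, π, k1, k2, k3, -, k5, k6, k7⟩ := Small.F22C.p22.map ψ
  subst hC
  have e := (k1.core Small.o6.1).2.2
  have l := sup_le (Subgroup.zpowers_le.2 (Subgroup.mem_centralizer_singleton_iff.2 ((Commute.refl _).mul_right hc)))
    fun k hk => Subgroup.mem_centralizer_singleton_iff.2 (k6 k hk).2.symm
  have s := h.fl.wt.sq _ h₁
  obtain ⟨-, ⟨f⟩⟩ := Fischer.prod_two s (Subgroup.mem_sup_left (Subgroup.mem_zpowers _)) k5 le_sup_right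
    (fun k hk => (k6 k hk).1) (Small.card_sup_two s fun k hk => (k6 k hk).1)
  have g := Shrink.mulEquiv.{0} (α := E)
  obtain ⟨o⟩ := Small.O6mT.equiv
  exact ⟨⟨_, inferInstance, .of_equiv _ g.symm.toEquiv, PGrp.ES_of_mulEquiv k2 g.symm, (Nat.card_congr g.toEquiv).trans k3,
    ⟨((MulEquiv.subgroupCongr (e.trans (Subgroup.ext (K := .subgroupOf (_ ⊔ E) _) fun x => k7 x))).trans (Subgroup.subgroupOfEquivOfLe l)).trans
      (f.trans (.prodCongr (.refl _) g.symm))⟩⟩, ⟨(Small.quot_of_ker k1.surj e.symm).2.some.trans o.symm⟩⟩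

end Cfsg.Agent.S5519
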