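import Cfsg.Statements.S5520
import Cfsg.Agent.SuzR.U62
import Cfsg.Agent.S0278
-- import your own Cfsg.Agent.* helpers here

set_option autoImplicit false
open Cfsg

namespace Cfsg.Agent.S5520

/-- In the special unitary group of dimension 6 over the field with four elements (determinant-one matrices preserving the standard Hermitian form), the subgroups K whose centre has order 3 with K modulo its centre isomorphic to the projective special unitary group of dimension 4 over the field with nine elements fall into exactly three conjugacy classes. -/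
theorem result (F : Type) [Field F] [Fintype F] (hF : Fintype.card F = 4) (F9 : Type) [Field F9] [Fintype F9] (hF9 : Fintype.card F9 = 9) : ∃ K₁ K₂ K₃ : Subgroup ↥(Cfsg.SU 6 F 2), (∀ K ∈ [K₁, K₂, K₃], Nat.card ↥(Subgroup.center ↥K) = 3 ∧ Nonempty (↥K ⧸ Subgroup.center ↥K ≃* Cfsg.PSU 4 F9 3)) ∧ (¬ ∃ g : ↥(Cfsg.SU 6 F 2), K₁.map (MulAut.conj g).toMonoidHom = K₂) ∧ (¬ ∃ g : ↥(Cfsg.SU 6 F 2), K₁.map (MulAut.conj g).toMonoidHom = K₃) ∧ (¬ ∃ g : ↥(Cfsg.SU 6 F 2), K₂.map (MulAut.conj g).toMonoidHom = K₃) ∧ ∀ K : Subgroup ↥(Cfsg.SU 6 F 2), Nat.card ↥(Subgroup.center ↥K) = 3 → Nonempty (↥K ⧸ Subgroup.center ↥K ≃* Cfsg.PSU 4 F9 3) → ∃ g : ↥(Cfsg.SU 6 F 2), K.map (MulAut.conj g).toMonoidHom = K₁ ∨ K.map (MulAut.conj g).toMonoidHom = K₂ ∨ K.map (MulAut.conj g).toMonoidHom = K₃ := by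
  open Subgroup Known SuzR.U62 in
  obtain ⟨e⟩ := U62T.equiv hF
  obtain ⟨f⟩ := U43T.equiv hF9
  have h := S0278.result (q := 2) hF 6 (by decide)
  simp only [Finset.prod_range_succ, Finset.prod_range_zero] at h
  let π := e.toMonoidHom.comp (QuotientGroup.mk' _)
  have hπ : Function.Surjective π := e.surjective.comp (QuotientGroup.mk'_surjective _)
  have hk : π.ker = center _ := by rw [MonoidHom.ker_comp_of_injective _ _ e.injective, QuotientGroup.ker_mk']
  have c0 := Comp.card_mul_card_ker hπ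
  have c1 : Nat.card π.ker = 3 := by rw [U62P.card] at c0; norm_num at h; omega
  have mc : ∀ (K : Subgroup _) g, (K.map (MulAut.conj g).toMonoidHom).map π =
      (K.map π).map (MulAut.conj (π g)).toMonoidHom := fun K g => by
    rw [map_map, map_map]; congr 1; ext a; simp
  have cm : ∀ (K : Subgroup _), π.ker ≤ K → ∀ g, π.ker ≤ K.map (MulAut.conj g).toMonoidHom := fun K hK g a ha =>
    ⟨a, hK ha, by simpa using (mul_inv_eq_iff_eq_mul.2 (mem_center_iff.1 (hk ▸ ha) g))⟩
  have nc : ∀ {k l}, k < l → l < 3 → ¬ ∃ g, ((H k).comap π).map (MulAut.conj g).toMonoidHom = (H l).comap π :=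
    fun hk hl ⟨g, hg⟩ => nconj hk hl (π g) (by
      rw [← map_comap_eq_self_of_surjective hπ (H _), ← mc, hg, map_comap_eq_self_of_surjective hπ])
  have key : ∀ k < 3, Nat.card (center ((H k).comap π)) = 3 ∧
      Nonempty (↥((H k).comap π) ⧸ center ((H k).comap π) ≃* PSU 4 F9 3) := fun k hk' => by
    obtain ⟨a⟩ := iso hk'
    let ρ := a.symm.toMonoidHom.comp (π.subgroupComap (H k))
    have hρ : Function.Surjective ρ := a.symm.surjective.comp fun ⟨y, hy⟩ => by
      obtain ⟨z, rfl⟩ := hπ y; exact ⟨⟨z, hy⟩, rfl⟩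
    have h1 : ρ.ker = π.ker.subgroupOf _ := by
      rw [MonoidHom.ker_comp_of_injective _ _ a.symm.injective]; ext z; exact Subtype.ext_iff
    have h2 : center _ = ρ.ker := le_antisymm (fun z hz => U43T.cen.le (mem_center_iff.2 fun y => by
      obtain ⟨y, rfl⟩ := hρ y; rw [← map_mul, ← map_mul, mem_center_iff.1 hz])) fun z hz =>
        mem_center_iff.2 fun y => Subtype.ext (mem_center_iff.1 (hk.le (h1.le hz : z.1 ∈ π.ker)) y.1)
    exact ⟨by rw [h2, h1, Nat.card_congr (subgroupOfEquivOfLe (ker_le_comap π _)).toEquiv, c1],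
      ⟨((QuotientGroup.quotientMulEquivOfEq h2).trans (QuotientGroup.quotientKerEquivOfSurjective ρ hρ)).trans f.symm⟩⟩
  refine ⟨(H 0).comap π, (H 1).comap π, (H 2).comap π, by simpa using ⟨key 0 (by decide), key 1 (by decide), key 2 (by decide)⟩,
    nc (by decide) (by decide), nc (by decide) (by decide), nc (by decide) (by decide), fun K h3 ⟨a⟩ => ?_⟩
  haveI : Finite (SU 6 F 2) := inferInstance
  let r := π.comp K.subtype
  have r0 : r.ker = π.ker.subgroupOf K := rfl
  have r1 : r.ker ≤ center K := fun z hz => mem_center_iff.2 fun y => Subtype.ext (mem_center_iff.1 (hk.le (hz : z.1 ∈ π.ker)) y.1)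
  have c2 := card_eq_card_quotient_mul_card_subgroup (center K)
  rw [Nat.card_congr (a.trans f).toEquiv, U43P.card, h3] at c2
  have r2 : r.ker = center K := eq_of_le_of_card_ge r1 (by
    rcases (Nat.dvd_prime Nat.prime_three).1 (h3 ▸ card_dvd_of_le r1) with h | h
    · have := card_dvd_of_injective r ((MonoidHom.ker_eq_bot_iff r).1 (card_eq_one.1 h))
      rw [c2, U62P.card] at this; omega
    · rw [h, h3])
  have r3 : π.ker ≤ K := by
    have : π.ker ⊓ K = π.ker := eq_of_le_of_card_ge inf_le_left (by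
      rw [← subgroupOf_map_subtype, card_map_of_injective K.subtype_injective, ← r0, r2, h3, c1])
    exact this ▸ inf_le_right
  obtain ⟨g, k, hk', hg⟩ := cls (K := r.range) ((f.symm.trans a.symm).trans
    ((QuotientGroup.quotientMulEquivOfEq r2.symm).trans (QuotientGroup.quotientKerEquivRange r)))
  obtain ⟨g, rfl⟩ := hπ g
  rw [MonoidHom.range_comp, range_subtype, ← mc] at hg
  have := comap_map_eq_self (cm K r3 g)
  rw [hg] at this
  refine ⟨g, ?_⟩
  interval_cases k
  exacts [.inl this.symm, .inr (.inl this.symm), .inr (.inr this.symm)]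

end Cfsg.Agent.S5520
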