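import Cfsg.Statements.S5541

set_option autoImplicit false
open Cfsg

namespace Cfsg.Agent.S5541

/-- Let ρ be a representation of a group H on a finite-dimensional real vector space U whose only ρ-invariant subspaces are the zero subspace and U, and suppose U carries a non-zero ρ-invariant symmetric bilinear form. Then the following are equivalent: (1) there is a non-zero ρ-equivariant commutative bilinear product on U of which every ρ-equivariant bilinear product is a scalar multiple; (2) there is a non-zero ρ-invariant trilinear form on U that is symmetric under all permutations of its arguments and of which every ρ-invariant trilinear form is a scalar multiple. -/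
theorem result {H : Type*} [Group H] {U : Type*} [AddCommGroup U] [Module ℝ U] [FiniteDimensional ℝ U] (ρ : Representation ℝ H U) (hirr : ∀ W : Submodule ℝ U, (∀ g : H, W.map (ρ g) ≤ W) → W = ⊥ ∨ W = ⊤) (B : LinearMap.BilinForm ℝ U) (hB0 : B ≠ 0) (hBs : ∀ u v, B u v = B v u) (hBi : ∀ (g : H) (u v : U), B (ρ g u) (ρ g v) = B u v) : (∃ m : U →ₗ[ℝ] U →ₗ[ℝ] U, m ≠ 0 ∧ (∀ u v, m u v = m v u) ∧ (∀ (g : H) (u v : U), m (ρ g u) (ρ g v) = ρ g (m u v)) ∧ ∀ m' : U →ₗ[ℝ] U →ₗ[ℝ] U, (∀ (g : H) (u v : U), m' (ρ g u) (ρ g v) = ρ g (m' u v)) → ∃ c : ℝ, m' = c • m) ↔ (∃ t : U →ₗ[ℝ] U →ₗ[ℝ] U →ₗ[ℝ] ℝ, t ≠ 0 ∧ (∀ u v w, t u v w = t v u w ∧ t u v w = t u w v) ∧ (∀ (g : H) (u v w : U), t (ρ g u) (ρ g v) (ρ g w) = t u v w) ∧ ∀ t' : U →ₗ[ℝ] U →ₗ[ℝ] U →ₗ[ℝ] ℝ, (∀ (g : H) (u v w : U), t' (ρ g u) (ρ g v) (ρ g w) = t' u v w) → ∃ c : ℝ, t' = c • t) := by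
  have hnd : ∀ u, (∀ v, B u v = 0) → u = 0 := by
    rcases hirr (LinearMap.ker B) (fun g => by
      rintro _ ⟨u, hu, rfl⟩
      refine LinearMap.mem_ker.2 (LinearMap.ext fun v => ?_)
      have : v = ρ g (ρ g⁻¹ v) := by simp
      rw [this, hBi, LinearMap.mem_ker.1 hu]; rfl) with h | h
    · exact fun u hu => by
        have : u ∈ LinearMap.ker B := LinearMap.mem_ker.2 (LinearMap.ext hu)
        rwa [h] at this
    · exact absurd (LinearMap.ker_eq_top.1 h) hB0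
  have hN : B.Nondegenerate := ⟨hnd, fun v hv => hnd v fun u => by rw [hBs]; exact hv u⟩
  let D := B.toDual hN
  have hD : ∀ u v, D u v = B u v := fun u v => rfl
  have hD' : ∀ (f : Module.Dual ℝ U) v, B (D.symm f) v = f v := fun f v => by rw [← hD, D.apply_symm_apply]
  let T : (U →ₗ[ℝ] U →ₗ[ℝ] U) → U →ₗ[ℝ] U →ₗ[ℝ] U →ₗ[ℝ] ℝ := fun m => m.compr₂ D.toLinearMap
  let M : (U →ₗ[ℝ] U →ₗ[ℝ] U →ₗ[ℝ] ℝ) → U →ₗ[ℝ] U →ₗ[ℝ] U := fun t => t.compr₂ D.symm.toLinearMap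
  have hT : ∀ m u v w, T m u v w = B (m u v) w := fun m u v w => rfl
  have hM : ∀ t u v w, B (M t u v) w = t u v w := fun t u v w => hD' _ _
  have ext : ∀ a b : U, (∀ w, B a w = B b w) → a = b := fun a b h =>
    sub_eq_zero.1 (hnd _ fun w => by simp [h w])
  have iT : ∀ m : U →ₗ[ℝ] U →ₗ[ℝ] U, (∀ (g : H) (u v : U), m (ρ g u) (ρ g v) = ρ g (m u v)) →
      ∀ (g : H) (u v w : U), T m (ρ g u) (ρ g v) (ρ g w) = T m u v w := fun m h g u v w => by
    rw [hT, hT, h, hBi]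
  have iM : ∀ t : U →ₗ[ℝ] U →ₗ[ℝ] U →ₗ[ℝ] ℝ, (∀ (g : H) (u v w : U), t (ρ g u) (ρ g v) (ρ g w) = t u v w) →
      ∀ (g : H) (u v : U), M t (ρ g u) (ρ g v) = ρ g (M t u v) := fun t h g u v => ext _ _ fun w => by
    have : w = ρ g (ρ g⁻¹ w) := by simp
    rw [this, hBi, hM, hM, h]
  constructor
  · rintro ⟨m, h0, hc, hi, hu⟩
    have uq : ∀ t' : U →ₗ[ℝ] U →ₗ[ℝ] U →ₗ[ℝ] ℝ, (∀ (g : H) (u v w : U), t' (ρ g u) (ρ g v) (ρ g w) = t' u v w) →
        ∃ c : ℝ, t' = c • T m := fun t' h => by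
      obtain ⟨c, e⟩ := hu _ (iM t' h)
      refine ⟨c, LinearMap.ext fun u => LinearMap.ext fun v => LinearMap.ext fun w => ?_⟩
      rw [← hM, e]; simp [hT]
    have t0 : T m ≠ 0 := fun h => h0 (LinearMap.ext fun u => LinearMap.ext fun v => hnd _ fun w => by
      rw [← hT, h]; rfl)
    have s1 : ∀ u v w, T m u v w = T m v u w := fun u v w => by rw [hT, hT, hc]
    obtain ⟨c, e⟩ := uq ((T m).compr₂ LinearMap.id ∘ₗ LinearMap.id |> fun t => LinearMap.lflip.toLinearMap ∘ₗ t)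
      (fun g u v w => iT m hi g u w v)
    have e' : ∀ u v w, T m u w v = c * T m u v w := fun u v w =>
      congrArg (fun t : U →ₗ[ℝ] U →ₗ[ℝ] U →ₗ[ℝ] ℝ => t u v w) e
    obtain ⟨u, v, w, h⟩ : ∃ u v w, T m u v w ≠ 0 := by
      by_contra h; push Not at h
      exact t0 (LinearMap.ext fun u => LinearMap.ext fun v => LinearMap.ext fun w => h u v w)
    have c2 : c * c = 1 := mul_right_cancel₀ h (by rw [mul_assoc, ← e', ← e', one_mul])
    have c3 : c * c * c = 1 := mul_right_cancel₀ h (by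
      rw [mul_assoc, mul_assoc, s1 u v, ← e', s1 v w, ← e', s1 w u, ← e', one_mul, s1])
    rw [c2, one_mul] at c3
    exact ⟨T m, t0, fun u v w => ⟨s1 u v w, by rw [e' u w v, c3, one_mul]⟩, iT m hi, uq⟩
  · rintro ⟨t, h0, hs, hi, hu⟩
    refine ⟨M t, fun h => h0 (LinearMap.ext fun u => LinearMap.ext fun v => LinearMap.ext fun w => ?_),
      fun u v => ext _ _ fun w => by rw [hM, hM, (hs u v w).1], iM t hi, fun m' h => ?_⟩
    · rw [← hM, h]; simp
    · obtain ⟨c, e⟩ := hu _ (iT m' h)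
      refine ⟨c, LinearMap.ext fun u => LinearMap.ext fun v => ext _ _ fun w => ?_⟩
      rw [← hT, e]; simp [hM]

end Cfsg.Agent.S5541
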