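import Cfsg.Statements.S5543

set_option autoImplicit false
open Cfsg

namespace Cfsg.Agent.S5543

/-- Let V be a finite-dimensional real vector space with a commutative bilinear product and a positive-definite symmetric bilinear form that associates with the product and satisfies the Norton inequality (the Majorana setting of the definitions). Let X be a group of linear automorphisms of V in which every element squares to the identity, and suppose every non-identity element x of X is a Majorana involution with an axial vector a(x) of squared length 1, such that for any two distinct non-identity x, y the product a(x) ∘ a(y) equals (1/8)(a(x) + a(y) − a(xy)) (the dihedral subalgebra of type 2A whose third axis belongs to the involution xy). Then X has order at most 4. -/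
theorem result {V : Type*} [AddCommGroup V] [Module ℝ V] [FiniteDimensional ℝ V] (mul : V →ₗ[ℝ] V →ₗ[ℝ] V) (B : LinearMap.BilinForm ℝ V) (hV : Cfsg.Axial.IsMajoranaAmbient mul B) (X : Subgroup (V ≃ₗ[ℝ] V)) (hX : ∀ x ∈ X, x * x = 1) (ax : (V ≃ₗ[ℝ] V) → V) (hax : ∀ x ∈ X, x ≠ 1 → Cfsg.Axial.IsMajoranaPair mul B x (ax x)) (h1 : ∀ x ∈ X, x ≠ 1 → B (ax x) (ax x) = 1) (h2A : ∀ x ∈ X, ∀ y ∈ X, x ≠ 1 → y ≠ 1 → x ≠ y → mul (ax x) (ax y) = (1 / 8 : ℝ) • (ax x + ax y - ax (x * y))) : Nat.card ↥X ≤ 4 := by
  classical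
  by_contra hlt
  push Not at hlt
  haveI : Finite X := Nat.finite_of_card_ne_zero (by omega)
  haveI := Fintype.ofFinite X
  have sq : ∀ u : X, u * u = 1 := fun u => Subtype.ext (hX u u.2)
  have cm : ∀ u v : X, u * v = v * u := fun u v => by
    have i : ∀ w : X, w⁻¹ = w := fun w => inv_eq_of_mul_eq_one_right (sq w)
    rw [← i (u * v), mul_inv_rev, i, i]
  letI : CommGroup X := { (inferInstance : Group X) with mul_comm := cm }
  have ex : ∀ s : Finset X, s.card ≤ 4 → ∃ u, u ∉ s := fun s hs => by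
    by_contra h; push Not at h
    have : s = Finset.univ := Finset.eq_univ_of_forall h
    rw [this, Finset.card_univ, ← Nat.card_eq_fintype_card] at hs; omega
  obtain ⟨x, hx⟩ := ex {1} (by simp)
  obtain ⟨y, hy⟩ := ex {1, x} (Finset.card_le_two.trans (by norm_num))
  obtain ⟨z, hz⟩ := ex {1, x, y, x * y} Finset.card_le_four
  simp only [Finset.mem_insert, Finset.mem_singleton, not_or] at hx hy hz
  let A : X → V := fun u => ax u
  have P : ∀ u v w : X, u ≠ 1 → v ≠ 1 → w ≠ 1 → u * v = w → mul (A u) (A v) = (1 / 8 : ℝ) • (A u + A v - A w) :=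
    fun u v w hu hv hw e => by
      rw [← e]
      refine h2A u u.2 v v.2 (fun h => hu (Subtype.ext h)) (fun h => hv (Subtype.ext h)) fun h => hw ?_
      rw [← e, Subtype.ext h, sq]
  have can : ∀ u v : X, u * (u * v) = v := fun u v => by rw [← mul_assoc, sq, one_mul]
  have ne : ∀ u v : X, v ≠ u → u * v ≠ 1 := fun u v h e => h (by rw [← can u v, e, mul_one])
  have eig : ∀ u : X, u ≠ 1 → x * u ≠ 1 → mul (A x) (A u - A (x * u)) = (1 / 4 : ℝ) • (A u - A (x * u)) :=
    fun u h h' => by
      rw [map_sub, P x u _ hx h h' rfl, P x _ u hx h' h (can x u)]; module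
  have n1 := ne x y hy.2
  have n2 := ne x z hz.2.1
  have n3 := ne y z hz.2.2.1
  have n4 : x * (y * z) ≠ 1 := by rw [← mul_assoc]; exact ne _ _ hz.2.2.2
  have hm := (hax x x.2 (fun h => hx (Subtype.ext h))).2.2.1.1.2.2.2 (1 / 4) (by simp [Axial.majoranaSpectrum])
    (1 / 4) (by simp [Axial.majoranaSpectrum]) _ (Module.End.mem_eigenspace_iff.2 (eig y hy.1 n1))
    _ (Module.End.mem_eigenspace_iff.2 (eig z hz.1 n2))
  have e : mul (A y - A (x * y)) (A z - A (x * z)) = (-1 / 4 : ℝ) • (A (y * z) - A (x * (y * z))) := by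
    simp only [map_sub, LinearMap.sub_apply]
    rw [P y z _ hy.1 hz.1 n3 rfl, P y _ _ hy.1 n2 n4 (mul_left_comm _ _ _), P _ z _ n1 hz.1 n4 (mul_assoc _ _ _),
      P _ _ _ n1 n2 n3 (by rw [mul_mul_mul_comm, sq, one_mul])]
    module
  have hl : Axial.monsterLaw (1 / 4 : ℝ) (1 / 32) (1 / 4) (1 / 4) = {1, 0} := by
    simp only [Axial.monsterLaw]; norm_num
  rw [e, hl] at hm
  have hle : Axial.eigenSum mul (A x) {1, 0} ≤ LinearMap.ker (mul (A x) ∘ₗ mul (A x) - mul (A x)) := by
    refine iSup₂_le fun c hc w hw => ?_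
    have hw' := Module.End.mem_eigenspace_iff.1 hw
    rcases hc with rfl | rfl <;> simp [hw']
  have h3 := hle hm
  have h4 := eig (y * z) n3 n4
  simp only [LinearMap.mem_ker, LinearMap.sub_apply, LinearMap.comp_apply, map_smul, h4] at h3
  have h5 : A (y * z) = A (x * (y * z)) := by
    rw [← sub_eq_zero]
    have : (3 / 64 : ℝ) • (A (y * z) - A (x * (y * z))) = 0 := by rw [← h3]; module
    simpa using this
  have h6 := P _ _ x n3 n4 hx (by rw [mul_left_comm, sq, mul_one])
  rw [← h5, (hax _ (y * z).2 (fun h => n3 (Subtype.ext h))).2.2.1.1.2.1] at h6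
  have h7 : A x = (-6 : ℝ) • A (y * z) := by
    have : A x = (2 : ℝ) • A (y * z) - (8 : ℝ) • ((1 / 8 : ℝ) • (A (y * z) + A (y * z) - A x)) := by module
    rw [this, ← h6]; module
  have h8 : B (A x) (A x) = 1 := h1 x x.2 (fun h => hx (Subtype.ext h))
  have h9 : B (A (y * z)) (A (y * z)) = 1 := h1 _ (y * z).2 (fun h => n3 (Subtype.ext h))
  rw [h7] at h8
  simp only [map_smul, LinearMap.smul_apply, h9, smul_eq_mul] at h8
  norm_num at h8

end Cfsg.Agent.S5543
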