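import Cfsg.Statements.S5546
import Cfsg.Agent.Leech.Simple

set_option autoImplicit false
open Cfsg

namespace Cfsg.Agent.S5546

open Cfsg.Agent.Leech Cfsg.Agent.Comp Cfsg.Agent.Golay Finset

abbrev F := ZMod 13
/-- reduction modulo 13. -/
def rd (x : LL) : GolayPt → F := fun i => ((x : V) i : F)

def mat (g : CG) : Module.End F (GolayPt → F) := Matrix.toLin' (Matrix.of fun i j => rd (g • e8 j) i * 5)

theorem mat_rd (g : CG) (x : LL) : mat g (rd x) = rd (g • x) := funext fun i => by
  have := congrArg (Int.cast (R := F)) (congrFun (sum_cols g x) i)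
  simp only [Finset.sum_apply, Pi.smul_apply, smul_eq_mul, Int.cast_sum, Int.cast_mul] at this
  simp only [mat, Matrix.toLin'_apply, Matrix.mulVec, dotProduct, rd, Matrix.of_apply]
  rw [← one_mul (Int.cast _), ← show (5 * (8 : ℤ) : F) = 1 by decide, mul_assoc, ← this, mul_sum]
  exact sum_congr rfl fun j _ => by ring

theorem ext8 {f g : Module.End F (GolayPt → F)} (h : ∀ j, f (rd (e8 j)) = g (rd (e8 j))) : f = g :=
  (Pi.basisFun F GolayPt).ext fun j => by
    rw [show Pi.basisFun F GolayPt j = (5 : F) • rd (e8 j) by rw [Pi.basisFun_apply]; revert j; decide +kernel,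
      map_smul, map_smul, h]

def rho : Representation F CG (GolayPt → F) where
  toFun := mat
  map_one' := ext8 fun j => by rw [mat_rd, one_smul]; rfl
  map_mul' g h := ext8 fun j => by rw [Module.End.mul_apply, mat_rd, mat_rd, mat_rd, mul_smul]

theorem aux {G K W : Type*} [Group G] [IsSimpleGroup G] [Field K] [AddCommGroup W] [Module K W] [Module.Finite K W] {n : ℕ}
    (ρ : Representation K G W) (h : Module.finrank K W = n) (g : G) (hg : ρ g ≠ 1) :
    ∃ f : G →* GL (Fin n) K, Function.Injective f := by
  let e : W ≃ₗ[K] (Fin n → K) := LinearEquiv.ofFinrankEq _ _ (by simpa using h)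
  let φ := ((LinearMap.toMatrixAlgEquiv'.toMulEquiv.toMonoidHom.comp
    (e.conjAlgEquiv K).toMulEquiv.toMonoidHom).comp ρ).toHomUnits
  refine ⟨φ, (MonoidHom.ker_eq_bot_iff φ).1 ((φ.normal_ker.eq_bot_or_eq_top).resolve_right fun h => hg ?_)⟩
  exact (map_eq_one_iff _ (e.conjAlgEquiv K).injective).1
    ((map_eq_one_iff _ LinearMap.toMatrixAlgEquiv'.injective).1 (congrArg Units.val (h.ge (Subgroup.mem_top g))))

instance instFact13 : Fact (Nat.Prime 13) := ⟨by norm_num⟩

def W : Submodule F (GolayPt → F) := Submodule.span F {rd uu}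

theorem rank_W : Module.finrank F ((GolayPt → F) ⧸ W) = 23 := by
  have h1 := W.finrank_quotient_add_finrank
  have h2 : Module.finrank F W = 1 := finrank_span_singleton (by decide +kernel)
  rw [h2, Module.finrank_fintype_fun_eq_card, card_pt] at h1
  omega

theorem inv_W (g : St1 uu) : W ≤ W.comap ((rho.comp (St1 uu).subtype) g) := by
  have h : mat g (rd uu) ∈ W := by rw [mat_rd, g.2]; exact Submodule.mem_span_singleton_self _
  exact (Submodule.span_singleton_le_iff_mem _ _).2 (Submodule.mem_comap.2 h)

theorem hc : EG.ofMask 4845570 ∈ GSupp := (ofMask_mem_supports_iff (by norm_num)).2 (by decide +kernel)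

theorem h2 : sg _ hc • uu = uu := Subtype.ext (funext fun i => (sg_apply hc uu i).trans (by revert i; decide +kernel))

theorem aux2 : ∃ f : St1 uu →* GL (Fin 23) F, Function.Injective f :=
  have := simple_Co2
  aux (Representation.quotient _ W inv_W) rank_W ⟨_, h2⟩ fun h3 => by
    obtain ⟨t, ht⟩ := Submodule.mem_span_singleton.1 ((Submodule.Quotient.eq W).1
      (LinearMap.congr_fun h3 (Submodule.Quotient.mk (rd (e8 (some 1))))))
    have h4 : t * rd uu (some 1) = mat (sg _ hc) (rd (e8 (some 1))) (some 1) - rd (e8 (some 1)) (some 1) :=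
      congrFun ht (some 1)
    rw [mat_rd, rd, rd, sg_apply] at h4
    clear * - h4; revert t; decide +kernel

/-- The second Conway group (the stabilizer in the Leech lattice automorphism group of the short vector fixed in the definitions) is isomorphic to a subgroup of the general linear group of degree 23 over the field with 13 elements: there is an injective homomorphism into it. -/
theorem result : ∃ f : ↥Cfsg.Spor.Co2 →* GL (Fin 23) (ZMod 13), Function.Injective f := by
  obtain ⟨f, hf⟩ := aux2
  exact ⟨f.comp equivCo2.symm.toMonoidHom, hf.comp equivCo2.symm.injective⟩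

end Cfsg.Agent.S5546
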