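import Cfsg.Statements.S5547
import Cfsg.Agent.FI.Rep78

set_option autoImplicit false
open Cfsg

namespace Cfsg.Agent.S5547

open Cfsg.Agent.FI

/-- The Fischer group Fi₂₂ (the finitely presented 3-transposition group of the definitions) is isomorphic to a subgroup of the general linear group of degree 78 over the field with 13 elements: there is an injective homomorphism into it. -/
theorem result : ∃ f : Cfsg.Spor.Fi22 →* GL (Fin 78) (ZMod 13), Function.Injective f := by
  exact ⟨Rep78.ρ, Rep78.inj⟩

end Cfsg.Agent.S5547
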