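import Cfsg.Statements.S5548
import Cfsg.Agent.Golay.Module

set_option autoImplicit false
open Cfsg

namespace Cfsg.Agent.S5548

/-- For the automorphism group of the length-24 binary Golay code of the definitions (the Mathieu group of degree 24) acting on binary words of length 24 by permuting coordinates, the only invariant subspaces of the space of all words are: zero, the span of the all-ones word, the code itself, the even-weight words, and the whole space. (So the permutation module has a unique composition series.) -/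
theorem result (W : Submodule (ZMod 2) (Cfsg.GolayPt → ZMod 2)) (hW : ∀ σ ∈ Cfsg.M24, ∀ w ∈ W, (fun p => w (σ.symm p)) ∈ W) : W = ⊥ ∨ W = Submodule.span (ZMod 2) {fun _ => (1 : ZMod 2)} ∨ W = Cfsg.golayCode ∨ (W : Set (Cfsg.GolayPt → ZMod 2)) = {w | ∑ p, w p = 0} ∨ W = ⊤ := by
  by_cases hle : W ≤ golayCode
  · rcases Golay.submodule_le_cases hW hle with h | h | h
    exacts [Or.inl h, Or.inr (Or.inl h), Or.inr (Or.inr (Or.inl h))]
  obtain ⟨v, hv, hn⟩ := SetLike.not_le_iff_exists.1 hle
  obtain ⟨S, rfl⟩ := Comp.exists_ind2 v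
  have h2 : ∀ v : GolayPt → ZMod 2, ∑ a, v a = 0 → v ∈ W := fun v => Comp.mem_of_pairs fun a b hab =>
    (Golay.invFam_of hW).pair_mem hv (mt Golay.mem_supp_iff.1 hn) hab
  refine Or.inr (Or.inr (Or.inr ?_))
  by_cases h3 : ∀ v ∈ W, ∑ a, v a = 0
  · exact Or.inl (Set.Subset.antisymm h3 h2)
  · refine Or.inr (eq_top_iff.2 fun u _ => ?_)
    simp only [not_forall] at h3
    obtain ⟨w, hw, h3⟩ := h3
    rcases Comp.zmod2_cases (∑ a, u a) with h | h
    · exact h2 u h
    · have := W.add_mem (h2 (u - w) (by
        simp only [Pi.sub_apply, Finset.sum_sub_distrib, h, (Comp.zmod2_cases _).resolve_left h3, sub_self])) hw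
      rwa [sub_add_cancel] at this

end Cfsg.Agent.S5548
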