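import Cfsg.Statements.S5549
import Cfsg.Agent.Golay.AbsGolay
import Cfsg.Agent.S0358

set_option autoImplicit false
open Cfsg

namespace Cfsg.Agent.S5549

open Cfsg.Agent.Comp Cfsg.Agent.Golay MulAction Finset
open scoped Pointwise
set_option maxRecDepth 100000

theorem star {α : Type*} [DecidableEq α] {A B C E : Finset α} {s : α} (hA : A.card = 2) (hB : B.card = 2)
    (hC : C.card = 2) (hE : E.card = 2) (h1 : s ∈ A) (h2 : s ∈ B) (hAB : (A ∩ B).card = 1) (hAC : (A ∩ C).card = 1)
    (hBC : (B ∩ C).card = 1) (hAE : (A ∩ E).card = 1) (hBE : (B ∩ E).card = 1) (hCE : (C ∩ E).card = 1) : s ∈ C := by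
  have two : ∀ {X : Finset α} {a : α}, X.card = 2 → a ∈ X → ∃ b, b ≠ a ∧ X = {a, b} := fun {X a} hX ha => by
    obtain ⟨u, v, h, rfl⟩ := card_eq_two.1 hX
    rcases mem_insert.1 ha with rfl | e
    · exact ⟨v, h.symm, rfl⟩
    · rw [mem_singleton.1 e]; exact ⟨u, h, pair_comm _ _⟩
  obtain ⟨a, ha, rfl⟩ := two hA h1
  obtain ⟨b, hb, rfl⟩ := two hB h2
  have hab : a ≠ b := by rintro rfl; rw [inter_self] at hAB; omega
  have key : ∀ {X : Finset α}, X.card = 2 → s ∉ X → ({s, a} ∩ X).card = 1 → ({s, b} ∩ X).card = 1 → X = {a, b} :=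
    fun {X} hX hs e1 e2 => by
      rw [insert_inter_of_notMem hs] at e1 e2
      have e3 : a ∈ X := by_contra fun h => by rw [singleton_inter_of_notMem h] at e1; simp at e1
      have e4 : b ∈ X := by_contra fun h => by rw [singleton_inter_of_notMem h] at e2; simp at e2
      exact (eq_of_subset_of_card_le (insert_subset e3 (singleton_subset_iff.2 e4)) (by rw [hX, card_pair hab])).symm
  by_contra hs
  obtain rfl := key hC hs hAC hBC
  by_cases h : s ∈ E
  · obtain ⟨e, he, rfl⟩ := two hE h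
    rw [inter_comm, insert_inter_of_notMem hs] at hCE
    have e3 : e ∈ ({a, b} : Finset α) := by_contra fun h => by rw [singleton_inter_of_notMem h] at hCE; simp at hCE
    rcases mem_insert.1 e3 with rfl | e4
    · rw [inter_self] at hAE; omega
    · rw [mem_singleton.1 e4, inter_self] at hBE; omega
  · rw [key hE h hAE hBE, inter_self] at hCE; omega

noncomputable def cnt (S : Finset GolayPt) (b : ℕ) : ℕ :=
  {T | T ∈ GSupp ∧ ((T.card = 8 ∨ T.card = 16) ∧ (T ∩ S).card % 2 = b)}.ncard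

theorem cnt_le {f : Finset GolayPt → Finset GolayPt} {S S' : Finset GolayPt} (hi : Set.InjOn f GSupp)
    (h : ∀ T ∈ GSupp, f T ∈ GSupp ∧ ((f T).card = T.card ∨ (f T).card + T.card = 24) ∧
      (f T ∩ S').card % 2 = (T ∩ S).card % 2) (b : ℕ) : cnt S b ≤ cnt S' b :=
  Set.ncard_le_ncard_of_injOn f (fun T hT => ⟨(h T hT.1).1, by have := (h T hT.1).2.1; have := hT.2.1; omega,
    (h T hT.1).2.2.trans hT.2.2⟩) (hi.mono fun _ h => h.1)

theorem cnt_eq {S : Finset GolayPt} (s b : ℕ) (hS : S.card = pc24 s) (h5 : pc24 s ≤ 5) : cnt S b = countLt 4096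
    fun a => band (memL (pc24 (gE a)) [8, 16]) (Nat.beq (pc24 (Nat.land (gE a) s) % 2) b) := by
  have h : ∀ S S' : Finset GolayPt, S.card ≤ 5 → S'.card = S.card → cnt S b ≤ cnt S' b := fun S S' h1 h2 => by
    obtain ⟨g, hg, rfl⟩ := exists_smul_finset h1 h2
    exact cnt_le (f := (g • ·)) (MulAction.injective g).injOn (fun T hT => ⟨smul_mem_supports hg hT,
      .inl (card_smul_finset _ _), by rw [← smul_finset_inter, card_smul_finset]⟩) b
  rw [← card_ofMask24] at hS h5
  rw [(h S _ (hS ▸ h5) hS.symm).antisymm (h _ S h5 hS)]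
  refine ncard_golay (pb := fun t => band (memL (pc24 t) [8, 16]) (Nat.beq (pc24 (Nat.land t s) % 2) b)) fun t _ => ?_
  rw [card_inter24, card_ofMask24, band_eq, Bool.and_eq_true, memL_iff, nbeq]
  simp

theorem exists_small (φ : golayCode →ₗ[ZMod 2] ZMod 2) :
    ∃ U : Finset GolayPt, U.card ≤ 4 ∧ ∀ T (h : ind2 T ∈ golayCode), φ ⟨_, h⟩ = (T ∩ U).card := by
  obtain ⟨ψ, e⟩ := φ.exists_extend
  obtain ⟨W, hW⟩ := exists_ind2 fun a : GolayPt => ψ (Pi.single a 1)
  have h1 : ∀ T (h : ind2 T ∈ golayCode), φ ⟨_, h⟩ = (T ∩ W).card := fun T h => by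
    rw [← dot_ind2, ← hW, ← e]
    change ψ (ind2 T) = _
    conv_lhs => rw [pi_eq_sum_univ' (ind2 T)]
    simp only [map_sum, map_smul, smul_eq_mul]
  obtain ⟨U, hU⟩ : {U | ind2 (symmDiff U W) ∈ golayCode ∧ U.card ≤ 4}.Nonempty := by
    rcases coset_cases card_pt S0358.result golay_min W with ⟨U, e, -⟩ | ⟨e, -⟩
    · exact ⟨U, e ▸ rfl⟩
    · exact Set.nonempty_of_ncard_ne_zero (by omega)
  refine ⟨U, hU.2, fun T h => ?_⟩
  have h2 := (ZMod.natCast_eq_zero_iff_even).2 (even_card_inter (mem_supp_iff.2 h) (mem_supp_iff.2 hU.1))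
  rw [← dot_ind2, ind2_symmDiff] at h2
  simp only [Pi.add_apply, mul_add, sum_add_distrib, dot_ind2] at h2
  rw [h1]
  exact (eq_neg_of_add_eq_zero_right h2).trans (ZMod.neg_eq_self_mod_two _)

theorem pair_card (T : Finset GolayPt) {p q : GolayPt} (h : p ≠ q) :
    ((T ∩ {p, q}).card : ZMod 2) = ind2 T p + ind2 T q := by
  rw [← dot_ind2, Finset.sum_eq_add p q h (fun c _ hc => by simp [ind2, hc.1, hc.2]) (by simp) (by simp)]
  simp [ind2]

theorem eq_empty {S : Finset GolayPt} (h : ∀ T ∈ GSupp, ((T ∩ S).card : ZMod 2) = 0) (h7 : S.card ≤ 7) : S = ∅ := by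
  have := card_supp (mem_supp_of_even' (S := S) fun o ho => by
    rw [inter_comm]; exact ZMod.natCast_eq_zero_iff_even.1 (h o ho.1))
  exact card_eq_zero.1 (by omega)

/-- Let X be a group of linear automorphisms of the length-24 binary Golay code of the definitions that fix the all-ones word, containing the coordinate-permutation action of every element of the code's automorphism group (the Mathieu group of degree 24), and such that every element of X sends each codeword into its orbit under that Mathieu group up to adding the all-ones word (X has the same orbits as the Mathieu group on the code modulo the all-ones word). Then every element of X agrees, modulo the all-ones word, with the action of a single element of the Mathieu group: X induces exactly the Mathieu group on the code modulo the all-ones word. -/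
theorem result (X : Subgroup (↥Cfsg.golayCode ≃ₗ[ZMod 2] ↥Cfsg.golayCode)) (h1 : ∀ x ∈ X, ∀ e : ↥Cfsg.golayCode, (e : (Cfsg.GolayPt → ZMod 2)) = (fun _ => (1 : ZMod 2)) → x e = e) (hM : ∀ σ ∈ Cfsg.M24, ∃ x ∈ X, ∀ c : ↥Cfsg.golayCode, ((x c : ↥Cfsg.golayCode) : (Cfsg.GolayPt → ZMod 2)) = fun p => (c : (Cfsg.GolayPt → ZMod 2)) (σ.symm p)) (horb : ∀ x ∈ X, ∀ c : ↥Cfsg.golayCode, ∃ σ ∈ Cfsg.M24, ((x c : ↥Cfsg.golayCode) : (Cfsg.GolayPt → ZMod 2)) = (fun p => (c : (Cfsg.GolayPt → ZMod 2)) (σ.symm p)) ∨ ((x c : ↥Cfsg.golayCode) : (Cfsg.GolayPt → ZMod 2)) = (fun p => (c : (Cfsg.GolayPt → ZMod 2)) (σ.symm p)) + fun _ => (1 : ZMod 2)) (x : ↥Cfsg.golayCode ≃ₗ[ZMod 2] ↥Cfsg.golayCode) (hx : x ∈ X) : ∃ σ ∈ Cfsg.M24, ∀ c : ↥Cfsg.golayCode, ((x c : ↥Cfsg.golayCode) : (Cfsg.GolayPt → ZMod 2)) = (fun p => (c : (Cfsg.GolayPt → ZMod 2)) (σ.symm p)) ∨ ((x c : ↥Cfsg.golayCode) : (Cfsg.GolayPt → ZMod 2)) = (fun p => (c : (Cfsg.GolayPt → ZMod 2)) (σ.symm p)) + fun _ => (1 : ZMod 2)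 := by
  have hu : ind2 (univ : Finset GolayPt) ∈ golayCode := mem_supp_iff.1 univ_mem_supp
  classical
  let f : Finset GolayPt → Finset GolayPt := fun T => if h : ind2 T ∈ golayCode then support₂ (x ⟨_, h⟩).1 else ∅
  have hf : ∀ T (h : ind2 T ∈ golayCode), ind2 (f T) = x ⟨_, h⟩ := fun T h => by simp only [f, dif_pos h, ind2_support]
  have hi : Set.InjOn f GSupp := fun S hS T hT e => ind2_inj (congrArg Subtype.val (x.injective (Subtype.ext
    ((hf S (mem_supp_iff.1 hS)).symm.trans (e ▸ hf T (mem_supp_iff.1 hT))))))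
  have hc : ∀ T ∈ GSupp, f T ∈ GSupp ∧ ((f T).card = T.card ∨ (f T).card + T.card = 24) := fun T hT => by
    have h := mem_supp_iff.1 hT
    refine ⟨mem_supp_iff.2 (hf T h ▸ (x _).2), ?_⟩
    obtain ⟨σ, -, e | e⟩ := horb x hx ⟨_, h⟩ <;> rw [← hf] at e
    · exact .inl (by rw [ind2_inj (e.trans (ind2_smul σ T).symm), card_smul_finset])
    · refine .inr ?_
      rw [← ind2_smul, ← ind2_univ, ← ind2_symmDiff] at e
      rw [ind2_inj e, ← top_eq_univ, symmDiff_top, ← card_smul_finset σ T, add_comm]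
      exact (card_add_card_compl _).trans card_pt
  have hD : ∀ p q : GolayPt, p ≠ q → ∃ U : Finset GolayPt, U.card = 2 ∧
      ∀ T ∈ GSupp, ind2 (f T) p + ind2 (f T) q = (T ∩ U).card := fun p q hpq => by
    obtain ⟨U, h4, hU⟩ := exists_small ((((LinearMap.proj p : (GolayPt → ZMod 2) →ₗ[ZMod 2] ZMod 2) +
      (LinearMap.proj q : (GolayPt → ZMod 2) →ₗ[ZMod 2] ZMod 2)).comp golayCode.subtype).comp x.toLinearMap)
    have h2 : ∀ T ∈ GSupp, ind2 (f T) p + ind2 (f T) q = (T ∩ U).card := fun T hT => by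
      rw [hf T (mem_supp_iff.1 hT)]; exact hU T _
    have h3 := cnt_le (S := U) (S' := {p, q}) hi fun T hT => ⟨(hc T hT).1, (hc T hT).2,
      (ZMod.natCast_eq_natCast_iff' _ _ 2).1 ((pair_card _ hpq).trans (h2 T hT))⟩
    have h5 := h2 _ univ_mem_supp
    rw [hf _ hu, h1 x hx _ ind2_univ, univ_inter] at h5
    have h6 : U.card % 2 = 2 % 2 := (ZMod.natCast_eq_natCast_iff' _ _ 2).1 (h5.symm.trans (by simp [ind2]; rfl))
    refine ⟨U, by_contra fun h7 => ?_, h2⟩
    rcases (show U.card = 0 ∨ U.card = 4 by omega) with e | e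
    · have := h3 0
      rw [cnt_eq 0 0 e (by decide +kernel), cnt_eq 3 0 (card_pair hpq) (by decide +kernel)] at this
      revert this; decide +kernel
    · have := h3 1
      rw [cnt_eq 15 1 e (by decide +kernel), cnt_eq 3 1 (card_pair hpq) (by decide +kernel)] at this
      revert this; decide +kernel
  choose D hD2 hD using fun q : ZMod 23 => hD none (some q) (by simp)
  have hI : ∀ q r, q ≠ r → (D q ∩ D r).card = 1 := fun q r h => by
    obtain ⟨U, h2, hU⟩ := ‹∀ p q : GolayPt, p ≠ q → _› (some q) (some r) (by simpa)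
    have h3 := card_symmDiff_add (D q) (D r)
    have h4 := card_symmDiff_add (symmDiff (D q) (D r)) U
    have h5 := eq_empty (S := symmDiff (symmDiff (D q) (D r)) U) (fun T hT => by
      rw [← dot_ind2, ind2_symmDiff, ind2_symmDiff]
      simp only [Pi.add_apply, mul_add, sum_add_distrib, dot_ind2]
      rw [← hD q T hT, ← hD r T hT, ← hU T hT]
      generalize ind2 (f T) none = a; generalize ind2 (f T) (some q) = b; generalize ind2 (f T) (some r) = c
      revert a b c; decide) (by have := hD2 q; have := hD2 r; omega)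
    rw [← bot_eq_empty, symmDiff_eq_bot] at h5
    rw [h5, h2, hD2, hD2] at h3
    omega
  obtain ⟨s, hs⟩ := card_eq_one.1 (hI 0 1 (by decide))
  have hs0 := mem_inter.1 (hs ▸ mem_singleton_self s)
  have hs1 : ∀ q, s ∈ D q := fun q => by
    by_cases e0 : q = 0
    · exact e0 ▸ hs0.1
    by_cases e1 : q = 1
    · exact e1 ▸ hs0.2
    obtain ⟨r, a, b, c⟩ : ∃ r : ZMod 23, 0 ≠ r ∧ 1 ≠ r ∧ q ≠ r := by revert q; decide
    exact star (hD2 0) (hD2 1) (hD2 q) (hD2 r) hs0.1 hs0.2 (hI _ _ (by decide)) (hI _ _ (Ne.symm e0))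
      (hI _ _ (Ne.symm e1)) (hI _ _ a) (hI _ _ b) (hI _ _ c)
  have ht : ∀ q, ∃ t, s ≠ t ∧ D q = {s, t} := fun q => by
    obtain ⟨u, v, h, e⟩ := card_eq_two.1 (hD2 q)
    rcases mem_insert.1 (e ▸ hs1 q) with rfl | e'
    · exact ⟨v, h, e⟩
    · rw [mem_singleton.1 e']; exact ⟨u, h.symm, e.trans (pair_comm _ _)⟩
  choose t ht1 ht2 using ht
  let τ : GolayPt → GolayPt := fun a => a.elim s t
  have hτ : Function.Injective τ := by
    rintro (_ | a) (_ | b) e
    · rfl
    · exact absurd e (ht1 b)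
    · exact absurd e.symm (ht1 a)
    · by_contra h
      have := hI a b fun e => h (e ▸ rfl)
      rw [ht2 a, show t a = t b from e, ← ht2, inter_self, hD2] at this
      omega
  let σ := (Equiv.ofBijective τ (Finite.injective_iff_bijective.1 hτ)).symm
  have key : ∀ c : golayCode, ((x c : golayCode) : GolayPt → ZMod 2) = (fun p => (c : GolayPt → ZMod 2) (σ.symm p)) ∨
      ((x c : golayCode) : GolayPt → ZMod 2) = (fun p => (c : GolayPt → ZMod 2) (σ.symm p)) + fun _ => 1 := by
    rintro ⟨c, h⟩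
    obtain ⟨T, rfl⟩ := exists_ind2 c
    rw [← hf]
    have h2 : ∀ p, ind2 (f T) p = ind2 T (τ p) + (ind2 (f T) none + ind2 T s) := by
      rintro (_ | q)
      · change _ = ind2 T s + _
        generalize ind2 (f T) none = a; generalize ind2 T s = b; revert a b; decide
      · have := hD q T (mem_supp_iff.2 h)
        rw [ht2, pair_card _ (ht1 q)] at this
        change _ = ind2 T (t q) + _
        revert this
        generalize ind2 (f T) none = a; generalize ind2 T s = b; generalize ind2 T (t q) = c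
        generalize ind2 (f T) (some q) = d; revert a b c d; decide
    rcases zmod2_cases (ind2 (f T) none + ind2 T s) with e | e <;> rw [e] at h2
    · exact .inl (funext fun p => (h2 p).trans (add_zero _))
    · exact .inr (funext h2)
  refine ⟨σ, mem_M24_iff.2 fun v hv => ?_, key⟩
  rcases key ⟨v, hv⟩ with e | e
  · exact (show _ = fun a => v (σ⁻¹ a) from e) ▸ (x _).2
  · rw [ind2_univ] at hu
    have := golayCode.sub_mem (x ⟨v, hv⟩).2 hu
    rwa [e, add_sub_cancel_right] at this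

end Cfsg.Agent.S5549
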