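import Cfsg.Statements.S5550
import Cfsg.Agent.Golay.Module

set_option autoImplicit false
open Cfsg

namespace Cfsg.Agent.S5550

open scoped Pointwise

set_option maxRecDepth 100000

/-- Let u be a word of the length-24 binary Golay code of the definitions (possibly zero or all-ones) and w any binary word of length 24 outside the code. Then some automorphism of the code (a coordinate permutation preserving it) fixes u but moves w to a word not congruent to w modulo the code: the stabilizer of a codeword fixes no non-zero element of the quotient of the space of all words by the code. -/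
theorem result (u : (Cfsg.GolayPt → ZMod 2)) (hu : u ∈ Cfsg.golayCode) (w : (Cfsg.GolayPt → ZMod 2)) (hw : w ∉ Cfsg.golayCode) : ∃ σ ∈ Cfsg.M24, (fun p => u (σ.symm p)) = u ∧ (fun p => w (σ.symm p)) - w ∉ Cfsg.golayCode := by
  obtain ⟨U, rfl⟩ := Comp.exists_ind2 u
  obtain ⟨S, rfl⟩ := Comp.exists_ind2 w
  rw [← Golay.mem_supp_iff] at hu hw
  suffices ∃ g : Golay.MG, g • U = U ∧ symmDiff (g • S) S ∉ Golay.GSupp by
    obtain ⟨g, h1, h2⟩ := this
    refine ⟨g, g.2, ?_, ?_⟩
    · rw [← Comp.ind2_smul]; exact congrArg _ h1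
    · rwa [← Comp.ind2_smul, Comp.sub_eq_add₂, ← Comp.ind2_symmDiff, ← Golay.mem_supp_iff]
  have key : ∀ (g : Golay.MG) (V : Finset GolayPt), (∀ S ∉ Golay.GSupp, ∃ k ∈ MulAction.stabilizer Golay.MG V,
      symmDiff (k • S) S ∉ Golay.GSupp) → ∃ k : Golay.MG, k • g • V = g • V ∧ symmDiff (k • S) S ∉ Golay.GSupp :=
    fun g V h => by
      obtain ⟨S, rfl⟩ := MulAction.surjective g S
      obtain ⟨k, hk, e⟩ := h S (by simpa using hw)
      exact ⟨_, Comp.conj_fix g hk, by rwa [Comp.conj_smul', Golay.smul_symmDiff', Golay.smul_mem_supp_iff]⟩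
  have h8 : ∀ o ∈ octads, ∃ k : Golay.MG, k • o = o ∧ symmDiff (k • S) S ∉ Golay.GSupp := fun o ho => by
    obtain ⟨g, rfl⟩ := Golay.octad_transM Golay.oct0_mem ho
    exact key g _ fun S => Golay.moves_coset Golay.codes_Oct (by decide +kernel)
  rcases Golay.card_supp hu with e | e | e | e | e
  · obtain ⟨k, -, h⟩ := h8 _ Golay.oct0_mem
    exact ⟨k, by rw [Finset.card_eq_zero.1 e, Finset.smul_finset_empty], h⟩
  · exact h8 U ⟨hu, e⟩
  · obtain ⟨g, rfl⟩ := Golay.dodecad_transM Golay.dod0_mem ⟨hu, e⟩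
    exact key g _ fun S => Golay.moves_coset Golay.codes_Dod (by decide +kernel)
  · obtain ⟨k, h1, h⟩ := h8 Uᶜ ⟨Golay.compl_mem_supp hu, by rw [Finset.card_compl, e, Golay.card_pt]⟩
    exact ⟨k, by rwa [← Golay.smul_compl', compl_inj_iff] at h1, h⟩
  · obtain ⟨k, -, h⟩ := h8 _ Golay.oct0_mem
    exact ⟨k, by rw [Finset.eq_univ_of_card U (e.trans Golay.card_pt.symm), Finset.smul_finset_univ], h⟩

end Cfsg.Agent.S5550
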