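import Cfsg.Statements.S5552
import Cfsg.Agent.Leech.Simple

set_option autoImplicit false
open Cfsg

namespace Cfsg.Agent.S5552

open Cfsg.Agent.Leech Cfsg.Agent.Comp Cfsg.Agent.Golay

/-- On the Leech lattice of the definitions, let Q be a function to the field with two elements that is constant on cosets of twice the lattice, is a quadratic form there (Q(u+v+w) + Q(u) + Q(v) + Q(w) = Q(u+v) + Q(u+w) + Q(v+w) for all u, v, w), is invariant under every lattice automorphism, and is not identically zero. Then Q(v) is the squared length of v divided by 16, reduced modulo 2, for every lattice vector v (squared lengths of lattice vectors are multiples of 16). -/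
theorem result (Q : ↥Cfsg.leechLattice → ZMod 2) (hcoset : ∀ v w : ↥Cfsg.leechLattice, Q (v + (w + w)) = Q v) (hquad : ∀ u v w : ↥Cfsg.leechLattice, Q (u + v + w) + Q u + Q v + Q w = Q (u + v) + Q (u + w) + Q (v + w)) (hinv : ∀ (g : ↥Cfsg.Co0) (v : ↥Cfsg.leechLattice), Q (g • v) = Q v) (hne : ∃ v : ↥Cfsg.leechLattice, Q v ≠ 0) (v : ↥Cfsg.leechLattice) : Q v = ((Cfsg.sqNorm (v : Cfsg.GolayPt → ℤ) / 16 : ℤ) : ZMod 2) := by
  have tr {N : ℤ} (ht : TrOn (⊤ : Subgroup CG) (Sh N)) {a b : LL} (ha : a ∈ Sh N) (hb : b ∈ Sh N) : Q b = Q a :=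
    let ⟨g, _, e⟩ := ht a ha b hb; e ▸ hinv g a
  have h0 : Q 0 = 0 := by simpa using hquad 0 0 0
  have key (x : LL) : sqNorm (x : V) % 32 = 16 ∧ Q x = Q vv ∨
      sqNorm (x : V) % 32 = 0 ∧ (Q x = 0 ∨ Q x = Q uu ∨ Q x = Q (e8 none)) := by
    obtain ⟨y, hy, z, e⟩ := count_lat.1 x
    obtain rfl : x = y + (z + z) := by rw [← two_nsmul, ← e, add_sub_cancel]
    have h1 := sixteen_dvd_sqNorm y.2
    have h2 := sixteen_dvd_sqNorm z.2
    have h3 := eight_dvd_dot y.2 z.2
    rw [hcoset]
    simp only [AddSubgroup.coe_add, sqNorm_add, dot_add_right, ← sqNorm_eq]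
    by_cases hy0 : y = 0
    · exact Or.inr ⟨by rw [hy0] at h3 ⊢; simp only [ZeroMemClass.coe_zero, sqNorm_zero] at h3 ⊢; omega, Or.inl (hy0 ▸ h0)⟩
    have h4 := le_sqNorm y.2 fun e => hy0 (Subtype.ext e)
    rcases (by omega : sqNorm (y : V) = 32 ∨ sqNorm (y : V) = 48 ∨ sqNorm (y : V) = 64) with h | h | h
    · exact Or.inr ⟨by omega, Or.inr (Or.inl (tr tr32 (by decide +kernel) h))⟩
    · exact Or.inl ⟨by omega, tr tr48 (by decide +kernel) h⟩
    · exact Or.inr ⟨by omega, Or.inr (Or.inr (tr tr64 (by decide +kernel) h))⟩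
  have q32 (x : LL) (h : x ∈ Sh 32) : Q x = Q uu := tr tr32 (by decide +kernel) h
  have q48 (x : LL) (h : sqNorm (x : V) % 32 = 16) : Q x = Q vv := ((key x).resolve_right (by omega)).2
  have h1 := hquad uu' (-x2) vv
  rw [q48 _ (by decide +kernel), q32 uu' (by decide +kernel), q32 (-x2) (by decide +kernel), q32 (uu' + -x2) (by decide +kernel),
    q48 (uu' + vv) (by decide +kernel), q48 (-x2 + vv) (by decide +kernel)] at h1
  have h2 : Q uu = 0 := by linear_combination h1
  have h3 := hquad uu' (d4 (some 0) (some 1) (-1)) (d4 (some 1) (some 2) (-1))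
  rw [q32 _ (by decide +kernel), q32 uu' (by decide +kernel), q32 (d4 _ _ _) (by decide +kernel),
    q32 (d4 (some 1) _ _) (by decide +kernel), q32 (uu' + d4 (some 0) _ _) (by decide +kernel),
    q32 (d4 _ _ _ + _) (by decide +kernel), tr tr64 (a := e8 none) (b := uu' + _) (by decide +kernel) (by decide +kernel),
    h2] at h3
  have h4 : Q (e8 none) = 0 := by simpa using h3.symm
  have h5 : Q vv = 1 := by
    obtain ⟨x, hx⟩ := hne
    have : ∀ a : ZMod 2, a ≠ 0 → a = 1 := by decide
    rcases key x with h | h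
    · exact this _ (h.2 ▸ hx)
    · rw [h2, h4] at h; tauto
  rw [h2, h4, h5] at key
  rcases key v with h | h
  · rw [h.2]; exact (ZMod.intCast_eq_one_iff_odd.2 (Int.odd_iff.2 (by omega))).symm
  · rw [show Q v = 0 by tauto]; exact (ZMod.intCast_eq_zero_iff_even.2 (Int.even_iff.2 (by omega))).symm

end Cfsg.Agent.S5552
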