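import Cfsg.Statements.S5553
import Cfsg.Agent.Leech.Simple

set_option autoImplicit false
open Cfsg

namespace Cfsg.Agent.S5553

open Cfsg.Agent.Leech Cfsg.Agent.Comp Cfsg.Agent.Golay

set_option maxRecDepth 100000 in
theorem aux : ∃ g : CG, ∀ x : LL, g • g • x = -x := by
  obtain ⟨g, -, hr⟩ := codesNN (L := [(12038281, 64394955375879487410185658608717544)]) (by decide +kernel) _
    List.mem_cons_self
  have h := RC_sgC (s := 16777215) ((ofMask_mem_supports_iff (by norm_num)).2 (by decide +kernel))
  refine ⟨g, fun x => ?_⟩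
  rw [← mul_smul, (canC.eq_iff (grpC.mul hr hr) h).2 (by decide +kernel)]
  exact Subtype.ext (funext fun i => (sg_apply _ x i).trans (if_pos (by clear * -; revert i; decide +kernel)))

/-- The Leech lattice of the definitions has an additive subgroup A containing twice the lattice, of index 2^12 in the lattice, all of whose vectors have squared length divisible by 32: the invariant quadratic form 'squared length over 16 modulo 2' on the lattice modulo twice the lattice (a 24-dimensional space over the field with two elements) vanishes on a 12-dimensional subspace, so it is of plus type. -/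
theorem result : ∃ A : AddSubgroup (Cfsg.GolayPt → ℤ), A ≤ Cfsg.leechLattice ∧ (∀ v ∈ Cfsg.leechLattice, (2 : ℤ) • v ∈ A) ∧ (A.addSubgroupOf Cfsg.leechLattice).index = 2 ^ 12 ∧ ∀ v ∈ A, (32 : ℤ) ∣ Cfsg.sqNorm v := by
  obtain ⟨g, hg⟩ := aux
  let f : LL →+ LL := AddMonoidHom.id LL + DistribSMul.toAddMonoidHom LL g
  have hf (x : LL) : f x = x + g • x := rfl
  have hn (x : LL) : sqNorm (f x : V) = 2 * sqNorm (x : V) := by
    have := dot_act g x (g • x)
    rw [hg, AddSubgroup.coe_neg, dot_neg_right, dot_comm] at this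
    rw [hf, AddSubgroup.coe_add, sqNorm_add, sqNorm_act]; omega
  have hi : Function.Injective f := (injective_iff_map_eq_zero f).2 fun x hx => Subtype.ext (sqNorm_eq_zero (by
    have := hn x; rw [hx, ZeroMemClass.coe_zero, sqNorm_zero] at this; omega))
  have hff (x : LL) : f (f x) = 2 • g • x := by rw [hf, hf, smul_add, hg, two_nsmul]; abel
  have h1 : f.range.map f = (dbl LL).range := by
    ext x
    exact ⟨by rintro ⟨_, ⟨y, rfl⟩, rfl⟩; exact ⟨_, (hff y).symm⟩,
      by rintro ⟨y, rfl⟩; exact ⟨_, ⟨g⁻¹ • y, rfl⟩, by rw [hff, smul_inv_smul]; rfl⟩⟩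
  have h2 := AddSubgroup.index_map_of_injective f.range hi
  rw [h1, index_two] at h2
  refine ⟨f.range.map leechLattice.subtype, AddSubgroup.map_subtype_le _, fun v hv => ⟨_, h1.ge.trans (AddSubgroup.map_le_range _ _)
    ⟨⟨v, hv⟩, rfl⟩, by simp [dbl_apply, two_smul]⟩, ?_, ?_⟩
  · rw [AddSubgroup.addSubgroupOf, AddSubgroup.comap_map_eq_self_of_injective leechLattice.subtype_injective]
    exact Nat.mul_self_inj.1 (h2.symm.trans (by norm_num))
  · rintro _ ⟨_, ⟨x, rfl⟩, rfl⟩
    have := sixteen_dvd_sqNorm x.2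
    have := hn x
    change 32 ∣ sqNorm (f x : V); omega

end Cfsg.Agent.S5553
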