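import Cfsg.Statements.S5594
import Cfsg.Agent.Leech.Simple

set_option autoImplicit false
open Cfsg

namespace Cfsg.Agent.S5594

open Cfsg.Agent.Leech Cfsg.Agent.Comp

/-- The automorphism group of the Leech lattice contains the negation map, and the subgroup of order 2 it generates has no complement: the automorphism group is a non-split extension of its quotient by that subgroup (it is not the direct product of a group of order 2 with the first Conway group). -/
theorem result :
    ∃ n : ↥Cfsg.Co0, (∀ v : ↥Cfsg.leechLattice, ((n • v : ↥Cfsg.leechLattice) : Cfsg.GolayPt → ℤ) = -(v : Cfsg.GolayPt → ℤ)) ∧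
    ∀ K : Subgroup ↥Cfsg.Co0, ¬ (Subgroup.zpowers n).IsComplement' K := by
  refine ⟨negC, fun v => congrArg Subtype.val (negC_smul v), fun K hK => ?_⟩
  have h1 : K.index = 2 := by
    rw [hK.index_eq_card, Nat.card_zpowers]
    exact orderOf_eq_prime ((sq _).trans (sg_sq _)) negC_ne_one
  have := K.normal_of_index_eq_two h1
  rcases normal_Co0 K with h | h
  · have h2 := K.index_mul_card
    have h3 := Subgroup.card_le_of_le (show K ≤ Subgroup.center _ from fun g hg => mem_center_Co0.2 (h g hg))
    rw [h1, card_Co0] at h2; rw [card_center_Co0] at h3; omega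
  · rw [h, Subgroup.index_top] at h1; omega

end Cfsg.Agent.S5594
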