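import Cfsg.Statements.S5599
import Cfsg.Agent.Golay.Fix

set_option autoImplicit false
open scoped Pointwise
open Cfsg

namespace Cfsg.Agent.S5599

/-- In the automorphism group of the length-24 code, the two-point Mathieu group (permutations of the code's group fixing the extra point and the residue 0) has index 2 in the setwise stabiliser of that pair of points, and an element of the code's group interchanging the two points normalises the two-point group and induces on it, by conjugation, an automorphism that is not inner. -/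
theorem result (g : Equiv.Perm Cfsg.GolayPt) (hg : g ∈ Cfsg.M24) (h₁ : g none = some 0) (h₂ : g (some 0) = none) : Cfsg.Spor.M22.relIndex (Cfsg.M24 ⊓ MulAction.stabilizer (Equiv.Perm Cfsg.GolayPt) ({none, some 0} : Finset Cfsg.GolayPt)) = 2 ∧ (∀ x ∈ Cfsg.Spor.M22, g * x * g⁻¹ ∈ Cfsg.Spor.M22) ∧ ¬ ∃ h ∈ Cfsg.Spor.M22, ∀ x ∈ Cfsg.Spor.M22, g * x * g⁻¹ = h * x * h⁻¹ := by
  have hn : ∀ x ∈ Spor.M22, g * x * g⁻¹ ∈ Spor.M22 := fun x hx => by
    refine ⟨⟨M24.mul_mem (M24.mul_mem hg hx.1.1) (M24.inv_mem hg), ?_⟩, ?_⟩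
    · show g (x (g⁻¹ none)) = none
      rw [Equiv.Perm.inv_eq_iff_eq.2 h₂.symm, show x (some 0) = some 0 from hx.2, h₂]
    · show g (x (g⁻¹ (some 0))) = some 0
      rw [Equiv.Perm.inv_eq_iff_eq.2 h₁.symm, show x none = none from hx.1.2, h₁]
  refine ⟨?_, hn, ?_⟩
  · have e : ({none, some 0} : Finset GolayPt) = Golay.duad0 := by decide +kernel
    have hle : Spor.M22 ≤ M24 ⊓ MulAction.stabilizer (Equiv.Perm GolayPt) ({none, some 0} : Finset GolayPt) :=
      fun x hx => ⟨hx.1.1, Comp.smul_eq_of_fix (by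
        simp only [Finset.mem_insert, Finset.mem_singleton]
        rintro _ (rfl | rfl)
        exacts [hx.1.2, hx.2])⟩
    have h1 := Subgroup.card_mul_index (Spor.M22.subgroupOf
      (M24 ⊓ MulAction.stabilizer (Equiv.Perm GolayPt) ({none, some 0} : Finset GolayPt)))
    rw [Comp.card_subgroupOf_eq, inf_eq_right.2 hle, Golay.card_M22, ← Comp.card_stabilizer_subgroup, e,
      Golay.card_Duad] at h1
    rw [Subgroup.relIndex, e]; omega
  · rintro ⟨h, hh, e⟩
    have hc : h⁻¹ * g ∈ M24 := M24.mul_mem (M24.inv_mem hh.1.1) hg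
    have hcomm : ∀ x ∈ Spor.M22, ∀ a, (h⁻¹ * g) (x a) = x ((h⁻¹ * g) a) := fun x hx a => by
      have : h⁻¹ * g * x = x * (h⁻¹ * g) := by
        have := e x hx
        calc h⁻¹ * g * x = h⁻¹ * (g * x * g⁻¹) * g := by group
          _ = _ := by rw [this]; group
      exact congrArg (fun σ : Equiv.Perm GolayPt => σ a) this
    have c1 : (h⁻¹ * g) none = some 0 := by
      show h⁻¹ (g none) = _
      rw [h₁, Equiv.Perm.inv_eq_iff_eq]; exact hh.2.symm
    have c2 : (h⁻¹ * g) (some 0) = none := by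
      show h⁻¹ (g (some 0)) = _
      rw [h₂, Equiv.Perm.inv_eq_iff_eq]; exact hh.1.2.symm
    have c3 : ∀ a ∈ Golay.P22, (h⁻¹ * g) a = a := fun a ha => by
      by_contra hne
      have hb : (h⁻¹ * g) a ∈ Golay.P22 := ⟨⟨trivial, fun e => ha.2 ((h⁻¹ * g).injective (e.trans c2.symm))⟩,
        fun e => ha.1.2 ((h⁻¹ * g).injective (e.trans c1.symm))⟩
      obtain ⟨b, hb1, hb2⟩ : ∃ b ∈ Golay.P22, b ∉ ({a, (h⁻¹ * g) a} : Set GolayPt) := by
        refine Set.exists_mem_notMem_of_ncard_lt_ncard ?_ (Set.toFinite _)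
        rw [Golay.ncard_P22]; exact (Set.ncard_insert_le _ _).trans_lt (by simp)
      simp only [Set.mem_insert_iff, Set.mem_singleton_iff, not_or] at hb2
      obtain ⟨x, hx, e1, e2⟩ := (Golay.trans22.pred (by rw [Golay.ncard_P22]; norm_num)).two ha hb ha hb1
        (Ne.symm hne) (Ne.symm hb2.1)
      have := hcomm x hx a
      rw [show x a = a from e1] at this
      exact hb2.2 (e2.symm.trans this.symm)
    have := Golay.eq_one_of_fixOct Golay.oct1_mem (k := ⟨_, hc⟩) (p := some 1)
      (fun a ha => c3 a ⟨⟨trivial, by rintro rfl; revert ha; decide +kernel⟩, by rintro rfl; revert ha; decide +kernel⟩)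
      (by decide +kernel) (c3 _ ⟨⟨trivial, by simp⟩, by decide⟩)
    rw [show h⁻¹ * g = 1 from congrArg Subtype.val this] at c1
    simp at c1

end Cfsg.Agent.S5599
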