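import Cfsg.Statements.S5600
import Cfsg.Agent.Golay.Fix

set_option autoImplicit false
open scoped Pointwise
open Cfsg

namespace Cfsg.Agent.S5600

/-- Although the group of the length-24 code is only 5-transitive on the 24 points, it induces the full symmetric group on every 6-element subset: every permutation of a 6-set E is the restriction of an element of the group mapping E to itself. The pointwise stabiliser of E has order 16 when E lies in an octad and order 3 otherwise; in the latter case the setwise stabiliser of E has order 2160. -/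
theorem result (E : Finset Cfsg.GolayPt) (hE : E.card = 6) : (∀ σ : Equiv.Perm ↥E, ∃ g ∈ Cfsg.M24, ∀ p : ↥E, g p = σ p) ∧ ((∃ o ∈ Cfsg.octads, E ⊆ o) → Nat.card {g : Equiv.Perm Cfsg.GolayPt // g ∈ Cfsg.M24 ∧ ∀ p ∈ E, g p = p} = 16) ∧ ((¬ ∃ o ∈ Cfsg.octads, E ⊆ o) → Nat.card {g : Equiv.Perm Cfsg.GolayPt // g ∈ Cfsg.M24 ∧ ∀ p ∈ E, g p = p} = 3 ∧ Nat.card ↥(MulAction.stabilizer Cfsg.M24 E) = 2160) := by
  have h1 : ∀ σ : Equiv.Perm E, ∃ g : Golay.MG, ∀ p : E, g • (p : GolayPt) = σ p := Golay.exists_induce_six hE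
  have h2 := Golay.card_subtype_M24 (K := Comp.fixF Golay.MG E) (p := fun g => ∀ p ∈ E, g p = p) fun g => Iff.rfl
  refine ⟨fun σ => let ⟨g, h⟩ := h1 σ; ⟨g, g.2, h⟩, fun ⟨o, ho, h⟩ => h2.trans (Golay.card_fix_six_in ho hE h),
    fun hn => ⟨h2.trans (Golay.card_fix_six_out hE hn), ?_⟩⟩
  have h3 := Comp.card_range_restrHom_mul (MulAction.stabilizer Golay.MG E) E fun _ h => h
  rw [inf_eq_right.2 (Comp.fixF_le_stab E), Golay.card_fix_six_out hE hn, MonoidHom.range_eq_top.2, Subgroup.card_top,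
    Nat.card_perm, Nat.card_eq_fintype_card, Fintype.card_coe, hE] at h3
  · exact h3.symm
  · intro σ
    obtain ⟨g, h⟩ := h1 σ
    exact ⟨⟨g, Comp.smul_eq_of_mapsTo fun a ha => (h ⟨a, ha⟩).symm ▸ (σ ⟨a, ha⟩).2⟩,
      Equiv.ext fun p => Subtype.ext (h p)⟩

end Cfsg.Agent.S5600
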