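import Cfsg.Statements.S5601
import Cfsg.Agent.Golay.Classes

set_option autoImplicit false
open scoped Pointwise
open Cfsg

namespace Cfsg.Agent.S5601

open Cfsg.Agent.Comp Cfsg.Agent.Golay MulAction
set_option maxRecDepth 100000

theorem fix_eq (x : MG) : {p : GolayPt | ∀ y ∈ Subgroup.zpowers x, (y : Equiv.Perm GolayPt) p = p}.ncard =
    (fixS x).card := by
  rw [← Set.ncard_coe_finset]; congr 1; ext p
  exact ⟨fun h => mem_fixS.2 (h x (Subgroup.mem_zpowers x)), fun h y hy => mem_fixS.1 (fixS_subset hy h)⟩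

/-- The group of the length-24 code has exactly two conjugacy classes of subgroups of order 3: a subgroup of order 3 fixes either exactly 6 of the 24 points or none of them, both cases occur, and two subgroups of order 3 with the same number of fixed points are conjugate. -/
theorem result : (∀ X : Subgroup ↥Cfsg.M24, Nat.card X = 3 → {p : Cfsg.GolayPt | ∀ x ∈ X, ((x : ↥Cfsg.M24) : Equiv.Perm Cfsg.GolayPt) p = p}.ncard = 6 ∨ {p : Cfsg.GolayPt | ∀ x ∈ X, ((x : ↥Cfsg.M24) : Equiv.Perm Cfsg.GolayPt) p = p}.ncard = 0) ∧ (∃ X : Subgroup ↥Cfsg.M24, Nat.card X = 3 ∧ {p : Cfsg.GolayPt | ∀ x ∈ X, ((x : ↥Cfsg.M24) : Equiv.Perm Cfsg.GolayPt) p = p}.ncard = 6) ∧ (∃ X : Subgroup ↥Cfsg.M24, Nat.card X = 3 ∧ {p : Cfsg.GolayPt | ∀ x ∈ X, ((x : ↥Cfsg.M24) : Equiv.Perm Cfsg.GolayPt) p = p}.ncard = 0) ∧ ∀ X Y : Subgroup ↥Cfsg.M24, Nat.card X = 3 → Nat.card Y = 3 → {p : Cfsg.GolayPt | ∀ x ∈ X, ((x : ↥Cfsg.M24)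 : Equiv.Perm Cfsg.GolayPt) p = p}.ncard = {p : Cfsg.GolayPt | ∀ x ∈ Y, ((x : ↥Cfsg.M24) : Equiv.Perm Cfsg.GolayPt) p = p}.ncard → ∃ k : ↥Cfsg.M24, MulAut.conj k • X = Y := by
  refine ⟨fun X hX => ?_, ⟨Subgroup.zpowers x3A, (Nat.card_zpowers _).trans order_x3A, (fix_eq _).trans card_fixS_x3A⟩,
    ⟨Subgroup.zpowers x3B, (Nat.card_zpowers _).trans order_x3B, by rw [fix_eq, fixS_x3B]; rfl⟩, fun X Y hX hY h => ?_⟩
  · obtain ⟨x, hx, rfl⟩ := exists_zpowers_of_prime Nat.prime_three hX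
    rw [fix_eq]
    rcases three_cases hx with ⟨k, rfl⟩ | ⟨k, rfl⟩
    · left; rw [fixS_conj, Finset.card_smul_finset, card_fixS_x3A]
    · right; rw [fixS_conj, Finset.card_smul_finset, fixS_x3B]; rfl
  · obtain ⟨x, hx, rfl⟩ := exists_zpowers_of_prime Nat.prime_three hX
    obtain ⟨y, hy, rfl⟩ := exists_zpowers_of_prime Nat.prime_three hY
    rw [fix_eq, fix_eq] at h
    have key : ∀ {z : MG}, (∃ k : MG, k * z * k⁻¹ = x) → (∃ k : MG, k * z * k⁻¹ = y) →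
        ∃ k : MG, MulAut.conj k • Subgroup.zpowers x = Subgroup.zpowers y := fun {z} ⟨k, e1⟩ ⟨k', e2⟩ =>
      ⟨k' * k⁻¹, (MonoidHom.map_zpowers _ _).trans (congrArg _
        (show k' * k⁻¹ * x * (k' * k⁻¹)⁻¹ = y by rw [← e1, ← e2]; group))⟩
    have e' : fixS x = ∅ ↔ fixS y = ∅ := by rw [← Finset.card_eq_zero, h, Finset.card_eq_zero]
    by_cases h0 : fixS x = ∅
    · exact key (conj_x3B hx h0) (conj_x3B hy (e'.1 h0))
    · exact key (conj_x3A hx h0) (conj_x3A hy (mt e'.2 h0))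

end Cfsg.Agent.S5601
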