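import Cfsg.Statements.S5604
import Cfsg.Agent.Golay.Classes

set_option autoImplicit false
open scoped Pointwise
open Cfsg

namespace Cfsg.Agent.S5604

open Cfsg.Agent.Comp Cfsg.Agent.Golay MulAction
set_option maxRecDepth 100000

def c7 : ℕ := 235735497074272698503404232626953314
noncomputable def x7 : MG := elt c7 (by decide +kernel)
theorem rep7 : CM c7 x7 := ⟨elt_rep _ _, by decide +kernel⟩
theorem order7 : orderOf x7 = 7 := orderOf_prime_CM rep7 (by norm_num) (by decide +kernel)
def gN : List ℕ := [525912242607458486979564950958416207, 975195217454385293597302886222038018]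
def gC : List ℕ := [505656999509113535564389770517429514, 543538374950122243577376978517889638]
abbrev N7 : Subgroup MG := Subgroup.normalizer (Subgroup.zpowers x7 : Set MG)

theorem codes_N : CodesIn RM gN N7 := fun c hc => by
  obtain ⟨g, -, hg⟩ := codesCM (L := gN) (by decide +kernel) c hc
  refine ⟨g, mem_normalizer_zpowers ⟨(4 : ℕ), ?_⟩, hg.1⟩
  exact (zpow_natCast _ _).trans ((canCM.eq_iff (grpCM.pow rep7 4) (grpCM.conj hg rep7)).2
    (by clear * - hc; revert c; decide +kernel))

theorem N7_le : N7 ≤ stabilizer MG trio0 ⊓ stabilizer MG (EG.ofMask 278656) := fun g hg => by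
  constructor
  · have h1 : ∀ T, (∀ s ∈ (Subgroup.zpowers x7 : Set MG), s • T = T) ↔ x7 • T = T := fun (T : Finset (Finset GolayPt)) =>
      ⟨fun h => h _ (Subgroup.mem_zpowers _), fun h _ hs => Subgroup.zpowers_le.2 (mem_stabilizer_iff.2 h) hs⟩
    refine fix_of_unique (S := (Subgroup.zpowers x7 : Set MG)) (U := trios) ?_ trio0_mem ((h1 _).2 ?_)
      (inv_conj_mem_of_normalizer hg) (inv_trios g _ trio0_mem)
    · simp only [h1]
      simpa using (fix_tr rep7.1 1).trans (show _ = 1 by decide +kernel)
    · exact (Keyed.smul_eq_iff rep7.1 trio0_P trio0_P).2 (by decide +kernel)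
  · show g • _ = _
    rw [← fixS_eq rep7.1 (by decide +kernel), ← fixS_conj]
    refine fixS_eq_of_prime (by rw [order7]; norm_num) ((hg x7).1 (Subgroup.mem_zpowers _)) fun e => ?_
    have := order7
    rw [conj_eq_one_iff.1 e, orderOf_one] at this; omega

theorem card_N7 : Nat.card N7 = 126 := by
  refine le_antisymm ((Subgroup.card_le_of_le N7_le).trans ?_)
    (le_card_slp codes_N [0, 1, 4] [[3, 3, 3], [0, 3, 5, 1, 3, 5]] (by decide +kernel))
  exact card_stab_le (a := 512) (le_of_eq_of_le (by decide +kernel) (Keyed.le_ncard_orbit codes_Tr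
    (kSm_P (by decide +kernel)) 600)) (by norm_num) card_Tr.le

theorem card_C7 : Nat.card (Subgroup.centralizer {x7}) = 42 := by
  refine le_antisymm ?_ (le_card_slp (codes_cent (L := gC) rep7.1 (by decide +kernel)) [0, 4] [[1, 3, 1, 1, 3, 3]]
    (by decide +kernel))
  rw [← inf_eq_right.2 (show Subgroup.centralizer {x7} ≤ N7 from centralizer_zpowers x7 ▸
    Subgroup.centralizer_le_normalizer _)]
  exact card_centralizer_le grpCM canCM (CodesIn_CM codes_N (by decide +kernel)) rep7 (fun a => a % 1013) 20
    card_N7 (a := 3) (by norm_num) (by norm_num) (by decide +kernel)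

/-- For a subgroup S of order 7 of the group of the length-24 code (a Sylow 7-subgroup): the normaliser of S has order 126, the centraliser of S has order 42 and is non-abelian, and the whole normaliser leaves some trio invariant. (These are the orders of a Frobenius group of order 21 times a symmetric group of degree 3; the isomorphism type itself is not asserted here.) -/
theorem result (S : Subgroup ↥Cfsg.M24) (hS : Nat.card S = 7) : Nat.card ↥(Subgroup.normalizer (S : Set ↥Cfsg.M24)) = 126 ∧ Nat.card ↥(Subgroup.centralizer (S : Set ↥Cfsg.M24)) = 42 ∧ (∃ x ∈ Subgroup.centralizer (S : Set ↥Cfsg.M24), ∃ y ∈ Subgroup.centralizer (S : Set ↥Cfsg.M24), x * y ≠ y * x) ∧ ∃ T ∈ Cfsg.trios, ∀ n ∈ Subgroup.normalizer (S : Set ↥Cfsg.M24), ((n : ↥Cfsg.M24) : Equiv.Perm Cfsg.GolayPt) • T = T := by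
  obtain ⟨g, -, h⟩ := exists_conj_le_sylow (K := ⊤) (k := 1) (by norm_num : Nat.Prime 7) le_top le_top hS card_top_MG
    (by norm_num) (isPGroup_zpowers (x := x7) (j := 1) (by rw [← order7, pow_one, pow_orderOf_eq_one]))
  have e : (Subgroup.zpowers x7).map (MulAut.conj g).toMonoidHom = S :=
    Subgroup.eq_of_le_of_card_ge (by rintro _ ⟨x, hx, rfl⟩; exact h x hx)
      (by rw [card_map_conj, Nat.card_zpowers, order7, hS])
  have e1 : Subgroup.centralizer (S : Set MG) = (Subgroup.centralizer {x7}).map (MulAut.conj g).toMonoidHom := by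
    rw [← e, MonoidHom.map_zpowers, centralizer_zpowers, map_conj_centralizer]; rfl
  rw [e1, ← e, ← map_conj_normalizer, card_map_conj, card_map_conj]
  refine ⟨card_N7, card_C7, ?_, g • trio0, inv_trios g _ trio0_mem, ?_⟩
  · have h1 := CodesIn_CM (codes_cent (L := gC) rep7.1 (by decide +kernel)) (by decide +kernel)
    obtain ⟨x, hx, h2⟩ := h1 _ List.mem_cons_self
    obtain ⟨y, hy, h3⟩ := h1 _ (List.mem_cons_of_mem _ List.mem_cons_self)
    refine ⟨_, ⟨x, hx, rfl⟩, _, ⟨y, hy, rfl⟩, fun e => ?_⟩
    rw [← map_mul, ← map_mul] at e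
    exact absurd ((commC_iff grpCM canCM h2 h3).1 ((MulAut.conj g).injective e)) (by decide +kernel)
  · rintro _ ⟨n, hn, rfl⟩
    exact conj_mem_stab g (N7_le hn).1

end Cfsg.Agent.S5604
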