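import Cfsg.Statements.S5607
import Cfsg.Agent.Golay.Classes

set_option autoImplicit false
open scoped Pointwise
open Cfsg

namespace Cfsg.Agent.S5607

open Cfsg.Agent.Comp Cfsg.Agent.Golay MulAction
set_option maxRecDepth 100000

/-- For a fixed-point-free involution t of the group of the length-24 code: its centraliser in that group has order 7680, is transitive on the 24 points, and is contained, together with t, in the stabiliser of some sextet. -/
theorem result (t : Equiv.Perm Cfsg.GolayPt) (ht : t ∈ Cfsg.M24) (h₂ : orderOf t = 2) (h₀ : ∀ p, t p ≠ p) : Nat.card {c : Equiv.Perm Cfsg.GolayPt // c ∈ Cfsg.M24 ∧ c * t = t * c} = 7680 ∧ (∀ p q : Cfsg.GolayPt, ∃ c ∈ Cfsg.M24, c * t = t * c ∧ c p = q) ∧ ∃ S ∈ Cfsg.sextets, t • S = S ∧ ∀ c ∈ Cfsg.M24, c * t = t * c → c • S = S := by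
  obtain ⟨k, e⟩ := conj_zB ((orderOf_mk ht).trans h₂) (fixS_eq_empty.2 h₀)
  have e1 := map_conj_centralizer k zB
  rw [e] at e1
  have h1 : ∀ g : MG, g ∈ Subgroup.centralizer {(⟨t, ht⟩ : MG)} ↔ g.1 * t = t * g.1 := fun g =>
    Subgroup.mem_centralizer_singleton_iff.trans Subtype.ext_iff
  have h2 : ∀ c ∈ M24, c * t = t * c → c • k • sext0 = k • sext0 := fun c hc h => by
    obtain ⟨u, hu, e⟩ : (⟨c, hc⟩ : MG) ∈ CB.map (MulAut.conj k).toMonoidHom := e1 ▸ (h1 _).2 h
    have e : k * u * k⁻¹ = ⟨c, hc⟩ := e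
    exact (e ▸ conj_mem_stab k (CB_le hu) : (⟨c, hc⟩ : MG) ∈ stabilizer MG (k • sext0))
  refine ⟨(card_subtype_M24 h1).trans ?_, fun p q => ?_, k • sext0, inv_sextets k _ sext0_mem, h2 t ht rfl, h2⟩
  · rw [← e, card_centralizer_conj, card_CB]
  · have : TrOn CB (Set.univ : Set GolayPt) := trOn_of_le (x := EG.dec 0) (Set.toFinite _) (fun _ _ _ _ => trivial)
      trivial (ncard_univ_pt.trans_le (le_of_eq_of_le (by decide +kernel)
        (Keyed.le_ncard_orbit codes_CB (kPt_P (by norm_num)) 30)))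
    have := this.smul k
    rw [e1, Set.smul_set_univ] at this
    obtain ⟨g, hg, e⟩ := this p trivial q trivial
    exact ⟨g, g.2, (h1 g).1 hg, e⟩

end Cfsg.Agent.S5607
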