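import Cfsg.Statements.S5608
import Cfsg.Agent.Golay.Classes

set_option autoImplicit false
open scoped Pointwise
open Cfsg

namespace Cfsg.Agent.S5608

open Cfsg.Agent.Comp Cfsg.Agent.Golay MulAction
set_option maxRecDepth 100000

theorem key {x z y : MG} (hx : orderOf x = 3) (hy : orderOf y = 3) (k : MG) {N : ℕ}
    (hN : Nat.card (Subgroup.centralizer {z}) = N) (hn : ¬ 3 ^ 2 ∣ N) (hyz : y ∈ Subgroup.centralizer {z})
    (hc : Commute x (k * z * k⁻¹)) : (fixS x).card = (fixS y).card := by
  have h1 : k⁻¹ * x * k⁻¹⁻¹ ∈ Subgroup.centralizer {z} := Subgroup.mem_centralizer_singleton_iff.2 (by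
    rw [show k⁻¹ * x * k⁻¹⁻¹ * z = k⁻¹ * (x * (k * z * k⁻¹)) * k by group, hc.eq]; group)
  obtain ⟨u, -, h2⟩ := exists_conj_mem_sylow (k := 1) (j := 1) Nat.prime_three (Subgroup.zpowers_le.2 hyz)
    ((Nat.card_zpowers y).trans hy) hN hn h1 (by rw [conj_pow, pow_one, ← hx, pow_orderOf_eq_one]; simp)
  rw [← fixS_eq_of_prime (hy ▸ Nat.prime_three) h2 fun e => ?_, fixS_conj, fixS_conj, Finset.card_smul_finset,
    Finset.card_smul_finset]
  rw [conj_eq_one_iff, conj_eq_one_iff] at e
  rw [e, orderOf_one] at hx; omega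

def cy : ℕ := 27772147592506655544479031767057443
noncomputable def yA : MG := elt cy (by decide +kernel)
theorem rep_yA : CM cy yA := ⟨elt_rep _ _, by decide +kernel⟩

/-- If an element of order 3 and an involution of the group of the length-24 code commute, then either the element of order 3 has exactly 6 fixed points and the involution exactly 8, or both are fixed-point-free. -/
theorem result (x s : Equiv.Perm Cfsg.GolayPt) (hx : x ∈ Cfsg.M24) (hs : s ∈ Cfsg.M24) (h₃ : orderOf x = 3) (h₂ : orderOf s = 2) (hc : Commute x s) : ((Finset.univ.filter fun p => x p = p).card = 6 ∧ (Finset.univ.filter fun p => s p = p).card = 8) ∨ ((Finset.univ.filter fun p => x p = p).card = 0 ∧ (Finset.univ.filter fun p => s p = p).card = 0) := by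
  have hc' : Commute (⟨x, hx⟩ : MG) ⟨s, hs⟩ := Subtype.ext hc.eq
  show (fixS ⟨x, hx⟩).card = 6 ∧ (fixS ⟨s, hs⟩).card = 8 ∨ (fixS ⟨x, hx⟩).card = 0 ∧ (fixS ⟨s, hs⟩).card = 0
  rcases inv_cases ((orderOf_mk hs).trans h₂) with ⟨k, e⟩ | ⟨k, e⟩ <;> rw [← e] at hc' ⊢
  · left
    rw [key ((orderOf_mk hx).trans h₃) (orderOf_prime_CM rep_yA Nat.prime_three (by decide +kernel)) k card_CA
      (by norm_num) (Subgroup.mem_centralizer_singleton_iff.2
        ((commC_iff grpCM canCM rep_yA rep_zA).2 (by decide +kernel))) hc', fixS_conj, Finset.card_smul_finset, fixS_zA]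
    exact ⟨rep_yA.1.card_fix.trans (by decide +kernel), oct0_mem.2⟩
  · right
    rw [key ((orderOf_mk hx).trans h₃) order_x3B k card_CB (by norm_num) (Subgroup.mem_centralizer_singleton_iff.2
        ((commC_iff grpCM canCM rep_x3B rep_zB).2 (by decide +kernel))) hc', fixS_conj, Finset.card_smul_finset,
        fixS_zB, fixS_x3B]
    exact ⟨rfl, rfl⟩

end Cfsg.Agent.S5608
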