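import Cfsg.Statements.S5609
import Cfsg.Agent.Golay.Module

set_option autoImplicit false
open scoped Pointwise
open Cfsg

namespace Cfsg.Agent.S5609

theorem adj_iff {a b : octads} : (blockGraph octads).Adj a b ↔ (a.1 ∩ b.1).card = 0 := by
  rw [blockGraph, SimpleGraph.fromRel_adj, Finset.card_eq_zero, ← Finset.disjoint_iff_inter_eq_empty]
  exact ⟨fun h => h.2.elim id fun h => h.symm,
    fun h => ⟨fun e => Golay.ne_of_disjoint_octads a.2 h (congrArg Subtype.val e), Or.inl h⟩⟩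

open scoped Pointwise in
theorem exists_mid {a b : octads} {j k : ℕ} (x y : ℕ) (h : (a.1 ∩ b.1).card = j)
    (hc : Golay.isG x = true ∧ Comp.pc24 x = 8 ∧ Golay.isG y = true ∧ Comp.pc24 y = 8 ∧
      Comp.pc24 (Golay.cO0 &&& x) = j ∧ Comp.pc24 (Golay.cO0 &&& y) = 0 ∧ Comp.pc24 (y &&& x) = k) :
    ∃ c : octads, (a.1 ∩ c.1).card = 0 ∧ (c.1 ∩ b.1).card = k := by
  obtain ⟨h1, h2, h3, h4, h5, h6, h7⟩ := hc
  obtain ⟨g, e1, e2⟩ := Golay.norm_oct_pair a.2 b.2 Golay.oct0_mem (Golay.ofMask_mem_octads h1 h2)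
    (by rw [h, Golay.card_inter24, h5])
  refine ⟨⟨_, Golay.inv_octads g _ (Golay.ofMask_mem_octads h3 h4)⟩, ?_, ?_⟩
  · rw [← e1, Golay.card_smul_inter, Golay.card_inter24, h6]
  · rw [← e2, Golay.card_smul_inter, Golay.card_inter24, h7]

theorem walk4 {a b : octads} (h : (a.1 ∩ b.1).card = 4) : ∃ w : (blockGraph octads).Walk a b, w.length = 2 := by
  obtain ⟨c, h1, h2⟩ := exists_mid (k := 0) 13062145 3704512 h (by decide +kernel)
  exact ⟨.cons (adj_iff.2 h1) (.cons (adj_iff.2 h2) .nil), rfl⟩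

theorem walk2 {a b : octads} (h : (a.1 ∩ b.1).card = 2) : ∃ w : (blockGraph octads).Walk a b, w.length = 3 := by
  obtain ⟨c, h1, h2⟩ := exists_mid (k := 4) 4845570 6889680 h (by decide +kernel)
  obtain ⟨w, hw⟩ := walk4 h2
  exact ⟨.cons (adj_iff.2 h1) w, by simp [hw]⟩

theorem no_mid {a b c : octads} (h : (a.1 ∩ b.1).card = 2) (h1 : (blockGraph octads).Adj a c)
    (h2 : (blockGraph octads).Adj c b) : False := by
  rw [adj_iff, Finset.card_eq_zero, ← Finset.disjoint_iff_inter_eq_empty] at h1 h2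
  have h3 := Golay.card_symmDiff_add a.1 b.1
  have h4 := Golay.card_symmDiff_add (symmDiff a.1 b.1) c.1
  have h5 := Golay.card_supp (Golay.symmDiff_mem_supp (Golay.symmDiff_mem_supp a.2.1 b.2.1) c.2.1)
  have h6 : symmDiff a.1 b.1 ∩ c.1 = ∅ := Finset.disjoint_iff_inter_eq_empty.1
    ((Finset.disjoint_union_left.2 ⟨h1, h2.symm⟩).mono_left symmDiff_le_sup)
  rw [a.2.2, b.2.2] at h3
  rw [h6, c.2.2, Finset.card_empty] at h4
  omega

/-- In the graph on the 759 octads of the length-24 code in which two octads are adjacent when they are disjoint, the graph is connected (of diameter 3) and two distinct octads are at distance 1, 2 or 3 exactly when they meet in 0, 4 or 2 points respectively. -/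
theorem result (o o' : Finset Cfsg.GolayPt) (ho : o ∈ Cfsg.octads) (ho' : o' ∈ Cfsg.octads) (hne : o ≠ o') : (Cfsg.blockGraph Cfsg.octads).Connected ∧ ((Cfsg.blockGraph Cfsg.octads).dist ⟨o, ho⟩ ⟨o', ho'⟩ = 1 ↔ (o ∩ o').card = 0) ∧ ((Cfsg.blockGraph Cfsg.octads).dist ⟨o, ho⟩ ⟨o', ho'⟩ = 2 ↔ (o ∩ o').card = 4) ∧ ((Cfsg.blockGraph Cfsg.octads).dist ⟨o, ho⟩ ⟨o', ho'⟩ = 3 ↔ (o ∩ o').card = 2) := by
  have hr : ∀ a b : octads, (blockGraph octads).Reachable a b := fun a b => by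
    by_cases e : a = b
    · rw [e]
    rcases Golay.inter_octads a.2 b.2 (fun h => e (Subtype.ext h)) with h | h | h
    exacts [(adj_iff.2 h).reachable, (walk2 h).choose.reachable, (walk4 h).choose.reachable]
  have h1 := (SimpleGraph.dist_eq_one_iff_adj (G := blockGraph octads) (u := ⟨o, ho⟩) (v := ⟨o', ho'⟩)).trans adj_iff
  have h0 := (hr ⟨o, ho⟩ ⟨o', ho'⟩).pos_dist_of_ne fun e => hne (congrArg Subtype.val e)
  have h4 : (o ∩ o').card = 4 → (blockGraph octads).dist ⟨o, ho⟩ ⟨o', ho'⟩ = 2 := fun h => by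
    obtain ⟨w, hw⟩ := walk4 (a := ⟨o, ho⟩) (b := ⟨o', ho'⟩) h
    have := SimpleGraph.dist_le w
    simp only at h1
    omega
  have h2 : (o ∩ o').card = 2 → (blockGraph octads).dist ⟨o, ho⟩ ⟨o', ho'⟩ = 3 := fun h => by
    obtain ⟨w, hw⟩ := walk2 (a := ⟨o, ho⟩) (b := ⟨o', ho'⟩) h
    have h5 := SimpleGraph.dist_le w
    have h6 : (blockGraph octads).dist ⟨o, ho⟩ ⟨o', ho'⟩ ≠ 2 := fun e => by
      obtain ⟨w, hw⟩ := (hr ⟨o, ho⟩ ⟨o', ho'⟩).exists_walk_length_eq_dist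
      rw [e] at hw
      rcases w with _ | ⟨a1, _ | ⟨a2, _ | _⟩⟩
      · simp at hw
      · simp at hw
      · exact no_mid h a1 a2
      · simp at hw
    simp only at h1
    omega
  have := Golay.inter_octads ho ho' hne
  simp only at h1
  refine ⟨@SimpleGraph.Connected.mk _ _ hr ⟨⟨o, ho⟩⟩, h1, ⟨fun h => ?_, h4⟩, fun h => ?_, h2⟩ <;> omega

end Cfsg.Agent.S5609
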