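import Cfsg.Statements.S5613
import Cfsg.Agent.Golay.Rank

set_option autoImplicit false
open scoped Pointwise
open Cfsg

namespace Cfsg.Agent.S5613

/-- In the group of the length-24 code, the joint stabiliser of two octads has order 10752, 1152 or 720 according as the octads meet in 0, 4 or 2 points. -/
theorem result (o o' : Finset Cfsg.GolayPt) (ho : o ∈ Cfsg.octads) (ho' : o' ∈ Cfsg.octads) : ((o ∩ o').card = 0 → Nat.card ↥(MulAction.stabilizer Cfsg.M24 o ⊓ MulAction.stabilizer Cfsg.M24 o') = 10752) ∧ ((o ∩ o').card = 4 → Nat.card ↥(MulAction.stabilizer Cfsg.M24 o ⊓ MulAction.stabilizer Cfsg.M24 o') = 1152) ∧ ((o ∩ o').card = 2 → Nat.card ↥(MulAction.stabilizer Cfsg.M24 o ⊓ MulAction.stabilizer Cfsg.M24 o') = 720) := by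
  have h := Golay.rank_oo ho
  have hK : Nat.card (MulAction.stabilizer Golay.MG o) = 322560 := by
    obtain ⟨g, rfl⟩ := Golay.octad_transM Golay.oct0_mem ho
    rw [Comp.card_stabilizer_smul, Golay.card_Oct]
  have hinv : ∀ g ∈ MulAction.stabilizer Golay.MG o, ∀ x ∈ octads, True →
      g • x ∈ octads ∧ True ∧ (o ∩ g • x).card = (o ∩ x).card :=
    fun g hg x hx _ => ⟨Golay.inv_octads g x hx, trivial, Golay.card_inter_of_stab hg x⟩
  exact ⟨fun e => h.card_inf hinv ho' trivial (n := 30) (by simp) e (by norm_num) hK,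
    fun e => h.card_inf hinv ho' trivial (n := 280) (by simp) e (by norm_num) hK,
    fun e => h.card_inf hinv ho' trivial (n := 448) (by simp) e (by norm_num) hK⟩

end Cfsg.Agent.S5613
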