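import Cfsg.Statements.S5614
import Cfsg.Agent.Golay.Stab

set_option autoImplicit false
open scoped Pointwise
open Cfsg

namespace Cfsg.Agent.S5614

open Cfsg.Agent.Comp Cfsg.Agent.Golay MulAction
set_option maxRecDepth 100000

/-- In the group of the length-24 code, the joint stabiliser of two octads meeting in exactly two points is isomorphic to the symmetric group of degree 6. -/
theorem result (o o' : Finset Cfsg.GolayPt) (ho : o ∈ Cfsg.octads) (ho' : o' ∈ Cfsg.octads) (h₂ : (o ∩ o').card = 2) : Nonempty (↥(MulAction.stabilizer Cfsg.M24 o ⊓ MulAction.stabilizer Cfsg.M24 o') ≃* Equiv.Perm (Fin 6)) := by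
  have h1 : EG.ofMask 4845570 ∈ octads := ofMask_mem_octads (by decide +kernel) (by decide +kernel)
  have h2 : (oct0 ∩ EG.ofMask 4845570).card = 2 := by rw [EG.card_inter_ofMask]; decide +kernel
  obtain ⟨g, rfl, rfl⟩ := norm_oct_pair ho ho' oct0_mem h1 (h₂.trans h2.symm)
  have h3 : Nat.card ↥(stabilizer MG oct0 ⊓ stabilizer MG (EG.ofMask 4845570)) = 720 :=
    (rank_oo oct0_mem).card_inf (fun g hg x hx _ => ⟨inv_octads g x hx, trivial, card_inter_of_stab hg x⟩) h1 trivial
      (k := 2) (n := 448) (by simp) h2 (by norm_num) card_Oct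
  obtain ⟨e⟩ := equiv_perm_of_restr (K := stabilizer MG oct0 ⊓ stabilizer MG (EG.ofMask 4845570))
    (S := EG.ofMask (cO0 ^^^ (cO0 &&& 4845570))) (fun g hg => by
      rw [EG.ofMask_sdiff, ← smul_sdiff', mem_stabilizer_iff.1 hg.1, mem_stabilizer_iff.1 hg.2])
    (faith_of_chainK kPt (fun a => a) 30 [0, 2, 5, 3, 17] (pts_mem (by decide +kernel))
      ((codesOct (L := [726075268152137572429320894380345792, 731556738375112182834129148299675680,
        975285393183670318098431536273721792, 975025527986358358104327276883678656,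
        17249816418372312317455396877011409]) (by decide +kernel)).stab kMask (kMask_P (by norm_num))
        (by decide +kernel)) h3 (by decide +kernel)) (n := 6) (by rw [card_ofMask24]; decide +kernel) h3
  exact ⟨(conjEquiv g (by rw [map_conj_inf, map_conj_stabilizer, map_conj_stabilizer])).symm.trans e⟩

end Cfsg.Agent.S5614
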