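import Cfsg.Statements.S5615
import Cfsg.Agent.Golay.Fix

set_option autoImplicit false
open scoped Pointwise
open Cfsg

namespace Cfsg.Agent.S5615

/-- An octad of the length-24 code lies in exactly 15 trios; the stabiliser of the octad in the code's group acts doubly transitively on these 15 trios, and the kernel of this action is the pointwise stabiliser of the octad. -/
theorem result (o : Finset Cfsg.GolayPt) (ho : o ∈ Cfsg.octads) : {T : Finset (Finset Cfsg.GolayPt) | T ∈ Cfsg.trios ∧ o ∈ T}.ncard = 15 ∧ (∀ T₁ T₂ T₁' T₂' : Finset (Finset Cfsg.GolayPt), T₁ ∈ Cfsg.trios → T₂ ∈ Cfsg.trios → T₁' ∈ Cfsg.trios → T₂' ∈ Cfsg.trios → o ∈ T₁ → o ∈ T₂ → o ∈ T₁' → o ∈ T₂' → T₁ ≠ T₂ → T₁' ≠ T₂' → ∃ g ∈ Cfsg.M24, g • o = o ∧ g • T₁ = T₁' ∧ g • T₂ = T₂') ∧ ∀ g ∈ Cfsg.M24, g • o = o → ((∀ T ∈ Cfsg.trios, o ∈ T → g • T = T) ↔ ∀ p ∈ o, g p = p) := by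
  have h1 := Golay.rank_oct_tr ho
  refine ⟨by simpa using h1.cnt 0 15, fun T₁ T₂ T₁' T₂' a1 a2 a3 a4 b1 b2 b3 b4 c1 c2 => ?_,
    fun g hg h => Golay.fixOct_iff_trios ho (k := ⟨g, hg⟩) h⟩
  obtain ⟨g, hg, rfl⟩ := h1.2.2 _ a1 _ a3 b1 b3 rfl
  obtain ⟨k, hk, rfl⟩ := (Golay.rank_oct_tr2 ho a3 b3).2.2 _ (Golay.inv_trios g _ a2) _ a4
    ⟨(Golay.mem_smul_of_stab hg _).2 b2, fun e => c1 (MulAction.injective g e).symm⟩ ⟨b4, c2.symm⟩ rfl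
  refine ⟨(k * g : Golay.MG), (k * g).2, ?_, ?_, mul_smul k g T₂⟩
  · exact (MulAction.stabilizer Golay.MG o).mul_mem hk.1 hg
  · exact (mul_smul k g T₁).trans hk.2

end Cfsg.Agent.S5615
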