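import Cfsg.Statements.S5619
import Cfsg.Agent.Golay.Stab

set_option autoImplicit false
open scoped Pointwise
open Cfsg

namespace Cfsg.Agent.S5619

open Cfsg.Agent.Comp Cfsg.Agent.Golay Cfsg.Agent.Known MulAction
set_option maxRecDepth 100000

abbrev K9 : Subgroup MG := D0 ⊓ stabilizer MG (EG.dec 1) ⊓ stabilizer MG (EG.dec 2)

theorem codes {L : List ℕ} (h : band (band (band (band (allL L inM24)
    (allL L fun c => Nat.beq (kCw.key (kCw.act c cD)) (kCw.key cD)))
    (band (Nat.blt 0 24) (allL L fun c => Nat.beq (get24 c 0) 0))) (band (Nat.blt 1 24) (allL L fun c => Nat.beq (get24 c 1) 1)))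
    (band (Nat.blt 2 24) (allL L fun c => Nat.beq (get24 c 2) 2)) = true) : CodesIn RM L K9 := by
  rw [band_eq, Bool.and_eq_true, band_eq (band ..), Bool.and_eq_true, band_eq (band ..), Bool.and_eq_true] at h
  exact (((codesDod h.1.1.1).pt 0 h.1.1.2).pt 1 h.1.2).pt 2 h.2

theorem card9 : Nat.card K9 = 72 := by
  rw [← card_dod_fix (T := {EG.dec 0, EG.dec 1, EG.dec 2}) (k := 3) (n := 72) (by decide +kernel) rfl (by norm_num) rfl]
  congr 3; ext g; simp [mem_fixF, and_assoc]

theorem card8 : Nat.card ↥(K9 ⊓ stabilizer MG (EG.dec 3)) = 8 := by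
  rw [← card_dod_fix (T := {EG.dec 0, EG.dec 1, EG.dec 2, EG.dec 3}) (k := 4) (n := 8) (by decide +kernel) rfl
    (by norm_num) rfl]
  congr 3; ext g; simp [mem_fixF, and_assoc]

theorem quat : Nonempty (↥(K9 ⊓ stabilizer MG (EG.dec 3)) ≃* QuaternionGroup 2) := by
  have hL := (codes (L := [609271311764373893382231684089481248, 719923664328491199848526586197411872]) (by decide +kernel)).pt 3 (by decide +kernel)
  have h : Nat.card (QuaternionGroup 2) = 8 := by rw [Nat.card_eq_fintype_card, QuaternionGroup.card]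
  exact equiv_of_surj (exists_surj_of_tabs kPt funcRM hL (closureM hL [4] [] card8 (by decide +kernel))
    (N := 8) (vs := nthL 0 [4, 16, 12, 8, 6, 18, 9, 13]) (act := tabA 3 7 [14053585, 2207660])
    (hv_nthL (fun a ha => ⟨EG.dec a, kPt_P (by revert a; decide)⟩) rfl) (inj_of_nodupL (by decide +kernel))
    (by decide +kernel) h (by norm_num) [[0], [1]] [0] (by decide +kernel) (toPermHom _ (QuaternionGroup 2))
    (fun i => if i < 4 then .a i else .xa (i - 4 : ℕ)) (fun j => if j = 0 then .a 1 else .xa 0) (by decide +kernel)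
    (by decide +kernel)) (card8.trans h.symm)

theorem aux {K : Type*} [Group K] (e : K9 ≃* K) : (∀ Q : Sylow 3 K, (Q : Subgroup K).Normal ∧ Nat.card Q = 9 ∧
    ∀ x ∈ (Q : Subgroup K), x ^ 3 = 1) ∧ ∀ P : Sylow 2 K, Nonempty (P ≃* QuaternionGroup 2) := by
  have hK := (Nat.card_congr e.toEquiv).symm.trans card9
  have : Finite K := Nat.finite_of_card_ne_zero (by omega)
  refine ⟨fun Q => ?_, fun P => ?_⟩
  · have hL := codes (L := [898742143189044893377746329054414880, 796025918939784314627536738561984544]) (by decide +kernel)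
    obtain ⟨M, h1, h2, h3⟩ := exists_normal_congr e (exists_normal_of_trans par24 (N := 9) (k := 3)
      [(3, [984818244535754528103549039458486304, 928718206277989008510816407558424608, 487607080158395075740321133224921120, 928952864966028496604741530750814240, 487655643029606470073469406179395616, 984534996141977609297800625156032544, 487373122709212905255923294881187872, 984769902586367543974814854303385632, 929000492124499343650182431580424224])]
      (closureM hL [3, 4] [[3, 1], [1, 5, 0, 4, 0, 4]] card9 (by decide +kernel)) (codes (by decide +kernel)) (by decide +kernel))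
    obtain ⟨g, hg⟩ := exists_conj_sylow (k := 2) h2 hK (by norm_num) Q
    rw [← hg, MulEquiv.toMonoidHom_eq_coe, Subgroup.Normal.map_conj_eq]
    exact ⟨h1, h2, h3⟩
  · obtain ⟨e1⟩ := quat
    let e2 := (Subgroup.subgroupOfEquivOfLe (inf_le_left : K9 ⊓ stabilizer MG (EG.dec 3) ≤ K9)).symm.trans (e.subgroupMap _)
    obtain ⟨g, hg⟩ := exists_conj_sylow (k := 3) ((Nat.card_congr e2.toEquiv).symm.trans card8) hK (by norm_num) P
    exact ⟨(conjEquiv g hg).symm.trans (e2.symm.trans e1)⟩


/-- In the group of the length-24 code, the subgroup fixing a dodecad setwise and three of its points individually (a group of order 72) has a normal Sylow 3-subgroup that is elementary abelian of order 9, and its Sylow 2-subgroups are quaternion of order 8. -/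
theorem result (d : Finset Cfsg.GolayPt) (hd : d ∈ Cfsg.dodecads) (p q r : Cfsg.GolayPt) (hp : p ∈ d) (hq : q ∈ d) (hr : r ∈ d) (hpq : p ≠ q) (hpr : p ≠ r) (hqr : q ≠ r) : (∀ Q : Sylow 3 ↥(MulAction.stabilizer Cfsg.M24 d ⊓ MulAction.stabilizer Cfsg.M24 p ⊓ MulAction.stabilizer Cfsg.M24 q ⊓ MulAction.stabilizer Cfsg.M24 r), (Q : Subgroup ↥(MulAction.stabilizer Cfsg.M24 d ⊓ MulAction.stabilizer Cfsg.M24 p ⊓ MulAction.stabilizer Cfsg.M24 q ⊓ MulAction.stabilizer Cfsg.M24 r)).Normal ∧ Nat.card ↥Q = 9 ∧ ∀ x ∈ (Q : Subgroup ↥(MulAction.stabilizer Cfsg.M24 d ⊓ MulAction.stabilizer Cfsg.M24 p ⊓ MulAction.stabilizer Cfsg.M24 q ⊓ MulAction.stabilizer Cfsg.M24 r)), x ^ 3 = 1) ∧ ∀ P : Sylow 2 ↥(MulAction.stabilizer Cfsg.M24 d ⊓ MulAction.stabilizer Cfsg.M24 p ⊓ MulAction.stabilizer Cfsg.M24 q ⊓ MulAction.stabilizer Cfsg.M24 r), Nonempty (↥P ≃* QuaternionGroup 2) := by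
  obtain ⟨g, rfl, rfl, rfl, rfl⟩ := norm_dod_in3 hd hp hq hr hpq hpr hqr
  exact aux (conjEquiv g (by simp only [map_conj_inf, map_conj_stabilizer]; rfl))

end Cfsg.Agent.S5619
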