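import Cfsg.Statements.S5620
import Cfsg.Agent.Golay.Fix

set_option autoImplicit false
open scoped Pointwise
open Cfsg

namespace Cfsg.Agent.S5620

/-- Inside the stabiliser of the dodecad of squares (a Mathieu group of degree 12), the stabiliser of the residue 0 (a point of the dodecad) and the stabiliser of the extra point (a point outside the dodecad) are isomorphic but not conjugate; conjugation by a suitable element of the code's group that maps the dodecad of squares onto its complement carries the first onto the second. -/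
theorem result : Nonempty (↥(Cfsg.Spor.M12 ⊓ MulAction.stabilizer (Equiv.Perm Cfsg.GolayPt) (none : Cfsg.GolayPt)) ≃* ↥Cfsg.Spor.M11) ∧ (¬ ∃ k ∈ Cfsg.Spor.M12, MulAut.conj k • Cfsg.Spor.M11 = Cfsg.Spor.M12 ⊓ MulAction.stabilizer (Equiv.Perm Cfsg.GolayPt) (none : Cfsg.GolayPt)) ∧ ∃ g ∈ Cfsg.M24, g • Cfsg.Spor.squareDodecad = Finset.univ \ Cfsg.Spor.squareDodecad ∧ MulAut.conj g • Cfsg.Spor.M11 = Cfsg.Spor.M12 ⊓ MulAction.stabilizer (Equiv.Perm Cfsg.GolayPt) (none : Cfsg.GolayPt) := by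
  obtain ⟨g, hg, e1, e2⟩ := Golay.dodecad_point_trans (Golay.compl_mem_dodecads Golay.squareDodecad_mem) (p := none)
    (by rw [Golay.compl_squareDodecad_eq]; decide +kernel)
  have e3 : g⁻¹ • Spor.squareDodecad = Spor.squareDodecadᶜ := inv_smul_eq_iff.2 e1.symm
  have e4 : g⁻¹ • (some 0 : GolayPt) = none := inv_smul_eq_iff.2 e2.symm
  have key : ∀ k ∈ M24, MulAut.conj k • Spor.M11 = M24 ⊓ MulAction.stabilizer _ (k • Spor.squareDodecad) ⊓
      MulAction.stabilizer _ (k • (some 0 : GolayPt)) := fun k hk => by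
    show Spor.M11.map (MulAut.conj k).toMonoidHom = _
    rw [Spor.M11, Spor.M12, Comp.map_conj_inf, Comp.map_conj_inf, Comp.map_conj_self hk, Comp.map_conj_stabilizer,
      Comp.map_conj_stabilizer]
  have h1 : MulAut.conj g⁻¹ • Spor.M11 =
      Spor.M12 ⊓ MulAction.stabilizer (Equiv.Perm GolayPt) (none : GolayPt) := by
    rw [key _ (M24.inv_mem hg), e3, e4, Spor.M12]
    refine congrArg (fun H => M24 ⊓ H ⊓ _) (Subgroup.ext fun x => ?_)
    rw [MulAction.mem_stabilizer_iff, MulAction.mem_stabilizer_iff, ← Golay.smul_compl', compl_inj_iff]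
  refine ⟨⟨(Comp.conjEquiv g⁻¹ h1).symm⟩, ?_, g⁻¹, M24.inv_mem hg, e3, h1⟩
  rintro ⟨k, hk, e⟩
  have hn : (none : GolayPt) ∈ Golay.D12' := by
    rw [Golay.D12', Golay.compl_squareDodecad_eq]; decide +kernel
  have ha := Golay.invar12' _ (Spor.M12.inv_mem hk) _ hn
  obtain ⟨b, hb1, hb2⟩ : ∃ b ∈ Golay.D12', b ∉ ({k⁻¹ • none} : Set GolayPt) := by
    refine Set.exists_mem_notMem_of_ncard_lt_ncard ?_ (Set.toFinite _)
    rw [Golay.ncard_D12']; simp
  obtain ⟨x, hx, e1⟩ := (Golay.trans11'.mono (j := 1) (by norm_num) (by rw [Golay.ncard_D12']; norm_num)).one ha hb1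
  have : k * x * k⁻¹ ∈ MulAut.conj k • Spor.M11 := ⟨x, hx, rfl⟩
  rw [e] at this
  have h2 : k • x • k⁻¹ • (none : GolayPt) = none := this.2
  rw [e1] at h2
  exact hb2 (eq_inv_smul_iff.2 h2)

end Cfsg.Agent.S5620
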