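import Cfsg.Statements.S5624
import Cfsg.Agent.Golay.AbsGolay

set_option autoImplicit false
open Cfsg

namespace Cfsg.Agent.S5624

/-- Let C be a self-dual binary code of length 24 with minimum weight at least 8 (a 12-dimensional subspace of the 24-dimensional space over the field with two elements, any two of whose words have dot product zero, with no non-zero word of weight below 8 — an abstract extended binary Golay code). Then C is spanned, as a vector space over the field with two elements, by its words of weight 8. -/
theorem result (C : Submodule (ZMod 2) (Fin 24 → ZMod 2)) (hdim : Module.finrank (ZMod 2) C = 12) (horth : ∀ v ∈ C, ∀ w ∈ C, ∑ i, v i * w i = 0) (hmin : ∀ w ∈ C, w ≠ 0 → 8 ≤ hammingNorm w) : Submodule.span (ZMod 2) {w : Fin 24 → ZMod 2 | w ∈ C ∧ hammingNorm w = 8} = C := by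
  obtain ⟨e, h⟩ := Golay.exists_equiv_golay (by simp) hdim (Golay.even_of_orth horth) hmin
  refine le_antisymm (Submodule.span_le.2 fun _ h => h.1) fun w hw => ?_
  have h1 := (h fun p => w (e.symm p)).2 (by simpa using hw)
  rw [← Golay.span_octads] at h1
  have h2 := Submodule.apply_mem_span_image_of_mem_span (LinearMap.funLeft (ZMod 2) (ZMod 2) e) h1
  have h3 : LinearMap.funLeft (ZMod 2) (ZMod 2) e (fun p => w (e.symm p)) = w := by funext i; simp
  rw [h3] at h2
  refine Submodule.span_mono ?_ h2
  rintro _ ⟨v, hv, rfl⟩
  exact ⟨(h v).1 hv.1, (Golay.hammingNorm_comp_equiv e v).trans hv.2⟩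

end Cfsg.Agent.S5624
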