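import Cfsg.Statements.S5625
import Cfsg.Agent.Comp.Steiner

set_option autoImplicit false
open Cfsg

namespace Cfsg.Agent.S5625

/-- In any Steiner system S(5, 8, 24) and for any set Y of three points, the blocks meeting Y in exactly 3, 2, 1 and 0 points number 21, 168, 360 and 210 respectively (so there are 759 blocks in all). -/
theorem result (α : Type*) [Fintype α] [DecidableEq α] (hα : Fintype.card α = 24) (B : Set (Finset α)) (hB : Cfsg.IsSteinerSystem 5 8 B) (Y : Finset α) (hY : Y.card = 3) : {b : Finset α | b ∈ B ∧ (b ∩ Y).card = 3}.ncard = 21 ∧ {b : Finset α | b ∈ B ∧ (b ∩ Y).card = 2}.ncard = 168 ∧ {b : Finset α | b ∈ B ∧ (b ∩ Y).card = 1}.ncard = 360 ∧ {b : Finset α | b ∈ B ∧ (b ∩ Y).card = 0}.ncard = 210 := by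
  have key : ∀ j ≤ 3, {b : Finset α | b ∈ B ∧ (b ∩ Y).card = j}.ncard =
      Nat.choose 3 j * Comp.Steiner.tri (Comp.Steiner.lam 24 8 5) j (3 - j) := fun j hj => by
    classical
    rw [Set.ncard_eq_toFinset_card' , Finset.card_eq_sum_card_fiberwise (f := fun b => b ∩ Y) (t := Y.powersetCard j)
      (fun b hb => by
        simp only [Set.coe_toFinset, Set.mem_ofPred_eq] at hb
        simp [hb.2]), ← hY, ← Finset.card_powersetCard, ← smul_eq_mul, ← Finset.sum_const]
    refine Finset.sum_congr rfl fun I hI => ?_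
    rw [Finset.mem_powersetCard] at hI
    have h1 : (Y \ I).card = Y.card - j := by rw [Finset.card_sdiff_of_subset hI.1, hI.2]
    rw [← hα, ← h1, ← hI.2, ← Comp.Steiner.cnt_eq_tri_of_le hB (by norm_num) (by omega) Finset.disjoint_sdiff,
      Comp.Steiner.cnt]
    congr 1; ext b
    simp only [Finset.mem_filter, Set.mem_toFinset, Set.mem_ofPred_eq, Comp.Steiner.mem_blk]
    constructor
    · rintro ⟨⟨h, -⟩, rfl⟩
      exact ⟨h, Finset.inter_subset_left, by simp [Finset.disjoint_left]⟩
    · rintro ⟨h, h2, h3⟩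
      have : b ∩ Y = I := by
        ext a
        have := fun h => Finset.disjoint_left.1 h3 (show a ∈ Y \ I from h)
        simp only [Finset.mem_inter, Finset.mem_sdiff] at this ⊢
        exact ⟨fun h => by by_contra hn; exact this ⟨h.2, hn⟩ h.1, fun h => ⟨h2 h, hI.1 h⟩⟩
      exact ⟨⟨h, by rw [this]⟩, this⟩
  rw [key 3 (by norm_num), key 2 (by norm_num), key 1 (by norm_num), key 0 (by norm_num)]
  decide +kernel

end Cfsg.Agent.S5625
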