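import Cfsg.Statements.S5628
import Cfsg.Agent.Golay.Plane

set_option autoImplicit false
open Cfsg

namespace Cfsg.Agent.S5628

open scoped Pointwise

/-- In a projective plane of order 4 (a Steiner system S(2, 5, 21)), every permutation of the six points of a hyperoval (a 6-set met by no line in more than two points) is the restriction of exactly one automorphism of the plane. In particular the stabiliser of a hyperoval in the automorphism group is isomorphic to the symmetric group of degree 6 acting faithfully on the hyperoval. -/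
theorem result {α : Type*} [Fintype α] [DecidableEq α] (hα : Fintype.card α = 21) (L : Set (Finset α)) (hL : Cfsg.IsSteinerSystem 2 5 L) (H : Finset α) (hH : (H.card = 6 ∧ ∀ l ∈ L, (l ∩ H).card ≤ 2)) (σ : Equiv.Perm ↥H) : ∃! g : Equiv.Perm α, g ∈ Cfsg.setSystemAut L ∧ ∀ p : ↥H, g p = σ p := by
  obtain ⟨E, rfl⟩ := Golay.uniq21 hα hL
  have hH' : H ∈ Comp.sysOf E Golay.lHyp := Golay.hyp_eq E ▸ hH
  let K := setSystemAut (Comp.sysOf E Golay.l21) ⊓ MulAction.stabilizer (Equiv.Perm α) H
  let φ := Comp.restrHom K H fun g hg => hg.2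
  have hinj : Function.Injective φ := (injective_iff_map_eq_one φ).2 fun g hg =>
    Subtype.ext (Golay.eq_one_of_fix_hyp E hH' g.2.1 (Comp.mem_ker_restrHom.1 hg))
  have hb : Function.Bijective φ := (Nat.bijective_iff_injective_and_card φ).2 ⟨hinj, by
    rw [Golay.card_stab_hyp E hH', Nat.card_perm, Nat.card_eq_fintype_card, Fintype.card_coe, hH.1]; rfl⟩
  obtain ⟨g, rfl⟩ := hb.2 σ
  refine ⟨g, ⟨g.2.1, fun p => rfl⟩, fun g' ⟨h1, h2⟩ => ?_⟩
  have h3 : g' ∈ K := ⟨h1, Comp.smul_eq_of_mapsTo fun a ha => by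
    rw [Equiv.Perm.smul_def, h2 ⟨a, ha⟩]; exact (φ g ⟨a, ha⟩).2⟩
  exact congrArg Subtype.val (hinj (a₁ := ⟨g', h3⟩) (Equiv.ext fun p => Subtype.ext (h2 p)))

end Cfsg.Agent.S5628
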