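import Cfsg.Statements.S5632
import Cfsg.Agent.Asch.NM2

set_option autoImplicit false
open Cfsg

namespace Cfsg.Agent.S5632

/-- For a finite field F and subspaces 0 < W < U of F^n with dim W + dim U = n, the elements of SL_n(F) stabilising both W and U form a subgroup that is not maximal in SL_n(F): some subgroup lies strictly between it and SL_n(F). -/
theorem result {F : Type*} [Field F] [Fintype F] (n : ℕ) (W U : Submodule F (Fin n → F)) (hW0 : W ≠ ⊥) (hWU : W < U) (hdim : Module.finrank F W + Module.finrank F U = n) : ∃ K : Subgroup (Matrix.GeneralLinearGroup (Fin n) F), Cfsg.Geo.subspaceStabilizer W ⊓ Cfsg.Geo.subspaceStabilizer U ⊓ Cfsg.Geo.specialLinear (Fin n) F < K ∧ K < Cfsg.Geo.specialLinear (Fin n) F := by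
  have h1 := Submodule.finrank_lt_finrank_of_lt hWU
  have h2 := Submodule.one_le_finrank_iff.2 hW0
  obtain ⟨u, h3, h4⟩ := SetLike.exists_of_lt hWU
  obtain ⟨w, -, h5⟩ := Root.Mx.exists_notMem_of_lt (U := ⊤) (R := U) (by simp; omega)
  obtain ⟨g, hg, h6, c, hc, h7⟩ := Asch.exists_transv_sl (W := W) (u := u) (w := w) fun h => by
    obtain ⟨x, hx, y, hy, rfl⟩ := Submodule.mem_sup.1 h
    obtain ⟨c, rfl⟩ := Submodule.mem_span_singleton.1 hy
    by_cases hc : c = 0
    · exact h4 (by simpa [hc] using hx)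
    · exact h5 ((U.smul_mem_iff hc).1 (by simpa using sub_mem h3 (hWU.le hx)))
  refine Asch.between (inf_le_left.trans inf_le_left) ((Asch.qs_sl (by omega)).not_le_stab hW0
    hWU.ne_top) hg (Asch.mem_stab fun x hx => by rwa [h6 x hx]) fun h => h5 ?_
  simpa [h7, U.smul_mem_iff hc] using sub_mem ((Asch.mem_subspaceStabilizer.1 h.2 u).1 h3) h3

end Cfsg.Agent.S5632
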