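import Cfsg.Statements.S5633
import Cfsg.Agent.Asch.NM2

set_option autoImplicit false
open Cfsg

namespace Cfsg.Agent.S5633

/-- For a finite field F and complementary non-zero subspaces W ⊕ U = F^n with dim W < dim U, the elements of SL_n(F) stabilising both W and U form a subgroup that is not maximal in SL_n(F): some subgroup lies strictly between it and SL_n(F). -/
theorem result {F : Type*} [Field F] [Fintype F] (n : ℕ) (W U : Submodule F (Fin n → F)) (hW0 : W ≠ ⊥) (hWU : W ⊓ U = ⊥) (hWU' : W ⊔ U = ⊤) (hdim : Module.finrank F W < Module.finrank F U) : ∃ K : Subgroup (Matrix.GeneralLinearGroup (Fin n) F), Cfsg.Geo.subspaceStabilizer W ⊓ Cfsg.Geo.subspaceStabilizer U ⊓ Cfsg.Geo.specialLinear (Fin n) F < K ∧ K < Cfsg.Geo.specialLinear (Fin n) F := by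
  have h1 := Submodule.finrank_sup_add_finrank_inf_eq W U
  have h2 := Submodule.one_le_finrank_iff.2 hW0
  rw [hWU, hWU'] at h1
  simp only [finrank_top, Module.finrank_fin_fun, finrank_bot] at h1
  obtain ⟨u, h3, h4⟩ := Root.Mx.exists_notMem_of_lt (U := U) (R := W) hdim
  obtain ⟨w, h5, h8⟩ := (Submodule.ne_bot_iff _).1 hW0
  obtain ⟨g, hg, h6, c, hc, h7⟩ := Asch.exists_transv_sl (W := W) (u := u) (w := w) (by
    rwa [sup_eq_left.2 ((Submodule.span_singleton_le_iff_mem _ _).2 h5)])
  refine Asch.between (inf_le_left.trans inf_le_left) ((Asch.qs_sl (by omega)).not_le_stab hW0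
    (by rintro rfl; exact h4 trivial)) hg (Asch.mem_stab fun x hx => by rwa [h6 x hx]) fun h => h8 ?_
  refine (Submodule.eq_bot_iff _).1 hWU w ⟨h5, ?_⟩
  simpa [h7, U.smul_mem_iff hc] using sub_mem ((Asch.mem_subspaceStabilizer.1 h.2 u).1 h3) h3

end Cfsg.Agent.S5633
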