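import Cfsg.Statements.S5644
import Cfsg.Agent.Root.Max2

set_option autoImplicit false
open Cfsg

namespace Cfsg.Agent.S5644
open Cfsg.Agent.Root

/-- For a finite field F of odd order and n ≥ 13, let Q be a non-degenerate quadratic form on F^n (its polar form is non-degenerate). Then the elements of SL_n(F) that are similarities of Q (Q(gv) = c Q(v) for a non-zero scalar c depending on g) form a maximal subgroup of SL_n(F). -/
theorem result {F : Type*} [Field F] [Fintype F] (n : ℕ) (hn : 13 ≤ n) (hodd : Odd (Fintype.card F)) (Q : (Fin n → F) → F) (hQ : Cfsg.Geo.IsNondegenerateQuadraticForm Q) : Cfsg.Geo.IsMaximalIn (Cfsg.Geo.specialLinear (Fin n) F) (Cfsg.Geo.quadSimilarityGroup Q ⊓ Cfsg.Geo.specialLinear (Fin n) F) := by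
  obtain ⟨Q, rfl, h1⟩ := Mx.exists_quad hQ
  have h2 : (2 : F) ≠ 0 := fun h => by
    have := FiniteField.even_card_iff_char_two.1 (ringChar.eq_iff.2 (CharTwo.of_one_ne_zero_of_two_eq_zero one_ne_zero h))
    exact absurd (Nat.odd_iff.1 hodd) (by omega)
  refine Mx.isMaximalIn_of_equiv (Geom.glEquiv _ F) (fun g => Mx.mem_specialLinear) (fun g => ?_)
    (Mx.isMaximalIn_simB h1 (by simp; omega))
  refine and_congr (exists_congr fun c => ⟨fun h u v => ?_, fun h v => ?_⟩) Mx.mem_specialLinear
  · simp only [Geom.ofQuad_B_apply, QuadraticMap.polar, Geom.glEquiv_apply, ← Matrix.mulVec_add, h]; ring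
  · have := h v v
    simp only [Geom.ofQuad_B_apply, Geom.polar_self', Geom.glEquiv_apply] at this
    exact mul_left_cancel₀ h2 (by linear_combination this)

end Cfsg.Agent.S5644
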