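import Cfsg.Statements.S5657
import Cfsg.Agent.Root.Max3

set_option autoImplicit false
open Cfsg

namespace Cfsg.Agent.S5657
open Cfsg.Agent.Root

open Cfsg.Agent.Geom Mx

/-- Let F be the field with q² elements and n = 2k ≥ 13. Let D be a decomposition of F^n into two complementary subspaces of dimension k on each of which the standard unitary form vanishes identically. Then the elements of SU_n(q) preserving or interchanging the two subspaces form a maximal subgroup of SU_n(q). -/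
theorem result {F : Type*} [Field F] [Fintype F] (n q : ℕ) (hF : Fintype.card F = q ^ 2) (hn : 13 ≤ n) (k : ℕ) (hk : 2 * k = n) (D : Fin 2 → Submodule F (Fin n → F)) (hD : Cfsg.Geo.IsMDecomposition k D) (hts : ∀ i, Cfsg.Geo.IsTotallySingularFor (Cfsg.hermForm n F q) (D i)) : Cfsg.Geo.IsMaximalIn (Cfsg.GU n F q ⊓ Cfsg.Geo.specialLinear (Fin n) F) (Cfsg.Geo.decompositionStabilizer D ⊓ (Cfsg.GU n F q ⊓ Cfsg.Geo.specialLinear (Fin n) F)) := by
  have ht : ∀ i, (hermFormed hF n).TotSing (D i) := fun i =>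
    ⟨fun x hx y hy => hts i y hy x hx, fun _ _ => rfl⟩
  refine isMaximalIn_inf (glEquiv _ F)
    (isMaximalIn_tsPair (hermFormed_nondeg hF n) (notSp2_of_ne (frobq_ne_id hF))
      (by simp; omega) (dec_of hD) ht ?_) (fun g => mem_suGL hF (by omega)) fun g => Iff.rfl
  rw [EG_herm hF (by omega)]
  obtain ⟨⟨s, hs, s0, s1⟩, e, he, f, hf, hp⟩ := exists_swap (hermFormed_nondeg hF n) (dec_of hD) ht
  obtain ⟨c, hc0, hc⟩ := exists_hilb (frobq_ne_id hF) (frobq_frobq hF) (det_herm hF hs)
  have := torus_mem (ht 0) (ht 1) he hf hp (Units.mk0 c hc0)⁻¹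
  refine ⟨(hp.torus (Units.mk0 c hc0)⁻¹).1 * s, ⟨Subgroup.mul_mem _ (hp.torus _).2 hs, mem_SLg.2 ?_⟩,
    fun x hx => this.2 _ (s0 x hx), fun x hx => this.1 _ (s1 x hx)⟩
  rw [LinearEquiv.coe_toLinearMap_mul, map_mul, hp.det_torus]
  simp only [Units.val_inv_eq_inv_val, Units.val_mk0, map_inv₀, inv_inv]
  field_simp
  linear_combination -hc

end Cfsg.Agent.S5657
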