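import Cfsg.Statements.S5658
import Cfsg.Agent.Root.Sub4

set_option autoImplicit false
open Cfsg

namespace Cfsg.Agent.S5658
open Cfsg.Agent.Root

open Cfsg.Agent.Geom Mx

/-- Let F be the field with q² elements, n ≥ 13, and F₀ a subfield with |F| = |F₀| ^ r for an odd prime r. Let P be an invertible matrix such that the standard unitary form takes values in F₀ on the F₀-span of the columns of P. Then the elements of SU_n(q) lying in the subfield group of P (the conjugate by P of the product of GL_n(F₀) with the scalars) form a maximal subgroup of SU_n(q). -/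
theorem result {F : Type*} [Field F] [Fintype F] (n q : ℕ) (hF : Fintype.card F = q ^ 2) (hn : 13 ≤ n) (F₀ : Subfield F) (r : ℕ) (hr : r.Prime) (hro : Odd r) (hcard : Fintype.card F = Nat.card F₀ ^ r) (P : Matrix.GeneralLinearGroup (Fin n) F) (hP : Cfsg.Geo.IsFormRationalStructure (Cfsg.hermForm n F q) F₀ 1 P) : Cfsg.Geo.IsMaximalIn (Cfsg.GU n F q ⊓ Cfsg.Geo.specialLinear (Fin n) F) (Cfsg.Geo.subfieldSubgroup F₀ P ⊓ (Cfsg.GU n F q ⊓ Cfsg.Geo.specialLinear (Fin n) F)) := by
  have hB : ∀ x y, (hermFormed hF n).B (jP F₀ P x) (jP F₀ P y) ∈ F₀ := fun x y =>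
    one_mul ((hermFormed hF n).B _ _) ▸ hP _ _ (fun i => (y i).2) fun i => (x i).2
  obtain ⟨κ, hκ, hκ'⟩ := exists_σ_ne hro (Nat.card_eq_fintype_card.trans hcard) (frobq_ne_id hF) (frobq_frobq hF)
  refine isMaximalIn_inf (glEquiv _ F) (isMaximalIn_sub (hermFormed_nondeg hF n)
    (by simp; omega) hr hcard hB (zero_mem _) (fun x => ?_)
    (noRefl_of_τ rfl) (Or.inl rfl)) (fun g => mem_suGL hF (by omega)) fun g => mem_subfieldSubgroup_iff
  have h1 := B_self_eq (Φ := hermFormed hF n) (jP F₀ P x)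
  have h2 := sub_ne_zero.2 hκ'
  refine ⟨_, mul_mem (div_mem (σ_mem_subfield _ (frobq hF) _ hκ) (sub_mem (σ_mem_subfield _ (frobq hF) _ hκ) hκ))
    (hB x x), zero_mul _, ?_⟩
  rw [show (hermFormed hF n).ε = 1 from rfl, one_mul] at h1 ⊢
  rw [map_mul, h1, map_div₀, map_sub, frobq_frobq, ← neg_sub (frobq hF κ)]
  field_simp; ring

end Cfsg.Agent.S5658
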