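import Cfsg.Statements.S5660
import Cfsg.Agent.Root.Sub4

set_option autoImplicit false
open Cfsg

namespace Cfsg.Agent.S5660
open Cfsg.Agent.Root

open Cfsg.Agent.Geom Mx

/-- Let F be the field with q² elements, n ≥ 13 even, and F₀ the subfield with q elements. Let ζ be a non-zero element with ζ + ζ^q = 0 and P an invertible matrix such that ζ times the standard unitary form takes values in F₀ on the F₀-span of the columns of P and the form vanishes on every pair (u, u) of that span (so ζ times the form restricts to a non-degenerate alternating form there). Then the elements of SU_n(q) lying in the subfield group of P form a maximal subgroup of SU_n(q). -/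
theorem result {F : Type*} [Field F] [Fintype F] (n q : ℕ) (hF : Fintype.card F = q ^ 2) (hn : 13 ≤ n) (heven : Even n) (F₀ : Subfield F) (hcard : Fintype.card F = Nat.card F₀ ^ 2) (ζ : F) (hζ0 : ζ ≠ 0) (hζ : ζ + ζ ^ q = 0) (P : Matrix.GeneralLinearGroup (Fin n) F) (hP : Cfsg.Geo.IsFormRationalStructure (Cfsg.hermForm n F q) F₀ ζ P) (halt : ∀ u : Fin n → F, (∀ i, u i ∈ F₀) → Cfsg.hermForm n F q (Matrix.mulVec (P : Matrix (Fin n) (Fin n) F) u) (Matrix.mulVec (P : Matrix (Fin n) (Fin n) F) u) = 0) : Cfsg.Geo.IsMaximalIn (Cfsg.GU n F q ⊓ Cfsg.Geo.specialLinear (Fin n) F) (Cfsg.Geo.subfieldSubgroup F₀ P ⊓ (Cfsg.GU n F q ⊓ Cfsg.Geo.specialLinear (Fin n) F)) := by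
  have hE := EG_scale (Φ := hermFormed hF n) (η := -1) (h1 := by ring) (h2 := by rw [map_neg, map_one])
    (h3 := by rw [frobq_apply]; linear_combination hζ) (h4 := zero_mul _) hζ0
  refine isMaximalIn_inf (glEquiv _ F) (hE ▸ isMaximalIn_sub (scale_nondeg hζ0 (hermFormed_nondeg hF n))
    (by simp; omega) Nat.prime_two hcard (fun x y => ?_) (zero_mem _)
    (fun x => ⟨0, zero_mem _, by simp [scale], ?_⟩)
    (noRefl_of_τ rfl) (Or.inl rfl)) (fun g => mem_suGL hF (by omega)) fun g => mem_subfieldSubgroup_iff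
  · exact hP _ _ (fun i => (y i).2) fun i => (x i).2
  · exact (by rw [map_zero, mul_zero, mul_zero, add_zero] : _ = ζ * 0).trans (congrArg (ζ * ·) (halt _ fun i => (x i).2).symm)

end Cfsg.Agent.S5660
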