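import Cfsg.Statements.S5664
import Cfsg.Agent.Root.Ext3

set_option autoImplicit false
open Cfsg

namespace Cfsg.Agent.S5664
open Cfsg.Agent.Root

open Cfsg.Agent.Geom Mx

/-- For a finite field F and m ≥ 7, let K be a subfield of the algebra of 2m × 2m matrices over F containing the scalars, of prime degree r over F, whose elements k are self-adjoint for the standard alternating form f on F^(2m) (f(k u, v) = f(u, k v)) and satisfy f(k v, v) = 0 for all v. Then the elements of Sp_2m(F) normalising K form a maximal subgroup of Sp_2m(F). -/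
theorem result {F : Type*} [Field F] [Fintype F] (m : ℕ) (hm : 7 ≤ m) (r : ℕ) (hr : r.Prime) (K : Subalgebra F (Matrix (Fin m ⊕ Fin m) (Fin m ⊕ Fin m) F)) (hK : Cfsg.Geo.IsFieldSubalgebra r K) (hsa : Cfsg.Geo.IsSelfAdjointFor (Cfsg.sympForm m F) K) (halt : ∀ k ∈ K, ∀ v : (Fin m ⊕ Fin m → F), Cfsg.sympForm m F (Matrix.mulVec k v) v = 0) : Cfsg.Geo.IsMaximalIn (Cfsg.spGL m F) (Cfsg.Geo.subalgebraNormalizer K ⊓ Cfsg.spGL m F) := by
  haveI : Nonempty (Fin m) := ⟨⟨0, by omega⟩⟩
  refine with_field hK fun K' _ _ _ _ h2 h3 h4 h5 => ?_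
  haveI : FiniteDimensional F K' := .of_finrank_pos (h2 ▸ hr.pos)
  haveI : Finite K' := Module.finite_of_finite F
  haveI := FiniteDimensional.right F K' (Fin m ⊕ Fin m → F)
  have hd := Module.finrank_mul_finrank F K' (Fin m ⊕ Fin m → F)
  refine isMaximalIn_inf (glEquiv _ F) (isMaximalIn_extSp (sympFormed_nondeg m F) (EG_symp m) (h2 ▸ hr)
    (fun k u v => ?_) (fun k v => ?_) fun e _ => by simp [e] at hd; omega) (fun g => mem_spGL) h5
  · obtain ⟨a, ha, e⟩ := h4 k
    simpa only [sympB_apply, e] using hsa a ha u v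
  · obtain ⟨a, ha, e⟩ := h4 k
    simpa only [sympB_apply, e] using halt a ha v

end Cfsg.Agent.S5664
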