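import Cfsg.Statements.S5665
import Cfsg.Agent.Root.Ext1

set_option autoImplicit false
open Cfsg

namespace Cfsg.Agent.S5665
open Cfsg.Agent.Root

open Cfsg.Agent.Geom Mx

/-- For a finite field F of odd order and m ≥ 7, let K be a subfield of the algebra of 2m × 2m matrices over F containing the scalars, of degree 2 over F, that is closed under adjoints for the standard alternating form on F^(2m) but whose elements are not all self-adjoint (so the adjoint map induces the automorphism of order two of K). Then the elements of Sp_2m(F) normalising K form a maximal subgroup of Sp_2m(F). -/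
theorem result {F : Type*} [Field F] [Fintype F] (m : ℕ) (hm : 7 ≤ m) (hodd : Odd (Fintype.card F)) (K : Subalgebra F (Matrix (Fin m ⊕ Fin m) (Fin m ⊕ Fin m) F)) (hK : Cfsg.Geo.IsFieldSubalgebra 2 K) (hac : Cfsg.Geo.IsAdjointClosedFor (Cfsg.sympForm m F) K) (hnsa : ¬ Cfsg.Geo.IsSelfAdjointFor (Cfsg.sympForm m F) K) : Cfsg.Geo.IsMaximalIn (Cfsg.spGL m F) (Cfsg.Geo.subalgebraNormalizer K ⊓ Cfsg.spGL m F) := by
  haveI : Nonempty (Fin m) := ⟨⟨0, by omega⟩⟩
  refine with_field hK fun K' _ _ _ _ h2 h3 h4 h5 => ?_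
  obtain ⟨τ, Ψ, L, h, t1, -, t2, -⟩ := exists_HS (sympFormed_nondeg m F) h2 (fun k => by
    obtain ⟨a, ha, e⟩ := h4 k
    obtain ⟨b, hb, e'⟩ := hac a ha
    obtain ⟨k', e''⟩ := (h3 b).1 hb
    exact ⟨k', fun u v => by simp only [sympFormed_B, ← e, ← e'', e']⟩) fun hc => hnsa fun a ha u v => by
      obtain ⟨k, e⟩ := (h3 a).1 ha
      simpa [e] using hc k u v
  haveI : FiniteDimensional F K' := .of_finrank_pos (by omega)
  haveI : Finite K' := Module.finite_of_finite F
  haveI := FiniteDimensional.right F K' (Fin m ⊕ Fin m → F)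
  have hd := Module.finrank_mul_finrank F K' (Fin m ⊕ Fin m → F)
  exact isMaximalIn_inf (glEquiv _ F) (h.isMaximalIn_alt (by simp [h2] at hd; omega)
    (two_ne_zero_of_odd_card hodd) (fun _ => rfl) rfl rfl (EG_symp m) t2 t1) (fun g => mem_spGL) h5

end Cfsg.Agent.S5665
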