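import Cfsg.Statements.S5667
import Cfsg.Agent.Asch.NM3

set_option autoImplicit false
open Cfsg

namespace Cfsg.Agent.S5667

/-- Over the field with 3 elements and for m ≥ 7, suppose the standard alternating form on F^(2m) is similar, through P and e, to the tensor product of a non-degenerate symplectic form f₁ on F^(n₁) and a non-degenerate symmetric bilinear form f₂ on F^3. Then the elements of Sp_2m(3) in the stabiliser of this tensor decomposition form a subgroup that is not maximal: some subgroup lies strictly between it and Sp_2m(3). -/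
theorem result {F : Type*} [Field F] [Fintype F] (m : ℕ) (hm : 7 ≤ m) (hq : Fintype.card F = 3) (n₁ : ℕ) (e : (Fin m ⊕ Fin m) ≃ Fin n₁ × Fin 3) (P : Matrix.GeneralLinearGroup (Fin m ⊕ Fin m) F) (f₁ : (Fin n₁ → F) → (Fin n₁ → F) → F) (f₂ : (Fin 3 → F) → (Fin 3 → F) → F) (hf₁ : Cfsg.Geo.IsSymplecticForm f₁) (hf₂ : Cfsg.Geo.IsSymmetricForm f₂) (hT : Cfsg.Geo.IsTensorFormStructure id (Cfsg.sympForm m F) f₁ f₂ e P) : ∃ K : Subgroup (Matrix.GeneralLinearGroup (Fin m ⊕ Fin m) F), Cfsg.Geo.tensorProductSubgroup n₁ 3 e P ⊓ Cfsg.spGL m F < K ∧ K < Cfsg.spGL m F := by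
  have h1 : m + m = n₁ * 3 := by simpa using Fintype.card_congr e
  have hf := Asch.sesq_symp m F
  rw [← Asch.tensorProductSubgroup_swap e P]
  refine Asch.nm_tens_three hq (Asch.qs_sp (by omega) (by omega)) hf le_rfl (Asch.tensF_of_struct hf
    (Asch.sesq_of_symplectic hf₁) (Asch.sesq_of_symmetric hf₂) (by omega) (by omega) hT).swap
    fun W hW h => ?_
  obtain ⟨v, hv, h0⟩ := (Submodule.ne_bot_iff W).1 (by rintro rfl; simp at h; omega)
  obtain ⟨g, hg, h2⟩ := hf.exists_transv Asch.symp_alt v 1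
  exact ⟨g, hg, hf.exists_move hW hv h0 (Asch.symp_alt v) h2⟩

end Cfsg.Agent.S5667
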