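import Cfsg.Statements.S5668
import Cfsg.Agent.Low.WS7

set_option autoImplicit false
open Cfsg

namespace Cfsg.Agent.S5668

/-- For a finite field F of odd order q and m ≥ 7, suppose the standard alternating form on F^(2m) is similar, through a change of basis P and a bijection of index sets e, to the t-fold tensor power of a non-degenerate symplectic form f₁ on F^k, with t odd, t ≥ 3 and (q, k) ≠ (3, 2). Then the elements of Sp_2m(F) in the stabiliser of this decomposition (the conjugate by P of the standard tensor-wreath subgroup transported along e) form a maximal subgroup of Sp_2m(F). -/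
theorem result {F : Type*} [Field F] [Fintype F] (m : ℕ) (hm : 7 ≤ m) (hodd : Odd (Fintype.card F)) (k t : ℕ) (ht : Odd t) (ht3 : 3 ≤ t) (hex : ¬ (Fintype.card F = 3 ∧ k = 2)) (e : (Fin m ⊕ Fin m) ≃ (Fin t → Fin k)) (P : Matrix.GeneralLinearGroup (Fin m ⊕ Fin m) F) (f₁ : (Fin k → F) → (Fin k → F) → F) (hf₁ : Cfsg.Geo.IsSymplecticForm f₁) (hT : Cfsg.Geo.IsTensorPowerFormStructure id (Cfsg.sympForm m F) f₁ e P) : Cfsg.Geo.IsMaximalIn (Cfsg.spGL m F) (Cfsg.Geo.tensorWreathSubgroup k t e P ⊓ Cfsg.spGL m F) := by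
  open Geom Root Root.Mx Root.Wr in
  have h2 : (2 : F) ≠ 0 := two_ne_zero_of_odd_card hodd
  have hc := card_of_equiv e
  simp only [Fintype.card_sum, Fintype.card_fin] at hc
  obtain ⟨j, hj⟩ := even_of_symp hf₁
  obtain ⟨n, rfl⟩ : ∃ n, t = n + 1 := ⟨t - 1, by omega⟩
  have hi := (EG_symp (F := F) m).ge
  refine isMaximalIn_wreathSp P e (sympFormed_nondeg m F) (notSp2_of_two h2) (fun g hg _ _ _ => hi hg)
    (fun g hg h hh => hi (mul_mem (mul_mem (mul_mem hg hh) (inv_mem hg)) (inv_mem hh))) hf₁
    (by simpa only [sympFormed_B] using hT) (fun _ => rfl) (by omega) (.inl hi) ?_ fun g => mem_spGL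
  by_cases k2 : k = 2
  · subst k2
    refine .inr ⟨fun e => hex ⟨e, rfl⟩, rfl, h2, by_contra fun e => ?_⟩
    obtain rfl : n = 2 := by omega
    omega
  · refine .inl ⟨by_contra fun e => ?_, .inl h2⟩
    obtain rfl : k = 0 := by omega
    simp at hc; omega

end Cfsg.Agent.S5668
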