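import Cfsg.Statements.S5673
import Cfsg.Agent.Asch.MaxO2

set_option autoImplicit false
open Cfsg

namespace Cfsg.Agent.S5673

/-- Subgroup structure of the odd-dimensional orthogonal groups. Let F be a finite field of odd order and m ≥ 3, let Q be the standard quadratic form x₀² + Σ x_i y_i on F^(2m+1), and let Ω be the commutator subgroup of its isometry group, viewed inside GL_(2m+1)(F). Let H be a subgroup of Ω whose product with the scalar matrices in Ω is not all of Ω. Then either H is contained in a member of one of the geometric classes of subgroups of the isometry group (with the conditions built into InOrthogonalOddClass), or H is in the residual class: modulo scalars it is almost simple, and the perfect preimage of its socle acts absolutely irreducibly, is realisable over no proper subfield, and fixes no non-degenerate unitary form. -/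
theorem result {F : Type*} [Field F] [Fintype F] (hodd : Odd (Fintype.card F)) (m : ℕ) (hm : 3 ≤ m) (H : Subgroup (Matrix.GeneralLinearGroup (Unit ⊕ (Fin m ⊕ Fin m)) F)) (hH : H ≤ Cfsg.Geo.omegaGL (Cfsg.quadFormOdd m F)) (hproper : H ⊔ (Cfsg.Geo.scalars (Unit ⊕ (Fin m ⊕ Fin m)) F ⊓ Cfsg.Geo.omegaGL (Cfsg.quadFormOdd m F)) ≠ Cfsg.Geo.omegaGL (Cfsg.quadFormOdd m F)) : (∃ M : Subgroup (Matrix.GeneralLinearGroup (Unit ⊕ (Fin m ⊕ Fin m)) F), Cfsg.Geo.InOrthogonalOddClass m F M ∧ H ≤ M) ∨ Cfsg.Geo.InOrthogonalResidualClass H := by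
  have hQ := Asch.nq_odd hodd m
  have hn : Fintype.card (Unit ⊕ (Fin m ⊕ Fin m)) = 2 * m + 1 := by simp; omega
  have hI := hH.trans Asch.omega_le_isom
  refine (Asch.o_main hQ (by omega) hH).imp_left fun h => ?_
  cases h with
  | ts W h0 h1 h2 h => exact ⟨_, Or.inl ⟨W, h0, h1, rfl⟩, le_inf h hI⟩
  | nd W h0 ht h1 h2 h3 h4 h5 h => exact ⟨_, Or.inr <| Or.inl ⟨W, h0, ht, h1, rfl⟩, le_inf h hI⟩
  | half k D hD h1 h2 h3 h h' => have := Asch.mdec_mul_eq hD.decomp; omega
  | pt v ho hv h => exact absurd hodd ho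
  | dec t k D hD h1 ho h2 h3 h4 h =>
    obtain e1 | e1 : k = 1 ∨ 1 < k := by have := hD.decomp.decomp.pos; omega
    · exact ⟨_, Or.inr <| Or.inr <| Or.inr <| Or.inl ⟨t, D, h1 e1, e1 ▸ hD, rfl⟩, le_inf h hI⟩
    · exact ⟨_, Or.inr <| Or.inr <| Or.inl ⟨t, k, D, e1, hD, rfl⟩, le_inf h hI⟩
  | pair k D he hD h1 hp h => have := Asch.mdec_mul_eq hD; omega
  | fld r K hr hK h1 h2 h3 h4 h =>
    exact ⟨_, Or.inr <| Or.inr <| Or.inr <| Or.inr <| Or.inl ⟨r, K, hr, by omega, hK, h1, rfl⟩,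
      le_inf h hI⟩
  | uni K hK h1 h2 h3 h4 h => have := Asch.Fld.dvd_card hK; omega
  | sub K r P ζ hr hc hζ h1 h2 h =>
    obtain ⟨P', e1, e2⟩ := Asch.odd_sub hodd hζ h1
    exact ⟨_, Or.inr <| Or.inr <| Or.inr <| Or.inr <| Or.inr <| Or.inr <| Or.inl
      ⟨K, r, P', hr, hc, e2, rfl⟩, le_inf (e1 ▸ h) hI⟩
  | tensS k e P f₁ f₂ hq he hm hf₁ hf₂ hT h0 hp h =>
    have := Fintype.card_congr e
    rw [hn, Fintype.card_prod, Fintype.card_fin, Fintype.card_fin] at this
    omega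
  | tensO k n e P f₁ f₂ ho hk hm h3 h4 hf₁ hf₂ hT h =>
    exact ⟨_, Or.inr <| Or.inr <| Or.inr <| Or.inr <| Or.inr <| Or.inl
      ⟨k, n, e, P, f₁, f₂, hk, hm, hf₁, hf₂, hT, rfl⟩, le_inf h hI⟩
  | wr k t e P f₁ ho hk ht h3 hf₁ hT h =>
    exact ⟨_, Or.inr <| Or.inr <| Or.inr <| Or.inr <| Or.inr <| Or.inr <| Or.inr
      ⟨k, t, e, P, f₁, hk, ht, fun h4 => by have := h3 h4.2; omega, hf₁, hT, rfl⟩, le_inf h hI⟩
  | exc he h => obtain ⟨j, hj⟩ := he; omega

end Cfsg.Agent.S5673
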