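import Cfsg.Statements.S5675
import Cfsg.Agent.Root.Max6
import Cfsg.Agent.Classical.SpSimple

set_option autoImplicit false
open Cfsg

namespace Cfsg.Agent.S5675
open Cfsg.Agent.Root

open Cfsg.Agent.Geom Mx

/-- Let F be a finite field of odd order q, m ≥ 6, Q the standard quadratic form on F^(2m+1) and Ω the commutator subgroup of its isometry group. Let W be a non-zero subspace of even dimension on which the polar form of Q is non-degenerate; exclude the case q = 3, dim W = 2 with Q vanishing on some line of W (a plus-type plane). Then the elements of Ω stabilising W (equivalently, stabilising its orthogonal complement, of odd dimension) form a maximal subgroup of Ω. -/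
theorem result {F : Type*} [Field F] [Fintype F] (hodd : Odd (Fintype.card F)) (m : ℕ) (hm : 6 ≤ m) (W : Submodule F (Unit ⊕ (Fin m ⊕ Fin m) → F)) (hW0 : W ≠ ⊥) (hev : Even (Module.finrank F W)) (hW : Cfsg.Geo.IsNondegenerateOn (QuadraticMap.polar (Cfsg.quadFormOdd m F)) W) (hex : ¬ (Fintype.card F = 3 ∧ Module.finrank F W = 2 ∧ Cfsg.Geo.IsPlusTypeOn (Cfsg.quadFormOdd m F) W)) : Cfsg.Geo.IsMaximalIn (Cfsg.Geo.omegaGL (Cfsg.quadFormOdd m F)) (Cfsg.Geo.subspaceStabilizer W ⊓ Cfsg.Geo.omegaGL (Cfsg.quadFormOdd m F)) := by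
  have h1 := quadOdd_nondeg F m (two_ne_zero_of_odd_card hodd)
  rw [← coe_quadOdd] at hW hex ⊢
  have h2 := nondeg_of_on (Φ := Formed.ofQuad (quadOdd F m)) hW fun _ _ => Iff.rfl
  have h3 := h1.finrank_add_finrank_perp W
  have h4 := Nat.even_iff.1 hev
  simp only [Module.finrank_fintype_fun_eq_card, Fintype.card_sum, Fintype.card_unit,
    Fintype.card_fin] at h3
  refine isMaximalIn_inf (glEquiv _ F) (isMaximalIn_stab_nd' h1 (by simp; omega) h2 hW0
    (by rintro rfl; simp at h4; omega) (plane_quad h1 h2 fun e ⟨x, hx, hx0, hx1⟩ => ?_)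
    (plane_quad h1 (h1.restrict_perp h2) fun e => by omega)
    (fun U hU h => adj_quad h1 (by simp; omega) hU h) (fun h => by simp at h; omega))
    (fun g => mem_omegaGL h1 (by simp; omega)) fun g => Iff.rfl
  refine Classical.exists_ne_zero_sq_ne_one ?_
  rw [Nat.card_eq_fintype_card]
  have := Fintype.one_lt_card (α := F)
  have := Nat.odd_iff.1 hodd
  by_contra hc
  exact hex ⟨by omega, e, F ∙ x, (Submodule.span_singleton_le_iff_mem _ _).2 hx, fun y hy => by
    obtain ⟨c, rfl⟩ := Submodule.mem_span_singleton.1 hy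
    rw [quad_smul, hx1, mul_zero], by rw [finrank_span_singleton hx0, e]⟩

end Cfsg.Agent.S5675
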