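import Cfsg.Statements.S5677
import Cfsg.Agent.Root.Max5
import Cfsg.Agent.Classical.SpSimple

set_option autoImplicit false
open Cfsg

namespace Cfsg.Agent.S5677
open Cfsg.Agent.Root

open Cfsg.Agent.Geom Mx

/-- Let F be a finite field of odd order q, m ≥ 6, Q the standard quadratic form on F^(2m+1) and Ω the commutator subgroup of its isometry group. Let D be a decomposition of F^(2m+1) into t ≥ 2 pairwise orthogonal, pairwise Q-isometric subspaces of equal dimension k > 1 on which the polar form is non-degenerate. Unless q = 3 and k = 3, the elements of Ω permuting the members of D form a maximal subgroup of Ω. -/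
theorem result {F : Type*} [Field F] [Fintype F] (hodd : Odd (Fintype.card F)) (m : ℕ) (hm : 6 ≤ m) {t : ℕ} (k : ℕ) (hk : 1 < k) (D : Fin t → Submodule F (Unit ⊕ (Fin m ⊕ Fin m) → F)) (hD : Cfsg.Geo.IsOrthogonalMDecomposition (Cfsg.quadFormOdd m F) k D) (hex : ¬ (Fintype.card F = 3 ∧ k = 3)) : Cfsg.Geo.IsMaximalIn (Cfsg.Geo.omegaGL (Cfsg.quadFormOdd m F)) (Cfsg.Geo.decompositionStabilizer D ⊓ Cfsg.Geo.omegaGL (Cfsg.quadFormOdd m F)) := by
  have h2 := two_ne_zero_of_odd_card hodd
  have h1 := quadOdd_nondeg F m h2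
  rw [← coe_quadOdd] at hD ⊢
  have h := odec_of h1 hD.1 fun _ _ => Iff.rfl
  have h5 : 5 ≤ Module.finrank F (Unit ⊕ (Fin m ⊕ Fin m) → F) := by simp; omega
  have hk3 : 3 ≤ k := by
    have := h.finrank_eq
    by_contra hc
    obtain rfl : k = 2 := by omega
    simp at this; omega
  refine isMaximalIn_inf (glEquiv _ F) (h.isMaximalIn_quad_odd (h.sw
    (fun i => adj_quad h1 h5 (h.nd i) (by rw [h.rk]; omega)) fun i j => ?_) h2 h5 hk3 fun e => ?_)
    (fun g => mem_omegaGL h1 (by simp; omega)) fun g => Iff.rfl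
  · obtain ⟨e, he⟩ := hD.2 i j
    exact ⟨e, Formed.isIso_ofQuad (Q := (quadOdd F m).comp (D i).subtype)
      (Q' := (quadOdd F m).comp (D j).subtype) he⟩
  · refine Classical.exists_ne_zero_sq_ne_one ?_
    rw [Nat.card_eq_fintype_card]
    have := Fintype.one_lt_card (α := F)
    have := Nat.odd_iff.1 hodd
    omega

end Cfsg.Agent.S5677
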