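import Cfsg.Statements.S5679
import Cfsg.Agent.Root.Fr4

set_option autoImplicit false
open Cfsg

namespace Cfsg.Agent.S5679
open Cfsg.Agent.Root

open Cfsg.Agent.Geom Mx

/-- Let F be a field of odd prime order p, m ≥ 6, Q the standard quadratic form on F^(2m+1) and Ω the commutator subgroup of its isometry group. Let D be a decomposition of F^(2m+1) into pairwise orthogonal lines on which Q takes non-zero values lying in one square class (pairwise Q-isometric non-degenerate 1-spaces). Then the elements of Ω permuting these lines form a maximal subgroup of Ω. -/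
theorem result {F : Type*} [Field F] [Fintype F] (hodd : Odd (Fintype.card F)) (m : ℕ) (hm : 6 ≤ m) (hprime : (Fintype.card F).Prime) {t : ℕ} (D : Fin t → Submodule F (Unit ⊕ (Fin m ⊕ Fin m) → F)) (hD : Cfsg.Geo.IsOrthogonalMDecomposition (Cfsg.quadFormOdd m F) 1 D) : Cfsg.Geo.IsMaximalIn (Cfsg.Geo.omegaGL (Cfsg.quadFormOdd m F)) (Cfsg.Geo.decompositionStabilizer D ⊓ Cfsg.Geo.omegaGL (Cfsg.quadFormOdd m F)) := by
  have h2 := two_ne_zero_of_odd_card hodd
  have h1 := quadOdd_nondeg F m h2
  rw [← coe_quadOdd] at hD ⊢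
  exact isMaximalIn_inf (glEquiv _ F) ((odec_of h1 hD.1 fun _ _ => Iff.rfl).isMaximalIn_frame h2 (by simpa)
    (by simp; omega) hD.2) (fun g => mem_omegaGL h1 (by simp; omega)) fun g => Iff.rfl

end Cfsg.Agent.S5679
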