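import Cfsg.Statements.S5687
import Cfsg.Agent.Root.Max6

set_option autoImplicit false
open Cfsg

namespace Cfsg.Agent.S5687
open Cfsg.Agent.Root

open Cfsg.Agent.Geom Mx

/-- Let F be a finite field with q elements, n ≥ 13 even, Q a non-degenerate quadratic form on F^n of minus type (no subspace of dimension n/2 is totally singular), and Ω the commutator subgroup of the isometry group of Q, viewed inside GL_n(F). The elements of Ω stabilising a non-zero subspace on which Q vanishes form a maximal subgroup of Ω. -/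
theorem result {F : Type*} [Field F] [Fintype F] {n : ℕ} (hn : 13 ≤ n) (heven : Even n) (Q : (Fin n → F) → F) (hQ : Cfsg.Geo.IsNondegenerateQuadraticForm Q) (hminus : ¬ Cfsg.Geo.IsPlusTypeOn Q ⊤) (W : Submodule F (Fin n → F)) (hW0 : W ≠ ⊥) (hW : Cfsg.Geo.IsTotallySingularQuad Q W) : Cfsg.Geo.IsMaximalIn (Cfsg.Geo.omegaGL Q) (Cfsg.Geo.subspaceStabilizer W ⊓ Cfsg.Geo.omegaGL Q) := by
  obtain ⟨Q, rfl, h1⟩ := exists_quad hQ
  exact isMaximalIn_inf (glEquiv _ F) (isMaximalIn_stab_ts_quad h1 (by simp; omega) hW0 hW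
    fun _ U hU e => hminus ⟨U, le_top, hU, by rw [e, finrank_top]⟩)
    (fun g => mem_omegaGL h1 (by simp; omega)) fun g => Iff.rfl

end Cfsg.Agent.S5687
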