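import Cfsg.Statements.S5689
import Cfsg.Agent.Root.Max6
import Cfsg.Agent.Classical.SpSimple

set_option autoImplicit false
open Cfsg

namespace Cfsg.Agent.S5689
open Cfsg.Agent.Root

open Cfsg.Agent.Geom Mx

/-- Let F be a finite field with q elements, n ≥ 13 even, Q a non-degenerate quadratic form on F^n of minus type (no subspace of dimension n/2 is totally singular), and Ω the commutator subgroup of the isometry group of Q, viewed inside GL_n(F). Let W be a non-zero proper subspace on which the polar form of Q is non-degenerate, not of odd dimension n/2. Exclude the case q ≤ 3 in which W, or its orthogonal complement, is a plane containing a line on which Q vanishes. Then the elements of Ω stabilising W form a maximal subgroup of Ω. -/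
theorem result {F : Type*} [Field F] [Fintype F] {n : ℕ} (hn : 13 ≤ n) (heven : Even n) (Q : (Fin n → F) → F) (hQ : Cfsg.Geo.IsNondegenerateQuadraticForm Q) (hminus : ¬ Cfsg.Geo.IsPlusTypeOn Q ⊤) (W : Submodule F (Fin n → F)) (hW0 : W ≠ ⊥) (hW1 : W ≠ ⊤) (hdim : ¬ (2 * Module.finrank F W = n ∧ Odd (Module.finrank F W))) (hW : Cfsg.Geo.IsNondegenerateOn (QuadraticMap.polar Q) W) (hex : ¬ (Fintype.card F ≤ 3 ∧ (∃ U : Submodule F (Fin n → F), Module.finrank F U = 2 ∧ Cfsg.Geo.IsNondegenerateOn (QuadraticMap.polar Q) U ∧ Cfsg.Geo.IsPlusTypeOn Q U ∧ (U = W ∨ (Cfsg.Geo.AreOrthogonalFor (QuadraticMap.polar Q) U W ∧ Module.finrank F U + Module.finrank F W = n))))) : Cfsg.Geo.IsMaximalIn (Cfsg.Geo.omegaGL Q) (Cfsg.Geo.subspaceStabilizer W ⊓ Cfsg.Geo.omegaGL Q) := by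
  obtain ⟨Q, rfl, h1⟩ := exists_quad hQ
  have h2 := nondeg_of_on (Φ := Formed.ofQuad Q) hW fun _ _ => Iff.rfl
  have h3 := h1.finrank_add_finrank_perp W
  rw [Module.finrank_fintype_fun_eq_card, Fintype.card_fin] at h3
  have pl : ∀ U, ((Formed.ofQuad Q).restrict U).Nondeg → (U = W ∨ (Geo.AreOrthogonalFor
      (QuadraticMap.polar Q) U W ∧ Module.finrank F U + Module.finrank F W = n)) →
      Plane (Formed.ofQuad Q) U := fun U hU h => plane_quad h1 hU fun e ⟨x, hx, hx0, hx1⟩ => by
    refine Classical.exists_ne_zero_sq_ne_one ?_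
    rw [Nat.card_eq_fintype_card]
    by_contra hc
    refine hex ⟨by omega, U, e, fun w hw h0 => ?_, ⟨F ∙ x, (Submodule.span_singleton_le_iff_mem _ _).2 hx,
      fun y hy => ?_, by rw [finrank_span_singleton hx0, e]⟩, h⟩
    · obtain ⟨y, hy, e⟩ : ∃ y ∈ U, QuadraticMap.polar Q y w ≠ 0 := by
        by_contra! hc; exact h0 (eq_zero_of_nd hU hw hc)
      exact ⟨⟨y, hy, e⟩, y, hy, by rwa [QuadraticMap.polar_comm]⟩
    · obtain ⟨c, rfl⟩ := Submodule.mem_span_singleton.1 hy
      rw [quad_smul, hx1, mul_zero]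
  exact isMaximalIn_inf (glEquiv _ F) (isMaximalIn_stab_nd' h1 (by simp; omega) h2 hW0 hW1
    (pl _ h2 (Or.inl rfl)) (pl _ (h1.restrict_perp h2) (Or.inr ⟨fun u hu v hv =>
      (QuadraticMap.polar_comm _ _ _).trans (hu v hv), by omega⟩))
    (fun U hU h => adj_quad h1 (by simp; omega) hU h) (fun h g hg hc => by
      have h : 2 * Module.finrank F W = n := by simpa using h.symm
      obtain ⟨U, e1, e2⟩ := exists_ts_of_map_perp h2 (Nat.not_odd_iff_even.1 fun e => hdim ⟨h, e⟩) hg hc
      exact hminus ⟨U, le_top, e1, by simp [e2, h]⟩))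
    (fun g => mem_omegaGL h1 (by simp; omega)) fun g => Iff.rfl

end Cfsg.Agent.S5689
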