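import Cfsg.Statements.S5697
import Cfsg.Agent.Root.Max3

set_option autoImplicit false
open Cfsg

namespace Cfsg.Agent.S5697
open Cfsg.Agent.Root

open Cfsg.Agent.Geom Mx

/-- Let F be a finite field with q elements, n ≥ 13 even, Q a non-degenerate quadratic form on F^n of plus type (some subspace of dimension n/2 is totally singular), and Ω the commutator subgroup of the isometry group of Q, viewed inside GL_n(F). Suppose n/2 is even and let D be a decomposition of F^n into two complementary subspaces of dimension n/2 on each of which Q vanishes. Then the elements of Ω preserving or interchanging the two subspaces form a maximal subgroup of Ω. -/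
theorem result {F : Type*} [Field F] [Fintype F] {n : ℕ} (hn : 13 ≤ n) (heven : Even n) (Q : (Fin n → F) → F) (hQ : Cfsg.Geo.IsNondegenerateQuadraticForm Q) (hplus : Cfsg.Geo.IsPlusTypeOn Q ⊤) (k : ℕ) (hk : 2 * k = n) (hke : Even k) (D : Fin 2 → Submodule F (Fin n → F)) (hD : Cfsg.Geo.IsMDecomposition k D) (hts : ∀ i, Cfsg.Geo.IsTotallySingularQuad Q (D i)) : Cfsg.Geo.IsMaximalIn (Cfsg.Geo.omegaGL Q) (Cfsg.Geo.decompositionStabilizer D ⊓ Cfsg.Geo.omegaGL Q) := by
  obtain ⟨Q, rfl, h1⟩ := exists_quad hQ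
  have ht : ∀ i, (Formed.ofQuad Q).TotSing (D i) := fun i => Formed.totSing_ofQuad.2 (hts i)
  have hx : NotExc Q := notExc_of_finrank (by simp; omega)
  refine isMaximalIn_inf (glEquiv _ F)
    (isMaximalIn_tsPair h1 (notSp2_quad Q) (by simp; omega) (dec_of hD) ht ?_)
    (fun g => mem_omegaGL h1 (by simp; omega)) fun g => Iff.rfl
  obtain ⟨⟨s, hs, s0, s1⟩, e, he, f, hf, hp⟩ := exists_swap h1 (dec_of hD) ht
  obtain ⟨c, hc⟩ := exists_sqSign_eq_spin h1 (⟨s, hs⟩ : OG Q)⁻¹
  have := torus_mem (ht 0) (ht 1) he hf hp c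
  have hd : dick (⟨s, hs⟩ : OG Q) = 1 := by
    rw [dick_eq_one_iff_even h1 hx (m := k) (by simp; omega) (U := D 0) ⟨hD.finrank_eq 0, hts 0⟩,
      ((dec_of hD).isCompl.disjoint.mono_right (by rintro _ ⟨x, hx, rfl⟩; exact s0 x hx)).eq_bot]
    simpa
  refine ⟨(hp.torus c * ⟨s, hs⟩ : OG Q), (mem_EG_quad h1 (by simp; omega)).2
    ((mem_commutator_iff h1 hx _).2 ⟨?_, ?_⟩),
    fun x hx => this.2 _ (s0 x hx), fun x hx => this.1 _ (s1 x hx)⟩
  · rw [dick_mul h1 hx, dick_torus h1, hd, one_mul]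
  · rw [spin_mul h1 hx, spin_torus h1, hc, ← spin_mul h1 hx, inv_mul_cancel, spin_one h1]

end Cfsg.Agent.S5697
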