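import Cfsg.Statements.S5700
import Cfsg.Agent.Root.Ext1

set_option autoImplicit false
open Cfsg

namespace Cfsg.Agent.S5700
open Cfsg.Agent.Root

open Cfsg.Agent.Geom Mx

/-- Let F be a finite field with q elements, n ≥ 13 even, Q a non-degenerate quadratic form on F^n (of either type), and Ω the commutator subgroup of the isometry group of Q, viewed inside GL_n(F). Let K be a subfield of the algebra of n × n matrices over F containing the scalars, of degree 2 over F, closed under adjoints for the polar form of Q but not consisting of self-adjoint elements, and such that every k in K rescales Q (Q(k v) = c Q(v) for a constant c depending on k). Then the elements of Ω normalising K form a maximal subgroup of Ω. -/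
theorem result {F : Type*} [Field F] [Fintype F] {n : ℕ} (hn : 13 ≤ n) (heven : Even n) (Q : (Fin n → F) → F) (hQ : Cfsg.Geo.IsNondegenerateQuadraticForm Q) (K : Subalgebra F (Matrix (Fin n) (Fin n) F)) (hK : Cfsg.Geo.IsFieldSubalgebra 2 K) (hac : Cfsg.Geo.IsAdjointClosedFor (QuadraticMap.polar Q) K) (hnsa : ¬ Cfsg.Geo.IsSelfAdjointFor (QuadraticMap.polar Q) K) (hsc : ∀ k ∈ K, ∃ c : F, ∀ v : (Fin n → F), Q (Matrix.mulVec k v) = c * Q v) : Cfsg.Geo.IsMaximalIn (Cfsg.Geo.omegaGL Q) (Cfsg.Geo.subalgebraNormalizer K ⊓ Cfsg.Geo.omegaGL Q) := by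
  haveI : Nonempty (Fin n) := ⟨⟨0, by omega⟩⟩
  obtain ⟨Q, rfl, h1⟩ := exists_quad hQ
  refine with_field hK fun K' _ _ _ _ h2 h3 h4 h5 => ?_
  obtain ⟨τ, Ψ, L, h, t1, t3, t2, -⟩ := exists_HS h1 h2 (fun k => by
    obtain ⟨a, ha, e⟩ := h4 k
    obtain ⟨b, hb, e'⟩ := hac a ha
    obtain ⟨k', e''⟩ := (h3 b).1 hb
    exact ⟨k', fun u v => by rw [← e, ← e'']; exact e' u v⟩) fun hc => hnsa fun a ha u v => by
      obtain ⟨k, e⟩ := (h3 a).1 ha
      rw [e, e]; exact hc k u v
  haveI : FiniteDimensional F K' := .of_finrank_pos (by omega)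
  haveI : Finite K' := Module.finite_of_finite F
  haveI := FiniteDimensional.right F K' (Fin n → F)
  have hd := Module.finrank_mul_finrank F K' (Fin n → F)
  refine isMaximalIn_inf (glEquiv _ F) (h.isMaximalIn_quad (by simp [h2] at hd; omega) t3 (fun k => ?_) t2 t1)
    (fun g => mem_omegaGL h1 (by simp; omega)) h5
  obtain ⟨a, ha, e⟩ := h4 k
  simpa only [e] using hsc a ha

end Cfsg.Agent.S5700
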