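import Cfsg.Statements.S5701
import Cfsg.Agent.Root.Ext4

set_option autoImplicit false
open Cfsg

namespace Cfsg.Agent.S5701
open Cfsg.Agent.Root

open Cfsg.Agent.Geom Mx

/-- Let F be a finite field with q elements, n ≥ 13 even, Q a non-degenerate quadratic form on F^n (of either type), and Ω the commutator subgroup of the isometry group of Q, viewed inside GL_n(F). Suppose q is odd. Let K be a subfield of the algebra of n × n matrices over F containing the scalars, of prime degree r over F with n/r ≥ 3, whose elements are self-adjoint for the polar form of Q. Then the elements of Ω normalising K form a maximal subgroup of Ω. -/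
theorem result {F : Type*} [Field F] [Fintype F] {n : ℕ} (hn : 13 ≤ n) (heven : Even n) (Q : (Fin n → F) → F) (hQ : Cfsg.Geo.IsNondegenerateQuadraticForm Q) (hodd : Odd (Fintype.card F)) (r : ℕ) (hr : r.Prime) (hnr : 3 * r ≤ n) (K : Subalgebra F (Matrix (Fin n) (Fin n) F)) (hK : Cfsg.Geo.IsFieldSubalgebra r K) (hsa : Cfsg.Geo.IsSelfAdjointFor (QuadraticMap.polar Q) K) : Cfsg.Geo.IsMaximalIn (Cfsg.Geo.omegaGL Q) (Cfsg.Geo.subalgebraNormalizer K ⊓ Cfsg.Geo.omegaGL Q) := by
  haveI : Nonempty (Fin n) := ⟨⟨0, by omega⟩⟩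
  obtain ⟨Q, rfl, h1⟩ := exists_quad hQ
  refine with_field hK fun K' _ _ _ _ h2 h3 h4 h5 => ?_
  have hd := Module.finrank_mul_finrank F K' (Fin n → F)
  rw [h2, Module.finrank_fin_fun] at hd
  refine isMaximalIn_inf (glEquiv _ F) (isMaximalIn_extO h1 (h2 ▸ hr) (two_ne_zero_of_odd_card hodd) ?_
    fun k u v => ?_) (fun g => mem_omegaGL h1 (by simp; omega)) h5
  · by_contra! hc
    obtain h | h : Module.finrank K' (Fin n → F) ≤ 2 ∨ Module.finrank K' (Fin n → F) = 3 := by omega
    · have := hr.two_le; nlinarith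
    · rw [h] at hd
      obtain rfl := (hr.even_iff).1 ((Nat.even_mul.1 (hd ▸ heven)).resolve_right (by decide))
      omega
  · obtain ⟨a, ha, e⟩ := h4 k
    simpa only [e] using hsa a ha u v

end Cfsg.Agent.S5701
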