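import Cfsg.Statements.S5702
import Cfsg.Agent.Root.Sub4

set_option autoImplicit false
open Cfsg

namespace Cfsg.Agent.S5702
open Cfsg.Agent.Root

open Cfsg.Agent.Geom Mx

/-- Let F be a finite field with q elements, n ≥ 13 even, Q a non-degenerate quadratic form on F^n (of either type), and Ω the commutator subgroup of the isometry group of Q, viewed inside GL_n(F). Let F₀ be a subfield with |F| = |F₀| ^ r for a prime r, ζ a non-zero scalar and P an invertible matrix such that ζ·Q takes values in F₀ on the F₀-span of the columns of P. Then the elements of Ω lying in the subfield group of P (the conjugate by P of the product of GL_n(F₀) with the scalars) form a maximal subgroup of Ω. -/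
theorem result {F : Type*} [Field F] [Fintype F] {n : ℕ} (hn : 13 ≤ n) (heven : Even n) (Q : (Fin n → F) → F) (hQ : Cfsg.Geo.IsNondegenerateQuadraticForm Q) (F₀ : Subfield F) (r : ℕ) (hr : r.Prime) (hcard : Fintype.card F = Nat.card F₀ ^ r) (P : Matrix.GeneralLinearGroup (Fin n) F) (ζ : F) (hζ : ζ ≠ 0) (hP : Cfsg.Geo.IsQuadFormRationalStructure (fun v : Fin n → F => ζ * Q v) F₀ P) : Cfsg.Geo.IsMaximalIn (Cfsg.Geo.omegaGL Q) (Cfsg.Geo.subfieldSubgroup F₀ P ⊓ Cfsg.Geo.omegaGL Q) := by
  obtain ⟨Q, rfl, h1⟩ := exists_quad hQ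
  have hE := EG_scale (Φ := Formed.ofQuad Q) (η := 1) (h1 := mul_one 1) (h2 := rfl) (h3 := (one_mul _).symm)
    (h4 := mul_one _) hζ
  have hQ : ∀ x, ζ * Q (jP F₀ P x) ∈ F₀ := fun x => hP _ fun i => (x i).2
  refine isMaximalIn_inf (glEquiv _ F) (hE ▸ isMaximalIn_sub (scale_nondeg hζ h1)
    (by simp; omega) hr hcard (fun x y => ?_) (one_mem _) (fun x => ⟨_, hQ x, one_mul _, ?_⟩)
    ((noRefl_quad h1 (by simp; omega)).scale hζ) (Or.inr ⟨rfl, mul_one _⟩))
    (fun g => mem_omegaGL h1 (by simp; omega)) fun g => mem_subfieldSubgroup_iff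
  · convert sub_mem (sub_mem (hQ (x + y)) (hQ x)) (hQ y) using 1
    simp [scale_B, QuadraticMap.polar, mul_sub]
  · simp [scale, Formed.ofQuad]; ring

end Cfsg.Agent.S5702
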