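import Cfsg.Statements.S5706
import Cfsg.Agent.Low.WS7

set_option autoImplicit false
open Cfsg

namespace Cfsg.Agent.S5706

/-- Let F be a finite field with q elements, n ≥ 13 even, Q a non-degenerate quadratic form on F^n of plus type (some subspace of dimension n/2 is totally singular), and Ω the commutator subgroup of the isometry group of Q, viewed inside GL_n(F). Suppose that, through a change of basis P and a bijection of index sets e, the polar form of Q is similar to the t-fold tensor power (t ≥ 2) of a non-degenerate symplectic form f₁ on F^k, that Q vanishes on the images of all pure tensors, that t is even if q is odd, that (q, k) is neither (2, 2) nor (3, 2), and that k ≥ 6 if q is even. Then the elements of Ω in the stabiliser of this decomposition form a maximal subgroup of Ω. -/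
theorem result {F : Type*} [Field F] [Fintype F] {n : ℕ} (hn : 13 ≤ n) (heven : Even n) (Q : (Fin n → F) → F) (hQ : Cfsg.Geo.IsNondegenerateQuadraticForm Q) (hplus : Cfsg.Geo.IsPlusTypeOn Q ⊤) (k t : ℕ) (ht : 2 ≤ t) (hqt : Odd (Fintype.card F) → Even t) (hex1 : ¬ (Fintype.card F = 2 ∧ k = 2)) (hex2 : ¬ (Fintype.card F = 3 ∧ k = 2)) (hex3 : ¬ Odd (Fintype.card F) → 6 ≤ k) (e : (Fin n) ≃ (Fin t → Fin k)) (P : Matrix.GeneralLinearGroup (Fin n) F) (f₁ : (Fin k → F) → (Fin k → F) → F) (hf₁ : Cfsg.Geo.IsSymplecticForm f₁) (hT : Cfsg.Geo.IsTensorPowerFormStructure id (QuadraticMap.polar Q) f₁ e P) (hpure : (∀ xs : Fin t → (Fin k → F), Q (Matrix.mulVec (P : Matrix (Fin n) (Fin n) F) ((fun a : Fin t → Fin k => ∏ i, xs i (a i)) ∘ e)) = 0)) : Cfsg.Geo.IsMaximalIn (Cfsg.Geo.omegaGL Q) (Cfsg.Geo.tensorWreathSubgroup k t e P ⊓ Cfsg.Geo.omegaGL Q) := by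
  open Geom Root Root.Mx Root.Wr in
  obtain ⟨Q', rfl, nd⟩ := exists_quad hQ
  have hc := card_of_equiv e
  simp only [Fintype.card_fin] at hc
  obtain ⟨j, hj⟩ := even_of_symp hf₁
  obtain ⟨s, rfl⟩ : ∃ s, t = s + 1 := ⟨t - 1, by omega⟩
  have h5 : 5 ≤ Module.finrank F (Fin n → F) := by simp; omega
  have k0 : k ≠ 0 := fun e => by simp [e] at hc; omega
  refine isMaximalIn_wreathSp P e nd (notSp2_quad Q') (ueg_quad nd h5) (ceg_quad nd h5) hf₁ hT (fun x => hpure x)
    (by omega) (.inr ?_) ?_ fun g => mem_omegaGL nd (by simp; omega)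
  · by_cases ho : Odd (Fintype.card F)
    · exact .inr fun e => by have := hqt ho; rw [e] at this; exact absurd this (by decide)
    · exact .inl (Asch.two_eq_zero_of_not_odd ho)
  by_cases ho : Odd (Fintype.card F)
  · have h2 : (2 : F) ≠ 0 := two_ne_zero_of_odd_card ho
    by_cases k2 : k = 2
    · subst k2
      refine .inr ⟨fun e => hex2 ⟨e, rfl⟩, rfl, h2, by_contra fun e => ?_⟩
      have : s = 1 ∨ s = 2 := by omega
      rcases this with rfl | rfl <;> omega
    · exact .inl ⟨by omega, .inl h2⟩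
  · have := hex3 ho
    exact .inl ⟨by omega, .inr (by omega)⟩

end Cfsg.Agent.S5706
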