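import Cfsg.Statements.S5775
import Cfsg.Agent.Asch.MaxL

set_option autoImplicit false
open Cfsg

namespace Cfsg.Agent.S5775

/-- Every maximal subgroup of SL_3(q) is of one of the listed geometric types or lies in the residual class. Let F be a finite field with q elements and H a maximal subgroup of SL_3(F) (viewed inside GL_3(F)). Then H is the intersection with SL_3(F) of one of: the stabiliser of a proper non-zero subspace; for q ≥ 5, the stabiliser of a decomposition of F^3 into three independent lines; for q ≠ 4, the normaliser of a degree-3 subfield of the matrix algebra; a subfield group for a subfield F₀ with |F| = |F₀|^r, r prime; for q = p ≡ 1 mod 3 prime, the normaliser of an absolutely irreducible 3-subgroup R of exponent 3 with centre of order 3, all of whose characteristic abelian subgroups are cyclic, of order 3^(1+2m) for some m ≥ 1, with F the smallest field of characteristic p containing the cube roots of unity (so R is extraspecial of order 27); for q odd,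 the similarity group of a non-degenerate quadratic form; the similarity group of a non-degenerate unitary form — or else H lies in the residual class of the linear case (modulo scalars H is almost simple, with absolutely irreducible perfect socle preimage realisable over no proper subfield and fixing no non-degenerate quadratic, symplectic or unitary form). -/
theorem result {F : Type*} [Field F] [Fintype F] (H : Subgroup (Matrix.GeneralLinearGroup (Fin 3) F)) (hH : Cfsg.Geo.IsMaximalIn (Cfsg.Geo.specialLinear (Fin 3) F) H) :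
    (∃ W : Submodule F (Fin 3 → F), W ≠ ⊥ ∧ W ≠ ⊤ ∧ H = Cfsg.Geo.subspaceStabilizer W ⊓ Cfsg.Geo.specialLinear (Fin 3) F) ∨
    (5 ≤ Fintype.card F ∧ ∃ D : Fin 3 → Submodule F (Fin 3 → F), Cfsg.Geo.IsMDecomposition 1 D ∧ H = Cfsg.Geo.decompositionStabilizer D ⊓ Cfsg.Geo.specialLinear (Fin 3) F) ∨
    (Fintype.card F ≠ 4 ∧ ∃ K : Subalgebra F (Matrix (Fin 3) (Fin 3) F), Cfsg.Geo.IsFieldSubalgebra 3 K ∧ H = Cfsg.Geo.subalgebraNormalizer K ⊓ Cfsg.Geo.specialLinear (Fin 3) F) ∨
    (∃ (F₀ : Subfield F) (r : ℕ) (P : Matrix.GeneralLinearGroup (Fin 3) F), r.Prime ∧ Fintype.card F = Nat.card F₀ ^ r ∧ H = Cfsg.Geo.subfieldSubgroup F₀ P ⊓ Cfsg.Geo.specialLinear (Fin 3) F) ∨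
    (∃ (p : ℕ) (R : Subgroup (Matrix.GeneralLinearGroup (Fin 3) F)), p.Prime ∧ Fintype.card F = p ∧ p % 3 = 1 ∧ Cfsg.Geo.IsLinearSymplecticTypeData 3 R ∧ H = Cfsg.Geo.subgroupNormalizer R ⊓ Cfsg.Geo.specialLinear (Fin 3) F) ∨
    (Odd (Fintype.card F) ∧ ∃ Q : (Fin 3 → F) → F, Cfsg.Geo.IsNondegenerateQuadraticForm Q ∧ H = Cfsg.Geo.quadSimilarityGroup Q ⊓ Cfsg.Geo.specialLinear (Fin 3) F) ∨
    (∃ (σ : F ≃+* F) (f : (Fin 3 → F) → (Fin 3 → F) → F), Cfsg.Geo.IsUnitaryForm σ f ∧ H = Cfsg.Geo.similarityGroup f ⊓ Cfsg.Geo.specialLinear (Fin 3) F) ∨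
    Cfsg.Geo.InLinearResidualClass H := by
  rcases Asch.maxL_of_max (by omega) hH with h | h
  swap
  · exact Or.inr <| Or.inr <| Or.inr <| Or.inr <| Or.inr <| Or.inr <| Or.inr <| h
  cases h with
  | red W h0 h1 h => exact Or.inl ⟨W, h0, h1, h⟩
  | dec t m D hD h1 h2 h =>
    obtain ⟨e1, e2, e3, e4⟩ := Asch.mdec_arith hD
    rw [Fintype.card_fin] at e1 e3
    obtain ⟨rfl, rfl⟩ : (t = 3 ∧ m = 1) := by
      interval_cases t <;> omega
    exact Or.inr <| Or.inl ⟨(h1 rfl).1, D, hD, h⟩
  | fld r K hr hK h1 h =>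
    obtain ⟨e1, e2⟩ := Asch.fld_arith hK
    rw [Fintype.card_fin] at e1 e2
    obtain rfl : r = 3 := by
      interval_cases r <;> first | omega | exact absurd hr (by decide)
    exact Or.inr <| Or.inr <| Or.inl ⟨h1 rfl, K, hK, h⟩
  | tens k m e P hk hkm h1 h =>
    obtain ⟨e1, e2⟩ := Asch.tens_arith e hkm
    rw [Fintype.card_fin] at e1 e2
    exfalso; interval_cases k <;> omega
  | sub K r P hr hc h => exact Or.inr <| Or.inr <| Or.inr <| Or.inl ⟨K, r, P, hr, hc, h⟩
  | sym r k R hR hk hs h =>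
    obtain ⟨e1, e2⟩ := Asch.prime_pow_arith hR.symplecticType.prime hk (by decide)
    obtain rfl : 3 = r := Eq.trans (by norm_num) e2
    obtain ⟨p, h1, h2, h3⟩ := Asch.sym_three hR
    exact Or.inr <| Or.inr <| Or.inr <| Or.inr <| Or.inl ⟨p, R, h1, h2, h3, hR, h⟩
  | wr m t e P hm ht h =>
    obtain ⟨e1, rfl, rfl⟩ := Asch.wr_arith e hm ht (by simp)
    simp at e1
  | sp f hf he h => exact absurd he (by decide)
  | uni σ f hf h => exact Or.inr <| Or.inr <| Or.inr <| Or.inr <| Or.inr <| Or.inr <| Or.inl ⟨σ, f, hf, h⟩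
  | orth Q hQ ho h => exact Or.inr <| Or.inr <| Or.inr <| Or.inr <| Or.inr <| Or.inl ⟨ho, Q, hQ, h⟩

end Cfsg.Agent.S5775
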