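import Cfsg.Statements.S5778
import Cfsg.Agent.Asch.SU7

set_option autoImplicit false
open Cfsg

namespace Cfsg.Agent.S5778

/-- Every maximal subgroup of SU_3(q), q ≥ 3, is of one of the listed geometric types or lies in the residual class. Let F be the field with q² elements, f the standard unitary form Σ u_i v_i^q on F^3, and H a maximal subgroup of SU_3(q) (the determinant-one isometries of f, inside GL_3(F)). Then H is the intersection with SU_3(q) of one of: the stabiliser of a non-zero subspace on which f vanishes; the stabiliser of a non-degenerate 1-space; for q ≠ 5, the stabiliser of a decomposition into three mutually orthogonal non-degenerate 1-spaces; for q ≠ 3, 5, the normaliser of an adjoint-closed degree-3 subfield of the matrix algebra; a subfield group of odd prime index whose F₀-structure carries f; for q odd, q ≥ 7, a subfield group of index 2 whose F₀-structure carries f; for q = p ≡ 2 mod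 3 prime with p ≥ 11, the normaliser of an absolutely irreducible subgroup of order 27 with centre of order 3, exponent 3 and all characteristic abelian subgroups cyclic, contained in the similarity group of f — or else H lies in the residual class of the unitary case. -/
theorem result {F : Type*} [Field F] [Fintype F] (q : ℕ) (hF : Fintype.card F = q ^ 2) (hq : 3 ≤ q) (H : Subgroup (Matrix.GeneralLinearGroup (Fin 3) F)) (hH : Cfsg.Geo.IsMaximalIn (Cfsg.GU 3 F q ⊓ Cfsg.Geo.specialLinear (Fin 3) F) H) :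
    (∃ W : Submodule F (Fin 3 → F), W ≠ ⊥ ∧ Cfsg.Geo.IsTotallySingularFor (Cfsg.hermForm 3 F q) W ∧ H = Cfsg.Geo.subspaceStabilizer W ⊓ (Cfsg.GU 3 F q ⊓ Cfsg.Geo.specialLinear (Fin 3) F)) ∨
    (∃ W : Submodule F (Fin 3 → F), W ≠ ⊥ ∧ Cfsg.Geo.IsNondegenerateOn (Cfsg.hermForm 3 F q) W ∧ 2 * Module.finrank F W < 3 ∧ H = Cfsg.Geo.subspaceStabilizer W ⊓ (Cfsg.GU 3 F q ⊓ Cfsg.Geo.specialLinear (Fin 3) F)) ∨
    (q ≠ 5 ∧ ∃ D : Fin 3 → Submodule F (Fin 3 → F), Cfsg.Geo.IsNondegenerateMDecomposition (Cfsg.hermForm 3 F q) 1 D ∧ H = Cfsg.Geo.decompositionStabilizer D ⊓ (Cfsg.GU 3 F q ⊓ Cfsg.Geo.specialLinear (Fin 3) F)) ∨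
    (q ≠ 3 ∧ q ≠ 5 ∧ ∃ K : Subalgebra F (Matrix (Fin 3) (Fin 3) F), Cfsg.Geo.IsFieldSubalgebra 3 K ∧ Cfsg.Geo.IsAdjointClosedFor (Cfsg.hermForm 3 F q) K ∧ H = Cfsg.Geo.subalgebraNormalizer K ⊓ (Cfsg.GU 3 F q ⊓ Cfsg.Geo.specialLinear (Fin 3) F)) ∨
    (∃ (F₀ : Subfield F) (r : ℕ) (P : Matrix.GeneralLinearGroup (Fin 3) F), r.Prime ∧ Odd r ∧ Fintype.card F = Nat.card F₀ ^ r ∧ Cfsg.Geo.IsFormRationalStructure (Cfsg.hermForm 3 F q) F₀ 1 P ∧ H = Cfsg.Geo.subfieldSubgroup F₀ P ⊓ (Cfsg.GU 3 F q ⊓ Cfsg.Geo.specialLinear (Fin 3) F)) ∨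
    (Odd q ∧ 7 ≤ q ∧ ∃ (F₀ : Subfield F) (P : Matrix.GeneralLinearGroup (Fin 3) F), Fintype.card F = Nat.card F₀ ^ 2 ∧ Cfsg.Geo.IsFormRationalStructure (Cfsg.hermForm 3 F q) F₀ 1 P ∧ H = Cfsg.Geo.subfieldSubgroup F₀ P ⊓ (Cfsg.GU 3 F q ⊓ Cfsg.Geo.specialLinear (Fin 3) F)) ∨
    (∃ (p : ℕ) (R : Subgroup (Matrix.GeneralLinearGroup (Fin 3) F)), p.Prime ∧ q = p ∧ p % 3 = 2 ∧ 11 ≤ p ∧ Cfsg.Geo.IsSymplecticTypeGroup 3 R ∧ Cfsg.Geo.ActsAbsolutelyIrreducibly (Cfsg.Geo.matrixSet R) ∧ R ≤ Cfsg.Geo.similarityGroup (Cfsg.hermForm 3 F q) ∧ Nat.card R = 27 ∧ Nat.card (Subgroup.center R) = 3 ∧ H = Cfsg.Geo.subgroupNormalizer R ⊓ (Cfsg.GU 3 F q ⊓ Cfsg.Geo.specialLinear (Fin 3) F)) ∨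
    Cfsg.Geo.InUnitaryResidualClass H := by
  rcases Asch.maxU_of_max hF (by omega) (by omega) hH with h | h
  swap
  · exact Or.inr <| Or.inr <| Or.inr <| Or.inr <| Or.inr <| Or.inr <| Or.inr <| h
  cases h with
  | ts W h0 h1 h => exact Or.inl ⟨W, h0, h1, h⟩
  | nd W h0 h1 h2 h => exact Or.inr <| Or.inl ⟨W, h0, h1, h2, h⟩
  | dec t k D hD h2 h =>
    obtain ⟨e1, e2, e3, e4⟩ := Asch.mdec_arith hD.decomp
    rw [Fintype.card_fin] at e1 e3
    obtain ⟨rfl, rfl⟩ : (t = 3 ∧ k = 1) := by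
      interval_cases t <;> omega
    refine Or.inr <| Or.inr <| Or.inl ⟨?_, D, hD, h⟩
    rintro rfl
    exact Asch.not_frame5 hF hH hD (h.le.trans inf_le_left)
  | pair k D hD h1 h =>
    obtain ⟨e1, -⟩ := Asch.mdec_arith hD
    rw [Fintype.card_fin] at e1
    omega
  | subOdd K r P hr ho hc h1 h => exact Or.inr <| Or.inr <| Or.inr <| Or.inr <| Or.inl ⟨K, r, P, hr, ho, hc, h1, h⟩
  | subO K P ho hc h1 h =>
    refine Or.inr <| Or.inr <| Or.inr <| Or.inr <| Or.inr <| Or.inl ⟨ho, ?_, K, P, hc, h1, h⟩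
    by_contra h7
    obtain rfl | rfl : q = 3 ∨ q = 5 := by obtain ⟨k, rfl⟩ := ho; omega
    · exact Asch.not_sub3 hF hH hc h1 (h.le.trans inf_le_left)
    · exact Asch.not_sub5 hF hH hc h1 (h.le.trans inf_le_left)
  | subS K P ζ he hc hζ hz h1 h2 h => exact absurd he (by decide)
  | sym r R s e k h1 h2 h3 hm h4 hk h =>
    obtain ⟨e1, e2⟩ := Asch.prime_pow_arith h1.prime hk (by decide)
    obtain rfl : 3 = r := Eq.trans (by norm_num) e2
    obtain rfl : 1 = k := Nat.pow_right_injective (show 2 ≤ 3 by decide) hk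
    obtain ⟨-, h5, h6⟩ := h4.resolve_right fun h => absurd h.1 (by decide)
    obtain ⟨a1, a2, a3⟩ := Asch.usym_three hF (h5 ▸ hm)
    refine Or.inr <| Or.inr <| Or.inr <| Or.inr <| Or.inr <| Or.inr <| Or.inl ⟨s, R, a1, a2, a3, ?_, h1, Asch.absIrr_of_gspan h2, h3.trans (Asch.iso_le_sim _), h6, h5, h⟩
    by_contra h7
    subst a2
    obtain rfl | rfl : q = 5 ∨ q = 8 := by omega
    · exact Asch.not_sym5 hF hH h1 h2 h3 h5 h6 (h.le.trans inf_le_left)
    · exact absurd a1 (by decide)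
  | fld r K hr ho hK h1 h =>
    obtain ⟨e1, e2⟩ := Asch.fld_arith hK
    rw [Fintype.card_fin] at e1 e2
    obtain rfl : r = 3 := by
      interval_cases r <;> first | omega | exact absurd hr (by decide) | exact absurd ho (by decide)
    refine Or.inr <| Or.inr <| Or.inr <| Or.inl ⟨?_, ?_, K, hK, h1, h⟩ <;> rintro rfl
    · exact Asch.not_fld33 hF hK h1 hH (h.le.trans inf_le_left)
    · exact Asch.not_fld35 hF hH hK h1 (h.le.trans inf_le_left)
  | tens k m e P f₁ f₂ hk hkm h2 hf₁ hf₂ hT h =>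
    obtain ⟨e1, e2⟩ := Asch.tens_arith e hkm
    rw [Fintype.card_fin] at e1 e2
    exfalso; interval_cases k <;> omega
  | wr k t e P f₁ hk ht hx hf₁ hT h =>
    obtain ⟨e1, rfl, rfl⟩ := Asch.wr_arith e hk ht (by simp)
    simp at e1

end Cfsg.Agent.S5778
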