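import Cfsg.Statements.S5784
import Cfsg.Agent.Asch.SU1

set_option autoImplicit false
open Cfsg

namespace Cfsg.Agent.S5784

/-- Every maximal subgroup of SU_4(q) is of one of the listed geometric types or lies in the residual class. Let F be the field with q² elements, f the standard unitary form Σ u_i v_i^q on F^4, and H a maximal subgroup of SU_4(q) (inside GL_4(F)). Then H is the intersection with SU_4(q) of one of: the stabiliser of a non-zero subspace on which f vanishes; the stabiliser of a non-degenerate 1-space; for q ≠ 3, the stabiliser of a decomposition into four mutually orthogonal non-degenerate 1-spaces; for q ≥ 3, of a decomposition into two orthogonal non-degenerate 2-spaces; for q ≥ 4, of a decomposition into two totally isotropic 2-spaces; a subfield group of odd prime index whose F₀-structure carries f; a subfield group of index 2 whose F₀-structure carries ζ f, vanishing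 on pairs (u, u), for some non-zero ζ with ζ + ζ^q = 0; for q odd, a subfield group of index 2 whose F₀-structure carries f; for q = p ≡ 3 mod 4 prime, the normaliser of an absolutely irreducible symplectic-type 2-group of exponent 4, order 64 and centre of order 4 inside the similarity group of f — or else H lies in the residual class of the unitary case. -/
theorem result {F : Type*} [Field F] [Fintype F] (q : ℕ) (hF : Fintype.card F = q ^ 2) (H : Subgroup (Matrix.GeneralLinearGroup (Fin 4) F)) (hH : Cfsg.Geo.IsMaximalIn (Cfsg.GU 4 F q ⊓ Cfsg.Geo.specialLinear (Fin 4) F) H) :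
    (∃ W : Submodule F (Fin 4 → F), W ≠ ⊥ ∧ Cfsg.Geo.IsTotallySingularFor (Cfsg.hermForm 4 F q) W ∧ H = Cfsg.Geo.subspaceStabilizer W ⊓ (Cfsg.GU 4 F q ⊓ Cfsg.Geo.specialLinear (Fin 4) F)) ∨
    (∃ W : Submodule F (Fin 4 → F), W ≠ ⊥ ∧ Cfsg.Geo.IsNondegenerateOn (Cfsg.hermForm 4 F q) W ∧ 2 * Module.finrank F W < 4 ∧ H = Cfsg.Geo.subspaceStabilizer W ⊓ (Cfsg.GU 4 F q ⊓ Cfsg.Geo.specialLinear (Fin 4) F)) ∨
    (q ≠ 3 ∧ ∃ D : Fin 4 → Submodule F (Fin 4 → F), Cfsg.Geo.IsNondegenerateMDecomposition (Cfsg.hermForm 4 F q) 1 D ∧ H = Cfsg.Geo.decompositionStabilizer D ⊓ (Cfsg.GU 4 F q ⊓ Cfsg.Geo.specialLinear (Fin 4) F)) ∨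
    (3 ≤ q ∧ ∃ D : Fin 2 → Submodule F (Fin 4 → F), Cfsg.Geo.IsNondegenerateMDecomposition (Cfsg.hermForm 4 F q) 2 D ∧ H = Cfsg.Geo.decompositionStabilizer D ⊓ (Cfsg.GU 4 F q ⊓ Cfsg.Geo.specialLinear (Fin 4) F)) ∨
    (4 ≤ q ∧ ∃ D : Fin 2 → Submodule F (Fin 4 → F), Cfsg.Geo.IsMDecomposition 2 D ∧ (∀ i, Cfsg.Geo.IsTotallySingularFor (Cfsg.hermForm 4 F q) (D i)) ∧ H = Cfsg.Geo.decompositionStabilizer D ⊓ (Cfsg.GU 4 F q ⊓ Cfsg.Geo.specialLinear (Fin 4) F)) ∨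
    (∃ (F₀ : Subfield F) (r : ℕ) (P : Matrix.GeneralLinearGroup (Fin 4) F), r.Prime ∧ Odd r ∧ Fintype.card F = Nat.card F₀ ^ r ∧ Cfsg.Geo.IsFormRationalStructure (Cfsg.hermForm 4 F q) F₀ 1 P ∧ H = Cfsg.Geo.subfieldSubgroup F₀ P ⊓ (Cfsg.GU 4 F q ⊓ Cfsg.Geo.specialLinear (Fin 4) F)) ∨
    (∃ (F₀ : Subfield F) (P : Matrix.GeneralLinearGroup (Fin 4) F) (ζ : F), Fintype.card F = Nat.card F₀ ^ 2 ∧ ζ ≠ 0 ∧ ζ + ζ ^ q = 0 ∧ Cfsg.Geo.IsFormRationalStructure (Cfsg.hermForm 4 F q) F₀ ζ P ∧ (∀ u : Fin 4 → F, (∀ i, u i ∈ F₀) → (Cfsg.hermForm 4 F q) (Matrix.mulVec (P : Matrix (Fin 4) (Fin 4) F) u) (Matrix.mulVec (P : Matrix (Fin 4) (Fin 4) F) u) = 0) ∧ H = Cfsg.Geo.subfieldSubgroup F₀ P ⊓ (Cfsg.GU 4 F q ⊓ Cfsg.Geo.specialLinear (Fin 4) F)) ∨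
    (Odd q ∧ ∃ (F₀ : Subfield F) (P : Matrix.GeneralLinearGroup (Fin 4) F), Fintype.card F = Nat.card F₀ ^ 2 ∧ Cfsg.Geo.IsFormRationalStructure (Cfsg.hermForm 4 F q) F₀ 1 P ∧ H = Cfsg.Geo.subfieldSubgroup F₀ P ⊓ (Cfsg.GU 4 F q ⊓ Cfsg.Geo.specialLinear (Fin 4) F)) ∨
    (∃ (p : ℕ) (R : Subgroup (Matrix.GeneralLinearGroup (Fin 4) F)), p.Prime ∧ q = p ∧ p % 4 = 3 ∧ Cfsg.Geo.IsSymplecticTypeGroup 2 R ∧ Cfsg.Geo.ActsAbsolutelyIrreducibly (Cfsg.Geo.matrixSet R) ∧ R ≤ Cfsg.Geo.similarityGroup (Cfsg.hermForm 4 F q) ∧ Nat.card R = 64 ∧ Nat.card (Subgroup.center R) = 4 ∧ H = Cfsg.Geo.subgroupNormalizer R ⊓ (Cfsg.GU 4 F q ⊓ Cfsg.Geo.specialLinear (Fin 4) F)) ∨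
    Cfsg.Geo.InUnitaryResidualClass H := by
  rcases Asch.maxU_of_max hF (by omega) (by omega) hH with h | h
  swap
  · exact Or.inr <| Or.inr <| Or.inr <| Or.inr <| Or.inr <| Or.inr <| Or.inr <| Or.inr <| Or.inr <| h
  cases h with
  | ts W h0 h1 h => exact Or.inl ⟨W, h0, h1, h⟩
  | nd W h0 h1 h2 h => exact Or.inr <| Or.inl ⟨W, h0, h1, h2, h⟩
  | dec t k D hD h2 h =>
    obtain ⟨e1, e2, e3, e4⟩ := Asch.mdec_arith hD.decomp
    rw [Fintype.card_fin] at e1 e3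
    obtain ⟨rfl, rfl⟩ | ⟨rfl, rfl⟩ : (t = 4 ∧ k = 1) ∨ (t = 2 ∧ k = 2) := by
      interval_cases t <;> omega
    · by_cases hq : q = 3
      · subst hq
        obtain ⟨R, a1, a2, a3, a4, a5, a6⟩ := Asch.sym_of_frame hF hH hD (h.le.trans inf_le_left)
        exact Or.inr <| Or.inr <| Or.inr <| Or.inr <| Or.inr <| Or.inr <| Or.inr <| Or.inr <| Or.inl ⟨3, R, by decide, rfl, rfl, a1, a2, a3, a4, a5, a6⟩
      · exact Or.inr <| Or.inr <| Or.inl ⟨hq, D, hD, h⟩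
    · exact Or.inr <| Or.inr <| Or.inr <| Or.inl ⟨h2 rfl, D, hD, h⟩
  | pair k D hD h1 h =>
    obtain ⟨e1, -⟩ := Asch.mdec_arith hD
    rw [Fintype.card_fin] at e1
    obtain rfl : k = 2 := by omega
    by_cases hq : q ≤ 3
    · exact Or.inr <| Or.inr <| Or.inr <| Or.inr <| Or.inr <| Or.inr <| Or.inl (Asch.subS_of_pair hF hq hH hD h1 (h.le.trans inf_le_left))
    · exact Or.inr <| Or.inr <| Or.inr <| Or.inr <| Or.inl ⟨by omega, D, hD, h1, h⟩
  | subOdd K r P hr ho hc h1 h => exact Or.inr <| Or.inr <| Or.inr <| Or.inr <| Or.inr <| Or.inl ⟨K, r, P, hr, ho, hc, h1, h⟩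
  | subO K P ho hc h1 h => exact Or.inr <| Or.inr <| Or.inr <| Or.inr <| Or.inr <| Or.inr <| Or.inr <| Or.inl ⟨ho, K, P, hc, h1, h⟩
  | subS K P ζ he hc hζ hz h1 h2 h => exact Or.inr <| Or.inr <| Or.inr <| Or.inr <| Or.inr <| Or.inr <| Or.inl ⟨K, P, ζ, hc, hζ, hz, h1, h2, h⟩
  | sym r R s e k h1 h2 h3 hm h4 hk h =>
    obtain ⟨e1, e2⟩ := Asch.prime_pow_arith h1.prime hk (by decide)
    obtain rfl : 2 = r := Eq.trans (by norm_num) e2
    obtain rfl : 2 = k := Nat.pow_right_injective (show 2 ≤ 2 by decide) hk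
    obtain ⟨-, rfl, h5, h6⟩ := h4.resolve_left fun h => absurd h.1 (by decide)
    obtain ⟨a1, a2, a3⟩ := Asch.usym_four hF (h5 ▸ hm)
    exact Or.inr <| Or.inr <| Or.inr <| Or.inr <| Or.inr <| Or.inr <| Or.inr <| Or.inr <| Or.inl ⟨s, R, a1, a2, a3, h1, Asch.absIrr_of_gspan h2, h3.trans (Asch.iso_le_sim _), h6, h5, h⟩
  | fld r K hr ho hK h1 h =>
    obtain ⟨e1, e2⟩ := Asch.fld_arith hK
    rw [Fintype.card_fin] at e1 e2
    exfalso
    interval_cases r <;> first | omega | exact absurd hr (by decide) | exact absurd ho (by decide)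
  | tens k m e P f₁ f₂ hk hkm h2 hf₁ hf₂ hT h =>
    obtain ⟨e1, e2⟩ := Asch.tens_arith e hkm
    rw [Fintype.card_fin] at e1 e2
    exfalso; interval_cases k <;> omega
  | wr k t e P f₁ hk ht hx hf₁ hT h =>
    obtain ⟨e1, rfl, rfl⟩ := Asch.wr_arith e hk ht (by simp)
    simp at e1

end Cfsg.Agent.S5784
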