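import Cfsg.Statements.S5790
import Cfsg.Agent.Asch.MaxSp

set_option autoImplicit false
open Cfsg

namespace Cfsg.Agent.S5790

/-- Every maximal subgroup of Sp_4(q), q ≥ 4 even, is of one of the listed geometric types or lies in the residual class. Let F be a finite field of even order q ≥ 4, f the standard alternating form on F^4 (coordinates Fin 2 ⊕ Fin 2), and H a maximal subgroup of Sp_4(F) (inside GL_4(F)). Then H is the intersection with Sp_4(F) of one of: the stabiliser of a non-zero totally isotropic subspace; the stabiliser of a decomposition into two orthogonal non-degenerate 2-spaces; the normaliser of a degree-2 subfield K of the matrix algebra, self-adjoint with f(k v, v) = 0; a subfield group whose F₀-structure carries a non-zero multiple of f, |F| = |F₀|^r with r prime; the similarity group of a non-degenerate quadratic form whose polar form is f — or else H lies in the residual class of the symplectic case.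 -/
theorem result {F : Type*} [Field F] [Fintype F] (heven : ¬ Odd (Fintype.card F)) (h4 : 4 ≤ Fintype.card F) (H : Subgroup (Matrix.GeneralLinearGroup (Fin 2 ⊕ Fin 2) F)) (hH : Cfsg.Geo.IsMaximalIn (Cfsg.spGL 2 F) H) :
    (∃ W : Submodule F (Fin 2 ⊕ Fin 2 → F), W ≠ ⊥ ∧ Cfsg.Geo.IsTotallySingularFor (Cfsg.sympForm 2 F) W ∧ H = Cfsg.Geo.subspaceStabilizer W ⊓ Cfsg.spGL 2 F) ∨
    (∃ D : Fin 2 → Submodule F (Fin 2 ⊕ Fin 2 → F), Cfsg.Geo.IsNondegenerateMDecomposition (Cfsg.sympForm 2 F) 2 D ∧ H = Cfsg.Geo.decompositionStabilizer D ⊓ Cfsg.spGL 2 F) ∨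
    (∃ K : Subalgebra F (Matrix (Fin 2 ⊕ Fin 2) (Fin 2 ⊕ Fin 2) F), Cfsg.Geo.IsFieldSubalgebra 2 K ∧ Cfsg.Geo.IsSelfAdjointFor (Cfsg.sympForm 2 F) K ∧ (∀ k ∈ K, ∀ v : (Fin 2 ⊕ Fin 2 → F), (Cfsg.sympForm 2 F) (Matrix.mulVec k v) v = 0) ∧ H = Cfsg.Geo.subalgebraNormalizer K ⊓ Cfsg.spGL 2 F) ∨
    (∃ (F₀ : Subfield F) (r : ℕ) (P : Matrix.GeneralLinearGroup (Fin 2 ⊕ Fin 2) F) (ζ : F), r.Prime ∧ Fintype.card F = Nat.card F₀ ^ r ∧ ζ ≠ 0 ∧ Cfsg.Geo.IsFormRationalStructure (Cfsg.sympForm 2 F) F₀ ζ P ∧ H = Cfsg.Geo.subfieldSubgroup F₀ P ⊓ Cfsg.spGL 2 F) ∨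
    (∃ Q : (Fin 2 ⊕ Fin 2 → F) → F, Cfsg.Geo.IsNondegenerateQuadraticForm Q ∧ (∀ u v : (Fin 2 ⊕ Fin 2 → F), QuadraticMap.polar Q u v = (Cfsg.sympForm 2 F) u v) ∧ H = Cfsg.Geo.quadSimilarityGroup Q ⊓ Cfsg.spGL 2 F) ∨
    Cfsg.Geo.InSymplecticResidualClass H := by
  rcases Asch.maxSp_of_max (by omega) (by omega) hH with h | h
  swap
  · exact Or.inr <| Or.inr <| Or.inr <| Or.inr <| Or.inr <| h
  cases h with
  | ts W h0 h1 h => exact Or.inl ⟨W, h0, h1, h⟩
  | nd W h0 h1 h2 h3 h => omega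
  | dec t k D hD he h2 h =>
    obtain ⟨e1, e2, e3, e4⟩ := Asch.mdec_arith hD.decomp
    obtain ⟨j, hj⟩ := he
    simp only [Fintype.card_sum, Fintype.card_fin] at e1 e3
    obtain ⟨rfl, rfl⟩ : (t = 2 ∧ k = 2) := by
      interval_cases t <;> omega
    exact Or.inr <| Or.inl ⟨D, hD, h⟩
  | pair D ho hD h1 h2 h => exact absurd ho heven
  | sub K r P ζ hr hc hζ h1 h => exact Or.inr <| Or.inr <| Or.inr <| Or.inl ⟨K, r, P, ζ, hr, hc, hζ, h1, h⟩
  | sym R s k h1 h2 h3 hp ho hc h4 h5 h6 hk h => exact absurd (hc ▸ ho) heven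
  | quad Q ho hQ h1 h => exact Or.inr <| Or.inr <| Or.inr <| Or.inr <| Or.inl ⟨Q, hQ, h1, h⟩
  | fld r K hr hK h1 h2 hd h =>
    have e2 := Nat.le_of_dvd (by decide) hd
    obtain rfl : r = 2 := by
      interval_cases r <;> first | omega | exact absurd hr (by decide)
    exact Or.inr <| Or.inr <| Or.inl ⟨K, hK, h1, h2, h⟩
  | uni K ho hK h1 h2 h3 h => exact absurd ho heven
  | tens k n e P f₁ f₂ ho hk he hn h3 h4 hf₁ hf₂ hT h =>
    have e1 : k * n = 4 := by simpa using (Fintype.card_congr e).symm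
    have e2 : k ≤ 4 := e1 ▸ Nat.le_mul_of_pos_right _ (by omega)
    obtain ⟨j, hj⟩ := he
    exfalso; interval_cases k <;> omega
  | wr k t e P f₁ ho ht hk hx hf₁ hT h =>
    have e1 : 4 = k ^ t := by simpa using Fintype.card_congr e
    have e2 : k ^ 3 ≤ 4 := e1 ▸ Nat.pow_le_pow_right (by omega) ht
    have e3 : k < 3 := by
      by_contra hc
      have := Nat.pow_le_pow_left (not_lt.1 hc) 3
      omega
    obtain rfl : k = 2 := by omega
    omega

end Cfsg.Agent.S5790
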