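import Cfsg.Statements.S5793
import Cfsg.Agent.Asch.MaxL

set_option autoImplicit false
open Cfsg

namespace Cfsg.Agent.S5793

/-- Every maximal subgroup of SL_5(q) is of one of the listed geometric types or lies in the residual class. Let F be a finite field with q elements (p its characteristic) and H a maximal subgroup of SL_5(F) (inside GL_5(F)). Then H is the intersection with SL_5(F) of one of: the stabiliser of a proper non-zero subspace; for q ≥ 5, the stabiliser of a decomposition into 5 independent 1-spaces; the normaliser of a degree-5 subfield of the matrix algebra; a subfield group for a subfield F₀ with |F| = |F₀|^r, r prime; for q = p prime with p ≡ 1 mod 5, the normaliser of an absolutely irreducible 5-subgroup R of exponent 5 and order 5^(1+2m) with centre of order 5, all of whose characteristic abelian subgroups are cyclic, F being the smallest field of characteristic p containing the fifth roots of unity (here R is extraspecial of order 125); for q odd, the similarity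 group of a non-degenerate quadratic form; the similarity group of a non-degenerate unitary form — or else H lies in the residual class of the linear case (modulo scalars H is almost simple, with absolutely irreducible perfect socle preimage realisable over no proper subfield and fixing no non-degenerate quadratic, symplectic or unitary form). -/
theorem result {F : Type*} [Field F] [Fintype F] (H : Subgroup (Matrix.GeneralLinearGroup (Fin 5) F)) (hH : Cfsg.Geo.IsMaximalIn (Cfsg.Geo.specialLinear (Fin 5) F) H) :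
    (∃ W : Submodule F (Fin 5 → F), W ≠ ⊥ ∧ W ≠ ⊤ ∧ H = Cfsg.Geo.subspaceStabilizer W ⊓ Cfsg.Geo.specialLinear (Fin 5) F) ∨
    (5 ≤ Fintype.card F ∧ ∃ D : Fin 5 → Submodule F (Fin 5 → F), Cfsg.Geo.IsMDecomposition 1 D ∧ H = Cfsg.Geo.decompositionStabilizer D ⊓ Cfsg.Geo.specialLinear (Fin 5) F) ∨
    (∃ K : Subalgebra F (Matrix (Fin 5) (Fin 5) F), Cfsg.Geo.IsFieldSubalgebra 5 K ∧ H = Cfsg.Geo.subalgebraNormalizer K ⊓ Cfsg.Geo.specialLinear (Fin 5) F) ∨
    (∃ (F₀ : Subfield F) (r : ℕ) (P : Matrix.GeneralLinearGroup (Fin 5) F), r.Prime ∧ Fintype.card F = Nat.card F₀ ^ r ∧ H = Cfsg.Geo.subfieldSubgroup F₀ P ⊓ Cfsg.Geo.specialLinear (Fin 5) F) ∨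
    ((∃ p : ℕ, p.Prime ∧ Fintype.card F = p ∧ (p % 5 = 1)) ∧ ∃ R : Subgroup (Matrix.GeneralLinearGroup (Fin 5) F), Cfsg.Geo.IsLinearSymplecticTypeData 5 R ∧ H = Cfsg.Geo.subgroupNormalizer R ⊓ Cfsg.Geo.specialLinear (Fin 5) F) ∨
    (Odd (Fintype.card F) ∧ ∃ Q : (Fin 5 → F) → F, Cfsg.Geo.IsNondegenerateQuadraticForm Q ∧ H = Cfsg.Geo.quadSimilarityGroup Q ⊓ Cfsg.Geo.specialLinear (Fin 5) F) ∨
    (∃ (σ : F ≃+* F) (f : (Fin 5 → F) → (Fin 5 → F) → F), Cfsg.Geo.IsUnitaryForm σ f ∧ H = Cfsg.Geo.similarityGroup f ⊓ Cfsg.Geo.specialLinear (Fin 5) F) ∨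
    Cfsg.Geo.InLinearResidualClass H := by
  rcases Asch.maxL_of_max (by omega) hH with h | h
  swap
  · exact Or.inr <| Or.inr <| Or.inr <| Or.inr <| Or.inr <| Or.inr <| Or.inr <| h
  cases h with
  | red W h0 h1 h => exact Or.inl ⟨W, h0, h1, h⟩
  | dec t m D hD h1 h2 h =>
    obtain ⟨e1, e2, e3, e4⟩ := Asch.mdec_arith hD
    rw [Fintype.card_fin] at e1 e3
    obtain ⟨rfl, rfl⟩ : (t = 5 ∧ m = 1) := by
      interval_cases t <;> omega
    exact Or.inr <| Or.inl ⟨(h1 rfl).1, D, hD, h⟩
  | fld r K hr hK h1 h =>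
    obtain ⟨e1, e2⟩ := Asch.fld_arith hK
    rw [Fintype.card_fin] at e1 e2
    obtain rfl : r = 5 := by
      interval_cases r <;> first | omega | exact absurd hr (by decide)
    exact Or.inr <| Or.inr <| Or.inl ⟨K, hK, h⟩
  | tens k m e P hk hkm h1 h =>
    obtain ⟨e1, e2⟩ := Asch.tens_arith e hkm
    rw [Fintype.card_fin] at e1 e2
    exfalso; interval_cases k <;> omega
  | sub K r P hr hc h => exact Or.inr <| Or.inr <| Or.inr <| Or.inl ⟨K, r, P, hr, hc, h⟩
  | sym r k R hR hk hs h =>
    obtain ⟨e1, e2⟩ := Asch.prime_pow_arith hR.symplecticType.prime hk (by decide)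
    obtain rfl : 5 = r := Eq.trans (by norm_num) e2
    exact Or.inr <| Or.inr <| Or.inr <| Or.inr <| Or.inl ⟨Asch.sym_five hR, R, hR, h⟩
  | wr m t e P hm ht h =>
    obtain ⟨e1, rfl, rfl⟩ := Asch.wr_arith e hm ht (by simp)
    simp at e1
  | sp f hf he h => exact absurd he (by decide)
  | uni σ f hf h => exact Or.inr <| Or.inr <| Or.inr <| Or.inr <| Or.inr <| Or.inr <| Or.inl ⟨σ, f, hf, h⟩
  | orth Q hQ ho h => exact Or.inr <| Or.inr <| Or.inr <| Or.inr <| Or.inr <| Or.inl ⟨ho, Q, hQ, h⟩

end Cfsg.Agent.S5793
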