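import Cfsg.Statements.S5796
import Cfsg.Agent.Asch.SU4

set_option autoImplicit false
open Cfsg

namespace Cfsg.Agent.S5796

/-- Every maximal subgroup of SU_5(q) is of one of the listed geometric types or lies in the residual class. Let F be the field with q² elements (characteristic p), f the standard unitary form Σ u_i v_i^q on F^5, and H a maximal subgroup of SU_5(q) (inside GL_5(F)). Then H is the intersection with SU_5(q) of one of: the stabiliser of a non-zero totally isotropic subspace; the stabiliser of a non-degenerate 1-space or 2-space; the stabiliser of a decomposition into five mutually orthogonal non-degenerate 1-spaces; for q ≥ 3, the normaliser of an adjoint-closed degree-5 subfield of the matrix algebra; a subfield group of odd prime index whose F₀-structure carries f; for q odd, a subfield group of index 2 whose F₀-structure carries f; for q = p ≡ 4 mod 5 or q = p² with p ≡ 2, 3 mod 5, the normaliser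 of an absolutely irreducible 5-group of exponent 5, order 125 and centre of order 5 with all characteristic abelian subgroups cyclic inside the similarity group of f — or else H lies in the residual class of the unitary case. -/
theorem result {F : Type*} [Field F] [Fintype F] (q : ℕ) (hF : Fintype.card F = q ^ 2) (H : Subgroup (Matrix.GeneralLinearGroup (Fin 5) F)) (hH : Cfsg.Geo.IsMaximalIn (Cfsg.GU 5 F q ⊓ Cfsg.Geo.specialLinear (Fin 5) F) H) :
    (∃ W : Submodule F (Fin 5 → F), W ≠ ⊥ ∧ Cfsg.Geo.IsTotallySingularFor (Cfsg.hermForm 5 F q) W ∧ H = Cfsg.Geo.subspaceStabilizer W ⊓ (Cfsg.GU 5 F q ⊓ Cfsg.Geo.specialLinear (Fin 5) F)) ∨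
    (∃ W : Submodule F (Fin 5 → F), W ≠ ⊥ ∧ Cfsg.Geo.IsNondegenerateOn (Cfsg.hermForm 5 F q) W ∧ 2 * Module.finrank F W < 5 ∧ H = Cfsg.Geo.subspaceStabilizer W ⊓ (Cfsg.GU 5 F q ⊓ Cfsg.Geo.specialLinear (Fin 5) F)) ∨
    (∃ D : Fin 5 → Submodule F (Fin 5 → F), Cfsg.Geo.IsNondegenerateMDecomposition (Cfsg.hermForm 5 F q) 1 D ∧ H = Cfsg.Geo.decompositionStabilizer D ⊓ (Cfsg.GU 5 F q ⊓ Cfsg.Geo.specialLinear (Fin 5) F)) ∨
    (3 ≤ q ∧ ∃ K : Subalgebra F (Matrix (Fin 5) (Fin 5) F), Cfsg.Geo.IsFieldSubalgebra 5 K ∧ Cfsg.Geo.IsAdjointClosedFor (Cfsg.hermForm 5 F q) K ∧ H = Cfsg.Geo.subalgebraNormalizer K ⊓ (Cfsg.GU 5 F q ⊓ Cfsg.Geo.specialLinear (Fin 5) F)) ∨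
    (∃ (F₀ : Subfield F) (r : ℕ) (P : Matrix.GeneralLinearGroup (Fin 5) F), r.Prime ∧ Odd r ∧ Fintype.card F = Nat.card F₀ ^ r ∧ Cfsg.Geo.IsFormRationalStructure (Cfsg.hermForm 5 F q) F₀ 1 P ∧ H = Cfsg.Geo.subfieldSubgroup F₀ P ⊓ (Cfsg.GU 5 F q ⊓ Cfsg.Geo.specialLinear (Fin 5) F)) ∨
    (Odd q ∧ ∃ (F₀ : Subfield F) (P : Matrix.GeneralLinearGroup (Fin 5) F), Fintype.card F = Nat.card F₀ ^ 2 ∧ Cfsg.Geo.IsFormRationalStructure (Cfsg.hermForm 5 F q) F₀ 1 P ∧ H = Cfsg.Geo.subfieldSubgroup F₀ P ⊓ (Cfsg.GU 5 F q ⊓ Cfsg.Geo.specialLinear (Fin 5) F)) ∨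
    (∃ (p : ℕ) (R : Subgroup (Matrix.GeneralLinearGroup (Fin 5) F)), p.Prime ∧ CharP F p ∧ ((q = p ∧ p % 5 = 4) ∨ (q = p ^ 2 ∧ (p % 5 = 2 ∨ p % 5 = 3))) ∧ Cfsg.Geo.IsSymplecticTypeGroup 5 R ∧ Cfsg.Geo.ActsAbsolutelyIrreducibly (Cfsg.Geo.matrixSet R) ∧ R ≤ Cfsg.Geo.similarityGroup (Cfsg.hermForm 5 F q) ∧ Nat.card R = 125 ∧ Nat.card (Subgroup.center R) = 5 ∧ H = Cfsg.Geo.subgroupNormalizer R ⊓ (Cfsg.GU 5 F q ⊓ Cfsg.Geo.specialLinear (Fin 5) F)) ∨
    Cfsg.Geo.InUnitaryResidualClass H := by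
  rcases Asch.maxU_of_max hF (by omega) (by omega) hH with h | h
  swap
  · exact Or.inr <| Or.inr <| Or.inr <| Or.inr <| Or.inr <| Or.inr <| Or.inr <| h
  cases h with
  | ts W h0 h1 h => exact Or.inl ⟨W, h0, h1, h⟩
  | nd W h0 h1 h2 h => exact Or.inr <| Or.inl ⟨W, h0, h1, h2, h⟩
  | dec t k D hD h2 h =>
    obtain ⟨e1, e2, e3, e4⟩ := Asch.mdec_arith hD.decomp
    rw [Fintype.card_fin] at e1 e3
    obtain ⟨rfl, rfl⟩ : (t = 5 ∧ k = 1) := by
      interval_cases t <;> omega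
    exact Or.inr <| Or.inr <| Or.inl ⟨D, hD, h⟩
  | pair k D hD h1 h =>
    obtain ⟨e1, -⟩ := Asch.mdec_arith hD
    rw [Fintype.card_fin] at e1
    omega
  | subOdd K r P hr ho hc h1 h => exact Or.inr <| Or.inr <| Or.inr <| Or.inr <| Or.inl ⟨K, r, P, hr, ho, hc, h1, h⟩
  | subO K P ho hc h1 h => exact Or.inr <| Or.inr <| Or.inr <| Or.inr <| Or.inr <| Or.inl ⟨ho, K, P, hc, h1, h⟩
  | subS K P ζ he hc hζ hz h1 h2 h => exact absurd he (by decide)
  | sym r R s e k h1 h2 h3 hm h4 hk h =>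
    obtain ⟨e1, e2⟩ := Asch.prime_pow_arith h1.prime hk (by decide)
    obtain rfl : 5 = r := Eq.trans (by norm_num) e2
    obtain rfl : 1 = k := Nat.pow_right_injective (show 2 ≤ 5 by decide) hk
    obtain ⟨-, h5, h6⟩ := h4.resolve_right fun h => absurd h.1 (by decide)
    obtain ⟨a1, a2, a3⟩ := Asch.usym_five hF (h5 ▸ hm)
    exact Or.inr <| Or.inr <| Or.inr <| Or.inr <| Or.inr <| Or.inr <| Or.inl ⟨s, R, a1, a2, a3, h1, Asch.absIrr_of_gspan h2, h3.trans (Asch.iso_le_sim _), h6, h5, h⟩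
  | fld r K hr ho hK h1 h =>
    obtain ⟨e1, e2⟩ := Asch.fld_arith hK
    rw [Fintype.card_fin] at e1 e2
    obtain rfl : r = 5 := by
      interval_cases r <;> first | omega | exact absurd hr (by decide) | exact absurd ho (by decide)
    by_cases hq : q = 2
    · subst hq
      exact absurd (h.le.trans inf_le_left) (Asch.not_fld52 hF hK h1 hH)
    · exact Or.inr <| Or.inr <| Or.inr <| Or.inl ⟨by have := Geom.two_le_of_card_eq_sq hF; omega, K, hK, h1, h⟩
  | tens k m e P f₁ f₂ hk hkm h2 hf₁ hf₂ hT h =>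
    obtain ⟨e1, e2⟩ := Asch.tens_arith e hkm
    rw [Fintype.card_fin] at e1 e2
    exfalso; interval_cases k <;> omega
  | wr k t e P f₁ hk ht hx hf₁ hT h =>
    obtain ⟨e1, rfl, rfl⟩ := Asch.wr_arith e hk ht (by simp)
    simp at e1

end Cfsg.Agent.S5796
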