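import Cfsg.Statements.S5813
import Cfsg.Agent.Low.OR
import Cfsg.Agent.Low.Fr7

set_option autoImplicit false
open Cfsg

namespace Cfsg.Agent.S5813

/-- Maximal subgroups of Ω_7(q) of geometric type, q odd. Let F be a finite field of odd order q, Q the standard quadratic form x₀² + Σ x_i y_i on F^7 (coordinates Unit ⊕ (Fin 3 ⊕ Fin 3)), and Ω = Ω_7(q) the commutator subgroup of its isometry group, inside GL_7(F). Each of the following, intersected with Ω, is a maximal subgroup of Ω: (1) the stabiliser of any non-zero subspace on which Q vanishes identically (totally singular 1-, 2- and 3-spaces); (2) the stabiliser of any non-zero even-dimensional subspace W on which the polar form of Q is non-degenerate (equivalently of its odd-dimensional orthogonal complement), except when q = 3 and W is a 2-space containing a non-zero singular vector (a plus-type plane); (3) for q = p prime, the stabiliser of any decomposition of F^7 into seven pairwise orthogonal,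 pairwise Q-isometric non-degenerate 1-spaces; (4) every subfield group for a subfield F₀ with |F| = |F₀|^r, r prime, whose F₀-structure carries Q. -/
theorem result {F : Type*} [Field F] [Fintype F] (hodd : Odd (Fintype.card F)) :
    (∀ W : Submodule F (Unit ⊕ (Fin 3 ⊕ Fin 3) → F), W ≠ ⊥ → Cfsg.Geo.IsTotallySingularQuad (Cfsg.quadFormOdd 3 F) W → Cfsg.Geo.IsMaximalIn (Cfsg.Geo.omegaGL (Cfsg.quadFormOdd 3 F)) (Cfsg.Geo.subspaceStabilizer W ⊓ Cfsg.Geo.omegaGL (Cfsg.quadFormOdd 3 F))) ∧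
    (∀ W : Submodule F (Unit ⊕ (Fin 3 ⊕ Fin 3) → F), W ≠ ⊥ → Even (Module.finrank F W) → Cfsg.Geo.IsNondegenerateOn (QuadraticMap.polar (Cfsg.quadFormOdd 3 F)) W → ¬ (Fintype.card F = 3 ∧ Module.finrank F W = 2 ∧ Cfsg.Geo.IsPlusTypeOn (Cfsg.quadFormOdd 3 F) W) → Cfsg.Geo.IsMaximalIn (Cfsg.Geo.omegaGL (Cfsg.quadFormOdd 3 F)) (Cfsg.Geo.subspaceStabilizer W ⊓ Cfsg.Geo.omegaGL (Cfsg.quadFormOdd 3 F))) ∧
    ((Fintype.card F).Prime → ∀ D : Fin 7 → Submodule F (Unit ⊕ (Fin 3 ⊕ Fin 3) → F), Cfsg.Geo.IsOrthogonalMDecomposition (Cfsg.quadFormOdd 3 F) 1 D → Cfsg.Geo.IsMaximalIn (Cfsg.Geo.omegaGL (Cfsg.quadFormOdd 3 F)) (Cfsg.Geo.decompositionStabilizer D ⊓ Cfsg.Geo.omegaGL (Cfsg.quadFormOdd 3 F))) ∧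
    (∀ (F₀ : Subfield F) (r : ℕ) (P : Matrix.GeneralLinearGroup (Unit ⊕ (Fin 3 ⊕ Fin 3)) F), r.Prime → Fintype.card F = Nat.card F₀ ^ r → Cfsg.Geo.IsQuadFormRationalStructure (Cfsg.quadFormOdd 3 F) F₀ P → Cfsg.Geo.IsMaximalIn (Cfsg.Geo.omegaGL (Cfsg.quadFormOdd 3 F)) (Cfsg.Geo.subfieldSubgroup F₀ P ⊓ Cfsg.Geo.omegaGL (Cfsg.quadFormOdd 3 F))) := by
  have h2 := Geom.two_ne_zero_of_odd_card hodd
  have h1 := Geom.quadOdd_nondeg F 3 h2
  rw [← Geom.coe_quadOdd]
  have hQ : Geo.IsNondegenerateQuadraticForm (Geom.quadOdd F 3) :=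
    ⟨fun c v => Geom.quad_smul _ _ _, ⟨fun u v w => QuadraticMap.polar_add_left _ _ _ _,
      fun c u v => QuadraticMap.polar_smul_left _ _ _ _, fun u v w => QuadraticMap.polar_add_right _ _ _ _,
      fun c u v => QuadraticMap.polar_smul_right _ _ _ _⟩, fun x hx => by
        obtain ⟨y, hy⟩ := h1.exists_ne hx
        exact ⟨⟨y, by first | exact hy | (rw [QuadraticMap.polar_comm]; exact hy)⟩,
          ⟨y, by first | exact hy | (rw [QuadraticMap.polar_comm]; exact hy)⟩⟩⟩
  refine ⟨fun W h0 hW => Root.Mx.ts_o hQ (by simp) h0 hW fun h => by simp at h; omega,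
    fun W h0 hev hW hex => ?_, fun hp D hD => ?_, fun F₀ r P hr hc hP =>
      Root.Mx.sub_o hQ (by simp) F₀ r P 1 hr hc one_ne_zero (by simpa using hP)⟩
  · have h3 := Nat.even_iff.1 hev
    have h4 := Submodule.finrank_le W
    have h5 : Module.finrank F W ≠ 0 := fun h => h0 (Submodule.finrank_eq_zero.1 h)
    simp only [Module.finrank_fintype_fun_eq_card, Fintype.card_sum, Fintype.card_unit, Fintype.card_fin] at h4
    by_cases h6 : Module.finrank F W = 4
    · exact Root.Mx.nd_o43 hQ hodd (by simp) h6 hW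
    refine Root.Mx.nd_o hQ h0 (by rintro rfl; simp at h3) hW (by simp; omega) fun e hp => ?_
    have := Fintype.one_lt_card (α := F)
    have := Nat.odd_iff.1 hodd
    by_contra hc
    exact hex ⟨by omega, e, hp⟩
  · exact Root.Mx.isMaximalIn_inf (Geom.glEquiv _ F) ((Root.Mx.odec_of h1 hD.1 fun _ _ => Iff.rfl).isMaximalIn_frame_odd
      h2 (by simpa) (by simp) (by simp; decide) hD.2) (fun g => Root.Mx.mem_omegaGL h1 (by simp)) fun g => Iff.rfl

end Cfsg.Agent.S5813
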