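import Cfsg.Statements.S5826
import Cfsg.Agent.Asch.MaxO2

set_option autoImplicit false
open Cfsg

namespace Cfsg.Agent.S5826

/-- Every maximal subgroup of Ω_8^-(q) is of one of the listed geometric types or lies in the residual class. Let F be a finite field with q elements, Q a non-degenerate quadratic form on F^8 of minus type (no totally singular 4-space), Ω the commutator subgroup of its isometry group, and H a maximal subgroup of Ω (inside GL_8(F)). Then H is the intersection with Ω of one of: the stabiliser of a non-zero totally singular subspace; for q odd, the stabiliser of a non-degenerate subspace of odd dimension; the stabiliser of a non-degenerate 2-space of minus type; for q ≥ 4, the stabiliser of a non-degenerate 2-space of plus type; the stabiliser of a non-degenerate 4-space; for q even, the stabiliser of the span of a non-singular vector; the normaliser of a degree-2 subfield of the matrix algebra; a subfield group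 of odd prime index whose F₀-structure carries a non-zero multiple of Q — or else H lies in the residual class of the orthogonal case (modulo scalars H is almost simple, with absolutely irreducible perfect socle preimage realisable over no proper subfield and fixing no non-degenerate unitary form). -/
theorem result {F : Type*} [Field F] [Fintype F] (Q : (Fin 8 → F) → F) (hQ : Cfsg.Geo.IsNondegenerateQuadraticForm Q) (hminus : ¬ Cfsg.Geo.IsPlusTypeOn Q ⊤) (H : Subgroup (Matrix.GeneralLinearGroup (Fin 8) F)) (hH : Cfsg.Geo.IsMaximalIn (Cfsg.Geo.omegaGL Q) H) :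
    (∃ W : Submodule F (Fin 8 → F), W ≠ ⊥ ∧ Cfsg.Geo.IsTotallySingularQuad Q W ∧ H = Cfsg.Geo.subspaceStabilizer W ⊓ Cfsg.Geo.omegaGL Q) ∨
    (Odd (Fintype.card F) ∧ ∃ W : Submodule F (Fin 8 → F), W ≠ ⊥ ∧ W ≠ ⊤ ∧ Odd (Module.finrank F W) ∧ Cfsg.Geo.IsNondegenerateOn (QuadraticMap.polar Q) W ∧ H = Cfsg.Geo.subspaceStabilizer W ⊓ Cfsg.Geo.omegaGL Q) ∨
    (∃ W : Submodule F (Fin 8 → F), Module.finrank F W = 2 ∧ Cfsg.Geo.IsNondegenerateOn (QuadraticMap.polar Q) W ∧ ¬ Cfsg.Geo.IsPlusTypeOn Q W ∧ H = Cfsg.Geo.subspaceStabilizer W ⊓ Cfsg.Geo.omegaGL Q) ∨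
    (4 ≤ Fintype.card F ∧ ∃ W : Submodule F (Fin 8 → F), Module.finrank F W = 2 ∧ Cfsg.Geo.IsNondegenerateOn (QuadraticMap.polar Q) W ∧ Cfsg.Geo.IsPlusTypeOn Q W ∧ H = Cfsg.Geo.subspaceStabilizer W ⊓ Cfsg.Geo.omegaGL Q) ∨
    (∃ W : Submodule F (Fin 8 → F), Module.finrank F W = 4 ∧ Cfsg.Geo.IsNondegenerateOn (QuadraticMap.polar Q) W ∧ H = Cfsg.Geo.subspaceStabilizer W ⊓ Cfsg.Geo.omegaGL Q) ∨
    (¬ Odd (Fintype.card F) ∧ ∃ v : (Fin 8 → F), Q v ≠ 0 ∧ H = Cfsg.Geo.subspaceStabilizer (Submodule.span F {v}) ⊓ Cfsg.Geo.omegaGL Q) ∨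
    (∃ K : Subalgebra F (Matrix (Fin 8) (Fin 8) F), Cfsg.Geo.IsFieldSubalgebra 2 K ∧ H = Cfsg.Geo.subalgebraNormalizer K ⊓ Cfsg.Geo.omegaGL Q) ∨
    (∃ (F₀ : Subfield F) (r : ℕ) (P : Matrix.GeneralLinearGroup (Fin 8) F) (ζ : F), r.Prime ∧ Odd r ∧ Fintype.card F = Nat.card F₀ ^ r ∧ ζ ≠ 0 ∧ Cfsg.Geo.IsQuadFormRationalStructure (fun v : Fin 8 → F => ζ * Q v) F₀ P ∧ H = Cfsg.Geo.subfieldSubgroup F₀ P ⊓ Cfsg.Geo.omegaGL Q) ∨
    Cfsg.Geo.InOrthogonalResidualClass H := by
  have hn : Fintype.card (Fin 8) = 8 := by simp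
  rcases Asch.maxO_of_max hQ (by omega) hH with h | h
  swap
  · exact Or.inr <| Or.inr <| Or.inr <| Or.inr <| Or.inr <| Or.inr <| Or.inr <| Or.inr <| h
  cases h with
  | ts W h0 h1 h2 h => exact Or.inl ⟨W, h0, h1, h⟩
  | nd W h0 ht h1 h2 h3 h4 h5 h =>
    have e1 := h2 (by rw [hn]; decide)
    have e2 := mt Submodule.finrank_eq_zero.1 h0
    rcases Nat.even_or_odd (Module.finrank F W) with ⟨j, hj⟩ | ho
    swap
    · exact Or.inr <| Or.inl ⟨h5 ho, W, h0, ht, ho, h1, h⟩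
    by_cases e3 : Module.finrank F W = 2
    swap
    · omega
    by_cases e4 : Cfsg.Geo.IsPlusTypeOn Q W
    · exact Or.inr <| Or.inr <| Or.inr <| Or.inl ⟨h4 e3 e4, W, e3, h1, e4, h⟩
    · exact Or.inr <| Or.inr <| Or.inl ⟨W, e3, h1, e4, h⟩
  | half k D hD h1 h2 h3 h h' =>
    obtain rfl : k = 4 := by have := Asch.mdec_mul_eq hD.decomp; omega
    exact Or.inr <| Or.inr <| Or.inr <| Or.inr <| Or.inl ⟨D 0, hD.decomp.finrank_eq 0, hD.nondegenerate 0, h'⟩
  | pt v ho hv h => exact Or.inr <| Or.inr <| Or.inr <| Or.inr <| Or.inr <| Or.inl ⟨ho, v, hv, h⟩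
  | dec t k D hD h1 ho h2 h3 h4 h =>
    obtain ⟨e1, e2, e3, e4⟩ := Asch.mdec_arith hD.decomp.decomp
    rw [hn] at e1 e3
    obtain ⟨rfl, rfl⟩ | ⟨rfl, rfl⟩ | ⟨rfl, rfl⟩ : (t = 8 ∧ k = 1) ∨ (t = 4 ∧ k = 2) ∨ (t = 2 ∧ k = 4) := by
      interval_cases t <;> omega
    · exact absurd (Asch.dec_disc_even hQ (ho (by decide)) hD (by decide) (m := 4) hn (by decide)) hminus
    · exact absurd ((Asch.dec_plus hQ hD (by decide) 0).2 (Or.inl (by decide))) hminus
    · exact absurd ((Asch.dec_plus hQ hD (by decide) 0).2 (Or.inl (by decide))) hminus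
  | pair k D he hD h1 hp h => exact absurd hp hminus
  | fld r K hr hK h1 h2 h3 h4 h =>
    have e1 := Asch.Fld.dvd_card hK
    rw [hn] at e1 h2 h3 h4
    have e2 := Nat.le_of_dvd (by decide) e1
    obtain rfl : r = 2 := by
      interval_cases r <;> first | omega | exact absurd hr (by decide)
    exact Or.inr <| Or.inr <| Or.inr <| Or.inr <| Or.inr <| Or.inr <| Or.inl ⟨K, hK, h⟩
  | uni K hK h1 h2 h3 h4 h => exact Or.inr <| Or.inr <| Or.inr <| Or.inr <| Or.inr <| Or.inr <| Or.inl ⟨K, hK, h⟩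
  | sub K r P ζ hr hc hζ h1 h2 h =>
    exact Or.inr <| Or.inr <| Or.inr <| Or.inr <| Or.inr <| Or.inr <| Or.inr <| Or.inl ⟨K, r, P, ζ, hr, hr.odd_of_ne_two fun h3 => hminus (h2 h3 (by rw [hn]; decide)), hc, hζ, h1, h⟩
  | tensS m e P f₁ f₂ hq he hm hf₁ hf₂ hT h0 hp h =>
    exact absurd hp hminus
  | tensO k m e P f₁ f₂ ho hk hm h3 h4 hf₁ hf₂ hT h =>
    have e1 : k * m = 8 := by simpa using (Fintype.card_congr e).symm
    obtain rfl : k = 3 := by nlinarith
    omega
  | wr k t e P f₁ ho hk ht h3 hf₁ hT h =>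
    have e1 : 8 = k ^ t := by simpa using Fintype.card_congr e
    obtain ⟨rfl, rfl⟩ := Asch.pow_arith e1 (by decide) hk ht
    omega
  | exc he h => exact absurd (h.resolve_left (by omega)).2 hminus

end Cfsg.Agent.S5826
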