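import Cfsg.Statements.S5858
import Cfsg.Agent.Root.Fr4
import Cfsg.Agent.Root.Sub11
import Cfsg.Agent.Root.Max6
import Cfsg.Agent.Classical.SpSimple

set_option autoImplicit false
open Cfsg

namespace Cfsg.Agent.S5858
open Cfsg.Agent.Root

open Cfsg.Agent.Geom Mx

/-- Maximal subgroups of Ω_11(q) of geometric type, q odd. Let F be a finite field of odd order q, Q the standard quadratic form x₀² + Σ x_i y_i on F^11 (coordinates Unit ⊕ (Fin 5 ⊕ Fin 5)), and Ω = Ω_11(q) the commutator subgroup of its isometry group, inside GL_11(F). Each of the following, intersected with Ω, is a maximal subgroup of Ω: (1) the stabiliser of any non-zero subspace on which Q vanishes identically (totally singular 1- to 5-spaces); (2) the stabiliser of any non-zero even-dimensional subspace W (dimension 2 to 10) on which the polar form of Q is non-degenerate (equivalently of its odd-dimensional orthogonal complement), except when q = 3 and W is a 2-space containing a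 non-zero singular vector (a plus-type plane); (3) for q = p prime, the stabiliser of any decomposition of F^11 into eleven pairwise orthogonal, pairwise Q-isometric non-degenerate 1-spaces; (4) every subfield group for a subfield F₀ with |F| = |F₀|^r, r prime, whose F₀-structure carries Q. -/
theorem result {F : Type*} [Field F] [Fintype F] (hodd : Odd (Fintype.card F)) :
    (∀ W : Submodule F (Unit ⊕ (Fin 5 ⊕ Fin 5) → F), W ≠ ⊥ → Cfsg.Geo.IsTotallySingularQuad (Cfsg.quadFormOdd 5 F) W → Cfsg.Geo.IsMaximalIn (Cfsg.Geo.omegaGL (Cfsg.quadFormOdd 5 F)) (Cfsg.Geo.subspaceStabilizer W ⊓ Cfsg.Geo.omegaGL (Cfsg.quadFormOdd 5 F))) ∧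
    (∀ W : Submodule F (Unit ⊕ (Fin 5 ⊕ Fin 5) → F), W ≠ ⊥ → Even (Module.finrank F W) → Cfsg.Geo.IsNondegenerateOn (QuadraticMap.polar (Cfsg.quadFormOdd 5 F)) W → ¬ (Fintype.card F = 3 ∧ Module.finrank F W = 2 ∧ Cfsg.Geo.IsPlusTypeOn (Cfsg.quadFormOdd 5 F) W) → Cfsg.Geo.IsMaximalIn (Cfsg.Geo.omegaGL (Cfsg.quadFormOdd 5 F)) (Cfsg.Geo.subspaceStabilizer W ⊓ Cfsg.Geo.omegaGL (Cfsg.quadFormOdd 5 F))) ∧
    ((Fintype.card F).Prime → ∀ D : Fin 11 → Submodule F (Unit ⊕ (Fin 5 ⊕ Fin 5) → F), Cfsg.Geo.IsOrthogonalMDecomposition (Cfsg.quadFormOdd 5 F) 1 D → Cfsg.Geo.IsMaximalIn (Cfsg.Geo.omegaGL (Cfsg.quadFormOdd 5 F)) (Cfsg.Geo.decompositionStabilizer D ⊓ Cfsg.Geo.omegaGL (Cfsg.quadFormOdd 5 F))) ∧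
    (∀ (F₀ : Subfield F) (r : ℕ) (P : Matrix.GeneralLinearGroup (Unit ⊕ (Fin 5 ⊕ Fin 5)) F), r.Prime → Fintype.card F = Nat.card F₀ ^ r → Cfsg.Geo.IsQuadFormRationalStructure (Cfsg.quadFormOdd 5 F) F₀ P → Cfsg.Geo.IsMaximalIn (Cfsg.Geo.omegaGL (Cfsg.quadFormOdd 5 F)) (Cfsg.Geo.subfieldSubgroup F₀ P ⊓ Cfsg.Geo.omegaGL (Cfsg.quadFormOdd 5 F))) := by
  have h2 := two_ne_zero_of_odd_card hodd
  have h1 := quadOdd_nondeg F 5 h2
  rw [← coe_quadOdd]
  have hΩ := fun g => mem_omegaGL h1 (by simp) (g := g)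
  refine ⟨fun W hW0 hW => ?_, fun W hW0 hev hW hex => ?_, fun hp D hD => ?_, fun F₀ r P hr hc hP => ?_⟩
  · exact isMaximalIn_inf (glEquiv _ F) (isMaximalIn_stab_ts_quad h1 (by simp) hW0 hW
      fun h => by simp at h; omega) hΩ fun g => Iff.rfl
  · have h2 := nondeg_of_on (Φ := Formed.ofQuad (quadOdd F 5)) hW fun _ _ => Iff.rfl
    have h3 := h1.finrank_add_finrank_perp W
    have h4 := Nat.even_iff.1 hev
    simp only [Module.finrank_fintype_fun_eq_card, Fintype.card_sum, Fintype.card_unit,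
      Fintype.card_fin] at h3
    refine isMaximalIn_inf (glEquiv _ F) (isMaximalIn_stab_nd' h1 (by simp) h2 hW0
      (by rintro rfl; simp at h4) (plane_quad h1 h2 fun e ⟨x, hx, hx0, hx1⟩ => ?_)
      (plane_quad h1 (h1.restrict_perp h2) fun e => by omega)
      (fun U hU h => adj_quad h1 (by simp) hU h) (fun h => by simp at h; omega)) hΩ fun g => Iff.rfl
    refine Classical.exists_ne_zero_sq_ne_one ?_
    rw [Nat.card_eq_fintype_card]
    have := Fintype.one_lt_card (α := F)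
    have := Nat.odd_iff.1 hodd
    by_contra hc
    exact hex ⟨by omega, e, F ∙ x, (Submodule.span_singleton_le_iff_mem _ _).2 hx, fun y hy => by
      obtain ⟨c, rfl⟩ := Submodule.mem_span_singleton.1 hy
      rw [quad_smul, hx1, mul_zero], by rw [finrank_span_singleton hx0, e]⟩
  · exact isMaximalIn_inf (glEquiv _ F) ((odec_of h1 hD.1 fun _ _ => Iff.rfl).isMaximalIn_frame h2 (by simpa)
      (by simp) hD.2) hΩ fun g => Iff.rfl
  · have hQ : ∀ x, quadOdd F 5 (jP F₀ P x) ∈ F₀ := fun x => hP _ fun i => (x i).2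
    refine isMaximalIn_inf (glEquiv _ F) (isMaximalIn_sub11 h1 (by simp) hr hc (fun x y => ?_)
      (one_mem _) (fun x => ⟨_, hQ x, one_mul _, by simp [Formed.ofQuad, two_mul]⟩)
      (noRefl_quad h1 (by simp)) (Or.inr ⟨rfl, rfl⟩)) hΩ fun g => mem_subfieldSubgroup_iff
    exact sub_mem (sub_mem (map_add (jP F₀ P) x y ▸ hQ (x + y)) (hQ x)) (hQ y)

end Cfsg.Agent.S5858
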