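import Cfsg.Statements.S5859
import Cfsg.Agent.Asch.MaxO2

set_option autoImplicit false
open Cfsg

namespace Cfsg.Agent.S5859

/-- Every maximal subgroup of Ω_11(q), q odd, is of one of the listed geometric types or lies in the residual class. Let F be a finite field of odd order q, Q the standard quadratic form x₀² + Σ x_i y_i on F^11 (coordinates Unit ⊕ (Fin 5 ⊕ Fin 5)), Ω the commutator subgroup of its isometry group, and H a maximal subgroup of Ω (inside GL_11(F)). Then H is the intersection with Ω of one of: the stabiliser of a non-zero totally singular subspace; the stabiliser of a non-zero non-degenerate subspace of even dimension (not a plus-type plane when q = 3); for q prime, the stabiliser of a decomposition into eleven pairwise orthogonal, pairwise isometric non-degenerate 1-spaces; a subfield group (|F| = |F₀|^r, r prime) whose F₀-structure carries Q — or else H lies in the residual class of the orthogonal case (modulo scalars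 H is almost simple, with absolutely irreducible perfect socle preimage realisable over no proper subfield and fixing no non-degenerate unitary form). -/
theorem result {F : Type*} [Field F] [Fintype F] (hodd : Odd (Fintype.card F)) (H : Subgroup (Matrix.GeneralLinearGroup (Unit ⊕ (Fin 5 ⊕ Fin 5)) F)) (hH : Cfsg.Geo.IsMaximalIn (Cfsg.Geo.omegaGL (Cfsg.quadFormOdd 5 F)) H) :
    (∃ W : Submodule F (Unit ⊕ (Fin 5 ⊕ Fin 5) → F), W ≠ ⊥ ∧ Cfsg.Geo.IsTotallySingularQuad (Cfsg.quadFormOdd 5 F) W ∧ H = Cfsg.Geo.subspaceStabilizer W ⊓ Cfsg.Geo.omegaGL (Cfsg.quadFormOdd 5 F)) ∨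
    (∃ W : Submodule F (Unit ⊕ (Fin 5 ⊕ Fin 5) → F), W ≠ ⊥ ∧ Even (Module.finrank F W) ∧ Cfsg.Geo.IsNondegenerateOn (QuadraticMap.polar (Cfsg.quadFormOdd 5 F)) W ∧ ¬ (Fintype.card F = 3 ∧ Module.finrank F W = 2 ∧ Cfsg.Geo.IsPlusTypeOn (Cfsg.quadFormOdd 5 F) W) ∧ H = Cfsg.Geo.subspaceStabilizer W ⊓ Cfsg.Geo.omegaGL (Cfsg.quadFormOdd 5 F)) ∨
    ((Fintype.card F).Prime ∧ ∃ D : Fin 11 → Submodule F (Unit ⊕ (Fin 5 ⊕ Fin 5) → F), Cfsg.Geo.IsOrthogonalMDecomposition (Cfsg.quadFormOdd 5 F) 1 D ∧ H = Cfsg.Geo.decompositionStabilizer D ⊓ Cfsg.Geo.omegaGL (Cfsg.quadFormOdd 5 F)) ∨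
    (∃ (F₀ : Subfield F) (r : ℕ) (P : Matrix.GeneralLinearGroup (Unit ⊕ (Fin 5 ⊕ Fin 5)) F), r.Prime ∧ Fintype.card F = Nat.card F₀ ^ r ∧ Cfsg.Geo.IsQuadFormRationalStructure (Cfsg.quadFormOdd 5 F) F₀ P ∧ H = Cfsg.Geo.subfieldSubgroup F₀ P ⊓ Cfsg.Geo.omegaGL (Cfsg.quadFormOdd 5 F)) ∨
    Cfsg.Geo.InOrthogonalResidualClass H := by
  have hQ := Asch.nq_odd hodd 5
  have hn : Fintype.card (Unit ⊕ (Fin 5 ⊕ Fin 5)) = 11 := by simp
  rcases Asch.maxO_of_max hQ (by omega) hH with h | h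
  swap
  · exact Or.inr <| Or.inr <| Or.inr <| Or.inr <| h
  cases h with
  | ts W h0 h1 h2 h => exact Or.inl ⟨W, h0, h1, h⟩
  | nd W h0 ht h1 h2 h3 h4 h5 h =>
    exact Or.inr <| Or.inl ⟨W, h0, h3 (by rw [hn]; decide), h1, fun h6 => by have := h4 h6.2.1 h6.2.2; omega, h⟩
  | half k D hD h1 h2 h3 h h' => have := Asch.mdec_mul_eq hD.decomp; omega
  | pt v ho hv h => exact absurd hodd ho
  | dec t k D hD h1 ho h2 h3 h4 h =>
    obtain ⟨e1, e2, e3, e4⟩ := Asch.mdec_arith hD.decomp.decomp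
    rw [hn] at e1 e3
    obtain ⟨rfl, rfl⟩ : (t = 11 ∧ k = 1) := by
      interval_cases t <;> omega
    exact Or.inr <| Or.inr <| Or.inl ⟨h1 rfl, D, hD, h⟩
  | pair k D he hD h1 hp h => have := Asch.mdec_mul_eq hD; obtain ⟨j, hj⟩ := he; omega
  | fld r K hr hK h1 h2 h3 h4 h =>
    have e1 := Asch.Fld.dvd_card hK
    rw [hn] at e1 h2 h3 h4
    have e2 := Nat.le_of_dvd (by decide) e1
    exfalso; interval_cases r <;> first | omega | exact absurd hr (by decide)
  | uni K hK h1 h2 h3 h4 h => exact absurd (hn ▸ Asch.Fld.dvd_card hK) (by decide)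
  | sub K r P ζ hr hc hζ h1 h2 h =>
    obtain ⟨P', e1, e2⟩ := Asch.odd_sub hodd hζ h1
    exact Or.inr <| Or.inr <| Or.inr <| Or.inl ⟨K, r, P', hr, hc, e2, e1 ▸ h⟩
  | tensS m e P f₁ f₂ hq he hm hf₁ hf₂ hT h0 hp h =>
    have e1 : 2 * m = 11 := by simpa using (Fintype.card_congr e).symm
    obtain ⟨j, hj⟩ := he; omega
  | tensO k m e P f₁ f₂ ho hk hm h3 h4 hf₁ hf₂ hT h =>
    have e1 : k * m = 11 := by simpa using (Fintype.card_congr e).symm
    obtain rfl : k = 3 := by nlinarith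
    omega
  | wr k t e P f₁ ho hk ht h3 hf₁ hT h =>
    have e1 : 11 = k ^ t := by simpa using Fintype.card_congr e
    obtain ⟨rfl, rfl⟩ := Asch.pow_arith e1 (by decide) hk ht
    omega
  | exc he h => omega

end Cfsg.Agent.S5859
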