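import Cfsg.Statements.S5876
import Cfsg.Agent.Flav.Fix

set_option autoImplicit false
open Cfsg

namespace Cfsg.Agent.S5876

open Subgroup Cfsg.Agent.BG Cfsg.Agent.Flav


/-- Fixed-point spaces in primitive soluble linear groups. Let F be a finite field and G a soluble subgroup of GL_n(F) that acts irreducibly on F^n and primitively (G preserves no decomposition of F^n into two or more independent subspaces of equal dimension). Then every non-identity element g of G has fixed-point space {v : g v = v} of dimension at most 3n/4. -/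
theorem result {F : Type*} [Field F] [Fintype F] {n : ℕ} (G : Subgroup (Matrix.GeneralLinearGroup (Fin n) F)) (hsol : IsSolvable G) (hirr : Cfsg.Geo.ActsIrreducibly (Cfsg.Geo.matrixSet G)) (hprim : ∀ (m t : ℕ) (D : Fin t → Submodule F (Fin n → F)), 2 ≤ t → Cfsg.Geo.IsMDecomposition m D → ¬ G ≤ Cfsg.Geo.decompositionStabilizer D) (g : Matrix.GeneralLinearGroup (Fin n) F) (hg : g ∈ G) (hg1 : g ≠ 1) :
    4 * Module.finrank F (Module.End.eigenspace (Matrix.toLin' (g : Matrix (Fin n) (Fin n) F)) 1) ≤ 3 * n := by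
  classical
  obtain ⟨ρ, hρ⟩ : ∃ ρ : GL (Fin n) F →* Module.End F (Fin n → F),
      ∀ g, ρ g = Matrix.toLin' (g : Matrix (Fin n) (Fin n) F) :=
    ⟨(Matrix.toLinAlgEquiv' (R := F) (n := Fin n)).toMonoidHom.comp (Units.coeHom _), fun _ => rfl⟩
  have key := four_fix_le ρ hsol (fun A hA hc a ha h1 => by_contra fun h2 => by
    obtain ⟨Y, h3, h4, h5, t, f, hf, h6, h7, h8⟩ := exists_imprim ρ hA hc (zpowers_le.2 ha) h2
    have h9 : ∀ g ∈ G, ∃ σ : Fin t → Fin t, ∀ i, cj g (cj (f i) Y) = cj (f (σ i)) Y := fun g hg => by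
      choose σ hσ using fun i => h8 _ (mul_mem hg (hf i))
      exact ⟨σ, fun i => by rw [← cj_mul, hσ]⟩
    obtain ⟨j, hj⟩ := h8 1 (one_mem _)
    rw [cj_one] at hj
    have h10 : ⨆ i, fix ρ (cj (f i) Y) = ⊤ := (hirr _ (by
      rintro _ ⟨g, hg, rfl⟩
      obtain ⟨σ, hσ⟩ := h9 g hg
      rw [Submodule.map_iSup]
      exact iSup_le fun i => by
        rw [← hρ, map_fix, hσ]; exact le_iSup (fun i => fix ρ (cj (f i) Y)) _)).resolve_left
      fun e => h5 (le_bot_iff.1 (e ▸ (congrArg (fix ρ) hj).le.trans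
        (le_iSup (fun i => fix ρ (cj (f i) Y)) j)))
    by_cases ht : 2 ≤ t
    · refine hprim _ t _ ht ⟨ht, Submodule.one_le_finrank_iff.2 h5, fun i => finrank_fix_cj ρ _ _, h6, h10⟩
        fun g hg => ?_
      obtain ⟨σ, hσ⟩ := h9 g hg
      exact ⟨Equiv.ofBijective σ (Finite.injective_iff_bijective.1 fun i j e =>
        h7 (cj_inj.1 ((hσ i).trans (e ▸ (hσ j).symm)))), fun i => by rw [← hρ, map_fix, hσ]; rfl⟩
    · have : Subsingleton (Fin t) := Fin.subsingleton_iff_le_one.2 (by omega)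
      have h11 : fix ρ Y = ⊤ := top_le_iff.1 (h10 ▸ iSup_le fun i => by rw [Subsingleton.elim i j, ← hj])
      refine h1 (Units.ext (Matrix.toLin'.injective ?_))
      rw [← hρ, ← hρ, map_one]
      exact LinearMap.ext fun v => (mem_fix ρ).1 (h11 ▸ Submodule.mem_top) a (h3 (mem_zpowers a))) hg hg1
  rwa [fix_zpowers, hρ, Module.finrank_fin_fun] at key

end Cfsg.Agent.S5876
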