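import Cfsg.Statements.S5877
import Cfsg.Agent.Elu.Eig

set_option autoImplicit false
open Cfsg

namespace Cfsg.Agent.S5877

/-- Eigenspaces of elements normalising an absolutely irreducible extraspecial group. Let F be a finite field, r a prime, and R ≤ GL_n(F) an absolutely irreducible extraspecial r-group (an r-group whose centre equals its derived subgroup and has order r) of exponent r or 4. Let g ∈ GL_n(F) normalise the product of R with the scalar matrices, have prime order ϖ and not be scalar, and let W be the eigenspace of g for any c ∈ F (W may be the zero subspace). Then dim W ≤ 3n/4 if ϖ = 2, dim W ≤ 2n/3 if ϖ = 3, and dim W ≤ n/2 if ϖ > 3; moreover if ϖ = 3 and 3 does not divide n then dim W ≤ n/2. -/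
theorem result {F : Type*} [Field F] [Fintype F] {n r ϖ : ℕ} (R : Subgroup (Matrix.GeneralLinearGroup (Fin n) F)) (hr : r.Prime) (hR : IsPGroup r R) (hZ : Nat.card (Subgroup.center R) = r) (hext : commutator R = Subgroup.center R) (hexp : Monoid.exponent R = r ∨ Monoid.exponent R = 4) (hirr : Cfsg.Geo.ActsAbsolutelyIrreducibly (Cfsg.Geo.matrixSet R)) (g : Matrix.GeneralLinearGroup (Fin n) F) (hg : g ∈ Cfsg.Geo.subgroupNormalizer (R ⊔ Cfsg.Geo.scalars (Fin n) F)) (hϖ : ϖ.Prime) (hord : orderOf g = ϖ) (hns : g ∉ Cfsg.Geo.scalars (Fin n) F) (c : F) :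
    (ϖ = 2 → 4 * Module.finrank F (Module.End.eigenspace (Matrix.toLin' (g : Matrix (Fin n) (Fin n) F)) c) ≤ 3 * n) ∧
    (ϖ = 3 → 3 * Module.finrank F (Module.End.eigenspace (Matrix.toLin' (g : Matrix (Fin n) (Fin n) F)) c) ≤ 2 * n) ∧
    (3 < ϖ → 2 * Module.finrank F (Module.End.eigenspace (Matrix.toLin' (g : Matrix (Fin n) (Fin n) F)) c) ≤ n) ∧
    (ϖ = 3 → ¬ 3 ∣ n → 2 * Module.finrank F (Module.End.eigenspace (Matrix.toLin' (g : Matrix (Fin n) (Fin n) F)) c) ≤ n) := by
  open Module Polynomial Cfsg.Agent.Elu Cfsg.Agent.Classical in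
  have := Fact.mk hr
  obtain ⟨χ, b, E⟩ := es_of hZ hext hirr
  have : Nonempty (Fin n) := by
    have := E.nt
    by_contra! h
    exact not_subsingleton (Fin n → F) inferInstance
  have h := E.eig (f := Matrix.toLin' g.1) (by rw [← inG_nm]; exact ⟨g, hg, rfl⟩) (fun d hd => hns (Asch.mem_scalars_of_eq (c := d)
    (Matrix.toLin'.injective (by rw [hd]; simp; rfl)))) hϖ (by
      rw [← Matrix.toLin'_pow, ← Units.val_pow_eq_pow_val, ← hord, pow_orderOf_eq_one]; exact Matrix.toLin'_one) c
  have e : finrank F (End.eigenspace (Matrix.toLin' g.1) c) = kd (Matrix.toLin' g.1) (X - C c) :=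
    congrArg (fun U : Submodule F (Fin n → F) => finrank F U) (Submodule.ext fun v =>
      End.mem_eigenspace_iff.trans mem_kerA_X_sub_C.symm)
  rw [e]
  rw [finrank_fin_fun] at h
  obtain ⟨h1, h2, h3⟩ := h
  have h4 := hr.two_le
  refine ⟨fun _ => ?_, fun h => ?_, fun h => h3 (by omega) (by omega), fun h h5 => h3 (by omega) ?_⟩
  · by_contra! h; nlinarith
  · by_cases h5 : r = 3
    · subst h5; omega
    · have := h3 (by omega) (by omega); omega
  · rintro rfl; exact (h5 h2).elim

end Cfsg.Agent.S5877
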