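import Cfsg.Statements.S5951
import Cfsg.Agent.Elu.LinCase

set_option autoImplicit false
open scoped MatrixGroups
open Cfsg

namespace Cfsg.Agent.S5951

open Module Polynomial Cfsg.Agent.Elu in
theorem flag_iff {F : Type*} [Field F] {u : F[X]} (hu : u.natDegree = 1) {D : Multiset F[X]} {e : ℕ}
    (h : ∀ a ∈ D, a.natDegree = e) (k m : ℕ) (hm : 2 * m ≤ k + e * D.card) :
    (∃ E E', E ≤ E' ∧ E' ≤ Multiset.replicate k u + D ∧ dsum E = m ∧ dsum E' = k + e * D.card - m) ↔
      ∃ l l' j j', l + l' ≤ k ∧ j + j' ≤ D.card ∧ m = l + e * j ∧ m = l' + e * j' := by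
  classical
  constructor
  · rintro ⟨E, E', h1, h2, h3, h4⟩
    have s : ∀ A ≤ Multiset.replicate k u + D, ∃ l, ∃ B ≤ D, A = Multiset.replicate l u + B ∧
        l = min (A.count u) k := by
      intro A hA
      refine ⟨_, A - Multiset.replicate k u, tsub_le_iff_left.2 hA, ?_, rfl⟩
      ext a
      by_cases ha : a = u
      · subst ha; simp; omega
      · simp [Multiset.count_replicate, Ne.symm ha]
    obtain ⟨l, B, hB, rfl, hl⟩ := s E (h1.trans h2)
    obtain ⟨l', B', hB', rfl, hl'⟩ := s E' h2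
    have h5 := Multiset.count_le_of_le u h1
    have h6 : B ≤ B' := Multiset.le_iff_count.2 fun a => by
      have := Multiset.count_le_of_le a h1
      by_cases ha : a = u
      · subst ha; simp at *; omega
      · simpa [Multiset.count_replicate, Ne.symm ha] using this
    have h7 := Multiset.card_le_card h6
    have h8 := Multiset.card_le_card hB'
    rw [dsum_add, dsum_replicate, hu, dsum_const fun a ha => h a (Multiset.mem_of_le hB ha)] at h3
    rw [dsum_add, dsum_replicate, hu, dsum_const fun a ha => h a (Multiset.mem_of_le hB' ha)] at h4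
    have h9 : e * B'.card ≤ e * D.card := Nat.mul_le_mul_left _ h8
    exact ⟨l, k - l', B.card, D.card - B'.card, by omega, by omega, by omega, by
      rw [Nat.mul_sub]; omega⟩
  · rintro ⟨l, l', j, j', h1, h2, h3, h4⟩
    obtain ⟨B', hB', e1⟩ := exists_le_card D (j := D.card - j') (by omega)
    obtain ⟨B, hB, e2⟩ := exists_le_card B' (j := j) (by omega)
    have h9 : e * j' ≤ e * D.card := Nat.mul_le_mul_left _ (by omega)
    refine ⟨Multiset.replicate l u + B, Multiset.replicate (k - l') u + B',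
      add_le_add (Multiset.replicate_le_replicate _ |>.2 (by omega)) hB,
      add_le_add (Multiset.replicate_le_replicate _ |>.2 (by omega)) hB', ?_, ?_⟩
    · rw [dsum_add, dsum_replicate, hu, dsum_const fun a ha =>
        h a (Multiset.mem_of_le (hB.trans hB') ha), e2]; omega
    · rw [dsum_add, dsum_replicate, hu, dsum_const fun a ha => h a (Multiset.mem_of_le hB' ha), e1,
        Nat.mul_sub]; omega

/-- Elements of prime order of PSL_n(q) fixing no pair of subspaces `U < W` with `dim U = m`, `dim W = n − m`. Here `T = PSL_n(F)` for a field `F` with `q = p^f` elements (`n ≥ 2`, `(n, q) ≠ (2, 2), (2, 3)`); an element of `T` of prime order `r` is represented by a matrix `x` of determinant 1 with `x^r` scalar and `x` not scalar; `i` denotes the multiplicative order of `q` modulo `r` (when `r ≠ p`), and `(a)_r` the `r`-part of `a`. Let `1 ≤ m < n/2` and let `r` be a prime dividing the number of such pairs. Then every element of `T` of order `r` fixes such a pair (both `U` and `W`) if and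 only if `r ≠ p` and either (i) `i = 1` and (`r ∣ m`, or `(q−1)_r ≥ (n)_r` with `q ≡ 1 (mod 4)` required when `r = 2` and `n` is even), or (ii) `2 ≤ i ≤ m` and `n mod i ≥ 2 (m mod i)`. -/
theorem result {F : Type*} [Field F] [Fintype F] {p : ℕ} [Fact p.Prime] [CharP F p] {q : ℕ} (hq : Fintype.card F = q)
    (n m : ℕ) (hn : 2 ≤ n) (hT : (n, q) ≠ (2, 2) ∧ (n, q) ≠ (2, 3)) (hm : 1 ≤ m) (hmn : 2 * m < n)
    (r : ℕ) [Fact r.Prime]
    (hrΩ : r ∣ Nat.card {P : Submodule F (Fin n → F) × Submodule F (Fin n → F) //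
        P.1 ≤ P.2 ∧ Module.finrank F ↥P.1 = m ∧ Module.finrank F ↥P.2 = n - m}) :
    (∀ x : Matrix.SpecialLinearGroup (Fin n) F,
      (∃ c : F, ((x ^ r : Matrix.SpecialLinearGroup (Fin n) F) : Matrix (Fin n) (Fin n) F) = c • (1 : Matrix (Fin n) (Fin n) F)) →
      (∀ c : F, (x : Matrix (Fin n) (Fin n) F) ≠ c • (1 : Matrix (Fin n) (Fin n) F)) →
      ∃ U W : Submodule F (Fin n → F), U ≤ W ∧ Module.finrank F ↥U = m ∧ Module.finrank F ↥W = n - m ∧
        U.map (Matrix.toLin' (x : Matrix (Fin n) (Fin n) F)) ≤ U ∧ W.map (Matrix.toLin' (x : Matrix (Fin n) (Fin n) F)) ≤ W) ↔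
    (r ≠ p ∧
      ((orderOf (q : ZMod r) = 1 ∧ (r ∣ m ∨ (padicValNat r n ≤ padicValNat r (q - 1) ∧ (r = 2 → Even n → q % 4 = 1)))) ∨
       (2 ≤ orderOf (q : ZMod r) ∧ orderOf (q : ZMod r) ≤ m ∧ 2 * (m % orderOf (q : ZMod r)) ≤ n % orderOf (q : ZMod r)))) := by
  open Module Polynomial Cfsg.Agent.Elu Cfsg.Agent.Classical in
  subst hq
  have hV : finrank F (Fin n → F) = n := finrank_fin_fun F
  rw [sl_forall_iff (fun f => ∃ U W : Submodule F (Fin n → F), U ≤ W ∧ finrank F U = m ∧
    finrank F W = n - m ∧ U.map f ≤ U ∧ W.map f ≤ W)]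
  simp only [inv_iff_map]
  have hP : ∀ (w : F) (f : End F (Fin n → F)), w ≠ 0 → (∃ U W : Submodule F (Fin n → F), U ≤ W ∧
      finrank F U = m ∧ finrank F W = n - m ∧ Inv (w • f) U ∧ Inv (w • f) W) →
      ∃ U W : Submodule F (Fin n → F), U ≤ W ∧ finrank F U = m ∧ finrank F W = n - m ∧ Inv f U ∧
        Inv f W := fun w f hw => by simp only [inv_smul_iff hw]; exact id
  have hrp : r ≠ p := by
    rintro rfl
    exact not_dvd_flag (by omega) (by omega) hrΩ
  have h := cast_ne_zero_of_ne (F := F) hrp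
  have hrq := not_dvd_card (F := F) hrp
  have h0 := orderOf_pos_of_not_dvd hrq
  have key : ∀ (f : End F (Fin n → F)) (b : F[X]) (e : ℕ), 0 < e → Squarefree b → aeval f b = 0 →
      (∀ a ∈ elemDiv f, a.natDegree = e) → ((∃ U W : Submodule F (Fin n → F), U ≤ W ∧
      finrank F U = m ∧ finrank F W = n - m ∧ Inv f U ∧ Inv f W) ↔ e ∣ m) := by
    intro f b e he h1 h2 h3
    have h4 : e * (elemDiv f).card = n := by rw [← dsum_const h3, dsum_elemDiv, hV]
    have := flag_iff (natDegree_X (R := F)) h3 0 m (by omega)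
    rw [Multiset.replicate_zero, zero_add, zero_add, h4] at this
    rw [exists_flag_iff h1 h2, this]
    constructor
    · rintro ⟨l, l', j, j', h5, -, h6, -⟩
      exact ⟨j, by omega⟩
    · rintro ⟨j, rfl⟩
      exact ⟨0, 0, j, j, le_rfl, Nat.le_of_mul_le_mul_left (by rw [mul_add]; omega) he, by simp,
        by simp⟩
  rw [← Nat.card_eq_fintype_card]
  by_cases hi : orderOf (Nat.card F : ZMod r) = 1
  · rw [forall_one h hi (by omega) (R := r ∣ m) hP, excL_iff hi (by omega), hV]
    · rw [hi]; simp [hrp]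
    · exact fun f b h1 h2 h3 => (key f b 1 one_pos h1 h2 h3).2 (one_dvd _)
    · exact fun f b h1 h2 h3 => key f b r (Fact.out : r.Prime).pos h1 h2 h3
  · have hd := exists_dvd_of_glo Finite.one_lt_card hrq (Nat.sub_le _ _)
      (dvd_of_flag (V := Fin n → F) (m := m) (by omega) (by rwa [hV]))
    rw [forall_two_le hi (by omega) hP, forall_blocks h (R := fun s => ∃ l l' j j', l + l' ≤
      finrank F (Fin n → F) - orderOf (Nat.card F : ZMod r) * s ∧ j + j' ≤ s ∧
      m = l + orderOf (Nat.card F : ZMod r) * j ∧ m = l' + orderOf (Nat.card F : ZMod r) * j'),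
      arith_flag (by omega) hd, hV]
    · generalize orderOf (Nat.card F : ZMod r) = i at *
      simp [hi, hrp, show 2 ≤ i by omega]
    · intro y k D h1 h2 h3 h4
      rw [exists_flag_iff (squarefree_X_pow_sub_one h) ((aeval_X_pow_sub_one y r).2 h1), h2,
        show n - m = k + orderOf (Nat.card F : ZMod r) * D.card - m by omega, ← h4, Nat.add_sub_cancel]
      exact flag_iff (natDegree_X_sub_C _) (fun a ha => (h3 a ha).natDegree h) _ _ (by omega)

end Cfsg.Agent.S5951
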