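import Cfsg.Statements.S5952
import Cfsg.Agent.Elu.Lin
import Cfsg.Agent.Geom.Bases

set_option autoImplicit false
open Cfsg

namespace Cfsg.Agent.S5952

open Module Cfsg.Agent.Elu in
theorem step {F V : Type*} [Field F] [AddCommGroup V] [Module F V] [FiniteDimensional F V]
    {f : V →ₗ[F] V} {U Y W : Submodule F V} (hU : Inv f U) (hd : Disjoint U Y)
    (hirr : ∀ W : Submodule F V, W ≤ U → W.map f ≤ W → W = ⊥ ∨ W = U) (hY : Inv f Y)
    (hW : Inv f W) : ∃ j, finrank F ↥(W ⊓ (U ⊔ Y)) = finrank F ↥(W ⊓ Y) + finrank F U * j := by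
  have hX : Inv f ((W ⊓ (U ⊔ Y)) ⊔ Y) := (hW.inf (hU.sup hY)).sup hY
  have h1 : (W ⊓ (U ⊔ Y)) ⊔ Y = Y ⊔ (U ⊓ ((W ⊓ (U ⊔ Y)) ⊔ Y)) := by
    rw [← sup_inf_assoc_of_le _ (le_sup_right : Y ≤ (W ⊓ (U ⊔ Y)) ⊔ Y), eq_comm, inf_eq_right,
      sup_comm Y]
    exact sup_le inf_le_right le_sup_right
  have h2 := Submodule.finrank_sup_add_finrank_inf_eq (W ⊓ (U ⊔ Y)) Y
  rw [inf_assoc, inf_eq_right.2 (le_sup_right : Y ≤ U ⊔ Y)] at h2
  have h3 := Submodule.finrank_sup_add_finrank_inf_eq U Y
  rw [hd.eq_bot, finrank_bot] at h3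
  rcases hirr _ inf_le_left (inv_iff_map.2 (hU.inf hX)) with h | h
  · rw [h, sup_bot_eq] at h1
    rw [h1] at h2
    exact ⟨0, by omega⟩
  · rw [h, sup_comm Y] at h1
    rw [h1] at h2
    exact ⟨1, by omega⟩

/-- Which dimensions of invariant subspaces a semisimple linear map has. Let `V` be a finite-dimensional vector space over a field `F` and `f` an invertible semisimple linear map of `V`. Suppose `V` is the internal direct sum of the fixed space `C_V(f)` (the eigenspace for 1) and subspaces `U_1, …, U_s`, each `f`-invariant of dimension `a ≥ 1` on which `f` acts irreducibly (no `f`-invariant subspaces other than 0 and `U_j`). Let `0 < m < dim V` and `ℓ = m mod a`. Then `f` leaves some `m`-dimensional subspace invariant if and only if `dim C_V(f) ≥ m`, or `a ≤ m` and `dim C_V(f) ≥ ℓ`. -/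
theorem result {F V : Type*} [Field F] [AddCommGroup V] [Module F V]
    [FiniteDimensional F V] (f : V →ₗ[F] V) (hf : Function.Bijective f) (hss : Module.End.IsSemisimple f)
    {s a : ℕ} (ha : 1 ≤ a) (U : Fin s → Submodule F V)
    (hUinv : ∀ j, (U j).map f ≤ U j) (hUdim : ∀ j, Module.finrank F ↥(U j) = a)
    (hUirr : ∀ j, ∀ W : Submodule F V, W ≤ U j → W.map f ≤ W → W = ⊥ ∨ W = U j)
    (hdec : DirectSum.IsInternal (fun o : Option (Fin s) => o.elim (Module.End.eigenspace f 1) U))
    (m : ℕ) (hm : 0 < m) (hmV : m < Module.finrank F V) :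
    (∃ W : Submodule F V, Module.finrank F ↥W = m ∧ W.map f ≤ W) ↔
    (m ≤ Module.finrank F ↥(Module.End.eigenspace f 1) ∨
      (a ≤ m ∧ m % a ≤ Module.finrank F ↥(Module.End.eigenspace f 1))) := by
  classical
  open Module Cfsg.Agent.Elu in
  set C := Module.End.eigenspace f 1
  have hC : ∀ C' ≤ C, Inv f C' := fun C' h => inv_of_fix fun v hv => by
    simpa using Module.End.mem_eigenspace_iff.1 (h hv)
  have hd : ∀ C' ≤ C, ∀ (T : Finset (Fin s)) (t : Fin s), t ∉ T → Disjoint (U t) (T.sup U ⊔ C') := by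
    intro C' h T t ht
    refine (hdec.submodule_iSupIndep (some t)).mono_right (sup_le (Finset.sup_le fun j hj => ?_) ?_)
    · exact le_iSup₂_of_le (some j) (by rintro ⟨⟩; exact ht hj) le_rfl
    · exact le_iSup₂_of_le none (by simp) h
  have hI : ∀ T : Finset (Fin s), Inv f (T.sup U) := fun T =>
    T.induction_on (Inv.bot f) fun t T _ ih => by
      rw [Finset.sup_insert]; exact (inv_iff_map.1 (hUinv t)).sup ih
  have hdim : ∀ C' ≤ C, ∀ T : Finset (Fin s),
      finrank F ↥(T.sup U ⊔ C') = finrank F C' + a * T.card := by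
    intro C' h T
    induction T using Finset.induction_on with
    | empty => rw [Finset.sup_empty, bot_sup_eq]; simp
    | insert t T ht ih =>
      have h3 := Submodule.finrank_sup_add_finrank_inf_eq (U t) (T.sup U ⊔ C')
      rw [(hd C' h T t ht).eq_bot, finrank_bot, ih, hUdim] at h3
      rw [Finset.sup_insert, sup_assoc, Finset.card_insert_of_notMem ht, mul_add]
      omega
  have htop : Finset.univ.sup U ⊔ C = ⊤ := by
    rw [eq_top_iff, ← hdec.submodule_iSup_eq_top]
    refine iSup_le fun o => ?_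
    cases o with
    | none => exact le_sup_right
    | some j => exact le_sup_of_le_left (Finset.le_sup (f := U) (Finset.mem_univ j))
  constructor
  · rintro ⟨W, rfl, hW⟩
    have key : ∀ T : Finset (Fin s), ∃ j, finrank F ↥(W ⊓ (T.sup U ⊔ C)) =
        finrank F ↥(W ⊓ C) + a * j := by
      intro T
      induction T using Finset.induction_on with
      | empty => exact ⟨0, by rw [Finset.sup_empty, bot_sup_eq]; simp⟩
      | insert t T ht ih =>
        obtain ⟨j, hj⟩ := ih
        obtain ⟨j', hj'⟩ := step (inv_iff_map.1 (hUinv t)) (hd C le_rfl T t ht) (hUirr t)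
          ((hI T).sup (hC C le_rfl)) (inv_iff_map.1 hW)
        exact ⟨j + j', by rw [Finset.sup_insert, sup_assoc, hj', hj, hUdim]; ring⟩
    obtain ⟨j, hj⟩ := key Finset.univ
    rw [htop, inf_top_eq] at hj
    have h1 : finrank F ↥(W ⊓ C) ≤ finrank F C := Submodule.finrank_mono inf_le_right
    rcases Nat.eq_zero_or_pos j with rfl | hj0
    · left; omega
    · right
      refine ⟨by nlinarith, ?_⟩
      rw [hj, Nat.add_mul_mod_self_left]
      exact (Nat.mod_le _ _).trans h1
  · intro h
    have hn := hdim C le_rfl Finset.univ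
    rw [htop, finrank_top, Finset.card_univ, Fintype.card_fin] at hn
    obtain ⟨l, hl, j, hj, rfl⟩ : ∃ l ≤ finrank F C, ∃ j ≤ s, m = l + a * j := by
      rcases h with h | ⟨-, h⟩
      · exact ⟨m, h, 0, Nat.zero_le _, rfl⟩
      · by_cases h1 : m / a ≤ s
        · exact ⟨_, h, _, h1, (Nat.mod_add_div m a).symm⟩
        · have h2 : a * s ≤ m := (Nat.mul_le_mul_left a (le_of_not_ge h1)).trans (Nat.mul_div_le m a)
          exact ⟨m - a * s, by omega, s, le_rfl, by omega⟩
    obtain ⟨T, hT⟩ : ∃ T : Finset (Fin s), T.card = j := by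
      obtain ⟨T, -, hT⟩ := Finset.exists_subset_card_eq (s := (Finset.univ : Finset (Fin s)))
        (n := j) (by simpa using hj)
      exact ⟨T, hT⟩
    obtain ⟨C', h1, h2⟩ := Geom.Formed.exists_le_finrank_eq C hl
    exact ⟨T.sup U ⊔ C', by rw [hdim C' h1, h2, hT], inv_iff_map.2 ((hI T).sup (hC C' h1))⟩

end Cfsg.Agent.S5952
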