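import Cfsg.Statements.S5953
import Cfsg.Agent.Elu.Herm

set_option autoImplicit false
open scoped MatrixGroups
open Cfsg

namespace Cfsg.Agent.S5953

/-- Elements of prime order of PSU_n(q) with no fixed totally isotropic `m`-space. Here `T = PSU_n(q)` (`n ≥ 3`, `(n, q) ≠ (3, 2)`), realised through the matrices of determinant 1 over the field `F` with `q²` elements preserving the Hermitian form `h(u, v) = Σ u_i v_i^q`; an element of `T` of prime order `r` is such a matrix `x` with `x^r` scalar and `x` not scalar. For `r ≠ p` let `i` be the multiplicative order of `q` modulo `r`, `b = i/2` for `i` even and `b = i` for `i` odd, `c = i, i/2, 2i` according as `i ≡ 0, 2 (mod 4)` or `i` odd, and write `k = n mod c`, `ℓ = m mod b`, `ℓ' = m mod c`, `n' = ⌊n/b⌋`, `m' = ⌊m/b⌋`, `s = (r−1)/b`; `(a)_r` is the `r`-part of `a`. Let `1 ≤ m ≤ n/2` and let `r` be a prime dividing the number of totally isotropic `m`-spaces. Then every element of `T` of order `r` fixes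 a totally isotropic `m`-space if and only if either (i) `r = 2`, `p ≠ 2`, and (`m < n/2` or `(q+1)_2 ≤ (n)_2`); or (ii) `r ≠ p`, `r > 2`, `b ≤ m`, `k ≥ 2ℓ`, and either `i ≢ 2 (mod 4)`, or `i ≡ 2 (mod 4)`, `n' − 2m' ≥ s` and (`i > 2`, or `i = 2` and (`r ∣ m` or `(q+1)_r ≥ (n)_r`)). -/
theorem result {F : Type*} [Field F] [Fintype F] {p : ℕ} [Fact p.Prime] [CharP F p] {q : ℕ} (hq : Fintype.card F = q ^ 2)
    (n m : ℕ) (hn : 3 ≤ n) (hT : (n, q) ≠ (3, 2)) (hm : 1 ≤ m) (hmn : 2 * m ≤ n)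
    (r : ℕ) [Fact r.Prime]
    (hrΩ : r ∣ Nat.card {W : Submodule F (Fin n → F) // Module.finrank F ↥W = m ∧ (∀ u ∈ W, ∀ v ∈ W, Cfsg.hermForm n F q u v = 0)})
    (i b c : ℕ) (hi : i = orderOf (q : ZMod r)) (hb : b = if Even i then i / 2 else i)
    (hc : c = if i % 4 = 0 then i else if i % 4 = 2 then i / 2 else 2 * i) :
    (∀ x : Matrix.SpecialLinearGroup (Fin n) F, x ∈ Cfsg.SU n F q →
      (∃ z : F, ((x ^ r : Matrix.SpecialLinearGroup (Fin n) F) : Matrix (Fin n) (Fin n) F) = z • (1 : Matrix (Fin n) (Fin n) F)) →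
      (∀ z : F, (x : Matrix (Fin n) (Fin n) F) ≠ z • (1 : Matrix (Fin n) (Fin n) F)) →
      ∃ W : Submodule F (Fin n → F), Module.finrank F ↥W = m ∧ (∀ u ∈ W, ∀ v ∈ W, Cfsg.hermForm n F q u v = 0) ∧
        W.map (Matrix.toLin' (x : Matrix (Fin n) (Fin n) F)) ≤ W) ↔
    ((r = 2 ∧ p ≠ 2 ∧ (2 * m < n ∨ padicValNat 2 (q + 1) ≤ padicValNat 2 n)) ∨
     (r ≠ p ∧ 2 < r ∧ b ≤ m ∧ 2 * (m % b) ≤ n % c ∧
       (i % 4 ≠ 2 ∨ (i % 4 = 2 ∧ (r - 1) / b + 2 * (m / b) ≤ n / b ∧
         (2 < i ∨ (i = 2 ∧ (r ∣ m ∨ padicValNat r n ≤ padicValNat r (q + 1)))))))) := by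
-----
  open Module Polynomial Cfsg.Agent.Elu Cfsg.Agent.Geom Cfsg.Agent.Classical in
  have hV : finrank F (Fin n → F) = n := by simp
  have hs := spu_herm (Φ := hermFormed hq n) rfl
  have h0 := hermFormed_nondeg hq n
  simp only [herm_ts_iff (hF := hq)] at hrΩ ⊢
  rw [su_forall_iff (hF := hq) (fun f => ∃ W : Submodule F (Fin n → F), finrank F W = m ∧
    (hermFormed hq n).TotSing W ∧ W.map f ≤ W)]
  simp only [inv_iff_map]
  have hP : ∀ (w : F) (f : End F (Fin n → F)), w ≠ 0 → (∃ W : Submodule F _, finrank F W = m ∧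
      (hermFormed hq n).TotSing W ∧ Inv (w • f) W) → ∃ W : Submodule F _, finrank F W = m ∧
      (hermFormed hq n).TotSing W ∧ Inv f W := fun w f hw => by simp only [inv_smul_iff hw]; exact id
  have hrp : r ≠ p := by
    rintro rfl
    exact not_dvd_ts h0 (hs.witt h0) (by omega) (Or.inr (by rw [kappa_herm hq hs.eps]; exact dvd_q hq)) hrΩ
  have h := cast_ne_zero_of_ne (F := F) hrp
  rcases (Fact.out : r.Prime).eq_two_or_odd' with rfl | hr
  · have h2 := cast_two_ne (F := F) hrp.symm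
    have key : ∀ y, Iso (hermFormed hq n) y → y ^ 2 = 1 → ((∃ W : Submodule F _, finrank F W = m ∧
        (hermFormed hq n).TotSing W ∧ Inv y W) ↔ m ≤ kd y (X - C 1) / 2 + kd y (X - C (-1)) / 2) ∧
        kd y (X - C 1) + kd y (X - C (-1)) = n := fun y h3 h4 => by
      have h5 := h3.nd_fix h0 (isCoprime_two h2) (aeval_two h4)
      exact ⟨ts_two h2 h3 h4 ((hs.res _).witt h5.1) ((hs.res _).witt h5.2),
        (finrank_fix (isCoprime_two h2) (aeval_two h4)).trans hV⟩
    rw [su_forall h0 hP, su_exc_two hs h0 (by omega) h2 (R := True) fun f w h3 h4 h5 => by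
      obtain ⟨h6, -, h7, -⟩ := type_two hs h0 h2 h3 h5 h4
      obtain ⟨U, h8, h9⟩ := Formed.exists_le_finrank_eq (kerA f (X - C w)) (k := m) (by
        rw [kd] at h7; change _ ≤ finrank F (LinearMap.ker _); omega)
      exact iff_true_intro ⟨U, h9, h6.mono h8, inv_of_le_kerA h8⟩]
    simp only [true_and, lt_irrefl, false_and, and_false, or_false, hrp.symm, Ne, not_false_iff,
      true_or, and_true]
    by_cases h3 : 2 * m < n
    · exact iff_of_true (fun y _ h4 h5 _ _ _ => (key y h4 h5).1.2 (by have := (key y h4 h5).2; omega))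
        (Or.inl h3)
    · rw [or_iff_right h3, su_refl hs h0 h2 (by omega) (Nat.even_iff.2 (by omega)) (fun y a b c d =>
        (key y a b).1.2 (by have := (key y a b).2; rw [Nat.even_iff] at c d; omega))
        fun y a b c d => (key y a b).1.not.2 (by omega), hV]
  have h3 : 2 < r := (Fact.out : r.Prime).two_le.lt_of_ne (by rintro rfl; exact absurd hr (by decide))
  have h4 := herm_ts hs h0 h h3 hi hb hc hV hmn hrΩ
  simp only [h3.ne', false_and, false_or, hrp, Ne, not_false_iff, h3, true_and]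
  by_cases h5 : r ∣ q + 1
  · obtain rfl : i = 2 := hi.trans ((dvd_succ_iff h3).1 h5)
    obtain rfl : b = 1 := hb
    obtain rfl : c = 1 := hc
    have h6 := su_exc_odd hs h0 (by omega) h3 h5 (R := r ∣ m) (P := fun f => ∃ W : Submodule F _,
      finrank F W = m ∧ (hermFormed hq n).TotSing W ∧ Inv f W) fun f b h6 h7 h8 h9 => ⟨?_, ?_⟩
    · simp only [Nat.mod_one, Nat.div_one, hm, true_and, le_refl, not_true, false_or, lt_irrefl,
        mul_zero, Ne, hV] at h4 h6 ⊢
      refine ⟨fun H => ⟨not_lt.1 fun h7 => ?_, h6.1 (by simpa [hV] using ((su_forall h0 hP).1 H).2)⟩,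
        fun H => (su_forall h0 hP).2 ⟨fun y _ a b c _ _ => h4.2 H.1 y a b (by simpa using c 1),
          by simpa [hV] using h6.2 H.2⟩⟩
      obtain ⟨y, a, b, -, c⟩ := exists_bad_diag hs h0 h3 h5 (k := n / 2 - m + 1) (by omega)
        (by have := Nat.odd_iff.1 hr; omega) (by omega)
      obtain ⟨W, d, e, f⟩ := H y a b
      have := c W e f
      omega
    · rintro ⟨W, rfl, -, a⟩
      exact ⟨_, h8.finrank_eq (aeval_restrict_eq_zero a h6.ker)⟩
    · rintro ⟨j, rfl⟩
      obtain ⟨U, a, b, c⟩ := exists_ts_sd h8 h9 h6 (j := j) (Or.inr (by rw [h7, hV]; nlinarith))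
      exact ⟨U, c, b, a⟩
  · have h6 : i ≠ 2 := fun h => h5 ((dvd_succ_iff h3).2 (hi ▸ h))
    rw [su_cop hs h0 (by omega) h5 hP, h4]
    simp only [h6, false_and, or_false]
    exact and_congr_right fun _ => and_congr_right fun _ => by omega

end Cfsg.Agent.S5953
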