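import Cfsg.Statements.S5954
import Cfsg.Agent.Elu.Herm

set_option autoImplicit false
open scoped MatrixGroups
open Cfsg

namespace Cfsg.Agent.S5954

/-- Elements of prime order of PSU_n(q) with no fixed nondegenerate `m`-space. Here `T = PSU_n(q)` (`n ≥ 3`, `(n, q) ≠ (3, 2)`), realised through the matrices of determinant 1 over the field `F` with `q²` elements preserving the Hermitian form `h(u, v) = Σ u_i v_i^q`; an element of `T` of prime order `r` is such a matrix `x` with `x^r` scalar and `x` not scalar. For `r ≠ p` let `i` be the multiplicative order of `q` modulo `r`, `b = i/2` for `i` even and `b = i` for `i` odd, `c = i, i/2, 2i` according as `i ≡ 0, 2 (mod 4)` or `i` odd, and write `k = n mod c`, `ℓ = m mod b`, `ℓ' = m mod c`, `n' = ⌊n/b⌋`, `m' = ⌊m/b⌋`, `s = (r−1)/b`; `(a)_r` is the `r`-part of `a`. Let `1 ≤ m < n/2` and let `r` be a prime dividing the number of nondegenerate `m`-spaces. Then every element of `T`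 of order `r` fixes a nondegenerate `m`-space if and only if one of: (i) `r = p > 2` and every partition of `n` into parts of size at most `p` contains (as a sub-multiset) a partition of `m`; (ii) `r = p = 2` and (`n` is odd or `m` is even); (iii) `r = 2 ≠ p` and (`n` is odd, or `m` is even, or `(q+1)_2 ≥ (n)_2` and `q ≡ 3 (mod 4)`); (iv) `r ≠ p`, `r > 2`, and either `i ≠ 2`, `c ≤ m` and `k ≥ ℓ'`, or `i = 2` and (`r ∣ m` or `(q+1)_r ≥ (n)_r`). -/
theorem result {F : Type*} [Field F] [Fintype F] {p : ℕ} [Fact p.Prime] [CharP F p] {q : ℕ} (hq : Fintype.card F = q ^ 2)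
    (n m : ℕ) (hn : 3 ≤ n) (hT : (n, q) ≠ (3, 2)) (hm : 1 ≤ m) (hmn : 2 * m < n)
    (r : ℕ) [Fact r.Prime]
    (hrΩ : r ∣ Nat.card {W : Submodule F (Fin n → F) // Module.finrank F ↥W = m ∧ (∀ u ∈ W, u ≠ 0 → ∃ v ∈ W, Cfsg.hermForm n F q u v ≠ 0)})
    (i b c : ℕ) (hi : i = orderOf (q : ZMod r)) (hb : b = if Even i then i / 2 else i)
    (hc : c = if i % 4 = 0 then i else if i % 4 = 2 then i / 2 else 2 * i) :
    (∀ x : Matrix.SpecialLinearGroup (Fin n) F, x ∈ Cfsg.SU n F q →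
      (∃ z : F, ((x ^ r : Matrix.SpecialLinearGroup (Fin n) F) : Matrix (Fin n) (Fin n) F) = z • (1 : Matrix (Fin n) (Fin n) F)) →
      (∀ z : F, (x : Matrix (Fin n) (Fin n) F) ≠ z • (1 : Matrix (Fin n) (Fin n) F)) →
      ∃ W : Submodule F (Fin n → F), Module.finrank F ↥W = m ∧ (∀ u ∈ W, u ≠ 0 → ∃ v ∈ W, Cfsg.hermForm n F q u v ≠ 0) ∧
        W.map (Matrix.toLin' (x : Matrix (Fin n) (Fin n) F)) ≤ W) ↔
    ((r = p ∧ 2 < p ∧ (∀ μ : Multiset ℕ, (∀ a ∈ μ, 0 < a ∧ a ≤ p) → μ.sum = n → ∃ ν : Multiset ℕ, ν ≤ μ ∧ ν.sum = m)) ∨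
     (r = p ∧ p = 2 ∧ (Odd n ∨ Even m)) ∨
     (r = 2 ∧ p ≠ 2 ∧ (Odd n ∨ Even m ∨ (padicValNat 2 n ≤ padicValNat 2 (q + 1) ∧ q % 4 = 3))) ∨
     (r ≠ p ∧ 2 < r ∧ ((i ≠ 2 ∧ c ≤ m ∧ m % c ≤ n % c) ∨ (i = 2 ∧ (r ∣ m ∨ padicValNat r n ≤ padicValNat r (q + 1)))))) := by
-----
  open Module Polynomial Cfsg.Agent.Elu Cfsg.Agent.Geom Cfsg.Agent.Classical in
  have hV : finrank F (Fin n → F) = n := by simp
  have hs := spu_herm (Φ := hermFormed hq n) rfl
  have h0 := hermFormed_nondeg hq n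
  have hσ := frobq_ne_id hq
  simp only [herm_nd_iff (hF := hq)] at hrΩ ⊢
  rw [su_forall_iff (hF := hq) (fun f => ∃ W : Submodule F (Fin n → F), finrank F W = m ∧
    Nd (hermFormed hq n) W ∧ W.map f ≤ W)]
  simp only [inv_iff_map]
  have hP : ∀ (w : F) (f : End F (Fin n → F)), w ≠ 0 → (∃ W : Submodule F _, finrank F W = m ∧
      Nd (hermFormed hq n) W ∧ Inv (w • f) W) → ∃ W : Submodule F _, finrank F W = m ∧
      Nd (hermFormed hq n) W ∧ Inv f W := fun w f hw => by simp only [inv_smul_iff hw]; exact id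
  by_cases hrp : r = p
  · subst hrp
    rw [su_cop hs h0 (by omega) (not_char_dvd (hF := hq)) hP,
      hs.forall_unip h0 (fun h => absurd h hσ) (by omega) fun h => absurd h hσ, hV]
    simp only [Par, hσ, false_and, false_imp_iff, implies_true, forall_const, and_true]
    rcases (Fact.out : r.Prime).two_le.eq_or_lt with rfl | h
    · simp [part_two_iff (show m ≤ n by omega)]
    · simp [h, h.ne']
  have h := cast_ne_zero_of_ne (F := F) hrp
  have key : ∀ {f : End F (Fin n → F)} {b e c}, Ff (hermFormed hq n) f b → Pol b e → Typ (frobq hq) b e c →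
      ((∃ W : Submodule F _, finrank F W = m ∧ Nd (hermFormed hq n) W ∧ Inv f W) ↔ c ∣ m) :=
    fun h1 h2 h3 => ⟨fun ⟨W, a, b, c⟩ => a ▸ h3.dvd h2 (h1.res c b), fun ⟨j, hj⟩ => by
      obtain ⟨W, a, b, c⟩ := exists_nd h2 h3 j h1 (by omega)
      exact ⟨W, c.trans hj.symm, b, a⟩⟩
  rcases (Fact.out : r.Prime).eq_two_or_odd' with rfl | hr
  · have h2 := cast_two_ne (F := F) (Ne.symm hrp)
    rw [su_forall h0 hP, su_exc_two hs h0 (by omega) h2 (R := 2 ∣ m) fun f w h3 h4 h5 =>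
      key ⟨h0, h3, (aeval_X_pow_sub_C _ _ _).2 h4⟩ (nsd_two h2 h5).1 (Or.inr ⟨(nsd_two h2 h5).2, rfl⟩),
      and_iff_right fun y _ h3 h4 _ _ _ => hs.nd_two h0 h2 h3 h4 (by omega) fun h => absurd h hσ, hV]
    simp [hrp, Ne.symm hrp, even_iff_two_dvd, or_left_comm]
  have h3 : 2 < r := (Fact.out : r.Prime).two_le.lt_of_ne (by rintro rfl; exact absurd hr (by decide))
  have h4 := herm_nd hs h0 h h3 hi hc hV (by omega) hrΩ
  simp only [h3.ne', false_and, false_or, hrp, Ne, not_false_iff, h3, true_and]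
  by_cases h5 : r ∣ q + 1
  · obtain rfl : i = 2 := hi.trans ((dvd_succ_iff h3).1 h5)
    obtain rfl : c = 1 := hc
    rw [su_forall h0 hP, su_exc_odd hs h0 (by omega) h3 h5 (R := r ∣ m) fun f b h6 _ h8 h9 =>
      key h6 h8 (Or.inl ⟨h9, rfl⟩), and_iff_right fun y _ a b c _ _ => h4.2 ⟨hm, by omega⟩ y a b
        (by simpa using c 1), hV]
    simp
  · have h6 : i ≠ 2 := fun h => h5 ((dvd_succ_iff h3).2 (hi ▸ h))
    rw [su_cop hs h0 (by omega) h5 hP, h4]
    simp [h6]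

end Cfsg.Agent.S5954
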