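import Cfsg.Statements.S5955
import Cfsg.Agent.Elu.Bil

set_option autoImplicit false
open scoped MatrixGroups
open Cfsg

namespace Cfsg.Agent.S5955

/-- Elements of prime order of PSp_n(q) with no fixed totally isotropic `m`-space. Here `T = PSp_n(q)` with `n = 2d ≥ 4`, `(n, q) ≠ (4, 2)`, realised through the symplectic matrices over the field `F` with `q` elements (preserving the standard alternating form); an element of `T` of prime order `r` is such a matrix `x` with `x^r` scalar and `x` not scalar. For `r ≠ p` let `i` be the multiplicative order of `q` modulo `r`, `c = i` for `i` even and `c = 2i` for `i` odd, and write `k = n mod c`, `ℓ = m mod i`, `ℓ' = m mod c`, `n' = ⌊n/i⌋`, `m' = ⌊m/i⌋`, `t = (r−1)/i`. Let `1 ≤ m ≤ n/2` and let `r` be a prime dividing the number of totally isotropic `m`-spaces. Then every element of `T` of order `r` fixes a totally isotropic `m`-space if and only if either (i) `r = 2 ≠ p` and (`m` is even or `q ≡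 1 (mod 4)`); or (ii) `r ≠ p`, `r > 2`, `i ≤ m`, `k ≥ 2ℓ`, and (`i` is odd or `n' − 2m' ≥ t`). -/
theorem result {F : Type*} [Field F] [Fintype F] {p : ℕ} [Fact p.Prime] [CharP F p] {q : ℕ} (hq : Fintype.card F = q)
    (d m : ℕ) (hd : 2 ≤ d) (hT : (d, q) ≠ (2, 2)) (hm : 1 ≤ m) (hmd : m ≤ d)
    (r : ℕ) [Fact r.Prime]
    (hrΩ : r ∣ Nat.card {W : Submodule F (Fin d ⊕ Fin d → F) // Module.finrank F ↥W = m ∧ (∀ u ∈ W, ∀ v ∈ W, Cfsg.sympForm d F u v = 0)})
    (i c : ℕ) (hi : i = orderOf (q : ZMod r)) (hc : c = if Even i then i else 2 * i) :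
    (∀ x : ↥(Matrix.symplecticGroup (Fin d) F),
      (∃ z : F, ((x ^ r : ↥(Matrix.symplecticGroup (Fin d) F)) : Matrix (Fin d ⊕ Fin d) (Fin d ⊕ Fin d) F) = z • (1 : Matrix (Fin d ⊕ Fin d) (Fin d ⊕ Fin d) F)) →
      (∀ z : F, (x : Matrix (Fin d ⊕ Fin d) (Fin d ⊕ Fin d) F) ≠ z • (1 : Matrix (Fin d ⊕ Fin d) (Fin d ⊕ Fin d) F)) →
      ∃ W : Submodule F (Fin d ⊕ Fin d → F), Module.finrank F ↥W = m ∧ (∀ u ∈ W, ∀ v ∈ W, Cfsg.sympForm d F u v = 0) ∧
        W.map (Matrix.toLin' (x : Matrix (Fin d ⊕ Fin d) (Fin d ⊕ Fin d) F)) ≤ W) ↔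
    ((r = 2 ∧ p ≠ 2 ∧ (Even m ∨ q % 4 = 1)) ∨
     (r ≠ p ∧ 2 < r ∧ i ≤ m ∧ 2 * (m % i) ≤ (2 * d) % c ∧ (Odd i ∨ (r - 1) / i + 2 * (m / i) ≤ (2 * d) / i))) := by
-----
  open Module Cfsg.Agent.Elu Cfsg.Agent.Geom in
  subst hq
  have hV : finrank F (Fin d ⊕ Fin d → F) = 2 * d := by simp [two_mul]
  have hs := spu_symp d F
  have hn := sympFormed_nondeg d F
  simp only [← sympFormed_B, ← hs.ts] at hrΩ ⊢
  rw [sp_forall_iff (fun f => ∃ W : Submodule F (Fin d ⊕ Fin d → F), finrank F W = m ∧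
    (sympFormed d F).TotSing W ∧ W.map f ≤ W)]
  simp only [inv_iff_map]
  have hrp : r ≠ p := by
    rintro rfl
    exact not_dvd_ts hn (hs.witt hn) (by omega) (Or.inr (by
      rw [hs.kappa_alt, ← CharP.cast_eq_zero_iff F, Nat.card_eq_fintype_card]; simp)) hrΩ
  rw [← Nat.card_eq_fintype_card] at hi ⊢
  rcases (Fact.out : r.Prime).eq_two_or_odd' with rfl | hr
  · have h2 := cast_two_ne (F := F) hrp.symm
    have := Module.finrank_pos_iff.1 (show 0 < finrank F (Fin d ⊕ Fin d → F) by omega)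
    rw [forall_two_id hn h2 fun _ h => h]
    simp only [true_and, lt_irrefl, false_and, and_false, or_false, hrp.symm, Ne, not_false_iff]
    constructor
    · obtain ⟨f, h3, h4⟩ := exists_sp_neg d F
      exact fun H => (four_ts h2 hn h3 h4 (by omega)).1 (H.2 f h3 h4)
    · refine fun H => ⟨fun f h3 h4 _ _ => ?_, fun f h3 h4 => (four_ts h2 hn h3 h4 (by omega)).2 H⟩
      have h5 := h3.nd_fix hn (isCoprime_two h2) (aeval_two h4)
      have h6 := finrank_fix (isCoprime_two h2) (aeval_two h4)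
      have h7 := Nat.even_iff.1 ((hs.res _).even rfl h5.1)
      rw [ts_two h2 h3 h4 ((hs.res _).witt h5.1) ((hs.res _).witt h5.2)]
      omega
  · have h3 : 2 < r := (Fact.out : r.Prime).two_le.lt_of_ne (by rintro rfl; exact absurd hr (by decide))
    rw [forall_scale_cop hn (by omega) (fun _ h => h) (fun _ h _ => h) (N := 2)
      (fun z hz => by rwa [sq]) (Nat.coprime_two_right.2 hr)
      (fun w f hw => by simp only [inv_smul_iff hw]; exact id),
      alt_ts hs hn (cast_ne_zero_of_ne hrp) h3 hi hV hmd hrΩ]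
    simp [hrp, h3, h3.ne', hc, cdim]

end Cfsg.Agent.S5955
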