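import Cfsg.Statements.S5956
import Cfsg.Agent.Elu.Bil

set_option autoImplicit false
open scoped MatrixGroups
open Cfsg

namespace Cfsg.Agent.S5956

/-- Elements of prime order of PSp_n(q) with no fixed nondegenerate `m`-space. Here `T = PSp_n(q)` with `n = 2d ≥ 4`, `(n, q) ≠ (4, 2)`, realised through the symplectic matrices over the field `F` with `q` elements (preserving the standard alternating form); an element of `T` of prime order `r` is such a matrix `x` with `x^r` scalar and `x` not scalar. For `r ≠ p` let `i` be the multiplicative order of `q` modulo `r`, `c = i` for `i` even and `c = 2i` for `i` odd, and write `k = n mod c`, `ℓ = m mod i`, `ℓ' = m mod c`, `n' = ⌊n/i⌋`, `m' = ⌊m/i⌋`, `t = (r−1)/i`. Let `m` be even with `2 ≤ m < n/2` and let `r` be a prime dividing the number of nondegenerate `m`-spaces. Then every element of `T` of order `r` fixes a nondegenerate `m`-space if and only if one of: (i) `r = p > 2` and every partition of `n`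 into parts of size at most `p` in which every odd part has even multiplicity contains (as a sub-multiset) a partition of `m` in which every odd part has even multiplicity; (ii) `r = p = 2` and (`n ≡ 2 (mod 4)` or `m ≡ 0 (mod 4)`); (iii) `r = 2 ≠ p`; (iv) `r ≠ p`, `r > 2`, `c ≤ m` and `k ≥ ℓ'`. -/
theorem result {F : Type*} [Field F] [Fintype F] {p : ℕ} [Fact p.Prime] [CharP F p] {q : ℕ} (hq : Fintype.card F = q)
    (d m : ℕ) (hd : 2 ≤ d) (hT : (d, q) ≠ (2, 2)) (hm : 2 ≤ m) (hme : Even m) (hmd : m < d)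
    (r : ℕ) [Fact r.Prime]
    (hrΩ : r ∣ Nat.card {W : Submodule F (Fin d ⊕ Fin d → F) // Module.finrank F ↥W = m ∧ (∀ u ∈ W, u ≠ 0 → ∃ v ∈ W, Cfsg.sympForm d F u v ≠ 0)})
    (i c : ℕ) (hi : i = orderOf (q : ZMod r)) (hc : c = if Even i then i else 2 * i) :
    (∀ x : ↥(Matrix.symplecticGroup (Fin d) F),
      (∃ z : F, ((x ^ r : ↥(Matrix.symplecticGroup (Fin d) F)) : Matrix (Fin d ⊕ Fin d) (Fin d ⊕ Fin d) F) = z • (1 : Matrix (Fin d ⊕ Fin d) (Fin d ⊕ Fin d) F)) →
      (∀ z : F, (x : Matrix (Fin d ⊕ Fin d) (Fin d ⊕ Fin d) F) ≠ z • (1 : Matrix (Fin d ⊕ Fin d) (Fin d ⊕ Fin d) F)) →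
      ∃ W : Submodule F (Fin d ⊕ Fin d → F), Module.finrank F ↥W = m ∧ (∀ u ∈ W, u ≠ 0 → ∃ v ∈ W, Cfsg.sympForm d F u v ≠ 0) ∧
        W.map (Matrix.toLin' (x : Matrix (Fin d ⊕ Fin d) (Fin d ⊕ Fin d) F)) ≤ W) ↔
    ((r = p ∧ 2 < p ∧ (∀ μ : Multiset ℕ, (∀ a ∈ μ, 0 < a ∧ a ≤ p) → (∀ a : ℕ, Odd a → Even (μ.count a)) → μ.sum = 2 * d →
        ∃ ν : Multiset ℕ, ν ≤ μ ∧ ν.sum = m ∧ ∀ a : ℕ, Odd a → Even (ν.count a))) ∨
     (r = p ∧ p = 2 ∧ ((2 * d) % 4 = 2 ∨ m % 4 = 0)) ∨
     (r = 2 ∧ p ≠ 2) ∨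
     (r ≠ p ∧ 2 < r ∧ c ≤ m ∧ m % c ≤ (2 * d) % c)) := by
-----
  open Module Cfsg.Agent.Elu Cfsg.Agent.Geom in
  subst hq
  have hV : finrank F (Fin d ⊕ Fin d → F) = 2 * d := by simp [two_mul]
  have hs := spu_symp d F
  have hn := sympFormed_nondeg d F
  simp only [← sympFormed_B, ← nd_iff'] at hrΩ ⊢
  rw [sp_forall_iff (fun f => ∃ W : Submodule F (Fin d ⊕ Fin d → F), finrank F W = m ∧
    Nd (sympFormed d F) W ∧ W.map f ≤ W)]
  simp only [inv_iff_map]
  rw [← Nat.card_eq_fintype_card] at hi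
  have hP : ∀ (w : F) (f : End F (Fin d ⊕ Fin d → F)), w ≠ 0 → (∃ W : Submodule F _,
      finrank F W = m ∧ Nd (sympFormed d F) W ∧ Inv (w • f) W) → ∃ W : Submodule F _,
      finrank F W = m ∧ Nd (sympFormed d F) W ∧ Inv f W :=
    fun w f hw => by simp only [inv_smul_iff hw]; exact id
  rcases (Fact.out : r.Prime).eq_two_or_odd' with rfl | hr
  · by_cases hp : p = 2
    · subst hp
      obtain ⟨W₀, h1, h2⟩ := hs.exists_nd hn (l := m) (by omega) fun _ => hme
      have h3 := hn.finrank_add_finrank_perp W₀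
      have h4 := Nat.even_iff.1 hme
      rw [forall_scale_cop hn (by omega) (fun _ h => h) (fun _ h _ => h) (N := 1)
        (fun z hz => by rcases mul_self_eq_one_iff.1 hz with rfl | rfl <;> simp [CharTwo.neg_eq]) (by simp) hP]
      refine Iff.trans (forall₄_congr fun y _ _ _ => exists_congr fun W => ?_)
        ((forall_two_char hn h1 (a := m / 2) (b := d - m / 2) (by omega) (by omega) (by omega)
        (hs.witt hn) ((hs.res _).witt h1) ((hs.res _).witt (hn.restrict_perp h1)) (by omega)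
        (by omega) (by omega) (fun _ h => h) fun _ h _ => h).trans (by simp; omega))
      exact ⟨fun h => ⟨h.2.2, hs.exists_iso h1 h.2.1 (h2.trans h.1.symm)⟩,
        fun ⟨h5, e, he⟩ => ⟨e.finrank_eq.symm.trans h2, he.nondeg h1, h5⟩⟩
    · have h2 := cast_two_ne (F := F) hp
      have := Module.finrank_pos_iff.1 (show 0 < finrank F (Fin d ⊕ Fin d → F) by omega)
      rw [forall_two_id hn h2 fun _ h => h]
      refine iff_of_true ⟨fun f h3 h4 _ _ => hs.nd_two hn h2 h3 h4 (by omega) fun _ => hme,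
        fun f h3 h4 => ?_⟩ (by simp [hp])
      obtain ⟨e, h5, h6⟩ := four_typ h2
      obtain ⟨j, rfl⟩ := hme
      obtain ⟨W, h7, h8, h9⟩ := exists_nd h5 h6 j ⟨hn, h3, aeval_four.2 h4⟩ (by omega)
      exact ⟨W, by omega, h8, h7⟩
  · have h3 : 2 < r := (Fact.out : r.Prime).two_le.lt_of_ne (by rintro rfl; exact absurd hr (by decide))
    rw [forall_scale_cop hn (by omega) (fun _ h => h) (fun _ h _ => h) (N := 2)
      (fun z hz => by rwa [sq]) (Nat.coprime_two_right.2 hr) hP]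
    by_cases hrp : r = p
    · subst hrp
      have h2 := cast_two_ne (F := F) h3.ne'
      rw [hs.forall_unip hn (fun _ => h2) (by omega) fun _ => hme, hV]
      simp [hs.par h2, h3, h3.ne']
    · rw [alt_nd hs hn (cast_ne_zero_of_ne hrp) h3 (c := c) (by rw [hc, ← hi]; rfl) hV (by omega) hme hrΩ]
      simp [hrp, h3, h3.ne']

end Cfsg.Agent.S5956
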