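import Cfsg.Statements.S5959
import Cfsg.Agent.Elu.DecLin

set_option autoImplicit false
open scoped MatrixGroups
open Cfsg

namespace Cfsg.Agent.S5959

/-- Elements of order `p` of PSL_n(q) and imprimitive subgroups: a necessary condition. Here `T = PSL_n(F)` for a field `F` with `q = p^f` elements (`n ≥ 2`, `(n, q) ≠ (2, 2), (2, 3)`), `n = a·t` with `t ≥ 2`, and Ω is the set of direct-sum decompositions of `F^n` into `t` subspaces of dimension `a` (unordered; their number is the number of ordered ones divided by `t!`), whose stabilizers are the imprimitive subgroups of type GL_a(q) ≀ S_t (maximal except in some small cases; maximality is not assumed); an element of `T` of prime order `r` (a matrix `x` of determinant 1 with `x^r` scalar, `x` not scalar) fixes a point of Ω when it permutes the summands of some such decomposition. Suppose `p > 2` divides the number of such decompositions. If every element of `T` of order `p` stabilizes such a decomposition, then every partition of `n` into parts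 of size at most `p` in which the part `p` occurs fewer than `a` times contains (as a sub-multiset) a partition of `a`. -/
theorem result {F : Type*} [Field F] [Fintype F] {p : ℕ} [Fact p.Prime] [CharP F p] {q : ℕ} (hq : Fintype.card F = q)
    (n a t : ℕ) (hn : 2 ≤ n) (hT : (n, q) ≠ (2, 2) ∧ (n, q) ≠ (2, 3)) (hat : n = a * t) (ha : 1 ≤ a) (ht : 2 ≤ t)
    (hp : 2 < p) (hΩ : p ∣ Nat.card {D : Fin t → Submodule F (Fin n → F) // Cfsg.Geo.IsMDecomposition a D} / Nat.factorial t)
    (h : ∀ x : Matrix.SpecialLinearGroup (Fin n) F,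
      (∃ z : F, ((x ^ p : Matrix.SpecialLinearGroup (Fin n) F) : Matrix (Fin n) (Fin n) F) = z • (1 : Matrix (Fin n) (Fin n) F)) →
      (∀ z : F, (x : Matrix (Fin n) (Fin n) F) ≠ z • (1 : Matrix (Fin n) (Fin n) F)) →
      ∃ D : Fin t → Submodule F (Fin n → F), Cfsg.Geo.IsMDecomposition a D ∧
        ∃ σ : Equiv.Perm (Fin t), ∀ j, (D j).map (Matrix.toLin' (x : Matrix (Fin n) (Fin n) F)) = D (σ j)) :
    (∀ μ : Multiset ℕ, (∀ b ∈ μ, 0 < b ∧ b ≤ p) → μ.sum = n → μ.count p < a → ∃ ν : Multiset ℕ, ν ≤ μ ∧ ν.sum = a) := by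
-----
  open Module Polynomial Cfsg.Agent.Elu Cfsg.Agent.Geom Cfsg.Agent.Classical in
  intro μ h1 h2 h3
  have hV : finrank F (Fin n → F) = a * t := by simp [hat]
  replace h := (sl_forall_iff fun f => LD f a t).1 fun x h1 h2 =>
    (ld_iff hat ha ht (by rw [LinearMap.det_toLin', x.2])).1 (h x h1 h2)
  rw [forall_two_le (by rw [orderOf_char]; decide) (by simp; omega) DecOn.smul] at h
  obtain ⟨y, hy⟩ := exists_unip (F := F) (V := Fin n → F) μ (fun b hb => (h1 b hb).1) (by simpa using h2)
  have h4 := Jt.pow_char hy fun b hb => (h1 b hb).2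
  rw [← exists_compl_unip hy]
  by_cases h5 : y = 1
  · obtain ⟨U, -, h6⟩ := Formed.exists_le_finrank_eq (⊤ : Submodule F (Fin n → F)) (k := a) (by
      rw [finrank_top, hV]; exact Nat.le_mul_of_pos_right _ (by omega))
    obtain ⟨W, h7⟩ := U.exists_isCompl
    exact ⟨U, W, h7, h6, h5 ▸ fun _ h => h, h5 ▸ fun _ h => h⟩
  rcases (h y h4 h5).cases hV h4 with ⟨h6, -⟩ | ⟨ι, _, D, rfl, h6, h7, h8⟩
  · obtain ⟨k, rfl⟩ : ∃ k, p = k + 1 := ⟨p - 1, by omega⟩
    have h7 : (∑ i ∈ Finset.range (k + 1), X ^ i : F[X]) = (X - 1) ^ k :=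
      mul_right_cancel₀ (X_sub_C_ne_zero 1) (by
        rw [C_1, geom_sum_mul, ← pow_succ, sub_pow_char, one_pow])
    have h8 := congrArg (aeval y) h7
    simp only [map_sum, map_pow, aeval_X, map_sub, map_one] at h8
    rw [h8, Jt.rank hy (pow_char_iff.1 h4)] at h6
    omega
  · obtain ⟨i⟩ := Fintype.card_pos_iff.1 (show 0 < Fintype.card ι by omega)
    refine ⟨D i, ⨆ j ≠ i, D j, ⟨h7 i, codisjoint_iff.2 ?_⟩, (h8 i).1, (h8 i).2.2, inv_iff_map.1 ?_⟩
    · rw [← h6, iSup_split_single D i]
    · simp only [Submodule.map_iSup]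
      exact iSup₂_mono fun j _ => inv_iff_map.2 (h8 j).2.2

end Cfsg.Agent.S5959
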