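import Cfsg.Statements.S5961
import Cfsg.Agent.Elu.DecSp

set_option autoImplicit false
open scoped MatrixGroups
open Cfsg

namespace Cfsg.Agent.S5961

/-- Elements of odd prime order of PSp_n(q) and imprimitive subgroups. Here `T = PSp_n(q)`, `n = 2d ≥ 4`, `(n, q) ≠ (4, 2)`, realised through the symplectic matrices over the field `F` with `q` elements and the standard alternating form; `n = a·t` with `a` even and `t ≥ 2`, and Ω is the (nonempty) set of orthogonal decompositions of `F^n` into `t` nondegenerate subspaces of dimension `a` (unordered; counted as ordered ones divided by `t!`), whose stabilizers are the imprimitive subgroups of type Sp_a(q) ≀ S_t (maximality is not assumed); an element of `T` of prime order `r` (a symplectic matrix `x` with `x^r` scalar, `x` not scalar) fixes a point of Ω when it permutes the summands of some such decomposition. Let `r ≠ p` be an odd prime dividing the number of such decompositions, let `i` be the multiplicative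 order of `q` modulo `r`, `c = i` if `i` is even and `c = 2i` if `i` is odd, and write `k = n mod c`, `ℓ = a mod c`. Then every element of `T` of order `r` stabilizes such a decomposition if and only if `c ≤ a` and `k = t·ℓ`. -/
theorem result {F : Type*} [Field F] [Fintype F] {p : ℕ} [Fact p.Prime] [CharP F p] {q : ℕ} (hq : Fintype.card F = q)
    (d : ℕ) (hd : 2 ≤ d) (hT : (d, q) ≠ (2, 2))
    (a t : ℕ) (hat : 2 * d = a * t) (ha : 2 ≤ a) (hae : Even a) (ht : 2 ≤ t)
    (r : ℕ) [Fact r.Prime] (hr2 : r ≠ 2) (hrp : r ≠ p) (hΩ : r ∣ Nat.card {D : Fin t → Submodule F (Fin d ⊕ Fin d → F) // (Cfsg.Geo.IsMDecomposition a D ∧ (∀ j, ∀ u ∈ D j, u ≠ 0 → ∃ v ∈ D j, Cfsg.sympForm d F u v ≠ 0) ∧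
          (∀ j j', j ≠ j' → ∀ u ∈ D j, ∀ v ∈ D j', Cfsg.sympForm d F u v = 0))} / Nat.factorial t)
    (i c : ℕ) (hi : i = orderOf (q : ZMod r)) (hc : c = if Even i then i else 2 * i) :
    (∀ x : ↥(Matrix.symplecticGroup (Fin d) F),
      (∃ z : F, ((x ^ r : ↥(Matrix.symplecticGroup (Fin d) F)) : Matrix (Fin d ⊕ Fin d) (Fin d ⊕ Fin d) F) = z • (1 : Matrix (Fin d ⊕ Fin d) (Fin d ⊕ Fin d) F)) →
      (∀ z : F, (x : Matrix (Fin d ⊕ Fin d) (Fin d ⊕ Fin d) F) ≠ z • (1 : Matrix (Fin d ⊕ Fin d) (Fin d ⊕ Fin d) F)) →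
      ∃ D : Fin t → Submodule F (Fin d ⊕ Fin d → F), (Cfsg.Geo.IsMDecomposition a D ∧ (∀ j, ∀ u ∈ D j, u ≠ 0 → ∃ v ∈ D j, Cfsg.sympForm d F u v ≠ 0) ∧
          (∀ j j', j ≠ j' → ∀ u ∈ D j, ∀ v ∈ D j', Cfsg.sympForm d F u v = 0)) ∧
        ∃ σ : Equiv.Perm (Fin t), ∀ j, (D j).map (Matrix.toLin' (x : Matrix (Fin d ⊕ Fin d) (Fin d ⊕ Fin d) F)) = D (σ j)) ↔
    (c ≤ a ∧ (2 * d) % c = t * (a % c)) := by
-----
  open Module Polynomial Cfsg.Agent.Elu Cfsg.Agent.Geom Cfsg.Agent.Classical in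
  subst hq
  have hV : finrank F (Fin d ⊕ Fin d → F) = 2 * d := by simp [two_mul]
  have hs := spu_symp d F
  have hn := sympFormed_nondeg d F
  have h := cast_ne_zero_of_ne (F := F) hrp
  have h3 := (Fact.out : r.Prime).two_le.lt_of_ne' hr2
  rw [← Nat.card_eq_fintype_card] at hi
  simp only [← sympFormed_B, ← nd_iff'] at hΩ ⊢
  have h1 := dvd_isom_of_dec hs (fd_ind (P := fun _ _ _ _ Φ f => Spu Φ ∧ f = 1)
    (fun t V _ _ _ Φ f hn _ hV ⟨hΦ, h⟩ => by
      obtain ⟨W, h1, h2⟩ := hΦ.exists_nd hn (l := a) (by nlinarith) fun _ => hae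
      subst h
      exact ⟨W, fun _ h => h, h1, h2, fun _ => ⟨hΦ.res _, rfl⟩⟩)
    t _ _ _ hn Iso.one (hV.trans hat) ⟨hs, rfl⟩) (hV.trans hat) (by omega) ht hΩ
  · rw [hs.card_alt hn hV] at h1
    obtain ⟨j, h4, h5, h6⟩ := exists_dvd_of_sp (a := 0) (u := 0) Finite.one_lt_card (not_dvd_card' h)
      d.zero_le (v := d ^ 2) (by simpa [spOrd] using h1)
    have hc' : c = cdim (orderOf (Nat.card F : ZMod r)) := by rw [hc, ← hi]; rfl
    rw [← fd_crit hs hn h h3 hc' hV hat ha hae ((Nat.le_of_dvd (by omega) (hc' ▸ h6)).trans (by omega)),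
      ← forall_scale_cop hn (by omega) (fun _ h => h) (fun _ h _ => h) (N := 2) (fun z hz => by rwa [sq])
        (Nat.coprime_two_right.2 ((Fact.out : r.Prime).odd_of_ne_two hr2)) DecOn.smul, ← sp_forall_iff]
    exact forall₃_congr fun x _ _ => dec_iff ((iso_symp.2 x.2).injective hn) (hV.trans hat) (by omega) ht

end Cfsg.Agent.S5961
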