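import Cfsg.Statements.S5963
import Cfsg.Agent.Elu.DecSp

set_option autoImplicit false
open scoped MatrixGroups
open Cfsg

namespace Cfsg.Agent.S5963

/-- Derangements of odd prime order of PSp_n(q), q odd, on pairs of complementary totally isotropic subspaces. Here `T = PSp_n(q)`, `n = 2d ≥ 4`, `q` odd, realised through the symplectic matrices over the field `F` with `q` elements; Ω is the set of unordered pairs `{U, W}` of complementary totally isotropic `d`-spaces (`F^n = U ⊕ W`), whose stabilizers are the subgroups of type GL_d(q).2 (maximal except in some small cases; maximality is not assumed); an element of `T` of prime order `r` (a symplectic matrix `x` with `x^r` scalar, `x` not scalar) fixes such a pair when it fixes or interchanges `U` and `W`. For every odd prime `r ≠ p` dividing the number of such pairs, some element of `T` of order `r` fixes no such pair (the action is never `r`-elusive for odd `r ≠ p`). -/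
theorem result {F : Type*} [Field F] [Fintype F] {p : ℕ} [Fact p.Prime] [CharP F p] {q : ℕ} (hq : Fintype.card F = q)
    (d : ℕ) (hd : 2 ≤ d) (hT : (d, q) ≠ (2, 2)) (hodd : Odd q)
    (r : ℕ) [Fact r.Prime] (hr2 : r ≠ 2) (hrp : r ≠ p) (hΩ : r ∣ Nat.card {P : Submodule F (Fin d ⊕ Fin d → F) × Submodule F (Fin d ⊕ Fin d → F) // IsCompl P.1 P.2 ∧ (∀ u ∈ P.1, ∀ v ∈ P.1, Cfsg.sympForm d F u v = 0) ∧ (∀ u ∈ P.2, ∀ v ∈ P.2, Cfsg.sympForm d F u v = 0)} / 2) :
    ∃ x : ↥(Matrix.symplecticGroup (Fin d) F),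
      (∃ z : F, ((x ^ r : ↥(Matrix.symplecticGroup (Fin d) F)) : Matrix (Fin d ⊕ Fin d) (Fin d ⊕ Fin d) F) = z • (1 : Matrix (Fin d ⊕ Fin d) (Fin d ⊕ Fin d) F)) ∧
      (∀ z : F, (x : Matrix (Fin d ⊕ Fin d) (Fin d ⊕ Fin d) F) ≠ z • (1 : Matrix (Fin d ⊕ Fin d) (Fin d ⊕ Fin d) F)) ∧
      ¬ (∃ U W : Submodule F (Fin d ⊕ Fin d → F), IsCompl U W ∧ (∀ u ∈ U, ∀ v ∈ U, Cfsg.sympForm d F u v = 0) ∧ (∀ u ∈ W, ∀ v ∈ W, Cfsg.sympForm d F u v = 0) ∧
        ((U.map (Matrix.toLin' (x : Matrix (Fin d ⊕ Fin d) (Fin d ⊕ Fin d) F)) = U ∧ W.map (Matrix.toLin' (x : Matrix (Fin d ⊕ Fin d) (Fin d ⊕ Fin d) F)) = W) ∨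
         (U.map (Matrix.toLin' (x : Matrix (Fin d ⊕ Fin d) (Fin d ⊕ Fin d) F)) = W ∧ W.map (Matrix.toLin' (x : Matrix (Fin d ⊕ Fin d) (Fin d ⊕ Fin d) F)) = U))) := by
-----
  open Module Polynomial Cfsg.Agent.Elu Cfsg.Agent.Geom Cfsg.Agent.Classical in
  subst hq
  have hV : finrank F (Fin d ⊕ Fin d → F) = 2 * d := by simp [two_mul]
  have hs := spu_symp d F
  have hn := sympFormed_nondeg d F
  have h := cast_ne_zero_of_ne (F := F) hrp
  have h3 := (Fact.out : r.Prime).two_le.lt_of_ne' hr2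
  have ho := (Fact.out : r.Prime).odd_of_ne_two hr2
  simp only [← sympFormed_B, ← hs.ts] at hΩ ⊢
  by_contra! H
  replace H := (sp_forall_iff fun f => ∃ b, PP (sympFormed d F) f b).1 fun x h1 h2 =>
    (pp_iff hn ((iso_symp.2 x.2).injective hn)).1 (H x h1 h2)
  rw [forall_scale_cop hn (by omega) (fun _ h => h) (fun _ h _ => h) (N := 2) (fun z hz => by rwa [sq])
    (Nat.coprime_two_right.2 ho) fun w f hw h => h.imp fun _ => PP.smul w f hw] at H
  have h1 := dvd_of_polar hn (hs.witt hn) (by omega) (by omega) hΩ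
  rw [hs.card_alt hn hV] at h1
  obtain ⟨j, h4, h5, h6⟩ := exists_dvd_add_one Finite.one_lt_card (not_dvd_card' h)
    (by rwa [hV, Nat.mul_div_cancel_left _ two_pos] at h1)
  have h7 := cdim_even (Nat.not_odd_iff_even.1 fun h => not_dvd_odd h3 h j h6)
  have h8 := ((pow_eq_neg_one_iff hr2 _ _).1 (dvd_pow_add_one_iff.1 h6)).2
  obtain ⟨y, h9, h10, h11⟩ := exists_of_chain h h3 (typ_id h h3) hn (hs.chain_alt hn h 1 (by
    have := Nat.le_of_dvd (by omega) h8; omega))
  rw [h7, mul_one] at h11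
  have hp := pol_cyc h h3
  obtain ⟨b, hb⟩ := H y h9 h10 (by rw [Ne, ← rk_eq_zero, rk_eq hp.cop (aeval_split h10), h11]; exact (ord_pos h).ne')
  exact PP.not_pol hn hp (h9.nd_fix hn hp.cop (aeval_split h10)).2 h11 (ord_pos h)
    (hb.of_odd ho one_ne_zero (by simpa using h10))

end Cfsg.Agent.S5963
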