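import Cfsg.Statements.S5967
import Cfsg.Agent.Elu.SlForm

set_option autoImplicit false
open scoped MatrixGroups
open Cfsg

namespace Cfsg.Agent.S5967

/-- Involutions of PSL_n(q) and the symplectic-type subgroups. Here `T = PSL_n(F)` for a field `F` with `q` elements, `n ≥ 4` even, `f` is a nondegenerate alternating form on `F^n`, and `H` is the subgroup of matrices of determinant 1 preserving `f` up to a scalar — a maximal subgroup of type Sp_n(q); Ω is the set of `T`-conjugates of `H` (cosets of `H`), so an element of `T` of prime order `r` (a matrix `x` of determinant 1 with `x^r` scalar, `x` not scalar) fixes a point of Ω when some conjugate of `x` by a matrix of determinant 1 preserves `f` up to a scalar. Suppose the index of `H` is even. Then every involution of `T` is conjugate in `T` into `H` if and only if `(q − 1)_2 ≤ (n)_2`. -/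
theorem result {F : Type*} [Field F] [Fintype F] {p : ℕ} [Fact p.Prime] [CharP F p] {q : ℕ} (hq : Fintype.card F = q)
    (n : ℕ) (hn : 4 ≤ n) (he : Even n) (f : (Fin n → F) → (Fin n → F) → F) (hf : Cfsg.Geo.IsSymplecticForm f)
    (hΩ : 2 ∣ ((Cfsg.Geo.similarityGroup f).comap (Matrix.SpecialLinearGroup.toGL : Matrix.SpecialLinearGroup (Fin n) F →* GL (Fin n) F)).index) :
    (∀ x : Matrix.SpecialLinearGroup (Fin n) F,
      (∃ z : F, ((x ^ 2 : Matrix.SpecialLinearGroup (Fin n) F) : Matrix (Fin n) (Fin n) F) = z • (1 : Matrix (Fin n) (Fin n) F)) →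
      (∀ z : F, (x : Matrix (Fin n) (Fin n) F) ≠ z • (1 : Matrix (Fin n) (Fin n) F)) →
      ∃ P : Matrix.SpecialLinearGroup (Fin n) F, P⁻¹ * x * P ∈ ((Cfsg.Geo.similarityGroup f).comap (Matrix.SpecialLinearGroup.toGL : Matrix.SpecialLinearGroup (Fin n) F →* GL (Fin n) F))) ↔
    padicValNat 2 (q - 1) ≤ padicValNat 2 n := by
-----
  open Module Polynomial Cfsg.Agent.Elu Cfsg.Agent.Geom Cfsg.Agent.Classical in
  subst hq
  obtain ⟨Φ, hs, h0, hB⟩ := exists_alt hf
  have hV : finrank F (Fin n → F) = n := by simp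
  obtain ⟨k, rfl⟩ := he.two_dvd
  have hP := Cj.smul (SimE.smul (Φ := Φ))
  rw [sl_special, special_iff (Or.inr rfl), inG_sim hs h0 (Or.inl hB), ← Nat.card_eq_fintype_card]
  by_cases hp : p = 2
  · subst hp
    have hi : orderOf (Nat.card F : ZMod 2) ≠ 1 := by rw [orderOf_char]; decide
    rw [forall_two_le hi (by omega) hP, val_eq_zero Nat.card_pos hi]
    refine iff_of_true (fun y h1 h2 => ?_) (Nat.zero_le _)
    obtain ⟨h, h3, h4, h5, -⟩ := (exists_two_iff h0 hV (hs.witt h0) (by omega) (rk y) False).2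
      ⟨fun h => h2 (rk_eq_zero.1 h), False.elim, by have := (eq_of_two_char h1 h1).1; omega⟩
    exact ⟨h, h3.simE, (eq_of_two_char h4 h1).2 h5⟩
  have h2 := cast_two_ne (F := F) hp
  rw [forall_refl h2 (by omega) (by simp) hP, hV]
  · intro y h1 h3
    obtain ⟨U, h4, h5⟩ := hs.exists_nd h0 (kd_le y _) fun _ => h3
    obtain ⟨h, h6, h7, h8⟩ := exists_neg_on h0 h2 h4
    exact ⟨h, h6.simE, eq_of_inv h2 h7 h1 (h8.trans h5)⟩
  · intro y c h1 h3
    obtain ⟨h, h4, h5⟩ := exists_sim_sq h3 h2 k (Or.inl hs) h0 hV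
    exact ⟨h, ⟨_, mul_ne_zero Φ.ε_ne_zero fun h0 => h3 ⟨0, by simp [h0]⟩, h4⟩, eq_of_sq h3 h5 h1⟩
  · rintro y h1 h3 ⟨h, ⟨l, -, h4⟩, h5⟩
    have := Module.finrank_pos_iff.1 (show 0 < finrank F (Fin (2 * k) → F) by omega)
    have h6 := pow_of_eq' h5.symm h1
    have h7 : finrank F (kerA h (X - C 1)) + 1 = 2 * k := by rw [← kd_of_eq h5, hV] at h3; exact h3
    have h8 : l ^ 2 = 1 := (h4.pow_eq h0 (c := 1) (by simpa using h6)).trans (by simp)
    rcases sq_eq_one_iff.1 h8 with rfl | rfl
    · have := Nat.even_iff.1 ((hs.res _).even rfl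
        ((sim_one.1 h4).nd_fix h0 (isCoprime_two h2) (aeval_two h6)).1)
      omega
    · have h8 : finrank F (kerA h (X - C 1)) ≤ finrank F (kerA h (X - C (-1))) :=
        h4.kd_le h0 one_ne_zero (by simp)
      have := finrank_fix (isCoprime_two h2) (aeval_two h6)
      omega

end Cfsg.Agent.S5967
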