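import Cfsg.Statements.S5968
import Cfsg.Agent.Elu.SlForm

set_option autoImplicit false
open scoped MatrixGroups
open Cfsg

namespace Cfsg.Agent.S5968

/-- Derangements of odd prime order of PSL_n(q) on the cosets of a symplectic-type subgroup. Here `T = PSL_n(F)` for a field `F` with `q` elements, `n ≥ 4` even, `f` is a nondegenerate alternating form on `F^n`, and `H` is the subgroup of matrices of determinant 1 preserving `f` up to a scalar — a maximal subgroup of type Sp_n(q); Ω is the set of `T`-conjugates of `H` (cosets of `H`), so an element of `T` of prime order `r` (a matrix `x` of determinant 1 with `x^r` scalar, `x` not scalar) fixes a point of Ω when some conjugate of `x` by a matrix of determinant 1 preserves `f` up to a scalar. For every odd prime `r` dividing the index of `H`, with `(n, r) ≠ (6, 3)`, there is an element of `T` of order `r` with no conjugate in `H`. (For `n = 6`, `r = 3` this can fail: when `(q − 1)_3 = 3` every element of order 3 is conjugate into `H`.) -/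
theorem result {F : Type*} [Field F] [Fintype F] {p : ℕ} [Fact p.Prime] [CharP F p] {q : ℕ} (hq : Fintype.card F = q)
    (n : ℕ) (hn : 4 ≤ n) (he : Even n) (f : (Fin n → F) → (Fin n → F) → F) (hf : Cfsg.Geo.IsSymplecticForm f)
    (r : ℕ) [Fact r.Prime] (hr2 : r ≠ 2) (hgap : ¬ (n = 6 ∧ r = 3)) (hΩ : r ∣ ((Cfsg.Geo.similarityGroup f).comap (Matrix.SpecialLinearGroup.toGL : Matrix.SpecialLinearGroup (Fin n) F →* GL (Fin n) F)).index) :
    ∃ x : Matrix.SpecialLinearGroup (Fin n) F,
      (∃ z : F, ((x ^ r : Matrix.SpecialLinearGroup (Fin n) F) : Matrix (Fin n) (Fin n) F) = z • (1 : Matrix (Fin n) (Fin n) F)) ∧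
      (∀ z : F, (x : Matrix (Fin n) (Fin n) F) ≠ z • (1 : Matrix (Fin n) (Fin n) F)) ∧
      ∀ P : Matrix.SpecialLinearGroup (Fin n) F, P⁻¹ * x * P ∉ ((Cfsg.Geo.similarityGroup f).comap (Matrix.SpecialLinearGroup.toGL : Matrix.SpecialLinearGroup (Fin n) F →* GL (Fin n) F)) := by
-----
  open Module Polynomial Cfsg.Agent.Elu Cfsg.Agent.Geom Cfsg.Agent.Classical in
  by_contra H
  simp only [not_exists, not_and, not_forall, not_not] at H
  replace H := special_imp (sl_special.1 H)
  obtain ⟨Φ, hs, h0, hB⟩ := exists_alt hf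
  have hV : finrank F (Fin n → F) = n := by simp
  have := Module.finrank_pos_iff.1 (show 0 < finrank F (Fin n → F) by omega)
  have hP := Cj.smul (SimE.smul (Φ := Φ))
  have h3 : 2 < r := (Fact.out : r.Prime).two_le.lt_of_ne' hr2
  have hH := inG_sim hs h0 (Or.inl hB)
  rw [hH] at H
  by_cases hi : orderOf (Nat.card F : ZMod r) = 1
  · have hr : (r : F) ≠ 0 := cast_ne_zero_of_ne (p := p) (by
      rintro rfl; rw [orderOf_char] at hi; exact zero_ne_one hi)
    have h1 : finrank F (Fin n → F) ≠ r := by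
      rw [hV]; rintro rfl; exact hr2 ((Fact.out : n.Prime).even_iff.1 he)
    exact h1 ((forall_sym hr h3 hi (by omega) (by rwa [hV]) hP (sym_of_cj h0 fun _ _ => rfl)
      fun h => absurd h h1).1 H).2.1
  rw [forall_two_le hi (by omega) hP] at H
  by_cases hp : r = p
  · subst hp
    have h2 := cast_two_ne (F := F) hr2
    obtain ⟨y, h4, h5, h6⟩ := exists_jt (F := F) (V := Fin n → F) (a := 3) (p := r) (by omega) h3
      (by omega)
    obtain ⟨h, h7, -, h8⟩ := iso_of_cj h0 hi h4 (H y h4 h5)
    have := (unip_main (fun _ => h2) _ rfl h0 h7 (h8.trans h6)).1 3 ((hs.par h2 3).2 ⟨rfl, by decide⟩)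
    simp [Multiset.count_replicate] at this
  have hr := cast_ne_zero_of_ne (F := F) hp
  obtain ⟨k, rfl⟩ := he.two_dvd
  rw [index_comap_toGL] at hΩ
  have h1 := dvd_isom hH hΩ
  rw [hs.card_alt h0 hV, Fintype.card_fin, ← mul_one (glo _ _)] at h1
  obtain ⟨j, a1, a2, a3, a4⟩ := glo_tq Finite.one_lt_card (not_dvd_card' hr)
    (Fact.out : r.Prime).not_dvd_one h1
  have a5 := Nat.le_of_dvd a1 a3
  obtain ⟨y, h4, h5, h6, -⟩ := exists_blocks (V := Fin (2 * k) → F) hr one_pos (by omega)
  obtain ⟨h, h7, h8, h9⟩ := iso_of_cj h0 hi h4 (H y h4 h5)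
  have a6 := h7.typ_dvd h0 hr h3 (typ_id hr h3) h8
  rw [kd_of_eq h9, h6, cdim_odd ((a4.resolve_right (by omega)).of_dvd_nat a3)] at a6
  have := Nat.le_of_dvd (by have := ord_pos hr; omega) a6
  have := ord_pos hr
  omega

end Cfsg.Agent.S5968
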