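import Cfsg.Statements.S5971
import Cfsg.Agent.Elu.ExtSl

set_option autoImplicit false
open scoped MatrixGroups
open Cfsg

namespace Cfsg.Agent.S5971

/-- Elements of order 3 of PSL_3(q) and the normalizer of a Singer cycle. Here `T = PSL_n(F)` for a field `F` with `q = p^f` elements (`n ≥ 2`, `(n, q) ≠ (2, 2), (2, 3)`), `k` is a prime dividing `n`, `K` is a subalgebra of the `n × n` matrices that is a field of degree `k` over `F` (an extension-field structure F_{q^k} on `F^n`), and `H` is the subgroup of matrices of determinant 1 normalizing `K` — a subgroup of type GL_{n/k}(q^k) (maximal except in some small cases; maximality is not assumed); Ω is the set of cosets of `H` in `T`, so an element of `T` of prime order `r` (a matrix `x` of determinant 1 with `x^r` scalar, `x` not scalar) fixes a point of Ω when some conjugate of `x` by a matrix of determinant 1 normalizes `K`. Take `n = k = 3` and suppose 3 divides the index of `H`. Then every element of `T` of order 3 is conjugate in `T`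 into `H` if and only if `q ≡ 4, 7` or `8 (mod 9)`. -/
theorem result {F : Type*} [Field F] [Fintype F] {p : ℕ} [Fact p.Prime] [CharP F p] {q : ℕ} (hq : Fintype.card F = q)
    (n : ℕ) (hn : n = 3) (k : ℕ) (hk : k.Prime) (hkn : k ∣ n) (K : Subalgebra F (Matrix (Fin n) (Fin n) F)) (hK : Cfsg.Geo.IsFieldSubalgebra k K) (hk3 : k = 3) (hΩ : 3 ∣ ((Cfsg.Geo.subalgebraNormalizer K).comap (Matrix.SpecialLinearGroup.toGL : Matrix.SpecialLinearGroup (Fin n) F →* GL (Fin n) F)).index) :
    (∀ x : Matrix.SpecialLinearGroup (Fin n) F,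
      (∃ z : F, ((x ^ 3 : Matrix.SpecialLinearGroup (Fin n) F) : Matrix (Fin n) (Fin n) F) = z • (1 : Matrix (Fin n) (Fin n) F)) →
      (∀ z : F, (x : Matrix (Fin n) (Fin n) F) ≠ z • (1 : Matrix (Fin n) (Fin n) F)) →
      ∃ P : Matrix.SpecialLinearGroup (Fin n) F, P⁻¹ * x * P ∈ ((Cfsg.Geo.subalgebraNormalizer K).comap (Matrix.SpecialLinearGroup.toGL : Matrix.SpecialLinearGroup (Fin n) F →* GL (Fin n) F))) ↔
    (q % 9 = 4 ∨ q % 9 = 7 ∨ q % 9 = 8) := by
-----
  open Module Polynomial Cfsg.Agent.Elu Cfsg.Agent.Classical in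
  subst hq hk3 hn
  have hV : finrank F (Fin 3 → F) = 3 := by simp
  refine with_ext hK fun L _ _ _ _ _ _ h1 _ _ h2 => ?_
  have hk' : (finrank F L).Prime := h1 ▸ hk
  rw [sl_special, ← Nat.card_eq_fintype_card]
  by_cases hp : 3 = p
  · subst hp
    refine iff_of_false (fun H => ?_) ?_
    · obtain ⟨y, b1, b2, b3⟩ := exists_tv (F := F) (V := Fin 3 → F) (p := 3) (by omega)
      exact not_cj_refl hk' (by omega) b3 (h2 ▸ special_imp H y b1 b2)
    · have : 3 ∣ Nat.card F := by
        rw [Nat.card_eq_fintype_card, ← CharP.cast_eq_zero_iff F]; exact FiniteField.cast_card_eq_zero F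
      omega
  have h := cast_ne_zero_of_ne (F := F) hp
  have h3 := not_dvd_card' h
  rw [special_iff (Or.inl h), h2]
  by_cases h4 : Nat.card F % 3 = 1
  · rw [ext_three h1 hV h (by rw [orderOf_eq_one_iff, ← ZMod.natCast_mod, h4]; rfl), ← not_lt,
      ← Nat.succ_le_iff, ← padicValNat_dvd_iff_le (by have := Finite.one_lt_card (α := F); omega)]
    have := Nat.card_pos (α := F)
    rw [show 3 ^ Nat.succ 1 = 9 from rfl]
    omega
  refine iff_of_true (singer_pos h1 hV (by omega) h (by
    rw [← ZMod.natCast_mod, show Nat.card F % 3 = 2 by omega]; exact orderOf_eq_prime (p := 2) rfl (by decide))) ?_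
  obtain ⟨φ, a1, a2, a3⟩ := exists_frob_map (V := Fin 3 → F) hk'
  rw [h1] at a2
  obtain ⟨x, b1, rfl⟩ : InG (Geo.subalgebraNormalizer K) φ := h2 ▸ a1
  have b2 : orderOf x = 3 := orderOf_eq_prime (Units.ext (Matrix.toLin'.injective (by
    rw [Units.val_pow_eq_pow_val, Matrix.toLin'_pow, a2, Units.val_one, Matrix.toLin'_one]; rfl))) (by
      rintro rfl
      have := a3 1 one_ne_zero
      rw [kd_eq_finrank_iff.2 (by simp [sub_eq_zero]; rfl)] at this
      omega)
  rw [index_comap_toGL] at hΩ
  have b3 := (ZMod.natCast_eq_zero_iff _ _).2 (dvd_glo hΩ (Subgroup.zpowers x).subtype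
    Subtype.val_injective fun k => Subgroup.zpowers_le.2 b1 k.2)
  have b4 : ∀ x : ZMod 9, (x - 1) * (x * (x ^ 2 - 1)) * (x ^ 2 * (x ^ 3 - 1)) = 0 → x.val % 3 = 2 →
    x.val = 8 := by decide
  have b5 : ∀ j, 1 ≤ Nat.card F ^ j := fun j => Nat.one_le_pow _ _ Nat.card_pos
  rw [Nat.card_zpowers, b2] at b3
  have := b4 (Nat.card F) (by
    simpa [glo, Finset.prod_range_succ, Nat.cast_sub (b5 _), -Nat.card_eq_fintype_card,
      Nat.cast_sub (pow_one (Nat.card F) ▸ b5 1)] using b3) (by rw [ZMod.val_natCast]; omega)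
  rw [ZMod.val_natCast] at this
  omega

end Cfsg.Agent.S5971
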