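import Cfsg.Statements.S5974
import Cfsg.Agent.Elu.OrthUnip

set_option autoImplicit false
open scoped MatrixGroups
open Cfsg

namespace Cfsg.Agent.S5974

/-- Elements of prime order of PΩ⁺_n(q), n = 2d ≥ 8, with no fixed nondegenerate hyperbolic `m`-space. Here `T = PΩ⁺_n(q)` is realised through `Ω⁺_n(q)`, the commutator subgroup of the isometry group of `Q = Σ xᵢyᵢ` over the field `F` with `q` elements; an element of `T` of prime order `r` is an element `x` of `Ω⁺_n(q)` with `x^r` scalar and `x` not scalar. A hyperbolic `m`-space is a subspace `W` of even dimension `m` on which the polar form of `Q` is nondegenerate and which contains a totally singular subspace of dimension `m/2`. Let `m` be even with `2 ≤ m < n/2`, and let `r` be a prime dividing the number of hyperbolic `m`-spaces, with `r = 2` or `r ≠ p`. For `r ≠ p` let `i` be the multiplicative order of `q` modulo `r`, `c = i` for `i` even and `c = 2i` for `i` odd, and write `k = n mod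 c`, `ℓ' = m mod c`. Then every element of `T` of order `r` fixes some hyperbolic `m`-space if and only if one of: (i) `r = 2` and (`n ≡ 2 (mod 4)`, or `m ≡ 0 (mod 4)`, or `q ≡ 1 (mod 4)`); (ii) `r ≠ p` odd, `i` odd, `c ≤ m` and `k ≥ ℓ'`; (iii) `r ≠ p` odd, `i` even, and either `k = 0` and (`n/i` odd, or `ℓ' = 0` and `m/i` even), or `i ≤ m` and (`k > ℓ' > 0`, or `k = ℓ' > 0` and `(n + m − 2k)/i` even, or `k > ℓ' = 0` and `m/i` even). -/
theorem result {F : Type*} [Field F] [Fintype F] {p : ℕ} [Fact p.Prime] [CharP F p] {q : ℕ} (hq : Fintype.card F = q)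
    (d m : ℕ) (hd : 4 ≤ d) (hm : 2 ≤ m) (hme : Even m) (hmd : m < d)
    (r : ℕ) [Fact r.Prime] (hr : r = 2 ∨ r ≠ p)
    (hrΩ : r ∣ Nat.card {W : Submodule F (Fin d ⊕ Fin d → F) // (Module.finrank F ↥W = m ∧ (∀ u ∈ W, u ≠ 0 → ∃ v ∈ W, QuadraticMap.polar (Cfsg.quadFormPlus d F) u v ≠ 0) ∧
          ∃ U : Submodule F (Fin d ⊕ Fin d → F), U ≤ W ∧ 2 * Module.finrank F ↥U = m ∧ ∀ u ∈ U, Cfsg.quadFormPlus d F u = 0)})
    (i c : ℕ) (hi : i = orderOf (q : ZMod r)) (hc : c = if Even i then i else 2 * i) :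
    (∀ x : GL (Fin d ⊕ Fin d) F, x ∈ Cfsg.Geo.omegaGL (Cfsg.quadFormPlus d F) →
      (∃ z : F, ((x ^ r : GL (Fin d ⊕ Fin d) F) : Matrix (Fin d ⊕ Fin d) (Fin d ⊕ Fin d) F) = z • (1 : Matrix (Fin d ⊕ Fin d) (Fin d ⊕ Fin d) F)) →
      (∀ z : F, (x : Matrix (Fin d ⊕ Fin d) (Fin d ⊕ Fin d) F) ≠ z • (1 : Matrix (Fin d ⊕ Fin d) (Fin d ⊕ Fin d) F)) →
      ∃ W : Submodule F (Fin d ⊕ Fin d → F), (Module.finrank F ↥W = m ∧ (∀ u ∈ W, u ≠ 0 → ∃ v ∈ W, QuadraticMap.polar (Cfsg.quadFormPlus d F) u v ≠ 0) ∧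
          ∃ U : Submodule F (Fin d ⊕ Fin d → F), U ≤ W ∧ 2 * Module.finrank F ↥U = m ∧ ∀ u ∈ U, Cfsg.quadFormPlus d F u = 0) ∧
        W.map (Matrix.toLin' (x : Matrix (Fin d ⊕ Fin d) (Fin d ⊕ Fin d) F)) ≤ W) ↔
    ((r = 2 ∧ ((2 * d) % 4 = 2 ∨ m % 4 = 0 ∨ q % 4 = 1)) ∨
     (r ≠ p ∧ 2 < r ∧ Odd i ∧ c ≤ m ∧ m % c ≤ (2 * d) % c) ∨
     (r ≠ p ∧ 2 < r ∧ Even i ∧
       (((2 * d) % c = 0 ∧ (Odd ((2 * d) / i) ∨ (m % c = 0 ∧ Even (m / i)))) ∨
        (i ≤ m ∧ ((m % c < (2 * d) % c ∧ 0 < m % c) ∨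
                  ((2 * d) % c = m % c ∧ 0 < m % c ∧ Even ((2 * d + m - 2 * ((2 * d) % c)) / i)) ∨
                  (0 < (2 * d) % c ∧ m % c = 0 ∧ Even (m / i))))))) := by
-----
  open Module Cfsg.Agent.Elu Cfsg.Agent.Geom in
  subst hq
  have hV : finrank F (Fin d ⊕ Fin d → F) = 2 * d := by simp; omega
  have hn := quadPlus_nondeg F d
  have ht : Ty (Formed.ofQuad (quadPlus F d)) 0 := ⟨d, quadPlus_wittIndex F d, hV⟩
  rw [← coe_quadPlus] at *
  generalize quadPlus F d = Q at *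
  obtain ⟨l, rfl⟩ := hme.two_dvd
  obtain ⟨W₀, hW, hW', t₁⟩ := (orth_quad Q).exists_ty_sub hn (l := l) (a := 0) (by omega) (by omega)
    (Or.inl (by omega))
  simp only [plus_class' hW hW' t₁] at hrΩ ⊢
  rw [omega_forall_iff (fun f => ∃ W, (∃ e, ((Formed.ofQuad Q).restrict W₀).IsIso
    ((Formed.ofQuad Q).restrict W) e) ∧ W.map f ≤ W)]
  simp only [inv_iff_map]
  rw [← Nat.card_eq_fintype_card] at hi ⊢
  rcases (Fact.out : r.Prime).eq_two_or_odd' with rfl | hr'
  · by_cases hp : p = 2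
    · subst hp
      have := Nat.even_iff.1 (FiniteField.even_card_of_char_two (ringChar.eq F 2) |> Nat.even_iff.2)
      rw [two_char_nd hn hV (by omega) ht hW hW' (by omega) t₁, Nat.card_eq_fintype_card]
      simp only [Nat.even_iff, Nat.odd_iff, Ne, not_true, true_and, false_and, false_or, and_false,
        or_false, lt_irrefl, iff_false]
      omega
    have h2 := cast_two_ne (F := F) hp
    simp only [and_comm (b := Inv _ _)]
    rw [two_nd hn h2 hV (by omega) ht hW (by omega) (Or.inr t₁) (Or.inr ((orth_quad Q).ty_perp hn hW t₁ ht)), hW']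
    simp only [hp, mx, Nat.even_iff, Nat.odd_iff, Ne, not_false_iff, true_and, false_and, false_or,
      and_false, or_false, lt_irrefl]
    rcases card_mod_four h2 with h | h <;> simp only [h, Nat.reduceDiv, one_mul, zero_mul, true_and, or_true,
      true_or, and_true, iff_true, Nat.reduceMod, Nat.reduceAdd, Nat.reduceEqDiff, not_true, not_false_iff,
      and_false, false_and, false_or, or_false, false_imp_iff, true_imp_iff, true_iff, if_false, zero_add] <;>
      (try split_ifs) <;> omega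
  have h3 : 2 < r := (Fact.out : r.Prime).two_le.lt_of_ne (by rintro rfl; exact absurd hr' (by decide))
  have hrp : r ≠ p := hr.resolve_left h3.ne'
  rw [om_odd hn (notExc_of_finrank (by omega)) (by omega) hr'
    (fun w f hw => by simp only [inv_smul_iff hw]; exact id)]
  have h0 : 0 < i := hi ▸ ord_pos (cast_ne_zero_of_ne (F := F) hrp)
  obtain ⟨h4, h5, h6⟩ := (orth_quad Q).nd_crit (cast_ne_zero_of_ne hrp) h3 hi hn hV (Or.inr ht) hW hW'
    (Or.inr t₁) (Or.inr ((orth_quad Q).ty_perp hn hW t₁ ht)) hrΩ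
  rw [h6]
  rw [mx_crit (cdim_pos h0) (by omega) (by omega) h4]
  obtain ⟨-, e2, e3, e4, e5, e6, e7, e8⟩ := mx_facts (cdim_pos h0) (even_cdim i)
    (show 2 * l ≤ 2 * d by omega)
  have e9 : (2 * l) / cdim i ≤ (2 * d) / cdim i := Nat.div_le_div_right (by omega)
  clear h4 h5 h6 hrΩ
  rcases i.even_or_odd with h | h
  · simp only [cdim_even h, eta_even h, one_mul] at *
    simp only [hrp, h3, h3.ne', hc, h, Nat.not_odd_iff_even.2 h, if_true, Ne, not_false_iff, true_and,
      false_and, false_or, and_false]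
    simp only [Nat.even_iff, Nat.odd_iff, e6]
    generalize (2 * d + 2 * l - 2 * ((2 * d) % i)) / i = w at *
    generalize (2 * d) / i = n₁, (2 * l) / i = m₁, (2 * d) % i = k, (2 * l) % i = k₁ at *
    clear e6
    omega
  · simp only [cdim_odd h, eta_odd h, zero_mul] at *
    simp only [hrp, h3, h3.ne', hc, h, Nat.not_even_iff_odd.2 h, if_false, Ne, not_false_iff, true_and,
      false_and, false_or, and_false, or_false]
    simp only [e6]
    generalize (2 * d) / (2 * i) = n₁, (2 * l) / (2 * i) = m₁, (2 * d) % (2 * i) = k, (2 * l) % (2 * i) = k₁ at *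
    clear e6 e8
    omega

end Cfsg.Agent.S5974
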