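import Cfsg.Statements.S5976
import Cfsg.Agent.Elu.ExtSp

set_option autoImplicit false
open scoped MatrixGroups
open Cfsg

namespace Cfsg.Agent.S5976

/-- Elements of prime order of PSp_n(q), q odd, and the subgroups of type GU_{n/2}(q). Here `T = PSp_{2d}(F)` for a field `F` with `q` elements, `q` odd, `d ≥ 2`, realised through the matrices preserving the standard alternating form `f`; `K` is a subalgebra of the `2d × 2d` matrices that is a field of degree 2 over `F`, closed under taking adjoints for `f` but not consisting of self-adjoint elements (so `F^{2d}` becomes a `d`-dimensional space over `K ≅ F_{q²}` on which `f` is the trace of a multiple of a non-degenerate hermitian form); `H` is the subgroup of `T` normalizing `K` — the symplectic maps that are `K`-linear or `K`-semilinear, a subgroup of type GU_d(q) (maximality is not assumed). Ω is the set of cosets of `H` in `T`, so an element of `T` of prime order `r` (`x ∈ T` with `x^r` scalar, `x` not scalar) fixes a point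 of Ω exactly when some `T`-conjugate of `x` normalizes `K`. Let `r` be a prime dividing the index of `H`. Then every element of `T` of order `r` fixes a point of Ω if and only if `r = 2`. -/
theorem result {F : Type*} [Field F] [Fintype F] {p : ℕ} [Fact p.Prime] [CharP F p] {q : ℕ} (hq : Fintype.card F = q)
    (hodd : Odd q) (d : ℕ) (hd : 2 ≤ d)
    (K : Subalgebra F (Matrix (Fin d ⊕ Fin d) (Fin d ⊕ Fin d) F)) (hK : Cfsg.Geo.IsFieldSubalgebra 2 K)
    (hKf : Cfsg.Geo.IsAdjointClosedFor (Cfsg.sympForm d F) K) (hKns : ¬ Cfsg.Geo.IsSelfAdjointFor (Cfsg.sympForm d F) K)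
    (r : ℕ) [Fact r.Prime]
    (hΩ : r ∣ (Cfsg.Geo.subalgebraNormalizer K).relIndex (Cfsg.spGL d F)) :
    (∀ x ∈ Cfsg.spGL d F, (∃ z : F, ((x ^ r : GL (Fin d ⊕ Fin d) F) : Matrix (Fin d ⊕ Fin d) (Fin d ⊕ Fin d) F) = z • (1 : Matrix (Fin d ⊕ Fin d) (Fin d ⊕ Fin d) F)) →
      (∀ z : F, (x : Matrix (Fin d ⊕ Fin d) (Fin d ⊕ Fin d) F) ≠ z • (1 : Matrix (Fin d ⊕ Fin d) (Fin d ⊕ Fin d) F)) →
      ∃ g ∈ Cfsg.spGL d F, g⁻¹ * x * g ∈ Cfsg.Geo.subalgebraNormalizer K) ↔ r = 2 := by
-----
  open Module Cfsg.Agent.Elu Cfsg.Agent.Geom in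
  subst hq
  have : Nonempty (Fin d) := ⟨⟨0, by omega⟩⟩
  have hV : finrank F (Fin d ⊕ Fin d → F) = 2 * d := by simp [two_mul]
  refine with_ext hK fun L _ _ _ _ _ _ h1 h4 h3 h2 => ?_
  obtain ⟨τ, Ψ, l, h5, h6, h7, -, -⟩ := Root.Mx.exists_HS (sympFormed_nondeg d F) h1 (fun k => by
    obtain ⟨a, ha, e⟩ := h3 k
    obtain ⟨b, hb, e'⟩ := hKf a ha
    obtain ⟨k', e''⟩ := h4 b hb
    exact ⟨k', fun u v => by simpa only [sympFormed_B, e, e''] using e' u v⟩) fun h => hKns fun a ha u v => by
      obtain ⟨k, e⟩ := h4 a ha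
      simpa only [sympFormed_B, e] using h k u v
  have := Fintype.ofFinite L
  have hL : Fintype.card L = Nat.card F ^ 2 := by rw [← Nat.card_eq_fintype_card, card_ext (F := F), h1]
  obtain rfl : τ = frobq hL := by
    let σ := RingEquiv.ofBijective τ (Function.Involutive.bijective Ψ.σσ)
    have h8 : ∃ x, σ x ≠ x := by by_contra! h; exact h6 (RingHom.ext h)
    have h9 := Asch.card_of_invol (σ := σ) Ψ.σσ h8
    rw [Nat.card_eq_fintype_card, hL] at h9
    exact RingHom.ext fun x => (Asch.invol_eq_pow (σ := σ) Ψ.σσ h8 x).trans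
      (by rw [← Nat.pow_left_injective two_ne_zero h9]; rfl)
  rw [grp_iff, inG_sp, h2, ext_gu ⟨spu_symp d F, h5.hn, spu_herm h7, h5.hn', h5.hB, by
    rintro rfl; simpa using h5.one⟩ h1 (Asch.two_ne_zero_of_odd hodd) (by omega)
    fun H hH => dvd_isom' (τ := RingHom.id F) (inG_sp d) hΩ (h2 ▸ hH)]

end Cfsg.Agent.S5976
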