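import Cfsg.Statements.S5981
import Cfsg.Agent.Elu.SlForm

set_option autoImplicit false
open scoped MatrixGroups
open Cfsg

namespace Cfsg.Agent.S5981

/-- Elements of prime order of PSL_n(q), q odd, and the subgroups of orthogonal type. Here `T = PSL_n(F)` for a field `F` with `q` elements, `q` odd, `n ≥ 3`; `Q` is a non-degenerate quadratic form on `F^n` (of either type when `n` is even) and `H` is the subgroup of matrices of determinant 1 that preserve `Q` up to a scalar — a subgroup of type O^ε_n(q) (maximality is not assumed); Ω is the set of cosets of `H` in `T`, so an element of `T` of prime order `r` (a matrix `x` of determinant 1 with `x^r` scalar, `x` not scalar) fixes a point of Ω exactly when some conjugate of `x` by a matrix of determinant 1 preserves `Q` up to a scalar. Let `r` be a prime dividing the index of `H`, with `(n, r) ≠ (6, 3)`. Then every element of `T` of order `r` fixes a point of Ω if and only if `r = 2`, or `r ∈ {3, 5}`, `n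 = r` and `(q − 1)_r = r` (the `r`-part of `q − 1` is exactly `r`). The case `(n, r) = (6, 3)` is not covered by this statement. -/
theorem result {F : Type*} [Field F] [Fintype F] {p : ℕ} [Fact p.Prime] [CharP F p] {q : ℕ} (hq : Fintype.card F = q)
    (hodd : Odd q) (n : ℕ) (hn : 3 ≤ n) (Q : (Fin n → F) → F) (hQ : Cfsg.Geo.IsNondegenerateQuadraticForm Q)
    (r : ℕ) [Fact r.Prime] (hgap : ¬ (n = 6 ∧ r = 3))
    (hΩ : r ∣ (Cfsg.Geo.quadSimilarityGroup Q).relIndex (Cfsg.Geo.specialLinear (Fin n) F)) :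
    (∀ x ∈ Cfsg.Geo.specialLinear (Fin n) F, (∃ z : F, ((x ^ r : GL (Fin n) F) : Matrix (Fin n) (Fin n) F) = z • (1 : Matrix (Fin n) (Fin n) F)) →
      (∀ z : F, (x : Matrix (Fin n) (Fin n) F) ≠ z • (1 : Matrix (Fin n) (Fin n) F)) →
      ∃ g ∈ Cfsg.Geo.specialLinear (Fin n) F, g⁻¹ * x * g ∈ Cfsg.Geo.quadSimilarityGroup Q) ↔
    (r = 2 ∨ ((r = 3 ∨ r = 5) ∧ n = r ∧ padicValNat r (q - 1) = 1)) := by
-----
  open Module Polynomial Cfsg.Agent.Elu Cfsg.Agent.Geom Cfsg.Agent.Classical in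
  subst hq
  obtain ⟨Q, rfl, h0⟩ := exists_quad hQ
  have hs := orth_quad Q
  have hV : finrank F (Fin n → F) = n := by simp
  have := Module.finrank_pos_iff.1 (show 0 < finrank F (Fin n → F) by omega)
  have hP := Cj.smul (SimE.smul (Φ := Formed.ofQuad Q))
  have hH := inG_quad h0
  have h2 := two_ne_zero_of_odd_card hodd
  rw [← Nat.card_eq_fintype_card]
  rcases (Fact.out : r.Prime).eq_two_or_odd' with rfl | hr'
  · rw [special_iff (Or.inr rfl), hH, forall_pe_iff hP]
    refine iff_of_true ⟨fun y _ h1 _ _ => ?_, fun y c _ h1 h3 _ => ?_⟩ (Or.inl rfl)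
    · obtain ⟨U, h4, h5⟩ := hs.exists_nd h0 h2 (kd_le y _)
      obtain ⟨h, h6, h7, h8⟩ := exists_neg_on h0 h2 h4
      exact ⟨h, h6.simE, eq_of_inv h2 h7 h1 (h8.trans h5)⟩
    · have h6 : c ≠ 0 := fun h0 => h3 ⟨0, by simp [h0]⟩
      obtain ⟨k, h7, -⟩ := ((cases_pow h6 h1).resolve_left fun ⟨w, hw, _⟩ => h3 ⟨w, hw⟩).2
      obtain ⟨h, h4, h5⟩ := exists_sim_sq h3 h2 k (Or.inr hs) h0 (by omega)
      exact ⟨h, ⟨_, mul_ne_zero (Formed.ε_ne_zero _) h6, h4⟩, eq_of_sq h3 h5 h1⟩
  have h3 : 2 < r := (Fact.out : r.Prime).two_le.lt_of_ne (by rintro rfl; exact absurd hr' (by decide))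
  simp only [h3.ne', false_or]
  by_cases hi : orderOf (Nat.card F : ZMod r) = 1
  · have hr : (r : F) ≠ 0 := cast_ne_zero_of_ne (p := p) (by
      rintro rfl; rw [orderOf_char] at hi; exact zero_ne_one hi)
    rw [special_iff (Or.inl hr), hH, forall_sym hr h3 hi (by omega) (by rwa [hV]) hP
      (sym_of_cj h0 fun _ _ => rfl) fun h => cj_sym h0 hr h3 hi (fun _ _ => rfl)
        (hs.witt_odd h0 (h ▸ hr')) h, hV]
  refine iff_of_false (fun H => ?_) (by rw [val_eq_zero Nat.card_pos hi]; simp)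
  replace H := special_imp H
  rw [hH, forall_two_le hi (by omega) hP] at H
  by_cases hp : r = p
  · subst hp
    obtain ⟨y, h4, h5, h6⟩ := exists_jt (F := F) (V := Fin n → F) (a := 2) (p := r) (by omega) h3.le
      (by omega)
    obtain ⟨h, h7, -, h8⟩ := iso_of_cj h0 hi h4 (H y h4 h5)
    have := Jt.even_count hs h0 h2 h7 (h8.trans h6) 2 even_two
    simp [Multiset.count_replicate] at this
  have hr := cast_ne_zero_of_ne (F := F) hp
  have hi0 := ord_pos hr
  obtain ⟨τ, hτ⟩ := hs.exists_tp h0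
  obtain ⟨u, v, a, b1, b2, b3, b4⟩ := hs.card_eff h0 hτ hr h3
  have h1 := mul_dvd_mul_right (dvd_isom hH hΩ) u
  rw [mul_assoc, b3, Fintype.card_fin] at h1
  obtain ⟨j, a1, a2, a3, a4⟩ := glo_tq Finite.one_lt_card (not_dvd_card' hr) b1 h1
  have a5 := Nat.le_of_dvd a1 a3
  rcases (orderOf (Nat.card F : ZMod r)).even_or_odd with he | he
  · have a6 := div_lt_div_of_dvd hi0 a3 (a4.resolve_left fun h => Nat.not_even_iff_odd.2
      (h.of_dvd_nat a3) he) a2
    obtain ⟨y, h4, h5, h6, -⟩ := exists_blocks (V := Fin n → F) hr (Nat.zero_lt_of_lt a6)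
      (by rw [hV]; exact Nat.mul_div_le _ _)
    obtain ⟨h, h7, h8, h9⟩ := iso_of_cj h0 hi h4 (H y h4 h5)
    have a7 := hs.le_mx (pol_cyc hr h3) (typ_id hr h3) (cdim_pos hi0) (bt_cyc hr h3 rfl) h0
      (even_cdim _) h7 (aeval_split h8) (s := n / orderOf (Nat.card F : ZMod r))
      (by rw [cdim_even he]; exact (kd_of_eq h9 _).trans h6) hτ
    rw [← b4, cdim_even he] at a7
    omega
  · obtain ⟨y, h4, h5, h6, -⟩ := exists_blocks (V := Fin n → F) hr one_pos (by omega)
    obtain ⟨h, h7, h8, h9⟩ := iso_of_cj h0 hi h4 (H y h4 h5)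
    have a6 := h7.typ_dvd h0 hr h3 (typ_id hr h3) h8
    rw [kd_of_eq h9, h6, cdim_odd he] at a6
    have := Nat.le_of_dvd (by omega) a6
    omega

end Cfsg.Agent.S5981
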