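import Cfsg.Statements.S5982
import Cfsg.Agent.Elu.SlForm

set_option autoImplicit false
open scoped MatrixGroups
open Cfsg

namespace Cfsg.Agent.S5982

/-- Elements of prime order of PSL_n(q), q = q₀², and the subgroups of unitary type. Here `T = PSL_n(F)` for a field `F` with `q = q₀²` elements (`n ≥ 3`), `f` is a non-degenerate unitary form on `F^n` for the involutory automorphism `x ↦ x^{q₀}`, and `H` is the subgroup of matrices of determinant 1 that preserve `f` up to a scalar — a subgroup of type GU_n(q₀) (maximality is not assumed); Ω is the set of cosets of `H` in `T`, so an element of `T` of prime order `r` (a matrix `x` of determinant 1 with `x^r` scalar, `x` not scalar) fixes a point of Ω exactly when some conjugate of `x` by a matrix of determinant 1 preserves `f` up to a scalar. Let `r` be a prime dividing the index of `H`, with `r = 2` or `r` different from the characteristic `p`, and with `(n, r) ≠ (6, 3)`. Then every element of `T` of order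 `r` fixes a point of Ω if and only if either `r = 2` and (`p = 2` or `(n)_2 ≤ (q − 1)_2`), or `r ∈ {3, 5}`, `n = r` and `(q₀ − 1)_r = r`. (Odd `r = p` and the case `(n, r) = (6, 3)` are not covered by this statement.) -/
theorem result {F : Type*} [Field F] [Fintype F] {p : ℕ} [Fact p.Prime] [CharP F p] {q : ℕ} (hq : Fintype.card F = q)
    (q₀ : ℕ) (hq₀ : q = q₀ ^ 2) (n : ℕ) (hn : 3 ≤ n) (f : (Fin n → F) → (Fin n → F) → F) (hf : Cfsg.Geo.IsUnitaryFormPow q₀ f)
    (r : ℕ) [Fact r.Prime] (hr : r = 2 ∨ r ≠ p) (hgap : ¬ (n = 6 ∧ r = 3))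
    (hΩ : r ∣ (Cfsg.Geo.similarityGroup f).relIndex (Cfsg.Geo.specialLinear (Fin n) F)) :
    (∀ x ∈ Cfsg.Geo.specialLinear (Fin n) F, (∃ z : F, ((x ^ r : GL (Fin n) F) : Matrix (Fin n) (Fin n) F) = z • (1 : Matrix (Fin n) (Fin n) F)) →
      (∀ z : F, (x : Matrix (Fin n) (Fin n) F) ≠ z • (1 : Matrix (Fin n) (Fin n) F)) →
      ∃ g ∈ Cfsg.Geo.specialLinear (Fin n) F, g⁻¹ * x * g ∈ Cfsg.Geo.similarityGroup f) ↔
    ((r = 2 ∧ (p = 2 ∨ padicValNat 2 n ≤ padicValNat 2 (q - 1))) ∨ ((r = 3 ∨ r = 5) ∧ n = r ∧ padicValNat r (q₀ - 1) = 1)) := by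
-----
  open Module Polynomial Cfsg.Agent.Elu Cfsg.Agent.Geom Cfsg.Agent.Classical in
  subst hq₀
  obtain ⟨Φ, hε, h0, hB⟩ := exists_herm hq hf
  have hσ := frobq_ne_id hq
  have hs : Spu Φ := Or.inr ⟨hσ, hε⟩
  have hV : finrank F (Fin n → F) = n := by simp
  have := Module.finrank_pos_iff.1 (show 0 < finrank F (Fin n → F) by omega)
  have hP := Cj.smul (SimE.smul (Φ := Φ))
  have hH := inG_sim hs h0 (Or.inr hB)
  have hc : Nat.card F = q₀ ^ 2 := Nat.card_eq_fintype_card.trans hq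
  have hq2 := two_le_of_card_eq_sq hq
  rw [special_iff (hr.symm.imp_left cast_ne_zero_of_ne), hH]
  rcases (Fact.out : r.Prime).eq_two_or_odd' with rfl | hr'
  · simp only [true_and, Nat.reduceEqDiff, or_self, false_and, or_false]
    by_cases hp : p = 2
    · subst hp
      rw [forall_two_le (by rw [orderOf_char]; decide) (by omega) hP]
      refine iff_of_true (fun y h1 _ => ?_) (Or.inl rfl)
      obtain ⟨μ, h4, h5, h6⟩ := exists_jordan (pow_char_iff.1 h1)
      obtain ⟨h, h7, h8⟩ := Spu.real_unip (fun h => absurd h hσ) _ hs h0 rfl h5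
        (fun a ha => (h4 a ha).1) fun a ha => absurd ha.1 hσ
      exact ⟨h, h7.simE, h8.trans h6.symm⟩
    have h2 := cast_two_ne (F := F) hp
    have h4 : q₀ % 2 = 1 := Nat.odd_iff.1 ((Nat.odd_pow_iff two_ne_zero).1
      (hq ▸ odd_card_of_two_ne_zero h2))
    have h5 : q₀ ^ 2 % 4 = 1 := by
      rcases (by omega : q₀ % 4 = 1 ∨ q₀ % 4 = 3) with h | h <;> simp [Nat.pow_mod, h]
    rw [forall_exc (by omega) hP, excL_iff (orderOf_eq_one_iff.2 ((ZMod.natCast_eq_one_iff_odd).2
      (by rw [Nat.odd_iff]; omega))) (by omega), hV, hc]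
    · simp [hp, h5]
    · intro y h1
      obtain ⟨U, h4, h5⟩ := hs.exists_nd h0 (kd_le y _) fun h => absurd h hσ
      obtain ⟨h, h6, h7, h8⟩ := exists_neg_on h0 h2 h4
      exact ⟨h, h6.simE, eq_of_inv h2 h7 h1 (h8.trans h5)⟩
    · rintro y c h1 h3 ⟨h, ⟨l, h6, h7⟩, h8⟩
      have h9 := h7.pow_eq h0 (pow_of_eq h8.symm h1)
      obtain ⟨x, hx⟩ := exists_ne (0 : Fin n → F)
      obtain ⟨z, hz⟩ := h0.exists_eq_one hx
      have a1 : l ^ q₀ = l := by
        have := Φ.symm (h x) (h z)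
        rw [h7.1, h7.1, Φ.symm x z, hz, hε] at this
        simpa using this.symm
      obtain ⟨k, rfl⟩ : ∃ k, q₀ = 2 * k + 1 := ⟨q₀ / 2, by omega⟩
      have a2 : l ^ (2 * k) = 1 := mul_right_cancel₀ h6 (by rw [← pow_succ, a1, one_mul])
      obtain ⟨w, hw⟩ := (FiniteField.isSquare_iff (a := c) (by rwa [ringChar.eq F p])
        fun h0 => h3 ⟨0, by simp [h0]⟩).2 (by
          rw [hq, show (2 * k + 1) ^ 2 / 2 = (2 * k + 1 + 1) * k by
            rw [show (2 * k + 1) ^ 2 = 2 * ((2 * k + 1 + 1) * k) + 1 by ring]; omega,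
            pow_mul, pow_succ, ← frobq_apply hq, ← h9, ← pow_mul, a2])
      exact h3 ⟨w, by rw [hw, sq]⟩
  have h3 : 2 < r := (Fact.out : r.Prime).two_le.lt_of_ne (by rintro rfl; exact absurd hr' (by decide))
  have hr0 := cast_ne_zero_of_ne (F := F) (hr.resolve_left h3.ne')
  have h1 := dvd_isom hH hΩ
  rw [card_isom_herm hq h0 hε hV, Fintype.card_fin, hc] at h1
  obtain ⟨j, a1, a2, a3⟩ := glo_gu hq2 (fun h => not_dvd_card' hr0 (hc ▸ h.pow two_ne_zero)) h1
  have a4 : (-1 : ZMod r) ≠ 1 := fun h => by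
    simpa using (neg_one_pow_inj h3 (a := 1) (b := 0)).1 (by simpa using h)
  simp only [h3.ne', false_and, false_or]
  by_cases hi : orderOf (Nat.card F : ZMod r) = 1
  · have a5 : (q₀ : ZMod r) = 1 := by
      rcases (by simpa [hq, sq_eq_one_iff] using hi : (q₀ : ZMod r) = 1 ∨ (q₀ : ZMod r) = -1) with h | h
      · exact h
      · exact absurd (by simpa [h] using a3.symm) a4
    have a6 : ∀ t : F, t ^ r = 1 → frobq hq t = t := fun t ht => by
      obtain ⟨k, hk⟩ := dvd_of_orderOf_eq_one (r := r) (q := q₀) (by omega) (by simp [a5])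
      rw [frobq_apply, show q₀ = r * k + 1 by omega, pow_succ, pow_mul, ht, one_pow, one_mul]
    rw [forall_sym hr0 h3 hi (by omega) (by rwa [hV]) hP (sym_of_cj h0 a6)
      fun h => cj_sym h0 hr0 h3 hi a6 (hs.witt h0) h, hV, hc,
      show q₀ ^ 2 - 1 = (q₀ + 1) * (q₀ - 1) by rw [← Nat.sq_sub_sq, one_pow],
      padicValNat.mul (by omega) (by omega), padicValNat.eq_zero_of_not_dvd, zero_add]
    rw [← pow_one q₀, dvd_pow_add_one_iff, a5, one_pow]
    exact a4.symm
  refine iff_of_false (fun H => ?_) fun h => hi ?_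
  swap
  · have := val_eq_zero (r := r) (q := q₀) (by omega)
    have : (q₀ : ZMod r) = 1 := by by_contra h5; simp [h5, h.2.2] at this
    simp [hq, this]
  rw [forall_two_le hi (by omega) hP] at H
  have a5 : orderOf (Nat.card F : ZMod r) ∣ j := orderOf_dvd_of_pow_eq_one (by
    rw [hc, Nat.cast_pow, ← neg_sq, ← pow_mul, mul_comm, pow_mul, a3, neg_one_sq])
  have a6 := Nat.le_of_dvd a1 a5
  obtain ⟨e, he⟩ := exists_prime_pow_of_card_eq_sq hq
  rw [ringChar.eq F p] at he
  have a7 := nsd_cyc (σ := frobq hq) (p := p) (j := e) (fun c => by rw [← he]; rfl) (frobq_frobq hq) hr0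
    fun k hk => by
      rw [← he, hc, ← ZMod.natCast_eq_zero_iff] at hk
      have b1 : (-q₀ : ZMod r) ^ (2 * k) = -q₀ := by
        rw [pow_mul, neg_sq]; push_cast at hk; linear_combination hk
      have b2 : (-q₀ : ZMod r) ^ j ≠ 0 := by simp [a3]
      have b3 := congrArg (· ^ j) b1
      simp only [← pow_mul] at b3
      rw [mul_comm, pow_mul, a3, pow_mul] at b3
      exact a4 (by simpa using b3.symm)
  obtain ⟨y, h4, h5, h6, -⟩ := exists_blocks (V := Fin n → F) hr0 one_pos (by omega)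
  obtain ⟨h, h7, h8, h9⟩ := iso_of_cj h0 hi h4 (H y h4 h5)
  have a8 := h7.typ_dvd h0 hr0 h3 (Or.inr ⟨a7, rfl⟩) h8
  have := ord_pos hr0
  rw [kd_of_eq h9, h6] at a8
  have := Nat.le_of_dvd (by omega) a8
  omega

end Cfsg.Agent.S5982
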