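import Cfsg.Statements.S5983
import Cfsg.Agent.Elu.Herm

set_option autoImplicit false
open scoped MatrixGroups
open Cfsg

namespace Cfsg.Agent.S5983

/-- Elements of prime order of PSp_n(q), q even, and the subgroups of orthogonal type. Here `T = Sp_{2d}(F)` for a field `F` of characteristic 2 with `q` elements (`d ≥ 2`, `(d, q) ≠ (2, 2)`), realised as the invertible matrices preserving the standard alternating form; `Q` is a non-degenerate quadratic form on `F^{2d}` whose polar form is that alternating form, and `H` is the subgroup of `T` preserving `Q` up to a scalar (equivalently preserving `Q`) — a subgroup of type O^±_{2d}(q) (maximality is not assumed); `Q` is of plus type when `F^{2d}` contains a `d`-dimensional subspace on which `Q` vanishes, of minus type otherwise. Ω is the set of cosets of `H` in `T`, so an element of `T` of prime order `r` (`x ∈ T` with `x^r` scalar, `x` not scalar) fixes a point of Ω exactly when some `T`-conjugate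 of `x` preserves `Q`. Let `r` be a prime dividing the index of `H`. Then every element of `T` of order `r` fixes a point of Ω if and only if `r = 2` and either `Q` is of plus type or `d` is odd. -/
theorem result {F : Type*} [Field F] [Fintype F] {p : ℕ} [Fact p.Prime] [CharP F p] {q : ℕ} (hq : Fintype.card F = q)
    (hp : p = 2) (d : ℕ) (hd : 2 ≤ d) (hT : (d, q) ≠ (2, 2)) (Q : (Fin d ⊕ Fin d → F) → F) (hQ : Cfsg.Geo.IsNondegenerateQuadraticForm Q)
    (hQf : ∀ u v, QuadraticMap.polar Q u v = Cfsg.sympForm d F u v)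
    (r : ℕ) [Fact r.Prime]
    (hΩ : r ∣ (Cfsg.Geo.quadSimilarityGroup Q).relIndex (Cfsg.spGL d F)) :
    (∀ x ∈ Cfsg.spGL d F, (∃ z : F, ((x ^ r : GL (Fin d ⊕ Fin d) F) : Matrix (Fin d ⊕ Fin d) (Fin d ⊕ Fin d) F) = z • (1 : Matrix (Fin d ⊕ Fin d) (Fin d ⊕ Fin d) F)) →
      (∀ z : F, (x : Matrix (Fin d ⊕ Fin d) (Fin d ⊕ Fin d) F) ≠ z • (1 : Matrix (Fin d ⊕ Fin d) (Fin d ⊕ Fin d) F)) →
      ∃ g ∈ Cfsg.spGL d F, g⁻¹ * x * g ∈ Cfsg.Geo.quadSimilarityGroup Q) ↔
    (r = 2 ∧ (Cfsg.Geo.IsPlusTypeOn Q ⊤ ∨ Odd d)) := by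
-----
  open Module Polynomial Cfsg.Agent.Elu Cfsg.Agent.Geom Cfsg.Agent.Classical in
  subst hq hp
  obtain ⟨Q, rfl, hn'⟩ := exists_quad hQ
  have hV : finrank F (Fin d ⊕ Fin d → F) = 2 * d := by simp [two_mul]
  have : Nontrivial (Fin d ⊕ Fin d → F) := (Module.finrank_pos_iff (R := F)).1 (by omega)
  have hs := spu_symp d F
  have hn := sympFormed_nondeg d F
  have ho := orth_quad Q
  have hB : ∀ u v, (Formed.ofQuad Q).B u v = (sympFormed d F).B u v := fun u v =>
    (hQf u v).trans (sympFormed_B _ _ u v).symm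
  have hI : ∀ h, Iso (Formed.ofQuad Q) h → Iso (sympFormed d F) h := fun h hh =>
    hs.iso.2 fun u v => by rw [← hB, ← hB, hh.1]
  obtain ⟨τ, hτ, ht⟩ := ho.exists_ty hn' (by rw [hV]; exact even_two_mul d)
  have hp : Geo.IsPlusTypeOn Q ⊤ ↔ τ = 0 := by
    refine ⟨fun ⟨U, _, h1, h2⟩ => ht.unique ((ty_zero_iff hn').2 ⟨U, ho.ts.2 h1, by simpa using h2⟩), ?_⟩
    rintro rfl
    obtain ⟨U, h1, h2⟩ := (ty_zero_iff hn').1 ht
    exact ⟨U, le_top, ho.ts.1 h1, by simpa using h2⟩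
  have key : ∀ f, Iso (sympFormed d F) f → Cg (Iso (sympFormed d F)) (SimE (Formed.ofQuad Q)) f →
      ∃ h, Iso (Formed.ofQuad Q) h ∧ elemDiv h = elemDiv f ∧
        (Al (Formed.ofQuad Q) h ↔ Al (sympFormed d F) f) := by
    rintro f hf ⟨k, h, h1, ⟨l, -, h2⟩, h3⟩
    obtain ⟨k, rfl⟩ := h1.exists_isom hn
    have h4 : ∀ v, k.1 (h v) = f (k.1 v) := fun v => congr($h3 v)
    have h5 : l = 1 := by
      obtain ⟨x, hx⟩ := exists_ne (0 : Fin d ⊕ Fin d → F)
      by_contra h5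
      refine hx (hn x fun y => (mul_left_eq_self₀.1 ?_).resolve_left h5)
      rw [← hB, ← h2.1, hB, ← k.2.1, h4, h4, hf.1, k.2.1, hB]
    subst h5
    refine ⟨h, sim_one.1 h2, elemDiv_congr k.1 h4, fun H v => ?_, fun H v => ?_⟩
    · obtain ⟨v, rfl⟩ := k.1.surjective v
      rw [← h4, k.2.1, ← hB, H]
    · rw [hB, ← k.2.1, h4, H]
  rw [grp_iff, inG_sp, inG_quad hn', hp]
  rcases (Fact.out : r.Prime).eq_two_or_odd' with rfl | hr
  · have h1 := exists_two_iff hn' hV (ht.witt hV).1 (by omega)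
    have h2 := exists_two_iff hn hV (hs.witt hn) (by omega)
    rw [hV, Nat.mul_div_cancel_left _ two_pos] at h2
    refine ⟨fun H => ⟨rfl, ?_⟩, fun H f hf h3 => ?_⟩
    · by_contra! h3
      obtain ⟨f, a, b, c, e⟩ := (h2 d True).2 (by simpa using h3.2)
      obtain ⟨h, a', b', c'⟩ := key f a (H f a ((pe_two_char hn (by omega) a).2
        ⟨b, by rw [Ne, ← rk_eq_zero]; omega⟩))
      have := ((h1 d True).1 ⟨h, a', pow_of_eq' b'.symm b, by
        have := rk_add_kd (f := h); have := rk_add_kd (f := f); have := kd_of_eq b' (X - C 1); omega,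
        c'.trans e⟩).2.1 trivial
      omega
    · obtain ⟨a, -⟩ := (pe_two_char hn (by omega) hf).1 h3
      obtain ⟨b, c, e⟩ := (h2 _ _).1 ⟨f, hf, a, rfl, Iff.rfl⟩
      obtain ⟨h, a', b', c', e'⟩ := (h1 (rk f) (Al (sympFormed d F) f)).2 ⟨b, fun h => ⟨(c h).1, by
        have := Nat.even_iff.1 (c h).1; have := H.2.imp_right Nat.odd_iff.1; omega⟩, e⟩
      obtain ⟨k, h4, h5⟩ := conj_two hn (hI h a') hf b' a c' (Iff.trans (by simp only [Al, hB]) e')
      exact ⟨k.toLinearMap, h, iso_coe.2 h4, a'.simE, LinearMap.ext h5⟩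
  have h3 : 2 < r := (Fact.out : r.Prime).two_le.lt_of_ne (by rintro rfl; exact absurd hr (by decide))
  have h := cast_ne_zero_of_ne (F := F) h3.ne'
  refine iff_of_false (fun H => ?_) (by omega)
  rw [forall_scale_cop hn (by omega) (fun _ h => h) (fun _ h _ => h) (N := 2) (fun z hz => by rwa [sq])
    (Nat.coprime_two_right.2 hr) (by
      rintro w f hw ⟨k, g, h1, h2, h3⟩
      exact ⟨k, w⁻¹ • g, h1, h2.smul _ _ (inv_ne_zero hw), by
        rw [mul_smul_comm, h3, smul_mul_assoc, smul_smul, inv_mul_cancel₀ hw, one_smul]⟩)] at H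
  have h1 := dvd_isom' (τ := RingHom.id F) (inG_sp d) hΩ (K := (Formed.ofQuad Q).isom) fun k hk =>
    ⟨by rw [inG_quad hn']; exact (iso_coe.2 hk).simE, iso_coe.1 (hI _ (iso_coe.2 hk))⟩
  obtain ⟨u, v, a, hu, hv, h4, h5⟩ := ho.card_eff hn' (Or.inr ht) h h3
  have h6 := lt_of_dvd_tq (a := a) (b := d) (u := v) (v := Nat.card F ^ d ^ 2 * u) Finite.one_lt_card
    (ord_pos h) (fun h7 => ((Fact.out : r.Prime).dvd_mul.1 h7).elim
      (fun h8 => not_dvd_card' h ((Fact.out : r.Prime).dvd_of_dvd_pow h8)) hu) (by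
    rw [mul_assoc, ← h4, ← mul_assoc, mul_right_comm _ u]
    exact Nat.mul_dvd_mul_right (h1.trans (hs.card_alt hn hV).dvd) u)
  obtain ⟨y, h7, h8, h9⟩ := exists_of_chain h h3 (typ_id h h3) hn (hs.chain_alt hn h
    (2 * d / cdim (orderOf (Nat.card F : ZMod r))) (hV ▸ Nat.mul_div_le _ _))
  have hp := pol_cyc h h3
  obtain ⟨g, a1, a2, -⟩ := key y h7 (H y h7 h8 (by
    rw [Ne, ← rk_eq_zero, rk_eq hp.cop (aeval_split h8), h9]
    exact (Nat.mul_pos (cdim_pos (ord_pos h)) (by omega)).ne'))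
  have := ho.le_mx hp (typ_id h h3) (cdim_pos (ord_pos h)) (bt_cyc h h3 rfl) hn' (even_cdim _) a1
    (aeval_split (pow_of_eq' a2.symm h8)) ((kd_of_eq a2 _).trans h9) (Or.inr ht)
  omega

end Cfsg.Agent.S5983
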