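import Cfsg.Statements.S5984
import Cfsg.Agent.Elu.Herm

set_option autoImplicit false
open scoped MatrixGroups
open Cfsg

namespace Cfsg.Agent.S5984

/-- Elements of prime order of PSU_n(q) and the stabilizers of pairs of complementary totally singular subspaces. Here `T = PSU_n(q)` is realised through `SU_n(q)`, the matrices of determinant 1 over the field `F` with `q²` elements preserving the hermitian form `Σ uᵢ vᵢ^q`, with `n ≥ 4` even; `D` is a pair of complementary subspaces of dimension `n/2` on each of which the form vanishes identically, and `H` is the subgroup of `SU_n(q)` fixing or interchanging the two members — a subgroup of type GL_{n/2}(q²).2 (maximality is not assumed). Ω is the set of cosets of `H`, so an element of `T` of prime order `r` (`x ∈ SU_n(q)` with `x^r` scalar, `x` not scalar) fixes a point of Ω exactly when some `SU_n(q)`-conjugate of `x` lies in `H`. Let `r` be a prime dividing the index of `H`. Then every element of `T` of order `r` fixes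 a point of Ω if and only if `r = 2`, `q` is odd and `(q + 1)_2 ≤ (n)_2` (2-parts). -/
theorem result {F : Type*} [Field F] [Fintype F] {p : ℕ} [Fact p.Prime] [CharP F p] {q : ℕ} (hq : Fintype.card F = q ^ 2)
    (n : ℕ) (hn : 4 ≤ n) (he : Even n) (D : Fin 2 → Submodule F (Fin n → F)) (hD : Cfsg.Geo.IsMDecomposition (n / 2) D)
    (hDs : ∀ i, Cfsg.Geo.IsTotallySingularFor (Cfsg.hermForm n F q) (D i))
    (r : ℕ) [Fact r.Prime]
    (hΩ : r ∣ (Cfsg.Geo.decompositionStabilizer D).relIndex (Cfsg.GU n F q ⊓ Cfsg.Geo.specialLinear (Fin n) F)) :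
    (∀ x ∈ Cfsg.GU n F q ⊓ Cfsg.Geo.specialLinear (Fin n) F, (∃ z : F, ((x ^ r : GL (Fin n) F) : Matrix (Fin n) (Fin n) F) = z • (1 : Matrix (Fin n) (Fin n) F)) →
      (∀ z : F, (x : Matrix (Fin n) (Fin n) F) ≠ z • (1 : Matrix (Fin n) (Fin n) F)) →
      ∃ g ∈ Cfsg.GU n F q ⊓ Cfsg.Geo.specialLinear (Fin n) F, g⁻¹ * x * g ∈ Cfsg.Geo.decompositionStabilizer D) ↔
    (r = 2 ∧ Odd q ∧ padicValNat 2 (q + 1) ≤ padicValNat 2 n) := by
  open Module Polynomial Cfsg.Agent.Elu Cfsg.Agent.Geom Cfsg.Agent.Classical in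
  have hV : finrank F (Fin n → F) = n := by simp
  have hs := spu_herm (Φ := hermFormed hq n) rfl
  have h0 := hermFormed_nondeg hq n
  have hσ := frobq_ne_id hq
  have hD' := fun i => (herm_ts_iff (hF := hq) _).1 (hDs i)
  have hc : IsCompl (D 0) (D 1) := ⟨(iSupIndep_pair (by decide) (by decide)).1 hD.4,
    codisjoint_iff.2 (top_unique (hD.5 ▸ iSup_le fun i => by
      fin_cases i; exacts [le_sup_left, le_sup_right]))⟩
  have hH : InG (Geo.decompositionStabilizer D) = fun h : End F (Fin n → F) => Function.Injective h ∧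
      ∃ π : Equiv.Perm (Fin 2), ∀ i, (D i).map h = D (π i) := by
    refine inG_iff (fun g => Iff.symm (and_iff_right ?_)) fun _ h => h.1
    rw [← coe_glEquiv]; exact (glEquiv _ F g).injective
  have hP : ∀ (w : F) (f : End F (Fin n → F)), w ≠ 0 → (∃ b, PP (hermFormed hq n) (w • f) b) →
      ∃ b, PP (hermFormed hq n) f b := fun w f hw h => h.imp fun _ => PP.smul w f hw
  rw [grp_iff, inG_su (hF := hq), hH]
  refine Iff.trans (forall₃_congr fun f h _ => Iff.trans ?_ (pp_iff h0 (h.1.injective h0))) ?_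
  · constructor
    · rintro ⟨k, g, ⟨h1, -⟩, ⟨-, π, h2⟩, h3⟩
      obtain ⟨k, rfl⟩ := h1.exists_isom h0
      have h4 : ∀ i, ((D i).map k.1.toLinearMap).map f = (D (π i)).map k.1.toLinearMap := fun i => by
        rw [← h2, ← Submodule.map_comp, ← Submodule.map_comp]; exact congrArg (D i).map h3.symm
      refine ⟨_, _, (Submodule.orderIsoMapComap k.1).isCompl hc, (hD' 0).map k.2, (hD' 1).map k.2, ?_⟩
      fin_cases π
      exacts [Or.inl ⟨h4 0, h4 1⟩, Or.inr ⟨h4 0, h4 1⟩]
    · rintro ⟨U, W, h1, h2, h3, h4⟩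
      obtain ⟨g, -, h5, h6⟩ := exists_levi' h0 hc (hD' 0) (hD' 1) h1 h2 h3 (LinearEquiv.ofFinrankEq _ _ (by
        have := (polar_isCompl h0 h1.sup_eq_top h2 h3).2.1; rw [hD.3]; omega))
      have h7 := (iso_coe.2 g.2).det_norm hσ hs.eps h0
      obtain ⟨t, ⟨⟨h8, h9⟩, h10⟩, h11⟩ := exists_det_polar h0 hc (hD' 0) (hD' 1) (fun h => by
        have := hD.3 0; rw [h, finrank_bot] at this; omega) (z := frobq hq (LinearMap.det g.1.toLinearMap))
        (by rwa [frobq_frobq, mul_comm])
      have h12 : ∀ X Y : Submodule F (Fin n → F), (X.map (g.1 * t).toLinearMap).map f =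
          Y.map (g.1 * t).toLinearMap → X.map ((g.1 * t).symm.toLinearMap * f *
            (g.1 * t).toLinearMap) = Y := fun X Y h => by
        rw [End.mul_eq_comp, End.mul_eq_comp, Submodule.map_comp, Submodule.map_comp, h,
          Submodule.map_symm_eq_iff]
      rw [← mem_stab_iff_map.1 h9, ← map_mul_sub] at h5
      rw [← mem_stab_iff_map.1 h10, ← map_mul_sub] at h6
      refine ⟨(g.1 * t).toLinearMap, (g.1 * t).symm.toLinearMap * f * (g.1 * t).toLinearMap,
        ⟨iso_coe.2 (mul_mem g.2 h8), by rw [LinearEquiv.coe_toLinearMap_mul, map_mul, h11, mul_comm, h7]⟩,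
        ⟨(g.1 * t).symm.injective.comp ((h.1.injective h0).comp (g.1 * t).injective), ?_⟩,
        LinearMap.ext fun v => (g.1 * t).apply_symm_apply _⟩
      subst h5 h6
      rcases h4 with h4 | h4
      · exact ⟨1, fun i => by fin_cases i; exacts [h12 _ _ h4.1, h12 _ _ h4.2]⟩
      · exact ⟨Equiv.swap 0 1, fun i => by fin_cases i; exacts [h12 _ _ h4.1, h12 _ _ h4.2]⟩
  by_cases hrp : r = p
  · subst hrp
    rw [su_cop hs h0 (by omega) (not_char_dvd (hF := hq)) hP]
    refine iff_of_false (fun H => ?_) fun h => by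
      have := Nat.odd_iff.1 h.2.1; have := h.1 ▸ dvd_q (p := r) hq; omega
    obtain ⟨y, h1, h2, h3⟩ := hs.exists_trans h0 (fun h => absurd h hσ) (by omega) (p := r)
    obtain ⟨b, hb⟩ := H y h1 h2 (by rw [Ne, ← rk_eq_zero]; omega)
    cases b
    · have := hb.le_rk h0 h1; omega
    · exact hb.rk_ne_one h0 h1 h3
  have h := cast_ne_zero_of_ne (F := F) hrp
  rcases (Fact.out : r.Prime).eq_two_or_odd' with rfl | hr
  · have h2 := cast_two_ne (F := F) (Ne.symm hrp)
    rw [su_forall h0 hP, su_exc_two hs h0 (by omega) h2 (R := True) fun f w h3 h4 h5 =>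
      iff_true_intro ⟨_, (type_two hs h0 h2 h3 h5 h4).2.1⟩, su_refl hs h0 h2 (by omega) (by rwa [hV])
      (fun y a b c d => ⟨_, hs.pp_two h0 h2 a b c d⟩) (by
        rintro y a b c d ⟨_ | _, he⟩
        · have := he.le_rk h0 a; have := rk_add_kd (f := y); omega
        · obtain ⟨X, -, -, h3⟩ := he.half h0 (a.nd_fix h0 (isCoprime_two h2) (aeval_two b)).2
          omega), hV]
    simp [odd_q (hF := hq) h2]
  have h3 : 2 < r := (Fact.out : r.Prime).two_le.lt_of_ne (by rintro rfl; exact absurd hr (by decide))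
  refine iff_of_false (fun H => ?_) (by omega)
  by_cases h5 : r ∣ q + 1
  · obtain ⟨y, a, b, c, d⟩ := exists_bad_diag hs h0 h3 h5 (k := 1) one_pos h3 (by omega)
    obtain ⟨e, he⟩ := H y a b
    obtain ⟨U, W, h6, h7, h8, h9, -⟩ := he.of_odd hr one_ne_zero (by simpa using c)
    have := d U h7 (inv_iff_map.1 h9)
    have := (polar_isCompl h0 h6 h7 h8).2.1
    omega
  rw [su_cop hs h0 (by omega) h5 hP] at H
  have : (Geo.specialLinear (Fin n) F).Normal := MonoidHom.normal_ker _
  have h6 := (Nat.mul_dvd_mul_left r (glo_dvd_levi h0 hc (hD' 0) (hD' 1))).trans (dvd_of_relIndex_inf hΩ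
    ((glEquiv _ F).symm.toMonoidHom.comp (Subgroup.subtype _))
    ((glEquiv _ F).symm.injective.comp Subtype.val_injective) fun k => by
      have : Matrix.toLin' ((glEquiv _ F).symm k.1).1 = k.1.toLinearMap := by
        rw [← coe_glEquiv, MulEquiv.apply_symm_apply]
      exact ⟨⟨1, fun i => this ▸ by
        fin_cases i; exacts [mem_stab_iff_map.1 k.2.1.2, mem_stab_iff_map.1 k.2.2]⟩,
        ((guEquiv hq n).symm ⟨k.1, k.2.1.1⟩).2⟩)
  obtain ⟨m, rfl⟩ := he.two_dvd
  rw [Nat.card_congr (guEquiv hq _).toEquiv, card_isom_herm hq h0 rfl hV, card_herm hq, hD.3,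
    Nat.mul_div_cancel_left _ two_pos] at h6
  obtain ⟨j, a1, a2, a3⟩ := gu_glo (two_le_of_card_eq_sq hq) (not_dvd_q hq h) h6
  have h7 := (neg_pow_iff h3 rfl (orderOf_pos_of_not_dvd (not_dvd_q hq h)) j).1
    (by rw [a1.neg_one_pow, dvd_pow_add_one_iff.1 a3])
  have ht := typ_herm hq h h3 rfl
  have h8 := (ht.resolve_right fun h => by
    have := Nat.odd_iff.1 (a1.of_dvd_nat h7); omega).2
  obtain ⟨y, h9, h10, h11⟩ := exists_of_chain h h3 ht h0 (chain_herm hs h0 h h3 rfl 1 (by
    have := Nat.le_of_dvd a1.pos h7; omega))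
  rw [h8, mul_one] at h11
  have hp := pol_cyc h h3
  obtain ⟨b, hb⟩ := H y h9 h10 (by
    rw [Ne, ← rk_eq_zero, rk_eq hp.cop (aeval_split h10), h11]; exact (ord_pos h).ne')
  exact PP.not_pol h0 hp (h9.nd_fix h0 hp.cop (aeval_split h10)).2 h11 (ord_pos h)
    (hb.of_odd hr one_ne_zero (by simpa using h10))

end Cfsg.Agent.S5984
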