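import Cfsg.Statements.S5987
import Cfsg.Agent.Elu.OrthTwo

set_option autoImplicit false
open scoped MatrixGroups
open Cfsg

namespace Cfsg.Agent.S5987

/-- Elements of prime order of PΩ⁻_n(q) with no fixed totally singular `m`-space. Here `T = PΩ⁻_n(F)`, `n = 2d ≥ 8`, realised through `Ω⁻_n(q)`, the commutator subgroup of the isometry group of `Q = Σ_{i<d−1} xᵢyᵢ + z₁² + a z₁z₂ + b z₂²` with `z₁² + a z₁z₂ + b z₂²` anisotropic, over the field `F` with `q` elements; an element of `T` of prime order `r` is an element `x` of `Ω⁻_n(q)` with `x^r` scalar and `x` not scalar. Let `1 ≤ m ≤ d − 1` and let `r` be a prime dividing the number of totally singular `m`-spaces (subspaces of dimension `m` on which `Q` vanishes); for `r ≠ p` let `i` be the multiplicative order of `q` modulo `r`, `c = i` for `i` even and `c = 2i` for `i` odd, and write `k = n mod c`, `ℓ = m mod i`, `n' = ⌊n/i⌋`, `m' = ⌊m/i⌋`, `t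 = (r−1)/i`. Then every element of `T` of order `r` fixes some totally singular `m`-space if and only if one of: (i) `r = 2 ≠ p` and (`n ≡ 0 (mod 4)`, or `m` is even, or `q ≢ 7 (mod 8)`); (ii) `r ≠ p` odd, `i` odd, `i ≤ m` and (`k = 0` or `k > 2ℓ`); (iii) `r ≠ p` odd, `i` even, `i ≤ m`, `n' − 2m' ≥ t`, and one of: (a) `i ≥ 2ℓ`, `k = 0`, `n/i` even and `n' − 2m' > t` (all four); (b) `k ≥ 2ℓ` and `n'` odd; (c) `k > 2ℓ` and `n'` even. -/
theorem result {F : Type*} [Field F] [Fintype F] {p : ℕ} [Fact p.Prime] [CharP F p] {q : ℕ} (hq : Fintype.card F = q)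
    (d m : ℕ) (hd : 4 ≤ d) (hm : 1 ≤ m) (hmd : m + 1 ≤ d) (a b : F) (hab : ∀ x y : F, x ^ 2 + a * x * y + b * y ^ 2 = 0 → x = 0 ∧ y = 0)
    (r : ℕ) [Fact r.Prime]
    (hrΩ : r ∣ Nat.card {W : Submodule F ((Fin (d - 1) ⊕ Fin (d - 1)) ⊕ Fin 2 → F) // Module.finrank F ↥W = m ∧ Cfsg.Geo.IsTotallySingularQuad (Cfsg.quadFormMinus (d - 1) F a b) W})
    (i c : ℕ) (hi : i = orderOf (q : ZMod r)) (hc : c = if Even i then i else 2 * i) :
    (∀ x : GL ((Fin (d - 1) ⊕ Fin (d - 1)) ⊕ Fin 2) F, x ∈ Cfsg.Geo.omegaGL (Cfsg.quadFormMinus (d - 1) F a b) →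
      (∃ z : F, ((x ^ r : GL ((Fin (d - 1) ⊕ Fin (d - 1)) ⊕ Fin 2) F) : Matrix ((Fin (d - 1) ⊕ Fin (d - 1)) ⊕ Fin 2) ((Fin (d - 1) ⊕ Fin (d - 1)) ⊕ Fin 2) F) = z • (1 : Matrix ((Fin (d - 1) ⊕ Fin (d - 1)) ⊕ Fin 2) ((Fin (d - 1) ⊕ Fin (d - 1)) ⊕ Fin 2) F)) →
      (∀ z : F, (x : Matrix ((Fin (d - 1) ⊕ Fin (d - 1)) ⊕ Fin 2) ((Fin (d - 1) ⊕ Fin (d - 1)) ⊕ Fin 2) F) ≠ z • (1 : Matrix ((Fin (d - 1) ⊕ Fin (d - 1)) ⊕ Fin 2) ((Fin (d - 1) ⊕ Fin (d - 1)) ⊕ Fin 2) F)) →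
      ∃ W : Submodule F ((Fin (d - 1) ⊕ Fin (d - 1)) ⊕ Fin 2 → F), (Module.finrank F ↥W = m ∧ Cfsg.Geo.IsTotallySingularQuad (Cfsg.quadFormMinus (d - 1) F a b) W) ∧ W.map (Matrix.toLin' (x : Matrix ((Fin (d - 1) ⊕ Fin (d - 1)) ⊕ Fin 2) ((Fin (d - 1) ⊕ Fin (d - 1)) ⊕ Fin 2) F)) ≤ W) ↔
    ((r = 2 ∧ p ≠ 2 ∧ (Even d ∨ Even m ∨ q % 8 ≠ 7)) ∨
     (r ≠ p ∧ 2 < r ∧ Odd i ∧ i ≤ m ∧ ((2 * d) % c = 0 ∨ 2 * (m % i) < (2 * d) % c)) ∨
     (r ≠ p ∧ 2 < r ∧ Even i ∧ i ≤ m ∧ (r - 1) / i + 2 * (m / i) ≤ (2 * d) / i ∧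
       ((2 * (m % i) ≤ i ∧ (2 * d) % c = 0 ∧ Even ((2 * d) / i) ∧ (r - 1) / i + 2 * (m / i) < (2 * d) / i) ∨
        (2 * (m % i) ≤ (2 * d) % c ∧ Odd ((2 * d) / i)) ∨
        (2 * (m % i) < (2 * d) % c ∧ Even ((2 * d) / i))))) := by
-----
  open Module Cfsg.Agent.Elu Cfsg.Agent.Geom in
  subst hq
  have hV : finrank F ((Fin (d - 1) ⊕ Fin (d - 1)) ⊕ Fin 2 → F) = 2 * d := by simp; omega
  have hn := quadMinus_nondeg F (d - 1) (disc_ne_zero_of_anisotropic hab)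
  have ht : Ty (Formed.ofQuad (quadMinus F (d - 1) a b)) 1 :=
    ⟨d - 1, quadMinus_wittIndex F _ hab, by omega⟩
  simp only [← coe_quadMinus, Geo.IsTotallySingularQuad, ← Formed.totSing_ofQuad, and_assoc] at hrΩ ⊢
  rw [omega_forall_iff (fun f => ∃ W : Submodule F _, finrank F W = m ∧
    (Formed.ofQuad (quadMinus F (d - 1) a b)).TotSing W ∧ W.map f ≤ W)]
  simp only [inv_iff_map]
  have hrp : r ≠ p := by
    rintro rfl
    exact not_dvd_ts hn (quadMinus_wittIndex F _ hab) (by omega) (Or.inl (by omega)) hrΩ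
  rw [← Nat.card_eq_fintype_card] at hi ⊢
  rcases (Fact.out : r.Prime).eq_two_or_odd' with rfl | hr
  · have h2 := cast_two_ne (F := F) hrp.symm
    rw [two_ts_even hn h2 hV (by omega) ht hmd]
    simp only [Nat.even_iff, hrp.symm, Ne, not_false_iff, lt_irrefl, true_and, false_and, and_false,
      or_false]
    rcases card_mod_four h2 with h | h <;> simp only [h, Nat.reduceDiv, true_or, true_and] <;> omega
  · have h3 : 2 < r := (Fact.out : r.Prime).two_le.lt_of_ne (by rintro rfl; exact absurd hr (by decide))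
    have h0 := hi ▸ ord_pos (cast_ne_zero_of_ne (F := F) hrp)
    rw [om_odd hn (notExc_of_finrank (by omega)) (by omega) hr
      (fun w f hw => by simp only [inv_smul_iff hw]; exact id),
      (orth_quad _).ts_even (cast_ne_zero_of_ne hrp) h3 hi hn hV ht hmd hrΩ]
    rcases i.even_or_odd with h | h
    · simp only [hrp, h3, h3.ne', hc, h, Nat.not_odd_iff_even.2 h, Nat.even_iff (n := 2 * d / i),
        Nat.odd_iff (n := 2 * d / i), if_true, Ne, not_false_iff, true_and, false_and, false_or]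
      omega
    · simp only [hrp, h3, h3.ne', hc, h, Nat.not_even_iff_odd.2 h, Nat.mul_mod_mul_left, if_false,
        Ne, not_false_iff, true_and, false_and, false_or, or_false]
      have := sub_div_mod h0 (show 1 ≤ d by omega)
      have := Nat.mod_lt m h0
      rcases (show i = 1 ∨ 1 < i by omega) with rfl | h4
      · omega
      · rw [Nat.mod_eq_of_lt h4] at *; omega

end Cfsg.Agent.S5987
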