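import Cfsg.Statements.S5988
import Cfsg.Agent.Elu.OrthUnip

set_option autoImplicit false
open scoped MatrixGroups
open Cfsg

namespace Cfsg.Agent.S5988

/-- Elements of prime order of PΩ⁺_n(q) with no fixed elliptic `m`-space. Here `T = PΩ⁺_n(F)`, `n = 2d ≥ 8`, realised through `Ω⁺_n(q)`, the commutator subgroup of the isometry group of `Q = Σ xᵢyᵢ` over the field `F` with `q` elements; an element of `T` of prime order `r` is an element `x` of `Ω⁺_n(q)` with `x^r` scalar and `x` not scalar; a nondegenerate `m`-space (even `m`) is a subspace on which the polar form of `Q` is nondegenerate; it is hyperbolic if it contains an `m/2`-dimensional subspace on which `Q` vanishes, elliptic otherwise. Let `m` be even with `2 ≤ m < n/2` and let `r` be a prime dividing the number of elliptic `m`-spaces; for `r ≠ p` let `i` be the multiplicative order of `q` modulo `r`, `c = i` for `i` even and `c = 2i` for `i` odd, and write `k = n mod c`, `ℓ = m mod i`,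 `ℓ' = m mod c`, `n' = ⌊n/i⌋`, `m' = ⌊m/i⌋`, `t = (r−1)/i`. Then every element of `T` of order `r` fixes some elliptic `m`-space if and only if one of: (i) `r = 2 ≠ p` and either `n ≡ 0 (mod 4)`, `q ≡ 3 (mod 4)` and `m ≡ 2 (mod 4)`, or `n ≡ 2 (mod 4)` and `q ≢ 1 (mod 8)`; (ii) `r ≠ p` odd, `i` odd, `c ≤ m` and `k > ℓ' > 0`; (iii) `r ≠ p` odd, `i` even, and either `k = 0` and (`n/i` odd, or `ℓ' = 0` and `m/i` odd), or `i ≤ m` and (`k > ℓ' > 0`, or `k = ℓ' > 0` and `(n + m − 2k)/i` odd, or `k > ℓ' = 0` and `m/i` odd). (For `r = p` there is always an element of order `p` fixing no elliptic `m`-space.) -/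
theorem result {F : Type*} [Field F] [Fintype F] {p : ℕ} [Fact p.Prime] [CharP F p] {q : ℕ} (hq : Fintype.card F = q)
    (d m : ℕ) (hd : 4 ≤ d) (hm : 2 ≤ m) (hme : Even m) (hmd : m < d)
    (r : ℕ) [Fact r.Prime]
    (hrΩ : r ∣ Nat.card {W : Submodule F (Fin d ⊕ Fin d → F) // Module.finrank F ↥W = m ∧ Cfsg.Geo.IsNondegenerateOn (QuadraticMap.polar (Cfsg.quadFormPlus d F)) W ∧ ¬ Cfsg.Geo.IsPlusTypeOn (Cfsg.quadFormPlus d F) W})
    (i c : ℕ) (hi : i = orderOf (q : ZMod r)) (hc : c = if Even i then i else 2 * i) :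
    (∀ x : GL (Fin d ⊕ Fin d) F, x ∈ Cfsg.Geo.omegaGL (Cfsg.quadFormPlus d F) →
      (∃ z : F, ((x ^ r : GL (Fin d ⊕ Fin d) F) : Matrix (Fin d ⊕ Fin d) (Fin d ⊕ Fin d) F) = z • (1 : Matrix (Fin d ⊕ Fin d) (Fin d ⊕ Fin d) F)) →
      (∀ z : F, (x : Matrix (Fin d ⊕ Fin d) (Fin d ⊕ Fin d) F) ≠ z • (1 : Matrix (Fin d ⊕ Fin d) (Fin d ⊕ Fin d) F)) →
      ∃ W : Submodule F (Fin d ⊕ Fin d → F), (Module.finrank F ↥W = m ∧ Cfsg.Geo.IsNondegenerateOn (QuadraticMap.polar (Cfsg.quadFormPlus d F)) W ∧ ¬ Cfsg.Geo.IsPlusTypeOn (Cfsg.quadFormPlus d F) W) ∧ W.map (Matrix.toLin' (x : Matrix (Fin d ⊕ Fin d) (Fin d ⊕ Fin d) F)) ≤ W) ↔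
    ((r = 2 ∧ p ≠ 2 ∧ ((Even d ∧ q % 4 = 3 ∧ m % 4 = 2) ∨ (Odd d ∧ q % 8 ≠ 1))) ∨
     (r ≠ p ∧ 2 < r ∧ Odd i ∧ c ≤ m ∧ 0 < m % c ∧ m % c < (2 * d) % c) ∨
     (r ≠ p ∧ 2 < r ∧ Even i ∧
       (((2 * d) % c = 0 ∧ (Odd ((2 * d) / i) ∨ (m % c = 0 ∧ Odd (m / i)))) ∨
        (i ≤ m ∧ ((0 < m % c ∧ m % c < (2 * d) % c) ∨
                  (0 < m % c ∧ m % c = (2 * d) % c ∧ Odd ((2 * d + m - 2 * ((2 * d) % c)) / i)) ∨
                  (m % c = 0 ∧ 0 < (2 * d) % c ∧ Odd (m / i))))))) := by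
-----
  open Module Cfsg.Agent.Elu Cfsg.Agent.Geom in
  subst hq
  have hV : finrank F (Fin d ⊕ Fin d → F) = 2 * d := by simp; omega
  have hn := quadPlus_nondeg F d
  have ht : Ty (Formed.ofQuad (quadPlus F d)) 0 := ⟨d, quadPlus_wittIndex F d, hV⟩
  rw [← coe_quadPlus] at *
  generalize quadPlus F d = Q at *
  obtain ⟨l, rfl⟩ := hme.two_dvd
  obtain ⟨W₀, hW, hW', t₁⟩ := (orth_quad Q).exists_ty_sub hn (l := l) (a := 1) (by omega) (by omega)
    (Or.inl (by omega))
  simp only [minus_class hW hW' t₁] at hrΩ ⊢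
  rw [omega_forall_iff (fun f => ∃ W, (∃ e, ((Formed.ofQuad Q).restrict W₀).IsIso
    ((Formed.ofQuad Q).restrict W) e) ∧ W.map f ≤ W)]
  simp only [inv_iff_map]
  rw [← Nat.card_eq_fintype_card] at hi ⊢
  rcases (Fact.out : r.Prime).eq_two_or_odd' with rfl | hr'
  · by_cases hp : p = 2
    · subst hp
      have := Nat.even_iff.1 (FiniteField.even_card_of_char_two (ringChar.eq F 2) |> Nat.even_iff.2)
      rw [two_char_nd hn hV (by omega) ht hW hW' (by omega) t₁, Nat.card_eq_fintype_card]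
      simp only [Nat.even_iff, Nat.odd_iff, Ne, not_true, true_and, false_and, false_or, and_false,
        or_false, lt_irrefl, iff_false]
      omega
    have h2 := cast_two_ne (F := F) hp
    simp only [and_comm (b := Inv _ _)]
    rw [two_nd hn h2 hV (by omega) ht hW (by omega) (Or.inr t₁) (Or.inr ((orth_quad Q).ty_perp hn hW t₁ ht)), hW']
    simp only [hp, mx, Nat.even_iff, Nat.odd_iff, Ne, not_false_iff, true_and, false_and, false_or,
      and_false, or_false, lt_irrefl]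
    rcases card_mod_four h2 with h | h <;> simp only [h, Nat.reduceDiv, one_mul, zero_mul, true_and, or_true,
      true_or, and_true, iff_true, Nat.reduceMod, Nat.reduceAdd, Nat.reduceEqDiff, not_true, not_false_iff,
      and_false, false_and, false_or, or_false, false_imp_iff, true_imp_iff, true_iff, if_false, zero_add] <;>
      (try split_ifs) <;> omega
  have h3 : 2 < r := (Fact.out : r.Prime).two_le.lt_of_ne (by rintro rfl; exact absurd hr' (by decide))
  rw [om_odd hn (notExc_of_finrank (by omega)) (by omega) hr'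
    (fun w f hw => by simp only [inv_smul_iff hw]; exact id)]
  by_cases hrp : r = p
  · subst hrp
    refine iff_of_false (fun H => ?_) (by simp [h3.ne'])
    obtain ⟨f, h4, h5, h6, h7⟩ := (orth_quad Q).exists_bad_even hn h3 (by omega)
    obtain ⟨U, ⟨e, he⟩, h8⟩ := H f h4 h5 h6
    have h9 := t₁.iso he
    rcases h7 U (he.nondeg hW) h8 h9.even with h10 | h10
    · exact absurd (h9.unique h10.1) one_ne_zero
    · exact absurd (h10.2.1.unique ((orth_quad Q).ty_perp hn (he.nondeg hW) h9 ht)) zero_ne_one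
  have h0 : 0 < i := hi ▸ ord_pos (cast_ne_zero_of_ne (F := F) hrp)
  obtain ⟨h4, h5, h6⟩ := (orth_quad Q).nd_crit (cast_ne_zero_of_ne hrp) h3 hi hn hV (Or.inr ht) hW hW'
    (Or.inr t₁) (Or.inr ((orth_quad Q).ty_perp hn hW t₁ ht)) hrΩ
  rw [h6]
  rw [mx_crit (cdim_pos h0) (by omega) (by omega) h4]
  obtain ⟨-, e2, e3, e4, e5, e6, e7, e8⟩ := mx_facts (cdim_pos h0) (even_cdim i)
    (show 2 * l ≤ 2 * d by omega)
  have e9 : (2 * l) / cdim i ≤ (2 * d) / cdim i := Nat.div_le_div_right (by omega)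
  clear h4 h5 h6 hrΩ
  rcases i.even_or_odd with h | h
  · simp only [cdim_even h, eta_even h, one_mul] at *
    simp only [hrp, h3, h3.ne', hc, h, Nat.not_odd_iff_even.2 h, if_true, Ne, not_false_iff, true_and,
      false_and, false_or, and_false]
    simp only [Nat.even_iff, Nat.odd_iff, e6]
    generalize (2 * d + 2 * l - 2 * ((2 * d) % i)) / i = w at *
    generalize (2 * d) / i = n₁, (2 * l) / i = m₁, (2 * d) % i = k, (2 * l) % i = k₁ at *
    clear e6
    omega
  · simp only [cdim_odd h, eta_odd h, zero_mul] at *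
    simp only [hrp, h3, h3.ne', hc, h, Nat.not_even_iff_odd.2 h, if_false, Ne, not_false_iff, true_and,
      false_and, false_or, and_false, or_false]
    simp only [e6]
    generalize (2 * d) / (2 * i) = n₁, (2 * l) / (2 * i) = m₁, (2 * d) % (2 * i) = k, (2 * l) % (2 * i) = k₁ at *
    clear e6 e8
    omega

end Cfsg.Agent.S5988
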