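import Cfsg.Statements.S5991
import Cfsg.Agent.Elu.OrthUnip

set_option autoImplicit false
open scoped MatrixGroups
open Cfsg

namespace Cfsg.Agent.S5991

/-- Elements of prime order of PΩ⁻_n(q), q odd, with no fixed nondegenerate `m`-space of odd dimension. Here `T = PΩ⁻_n(F)`, `n = 2d ≥ 8`, realised through `Ω⁻_n(q)`, the commutator subgroup of the isometry group of `Q = Σ_{i<d−1} xᵢyᵢ + z₁² + a z₁z₂ + b z₂²` with `z₁² + a z₁z₂ + b z₂²` anisotropic, over the field `F` with `q` elements; an element of `T` of prime order `r` is an element `x` of `Ω⁻_n(q)` with `x^r` scalar and `x` not scalar; `q` and `m` are odd, `1 ≤ m < n/2`. The nondegenerate `m`-spaces fall into two isometry classes, each an orbit of `T`, with equivalent actions; fix one such space `W₀` and let Ω be the set of nondegenerate `m`-spaces isometric to `W₀`. Let `r` be a prime dividing the size of Ω; for `r ≠ p` let `i` be the multiplicative order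 of `q` modulo `r`, `c = i` for `i` even and `c = 2i` for `i` odd, and write `k = n mod c`, `ℓ = m mod i`, `ℓ' = m mod c`, `n' = ⌊n/i⌋`, `m' = ⌊m/i⌋`, `t = (r−1)/i`. Then every element of `T` of order `r` fixes a member of Ω if and only if one of: (i) `r = 2` and (`n ≡ 0 (mod 4)` or `q ≢ 7 (mod 8)`); (ii) `r ≠ p` odd, `i` odd, and `k = 0` or (`c ≤ m` and `k > ℓ' > 0`); (iii) `r ≠ p` odd, `i` even, and either `k = 0` and `n/i` even, or `k > 0`, `i ≤ m` and `k > ℓ' > 0`. (For `r = p` there is always an element of order `p` fixing no member of Ω.) -/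
theorem result {F : Type*} [Field F] [Fintype F] {p : ℕ} [Fact p.Prime] [CharP F p] {q : ℕ} (hq : Fintype.card F = q)
    (hodd : Odd q) (d m : ℕ) (hd : 4 ≤ d) (hm : Odd m) (hmd : m < d) (a b : F) (hab : ∀ x y : F, x ^ 2 + a * x * y + b * y ^ 2 = 0 → x = 0 ∧ y = 0)
    (W₀ : Submodule F ((Fin (d - 1) ⊕ Fin (d - 1)) ⊕ Fin 2 → F)) (hW₀ : Module.finrank F ↥W₀ = m ∧ Cfsg.Geo.IsNondegenerateOn (QuadraticMap.polar (Cfsg.quadFormMinus (d - 1) F a b)) W₀)
    (r : ℕ) [Fact r.Prime]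
    (hrΩ : r ∣ Nat.card {W : Submodule F ((Fin (d - 1) ⊕ Fin (d - 1)) ⊕ Fin 2 → F) // Module.finrank F ↥W = m ∧ Cfsg.Geo.IsNondegenerateOn (QuadraticMap.polar (Cfsg.quadFormMinus (d - 1) F a b)) W ∧ Cfsg.Geo.AreIsometricFor (Cfsg.quadFormMinus (d - 1) F a b) W W₀})
    (i c : ℕ) (hi : i = orderOf (q : ZMod r)) (hc : c = if Even i then i else 2 * i) :
    (∀ x : GL ((Fin (d - 1) ⊕ Fin (d - 1)) ⊕ Fin 2) F, x ∈ Cfsg.Geo.omegaGL (Cfsg.quadFormMinus (d - 1) F a b) →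
      (∃ z : F, ((x ^ r : GL ((Fin (d - 1) ⊕ Fin (d - 1)) ⊕ Fin 2) F) : Matrix ((Fin (d - 1) ⊕ Fin (d - 1)) ⊕ Fin 2) ((Fin (d - 1) ⊕ Fin (d - 1)) ⊕ Fin 2) F) = z • (1 : Matrix ((Fin (d - 1) ⊕ Fin (d - 1)) ⊕ Fin 2) ((Fin (d - 1) ⊕ Fin (d - 1)) ⊕ Fin 2) F)) →
      (∀ z : F, (x : Matrix ((Fin (d - 1) ⊕ Fin (d - 1)) ⊕ Fin 2) ((Fin (d - 1) ⊕ Fin (d - 1)) ⊕ Fin 2) F) ≠ z • (1 : Matrix ((Fin (d - 1) ⊕ Fin (d - 1)) ⊕ Fin 2) ((Fin (d - 1) ⊕ Fin (d - 1)) ⊕ Fin 2) F)) →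
      ∃ W : Submodule F ((Fin (d - 1) ⊕ Fin (d - 1)) ⊕ Fin 2 → F), (Module.finrank F ↥W = m ∧ Cfsg.Geo.IsNondegenerateOn (QuadraticMap.polar (Cfsg.quadFormMinus (d - 1) F a b)) W ∧ Cfsg.Geo.AreIsometricFor (Cfsg.quadFormMinus (d - 1) F a b) W W₀) ∧ W.map (Matrix.toLin' (x : Matrix ((Fin (d - 1) ⊕ Fin (d - 1)) ⊕ Fin 2) ((Fin (d - 1) ⊕ Fin (d - 1)) ⊕ Fin 2) F)) ≤ W) ↔
    ((r = 2 ∧ (Even d ∨ q % 8 ≠ 7)) ∨
     (r ≠ p ∧ 2 < r ∧ Odd i ∧ ((2 * d) % c = 0 ∨ (c ≤ m ∧ 0 < m % c ∧ m % c < (2 * d) % c))) ∨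
     (r ≠ p ∧ 2 < r ∧ Even i ∧ (((2 * d) % c = 0 ∧ Even ((2 * d) / i)) ∨ (0 < (2 * d) % c ∧ i ≤ m ∧ 0 < m % c ∧ m % c < (2 * d) % c)))) := by
-----
  open Module Cfsg.Agent.Elu Cfsg.Agent.Geom in
  subst hq
  have hV : finrank F ((Fin (d - 1) ⊕ Fin (d - 1)) ⊕ Fin 2 → F) = 2 * d := by simp; omega
  have hn := quadMinus_nondeg F (d - 1) (disc_ne_zero_of_anisotropic hab)
  have ht : Ty (Formed.ofQuad (quadMinus F (d - 1) a b)) 1 :=
    ⟨d - 1, quadMinus_wittIndex F _ hab, by omega⟩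
  rw [← coe_quadMinus] at *
  generalize quadMinus F (d - 1) a b = Q at *
  obtain ⟨hW', hW⟩ := hW₀
  rw [nd_on] at hW
  simp only [iso_class hW hW'] at hrΩ ⊢
  have t₁ : Tp ((Formed.ofQuad Q).restrict W₀) 0 := Or.inl (hW' ▸ hm)
  have t₂ : Tp ((Formed.ofQuad Q).restrict ((Formed.ofQuad Q).perp W₀)) 0 := Or.inl (by
    have := hn.finrank_add_finrank_perp W₀
    rw [Nat.odd_iff] at hm ⊢; omega)
  have h2 := two_ne_zero_of_odd_card hodd
  have hp : p ≠ 2 := by rintro rfl; exact h2 CharTwo.two_eq_zero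
  rw [Nat.odd_iff] at hm
  rw [omega_forall_iff (fun f => ∃ W, (∃ e, ((Formed.ofQuad Q).restrict W₀).IsIso
    ((Formed.ofQuad Q).restrict W) e) ∧ W.map f ≤ W)]
  simp only [inv_iff_map]
  rw [← Nat.card_eq_fintype_card] at hi ⊢
  rcases (Fact.out : r.Prime).eq_two_or_odd' with rfl | hr'
  · simp only [and_comm (b := Inv _ _)]
    rw [two_nd hn h2 hV (by omega) ht hW (by omega) t₁ t₂, hW']
    simp only [hp, mx, Nat.even_iff, Nat.odd_iff, Ne, not_false_iff, true_and, false_and, false_or,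
      and_false, or_false, lt_irrefl]
    rcases card_mod_four h2 with h | h <;> simp only [h, Nat.reduceDiv, one_mul, zero_mul, true_and, or_true,
      true_or, and_true, iff_true, Nat.reduceMod, Nat.reduceAdd, Nat.reduceEqDiff, not_true, not_false_iff,
      and_false, false_and, false_or, or_false, false_imp_iff, true_imp_iff, true_iff, if_false, zero_add] <;>
      (try split_ifs) <;> omega
  have h3 : 2 < r := (Fact.out : r.Prime).two_le.lt_of_ne (by rintro rfl; exact absurd hr' (by decide))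
  rw [om_odd hn (notExc_of_finrank (by omega)) (by omega) hr'
    (fun w f hw => by simp only [inv_smul_iff hw]; exact id)]
  by_cases hrp : r = p
  · subst hrp
    refine iff_of_false (fun H => ?_) (by simp [h3.ne'])
    obtain ⟨f, h4, h5, h6, h7⟩ := (orth_quad Q).bad_odd hn h3 (by omega) (by simp [hV]) hW
      (by rw [Nat.odd_iff]; omega)
    exact h7 ((H f h4 h5 h6).imp fun _ => And.symm)
  have h0 : 0 < i := hi ▸ ord_pos (cast_ne_zero_of_ne (F := F) hrp)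
  obtain ⟨h4, h5, h6⟩ := (orth_quad Q).nd_crit (cast_ne_zero_of_ne hrp) h3 hi hn hV (Or.inr ht) hW hW'
    t₁ t₂ hrΩ
  rw [h6]
  rw [mx_crit (cdim_pos h0) (by omega) (by omega) h4]
  obtain ⟨-, e2, e3, e4, e5, e6, e7, e8⟩ := mx_facts (cdim_pos h0) (even_cdim i)
    (show m ≤ 2 * d by omega)
  have e9 : (m) / cdim i ≤ (2 * d) / cdim i := Nat.div_le_div_right (by omega)
  clear h4 h5 h6 hrΩ
  rcases i.even_or_odd with h | h
  · simp only [cdim_even h, eta_even h, one_mul] at *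
    simp only [hrp, h3, h3.ne', hc, h, Nat.not_odd_iff_even.2 h, if_true, Ne, not_false_iff, true_and,
      false_and, false_or, and_false]
    simp only [Nat.even_iff, Nat.odd_iff, e6]
    generalize (2 * d + m - 2 * ((2 * d) % i)) / i = w at *
    generalize (2 * d) / i = n₁, (m) / i = m₁, (2 * d) % i = k, (m) % i = k₁ at *
    clear e6
    omega
  · simp only [cdim_odd h, eta_odd h, zero_mul] at *
    simp only [hrp, h3, h3.ne', hc, h, Nat.not_even_iff_odd.2 h, if_false, Ne, not_false_iff, true_and,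
      false_and, false_or, and_false, or_false]
    simp only [e6]
    generalize (2 * d) / (2 * i) = n₁, (m) / (2 * i) = m₁, (2 * d) % (2 * i) = k, (m) % (2 * i) = k₁ at *
    clear e6 e8
    omega

end Cfsg.Agent.S5991
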