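import Cfsg.Statements.S5993
import Cfsg.Agent.Elu.OrthUnip

set_option autoImplicit false
open scoped MatrixGroups
open Cfsg

namespace Cfsg.Agent.S5993

/-- Elements of prime order of Ω_n(q), nq odd, with no fixed elliptic `m`-space. Here `T = Ω_n(F)`, `n = 2d+1 ≥ 7`, `q` odd, realised as the commutator subgroup of the isometry group of `Q = x₀² + Σ xᵢyᵢ` over the field `F` with `q` elements (trivial centre, so its elements of prime order `r` are used directly); a nondegenerate `m`-space (even `m`) is a subspace on which the polar form of `Q` is nondegenerate; it is hyperbolic if it contains an `m/2`-dimensional subspace on which `Q` vanishes, elliptic otherwise. Let `m` be even with `2 ≤ m ≤ n − 1` (no restriction `m < n/2`) and let `r` be a prime dividing the number of elliptic `m`-spaces; for `r ≠ p` let `i` be the multiplicative order of `q` modulo `r`, `c = i` for `i` even and `c = 2i` for `i` odd, and write `k = n mod c`, `ℓ' = m mod c`. Then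 every element of `T` of order `r` fixes some elliptic `m`-space if and only if `r = 2`, or `r ≠ p` is odd and one of: (i) `i` odd, `c ≤ m` and `k > ℓ' > 0`; (ii) `i` even, `i ≤ m`, `k > ℓ'`, and `m/i` odd whenever `ℓ' = 0`. (For `r = p` there is always an element of order `p` fixing no elliptic `m`-space.) -/
theorem result {F : Type*} [Field F] [Fintype F] {p : ℕ} [Fact p.Prime] [CharP F p] {q : ℕ} (hq : Fintype.card F = q) (hqodd : Odd q)
    (d m : ℕ) (hd : 3 ≤ d) (hm : 2 ≤ m) (hme : Even m) (hmn : m ≤ 2 * d)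
    (r : ℕ) [Fact r.Prime]
    (hrΩ : r ∣ Nat.card {W : Submodule F (Unit ⊕ (Fin d ⊕ Fin d) → F) // Module.finrank F ↥W = m ∧ Cfsg.Geo.IsNondegenerateOn (QuadraticMap.polar (Cfsg.quadFormOdd d F)) W ∧ ¬ Cfsg.Geo.IsPlusTypeOn (Cfsg.quadFormOdd d F) W})
    (i c : ℕ) (hi : i = orderOf (q : ZMod r)) (hc : c = if Even i then i else 2 * i) :
    (∀ x : GL (Unit ⊕ (Fin d ⊕ Fin d)) F, x ∈ Cfsg.Geo.omegaGL (Cfsg.quadFormOdd d F) → orderOf x = r →
      ∃ W : Submodule F (Unit ⊕ (Fin d ⊕ Fin d) → F), (Module.finrank F ↥W = m ∧ Cfsg.Geo.IsNondegenerateOn (QuadraticMap.polar (Cfsg.quadFormOdd d F)) W ∧ ¬ Cfsg.Geo.IsPlusTypeOn (Cfsg.quadFormOdd d F) W) ∧ W.map (Matrix.toLin' (x : Matrix (Unit ⊕ (Fin d ⊕ Fin d)) (Unit ⊕ (Fin d ⊕ Fin d)) F)) ≤ W) ↔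
    (r = 2 ∨
     (r ≠ p ∧ 2 < r ∧ Odd i ∧ c ≤ m ∧ 0 < m % c ∧ m % c < (2 * d + 1) % c) ∨
     (r ≠ p ∧ 2 < r ∧ Even i ∧ i ≤ m ∧ m % c < (2 * d + 1) % c ∧ (0 < m % c ∨ Odd (m / i)))) := by
-----
  open Module Cfsg.Agent.Elu Cfsg.Agent.Geom in
  subst hq
  have h2 := two_ne_zero_of_odd_card hqodd
  have hV : finrank F (Unit ⊕ (Fin d ⊕ Fin d) → F) = 2 * d + 1 := by simp; omega
  have hn := quadOdd_nondeg F d h2
  rw [← coe_quadOdd] at *
  generalize quadOdd F d = Q at *
  obtain ⟨l, rfl⟩ := hme.two_dvd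
  obtain ⟨W₀, hW, hW', t₁⟩ := (orth_quad Q).exists_ty_sub hn (l := l) (a := 1) (by omega) (by omega)
    (Or.inl (by omega))
  simp only [minus_class hW hW' t₁] at hrΩ ⊢
  rw [omega_forall_ord (fun f => ∃ W, (∃ e, ((Formed.ofQuad Q).restrict W₀).IsIso
    ((Formed.ofQuad Q).restrict W) e) ∧ W.map f ≤ W)]
  simp only [inv_iff_map]
  rw [← Nat.card_eq_fintype_card] at hi
  have ht : Tp (Formed.ofQuad Q) 0 := Or.inl ⟨d, hV⟩
  have t₂ : Tp ((Formed.ofQuad Q).restrict ((Formed.ofQuad Q).perp W₀)) 0 := Or.inl (by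
    have := hn.finrank_add_finrank_perp W₀
    rw [Nat.odd_iff]; omega)
  rcases (Fact.out : r.Prime).eq_two_or_odd' with rfl | hr'
  · refine iff_of_true (fun f h4 h5 h6 => ((orth_quad Q).nd_two hn h2 h4.iso h5 h6 ?_ hW (by omega)
      (by omega)).imp fun _ => And.symm) (Or.inl rfl)
    rintro rfl
    exact negOne_notMem_odd hn h2 ⟨d, hV⟩ (om_coe.1 (by convert h4 using 1; ext; simp))
  have h3 : 2 < r := (Fact.out : r.Prime).two_le.lt_of_ne (by rintro rfl; exact absurd hr' (by decide))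
  rw [om_odd' hn (notExc_of_two_ne_zero h2) hr']
  by_cases hrp : r = p
  · subst hrp
    refine iff_of_false (fun H => ?_) (by simp [h3.ne'])
    obtain ⟨f, h4, h5, h6, h7⟩ := (orth_quad Q).exists_bad_even hn h3 (by omega)
    obtain ⟨U, ⟨e, he⟩, h8⟩ := H f h4 h5 h6
    have h9 := t₁.iso he
    rcases h7 U (he.nondeg hW) h8 h9.even with h10 | h10
    · exact absurd (h9.unique h10.1) one_ne_zero
    · exact absurd h10.1 (by simp [hV])
  have h0 : 0 < i := hi ▸ ord_pos (cast_ne_zero_of_ne (F := F) hrp)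
  obtain ⟨h4, h5, h6⟩ := (orth_quad Q).nd_crit (cast_ne_zero_of_ne hrp) h3 hi hn hV ht hW hW'
    (Or.inr t₁) t₂ hrΩ
  rw [h6]
  rw [mx_crit (cdim_pos h0) (by omega) (by omega) h4]
  obtain ⟨-, e2, e3, e4, e5, e6, e7, e8⟩ := mx_facts (cdim_pos h0) (even_cdim i)
    (show 2 * l ≤ 2 * d + 1 by omega)
  have e9 : (2 * l) / cdim i ≤ (2 * d + 1) / cdim i := Nat.div_le_div_right (by omega)
  clear h4 h5 h6 hrΩ
  rcases i.even_or_odd with h | h
  · simp only [cdim_even h, eta_even h, one_mul] at *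
    simp only [hrp, h3, h3.ne', hc, h, Nat.not_odd_iff_even.2 h, if_true, Ne, not_false_iff, true_and,
      false_and, false_or, and_false]
    simp only [Nat.even_iff, Nat.odd_iff, e6]
    generalize (2 * d + 1 + 2 * l - 2 * ((2 * d + 1) % i)) / i = w at *
    generalize (2 * d + 1) / i = n₁, (2 * l) / i = m₁, (2 * d + 1) % i = k, (2 * l) % i = k₁ at *
    clear e6
    omega
  · simp only [cdim_odd h, eta_odd h, zero_mul] at *
    simp only [hrp, h3, h3.ne', hc, h, Nat.not_even_iff_odd.2 h, if_false, Ne, not_false_iff, true_and,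
      false_and, false_or, and_false, or_false]
    simp only [e6]
    generalize (2 * d + 1) / (2 * i) = n₁, (2 * l) / (2 * i) = m₁, (2 * d + 1) % (2 * i) = k, (2 * l) % (2 * i) = k₁ at *
    clear e6 e8
    omega

end Cfsg.Agent.S5993
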