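import Cfsg.Statements.S5994
import Cfsg.Agent.Elu.OrthUnip

set_option autoImplicit false
open scoped MatrixGroups
open Cfsg

namespace Cfsg.Agent.S5994

/-- A necessary condition for every element of order p of PΩ⁻_n(q), q odd, to fix an elliptic `m`-space. Here `T = PΩ⁻_n(F)`, `n = 2d ≥ 8`, realised through `Ω⁻_n(q)`, the commutator subgroup of the isometry group of `Q = Σ_{i<d−1} xᵢyᵢ + z₁² + a z₁z₂ + b z₂²` with `z₁² + a z₁z₂ + b z₂²` anisotropic, over the field `F` with `q` elements; an element of `T` of prime order `r` is an element `x` of `Ω⁻_n(q)` with `x^r` scalar and `x` not scalar; `q` is odd; a nondegenerate `m`-space (even `m`) is a subspace on which the polar form of `Q` is nondegenerate; it is hyperbolic if it contains an `m/2`-dimensional subspace on which `Q` vanishes, elliptic otherwise. Let `m` be even with `2 ≤ m ≤ n − 2` and suppose `p` divides the number of elliptic `m`-spaces. If every element of `T` of order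 `p` fixes some elliptic `m`-space, then `n ≡ m (mod 4)` and every partition of `n` into parts of size at most `p` in which every even part has even multiplicity contains (as a sub-multiset) a partition of `m` in which every even part has even multiplicity. -/
theorem result {F : Type*} [Field F] [Fintype F] {p : ℕ} [Fact p.Prime] [CharP F p] {q : ℕ} (hq : Fintype.card F = q) (hqodd : Odd q)
    (d m : ℕ) (hd : 4 ≤ d) (hm : 2 ≤ m) (hme : Even m) (hmn : m + 2 ≤ 2 * d) (a b : F) (hab : ∀ x y : F, x ^ 2 + a * x * y + b * y ^ 2 = 0 → x = 0 ∧ y = 0)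
    (hpΩ : p ∣ Nat.card {W : Submodule F ((Fin (d - 1) ⊕ Fin (d - 1)) ⊕ Fin 2 → F) // Module.finrank F ↥W = m ∧ Cfsg.Geo.IsNondegenerateOn (QuadraticMap.polar (Cfsg.quadFormMinus (d - 1) F a b)) W ∧ ¬ Cfsg.Geo.IsPlusTypeOn (Cfsg.quadFormMinus (d - 1) F a b) W}) :
    (∀ x : GL ((Fin (d - 1) ⊕ Fin (d - 1)) ⊕ Fin 2) F, x ∈ Cfsg.Geo.omegaGL (Cfsg.quadFormMinus (d - 1) F a b) →
      (∃ z : F, ((x ^ p : GL ((Fin (d - 1) ⊕ Fin (d - 1)) ⊕ Fin 2) F) : Matrix ((Fin (d - 1) ⊕ Fin (d - 1)) ⊕ Fin 2) ((Fin (d - 1) ⊕ Fin (d - 1)) ⊕ Fin 2) F) = z • (1 : Matrix ((Fin (d - 1) ⊕ Fin (d - 1)) ⊕ Fin 2) ((Fin (d - 1) ⊕ Fin (d - 1)) ⊕ Fin 2) F)) →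
      (∀ z : F, (x : Matrix ((Fin (d - 1) ⊕ Fin (d - 1)) ⊕ Fin 2) ((Fin (d - 1) ⊕ Fin (d - 1)) ⊕ Fin 2) F) ≠ z • (1 : Matrix ((Fin (d - 1) ⊕ Fin (d - 1)) ⊕ Fin 2) ((Fin (d - 1) ⊕ Fin (d - 1)) ⊕ Fin 2) F)) →
      ∃ W : Submodule F ((Fin (d - 1) ⊕ Fin (d - 1)) ⊕ Fin 2 → F), (Module.finrank F ↥W = m ∧ Cfsg.Geo.IsNondegenerateOn (QuadraticMap.polar (Cfsg.quadFormMinus (d - 1) F a b)) W ∧ ¬ Cfsg.Geo.IsPlusTypeOn (Cfsg.quadFormMinus (d - 1) F a b) W) ∧ W.map (Matrix.toLin' (x : Matrix ((Fin (d - 1) ⊕ Fin (d - 1)) ⊕ Fin 2) ((Fin (d - 1) ⊕ Fin (d - 1)) ⊕ Fin 2) F)) ≤ W) →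
    ((2 * d) % 4 = m % 4 ∧ (∀ μ : Multiset ℕ, (∀ e ∈ μ, 0 < e ∧ e ≤ p) → (∀ e : ℕ, Even e → Even (μ.count e)) → μ.sum = 2 * d →
        ∃ ν : Multiset ℕ, ν ≤ μ ∧ ν.sum = m ∧ ∀ e : ℕ, Even e → Even (ν.count e))) := by
-----
  open Module Cfsg.Agent.Elu Cfsg.Agent.Geom in
  subst hq
  have hV : finrank F ((Fin (d - 1) ⊕ Fin (d - 1)) ⊕ Fin 2 → F) = 2 * d := by simp; omega
  have hn := quadMinus_nondeg F (d - 1) (disc_ne_zero_of_anisotropic hab)
  have ht : Ty (Formed.ofQuad (quadMinus F (d - 1) a b)) 1 :=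
    ⟨d - 1, quadMinus_wittIndex F _ hab, by omega⟩
  rw [← coe_quadMinus] at *
  generalize quadMinus F (d - 1) a b = Q at *
  have h2 := two_ne_zero_of_odd_card hqodd
  have h3 : 2 < p := (Fact.out : p.Prime).two_le.lt_of_ne (by rintro rfl; exact h2 CharTwo.two_eq_zero)
  have hr' : Odd p := (Fact.out : p.Prime).odd_of_ne_two h3.ne'
  obtain ⟨l, rfl⟩ := hme.two_dvd
  obtain ⟨W₀, hW, hW', t₁⟩ := (orth_quad Q).exists_ty_sub hn (l := l) (a := 1) (by omega) (by omega)
    (Or.inl (by omega))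
  simp only [minus_class hW hW' t₁] 
  rw [omega_forall_iff (fun f => ∃ W, (∃ e, ((Formed.ofQuad Q).restrict W₀).IsIso
    ((Formed.ofQuad Q).restrict W) e) ∧ W.map f ≤ W)]
  simp only [inv_iff_map]
  rw [om_odd hn (notExc_of_finrank (by omega)) (by omega) hr'
    (fun w f hw => by simp only [inv_smul_iff hw]; exact id)]
  intro H
  have H' : ∀ y, Iso (Formed.ofQuad Q) y → y ^ p = 1 → y ≠ 1 → ∃ W : Submodule F _, finrank F W = 2 * l ∧
      Nd (Formed.ofQuad Q) W ∧ Inv y W := fun y h4 h5 h6 => by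
    obtain ⟨U, ⟨e, he⟩, h8⟩ := H y h4 h5 h6
    exact ⟨U, e.finrank_eq ▸ hW', he.nondeg hW, h8⟩
  obtain ⟨f, h4, h5, h6, h7⟩ := (orth_quad Q).exists_bad_even hn h3 (by omega)
  obtain ⟨U, ⟨e, he⟩, h8⟩ := H f h4 h5 h6
  have h9 := t₁.iso he
  have h10 := h7 U (he.nondeg hW) h8 h9.even
  have h11 := hn.finrank_add_finrank_perp U
  have h12 : finrank F U = 2 * l := e.finrank_eq ▸ hW'
  have h13 : 2 * d % 4 = 2 * l % 4 := by
    rcases h10 with h10 | h10
    · exact absurd (h9.unique h10.1) one_ne_zero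
    · omega
  refine ⟨h13, fun μ a1 a2 a3 => ?_⟩
  by_cases ho : ∃ a ∈ μ, Odd a
  · exact (orth_quad Q).part_of hn h3 (by omega) H' a1 a2 (a3.trans hV.symm) (Or.inl ho)
  simp only [not_exists, not_and, Nat.not_odd_iff_even] at ho
  obtain ⟨x, hx⟩ := Multiset.exists_mem_of_ne_zero (s := μ) (by rintro rfl; simp at a3; omega)
  have b1 := a2 x (ho x hx)
  have b2 : Multiset.replicate 2 x ≤ μ := Multiset.le_count_iff_replicate_le.1 (by
    have := Multiset.count_pos.2 hx; rw [Nat.even_iff] at b1; omega)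
  obtain ⟨ρ, rfl⟩ := Multiset.le_iff_exists_add.1 b2
  have b3 := a1 x hx
  have b4 := Nat.even_iff.1 (ho x hx)
  have b5 := Nat.odd_iff.1 hr'
  have hρ : ∀ a ∈ ρ, Even a := fun a ha => ho a (Multiset.mem_add.2 (Or.inr ha))
  have o1 : Odd (x + 1) := by rw [Nat.odd_iff]; omega
  have o2 : Odd (x - 1) := by rw [Nat.odd_iff]; omega
  have c2 : ∀ (a) (s : Multiset ℕ), Even ((Multiset.replicate 2 x + s).count a) ↔ Even (s.count a) := by
    intro a s
    rw [Multiset.count_add, Multiset.count_replicate]; split_ifs <;> simp [Nat.even_add]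
  obtain ⟨ν, c3, c4, c5⟩ := (orth_quad Q).part_of hn h3 (by omega) H' (μ := {x + 1, x - 1} + ρ)
    (fun a ha => by
      simp only [Multiset.mem_add, Multiset.insert_eq_cons, Multiset.mem_cons,
        Multiset.mem_singleton] at ha
      rcases ha with (rfl | rfl) | ha
      · omega
      · omega
      · exact a1 a (Multiset.mem_add.2 (Or.inr ha)))
    (fun a ha => by
      rw [Multiset.count_add, Multiset.count_eq_zero_of_notMem, zero_add]
      · exact (c2 a ρ).1 (a2 a ha)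
      · rw [Nat.even_iff] at ha
        simp only [Multiset.insert_eq_cons, Multiset.mem_cons, Multiset.mem_singleton]; omega)
    (by simp at a3 ⊢; omega) (Or.inl ⟨x + 1, by simp, o1⟩)
  have d1 : ν.filter Odd ≤ {x + 1, x - 1} := by
    refine (Multiset.filter_le_filter _ c3).trans ?_
    rw [Multiset.filter_add, Multiset.filter_eq_nil.2 (fun a ha => Nat.not_odd_iff_even.2 (hρ a ha)),
      add_zero]
    exact Multiset.filter_le _ _
  have d2 : ν.filter (¬ Odd ·) ≤ ρ := by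
    refine (Multiset.filter_le_filter _ c3).trans ?_
    rw [Multiset.filter_add, Multiset.filter_eq_nil.2 (by simp [o1, o2]), zero_add]
    exact Multiset.filter_le _ _
  have d3 := congrArg Multiset.sum (Multiset.filter_add_not Odd ν)
  have d4 : ∀ a, Even a → Even ((ν.filter (¬ Odd ·)).count a) := fun a ha => by
    rw [Multiset.count_filter_of_pos (p := (¬ Odd ·)) (Nat.not_odd_iff_even.2 ha)]; exact c5 a ha
  have d5 := sum_mod_two ν
  have d6 := Multiset.card_le_card d1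
  rw [Multiset.countP_eq_card_filter] at d5
  rw [Multiset.sum_add] at d3
  simp only [Multiset.insert_eq_cons, Multiset.card_cons, Multiset.card_singleton] at d6
  by_cases d7 : (ν.filter Odd).card = 0
  · rw [Multiset.card_eq_zero.1 d7] at d3
    exact ⟨_, d2.trans (Multiset.le_add_left _ _), by simpa [c4] using d3, d4⟩
  · rw [Multiset.eq_of_le_of_card_le d1 (by simp; omega)] at d3
    refine ⟨Multiset.replicate 2 x + ν.filter (¬ Odd ·), by gcongr, ?_, fun a ha => (c2 a _).2 (d4 a ha)⟩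
    simp at d3 ⊢; omega

end Cfsg.Agent.S5994
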