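import Cfsg.Statements.S5995
import Cfsg.Agent.Elu.OrthUnip

set_option autoImplicit false
open scoped MatrixGroups
open Cfsg

namespace Cfsg.Agent.S5995

/-- A necessary condition for every element of order p of Ω_n(q), nq odd, to fix a hyperbolic `m`-space. Here `T = Ω_n(F)`, `n = 2d+1 ≥ 7`, `q` odd, realised as the commutator subgroup of the isometry group of `Q = x₀² + Σ xᵢyᵢ` over the field `F` with `q` elements (trivial centre, so its elements of prime order `r` are used directly); a nondegenerate `m`-space (even `m`) is a subspace on which the polar form of `Q` is nondegenerate; it is hyperbolic if it contains an `m/2`-dimensional subspace on which `Q` vanishes, elliptic otherwise. Let `m` be even with `2 ≤ m ≤ n − 1` and suppose `p` divides the number of hyperbolic `m`-spaces. If every element of `T` of order `p` fixes some hyperbolic `m`-space, then `m ≡ 0 (mod 4)` and every partition of `n` into parts of size at most `p` in which every even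 part has even multiplicity contains (as a sub-multiset) a partition of `m` in which every even part has even multiplicity. -/
theorem result {F : Type*} [Field F] [Fintype F] {p : ℕ} [Fact p.Prime] [CharP F p] {q : ℕ} (hq : Fintype.card F = q) (hqodd : Odd q)
    (d m : ℕ) (hd : 3 ≤ d) (hm : 2 ≤ m) (hme : Even m) (hmn : m ≤ 2 * d)
    (hpΩ : p ∣ Nat.card {W : Submodule F (Unit ⊕ (Fin d ⊕ Fin d) → F) // Module.finrank F ↥W = m ∧ Cfsg.Geo.IsNondegenerateOn (QuadraticMap.polar (Cfsg.quadFormOdd d F)) W ∧ Cfsg.Geo.IsPlusTypeOn (Cfsg.quadFormOdd d F) W}) :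
    (∀ x : GL (Unit ⊕ (Fin d ⊕ Fin d)) F, x ∈ Cfsg.Geo.omegaGL (Cfsg.quadFormOdd d F) → orderOf x = p →
      ∃ W : Submodule F (Unit ⊕ (Fin d ⊕ Fin d) → F), (Module.finrank F ↥W = m ∧ Cfsg.Geo.IsNondegenerateOn (QuadraticMap.polar (Cfsg.quadFormOdd d F)) W ∧ Cfsg.Geo.IsPlusTypeOn (Cfsg.quadFormOdd d F) W) ∧ W.map (Matrix.toLin' (x : Matrix (Unit ⊕ (Fin d ⊕ Fin d)) (Unit ⊕ (Fin d ⊕ Fin d)) F)) ≤ W) →
    (m % 4 = 0 ∧ (∀ μ : Multiset ℕ, (∀ e ∈ μ, 0 < e ∧ e ≤ p) → (∀ e : ℕ, Even e → Even (μ.count e)) → μ.sum = 2 * d + 1 →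
        ∃ ν : Multiset ℕ, ν ≤ μ ∧ ν.sum = m ∧ ∀ e : ℕ, Even e → Even (ν.count e))) := by
-----
  open Module Cfsg.Agent.Elu Cfsg.Agent.Geom in
  subst hq
  have h2 := two_ne_zero_of_odd_card hqodd
  have hV : finrank F (Unit ⊕ (Fin d ⊕ Fin d) → F) = 2 * d + 1 := by simp; omega
  have hn := quadOdd_nondeg F d h2
  rw [← coe_quadOdd] at *
  generalize quadOdd F d = Q at *
  have h3 : 2 < p := (Fact.out : p.Prime).two_le.lt_of_ne (by rintro rfl; exact h2 CharTwo.two_eq_zero)
  have hr' : Odd p := (Fact.out : p.Prime).odd_of_ne_two h3.ne'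
  obtain ⟨l, rfl⟩ := hme.two_dvd
  obtain ⟨W₀, hW, hW', t₁⟩ := (orth_quad Q).exists_ty_sub hn (l := l) (a := 0) (by omega) (by omega)
    (Or.inl (by omega))
  simp only [plus_class hW hW' t₁] 
  rw [omega_forall_ord (fun f => ∃ W, (∃ e, ((Formed.ofQuad Q).restrict W₀).IsIso
    ((Formed.ofQuad Q).restrict W) e) ∧ W.map f ≤ W)]
  simp only [inv_iff_map]
  rw [om_odd' hn (notExc_of_two_ne_zero h2) hr']
  intro H
  have H' : ∀ y, Iso (Formed.ofQuad Q) y → y ^ p = 1 → y ≠ 1 → ∃ W : Submodule F _, finrank F W = 2 * l ∧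
      Nd (Formed.ofQuad Q) W ∧ Inv y W := fun y h4 h5 h6 => by
    obtain ⟨U, ⟨e, he⟩, h8⟩ := H y h4 h5 h6
    exact ⟨U, e.finrank_eq ▸ hW', he.nondeg hW, h8⟩
  obtain ⟨f, h4, h5, h6, h7⟩ := (orth_quad Q).exists_bad_even hn h3 (by omega)
  obtain ⟨U, ⟨e, he⟩, h8⟩ := H f h4 h5 h6
  have h9 := t₁.iso he
  have h10 := h7 U (he.nondeg hW) h8 h9.even
  have h11 := hn.finrank_add_finrank_perp U
  have h12 : finrank F U = 2 * l := e.finrank_eq ▸ hW'
  refine ⟨?_, fun μ a1 a2 a3 => (orth_quad Q).part_of hn h3 (by omega) H' a1 a2 (a3.trans hV.symm)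
    (Or.inl ?_)⟩
  · rcases h10 with h10 | h10
    · omega
    · exact absurd h10.1 (by simp [hV])
  · have := sum_mod_two μ
    exact Multiset.countP_pos.1 (by omega)

end Cfsg.Agent.S5995
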