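import Cfsg.Statements.S5998
import Cfsg.Agent.Elu.XsThree

set_option autoImplicit false
open scoped MatrixGroups
open Cfsg

namespace Cfsg.Agent.S5998

/-- Elements of prime order of PSL_3(p), p ≡ 1 (mod 3), and the normalizer of an extraspecial subgroup of order 27. Here `T = PSL_3(F)` for the field `F` with `p` elements, `p` a prime with `p ≡ 1 (mod 3)`; `R` is a non-abelian subgroup of GL_3(F) of order 27 and exponent 3 (an extraspecial group 3^{1+2}, acting absolutely irreducibly), and `H` is the subgroup of matrices of determinant 1 normalizing `R` — a subgroup of type 3^{1+2}.Sp₂(3) (maximality is not assumed). Ω is the set of cosets of `H` in `T`, so an element of `T` of prime order `r` (a matrix `x` of determinant 1 with `x^r` scalar, `x` not scalar) fixes a point of Ω exactly when some conjugate of `x` by a matrix of determinant 1 normalizes `R`. Let `r` be a prime dividing the index of `H`. Then every element of `T` of order `r` fixes a point of Ω if and only if `r = 2`, or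 `r = 3` and `p ≡ 1 (mod 9)`. -/
theorem result {F : Type*} [Field F] [Fintype F] {p : ℕ} [Fact p.Prime] [CharP F p] (hF : Fintype.card F = p) (hp3 : p % 3 = 1)
    (R : Subgroup (GL (Fin 3) F)) (hR : Nat.card R = 27) (hRe : Monoid.exponent R = 3) (hRna : ¬ IsMulCommutative R)
    (r : ℕ) [Fact r.Prime]
    (hΩ : r ∣ (Cfsg.Geo.subgroupNormalizer R).relIndex (Cfsg.Geo.specialLinear (Fin 3) F)) :
    (∀ x ∈ Cfsg.Geo.specialLinear (Fin 3) F, (∃ z : F, ((x ^ r : GL (Fin 3) F) : Matrix (Fin 3) (Fin 3) F) = z • (1 : Matrix (Fin 3) (Fin 3) F)) →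
      (∀ z : F, (x : Matrix (Fin 3) (Fin 3) F) ≠ z • (1 : Matrix (Fin 3) (Fin 3) F)) →
      ∃ g ∈ Cfsg.Geo.specialLinear (Fin 3) F, g⁻¹ * x * g ∈ Cfsg.Geo.subgroupNormalizer R) ↔ (r = 2 ∨ (r = 3 ∧ p % 9 = 1)) := by
  open Module Cfsg.Agent.Elu Cfsg.Agent.Classical in
  have := Fact.mk Nat.prime_three
  have hq := Nat.card_eq_fintype_card.trans hF
  have h2 : (2 : F) ≠ 0 := cast_two_ne (p := p) (by omega)
  have h3 : ((3 : ℕ) : F) ≠ 0 := cast_ne_zero_of_ne (p := p) (by omega)
  obtain ⟨x, y, z, w, H⟩ := exists_x3 (R := tl R) (by simp) h3 (hq ▸ (ord_three hp3).1 rfl)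
    (card_tl.trans hR) (fun x => by
      rw [← (tlE R).apply_symm_apply x, ← map_pow,
        Monoid.exponent_dvd_iff_forall_pow_eq_one.1 hRe.dvd, map_one])
    fun h => hRna ⟨⟨fun a b => (tlE R).injective (by rw [map_mul, map_mul, h])⟩⟩
  have key := xs_sl3 H h2 (r := r) (by simpa only [inG_sl] using exists_ord hΩ)
  rw [← inG_nm] at key
  refine ⟨fun h => (key.1 (special_imp h)).imp_right fun h => ⟨h, ?_⟩, fun H =>
    (special_iff ?_).2 (key.2 (H.imp_right And.left))⟩
  · subst h
    have b1 := dvd_of_relIndex' hΩ R.subtype Subtype.val_injective fun k =>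
      ⟨Subgroup.le_normalizer k.2, inG_toLin'.1 (by rw [inG_sl]; exact H.det _ ⟨k, k.2, rfl⟩)⟩
    rw [show Geo.specialLinear (Fin 3) F = _ from range_toGL.symm, ← Nat.card_congr (MonoidHom.ofInjective
      Matrix.SpecialLinearGroup.toGL_injective).toEquiv, card_sl (m := 2) (by simp), hR, hq,
      ← ZMod.natCast_eq_zero_iff] at b1
    have b4 : ∀ x : ZMod 81, x * (x ^ 2 - 1) * (x ^ 2 * (x ^ 3 - 1)) = 0 → x.val % 3 = 1 →
      x.val % 9 = 1 := by decide +kernel
    have b5 : ∀ j, 1 ≤ p ^ j := fun j => Nat.one_le_pow _ _ (by omega)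
    have := b4 p (by simpa [Finset.prod_range_succ, Nat.cast_sub (b5 _)] using b1)
      (by rw [ZMod.val_natCast]; omega)
    rw [ZMod.val_natCast] at this
    omega
  rcases H with rfl | ⟨rfl, -⟩
  exacts [Or.inr rfl, Or.inl h3]

end Cfsg.Agent.S5998
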