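import Cfsg.Statements.S5999
import Cfsg.Agent.Elu.XsThree

set_option autoImplicit false
open scoped MatrixGroups
open Cfsg

namespace Cfsg.Agent.S5999

/-- Elements of prime order of PSU_3(p), p ≡ 2 (mod 3), and the normalizer of an extraspecial subgroup of order 27. Here `T = PSU_3(p)` for a prime `p ≥ 5` with `p ≡ 2 (mod 3)`, realised through `SU_3(p)`, the matrices of determinant 1 over the field `F` with `p²` elements preserving the hermitian form `Σ uᵢvᵢ^p`; `R` is a non-abelian subgroup of order 27 and exponent 3 of the full unitary group of that form (an extraspecial group 3^{1+2}, acting absolutely irreducibly), and `H` is the subgroup of `SU_3(p)` normalizing `R` — a subgroup of type 3^{1+2}.Sp₂(3) (maximality is not assumed). Ω is the set of cosets of `H`, so an element of `T` of prime order `r` (`x ∈ SU_3(p)` with `x^r` scalar, `x` not scalar) fixes a point of Ω exactly when some `SU_3(p)`-conjugate of `x` normalizes `R`. Let `r` be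 a prime dividing the index of `H`. Then every element of `T` of order `r` fixes a point of Ω if and only if `r = 2`, or `r = 3` and `p ≡ 8 (mod 9)`. -/
theorem result {F : Type*} [Field F] [Fintype F] {p : ℕ} [Fact p.Prime] [CharP F p] (hF : Fintype.card F = p ^ 2) (hp : 5 ≤ p) (hp3 : p % 3 = 2)
    (R : Subgroup (GL (Fin 3) F)) (hRU : R ≤ Cfsg.GU 3 F p) (hR : Nat.card R = 27) (hRe : Monoid.exponent R = 3) (hRna : ¬ IsMulCommutative R)
    (r : ℕ) [Fact r.Prime]
    (hΩ : r ∣ (Cfsg.Geo.subgroupNormalizer R).relIndex (Cfsg.GU 3 F p ⊓ Cfsg.Geo.specialLinear (Fin 3) F)) :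
    (∀ x ∈ Cfsg.GU 3 F p ⊓ Cfsg.Geo.specialLinear (Fin 3) F, (∃ z : F, ((x ^ r : GL (Fin 3) F) : Matrix (Fin 3) (Fin 3) F) = z • (1 : Matrix (Fin 3) (Fin 3) F)) →
      (∀ z : F, (x : Matrix (Fin 3) (Fin 3) F) ≠ z • (1 : Matrix (Fin 3) (Fin 3) F)) →
      ∃ g ∈ Cfsg.GU 3 F p ⊓ Cfsg.Geo.specialLinear (Fin 3) F, g⁻¹ * x * g ∈ Cfsg.Geo.subgroupNormalizer R) ↔ (r = 2 ∨ (r = 3 ∧ p % 9 = 8)) := by
  open Module Cfsg.Agent.Elu Cfsg.Agent.Geom in
  have := Fact.mk Nat.prime_three
  have h2 : (2 : F) ≠ 0 := cast_two_ne (p := p) (by omega)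
  have h3 : ((3 : ℕ) : F) ≠ 0 := cast_ne_zero_of_ne (p := p) (by omega)
  obtain ⟨x, y, z, w, H⟩ := exists_x3 (R := tl R) (by simp) h3 ((ord_three rfl).1 (by
      rw [card_herm hF, Nat.pow_mod, hp3]))
    (card_tl.trans hR) (fun x => by
      rw [← (tlE R).apply_symm_apply x, ← map_pow,
        Monoid.exponent_dvd_iff_forall_pow_eq_one.1 hRe.dvd, map_one])
    fun h => hRna ⟨⟨fun a b => (tlE R).injective (by rw [map_mul, map_mul, h])⟩⟩
  rw [grp_iff, inG_nm, inG_su (hF := hF), xs_su3 hF hp3 H h2 (by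
    rintro _ ⟨x, hx, rfl⟩
    exact (spu_herm rfl).iso.2 fun u v => hRU hx v u)
    (by simpa only [inG_su (hF := hF)] using exists_ord hΩ)]
  refine or_congr_right ⟨fun h => ⟨h, ?_⟩, And.left⟩
  subst h
  have b1 := mul_dvd_mul_left (p + 1) (dvd_of_relIndex' hΩ R.subtype Subtype.val_injective fun k =>
    ⟨Subgroup.le_normalizer k.2, hRU k.2, inG_toLin'.1 (by rw [inG_sl]; exact H.det _ ⟨k, k.2, rfl⟩)⟩)
  rw [(Asch.card_su hF (by norm_num)).trans (show _ = (p + 1) * (p ^ 3 * ((p ^ 2 - 1) * (p ^ 3 + 1))) by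
    simp [Finset.prod_range_succ, (by decide : Even 2)]; ring), hR, Nat.mul_dvd_mul_iff_left p.succ_pos,
    ← ZMod.natCast_eq_zero_iff] at b1
  have b4 : ∀ x : ZMod 81, x ^ 3 * ((x ^ 2 - 1) * (x ^ 3 + 1)) = 0 → x.val % 3 = 2 →
    x.val % 9 = 8 := by decide +kernel
  have b5 : ∀ j, 1 ≤ p ^ j := fun j => Nat.one_le_pow _ _ (by omega)
  have := b4 p (by simpa [Nat.cast_sub (b5 _)] using b1) (by rw [ZMod.val_natCast]; omega)
  rw [ZMod.val_natCast] at this
  omega

end Cfsg.Agent.S5999
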